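import Cfsg.Statements.S2653
import Mathlib
import Cfsg.Agent.H67.FeitTits
import Cfsg.Agent.H67.AltRep

set_option autoImplicit false
open scoped MatrixGroups
open Cfsg

namespace Cfsg.Agent.S2653

open Module Subgroup H67

universe u

theorem le_index {r : ℕ} (hr : 9 ≤ r) {M : Subgroup (alternatingGroup (Fin r))} (h : M ≠ ⊤) :
    r ≤ M.index := by
  classical
  haveI := alternatingGroup.isSimpleGroup (α := Fin r) (by simp; omega)
  haveI : Nontrivial (Fin r) := Fin.nontrivial_iff_two_le.2 (by omega)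
  have h1 := Nat.card_le_card_of_injective _ ((MonoidHom.ker_eq_bot_iff _).1 (M.normalCore_eq_ker ▸
    (M.normalCore_normal.eq_bot_or_eq_top.resolve_right fun h1 => h (top_le_iff.1
      (h1 ▸ M.normalCore_le)))))
  have h2 := two_mul_nat_card_alternatingGroup (α := Fin r)
  rw [Nat.card_perm] at h1 h2
  obtain ⟨r, rfl⟩ : ∃ k, r = k + 1 := ⟨r - 1, by omega⟩
  by_contra h3
  have h4 := Nat.factorial_le (show Nat.card (_ ⧸ M) ≤ r from Nat.le_of_lt_succ (not_le.1 h3))
  rw [Nat.card_fin, Nat.factorial_succ] at h2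
  nlinarith [r.factorial_pos]

theorem sq_le (j : ℕ) : (j + 8) ^ 2 ≤ 2 ^ (j + 7) := by
  induction j with
  | zero => norm_num
  | succ j ih => 
    have : (j + 1 + 8) ^ 2 ≤ (j + 8) ^ 2 * 2 := by ring_nf; omega
    rw [add_right_comm j 1 7, pow_succ 2]
    omega

theorem main {r : ℕ} (hr : 9 ≤ r) (m : ℕ) : ∀ {H : Type u} [Group H] [Finite H]
    (φ : H →* alternatingGroup (Fin r)), Nat.card H = m → (∀ L : Subgroup H, L.map φ = ⊤ ↔ L = ⊤) →
    ∀ (K : Type) [Field K] [IsAlgClosed K] (d : ℕ) {V : Type} [AddCommGroup V] [Module K V]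
      [FiniteDimensional K V] (ρ : H →* End K V), finrank K V = d → (∃ g, ρ g ≠ 1) →
      r ≤ d + 2 ∧ (r = d + 2 → (r : K) = 0) := by
  induction m using Nat.strong_induction_on with | _ m ih => ?_
  intro H _ _ φ hm hφ
  haveI := alternatingGroup.isSimpleGroup (α := Fin r) (by simp; omega)
  have hs : Function.Surjective φ :=
    MonoidHom.range_eq_top.1 (φ.range_eq_map.trans ((hφ ⊤).2 rfl))
  haveI : Group.IsPerfect H := ⟨(hφ _).1 (by
    rw [map_commutator_eq, φ.range_eq_top_of_surjective hs]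
    exact commutator_alternatingGroup_eq_top (by simp; omega))⟩
  have key : ∀ (K : Type) [Field K] [IsAlgClosed K] {V : Type} [AddCommGroup V] [Module K V]
      [FiniteDimensional K V] (ρ : H →* End K V), (∃ g, ρ g ≠ 1) → ρ.ker ≠ ⊥ →
      r ≤ finrank K V + 2 ∧ (r = finrank K V + 2 → (r : K) = 0) := fun K _ _ V _ _ _ ρ ⟨g, hg⟩ h1 => by
    have h2 : ρ.ker ≤ φ.ker := (Subgroup.map_eq_bot_iff _).1 ((ρ.normal_ker.map φ hs).eq_bot_or_eq_top.resolve_right
      fun h2 => hg (((hφ _).1 h2).ge trivial))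
    refine ih _ ?_ (QuotientGroup.lift _ φ h2) rfl (fun L => ⟨fun h3 => ?_, fun h3 => ?_⟩) K _
      (QuotientGroup.lift _ ρ le_rfl) rfl ⟨g, hg⟩
    · rw [← hm, card_eq_card_quotient_mul_card_subgroup ρ.ker]
      exact lt_mul_of_one_lt_right Nat.card_pos ((one_lt_card_iff_ne_bot _).2 h1)
    · rw [← map_comap_eq_self_of_surjective (QuotientGroup.mk'_surjective _) L, map_map] at h3
      rw [← map_comap_eq_self_of_surjective (QuotientGroup.mk'_surjective _) L, (hφ _).1 h3,
        map_top_of_surjective _ (QuotientGroup.mk'_surjective _)]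
    · rw [h3, map_top_of_surjective _ (QuotientGroup.lift_surjective_of_surjective _ _ hs _)]
  intro K _ _ d
  induction d using Nat.strong_induction_on with | _ d ih' => ?_
  intro V _ _ _ ρ hd hρ
  subst hd
  by_cases h1 : ρ.ker = ⊥
  swap
  · exact key K ρ hρ h1
  rw [MonoidHom.ker_eq_bot_iff] at h1
  by_cases h2 : Irr ρ
  swap
  · simp only [Irr, not_forall, not_or] at h2
    obtain ⟨U, hU, h2, h3⟩ := h2
    have h4 := U.finrank_quotient_add_finrank
    have h5 := Submodule.one_le_finrank_iff.2 h2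
    have h6 := Submodule.finrank_lt h3
    rcases nontriv_sub_or_quot hρ hU with h7 | h7
    · have := (ih' _ h6 _ rfl h7).1
      omega
    · have := (ih' _ (by omega) _ rfl h7).1
      omega
  by_cases h3 : φ.ker ≤ center H
  · simpa using Cen.bound (π := (alternatingGroup (Fin r)).subtype.comp φ) ⟨fun g => (φ g).2,
      fun σ hσ => (hs ⟨σ, hσ⟩).imp fun _ => congrArg Subtype.val, fun z hz => h3 (Subtype.ext hz)⟩
      (by simpa) (ρ := ρ) fun g hg => by rw [h1 (hg.trans (map_one ρ).symm), map_one]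
  haveI : Nontrivial V := by
    by_contra h4
    rw [not_nontrivial_iff_subsingleton] at h4
    exact hρ.elim fun g hg => hg (Subsingleton.elim _ _)
  haveI := frattini_nilpotent (G := H)
  haveI : Group.IsSolvable φ.ker := Group.isSolvable_of_isSolvable_injective
    (inclusion_injective (show φ.ker ≤ frattini H from le_iInf₂ fun M hM => by
      by_contra h4
      refine hM.1 ((hφ _).1 ?_)
      rw [map_eq_map_iff.2 (show M ⊔ φ.ker = ⊤ ⊔ φ.ker by
        rw [top_sup_eq, hM.2 _ (left_lt_sup.2 h4)]), (hφ ⊤).2 rfl]))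
  rcases h2.feit_tits h1 h3 with ⟨L, h4, h5⟩ | ⟨l, _, k, σ, ⟨g, hg⟩, h5, h6⟩
  · have := le_index hr ((hφ L).not.2 h4)
    have := Nat.le_of_dvd (Nat.pos_of_ne_zero L.index_ne_zero_of_finite) (L.index_map_dvd hs)
    omega
  obtain ⟨ψ, hψ⟩ := exists_ext (algebraMap (ZMod l) (AlgebraicClosure (ZMod l))) k
  have h7 := (key _ (ψ.comp σ) ⟨g, (map_ne_one_iff ψ hψ).2 hg⟩
    fun h => h5 (eq_bot_iff.2 fun x hx => h.le (by simpa using congrArg ψ hx))).1
  rw [finrank_fin_fun] at h7
  have h9 := lt_of_pow_lt_pow_left₀ 2 (Nat.zero_le _) (a := r - 2) (b := finrank K V)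
    ((((Nat.pow_lt_pow_left (by omega) two_ne_zero).trans_le (sq_le (r - 9))).trans_le
      (Nat.pow_le_pow_right two_pos (by omega))).trans_le
      ((Nat.pow_le_pow_left (Fact.out : l.Prime).two_le k).trans h6))
  omega


/-- Alternating sections of finite linear groups. Let `F` be a finite field of characteristic `p` and `n` a natural number, and suppose some subgroup `H` of GL_n(F) has a normal subgroup `K` with `H ⧸ K` isomorphic to the alternating group of degree `r ≥ 9`. Then `n ≥ r - 2` when `p` divides `r`, and `n ≥ r - 1` otherwise (the smallest degree of a nontrivial projective representation of that alternating group in characteristic `p`). The same bound follows for every classical group with natural module of dimension `n` over `F`, since each is a section of a subgroup of GL_n(F). -/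
theorem result {F : Type*} [Field F] [Fintype F] (p : ℕ) [Fact p.Prime] [CharP F p]
    (n : ℕ) (r : ℕ) (H : Subgroup (GL (Fin n) F)) (K : Subgroup ↥H) [K.Normal]
    (h : Nonempty (↥H ⧸ K ≃* ↥(alternatingGroup (Fin r)))) (hr : 9 ≤ r) :
    r - 1 - (if p ∣ r then 1 else 0) ≤ n := by
  obtain ⟨e⟩ := h
  letI : Algebra (ZMod p) F := ZMod.algebra F p
  obtain ⟨ψ, hψ⟩ := exists_ext (IsAlgClosed.lift (R := ZMod p) (S := F)
    (M := AlgebraicClosure (ZMod p))).toRingHom n
  let φ := e.toMonoidHom.comp (QuotientGroup.mk' K)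
  obtain ⟨L, h1, h2⟩ := exists_minimal_of_wellFoundedLT (fun L : Subgroup H => L.map φ = ⊤)
    ⟨⊤, map_top_of_surjective _ (e.surjective.comp (QuotientGroup.mk'_surjective K))⟩
  haveI := alternatingGroup.isSimpleGroup (α := Fin r) (by simp; omega)
  obtain ⟨σ, hσ⟩ := exists_ne (1 : alternatingGroup (Fin r))
  obtain ⟨g, hg, rfl⟩ := h1.ge (mem_top σ)
  have := main hr _ (φ.comp L.subtype) rfl (fun M => ⟨fun h3 => ?_, fun h3 => ?_⟩) _ _
    (ψ.comp ((Units.coeHom _).comp (H.subtype.comp L.subtype))) (finrank_fin_fun _)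
    ⟨⟨g, hg⟩, (map_ne_one_iff ψ hψ).2 fun h3 => hσ (by
      rw [show g = 1 from Subtype.ext (Units.ext h3), map_one])⟩
  · rw [CharP.cast_eq_zero_iff _ p] at this
    split_ifs with h3
    · omega
    · have := mt this.2 h3
      omega
  · rw [← map_map] at h3
    exact top_le_iff.1 fun x _ => by
      obtain ⟨y, hy, h4⟩ := h2 h3 (map_subtype_le M) x.2
      exact Subtype.ext h4 ▸ hy
  · rw [h3, ← map_map, ← MonoidHom.range_eq_map, range_subtype, h1]

end Cfsg.Agent.S2653
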