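import Cfsg.Statements.S4444
import Cfsg.Agent.H89.GlaubP

set_option autoImplicit false
open Cfsg

namespace Cfsg.Agent.S4444

open Cfsg.Agent.H5 Cfsg.Agent.H89

/-- The Glauberman correspondence for a p-group of operators. Inside a finite group Γ let S normalise G with the orders of G and S coprime, S a p-group, and let C = G ⊓ C(S) be the fixed points. Call an irreducible character χ of G S-invariant when χ(s g s⁻¹) = χ(g) for s ∈ S, g ∈ G. Then: (i) for every S-invariant χ there is exactly one irreducible character β of C whose multiplicity [χ_C, β] in the restriction of χ is not divisible by p; (ii) that multiplicity is ≡ 1 or ≡ −1 (mod p); (iii) distinct S-invariant χ give distinct β; (iv) every irreducible character of C arises in this way. So χ ↦ β is a bijection from the S-invariant irreducible characters of G onto the irreducible characters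 of C. -/
theorem result {Γ : Type*} [Group Γ] [Fintype Γ] (G S : Subgroup Γ) [Fintype G] (hnorm : ∀ s ∈ S, ∀ g ∈ G, s * g * s⁻¹ ∈ G) (hcop : (Nat.card G).Coprime (Nat.card S)) (p : ℕ) (hp : p.Prime) (hS : IsPGroup p S) (C : Subgroup Γ) [Fintype C] (hC : C = G ⊓ Subgroup.centralizer (S : Set Γ)) (hCG : C ≤ G) : (∀ χ : Cfsg.IrrCharacter G, (∀ s ∈ S, ∀ g g' : G, (g' : Γ) = s * g * s⁻¹ → (χ : G → ℂ) g' = (χ : G → ℂ) g) → ∃! β : Cfsg.IrrCharacter C, ∃ m : ℕ, Cfsg.classInner (fun c : C => (χ : G → ℂ) ⟨c, hCG c.2⟩) (β : C → ℂ) = (m : ℂ) ∧ ¬ p ∣ m) ∧ (∀ χ : Cfsg.IrrCharacter G, (∀ s ∈ S, ∀ g g' : G, (g' : Γ) = s * g * s⁻¹ → (χ : G → ℂ) g' = (χ : G → ℂ) g) → ∀ β : Cfsg.IrrCharacter C, ∀ m : ℕ, Cfsg.classInner (fun c : C => (χ : G → ℂ) ⟨c, hCG c.2⟩) (β : C → ℂ) = (m : ℂ) → ¬ p ∣ m → ((m : ℤ) ≡ 1 [ZMOD p] ∨ (m : ℤ) ≡ -1 [ZMOD p])) ∧ (∀ χ χ' : Cfsg.IrrCharacter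 G, (∀ s ∈ S, ∀ g g' : G, (g' : Γ) = s * g * s⁻¹ → (χ : G → ℂ) g' = (χ : G → ℂ) g) → (∀ s ∈ S, ∀ g g' : G, (g' : Γ) = s * g * s⁻¹ → (χ' : G → ℂ) g' = (χ' : G → ℂ) g) → ∀ β : Cfsg.IrrCharacter C, ∀ m m' : ℕ, Cfsg.classInner (fun c : C => (χ : G → ℂ) ⟨c, hCG c.2⟩) (β : C → ℂ) = (m : ℂ) → ¬ p ∣ m → Cfsg.classInner (fun c : C => (χ' : G → ℂ) ⟨c, hCG c.2⟩) (β : C → ℂ) = (m' : ℂ) → ¬ p ∣ m' → χ = χ') ∧ (∀ β : Cfsg.IrrCharacter C, ∃ χ : Cfsg.IrrCharacter G, (∀ s ∈ S, ∀ g g' : G, (g' : Γ) = s * g * s⁻¹ → (χ : G → ℂ) g' = (χ : G → ℂ) g) ∧ ∃ m : ℕ, Cfsg.classInner (fun c : C => (χ : G → ℂ) ⟨c, hCG c.2⟩) (β : C → ℂ) = (m : ℂ) ∧ ¬ p ∣ m) := by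
  have h := gcorr_pgroup hp S hS G (le_normalizer_of_conj hnorm) hcop C hC hCG
  have key : ∀ (χ : IrrCharacter G) (β : IrrCharacter C) (m : ℕ),
      classInner (fun c : C => (χ : G → ℂ) ⟨c, hCG c.2⟩) (β : C → ℂ) = (m : ℂ) →
      mlt (Subgroup.inclusion hCG) (χ : G → ℂ) (β : C → ℂ) = m := fun χ β m hm =>
    mlt_eq_of (Subgroup.inclusion hCG) hm
  have key2 : ∀ (χ : IrrCharacter G) (β : IrrCharacter C),
      (∃ m : ℕ, classInner (fun c : C => (χ : G → ℂ) ⟨c, hCG c.2⟩) (β : C → ℂ) = (m : ℂ) ∧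
        ¬ p ∣ m) ↔ (mlt (Subgroup.inclusion hCG) (χ : G → ℂ) (β : C → ℂ) : ZMod p) ≠ 0 := by
    intro χ β
    rw [Ne, ZMod.natCast_eq_zero_iff]
    exact ⟨fun ⟨m, hm, hpm⟩ => by rwa [key χ β m hm],
      fun hm => ⟨_, mlt_irr (Subgroup.inclusion hCG) χ β, hm⟩⟩
  refine ⟨fun χ hχ => ?_, fun χ hχ β m hm hpm => ?_,
    fun χ χ' hχ hχ' β m m' hm hpm hm' hpm' => ?_, fun β => ?_⟩
  · obtain ⟨β, hβ⟩ := h.exists_ne_zero hp χ hχ
    exact ⟨β, (key2 χ β).2 hβ, fun β' hβ' => h.unique hχ ((key2 χ β').1 hβ') hβ⟩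
  · obtain ⟨β₀, ε, hε, h1, h2⟩ := h.ex χ hχ
    have h3 := (key2 χ β).1 ⟨m, hm, hpm⟩
    have h4 : β = β₀ := by_contra fun e => h3 (h2 β e)
    subst h4
    rw [key χ β m hm, ← Int.cast_natCast, ZMod.intCast_eq_intCast_iff] at h1
    rcases hε with rfl | rfl
    · exact Or.inl h1
    · exact Or.inr h1
  · exact h.inj χ χ' hχ hχ' β ((key2 χ β).1 ⟨m, hm, hpm⟩) ((key2 χ' β).1 ⟨m', hm', hpm'⟩)
  · obtain ⟨χ, hχ, h1⟩ := h.surj β
    exact ⟨χ, hχ, (key2 χ β).2 h1⟩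

end Cfsg.Agent.S4444
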