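import Cfsg.Statements.S0212
import Cfsg.Agent.H8.BrauerFowler

set_option autoImplicit false
open Cfsg

namespace Cfsg.Agent.S0212

/-- The Brauer–Fowler bound: if G is a finite simple group and t an involution of G whose centralizer has order n, then |G| ≤ (2n^2)!. -/
theorem result {G : Type*} [Group G] [Finite G] [IsSimpleGroup G] (t : G) (ht : orderOf t = 2) : Nat.card G ≤ Nat.factorial (2 * (Nat.card (Subgroup.centralizer ({t} : Set G))) ^ 2) := by
  set c := Nat.card (Subgroup.centralizer ({t} : Set G)) with hc
  have hc0 : 0 < c := Nat.card_pos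
  by_cases h2 : Nat.card G = 2
  · rw [h2]
    exact le_trans (by nlinarith) (Nat.self_le_factorial _)
  have heven : Even (Nat.card G) := by
    rw [even_iff_two_dvd, ← ht]; exact orderOf_dvd_natCard t
  obtain ⟨H, hH, h | h⟩ := H8.brauer_fowler heven fun z hz hZ =>
    h2 (H8.card_eq_two_of_central_involution hz hZ)
  · exact absurd (H8.card_eq_two_of_index_two h) h2
  have h3 := H8.card_le_involutions_mul ht
  have h4 := H8.card_involutions_lt (G := G)
  set n := Nat.card {t : G // orderOf t = 2}
  set g := Nat.card G
  have h5 : H.index * n ^ 2 < (n * c) ^ 2 := by nlinarith [Nat.zero_le (H.index * n)]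
  have h6 : H.index < c ^ 2 := by
    rw [mul_pow, mul_comm (n ^ 2)] at h5
    exact Nat.lt_of_mul_lt_mul_right h5
  exact (Nat.le_of_dvd (Nat.factorial_pos _) (H8.card_dvd_factorial_index hH)).trans
    (Nat.factorial_le (by omega))

end Cfsg.Agent.S0212
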