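import Cfsg.Statements.S4476
import Cfsg.Agent.H88.Eig
import Cfsg.Agent.H88.Sqrt
import Cfsg.Agent.H5.ClassFn

set_option autoImplicit false
open Cfsg

namespace Cfsg.Agent.S4476

open Cfsg.Agent.H5 Cfsg.Agent.H6 Cfsg.Agent.H88

/-- Let G be a finite group of even order g with exactly t involutions, and put α = (g − 1)/t (a rational number). Then (a) some non-identity element x of G has at most α² conjugates; and (b) some non-principal real-valued irreducible character of G has degree at most α. -/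
theorem result {G : Type*} [Group G] [Fintype G] (heven : Even (Nat.card G)) (t : ℕ) (ht : Nat.card {x : G // orderOf x = 2} = t) : (∃ x : G, x ≠ 1 ∧ ((Subgroup.centralizer ({x} : Set G)).index : ℚ) ≤ (((Nat.card G : ℚ) - 1) / t) ^ 2) ∧ ∃ χ : Cfsg.IrrCharacter G, (χ : G → ℂ) ≠ (fun _ => 1) ∧ (∀ g : G, ((χ : G → ℂ) g).im = 0) ∧ (Cfsg.charDegree (χ : G → ℂ) : ℚ) ≤ ((Nat.card G : ℚ) - 1) / t := by
  classical
  have ht0 : (0 : ℚ) < t := by
    obtain ⟨x, hx⟩ := exists_prime_orderOf_dvd_card' 2 heven.two_dvd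
    have : Nonempty {x : G // orderOf x = 2} := ⟨⟨x, hx⟩⟩
    exact_mod_cast ht ▸ Nat.card_pos
  have hg : (0 : ℚ) < Nat.card G - 1 := by
    have := Nat.le_of_dvd Nat.card_pos heven.two_dvd
    have : (2 : ℚ) ≤ Nat.card G := by exact_mod_cast this
    linarith
  have h1 : Nat.card {s : G // s * s = 1} = t + 1 := by
    have h2 : {s : G | s * s = 1} = insert 1 {x : G | orderOf x = 2} := by
      ext s
      simp only [Set.mem_setOf_eq, Set.mem_insert_iff, orderOf_eq_prime_iff, sq]
      by_cases e : s = 1 <;> simp [e]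
    change Nat.card {s : G | s * s = 1} = _
    rw [h2, ← ht, Nat.card_coe_set_eq, Set.ncard_insert_of_notMem (by simp)]
    rfl
  have h2 : ∀ χ : IrrCharacter G, ∃ ν : ℤ, fsIndicator (χ : G → ℂ) = ν ∧
      ν ≤ if ∀ g, ((χ : G → ℂ) g).im = 0 then 1 else 0 := fun χ => by
    split_ifs with e
    · rcases fsIndicator_eq_one_or_neg_one_of_real χ.2 e with h | h
      · exact ⟨1, by simpa using h, le_rfl⟩
      · exact ⟨-1, by simpa using h, by norm_num⟩
    · exact ⟨0, by simpa using fsIndicator_eq_zero_of_not_real χ.2 (not_forall.mp e), le_rfl⟩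
  choose ν hν hν' using h2
  let S := (Finset.univ.erase (trivIrr G)).filter
    fun χ : IrrCharacter G => ∀ g, ((χ : G → ℂ) g).im = 0
  have h3 : (t : ℚ) ≤ ∑ χ ∈ S, (charDegree (χ : G → ℂ) : ℚ) := by
    have h4 := card_sqrt_eq_sum (1 : G)
    rw [h1, ← Finset.add_sum_erase _ _ (Finset.mem_univ (trivIrr G)), trivIrr_coe, fsIndicator_one,
      mul_one, Nat.cast_add, Nat.cast_one, add_comm, add_right_inj] at h4
    simp only [hν, ← irr_charDegree_cast] at h4
    have h5 : (t : ℤ) = ∑ χ ∈ Finset.univ.erase (trivIrr G), ν χ * charDegree (χ : G → ℂ) := by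
      exact_mod_cast h4
    have h6 : (t : ℤ) ≤ ∑ χ ∈ S, (charDegree (χ : G → ℂ) : ℤ) := by
      rw [h5, Finset.sum_filter]
      refine Finset.sum_le_sum fun χ _ => ?_
      refine (mul_le_mul_of_nonneg_right (hν' χ) (Nat.cast_nonneg _)).trans (le_of_eq ?_)
      split_ifs <;> simp
    exact_mod_cast h6
  have h4 : ∑ χ ∈ S, (charDegree (χ : G → ℂ) : ℚ) ^ 2 ≤ Nat.card G - 1 := by
    refine (Finset.sum_le_sum_of_subset_of_nonneg (Finset.filter_subset _ _)
      fun _ _ _ => sq_nonneg _).trans (le_of_eq ?_)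
    rw [← sum_charDegree_sq, ← Finset.add_sum_erase _ _ (Finset.mem_univ (trivIrr G)),
      charDegree_trivIrr]
    push_cast
    ring
  refine ⟨?_, ?_⟩
  · by_contra hc
    push Not at hc
    have h5 : (t : ℚ) ^ 2 ≤ (Nat.card (ConjClasses G) - 1) * (Nat.card G - 1) := by
      refine (pow_le_pow_left₀ ht0.le h3 2).trans (sq_sum_le_card_mul_sum_sq.trans ?_)
      have h6 : (S.card : ℚ) ≤ Nat.card (ConjClasses G) - 1 := by
        have h7 : S.card ≤ _ := Finset.card_filter_le _ _
        have h8 := Finset.card_erase_add_one (Finset.mem_univ (trivIrr G))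
        rw [Finset.card_univ, ← Nat.card_eq_fintype_card, card_irrCharacter] at h8
        rw [← h8]
        push_cast
        rw [add_sub_cancel_right]
        exact_mod_cast h7
      exact mul_le_mul h6 h4 (by positivity) ((Nat.cast_nonneg _).trans h6)
    have h6 := congrArg (Nat.cast : ℕ → ℚ) (sum_card_centralizer (G := G))
    rw [← Finset.add_sum_erase _ _ (Finset.mem_univ (1 : G)), show Subgroup.centralizer
      ({1} : Set G) = ⊤ from eq_top_iff.mpr fun g _ =>
        Subgroup.mem_centralizer_singleton_iff.mpr (by simp), Subgroup.card_top] at h6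
    push_cast at h6
    have h7 : ∑ x ∈ Finset.univ.erase (1 : G), (Nat.card (Subgroup.centralizer ({x} : Set G)) : ℚ) *
        (((Nat.card G : ℚ) - 1) / t) ^ 2 < ∑ x ∈ Finset.univ.erase (1 : G), (Nat.card G : ℚ) := by
      refine Finset.sum_lt_sum_of_nonempty ?_ fun x hx => ?_
      · obtain ⟨x, hx⟩ := exists_prime_orderOf_dvd_card' 2 heven.two_dvd
        exact ⟨x, Finset.mem_erase.mpr ⟨fun e => by simp [e] at hx, Finset.mem_univ _⟩⟩
      · conv_rhs => rw [← (Subgroup.centralizer ({x} : Set G)).card_mul_index, Nat.cast_mul]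
        exact mul_lt_mul_of_pos_left (hc x (Finset.ne_of_mem_erase hx))
          (by exact_mod_cast Nat.card_pos)
    rw [← Finset.sum_mul, Finset.sum_const, Finset.card_erase_of_mem (Finset.mem_univ _),
      Finset.card_univ, ← Nat.card_eq_fintype_card, nsmul_eq_mul,
      Nat.cast_sub (Nat.card_pos (α := G)), Nat.cast_one, eq_sub_of_add_eq' h6, div_pow,
      ← mul_div_assoc, div_lt_iff₀ (by positivity)] at h7
    have h8 : (0 : ℚ) < Nat.card G * (Nat.card G - 1) := mul_pos (by linarith) hg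
    nlinarith
  · by_contra hc
    push Not at hc
    have h5 : ∑ χ ∈ S, ((Nat.card G : ℚ) - 1) / t * (charDegree (χ : G → ℂ) : ℚ) <
        ∑ χ ∈ S, (charDegree (χ : G → ℂ) : ℚ) ^ 2 := by
      refine Finset.sum_lt_sum_of_nonempty (Finset.nonempty_of_sum_ne_zero (ht0.trans_le h3).ne')
        fun χ hχ => ?_
      obtain ⟨h6, h7⟩ := Finset.mem_filter.mp hχ
      rw [sq]
      exact mul_lt_mul_of_pos_right (hc χ (fun e => Finset.ne_of_mem_erase h6
        (eq_trivIrr_iff.mpr e)) h7) (by exact_mod_cast charDegree_pos χ.2)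
    rw [← Finset.mul_sum] at h5
    have h6 := mul_le_mul_of_nonneg_left h3 (div_pos hg ht0).le
    rw [div_mul_cancel₀ _ ht0.ne'] at h6
    linarith

end Cfsg.Agent.S4476
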