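import Cfsg.Statements.S4003
import Cfsg.Agent.H81.Miller

set_option autoImplicit false
open Cfsg

namespace Cfsg.Agent.S4003

open Subgroup

/-- Let G be a finite group, p an odd prime dividing the order of G whose Sylow p-subgroups are not cyclic, and n = p^s·m with s > 1 and m coprime to p. Then the number of elements of G of order n is a multiple of p^s. -/
theorem result {G : Type*} [Group G] [Finite G] (p : ℕ) [Fact p.Prime] (hodd : p ≠ 2) (hpG : p ∣ Nat.card G)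
    (P : Sylow p G) (hP : ¬ IsCyclic ↥(P : Subgroup G)) (s m : ℕ) (hs : 1 < s) (hm : Nat.Coprime p m) :
    p ^ s ∣ Nat.card {g : G // orderOf g = p ^ s * m} := by
  have hp : p.Prime := Fact.out
  rw [H81.card_orderOf_mul_eq_pairs (hm.pow_left s)]
  have h1 : Nat.card {z : G × G // orderOf z.1 = p ^ s ∧ orderOf z.2 = m ∧ Commute z.1 z.2} =
      Nat.card {z : G × G // orderOf z.1 = p ^ s ∧
        (orderOf z.2 = m ∧ z.2 ∈ centralizer (zpowers z.1 : Set G))} := by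
    refine Nat.card_congr (Equiv.subtypeEquivRight fun z => ?_)
    refine and_congr_right fun _ => and_congr_right fun _ => ⟨fun h => ?_, fun h => ?_⟩
    · rintro _ ⟨i, rfl⟩
      exact (h.zpow_left i).eq
    · exact h _ (mem_zpowers _)
  rw [h1, H81.card_elts_eq_card_cyclic (p ^ s)
    (fun (X : Subgroup G) (y : G) => orderOf y = m ∧ y ∈ centralizer (X : Set G))]
  have h2 := H81.card_modEq_fixed P.isPGroup'
    (fun (g : P) (z : Subgroup G × G) => (H72.cj (g : G) z.1, (g : G) * z.2 * (g : G)⁻¹))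
    (fun z => by simp [H72.cj_one]) (fun g h z => by simp [H72.cj_mul, mul_assoc])
    (fun z => (IsCyclic z.1 ∧ Nat.card z.1 = p ^ s) ∧
      (orderOf z.2 = m ∧ z.2 ∈ centralizer (z.1 : Set G))) (by
      rintro g ⟨X, y⟩ ⟨⟨h1, h2⟩, h3, h4⟩
      refine ⟨⟨?_, (H72.card_cj _ _).trans h2⟩,
        ((MulAut.conj (g : G)).orderOf_eq y).trans h3, ?_⟩
      · exact isCyclic_of_surjective _ (X.equivMapOfInjective _
          (MulAut.conj (g : G)).injective).surjective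
      · rw [← H72.cj_centralizer]
        exact H72.conj_mem_cj h4)
  have h3 := H81.card_modEq_fixed P.isPGroup'
    (fun (g : P) (z : Subgroup G × Unit) => (H72.cj (g : G) z.1, z.2))
    (fun z => by simp [H72.cj_one]) (fun g h z => by simp [H72.cj_mul])
    (fun z => (IsCyclic z.1 ∧ Nat.card z.1 = p ^ s) ∧ z.1 ≤ P) (by
      rintro g ⟨X, y⟩ ⟨⟨h1, h2⟩, h3⟩
      refine ⟨⟨?_, (H72.card_cj _ _).trans h2⟩, H72.cj_le_of_mem g.2 h3⟩
      exact isCyclic_of_surjective _ (X.equivMapOfInjective _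
          (MulAut.conj (g : G)).injective).surjective)
  have h4 := H81.card_elts_eq_card_cyclic (G := G) (β := Unit) (p ^ s) (fun X _ => X ≤ P)
  have h5 : Nat.card {z : G × Unit // orderOf z.1 = p ^ s ∧ zpowers z.1 ≤ P} =
      Nat.card {x : (P : Subgroup G) // orderOf x = p ^ s} :=
    Nat.card_congr ⟨fun z => ⟨⟨z.1.1, zpowers_le.1 z.2.2⟩, by
        rw [Subgroup.orderOf_mk, z.2.1]⟩,
      fun x => ⟨(x.1.1, ()), by rw [Subgroup.orderOf_coe, x.2], zpowers_le.2 x.1.2⟩,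
      fun _ => rfl, fun _ => rfl⟩
  have h6 := H81.pow_dvd_card_orderOf_eq hodd P.isPGroup' hP hs
  rw [← h5, h4] at h6
  obtain ⟨t, rfl⟩ : ∃ t, s = t + 1 := ⟨s - 1, by omega⟩
  rw [Nat.totient_prime_pow_succ hp] at h6 ⊢
  rw [pow_succ, mul_left_comm] at h6 ⊢
  refine Nat.mul_dvd_mul_left _ (Dvd.dvd.mul_right ?_ _)
  have h7 := (hp.dvd_mul.1 (Nat.dvd_of_mul_dvd_mul_left (pow_pos hp.pos t) h6)).resolve_right
    (fun h => by
      have := Nat.le_of_dvd (by have := hp.two_le; omega) h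
      have := hp.pos
      omega)
  rw [← pow_succ] at h7 ⊢
  have h8 := (h3.dvd_iff (dvd_refl p)).1 h7
  refine (h2.dvd_iff (dvd_refl p)).2 ?_
  have h9 : ∀ X : Subgroup G, Nat.card X = p ^ (t + 1) → (∀ g : P, H72.cj (g : G) X = X) →
      X ≤ P := fun X hX h => by
    have := P.is_maximal' (P.isPGroup'.to_sup_of_normal_right' (IsPGroup.of_card hX)
      (fun g hg => H72.cj_eq_iff.1 (h ⟨g, hg⟩))) le_sup_left
    exact this ▸ le_sup_right
  refine h8.trans (Dvd.intro (Nat.card {y : G // orderOf y = m ∧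
    y ∈ centralizer ((P : Subgroup G) : Set G)}) ?_)
  rw [← Nat.card_prod]
  refine Nat.card_congr ⟨fun z => ⟨(z.1.1.1, z.2.1), ⟨z.1.2.1.1, z.2.2.1,
      centralizer_le (by exact z.1.2.1.2) z.2.2.2⟩, fun g => Prod.ext (Prod.ext_iff.1 (z.1.2.2 g)).1 ?_⟩,
    fun z => ⟨⟨(z.1.1, ()), ⟨z.2.1.1, h9 _ z.2.1.1.2 fun g => (Prod.ext_iff.1 (z.2.2 g)).1⟩,
      fun g => Prod.ext (Prod.ext_iff.1 (z.2.2 g)).1 rfl⟩, ⟨z.1.2, z.2.1.2.1, fun g hg => ?_⟩⟩,
    fun _ => rfl, fun _ => rfl⟩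
  · exact mul_inv_eq_iff_eq_mul.2 (z.2.2.2 g g.2)
  · exact mul_inv_eq_iff_eq_mul.1 (Prod.ext_iff.1 (z.2.2 ⟨g, hg⟩)).2

end Cfsg.Agent.S4003
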