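import Cfsg.Statements.S5630
import Cfsg.Agent.H98.Master
import Cfsg.Agent.H98.Linear
import Cfsg.Agent.H98.FormCases

set_option autoImplicit false
open Cfsg

namespace Cfsg.Agent.S5630

open Cfsg.Geo Cfsg.Agent.H98 in
theorem extra_case {F : Type*} [Field F] [Fintype F] {n : ℕ} (hn : 3 ≤ n)
    {H R : Subgroup (Matrix.GeneralLinearGroup (Fin n) F)} {r m : ℕ} (hI : Irr H)
    (E : ExtraData H r m R) : ∃ M, InLinearClass n F M ∧ H ≤ M := by
  obtain ⟨p, hchar, e, hp, he⟩ := FiniteField.card' F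
  have hz := E.card_center_dvd
  rw [Nat.card_eq_fintype_card (α := F), he] at hz
  have hrp : r ≠ p := by
    rintro rfl
    exact E.ne_char (CharP.cast_eq_zero F r)
  have hnr := E.card_index
  rw [Fintype.card_fin] at hnr
  by_cases hmin : ∀ d : ℕ, 0 < d → d < e → ¬ Nat.card (Subgroup.center R) ∣ p ^ d - 1
  swap
  · push Not at hmin
    obtain ⟨d, hd, hde, hdvd⟩ := hmin
    obtain ⟨F₀, h0, hF₀⟩ := exists_subfield_pow hp he hd hde
    obtain ⟨F₁, s, P, h1, h2, h3⟩ := exists_prime_subfield_of_realisable E.span E.nz h0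
      (E.realisable F₀ fun c hc => by
        rw [hF₀]
        obtain ⟨k, hk⟩ := hdvd
        have h4 : c ^ p ^ d = c := by
          rw [← Nat.sub_add_cancel (Nat.one_le_pow d p hp.pos), hk, pow_succ, pow_mul, hc, one_pow,
            one_mul]
        rw [← Units.val_pow_eq_pow_val, h4])
    refine ⟨_, ?_, h3⟩
    iterate 6 right
    exact Or.inl ⟨F₁, s, P, h1, h2, rfl⟩
  have hfield : IsMinimalFieldFor (Nat.card (Subgroup.center R)) p e F := ⟨hp, hchar, he, hz, hmin⟩
  have hform : ∀ σ : F ≃+* F, (∀ a, σ (σ a) = a) →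
      (∀ c : Fˣ, c ^ Nat.card (Subgroup.center R) = 1 → σ c = ((c⁻¹ : Fˣ) : F)) →
      ∃ M, InLinearClass n F M ∧ H ≤ M := by
    intro σ h1 h2
    obtain ⟨ε, f, hf, hε, -, hle⟩ := E.exists_form h1 h2
    exact class8_of_sim hn hf hε hI hle
  have hhalf : ∀ d : ℕ, (e : ℕ) = 2 * d → Nat.card (Subgroup.center R) ∣ p ^ d + 1 →
      ∃ M, InLinearClass n F M ∧ H ≤ M := by
    intro d hd ⟨k, hk⟩
    obtain ⟨σ, h1, h2⟩ := exists_frobenius_half (F := F) (d := d) hp (by rw [he, hd])
    refine hform σ h1 fun c hc => ?_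
    have h4 : c ^ p ^ d = c⁻¹ := by
      rw [eq_inv_iff_mul_eq_one, ← pow_succ, hk, pow_mul, hc, one_pow]
    rw [h2, ← Units.val_pow_eq_pow_val, h4]
  have hsix : IsLinearSymplecticTypeData r R → ∃ M, InLinearClass n F M ∧ H ≤ M := by
    intro h
    refine ⟨_, ?_, E.nz.le_normalizer⟩
    iterate 7 right
    exact Or.inl ⟨r, R, h, rfl⟩
  have habs := absIrr_of_grpAlg_eq_top E.span
  rcases E.card_center with ⟨hodd, hc, -⟩ | ⟨h2, hc, -⟩ | ⟨h2, hc, -⟩
  · rcases Nat.even_or_odd (e : ℕ) with ⟨d, hd⟩ | heo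
    · have hd0 : 0 < d := by have := e.pos; omega
      refine hhalf d (by omega) ?_
      have h5 : p ^ (e : ℕ) - 1 = (p ^ d + 1) * (p ^ d - 1) := by
        rw [hd, pow_add, ← sq, ← Nat.sq_sub_sq, one_pow]
      rw [h5, hc] at hz
      rw [hc]
      exact ((Nat.Prime.dvd_mul E.prime).1 hz).resolve_right (by rw [← hc]; exact hmin d hd0 (by omega))
    · refine hsix ⟨E.sympl, habs, p, e, hrp, hfield, Or.inl ⟨hodd, heo, hc, m, E.pos, ?_⟩⟩
      rw [E.card_eq, hc, pow_add, pow_one]
  · by_cases he1 : (e : ℕ) = 1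
    · refine hsix ⟨E.sympl, habs, p, e, hrp, hfield, Or.inr (Or.inl ⟨h2, he1, hc, ?_, m, ?_⟩)⟩
      · rw [Fintype.card_fin]
        have : Even n := by
          rw [hnr, h2]
          exact (Nat.even_pow' (by have := E.pos; omega)).2 even_two
        obtain ⟨k, hk⟩ := this
        omega
      · rw [E.card_eq, hc, h2, pow_add]; norm_num
    · have he2 : 2 ≤ (e : ℕ) := by have := e.pos; omega
      have h3 := hmin 1 one_pos (by omega)
      rw [hc, pow_one] at h3
      obtain ⟨k, hk⟩ := hp.eq_two_or_odd'.resolve_left (fun h => hrp (h2.trans h.symm))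
      have h4 : 4 ∣ p + 1 := by omega
      refine hhalf 1 ?_ (by rw [hc, pow_one]; exact h4)
      by_contra hne
      apply hmin 2 two_pos (by omega)
      rw [hc, ← one_pow 2, Nat.sq_sub_sq]
      exact Dvd.dvd.mul_right h4 _
  · refine hform (RingEquiv.refl F) (fun _ => rfl) fun c h => ?_
    rw [hc, sq, ← eq_inv_iff_mul_eq_one] at h
    rw [← h]; rfl

open Cfsg.Geo Cfsg.Agent.H98 in
theorem wreath_case {F : Type*} [Field F] [Fintype F] {n : ℕ} (hn : 3 ≤ n)
    {H : Subgroup (Matrix.GeneralLinearGroup (Fin n) F)} (hI : Irr H) {k t : ℕ} (hk : 2 ≤ k)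
    (ht : 2 ≤ t) {e : Fin n ≃ (Fin t → Fin k)} {P : Matrix.GeneralLinearGroup (Fin n) F}
    (h : H ≤ tensorWreathSubgroup k t e P) : ∃ M, InLinearClass n F M ∧ H ≤ M := by
  rcases hk.eq_or_lt with rfl | hk3
  · obtain ⟨f, hf, hle⟩ := wreath_two_le_sim e P
    exact class8_of_sim hn hf (fun h => absurd rfl h) hI (h.trans hle)
  · refine ⟨_, ?_, h⟩
    iterate 8 right
    exact Or.inl ⟨k, t, e, P, hk3, ht, rfl⟩

open Cfsg.Geo Cfsg.Agent.H98 in
/-- The theorem holds for every subgroup of the general linear group. -/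
theorem general {F : Type*} [Field F] [Fintype F] {n : ℕ} (hn : 3 ≤ n)
    (H : Subgroup (Matrix.GeneralLinearGroup (Fin n) F)) :
    (∃ M, InLinearClass n F M ∧ H ≤ M) ∨ InLinearResidualClass H := by
  by_cases hI : Irr H
  swap
  · left
    unfold Irr at hI
    push Not at hI
    obtain ⟨W, hW, h1, h2⟩ := hI
    exact ⟨_, Or.inl ⟨W, h1, h2, rfl⟩, hW.le_stab⟩
  rcases master (by rw [Fintype.card_fin]; omega) H with h | ⟨Z, h1, h2, h3, -⟩ |
    ⟨a, b, e, P, ha, hab, hle, -⟩ | ⟨r, m, R, E⟩ | ⟨k, t, e, P, hW⟩ | ⟨L, hL⟩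
  · exact absurd hI h
  · left
    rcases caseZ_linear hI h1 h2 h3 with ⟨t, k, D, hD, hle⟩ | ⟨r, K, hr, hK, hle⟩
    · exact ⟨_, Or.inr (Or.inr (Or.inr (Or.inl ⟨t, k, D, hD, rfl⟩))), hle⟩
    · exact ⟨_, Or.inr (Or.inr (Or.inr (Or.inr (Or.inl ⟨r, K, hr, hK, rfl⟩)))), hle⟩
  · left
    rcases hab.eq_or_lt with rfl | hlt
    · exact wreath_case hn hI ha le_rfl (hle.trans (tensorProductSubgroup_le_wreath e P))
    · refine ⟨_, ?_, hle⟩
      iterate 5 right
      exact Or.inl ⟨a, b, e, P, ha, hlt, rfl⟩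
  · exact Or.inl (extra_case hn hI E)
  · exact Or.inl (wreath_case hn hI hW.two_le_k hW.two_le_t hW.le)
  · by_cases hs : ∀ F₀ : Subfield F, F₀ ≠ ⊤ → ¬ RealisableOver F₀ (matrixSet L)
    swap
    · push Not at hs
      obtain ⟨F₀, h0, hr⟩ := hs
      obtain ⟨F₁, s, P, h1, h2, h3⟩ := exists_prime_subfield_of_realisable hL.span hL.normal h0 hr
      refine Or.inl ⟨_, ?_, h3⟩
      iterate 6 right
      exact Or.inl ⟨F₁, s, P, h1, h2, rfl⟩
    by_cases hf : ∃ (σ : F ≃+* F) (ε : F) (f : (Fin n → F) → (Fin n → F) → F),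
      IsSesq σ ε f ∧ (σ ≠ RingEquiv.refl F → ε = 1) ∧ Fixes L f
    · obtain ⟨σ, ε, f, h1, h2, h3⟩ := hf
      exact Or.inl (class8_of_sim hn h1 h2 hI (le_similarityGroup_of_nz h1 hL.span h3 hL.normal))
    · right
      refine ⟨L, hL.residualCore hs, ?_, ?_, ?_⟩
      · rintro ⟨Q, hQ, h⟩
        exact hf ⟨_, _, _, isSesq_polar hQ, fun _ => rfl, fixes_polar h⟩
      · rintro ⟨f, h1, h⟩
        exact hf ⟨_, _, _, isSesq_of_symplectic h1, fun h => absurd rfl h, h⟩
      · rintro ⟨σ, f, h1, h⟩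
        exact hf ⟨_, _, _, isSesq_of_unitary h1, fun _ => rfl, h⟩

/-- Subgroup structure of the finite linear groups in dimension at least 3. Let F be a finite field, n ≥ 3, and let H be a subgroup of SL_n(F) (the kernel of the determinant inside GL_n(F)) whose product with the scalar matrices of determinant one is not all of SL_n(F), i.e. H does not cover PSL_n(F). Then either H is contained in a member of one of the eight geometric classes of subgroups of GL_n(F) (reducible, imprimitive, extension field, tensor product, subfield, symplectic-type normaliser, tensor wreath, similarity group of a form, with the conditions built into InLinearClass), or H is in the residual class: modulo scalars it is almost simple, and the perfect preimage of its socle acts absolutely irreducibly, is realisable over no proper subfield, and fixes no non-degenerate quadratic, symplectic or unitary form. (Dimension 2, where the linear and symplectic groups coincide, is left to the classical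 list of subgroups of PSL_2.) -/
theorem result {F : Type*} [Field F] [Fintype F] (n : ℕ) (hn : 3 ≤ n) (H : Subgroup (Matrix.GeneralLinearGroup (Fin n) F)) (hH : H ≤ Cfsg.Geo.specialLinear (Fin n) F) (hproper : H ⊔ (Cfsg.Geo.scalars (Fin n) F ⊓ Cfsg.Geo.specialLinear (Fin n) F) ≠ Cfsg.Geo.specialLinear (Fin n) F) : (∃ M : Subgroup (Matrix.GeneralLinearGroup (Fin n) F), Cfsg.Geo.InLinearClass n F M ∧ H ≤ M) ∨ Cfsg.Geo.InLinearResidualClass H := by
  exact general hn H

end Cfsg.Agent.S5630
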