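import Cfsg.Statements.S4441
import Cfsg.Agent.H35.Principal

set_option autoImplicit false
open Cfsg

namespace Cfsg.Agent.S4441

/-- Let p be an odd prime and G a finite group whose Sylow p-subgroup P has order p; let C = C_G(P), N = N_G(P), e the index of C in N and t = (p − 1)/e; fix a maximal ideal M of the algebraic integers containing p and let B₀ be the principal block. Then B₀ is the disjoint union of a set X of e characters and a set Y of t characters such that: each χ ∈ X has a sign ε_χ with χ(1) ≡ ε_χ (mod p) and χ(x y) = ε_χ for every non-identity x ∈ P and every p-regular y ∈ C; all members of Y agree on the p-regular elements of G; there is one sign ε with θ(1) ≡ ε e (mod p) for every θ ∈ Y; and for every θ ∈ Y and every p-regular g, ε θ(g) = Σ_{χ ∈ X} ε_χ χ(g). -/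
theorem result {G : Type*} [Group G] [Fintype G] (p : ℕ) [Fact p.Prime] (M : Ideal Cfsg.AlgInt) (hM : Cfsg.IsPModular p M) (hodd : p ≠ 2) (P : Sylow p G) (hP : Nat.card P = p) (e : ℕ) (he : (Subgroup.centralizer ((P : Subgroup G) : Set G)).relIndex (Subgroup.normalizer ((P : Subgroup G) : Set G)) = e) : ∃ X Y : Set (Cfsg.IrrCharacter G), Cfsg.principalBlock M G = X ∪ Y ∧ Disjoint X Y ∧ Nat.card X = e ∧ Nat.card Y = (p - 1) / e ∧ ∃ (εX : Cfsg.IrrCharacter G → ℤ) (ε : ℤ), (∀ χ ∈ X, (εX χ = 1 ∨ εX χ = -1) ∧ (Cfsg.charDegree (χ : G → ℂ) : ℤ) ≡ εX χ [ZMOD p] ∧ ∀ x : G, x ∈ (P : Subgroup G) → x ≠ 1 → ∀ y : G, y ∈ Subgroup.centralizer ((P : Subgroup G) : Set G) → ¬ p ∣ orderOf y → (χ : G → ℂ) (x * y) = (εX χ : ℂ)) ∧ (ε = 1 ∨ ε = -1) ∧ (∀ θ ∈ Y, (Cfsg.charDegree (θ : G → ℂ) : ℤ) ≡ ε * (e : ℤ) [ZMOD p]) ∧ (∀ θ ∈ Y, ∀ θ' ∈ Y, ∀ g : G, ¬ p ∣ orderOf g → (θ : G → ℂ) g = (θ' : G → ℂ) g) ∧ ∀ θ ∈ Y, ∀ g :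 G, ¬ p ∣ orderOf g → (ε : ℂ) * (θ : G → ℂ) g = ∑ᶠ χ ∈ X, (εX χ : ℂ) * (χ : G → ℂ) g := by
  obtain ⟨x, hx, hPx⟩ := H35.exists_zpowers_eq_of_card Fact.out hP
  obtain ⟨S, rfl⟩ := H35.exists_setup hx (H35.not_sq_dvd_of_sylow P hP)
  rw [hPx, H35.centralizer_zpowers, S.relIndex_eq] at he
  subst he
  obtain ⟨B, -⟩ := S.exists_principal
  refine ⟨B.X, B.Y, B.principalBlock_eq hM, Finset.disjoint_coe.mpr B.disj, ?_, ?_, B.δ, B.ε,
    fun χ hχ => ⟨B.δ_sign χ hχ, B.degX' hχ, fun u hu hu1 y hy hy' => ?_⟩, B.ε_sign,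
    fun θ hθ => B.degY' hθ, fun θ hθ θ' hθ' g hg => B.eq_on_regular hθ hθ' hg,
    fun θ hθ g hg => ?_⟩
  · simpa using B.cardX'
  · rw [← B.cardY', Nat.mul_div_cancel _ (Nat.pos_of_ne_zero Subgroup.index_ne_zero_of_finite)]
    simp
  · rw [hPx] at hu
    rw [hPx, H35.centralizer_zpowers, Subgroup.mem_centralizer_singleton_iff] at hy
    obtain ⟨i, rfl⟩ := S.exists_xp hu
    obtain ⟨v, rfl⟩ := S.exists_eq_of_regular hy.symm hy'
    exact B.valX hχ (fun h => hu1 (by rw [h, S.xp_zero])) v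
  · rw [finsum_mem_coe_finset]
    exact B.reg θ hθ g hg

end Cfsg.Agent.S4441
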