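import Cfsg.Statements.S0875
import Cfsg.Agent.H31.Elem

set_option autoImplicit false
open Cfsg
open scoped ComplexConjugate

namespace Cfsg.Agent.S0875

theorem result {G : Type*} [Group G] [Fintype G] (m n : ℕ) (hmn : Nat.card G = m * n) (hcop : Nat.Coprime m n) (g : G) (hg : Nat.Coprime (orderOf g) m) (ϑ : G → ℂ) (hϑ1 : ∀ x : G, (∃ v : G, IsConj v g ∧ (∃ u : G, x = u * v ∧ Commute u v ∧ Nat.Coprime (orderOf u) n ∧ Nat.Coprime (orderOf v) m)) → ϑ x = n) (hϑ0 : ∀ x : G, (¬ ∃ v : G, IsConj v g ∧ (∃ u : G, x = u * v ∧ Commute u v ∧ Nat.Coprime (orderOf u) n ∧ Nat.Coprime (orderOf v) m)) → ϑ x = 0) : ∃ c : Cfsg.IrrCharacter G → ℂ, (∀ χ, c χ ∈ Cfsg.AlgInt) ∧ ϑ = ∑ᶠ χ : Cfsg.IrrCharacter G, c χ • (χ : G → ℂ) := by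
  classical
  obtain ⟨a, ham, han⟩ := H31.exists_part_exponent hcop
  have hx : ∀ x : G, x ^ (m * n) = 1 := fun x => by rw [← hmn, pow_card_eq_one']
  have hϑ : ∀ x : G, ϑ x = if IsConj (x ^ a) g then (n : ℂ) else 0 := by
    intro x
    split_ifs with h
    · refine hϑ1 x ⟨x ^ a, h, x * (x ^ a)⁻¹, by group, ?_, ?_, ?_⟩
      · exact (((Commute.refl x).pow_right a).mul_left (Commute.refl _).inv_left)
      · exact Nat.Coprime.coprime_dvd_left
          (orderOf_dvd_of_pow_eq_one (H31.mul_inv_part_pow_eq_one han (hx x))) hcop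
      · exact Nat.Coprime.coprime_dvd_left
          (orderOf_dvd_of_pow_eq_one (H31.pow_part_pow_eq_one ham (hx x))) hcop.symm
    · apply hϑ0
      rintro ⟨v, hv, u, rfl, huv, hu, hv'⟩
      apply h
      have h1 : u ^ m = 1 := orderOf_dvd_iff_pow_eq_one.mp
        (hu.dvd_of_dvd_mul_right (orderOf_dvd_of_pow_eq_one (hx u)))
      have h2 : v ^ n = 1 := orderOf_dvd_iff_pow_eq_one.mp
        (hv'.dvd_of_dvd_mul_left (orderOf_dvd_of_pow_eq_one (hx v)))
      rwa [huv.mul_pow, H31.pow_part_eq_one ham h1, H31.pow_part_eq_self han h2, one_mul]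
  have hcl : IsClassFunction G ϑ := by
    intro x y
    rw [hϑ, hϑ, conj_pow]
    have : IsConj (x ^ a) (y * x ^ a * y⁻¹) := isConj_iff.mpr ⟨y, rfl⟩
    exact if_congr ⟨fun h => this.trans h, fun h => this.symm.trans h⟩ rfl rfl
  refine ⟨fun χ => classInner ϑ χ, fun χ => ?_, ?_⟩
  swap
  · rw [finsum_eq_sum_of_fintype]
    exact H5.classFunction_eq_sum hcl
  refine H31.classInner_mem_of_elementary (integralClosure ℤ ℂ).toSubring.toAddSubgroup hcl ?_
    (H5.isCharacter_of_isIrr χ.2)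
  intro E _ p hp hE ξ hξ
  have hEc : Nat.card E ∣ m * n := hmn ▸ Subgroup.card_subgroup_dvd_card E
  have hxE : ∀ x : E, x ^ (m * n) = 1 := fun x => Subtype.ext (hx x)
  let φ : E →* E := MonoidHom.mk' (fun e => e ^ a)
    (H31.mul_pow_part_of_isElementary hp hE hcop hEc ham han)
  have hφ : ∀ e, φ (φ e) = φ e := fun e =>
    H31.pow_part_eq_self han (H31.pow_part_pow_eq_one ham (hxE e))
  have hcard : Nat.card E = Nat.card φ.ker * Nat.card φ.range := by
    rw [← Subgroup.index_ker, Subgroup.card_mul_index]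
  have hV : Nat.card φ.range ∣ n := by
    have h1 : Nat.Coprime (Nat.card φ.range) m := by
      apply H31.card_coprime_of_forall_pow_eq_one hcop
      rintro ⟨_, e, rfl⟩
      exact Subtype.ext (H31.pow_part_pow_eq_one ham (hxE e))
    exact h1.dvd_of_dvd_mul_left ((Subgroup.card_subgroup_dvd_card _).trans hEc)
  obtain ⟨d, hd⟩ := hV
  change (Nat.card E : ℂ)⁻¹ * ∑ e : E, ϑ e * conj (ξ e) ∈ integralClosure ℤ ℂ
  rw [H31.sum_eq_sum_range_ker φ hφ, Finset.mul_sum]
  refine Subalgebra.sum_mem _ fun v _ => ?_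
  have hv : ∀ u : φ.ker, ϑ ((u : E) * v : E) = ϑ (v : E) := by
    intro u
    rw [hϑ, hϑ]
    have h1 : φ (u * v) = φ v := by rw [map_mul, u.2, one_mul]
    have h2 : (((u : E) * v : E) : G) ^ a = ((v : E) : G) ^ a := congrArg Subtype.val h1
    rw [h2]
  simp only [hv]
  rw [← Finset.mul_sum, hϑ]
  split_ifs with h
  · have h1 := H31.isIntegral_conj (H5.isIntegral_apply (H31.isCharacter_avg_normal φ.ker hξ) v)
    have h2 : IsIntegral ℤ ((d : ℂ) * _) := (isIntegral_natCast d).mul h1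
    change IsIntegral ℤ _
    convert h2 using 1
    have h3 := H6.card_ne_zero_complex φ.range
    have h4 := H6.card_ne_zero_complex φ.ker
    simp only [map_mul, map_inv₀, map_natCast, map_sum]
    rw [hcard, hd]
    push_cast
    field_simp
  · rw [zero_mul, mul_zero]
    exact Subalgebra.zero_mem _

end Cfsg.Agent.S0875
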