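import Cfsg.Statements.S0876
import Cfsg.Agent.S0875
import Cfsg.Agent.H32.LocRing

set_option autoImplicit false
open Cfsg

namespace Cfsg.Agent.S0876

/-- a character takes congruent values at `x` and at the `p'`-part of `x` -/
theorem apply_sub_mem {G : Type*} [Group G] [Finite G] {p : ℕ} {M : Ideal Cfsg.AlgInt}
    [M.IsMaximal] (hM : Cfsg.IsPModular p M) {χ : G → ℂ} (hχ : IsCharacter G χ) {x a : G}
    (ha : Cfsg.IsPPart p x a) : χ x - χ (a⁻¹ * x) ∈ H32.locMax M := by
  obtain ⟨y, hy, hay, ⟨k, hk⟩, hpy⟩ := ha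
  have hp := hM.1
  have hcop : Nat.Coprime (p ^ k) (orderOf y) :=
    Nat.Coprime.pow_left k ((Nat.Prime.coprime_iff_not_dvd hp).mpr hpy)
  obtain ⟨c, hc1, hc2⟩ := H31.exists_part_exponent hcop
  have hy' : a⁻¹ * x = x ^ (c : ℤ) := by
    rw [zpow_natCast, ← hy, hay.mul_pow, H31.pow_part_eq_one hc1 (hk ▸ pow_orderOf_eq_one a),
      H31.pow_part_eq_self hc2 (pow_orderOf_eq_one y), inv_mul_cancel_left, one_mul]
  obtain ⟨d, μ, -, hμ, hχμ⟩ := H5.exists_eigenvalues hχ x
  have h1 := hχμ 1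
  rw [zpow_one] at h1
  rw [hy', h1, hχμ, ← Finset.sum_sub_distrib]
  refine Submodule.sum_mem _ fun i _ => ?_
  have hx : x ^ (p ^ k * orderOf y) = 1 := by
    rw [← hy, hay.mul_pow, pow_mul, ← hk, pow_orderOf_eq_one, one_pow, mul_comm (orderOf a),
      pow_mul, pow_orderOf_eq_one, one_pow, one_mul]
  have hμ0 : μ i ≠ 0 := by
    intro h
    have := hμ i
    rw [h, zero_pow (orderOf_pos x).ne'] at this
    exact zero_ne_one this
  have hμ1 : (Units.mk0 (μ i) hμ0) ^ (p ^ k * orderOf y) = 1 := by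
    obtain ⟨e, he⟩ := orderOf_dvd_of_pow_eq_one hx
    apply Units.ext
    rw [he, pow_mul]
    simp [hμ i]
  have h2 := congrArg Units.val (H31.mul_inv_part_pow_eq_one hc2 hμ1)
  simp only [Units.val_pow_eq_pow_val, Units.val_mul, Units.val_mk0, Units.val_inv_eq_inv_val,
    Units.val_one] at h2
  have h3 := H32.sub_one_mem_locMax_of_pow_p_pow hM h2
  have h4 : μ i ^ c ∈ H32.locRing M := by
    apply H32.mem_locRing_of_isIntegral
    apply IsIntegral.pow
    exact IsIntegral.of_pow (orderOf_pos x) (by rw [hμ i]; exact isIntegral_one)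
  have h5 := H32.mul_mem_locMax_left h4 h3
  convert h5 using 1
  have : μ i ^ c ≠ 0 := pow_ne_zero _ hμ0
  rw [zpow_one, zpow_natCast]
  field_simp

theorem result {G : Type*} [Group G] [Finite G] (p : ℕ) (M : Ideal Cfsg.AlgInt) (hM : Cfsg.IsPModular p M) (x y a b : G) (ha : Cfsg.IsPPart p x a) (hb : Cfsg.IsPPart p y b) : IsConj (a⁻¹ * x) (b⁻¹ * y) ↔ ∀ χ : Cfsg.IrrCharacter G, Cfsg.MemLocalIdeal M ((χ : G → ℂ) x - (χ : G → ℂ) y) := by
  classical
  haveI := hM.2.1
  have hp := hM.1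
  letI := Fintype.ofFinite G
  constructor
  · intro h χ
    have hχ := H5.isCharacter_of_isIrr χ.2
    have h1 := apply_sub_mem hM hχ ha
    have h2 := apply_sub_mem hM hχ hb
    rw [H5.isClassFunction_apply_of_isConj (H5.isClassFunction_of_isCharacter hχ) h] at h1
    exact H32.mem_locMax.mp (H32.sub_mem_locMax_trans h1 (H32.sub_mem_locMax_comm h2))
  · intro h
    by_contra hcon
    obtain ⟨k, n, hn, hG⟩ := Nat.exists_eq_pow_mul_and_not_dvd (Nat.card_pos (α := G)).ne' p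
      hp.ne_one
    have hpn : Nat.Coprime p n := (Nat.Prime.coprime_iff_not_dvd hp).mpr hn
    have hcop : Nat.Coprime (p ^ k) n := Nat.Coprime.pow_left k hpn
    obtain ⟨x', hx', hax, ⟨i, hi⟩, hpx⟩ := ha
    obtain ⟨y', hy', hby, ⟨j, hj⟩, hpy⟩ := hb
    have hxa : a⁻¹ * x = x' := by rw [← hx', inv_mul_cancel_left]
    have hyb : b⁻¹ * y = y' := by rw [← hy', inv_mul_cancel_left]
    rw [hxa, hyb] at hcon
    have hx'c : Nat.Coprime (orderOf x') (p ^ k) :=
      Nat.Coprime.pow_right k ((Nat.Prime.coprime_iff_not_dvd hp).mpr hpx).symm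
    let Q : G → Prop := fun z => ∃ v : G, IsConj v x' ∧ (∃ u : G, z = u * v ∧ Commute u v ∧
      Nat.Coprime (orderOf u) n ∧ Nat.Coprime (orderOf v) (p ^ k))
    obtain ⟨c, hc, hsum⟩ := S0875.result (p ^ k) n hG hcop x' hx'c
      (fun z => if Q z then (n : ℂ) else 0) (fun z hz => if_pos hz) (fun z hz => if_neg hz)
    have hQx : Q x := ⟨x', IsConj.refl _, a, hx'.symm, hax,
      by rw [hi]; exact Nat.Coprime.pow_left i hpn, hx'c⟩
    have hQy : ¬ Q y := by
      rintro ⟨v, hv, u, huv, hc', hu, hv'⟩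
      apply hcon
      have hu' : u ^ p ^ k = 1 := orderOf_dvd_iff_pow_eq_one.mp
        (hu.dvd_of_dvd_mul_right (hG ▸ orderOf_dvd_natCard u))
      have hb' : b ^ p ^ k = 1 := orderOf_dvd_iff_pow_eq_one.mp
        ((hj ▸ Nat.Coprime.pow_left j hpn : Nat.Coprime (orderOf b) n).dvd_of_dvd_mul_right
          (hG ▸ orderOf_dvd_natCard b))
      have : v = y' := H31.eq_of_mul_eq_mul_of_coprime hc' hby (huv.symm.trans hy'.symm) hu' hb' hv'
        (Nat.Coprime.pow_right k ((Nat.Prime.coprime_iff_not_dvd hp).mpr hpy).symm)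
      exact this ▸ hv.symm
    rw [finsum_eq_sum_of_fintype] at hsum
    have h1 := congrFun hsum x
    have h2 := congrFun hsum y
    simp only [if_pos hQx, if_neg hQy, Finset.sum_apply, Pi.smul_apply, smul_eq_mul] at h1 h2
    have h3 : (n : ℂ) ∈ H32.locMax M := by
      rw [← sub_zero (n : ℂ), h1, h2, ← Finset.sum_sub_distrib]
      refine Submodule.sum_mem _ fun χ _ => ?_
      rw [← mul_sub]
      exact H32.mul_mem_locMax_left (H32.mem_locRing_of_isIntegral (hc χ))
        (H32.mem_locMax.mpr (h χ))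
    exact hn ((H32.natCast_mem_locMax_iff hM).mp h3)

end Cfsg.Agent.S0876
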