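import Cfsg.Statements.S0056
import Cfsg.Agent.H2.AbelianCoprime

set_option autoImplicit false
open Cfsg

namespace Cfsg.Agent.S0056

/-- A coprime action on an abelian group that fixes all elements of prime order is trivial. -/
theorem result {G : Type*} [Group G] [Finite G] (A V : Subgroup G) [IsMulCommutative V]
    (hAV : A ≤ Subgroup.normalizer (V : Set G)) (hcop : (Nat.card A).Coprime (Nat.card V))
    (hΩ : ∀ v ∈ V, (orderOf v).Prime → ∀ a ∈ A, a * v = v * a) : A ≤ Subgroup.centralizer (V : Set G) := by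
  obtain ⟨h1, -⟩ := H2.coprime_abelian_decomposition A V hAV hcop
  rw [← Subgroup.le_centralizer_iff, ← Subgroup.commutator_eq_bot_iff_le_centralizer]
  by_contra hne
  obtain ⟨p, hp, x, hx, hxp⟩ := H2.exists_mem_prime_orderOf hne
  have hxV : x ∈ V := Subgroup.le_normalizer_iff_commutator_le_left.mp hAV hx
  have : x ∈ (V ⊓ Subgroup.centralizer (A : Set G)) ⊓ ⁅V, A⁆ :=
    ⟨⟨hxV, fun a ha => hΩ x hxV (hxp ▸ hp) a ha⟩, hx⟩
  rw [h1, Subgroup.mem_bot] at this
  rw [this, orderOf_one] at hxp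
  exact hp.one_lt.ne hxp

end Cfsg.Agent.S0056
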