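import Cfsg.Statements.S1588
import Cfsg.Agent.H56.EvenLattice

set_option autoImplicit false
open Matrix
open Cfsg

namespace Cfsg.Agent.S1588

open Cfsg.Agent.H56

/-- reduction modulo 2 -/
def red (x : Fin 24 → ℤ) : Fin 24 → ZMod 2 := fun i => (x i : ZMod 2)

theorem red_eq_iff (x y : Fin 24 → ℤ) : red x = red y ↔ ∀ i, (2 : ℤ) ∣ (x - y) i := by
  unfold red
  rw [funext_iff]
  refine forall_congr' fun i => ?_
  rw [eq_comm, ZMod.intCast_eq_intCast_iff_dvd_sub]
  simp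

/-- Second step of the characterisation: under the vector counts of the rank-24 lattice, the norm-8 vectors fall into congruence classes of exactly 48 modulo twice the lattice. -/
theorem result (B : Matrix (Fin 24) (Fin 24) ℤ) (hsymm : B.IsSymm) (hpos : ∀ x : Fin 24 → ℤ, x ≠ 0 → 0 < x ⬝ᵥ (B *ᵥ x)) (heven : ∀ x : Fin 24 → ℤ, (2 : ℤ) ∣ x ⬝ᵥ (B *ᵥ x)) (h2 : ∀ x : Fin 24 → ℤ, x ⬝ᵥ (B *ᵥ x) ≠ 2) (h4 : {x : Fin 24 → ℤ | x ⬝ᵥ (B *ᵥ x) = 4}.ncard = 196560) (h6 : {x : Fin 24 → ℤ | x ⬝ᵥ (B *ᵥ x) = 6}.ncard = 16773120) (h8 : {x : Fin 24 → ℤ | x ⬝ᵥ (B *ᵥ x) = 8}.ncard = 398034000) (x : Fin 24 → ℤ) (hx : x ⬝ᵥ (B *ᵥ x) = 8) : {y : Fin 24 → ℤ | y ⬝ᵥ (B *ᵥ y) = 8 ∧ ∀ i, (2 : ℤ) ∣ (x - y) i}.ncard = 48 := by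
  classical
  have hf4 : {x : Fin 24 → ℤ | x ⬝ᵥ (B *ᵥ x) = 4}.Finite :=
    Set.finite_of_ncard_ne_zero (by rw [h4]; norm_num)
  have hf6 : {x : Fin 24 → ℤ | x ⬝ᵥ (B *ᵥ x) = 6}.Finite :=
    Set.finite_of_ncard_ne_zero (by rw [h6]; norm_num)
  have hf8 : {x : Fin 24 → ℤ | x ⬝ᵥ (B *ᵥ x) = 8}.Finite :=
    Set.finite_of_ncard_ne_zero (by rw [h8]; norm_num)
  rw [Set.ncard_eq_toFinset_card _ hf4] at h4
  rw [Set.ncard_eq_toFinset_card _ hf6] at h6
  rw [Set.ncard_eq_toFinset_card _ hf8] at h8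
  set S4 := hf4.toFinset
  set S6 := hf6.toFinset
  set S8 := hf8.toFinset
  have m4 : ∀ y, y ∈ S4 ↔ y ⬝ᵥ (B *ᵥ y) = 4 := fun y => by simp [S4]
  have m6 : ∀ y, y ∈ S6 ↔ y ⬝ᵥ (B *ᵥ y) = 6 := fun y => by simp [S6]
  have m8 : ∀ y, y ∈ S8 ↔ y ⬝ᵥ (B *ᵥ y) = 8 := fun y => by simp [S8]
  have hneg : ∀ y : Fin 24 → ℤ, (-y) ⬝ᵥ (B *ᵥ (-y)) = y ⬝ᵥ (B *ᵥ y) := fun y => by
    simp [Matrix.mulVec_neg]
  -- key: congruent vectors with small total norm are equal or opposite
  have key : ∀ y z : Fin 24 → ℤ, red y = red z → y ⬝ᵥ (B *ᵥ y) + z ⬝ᵥ (B *ᵥ z) < 16 →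
      z = y ∨ z = -y := by
    intro y z h hlt
    by_contra hcon
    push Not at hcon
    have := congr_two_bounds B hsymm hpos heven h2 y z ((red_eq_iff y z).mp h) hcon.1 hcon.2
    omega
  have fib2 : ∀ (S : Finset (Fin 24 → ℤ)) (k : ℤ), k < 8 → (∀ y ∈ S, y ⬝ᵥ (B *ᵥ y) = k) →
      S.card ≤ 2 * (S.image red).card := by
    intro S k hk hS
    apply Finset.card_le_mul_card_image
    intro c hc
    obtain ⟨y, hy, rfl⟩ := Finset.mem_image.mp hc
    refine le_trans (Finset.card_le_card (t := {y, -y}) ?_) Finset.card_le_two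
    intro z hz
    rw [Finset.mem_filter] at hz
    have := key y z hz.2.symm (by rw [hS y hy, hS z hz.1]; omega)
    simpa using this
  have f4 := fib2 S4 4 (by norm_num) (fun y hy => (m4 y).mp hy)
  have f6 := fib2 S6 6 (by norm_num) (fun y hy => (m6 y).mp hy)
  have disj : ∀ (S T : Finset (Fin 24 → ℤ)) (k l : ℤ), k ≠ l → k + l < 16 →
      (∀ y ∈ S, y ⬝ᵥ (B *ᵥ y) = k) → (∀ y ∈ T, y ⬝ᵥ (B *ᵥ y) = l) →
      Disjoint (S.image red) (T.image red) := by
    intro S T k l hkl hlt hS hT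
    rw [Finset.disjoint_left]
    intro c hc hc'
    obtain ⟨y, hy, rfl⟩ := Finset.mem_image.mp hc
    obtain ⟨z, hz, hzy⟩ := Finset.mem_image.mp hc'
    have h1 := hS y hy
    have h3 := hT z hz
    rcases key y z hzy.symm (by omega) with h | h
    · subst h; omega
    · subst h; rw [hneg] at h3; omega
  have z0 : ∀ y ∈ ({0} : Finset (Fin 24 → ℤ)), y ⬝ᵥ (B *ᵥ y) = 0 := by
    intro y hy; rw [Finset.mem_singleton] at hy; subst hy; simp
  have d04 := disj {0} S4 0 4 (by norm_num) (by norm_num) z0 (fun y hy => (m4 y).mp hy)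
  have d06 := disj {0} S6 0 6 (by norm_num) (by norm_num) z0 (fun y hy => (m6 y).mp hy)
  have d08 := disj {0} S8 0 8 (by norm_num) (by norm_num) z0 (fun y hy => (m8 y).mp hy)
  have d46 := disj S4 S6 4 6 (by norm_num) (by norm_num) (fun y hy => (m4 y).mp hy)
    (fun y hy => (m6 y).mp hy)
  have d48 := disj S4 S8 4 8 (by norm_num) (by norm_num) (fun y hy => (m4 y).mp hy)
    (fun y hy => (m8 y).mp hy)
  have d68 := disj S6 S8 6 8 (by norm_num) (by norm_num) (fun y hy => (m6 y).mp hy)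
    (fun y hy => (m8 y).mp hy)
  have htot : ((({0} : Finset (Fin 24 → ℤ)).image red ∪ S4.image red) ∪ S6.image red ∪
      S8.image red).card ≤ 2 ^ 24 := by
    refine le_trans (Finset.card_le_univ _) ?_
    simp [Fintype.card_pi, ZMod.card]
  rw [Finset.card_union_of_disjoint (by simp [Finset.disjoint_union_left, d08, d48, d68, -Finset.image_singleton]),
    Finset.card_union_of_disjoint (by simp [Finset.disjoint_union_left, d06, d46, -Finset.image_singleton]),
    Finset.card_union_of_disjoint d04, Finset.image_singleton, Finset.card_singleton] at htot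
  have hI8 : (S8.image red).card ≤ 8292375 := by omega
  have fib48 : ∀ c, (S8.filter fun y => red y = c).card ≤ 48 := by
    intro c
    have := card_le_of_pairwise_orth B (S8.filter fun y => red y = c)
      (fun y hy => by rw [(m8 y).mp (Finset.mem_filter.mp hy).1]; norm_num)
      (fun y hy z hz => by
        rw [Finset.mem_filter] at hy hz
        by_cases h1 : z = y
        · exact Or.inl h1
        by_cases h3 : z = -y
        · exact Or.inr (Or.inl h3)
        have := congr_two_bounds B hsymm hpos heven h2 y z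
          ((red_eq_iff y z).mp (hy.2.trans hz.2.symm)) h1 h3
        have h5 := (m8 y).mp hy.1
        have h6 := (m8 z).mp hz.1
        right; right; omega)
    simpa using this
  have hsum := Finset.card_eq_sum_card_image red S8
  have hxm : red x ∈ S8.image red := Finset.mem_image_of_mem _ ((m8 x).mpr hx)
  have heq : (S8.filter fun y => red y = red x).card = 48 := by
    by_contra hne
    have hlt : ∑ c ∈ S8.image red, (S8.filter fun y => red y = c).card <
        ∑ c ∈ S8.image red, 48 :=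
      Finset.sum_lt_sum (fun c _ => fib48 c) ⟨red x, hxm, lt_of_le_of_ne (fib48 _) hne⟩
    rw [Finset.sum_const, smul_eq_mul] at hlt
    omega
  rw [← heq, ← Set.ncard_coe_finset]
  congr 1
  ext y
  simp only [Set.mem_ofPred_eq, Finset.coe_filter, m8, ← red_eq_iff, eq_comm (a := red y)]

end Cfsg.Agent.S1588
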