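import Cfsg.Statements.S0406
import Cfsg.Agent.H15.Charac
import Cfsg.Agent.S1587
import Cfsg.Agent.S1588

set_option autoImplicit false
open Matrix
open Cfsg

namespace Cfsg.Agent.S0406

theorem exists_frame (B : Matrix (Fin 24) (Fin 24) ℤ) (hsymm : B.IsSymm) (x0 : Fin 24 → ℤ)
    (h48 : {y : Fin 24 → ℤ | y ⬝ᵥ (B *ᵥ y) = 8 ∧ ∀ i, (2 : ℤ) ∣ (x0 - y) i}.ncard = 48)
    (horth : ∀ x y : Fin 24 → ℤ, x ⬝ᵥ (B *ᵥ x) = 8 → y ⬝ᵥ (B *ᵥ y) = 8 → (∀ i, (2 : ℤ) ∣ (x - y) i) →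
      y = x ∨ y = -x ∨ x ⬝ᵥ (B *ᵥ y) = 0) :
    ∃ v : Fin 24 → Fin 24 → ℤ, (∀ i j, (2 : ℤ) ∣ (x0 - v i) j) ∧
      (∀ i j, v i ⬝ᵥ (B *ᵥ v j) = if i = j then 8 else 0) ∧
      ∀ x, ∑ i, (v i ⬝ᵥ (B *ᵥ x)) ^ 2 = 8 * (x ⬝ᵥ (B *ᵥ x)) := by
  classical
  have hf := Set.finite_of_ncard_ne_zero (h48.trans_ne (by norm_num))
  rw [Set.ncard_eq_toFinset_card _ hf] at h48
  set T := hf.toFinset with hT
  have mT : ∀ y, y ∈ T ↔ y ⬝ᵥ (B *ᵥ y) = 8 ∧ ∀ i, (2 : ℤ) ∣ (x0 - y) i := fun y => by simp [hT]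
  have hneg : ∀ y ∈ T, -y ∈ T := fun y hy => by
    rw [mT] at hy ⊢
    refine ⟨by simpa [Matrix.mulVec_neg] using hy.1, fun i => ?_⟩
    have := hy.2 i
    simp only [Pi.sub_apply, Pi.neg_apply] at this ⊢
    omega
  have hne : ∀ y ∈ T, y ≠ -y := fun y hy e => by
    have : y = 0 := funext fun i => by have := congrFun e i; simp at this ⊢; omega
    have h := ((mT y).1 hy).1
    rw [this] at h
    simp at h
  let U := T.filter fun y => toLex (-y) < toLex y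
  have hU : U.card = 24 := by
    have h1 := Finset.card_filter_add_card_filter_not (s := T) fun y => toLex (-y) < toLex y
    have h2 : (T.filter fun y => ¬ toLex (-y) < toLex y).card = U.card := by
      refine Finset.card_bij (fun y _ => -y) (fun y hy => ?_) (fun a _ b _ e => neg_injective e)
        fun y hy => ?_
      · rw [Finset.mem_filter] at hy ⊢
        refine ⟨hneg y hy.1, ?_⟩
        rw [neg_neg]
        exact lt_of_le_of_ne (not_lt.1 hy.2) fun e => hne y hy.1 (toLex.injective e)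
      · rw [Finset.mem_filter] at hy
        exact ⟨-y, Finset.mem_filter.2 ⟨hneg y hy.1, by rw [neg_neg]; exact not_lt.2 hy.2.le⟩, neg_neg y⟩
    change U.card + _ = _ at h1
    omega
  let e := Finset.equivFinOfCardEq hU
  let v : Fin 24 → Fin 24 → ℤ := fun i => (e.symm i).1
  have hv : ∀ i, v i ∈ T ∧ toLex (-v i) < toLex (v i) := fun i =>
    (Finset.mem_filter (p := fun y => toLex (-y) < toLex y)).1 (e.symm i).2
  have hvv : ∀ i j, v i ⬝ᵥ (B *ᵥ v j) = if i = j then 8 else 0 := fun i j => by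
    have a := (mT _).1 (hv i).1
    have b := (mT _).1 (hv j).1
    split_ifs with hij
    · rw [← hij]; exact a.1
    rcases horth _ _ a.1 b.1 (fun l => by
      have := a.2 l; have := b.2 l; simp only [Pi.sub_apply] at *; omega) with h | h | h
    · exact absurd (e.symm.injective (Subtype.ext h)).symm hij
    · have c := (hv j).2
      rw [h, neg_neg] at c
      exact absurd (hv i).2 (not_lt.2 c.le)
    · exact h
  refine ⟨v, fun i => ((mT _).1 (hv i).1).2, hvv, fun x => ?_⟩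
  let V : Matrix (Fin 24) (Fin 24) ℤ := Matrix.of v
  have h1 : V * (B * Vᵀ) = (8 : ℤ) • (1 : Matrix (Fin 24) (Fin 24) ℤ) := by
    ext i j
    have : (V * (B * Vᵀ)) i j = v i ⬝ᵥ (B *ᵥ v j) := rfl
    rw [this, hvv, Matrix.smul_apply, Matrix.one_apply]
    split_ifs <;> rfl
  have hdet : V.det ≠ 0 := fun h => by
    have := congrArg Matrix.det h1
    rw [Matrix.det_mul, h, zero_mul, Matrix.det_smul, Matrix.det_one] at this
    norm_num at this
  have h2 : B * Vᵀ * V = (8 : ℤ) • (1 : Matrix (Fin 24) (Fin 24) ℤ) := by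
    have h3 : V * (B * Vᵀ * V - (8 : ℤ) • 1) = 0 := by
      rw [Matrix.mul_sub, ← Matrix.mul_assoc, h1, Matrix.smul_mul, Matrix.mul_smul, Matrix.one_mul,
        Matrix.mul_one, sub_self]
    have h4 := congrArg (V.adjugate * ·) h3
    simp only [← Matrix.mul_assoc, Matrix.adjugate_mul, Matrix.mul_zero, Matrix.smul_mul,
      Matrix.one_mul] at h4
    exact sub_eq_zero.1 ((smul_eq_zero.1 h4).resolve_left hdet)
  have h3 : ∑ i, (v i ⬝ᵥ (B *ᵥ x)) ^ 2 = (V *ᵥ (B *ᵥ x)) ⬝ᵥ (V *ᵥ (B *ᵥ x)) :=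
    Finset.sum_congr rfl fun i _ => pow_two _
  rw [h3, Matrix.dotProduct_mulVec, Matrix.vecMul_mulVec, ← Matrix.dotProduct_mulVec, dotProduct_comm,
    ← H56.bil_comm B hsymm, Matrix.mulVec_mulVec, ← Matrix.mul_assoc, h2, Matrix.smul_mulVec,
    Matrix.one_mulVec, dotProduct_smul, smul_eq_mul]

/-- A rank-24 even lattice with no roots and the stated numbers of vectors of norms 4, 6, 8 is isomorphic to the Leech lattice. -/
theorem result (B : Matrix (Fin 24) (Fin 24) ℤ) (hsymm : B.IsSymm) (hpos : ∀ x : Fin 24 → ℤ, x ≠ 0 → 0 < x ⬝ᵥ (B *ᵥ x)) (heven : ∀ x : Fin 24 → ℤ, (2 : ℤ) ∣ x ⬝ᵥ (B *ᵥ x)) (h2 : ∀ x : Fin 24 → ℤ, x ⬝ᵥ (B *ᵥ x) ≠ 2) (h4 : {x : Fin 24 → ℤ | x ⬝ᵥ (B *ᵥ x) = 4}.ncard = 196560) (h6 : {x : Fin 24 → ℤ | x ⬝ᵥ (B *ᵥ x) = 6}.ncard = 16773120) (h8 : {x : Fin 24 → ℤ | x ⬝ᵥ (B *ᵥ x) = 8}.ncard = 398034000) : ∃ f : (Fin 24 → ℤ) ≃+ Cfsg.leechLattice, ∀ x : Fin 24 → ℤ, Cfsg.sqNorm ((f x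 : Cfsg.leechLattice) : Cfsg.GolayPt → ℤ) = 8 * (x ⬝ᵥ (B *ᵥ x)) := by
  have h48 := S1588.result B hsymm hpos heven h2 h4 h6 h8
  have horth := S1587.result B hsymm hpos heven h2
  obtain ⟨x0, hx0⟩ := Set.nonempty_of_ncard_ne_zero (h8.trans_ne (by norm_num))
  obtain ⟨v, hc, hvv, hP⟩ := exists_frame B hsymm x0 (h48 x0 hx0) horth
  let e := H14.ptEquiv
  let φ : (Fin 24 → ℤ) →+ H15.Vec := AddMonoidHom.mk' (fun x p => v (e p) ⬝ᵥ (B *ᵥ x)) fun x y =>
    funext fun p => by simp [Matrix.mulVec_add]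
  have hφ : ∀ x p, φ x p = v (e p) ⬝ᵥ (B *ᵥ x) := fun _ _ => rfl
  have hn : ∀ x, sqNorm (φ x) = 8 * (x ⬝ᵥ (B *ᵥ x)) := fun x => by
    rw [← hP]; exact Equiv.sum_comp e fun i => (v i ⬝ᵥ (B *ᵥ x)) ^ 2
  have hinj : Function.Injective φ := (injective_iff_map_eq_zero φ).2 fun x hx => by
    by_contra h0
    have h1 := hpos x h0
    have h3 := hn x
    rw [hx] at h3
    simp [sqNorm] at h3
    omega
  have half : ∀ a b : Fin 24 → ℤ, (∀ i, (2 : ℤ) ∣ (a - b) i) → ∃ w, a - b = (2 : ℤ) • w :=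
    fun a b h => ⟨fun i => (a - b) i / 2, funext fun i => by have := h i; simp at this ⊢; omega⟩
  have hvd : ∀ i j, ∃ w, v i - v j = (2 : ℤ) • w := fun i j => half _ _ fun l => by
    have := hc i l; have := hc j l; simp only [Pi.sub_apply] at *; omega
  have hφv : ∀ p, φ (v (e p)) = Pi.single p 8 := fun p => funext fun q => by
    rw [hφ, hvv, Pi.single_apply]; simp
  have hF : H15.Fr φ.range := by
    refine ⟨?_, ?_, ?_, H15.four_mul_mem _ fun i => ?_, ?_, ?_⟩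
    · rintro _ ⟨x, rfl⟩ i j
      obtain ⟨w, hw⟩ := hvd (e i) (e j)
      have := congrArg (· ⬝ᵥ (B *ᵥ x)) hw
      simp only [sub_dotProduct, smul_dotProduct, smul_eq_mul] at this
      rw [hφ, hφ]
      omega
    · rintro _ ⟨x, rfl⟩
      have := heven x
      rw [hn]; omega
    · rintro _ ⟨x, rfl⟩
      have := h2 x
      rw [hn]; omega
    · obtain ⟨w, hw⟩ := hvd (e i) (e none)
      refine ⟨w + v (e none), smul_right_injective _ (two_ne_zero (α := ℤ)) ?_⟩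
      change (2 : ℤ) • φ _ = (2 : ℤ) • H15.vFour i
      rw [← map_zsmul, smul_add, ← hw, map_add, map_sub, map_zsmul, hφv, hφv]
      funext l
      simp only [H15.vFour, Pi.add_apply, Pi.sub_apply, Pi.smul_apply, Pi.single_apply]
      split_ifs <;> rfl
    · rintro _ ⟨x, rfl⟩ hx p
      have hx8 : x ⬝ᵥ (B *ᵥ x) = 8 := by rw [hn] at hx; omega
      obtain ⟨u, hu1, hu2, hu3⟩ := exists_frame B hsymm x (h48 x hx8) horth
      have h1 := hu3 (v (e p))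
      rw [hvv, if_pos rfl] at h1
      obtain ⟨i, -, hi⟩ := Finset.exists_ne_zero_of_sum_ne_zero (h1.trans_ne (by norm_num))
      obtain ⟨w, hw⟩ := half _ _ (hu1 i)
      have h3 : φ x - (2 : ℤ) • φ w = φ (u i) := by
        rw [← map_zsmul, ← map_sub, ← hw, sub_sub_cancel]
      refine ⟨φ w, ⟨w, rfl⟩, ?_, ?_⟩
      · rw [h3, hn, hu2, if_pos rfl]; rfl
      · rw [h3, hφ, H56.bil_comm B hsymm]
        exact fun h => hi (by rw [h]; rfl)
    · rw [← h4, ← Set.ncard_image_of_injective _ hinj]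
      congr 1
      ext y
      constructor
      · rintro ⟨⟨x, rfl⟩, hx⟩
        exact ⟨x, by rw [hn] at hx; change _ = _; omega, rfl⟩
      · rintro ⟨x, hx, rfl⟩
        exact ⟨⟨x, rfl⟩, by rw [hn, show x ⬝ᵥ (B *ᵥ x) = 4 from hx]; rfl⟩
  obtain ⟨F, hFn, hFL⟩ := hF.exists_map
  have hm : ∀ x, (F.comp φ) x ∈ leechLattice := fun x => hFL ▸ ⟨φ x, ⟨x, rfl⟩, rfl⟩
  refine ⟨AddEquiv.ofBijective ((F.comp φ).codRestrict leechLattice hm) ⟨?_, ?_⟩,
    fun x => (hFn _).trans (hn x)⟩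
  · refine (injective_iff_map_eq_zero _).2 fun x hx => hinj ?_
    have h1 : F (φ x) = 0 := congrArg Subtype.val hx
    rw [map_zero]
    exact H15.sqNorm_eq_zero (by rw [← hFn, h1]; simp [sqNorm])
  · rintro ⟨y, hy⟩
    rw [← hFL] at hy
    obtain ⟨_, ⟨x, rfl⟩, rfl⟩ := hy
    exact ⟨x, rfl⟩

end Cfsg.Agent.S0406
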