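import Cfsg.Statements.S1632
import Cfsg.Agent.H85.Theta

set_option autoImplicit false
open Matrix
open Cfsg

namespace Cfsg.Agent.S1632

section
open Cfsg.Agent.H85 Complex ModularForm MatrixGroups EisensteinSeries
open UpperHalfPlane hiding I
open scoped Real

theorem hasSum_q {n : ℕ} (B : Matrix (Fin n) (Fin n) ℤ)
    (hpos : ∀ x : Fin n → ℤ, x ≠ 0 → 0 < x ⬝ᵥ (B *ᵥ x))
    (heven : ∀ x : Fin n → ℤ, (2 : ℤ) ∣ x ⬝ᵥ (B *ᵥ x)) (τ : ℂ) (hs : Summable (thT B τ)) :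
    HasSum (fun m : ℕ => (({x : Fin n → ℤ | x ⬝ᵥ (B *ᵥ x) = 2 * m}.ncard : ℕ) : ℂ) •
      Function.Periodic.qParam 1 τ ^ m) (∑' x, thT B τ x) := by
  let g : (Fin n → ℤ) → ℕ := fun x => (x ⬝ᵥ (B *ᵥ x) / 2).toNat
  have hg : ∀ x, x ⬝ᵥ (B *ᵥ x) = 2 * g x := fun x => by
    have h0 : 0 ≤ x ⬝ᵥ (B *ᵥ x) := by
      by_cases h : x = 0
      · simp [h]
      · exact (hpos x h).le
    have := heven x
    simp only [g]
    omega
  refine (hs.hasSum.tsum_fiberwise g).congr_fun fun m => ?_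
  have h1 : ∀ b : g ⁻¹' {m}, thT B τ b = Function.Periodic.qParam 1 τ ^ m := by
    rintro ⟨b, rfl⟩
    rw [thT, hg, Function.Periodic.qParam, ← Complex.exp_nat_mul]
    congr 1
    push_cast; ring
  have h2 : {x : Fin n → ℤ | x ⬝ᵥ (B *ᵥ x) = 2 * m} = g ⁻¹' {m} := by
    ext x
    simp only [Set.mem_ofPred_eq, Set.mem_preimage, Set.mem_singleton_iff, hg]
    omega
  rw [tsum_congr h1, tsum_const, h2, Nat.card_coe_set_eq, smul_eq_mul, nsmul_eq_mul]

theorem theta_S (B : Matrix (Fin 24) (Fin 24) ℤ) (hsymm : B.IsSymm)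
    (hpos : ∀ x : Fin 24 → ℤ, x ≠ 0 → 0 < x ⬝ᵥ (B *ᵥ x)) (hdet : B.det = 1) (τ : ℂ)
    (hτ : 0 < τ.im) : ∑' x, thT B (-1 / τ) x = τ ^ 12 * ∑' x, thT B τ x := by
  obtain ⟨h1, -, C, hC⟩ := theta_trans B hsymm hpos hdet
  have hI : ∑' x, thT B I x ≠ 0 := by
    have h2 : ∀ x, thT B I x = ((Real.exp (-π * (x ⬝ᵥ (B *ᵥ x) : ℤ)) : ℝ) : ℂ) := fun x => by
      rw [thT, ofReal_exp]
      congr 1
      push_cast
      linear_combination (π * ((x ⬝ᵥ (B *ᵥ x) : ℤ) : ℂ)) * I_mul_I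
    have h3 : Summable fun x : Fin 24 → ℤ => Real.exp (-π * (x ⬝ᵥ (B *ᵥ x) : ℤ)) := by
      have := h1 I (by simp)
      rw [funext h2] at this
      exact summable_ofReal.1 this
    rw [tsum_congr h2, ← ofReal_tsum, ofReal_ne_zero]
    exact (h3.tsum_pos (fun _ => (Real.exp_pos _).le) 0 (Real.exp_pos _)).ne'
  have hC1 : C = 1 := by
    have h2 := hC I (by simp)
    have h3 : -1 / I = I := by field_simp; simp
    have h4 : -I * I = 1 := by simp
    rw [h3, h4, one_cpow] at h2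
    simp only [div_one, one_pow, mul_one] at h2
    exact (mul_eq_right₀ hI).1 h2.symm
  have hτ0 : τ ≠ 0 := by rintro rfl; simp at hτ
  have h5 : ((-I * τ) ^ (1 / 2 : ℂ)) ^ 24 = τ ^ 12 := by
    have h6 : ((-I * τ) ^ (1 / 2 : ℂ)) ^ 2 = -I * τ := by
      rw [one_div]; exact cpow_ofNat_inv_pow _ 2
    have h7 : (-I) ^ 12 = 1 := by
      rw [show 12 = 4 * 3 from rfl, pow_mul, Even.neg_pow (by decide), I_pow_four, one_pow]
    rw [show 24 = 2 * 12 from rfl, pow_mul, h6, mul_pow, h7, one_mul]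
  rw [hC τ hτ, hC1, div_pow, h5]
  field_simp

theorem exists_mf (B : Matrix (Fin 24) (Fin 24) ℤ) (hsymm : B.IsSymm)
    (hpos : ∀ x : Fin 24 → ℤ, x ≠ 0 → 0 < x ⬝ᵥ (B *ᵥ x))
    (heven : ∀ x : Fin 24 → ℤ, (2 : ℤ) ∣ x ⬝ᵥ (B *ᵥ x)) (hdet : B.det = 1) :
    ∃ f : ModularForm 𝒮ℒ 12, ∀ m : ℕ, (qExpansion 1 f).coeff m =
      (({x : Fin 24 → ℤ | x ⬝ᵥ (B *ᵥ x) = 2 * m}.ncard : ℕ) : ℂ) := by
  obtain ⟨h1, h2, -⟩ := theta_trans B hsymm hpos hdet
  let θ : ℍ → ℂ := fun τ => ∑' x, thT B τ x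
  have hq := fun τ : ℍ => hasSum_q B hpos heven τ (h1 τ τ.2)
  have hT : (θ ∣[(12 : ℤ)] ModularGroup.T) = θ := by
    ext z
    rw [SL_slash_apply, ModularGroup.denom_apply, modular_T_smul]
    have : θ ((1 : ℝ) +ᵥ z) = θ z := by
      refine tsum_congr fun x => ?_
      obtain ⟨k, hk⟩ := heven x
      rw [thT, thT, hk, coe_vadd, ← exp_periodic.int_mul k (π * I * z * _)]
      congr 1
      push_cast; ring
    rw [this]
    simp [ModularGroup.T]
  have hS : (θ ∣[(12 : ℤ)] ModularGroup.S) = θ := by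
    ext z
    suffices (∑' x, thT B (-(↑z)⁻¹) x) * ((z : ℂ) ^ 12)⁻¹ = θ z by
      rw [SL_slash_apply, UpperHalfPlane.modular_S_smul, ModularGroup.denom_S]
      simpa [θ]
    have := theta_S B hsymm hpos hdet z z.2
    rw [neg_div, one_div] at this
    rw [this]
    have := z.ne_zero
    simp only [θ]
    field_simp
  let f : ModularForm 𝒮ℒ 12 :=
    { toFun := θ
      slash_action_eq' := fun A hA => by
        obtain ⟨A, rfl⟩ := hA
        exact SlashInvariantForm.slash_action_generators_SL2Z hS hT A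
      holo' := by
        rw [UpperHalfPlane.mdifferentiable_iff]
        refine h2.congr fun z hz => ?_
        simp [θ, ofComplex_apply_of_im_pos hz]
      bdd_at_cusps' := fun hc => by
        rw [Subgroup.IsArithmetic.isCusp_iff_isCusp_SL2Z] at hc
        rw [OnePoint.isBoundedAt_iff_forall_SL2Z hc]
        intro γ _
        rw [SlashInvariantForm.slash_action_generators_SL2Z hS hT]
        exact isBoundedAtImInfty_of_hasSum_qExpansion one_pos hq }
  exact ⟨f, fun m => (ModularFormClass.qExpansion_coeff_unique (f := f) one_pos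
    one_mem_strictPeriods_SL hq m).symm⟩

theorem mf_coeff (f : ModularForm 𝒮ℒ 12) (h0 : (qExpansion 1 f).coeff 0 = 1)
    (h1 : (qExpansion 1 f).coeff 1 = 0) : (qExpansion 1 f).coeff 2 = 196560 ∧
      (qExpansion 1 f).coeff 3 = 16773120 ∧ (qExpansion 1 f).coeff 4 = 398034000 := by
  let g4 : ModularForm 𝒮ℒ 12 := ModularForm.mcast (by decide) (E₄.pow 3)
  let g6 : ModularForm 𝒮ℒ 12 := ModularForm.mcast (by decide) (E₆.pow 2)
  let g : ModularForm 𝒮ℒ 12 := f - ((7 / 12 : ℂ) • g4 + (5 / 12 : ℂ) • g6)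
  have hg : qExpansion 1 g = qExpansion 1 f -
      ((7 / 12 : ℂ) • (qExpansion 1 E₄ * qExpansion 1 E₄ * qExpansion 1 E₄) +
      (5 / 12 : ℂ) • (qExpansion 1 E₆ * qExpansion 1 E₆)) := by
    have e4 : qExpansion 1 g4 = qExpansion 1 E₄ * qExpansion 1 E₄ * qExpansion 1 E₄ := by
      simp only [g4, coe_mcast, ModularForm.qExpansion_pow one_pos one_mem_strictPeriods_SL]
      ring
    have e6 : qExpansion 1 g6 = qExpansion 1 E₆ * qExpansion 1 E₆ := by
      simp only [g6, coe_mcast, ModularForm.qExpansion_pow one_pos one_mem_strictPeriods_SL]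
      ring
    rw [← e4, ← e6, ← ModularForm.qExpansion_smul one_pos one_mem_strictPeriods_SL,
      ← ModularForm.qExpansion_smul one_pos one_mem_strictPeriods_SL]
    exact (ModularForm.qExpansion_sub one_pos one_mem_strictPeriods_SL f
      ((7 / 12 : ℂ) • g4 + (5 / 12 : ℂ) • g6)).trans
      (congrArg _ (ModularForm.qExpansion_add one_pos one_mem_strictPeriods_SL
        ((7 / 12 : ℂ) • g4) ((5 / 12 : ℂ) • g6)))
  have c4 : ∀ m, (qExpansion 1 E₄).coeff m =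
      if m = 0 then 1 else 240 * (ArithmeticFunction.sigma 3 m : ℂ) := fun m => by
    rw [E_qExpansion_coeff _ ⟨2, rfl⟩, show bernoulli 4 = -1 / 30 by decide +kernel]
    norm_num
  have c6 : ∀ m, (qExpansion 1 E₆).coeff m =
      if m = 0 then 1 else -504 * (ArithmeticFunction.sigma 5 m : ℂ) := fun m => by
    rw [E_qExpansion_coeff _ ⟨3, rfl⟩, show bernoulli 6 = 1 / 42 by decide +kernel]
    norm_num
  have s1 : ArithmeticFunction.sigma 3 1 = 1 ∧ ArithmeticFunction.sigma 3 2 = 9 ∧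
    ArithmeticFunction.sigma 3 3 = 28 ∧ ArithmeticFunction.sigma 3 4 = 73 ∧
    ArithmeticFunction.sigma 5 1 = 1 ∧ ArithmeticFunction.sigma 5 2 = 33 ∧
    ArithmeticFunction.sigma 5 3 = 244 ∧ ArithmeticFunction.sigma 5 4 = 1057 := by
    decide +kernel
  obtain ⟨a1, a2, a3, a4, b1, b2, b3, b4⟩ := s1
  have hz : g = 0 := by
    refine ModularForm.sturm_bound_levelOne (k := 12) ?_
    have : (2 : ℕ) ≤ (qExpansion 1 g).order := by
      refine PowerSeries.nat_le_order _ _ fun i hi => ?_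
      rw [hg]
      interval_cases i
      · norm_num [PowerSeries.coeff_mul, -PowerSeries.coeff_zero_eq_constantCoeff, c4, c6, h0]
      · norm_num [PowerSeries.coeff_mul, Finset.Nat.antidiagonal_succ,
          -PowerSeries.coeff_zero_eq_constantCoeff, c4, c6, h1, a1, b1]
    exact lt_of_lt_of_le (by norm_num; decide) this
  rw [hz, FunLike.coe_zero, qExpansion_zero, eq_comm, sub_eq_zero] at hg
  rw [hg]
  norm_num [PowerSeries.coeff_mul, Finset.Nat.antidiagonal_succ,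
    -PowerSeries.coeff_zero_eq_constantCoeff, c4, c6, a1, a2, a3, a4, b1, b2, b3, b4]

end

/-- An even unimodular lattice of rank 24 without roots has 196560, 16773120 and 398034000 vectors of norms 4, 6 and 8. -/
theorem result (B : Matrix (Fin 24) (Fin 24) ℤ) (hsymm : B.IsSymm) (hpos : ∀ x : Fin 24 → ℤ, x ≠ 0 → 0 < x ⬝ᵥ (B *ᵥ x)) (heven : ∀ x : Fin 24 → ℤ, (2 : ℤ) ∣ x ⬝ᵥ (B *ᵥ x)) (hdet : B.det = 1) (h2 : ∀ x : Fin 24 → ℤ, x ⬝ᵥ (B *ᵥ x) ≠ 2) : {x : Fin 24 → ℤ | x ⬝ᵥ (B *ᵥ x) = 4}.ncard = 196560 ∧ {x : Fin 24 → ℤ | x ⬝ᵥ (B *ᵥ x) = 6}.ncard = 16773120 ∧ {x : Fin 24 → ℤ | x ⬝ᵥ (B *ᵥ x) = 8}.ncard = 398034000 := by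
  obtain ⟨f, hf⟩ := exists_mf B hsymm hpos heven hdet
  have h0 : {x : Fin 24 → ℤ | x ⬝ᵥ (B *ᵥ x) = 2 * (0 : ℕ)} = {0} := by
    ext x
    simp only [Set.mem_ofPred_eq, Set.mem_singleton_iff]
    refine ⟨fun h => by_contra fun h' => ?_, fun h => by simp [h]⟩
    have := hpos x h'
    omega
  have h1 : {x : Fin 24 → ℤ | x ⬝ᵥ (B *ᵥ x) = 2 * (1 : ℕ)} = ∅ :=
    Set.eq_empty_of_forall_notMem fun x h => h2 x h
  obtain ⟨a, b, c⟩ := mf_coeff f (by rw [hf, h0]; simp) (by rw [hf, h1]; simp)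
  rw [hf] at a b c
  exact ⟨by exact_mod_cast a, by exact_mod_cast b, by exact_mod_cast c⟩

end Cfsg.Agent.S1632
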