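import Cfsg.Statements.S0018
import Cfsg.Agent.S0017
import Cfsg.Agent.H44.Cores

set_option autoImplicit false
open Cfsg

namespace Cfsg.Agent.S0018

/-- A finite solvable group whose Sylow p-subgroups are abelian has p-length one: a Sylow p-subgroup together with the largest normal subgroup of order prime to p generates a normal subgroup. -/
theorem result {G : Type*} [Group G] [Finite G] [Group.IsSolvable G]
    (p : ℕ) [Fact p.Prime] (P : Sylow p G) (hP : IsMulCommutative P) :
    ((P : Subgroup G) ⊔ Cfsg.pPrimeCore p G).Normal := by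
  set N := Cfsg.pPrimeCore p G with hN
  have hNn : N.Normal := Subgroup.sSup_normal _ (fun _ h => h.1)
  have h1 := Cfsg.Agent.S0017.result (G := G ⧸ N) p Cfsg.Agent.H44.pPrimeCore_quotient_pPrimeCore
  let Q : Sylow p (G ⧸ N) := P.mapSurjective (QuotientGroup.mk'_surjective N)
  have hO : (Cfsg.pCore p (G ⧸ N)).Normal := Subgroup.sSup_normal _ (fun _ h => h.1)
  have h2 : Cfsg.pCore p (G ⧸ N) ≤ Q := Cfsg.Agent.H44.pCore_isPGroup.le_sylow_of_normal Q
  have h3 : (Q : Subgroup (G ⧸ N)) ≤ Cfsg.pCore p (G ⧸ N) := by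
    refine le_trans ?_ h1
    rintro _ ⟨x, hx, rfl⟩
    rw [Subgroup.mem_centralizer_iff]
    intro y hy
    obtain ⟨z, hz, rfl⟩ := h2 hy
    rw [← map_mul, ← map_mul]
    exact congrArg _ (congrArg Subtype.val (hP.is_comm.comm (⟨z, hz⟩ : P) ⟨x, hx⟩))
  have h4 : ((P : Subgroup G).map (QuotientGroup.mk' N)).Normal := by
    change (Q : Subgroup (G ⧸ N)).Normal
    rw [le_antisymm h3 h2]
    exact hO
  have h5 := h4.comap (QuotientGroup.mk' N)
  rwa [Subgroup.comap_map_eq, QuotientGroup.ker_mk'] at h5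

end Cfsg.Agent.S0018
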