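import Cfsg.Statements.S0020
import Cfsg.Agent.H1.Permutable

set_option autoImplicit false
open Pointwise
open Cfsg

namespace Cfsg.Agent.S0020

/-- A finite solvable group admits a Sylow system: Sylow subgroups, one for each prime, that pairwise permute as sets. -/
theorem result {G : Type*} [Group G] [Finite G] [Group.IsSolvable G] :
    ∃ S : (p : Nat.Primes) → Sylow (p : ℕ) G,
      ∀ p q : Nat.Primes, (S p : Set G) * (S q : Set G) = (S q : Set G) * (S p : Set G) := by
  classical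
  choose H hH using fun q : ℕ => Cfsg.Agent.H1.hall_exists {q}ᶜ G inferInstance
  let X : Set ℕ → Subgroup G := fun π => ⨅ q ∈ (Nat.card G).primeFactors.filter (· ∉ π), H q
  have hX : ∀ π, Cfsg.Agent.H1.Hall π (X π) := fun π => Cfsg.Agent.H1.hall_biInf H hH π
  have hmono : ∀ π ρ : Set ℕ, π ⊆ ρ → X π ≤ X ρ := fun π ρ h =>
    biInf_mono fun q hq => Finset.mem_filter.mpr
      ⟨(Finset.mem_filter.mp hq).1, fun h1 => (Finset.mem_filter.mp hq).2 (h h1)⟩
  have hP : ∀ p : Nat.Primes, IsPGroup p (X {(p : ℕ)}) := fun p => by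
    have := Fact.mk p.2
    rw [IsPGroup.iff_card]
    exact ⟨_, Nat.eq_prime_pow_of_unique_prime_dvd Nat.card_pos.ne'
      fun hq hd => (hX {(p : ℕ)}).1 _ hq hd⟩
  have key : ∀ p q : ℕ, p ≠ q → (X {p, q} : Set G) = X {p} * X {q} := by
    intro p q hpq
    have h1 : X {p} ≤ X {p, q} := hmono _ _ (by simp)
    have h2 : X {q} ≤ X {p, q} := hmono _ _ (by simp)
    rw [Cfsg.Agent.H1.coe_eq_mul_iff h1 h2]
    apply Cfsg.Agent.H1.mul_eq_of_coprime
    refine Nat.coprime_of_dvd' fun r hr h3 h4 => ?_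
    have h5 := (hX _).2 r hr (h3.trans (Subgroup.relIndex_dvd_index_of_le h1))
    have h6 := (hX _).2 r hr (h4.trans (Subgroup.relIndex_dvd_index_of_le h2))
    have h7 := (hX _).1 r hr (h3.trans (Subgroup.index_dvd_card _))
    exact absurd h7 (by simp_all)
  refine ⟨fun p => haveI := Fact.mk p.2; (hP p).toSylow fun h => (hX _).2 _ p.2 h rfl,
    fun p q => ?_⟩
  by_cases hpq : p = q
  · rw [hpq]
  · have hpq' : (p : ℕ) ≠ q := fun h => hpq (Subtype.ext h)
    change (X {(p : ℕ)} : Set G) * X {(q : ℕ)} = X {(q : ℕ)} * X {(p : ℕ)}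
    rw [← key _ _ hpq', ← key _ _ hpq'.symm, Set.pair_comm]

end Cfsg.Agent.S0020
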