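import Cfsg.Statements.S0021
import Cfsg.Agent.H1.Permutable
import Cfsg.Agent.S0006

set_option autoImplicit false
open Pointwise
open Cfsg

namespace Cfsg.Agent.S0021

/-- A finite group with a family of pairwise permuting Sylow subgroups, one for each prime, is solvable (this direction rests on Burnside's two-prime Theorem). -/
theorem result {G : Type*} [Group G] [Finite G]
    (S : (p : Nat.Primes) → Sylow (p : ℕ) G)
    (hS : ∀ p q : Nat.Primes, (S p : Set G) * (S q : Set G) = (S q : Set G) * (S p : Set G)) :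
    Group.IsSolvable G := by
  classical
  refine Cfsg.Agent.S0006.result fun p hp => ?_
  have h0 : Nat.card G ≠ 0 := Nat.card_pos.ne'
  let T : Finset Nat.Primes :=
    ((Nat.card G).primeFactors.erase p).subtype Nat.Prime
  let K : Subgroup G := ⨆ q ∈ T, (S q : Subgroup G)
  have h1 := (Cfsg.Agent.H1.card_biSup_dvd_of_permutable (fun q => (S q : Subgroup G)) hS T).2
  have h2 : ¬ p ∣ Nat.card K := fun h => by
    obtain ⟨q, hq, h3⟩ := (hp.prime.dvd_finset_prod_iff _).mp (h.trans h1)
    have := Fact.mk q.2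
    obtain ⟨k, hk⟩ := IsPGroup.iff_card.mp (S q).2
    rw [hk] at h3
    have h4 := (Nat.prime_dvd_prime_iff_eq hp q.2).mp (hp.dvd_of_dvd_pow h3)
    exact (Finset.mem_erase.mp (Finset.mem_subtype.mp hq)).1 h4.symm
  have h3 : K.index = p ^ K.index.primeFactorsList.length :=
    Nat.eq_prime_pow_of_unique_prime_dvd Subgroup.index_ne_zero_of_finite fun {q} hq hd => by
      by_contra hne
      have := Fact.mk hq
      have hT : (⟨q, hq⟩ : Nat.Primes) ∈ T := Finset.mem_subtype.mpr (Finset.mem_erase.mpr
        ⟨hne, Nat.mem_primeFactors.mpr ⟨hq, hd.trans K.index_dvd_card, h0⟩⟩)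
      exact (S ⟨q, hq⟩).not_dvd_index (hd.trans (Subgroup.index_dvd_of_le
        (le_biSup (fun q => (S q : Subgroup G)) hT)))
  refine ⟨K, ?_⟩
  rw [← K.card_mul_index, Nat.factorization_mul Nat.card_pos.ne' Subgroup.index_ne_zero_of_finite,
    Finsupp.add_apply, Nat.factorization_eq_zero_of_not_dvd h2, zero_add]
  conv_rhs => rw [h3, hp.factorization_pow, Finsupp.single_eq_same]
  exact h3

end Cfsg.Agent.S0021
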