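import Cfsg.Statements.S0047
import Cfsg.Agent.H2.MinNormal

set_option autoImplicit false
open Cfsg

namespace Cfsg.Agent.S0047

open scoped commutatorElement in
/-- Itô's theorem: in a product of two abelian subgroups the subgroup `⁅A, B⁆` is abelian. -/
theorem ito {G : Type*} [Group G] (A B : Subgroup G)
    [hA : IsMulCommutative A] [hB : IsMulCommutative B]
    (hAB : ∀ g : G, ∃ a ∈ A, ∃ b ∈ B, g = a * b) : IsMulCommutative (⁅A, B⁆ : Subgroup G) := by
  have key : ∀ a ∈ A, ∀ b ∈ B, ∀ a' ∈ A, ∀ b' ∈ B,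
      b' * a' * ⁅a, b⁆ * (b' * a')⁻¹ = a' * b' * ⁅a, b⁆ * (a' * b')⁻¹ := by
    intro a ha b hb a' ha' b' hb'
    obtain ⟨a2, ha2, b2, hb2, h2⟩ := hAB (a' * b * a'⁻¹)⁻¹
    have h2' : a' * b * a'⁻¹ = b2⁻¹ * a2⁻¹ := by rw [← mul_inv_rev, ← h2, inv_inv]
    obtain ⟨a3, ha3, b3, hb3, h3⟩ := hAB (b' * a * b'⁻¹)
    have cA : ∀ x ∈ A, ∀ y ∈ A, y * x * y⁻¹ = x := fun x hx y hy => by
      rw [H2.mul_comm_of_mem hA hy hx, mul_inv_cancel_right]
    have cB : ∀ x ∈ B, ∀ y ∈ B, y * x * y⁻¹ = x := fun x hx y hy => by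
      rw [H2.mul_comm_of_mem hB hy hx, mul_inv_cancel_right]
    have r1 : ∀ x ∈ A, ∀ y ∈ A, ∀ z : G, ⁅x, z * y⁆ = ⁅x, z⁆ := fun x hx y hy z => by
      calc ⁅x, z * y⁆ = x * z * (y * x⁻¹ * y⁻¹) * z⁻¹ := by
            simp only [commutatorElement_def]; group
        _ = _ := by rw [cA _ (A.inv_mem hx) y hy, commutatorElement_def]
    have r2 : ∀ x ∈ B, ∀ y ∈ B, ∀ z : G, ⁅z * y, x⁆ = ⁅z, x⁆ := fun x hx y hy z => by
      calc ⁅z * y, x⁆ = z * (y * x * y⁻¹) * z⁻¹ * x⁻¹ := by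
            simp only [commutatorElement_def]; group
        _ = _ := by rw [cB _ hx y hy, commutatorElement_def]
    have e1 : b' * a' * ⁅a, b⁆ * (b' * a')⁻¹ = ⁅a3, b2⁻¹⁆ := by
      calc _ = b' * (a' * ⁅a, b⁆ * a'⁻¹) * b'⁻¹ := by group
        _ = _ := by
          rw [conjugate_commutatorElement, cA a ha a' ha', h2', r1 a ha _ (A.inv_mem ha2),
            conjugate_commutatorElement, h3, cB _ (B.inv_mem hb2) b' hb',
            r2 _ (B.inv_mem hb2) _ hb3]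
    have e2 : a' * b' * ⁅a, b⁆ * (a' * b')⁻¹ = ⁅a3, b2⁻¹⁆ := by
      calc _ = a' * (b' * ⁅a, b⁆ * b'⁻¹) * a'⁻¹ := by group
        _ = _ := by
          rw [conjugate_commutatorElement, cB b hb b' hb', h3, r2 b hb _ hb3,
            conjugate_commutatorElement, h2', cA _ ha3 a' ha', r1 _ ha3 _ (A.inv_mem ha2)]
    rw [e1, e2]
  rw [Subgroup.commutator_def]
  apply Subgroup.isMulCommutative_closure
  rintro _ ⟨a', ha', b', hb', rfl⟩ _ ⟨a, ha, b, hb, rfl⟩
  have := key a ha b hb _ (A.inv_mem ha') _ (B.inv_mem hb')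
  calc ⁅a', b'⁆ * ⁅a, b⁆ = (a' * b') * (a'⁻¹ * b'⁻¹ * ⁅a, b⁆ * (a'⁻¹ * b'⁻¹)⁻¹) * (a'⁻¹ * b'⁻¹) := by
        simp only [commutatorElement_def]; group
    _ = _ := by rw [← this]; simp only [commutatorElement_def]; group

/-- A finite group which is the product AB of two abelian subgroups A and B is solvable. -/
theorem result {G : Type*} [Group G] [Finite G] (A B : Subgroup G)
    [IsMulCommutative A] [IsMulCommutative B] (hAB : ∀ g : G, ∃ a ∈ A, ∃ b ∈ B, g = a * b) :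
    Group.IsSolvable G := by
  have hsup : A ⊔ B = ⊤ := by
    rw [eq_top_iff]
    intro g _
    obtain ⟨a, ha, b, hb, rfl⟩ := hAB g
    exact Subgroup.mul_mem_sup ha hb
  have hn : (⁅A, B⁆ : Subgroup G).Normal := by
    rw [← Subgroup.normalizer_eq_top_iff, eq_top_iff, ← hsup]
    exact sup_le (Subgroup.normalizer_commutator_ge_left A B)
      (Subgroup.normalizer_commutator_ge_right A B)
  rw [Group.isSolvable_iff_subgroup_quotient ⁅A, B⁆]
  refine ⟨Group.isSolvable_of_comm (ito A B hAB).is_comm.comm, Group.isSolvable_of_comm ?_⟩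
  have hc : ∀ a ∈ A, ∀ b ∈ B, Commute (a : G ⧸ (⁅A, B⁆ : Subgroup G)) b := by
    intro a ha b hb
    rw [← commutatorElement_eq_one_iff_commute]
    exact (QuotientGroup.eq_one_iff _).mpr (Subgroup.commutator_mem_commutator ha hb)
  intro x y
  obtain ⟨x, rfl⟩ := QuotientGroup.mk_surjective x
  obtain ⟨y, rfl⟩ := QuotientGroup.mk_surjective y
  obtain ⟨a, ha, b, hb, rfl⟩ := hAB x
  obtain ⟨a', ha', b', hb', rfl⟩ := hAB y
  have h1 : Commute (a : G ⧸ (⁅A, B⁆ : Subgroup G)) a' :=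
    Commute.map (show Commute a a' from H2.mul_comm_of_mem ‹_› ha ha') (QuotientGroup.mk' _)
  have h2 : Commute (b : G ⧸ (⁅A, B⁆ : Subgroup G)) b' :=
    Commute.map (show Commute b b' from H2.mul_comm_of_mem ‹_› hb hb') (QuotientGroup.mk' _)
  simp only [QuotientGroup.mk_mul]
  exact ((h1.mul_right (hc a ha b' hb')).mul_left ((hc a' ha' b hb).symm.mul_right h2)).eq

end Cfsg.Agent.S0047
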