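import Cfsg.Statements.S0050
import Cfsg.Agent.S0004
import Cfsg.Agent.H2.Zipper

set_option autoImplicit false
open Cfsg

namespace Cfsg.Agent.S0050

open scoped Pointwise

/-- Frattini argument for Hall subgroups: if L is a solvable normal subgroup and H a subgroup of L of order coprime to its index in L, then L together with the normaliser of H generates the whole group. -/
theorem result {G : Type*} [Group G] [Finite G] (L : Subgroup G) [L.Normal] (hL : Group.IsSolvable L)
    (H : Subgroup G) (hHL : H ≤ L) (hHall : (Nat.card H).Coprime (H.relIndex L)) :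
    L ⊔ Subgroup.normalizer (H : Set G) = ⊤ := by
  rw [eq_top_iff]
  intro g _
  have hg : MulAut.conj g • H ≤ L := by
    rw [← Subgroup.Normal.conj_smul_eq_self g L]
    exact Subgroup.pointwise_smul_le_pointwise_smul_iff.mpr hHL
  obtain ⟨l, hl⟩ := S0004.result (G := L) (Nat.card H) (H.relIndex L)
    (H2.card_mul_relIndex_of_le hHL).symm hHall ((MulAut.conj g • H).subgroupOf L) (H.subgroupOf L)
    (by rw [H2.card_subgroupOf_of_le hg, H2.card_conj_smul]) (H2.card_subgroupOf_of_le hHL)
  rw [← H2.subgroupOf_conj_smul] at hl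
  have h2 := congrArg (Subgroup.map L.subtype) hl
  rw [Subgroup.map_subgroupOf_eq_of_le (Subgroup.conj_smul_le_of_le hg l),
    Subgroup.map_subgroupOf_eq_of_le hHL, H2.conj_smul_conj_smul,
    H2.conj_smul_eq_iff_mem_normalizer] at h2
  have : g = (l : G)⁻¹ * (l * g) := by group
  rw [this]
  exact Subgroup.mul_mem_sup (L.inv_mem l.2) h2

end Cfsg.Agent.S0050
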