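import Cfsg.Statements.S0053
import Cfsg.Agent.H2.Basic
import Cfsg.Agent.H2.MinNormal

set_option autoImplicit false
open Cfsg

namespace Cfsg.Agent.S0053

/-- An abelian minimal normal subgroup N of a finite group is complemented exactly when N is not inside the Frattini subgroup. -/
theorem result {G : Type*} [Group G] [Finite G]
    (N : Subgroup G) [N.Normal] [IsMulCommutative N] (hN : N ≠ ⊥)
    (hmin : ∀ M : Subgroup G, M.Normal → M ≤ N → M = ⊥ ∨ M = N) :
    (∃ H : Subgroup G, Subgroup.IsComplement' N H) ↔ ¬ N ≤ frattini G := by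
  constructor
  · rintro ⟨H, hH⟩ hle
    have hHtop : H = ⊤ := by
      apply frattini_nongenerating
      rw [eq_top_iff, ← hH.sup_eq_top, sup_comm]
      exact sup_le_sup_left hle H
    rw [hHtop, Subgroup.isComplement'_top_right] at hH
    exact hN hH
  · intro hle
    have : ∃ M : Subgroup G, IsCoatom M ∧ ¬ N ≤ M := by
      by_contra h
      push Not at h
      apply hle
      simp only [frattini, Order.radical, le_iInf_iff]
      exact h
    obtain ⟨M, hM, hNM⟩ := this
    have hsup : N ⊔ M = ⊤ := hM.2 _ (lt_of_le_of_ne le_sup_right (fun h => hNM (h ▸ le_sup_left)))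
    refine ⟨M, H2.isComplement'_of_normal_of_sup_of_inf N M hsup ?_⟩
    have hnorm : (N ⊓ M).Normal := by
      rw [← Subgroup.normalizer_eq_top_iff, eq_top_iff, ← hsup, sup_le_iff]
      constructor
      · rw [Subgroup.le_normalizer_iff]
        intro n hn x hx
        rw [H2.mul_comm_of_mem ‹_› hn hx.1, mul_inv_cancel_right]
        exact hx
      · rw [Subgroup.le_normalizer_iff]
        intro m hm x hx
        exact ⟨‹N.Normal›.conj_mem x hx.1 m, M.mul_mem (M.mul_mem hm hx.2) (M.inv_mem hm)⟩
    rcases hmin _ hnorm inf_le_left with h | h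
    · exact h
    · exact absurd (h ▸ inf_le_right) hNM

end Cfsg.Agent.S0053
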