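import Cfsg.Statements.S0057
import Cfsg.Agent.S0007
import Cfsg.Agent.S0023
import Cfsg.Agent.S0026
import Cfsg.Agent.S0027
import Cfsg.Agent.H2.AbelianCoprime
import Mathlib.GroupTheory.IndexNormal

set_option autoImplicit false
open Cfsg

namespace Cfsg.Agent.S0057

/-- Under coprime action, if the centraliser of A in K has prime index p in K then the commutator subgroup [K, A] has order exactly p. -/
theorem result {G : Type*} [Group G] [Finite G] (A K : Subgroup G) (hAK : A ≤ Subgroup.normalizer (K : Set G))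
    (hcop : (Nat.card A).Coprime (Nat.card K)) (hsolv : Group.IsSolvable A ∨ Group.IsSolvable K)
    (p : ℕ) (hp : p.Prime) (hidx : (K ⊓ Subgroup.centralizer (A : Set G)).relIndex K = p) :
    Nat.card (⁅K, A⁆ : Subgroup G) = p := by
  have := Fact.mk hp
  set C := Subgroup.centralizer (A : Set G) with hC
  set L : Subgroup G := ⁅K, A⁆ with hL
  have hLK : L ≤ K := Subgroup.le_normalizer_iff_commutator_le_left.mp hAK
  have hAL : A ≤ Subgroup.normalizer (L : Set G) := Subgroup.normalizer_commutator_ge_right K A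
  have hKL : K ≤ Subgroup.normalizer (L : Set G) := Subgroup.normalizer_commutator_ge_left K A
  -- `L` is a `p`-group
  obtain ⟨P, hP⟩ := S0023.result A K hAK hcop hsolv p
  have hLP : L ≤ (P : Subgroup K).map K.subtype := by
    rw [hL, Subgroup.commutator_le]
    intro k hk a ha
    have hco : (P : Subgroup K).index.Coprime ((K ⊓ C).subgroupOf K).index := by
      have : ((K ⊓ C).subgroupOf K).index = p := hidx
      rw [this, Nat.coprime_comm, hp.coprime_iff_not_dvd]
      exact P.not_dvd_index
    obtain ⟨x, hx, c, hc, hk'⟩ := (S0007.result _ _ hco).2 ⟨k, hk⟩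
    have hk2 : k = x * c := congrArg Subtype.val hk'
    have hc2 : a * c = c * a := Subgroup.mem_centralizer_iff.mp hc.2 a ha
    have hx2 : (x : G) ∈ (P : Subgroup K).map K.subtype := ⟨x, hx, rfl⟩
    have e : (x : G) * c * a * ((x : G) * c)⁻¹ * a⁻¹ = x * (a * (x : G)⁻¹ * a⁻¹) := by
      rw [mul_assoc (x : G) c a, ← hc2]; group
    rw [commutatorElement_def, hk2, e]
    exact Subgroup.mul_mem _ hx2
      (H2.conj_mem_of_mem_normalizer (hP ha) (Subgroup.inv_mem _ hx2))
  have hLp : IsPGroup p L := (P.isPGroup'.map _).to_le hLP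
  -- the index of `C ⊓ L` in `L` is `p`
  have hidx2 : (C.subgroupOf L).index = p := by
    have h1 := S0026.result A K hAK hcop hsolv
    have hn : (L.subgroupOf K).Normal := (Subgroup.normal_subgroupOf_iff_le_normalizer hLK).mpr hKL
    have h2 : (K ⊓ C).subgroupOf K ⊔ L.subgroupOf K = ⊤ := by
      apply Subgroup.map_injective K.subtype_injective
      rw [Subgroup.map_sup, Subgroup.map_subgroupOf_eq_of_le inf_le_left,
        Subgroup.map_subgroupOf_eq_of_le hLK, ← MonoidHom.range_eq_map, Subgroup.range_subtype,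
        sup_comm]
      exact h1
    have h3 := H2.index_eq_relIndex_of_sup_eq_top _ _ h2
    rw [Subgroup.relIndex_subgroupOf hLK] at h3
    have h4 : (K ⊓ C).relIndex L = C.relIndex L := by
      rw [← Subgroup.inf_relIndex_right, ← Subgroup.inf_relIndex_right C, inf_right_comm,
        inf_eq_right.mpr hLK, inf_comm]
    exact (h3.trans h4).symm.trans hidx
  have hCn : (C.subgroupOf L).Normal := by
    apply Subgroup.normal_of_index_eq_minFac_card
    obtain ⟨n, hn⟩ := IsPGroup.iff_card.mp hLp
    have hn0 : n ≠ 0 := by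
      rintro rfl
      have := (C.subgroupOf L).index_dvd_card
      rw [hidx2, hn, pow_zero, Nat.dvd_one] at this
      exact hp.one_lt.ne' this
    rw [hidx2, hn, Nat.pow_minFac hn0, hp.minFac_eq]
  have hLA : ⁅L, A⁆ = L := S0027.result A K hAK hcop hsolv
  have hcent : ⁅L, C ⊓ L⁆ = ⊥ := by
    conv_lhs => rw [← hLA]
    have h1 : ⁅A, C ⊓ L⁆ = ⊥ := by
      rw [Subgroup.commutator_comm, Subgroup.commutator_eq_bot_iff_le_centralizer]
      exact inf_le_left
    have h2 : ⁅C ⊓ L, L⁆ ≤ C ⊓ L := by
      rw [← Subgroup.le_normalizer_iff_commutator_le_left,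
        ← Subgroup.normal_subgroupOf_iff_le_normalizer inf_le_right, Subgroup.inf_subgroupOf_right]
      exact hCn
    have h3 : ⁅⁅L, A⁆, C ⊓ L⁆ = ⊥ := by
      apply Subgroup.commutator_commutator_eq_bot_of_rotate
      · rw [h1, Subgroup.commutator_bot_left]
      · rw [Subgroup.commutator_eq_bot_iff_le_centralizer]
        exact h2.trans inf_le_left
    rwa [hLA] at h3 ⊢
  have hcomm : IsMulCommutative L := by
    have : IsCyclic (L ⧸ C.subgroupOf L) := isCyclic_of_prime_card hidx2
    apply (QuotientGroup.mk' (C.subgroupOf L)).isMulCommutative_of_isCyclic_of_ker_le_center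
    rw [QuotientGroup.ker_mk']
    intro x hx
    rw [Subgroup.mem_center_iff]
    intro y
    have := Subgroup.commutator_eq_bot_iff_le_centralizer.mp hcent y.2 x ⟨hx, x.2⟩
    exact Subtype.ext this.symm
  obtain ⟨h1, -⟩ := H2.coprime_abelian_decomposition A L hAL
    (hcop.coprime_dvd_right (Subgroup.card_dvd_of_le hLK))
  rw [hLA, inf_right_comm, inf_idem] at h1
  have h2 : C.subgroupOf L = ⊥ := by
    rw [Subgroup.subgroupOf_eq_bot, disjoint_iff, inf_comm]
    exact h1
  rw [h2, Subgroup.index_bot] at hidx2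
  exact hidx2

end Cfsg.Agent.S0057
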