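import Cfsg.Statements.S0059
import Cfsg.Agent.H1.SZConj
import Cfsg.Agent.H2.Basic

set_option autoImplicit false
open Cfsg

namespace Cfsg.Agent.S0059

/-- Let a finite group act on a set on which a normal subgroup K of coprime order and index is transitive, with K or the quotient solvable. Then any complement H of K has a fixed point, and any two H-fixed points are interchanged by an element of K centralising H. -/
theorem result {G : Type*} [Group G] [Finite G] {X : Type*} [Nonempty X] [MulAction G X]
    (K H : Subgroup G) [K.Normal] (hc : Subgroup.IsComplement' K H) (hcop : (Nat.card K).Coprime K.index)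
    (hsolv : Group.IsSolvable K ∨ Group.IsSolvable (G ⧸ K)) (htrans : MulAction.IsPretransitive K X) :
    (∃ x : X, ∀ h ∈ H, h • x = x) ∧
    ∀ x y : X, (∀ h ∈ H, h • x = x) → (∀ h ∈ H, h • y = y) → ∃ k ∈ K ⊓ Subgroup.centralizer (H : Set G), k • x = y := by
  have hcH : Nat.card H = K.index := hc.symm.index_eq_card.symm
  have hcop' : (Nat.card H).Coprime (Nat.card K) := hcH ▸ hcop.symm
  have hsolv' : Group.IsSolvable H ∨ Group.IsSolvable K :=
    hsolv.symm.imp (H1.solvable_of_isComplement' hc) id
  have hHK : H ≤ Subgroup.normalizer (K : Set G) := Subgroup.le_normalizer_of_normal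
  constructor
  · obtain ⟨x₀⟩ := ‹Nonempty X›
    obtain ⟨n, hn, h⟩ := H1.glauberman_fixed H K hHK hcop' hsolv' (MulAction.stabilizer G x₀)
      (fun a _ => by
        obtain ⟨k, hk⟩ := htrans.exists_smul_eq x₀ (a • x₀)
        refine ⟨k, k.2, ?_⟩
        rw [MulAction.mem_stabilizer_iff, mul_smul, ← hk]
        exact inv_smul_smul (k : G) x₀)
    refine ⟨n • x₀, fun a ha => ?_⟩
    have := h a ha
    rw [MulAction.mem_stabilizer_iff, mul_smul, mul_smul, inv_smul_eq_iff] at this
    exact this
  · intro x y hx hy
    obtain ⟨k, hk⟩ := htrans.exists_smul_eq x y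
    have hk' : (k : G) • x = y := hk
    obtain ⟨c, hc1, hc2⟩ := H1.glauberman_conj H K hHK hcop' hsolv' (MulAction.stabilizer G x)
      (fun a ha => hx a ha) k k.2 (fun a ha => by
        rw [MulAction.mem_stabilizer_iff, mul_smul, mul_smul, hk', hy a ha, ← hk', inv_smul_smul])
    refine ⟨c, hc1, ?_⟩
    rw [MulAction.mem_stabilizer_iff, mul_smul, inv_smul_eq_iff] at hc2
    rw [hc2, hk']

end Cfsg.Agent.S0059
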