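import Cfsg.Statements.S0066
import Cfsg.Agent.H2.Zipper

set_option autoImplicit false
open Pointwise
open Cfsg

namespace Cfsg.Agent.S0066

/-- Wielandt's subnormality criterion: a subgroup that is subnormal in its join with each of its conjugates is subnormal in the whole finite group. -/
theorem result {G : Type*} [Group G] [Finite G] (A : Subgroup G)
    (h : ∀ g : G, (A.subgroupOf (A ⊔ MulAut.conj g • A)).IsSubnormal) : A.IsSubnormal := by
  revert A
  refine H2.card_induction (P := fun G _ _ => ∀ (A : Subgroup G),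
    (∀ g : G, (A.subgroupOf (A ⊔ MulAut.conj g • A)).IsSubnormal) → A.IsSubnormal) G ?_
  intro G _ _ ih A h
  have hprop : ∀ H : Subgroup G, H ≠ ⊤ → A ≤ H → (A.subgroupOf H).IsSubnormal := by
    intro H hH hAH
    apply ih H (H2.card_lt_of_ne_top hH)
    intro x
    have hx : MulAut.conj (x : G) • A ≤ H := Subgroup.conj_smul_le_of_le hAH x
    rw [← H2.subgroupOf_conj_smul, ← H2.subgroupOf_sup_of_le hAH hx]
    have h1 := (h x).comap (Subgroup.subgroupOfEquivOfLe (sup_le hAH hx)).toMonoidHom
    convert h1 using 1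
    ext y
    rfl
  by_contra hA
  have hne : ∀ g : G, A ⊔ MulAut.conj g • A ≠ ⊤ := by
    intro g hg
    apply hA
    exact (h g).trans le_sup_left (hg ▸ Subgroup.IsSubnormal.top)
  obtain ⟨M, hM, hAM⟩ := (eq_top_or_exists_le_coatom _).resolve_left (hne 1)
  have hAM' : A ≤ M := le_sup_left.trans hAM
  have hconj : ∀ g : G, MulAut.conj g • A ≤ M := by
    intro g
    obtain ⟨K, hK, hAK⟩ := (eq_top_or_exists_le_coatom _).resolve_left (hne g)
    rw [H2.zipper A hprop hA hM hK hAM' (le_sup_left.trans hAK)]
    exact le_sup_right.trans hAK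
  have hcore : A ≤ M.normalCore := by
    intro a ha g
    exact hconj g (H2.conj_mem_conj_smul g ha)
  have hcore_ne : M.normalCore ≠ ⊤ := fun h' => hM.1 (top_le_iff.mp (h' ▸ M.normalCore_le))
  exact hA ((hprop _ hcore_ne hcore).trans hcore (Subgroup.Normal.isSubnormal inferInstance))

end Cfsg.Agent.S0066
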