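import Cfsg.Statements.S0067
import Cfsg.Agent.S0066
import Cfsg.Agent.S0064
import Cfsg.Agent.H44.Cores

set_option autoImplicit false
open Pointwise
open Cfsg

namespace Cfsg.Agent.S0067

/-- If the join of a subgroup A with each of its conjugates is nilpotent, then A is subnormal in the finite group and contained in the Fitting subgroup. -/
theorem result {G : Type*} [Group G] [Finite G] (A : Subgroup G)
    (h : ∀ g : G, Group.IsNilpotent (A ⊔ MulAut.conj g • A : Subgroup G)) : A.IsSubnormal ∧ A ≤ Cfsg.fittingSubgroup G := by
  have h1 : A.IsSubnormal := S0066.result A (fun g => S0064.result.mp (h g) _)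
  refine ⟨h1, H44.le_fitting_of_subnormal h1 ?_⟩
  have := h 1
  exact Group.nilpotent_of_mulEquiv
    (Subgroup.subgroupOfEquivOfLe (le_sup_left : A ≤ A ⊔ MulAut.conj (1 : G) • A))

end Cfsg.Agent.S0067
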