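import Cfsg.Statements.S0069
import Cfsg.Agent.S0040
import Cfsg.Agent.S0068
import Cfsg.Agent.S0056
import Mathlib.GroupTheory.SpecificGroups.ZGroup
import Mathlib.GroupTheory.SchurZassenhaus

set_option autoImplicit false
open Cfsg

namespace Cfsg.Agent.S0069

theorem mem_normalizer_zpowers_of_isCyclic {G : Type*} [Group G] [Finite G] (C : Subgroup G)
    [C.Normal] [IsCyclic C] {y : G} (hy : y ∈ C) (x : G) :
    x ∈ Subgroup.normalizer (Subgroup.zpowers y : Set G) := by
  have key : ∀ g : G, g * y * g⁻¹ ∈ Subgroup.zpowers y := by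
    intro g
    obtain ⟨n, hn⟩ := H69.mem_zpowers_of_isCyclic (T := C) (x := ⟨y, hy⟩)
      (y := ⟨g * y * g⁻¹, ‹C.Normal›.conj_mem y hy g⟩) (Subtype.ext (by
        rw [← Subgroup.orderOf_coe]
        simp [conj_pow]))
    exact ⟨n, congrArg Subtype.val hn⟩
  have : (Subgroup.zpowers y).Normal := by
    constructor
    rintro _ ⟨n, rfl⟩ g
    rw [← conj_zpow]
    exact Subgroup.zpow_mem _ (key g) n
  rw [Subgroup.normalizer_eq_top]
  trivial

/-- A Frobenius complement has nontrivial centre: if H ≠ 1 complements a nontrivial normal subgroup K and every nonidentity element of H has trivial centraliser in K, then the centre of H is nontrivial. -/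
theorem result {G : Type*} [Group G] [Finite G] (K H : Subgroup G) [K.Normal]
    (hc : Subgroup.IsComplement' K H) (hK : K ≠ ⊥) (hH : H ≠ ⊥) (hfpf : ∀ h ∈ H, h ≠ 1 → K ⊓ Subgroup.centralizer {h} = ⊥) :
    Subgroup.center H ≠ ⊥ := by
  rw [Subgroup.ne_bot_iff_exists_ne_one]
  by_cases heven : 2 ∣ Nat.card H
  · obtain ⟨⟨s, hs, hs2, huniq, -⟩, -⟩ := S0068.result K H hc hK hfpf heven
    refine ⟨⟨⟨s, hs⟩, Subgroup.mem_center_iff.mpr fun g => Subtype.ext ?_⟩, ?_⟩
    · have := huniq (g * s * (g : G)⁻¹) (H.mul_mem (H.mul_mem g.2 hs) (H.inv_mem g.2))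
        (by rw [← hs2]; exact MulEquiv.orderOf_eq (MulAut.conj (g : G)) s)
      exact mul_inv_eq_iff_eq_mul.mp this
    · intro h
      have : s = 1 := congrArg Subtype.val (congrArg Subtype.val h)
      simp [this] at hs2
  have hZ : IsZGroup H := by
    refine ⟨fun p hp P => ?_⟩
    have := Fact.mk hp
    rcases S0040.result K H hc hK hfpf p P with h | ⟨n, ⟨e⟩⟩
    · exact h
    · exfalso
      apply heven
      refine dvd_trans ?_ (P : Subgroup H).card_subgroup_dvd_card
      have h1 : Nat.card (P : Subgroup H) = 4 * 2 ^ n := by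
        rw [← QuaternionGroup.card, ← Nat.card_eq_fintype_card]
        exact Nat.card_congr e.toEquiv
      rw [h1]
      exact Dvd.dvd.mul_right (by norm_num) _
  have : Nontrivial H := (Subgroup.nontrivial_iff_ne_bot H).mpr hH
  obtain ⟨C, hC⟩ := Subgroup.exists_right_complement'_of_coprime
    (IsZGroup.coprime_commutator_index H)
  have hCc : IsCyclic C := isCyclic_of_surjective (G' := Abelianization H) _
    hC.symm.QuotientMulEquiv.surjective
  have hC0 : C ≠ ⊥ := by
    rintro rfl
    exact (IsZGroup.commutator_lt H).ne (Subgroup.isComplement'_bot_right.mp hC)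
  obtain ⟨p, hp, x, hxC, hx⟩ := H2.exists_mem_prime_orderOf hC0
  have := IsZGroup.isCyclic_commutator H
  have h1 : Subgroup.zpowers x ≤ Subgroup.centralizer (commutator H : Set H) := by
    apply S0056.result _ _ Subgroup.le_normalizer_of_normal
    · have h2 := IsZGroup.coprime_commutator_index H
      rw [hC.symm.index_eq_card] at h2
      exact h2.symm.coprime_dvd_left (Subgroup.card_dvd_of_le (Subgroup.zpowers_le.mpr hxC))
    · rintro v hv hvp _ ⟨n, rfl⟩
      have h3 : (x : G) ∈ Subgroup.normalizer (Subgroup.zpowers (v : G) : Set G) := by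
        have e : (Subgroup.zpowers v).map H.subtype = Subgroup.zpowers (v : G) :=
          MonoidHom.map_zpowers H.subtype v
        rw [← e]
        exact Subgroup.le_normalizer_map _
          ⟨x, mem_normalizer_zpowers_of_isCyclic (commutator H) hv x, rfl⟩
      have h4 : Commute x v := Subtype.ext (H2.commute_of_fpf hK Subgroup.le_normalizer_of_normal
        hfpf x.2 v.2 (by rw [Subgroup.orderOf_coe, hx]; exact hp)
        (by rw [Subgroup.orderOf_coe]; exact hvp) h3)
      exact (h4.zpow_left n).eq
  refine ⟨⟨x, Subgroup.mem_center_iff.mpr fun g => ?_⟩, ?_⟩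
  · obtain ⟨a, ha, b, hb, rfl⟩ := H2.exists_mul_eq_of_isComplement' hC g
    have h2 : a * x = x * a := h1 (Subgroup.mem_zpowers x) a ha
    have h3 : b * x = x * b := H2.mul_comm_of_mem inferInstance hb hxC
    rw [mul_assoc, h3, ← mul_assoc, h2, mul_assoc]
  · intro h
    have : x = 1 := congrArg Subtype.val h
    rw [this, orderOf_one] at hx
    exact hp.one_lt.ne hx

end Cfsg.Agent.S0069
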