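import Cfsg.Statements.S0073
import Cfsg.Agent.H3.Transfer2

set_option autoImplicit false
open Cfsg

namespace Cfsg.Agent.S0073

/-- For a finite non-abelian simple group, either the cube of the least prime divisor of the order divides the order, or 12 does. -/
theorem result {G : Type*} [Group G] [Finite G] [IsSimpleGroup G] (hG : ∃ x y : G, x * y ≠ y * x) : (Nat.card G).minFac ^ 3 ∣ Nat.card G ∨ 12 ∣ Nat.card G := by
  obtain ⟨x, y, hxy⟩ := hG
  have hG1 : Nat.card G ≠ 1 := fun h => by
    haveI := (Nat.card_eq_one_iff_unique.mp h).1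
    exact hxy (Subsingleton.elim _ _)
  have hp := Nat.minFac_prime hG1
  generalize hpe : (Nat.card G).minFac = p at hp
  haveI := Fact.mk hp
  have hpd : p ∣ Nat.card G := hpe ▸ Nat.minFac_dvd _
  by_contra hcon
  rw [not_or] at hcon
  let P : Sylow p G := default
  obtain ⟨n, hn⟩ := IsPGroup.iff_card.mp P.2
  have hnd : p ^ n ∣ Nat.card G := hn ▸ Subgroup.card_subgroup_dvd_card _
  have hn2 : n ≤ 2 := by
    by_contra h
    exact hcon.1 ((pow_dvd_pow p (by omega)).trans hnd)
  have h1 : HasNormalPComplement p G := by
    refine H3.hasNormalPComplement_of_not_dvd_pow_sub_one P hn fun q hq hqp hd i h1 h2 h => ?_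
    have hpq : p < q := lt_of_le_of_ne (hpe ▸ Nat.minFac_le_of_dvd hq.two_le hd) hqp.symm
    have h2p := hp.two_le
    have hi : i = 1 ∨ i = 2 := by omega
    rcases hi with rfl | rfl
    · have := Nat.le_of_dvd (by rw [pow_one]; omega) h
      rw [pow_one] at this
      omega
    · have h3 : p ^ 2 - 1 = (p + 1) * (p - 1) := by
        rw [← Nat.sq_sub_sq, one_pow]
      rw [h3] at h
      rcases (Nat.Prime.dvd_mul hq).mp h with h | h
      · have h4 : q = p + 1 := le_antisymm (Nat.le_of_dvd (by omega) h) hpq
        have h5 : p = 2 := by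
          by_contra h5
          have h6 := hp.odd_of_ne_two h5
          have h7 := hq.odd_of_ne_two (by omega)
          rw [h4] at h7
          exact (Nat.not_even_iff_odd.mpr h7) h6.add_one
        subst h5
        subst h4
        have h6 : n = 2 := by omega
        subst h6
        exact hcon.2 (Nat.Coprime.mul_dvd_of_dvd_of_dvd (by norm_num : Nat.Coprime 4 3) hnd hd)
      · have := Nat.le_of_dvd (by omega) h
        omega
  rcases (H3.pResidual_normal (p := p) (G := G)).eq_bot_or_eq_top with h2 | h2
  · haveI : Group.IsNilpotent G := (H3.pResidual_eq_bot_iff.mp h2).isNilpotent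
    rcases (inferInstance : (Subgroup.center G).Normal).eq_bot_or_eq_top with h3 | h3
    · exact Group.IsNilpotent.center_ne_bot G h3
    · exact hxy (Subgroup.mem_center_iff.mp (h3 ▸ Subgroup.mem_top y) x)
  · have h3 := H3.hasNormalPComplement_iff_coprime.mp h1
    rw [h2, Subgroup.card_top] at h3
    exact hp.ne_one (Nat.eq_one_of_dvd_coprimes h3 hpd dvd_rfl)

end Cfsg.Agent.S0073
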