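import Cfsg.Statements.S0075
import Cfsg.Agent.H3.Fusion

set_option autoImplicit false
open Cfsg

namespace Cfsg.Agent.S0075

open Subgroup
open scoped commutatorElement

theorem commutator_le_pResidual {G : Type*} [Group G] [Finite G] {p : ℕ} [Fact p.Prime]
    (T : Sylow p G) (hT : IsMulCommutative T) : commutator G ≤ pResidual p G :=
  Normal.commutator_le_of_self_sup_commutative_eq_top (H := (T : Subgroup G))
    (by rw [sup_comm]; exact H3.sylow_sup_pResidual T) hT

/-- For an abelian Sylow p-subgroup T, its intersection with the subgroup generated by the elements of order prime to p is the commutator of T with its normalizer. -/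
theorem result {G : Type*} [Group G] [Finite G] {p : ℕ} [Fact p.Prime] (T : Sylow p G) (hT : IsMulCommutative T) : (T : Subgroup G) ⊓ Cfsg.pResidual p G = ⁅(T : Subgroup G), Subgroup.normalizer (T : Set G)⁆ := by
  apply le_antisymm
  · rw [H3.sylow_inf_pResidual_le_iff]
    intro x hx _ g _ hg
    obtain ⟨n, hn, h⟩ := T.conj_eq_normalizer_conj_of_mem x g⁻¹ hx (by simpa using hg)
    rw [inv_inv] at h
    rw [h]
    have := commutator_mem_commutator (H₁ := (T : Subgroup G)) (inv_mem hx) (inv_mem hn)
    simpa [commutatorElement_def, mul_assoc] using this
  · exact le_inf (le_normalizer_iff_commutator_le_left.mp le_rfl)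
      ((commutator_mono le_top le_top).trans (commutator_le_pResidual T hT))

end Cfsg.Agent.S0075
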