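import Cfsg.Statements.S0076
import Cfsg.Agent.H3.Transfer2

set_option autoImplicit false
open Cfsg

namespace Cfsg.Agent.S0076

/-- Two P-invariant subsets of a Sylow p-subgroup P that are conjugate in G are conjugate under the normalizer of P. -/
theorem result {G : Type*} [Group G] [Finite G] {p : ℕ} [Fact p.Prime] (P : Sylow p G) (X Y : Set G) (hXP : X ⊆ P) (hYP : Y ⊆ P) (hX : ∀ x ∈ P, (fun y => x * y * x⁻¹) '' X = X) (hY : ∀ x ∈ P, (fun y => x * y * x⁻¹) '' Y = Y) (g : G) (hg : (fun y => g * y * g⁻¹) '' X = Y) : ∃ n ∈ Subgroup.normalizer (P : Set G), (fun y => n * y * n⁻¹) '' X = Y := by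
  have h1 : (P : Subgroup G) ≤ Subgroup.normalizer Y := fun x hx =>
    H3.mem_normalizer_iff_image.mpr (hY x hx)
  have h2 : ((g • P : Sylow p G) : Subgroup G) ≤ Subgroup.normalizer Y := by
    intro x hx
    have h3 := hX _ ((H3.mem_smul_sylow_iff P g x).mp hx)
    rw [H3.mem_normalizer_iff_image, ← hg, Set.image_image]
    conv_rhs => rw [← h3, Set.image_image]
    congr 1
    funext y
    group
  obtain ⟨h, hh, h3⟩ := H3.exists_mem_smul_eq_of_le (g • P) P h2 h1
  rw [← mul_smul, Sylow.smul_eq_iff_mem_normalizer] at h3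
  refine ⟨h * g, h3, ?_⟩
  rw [← H3.mem_normalizer_iff_image.mp hh, ← hg, Set.image_image]
  congr 1
  funext y
  group

end Cfsg.Agent.S0076
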