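import Cfsg.Statements.S0079
import Cfsg.Agent.H3.NilpotentHall

set_option autoImplicit false
open Cfsg

namespace Cfsg.Agent.S0079

/-- A nilpotent Hall subgroup has a normal complement exactly when elements of it that are conjugate in the whole group are already conjugate inside it. -/
theorem result {G : Type*} [Group G] [Finite G] (H : Subgroup G) (hH : Group.IsNilpotent H) (hHall : Nat.Coprime (Nat.card H) H.index) : (∃ N : Subgroup G, N.Normal ∧ N.IsComplement' H) ↔ ∀ x ∈ H, ∀ y ∈ H, (∃ g : G, g * x * g⁻¹ = y) → ∃ h ∈ H, h * x * h⁻¹ = y := by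
  constructor
  · rintro ⟨N, hN, hc⟩ x hx y hy ⟨g, rfl⟩
    obtain ⟨⟨u, w⟩, rfl⟩ := hc.symm.2 g
    refine ⟨u, u.2, ?_⟩
    have h1 : (w : G) * x * (w : G)⁻¹ * x⁻¹ ∈ N ⊓ H := by
      refine Subgroup.mem_inf.mpr ⟨?_, mul_mem ?_ (inv_mem hx)⟩
      · have := mul_mem w.2 (hN.conj_mem _ (inv_mem w.2) x)
        simpa [mul_assoc] using this
      · have := mul_mem (mul_mem (inv_mem u.2) hy) u.2
        simpa [mul_assoc] using this
    rw [hc.disjoint.eq_bot, Subgroup.mem_bot, mul_inv_eq_one] at h1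
    calc (u : G) * x * (u : G)⁻¹ = u * ((w : G) * x * (w : G)⁻¹) * (u : G)⁻¹ := by rw [h1]
      _ = _ := by simp only [mul_inv_rev, mul_assoc]
  · intro h
    refine H3.exists_normal_complement_of_forall_hasNormalPComplement H hHall fun p hp hd => ?_
    haveI := Fact.mk hp
    have hHi : ¬ p ∣ H.index := fun h' => hp.ne_one (Nat.eq_one_of_dvd_coprimes hHall hd h')
    have hP : ((H3.sylowMap hHi default : Sylow p G) : Subgroup G) ≤ H := Subgroup.map_subtype_le _
    exact H3.hasNormalPComplement_of_controls_fusion (H3.sylowMap hHi default) hP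
      (fun x hx g hg => h x (hP hx) _ (hP hg) ⟨g, rfl⟩) H3.hasNormalPComplement_of_isNilpotent

end Cfsg.Agent.S0079
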