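import Cfsg.Statements.S0087
import Cfsg.Agent.S0079

set_option autoImplicit false
open Cfsg

namespace Cfsg.Agent.S0087

/-- A Hall subgroup that is central in its normalizer has a normal complement. -/
theorem result {G : Type*} [Group G] [Finite G] (H : Subgroup G) (hHall : Nat.Coprime (Nat.card H) H.index) (h : Subgroup.normalizer (H : Set G) ≤ Subgroup.centralizer (H : Set G)) : ∃ N : Subgroup G, N.Normal ∧ N.IsComplement' H := by
  have hc : IsMulCommutative H :=
    Subgroup.le_centralizer_iff_isMulCommutative.mp (Subgroup.le_normalizer.trans h)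
  have hnil : ∀ {K : Type _} [Group K] (L : Subgroup K), IsMulCommutative L → Group.IsNilpotent L :=
    fun L hL => by
      open scoped IsMulCommutative in exact CommGroup.isNilpotent
  refine (S0079.result H (hnil H hc) hHall).mpr ?_
  rintro x hx _ hy ⟨g, rfl⟩
  refine ⟨1, one_mem _, ?_⟩
  set C := Subgroup.centralizer {g * x * g⁻¹}
  have h1 : H ≤ C := fun a ha =>
    Subgroup.mem_centralizer_singleton_iff.mpr (setLike_mul_comm ha hy)
  have h2 : H.map (MulAut.conj g).toMonoidHom ≤ C := by
    rintro _ ⟨a, ha, rfl⟩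
    rw [Subgroup.mem_centralizer_singleton_iff]
    have := setLike_mul_comm ha hx
    calc _ = g * (a * x) * g⁻¹ := by simp [mul_assoc]
      _ = _ := by rw [this]; simp [mul_assoc]
  have e1 := Nat.card_congr (Subgroup.subgroupOfEquivOfLe h1).toEquiv
  have e2 := Nat.card_congr (Subgroup.subgroupOfEquivOfLe h2).toEquiv
  obtain ⟨c, hc'⟩ := H3.exists_conj_of_nilpotent_hall _ (H.subgroupOf C)
    ((H.map (MulAut.conj g).toMonoidHom).subgroupOf C) rfl (hnil _ inferInstance)
    (hnil _ inferInstance)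
    (by rw [e1]; exact hHall.coprime_dvd_right (Subgroup.relIndex_dvd_index_of_le h1))
    (by rw [e1, e2, Subgroup.card_map_of_injective (MulAut.conj g).injective])
  have h3 : (c : G)⁻¹ * g ∈ Subgroup.normalizer (H : Set G) := by
    rw [← H3.map_conj_eq_iff]
    refine Subgroup.eq_of_le_of_card_ge ?_
      (by rw [Subgroup.card_map_of_injective (MulAut.conj _).injective])
    rintro _ ⟨a, ha, rfl⟩
    have h4 : (⟨g * a * g⁻¹, h2 ⟨a, ha, rfl⟩⟩ : C) ∈
        (H.subgroupOf C).map (MulAut.conj c).toMonoidHom := hc' ▸ ⟨a, ha, rfl⟩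
    rw [H3.mem_map_conj_iff] at h4
    simpa [Subgroup.mem_subgroupOf, mul_assoc] using h4
  have h4 := h h3 x hx
  have h5 := Subgroup.mem_centralizer_singleton_iff.mp c.2
  calc 1 * x * 1⁻¹ = ((c : G)⁻¹ * g) * x * ((c : G)⁻¹ * g)⁻¹ := by rw [← h4]; group
    _ = (c : G)⁻¹ * (g * x * g⁻¹ * c) := by group
    _ = _ := by rw [← h5]; group

end Cfsg.Agent.S0087
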