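import Cfsg.Statements.S0090
import Cfsg.Agent.S0088
import Cfsg.Agent.H2.AbelianCoprime
import Mathlib.GroupTheory.SchurZassenhaus

set_option autoImplicit false
open Cfsg

namespace Cfsg.Agent.S0090

/-- An abelian normal Hall subgroup A splits as the internal direct product of G' ∩ A and Z(G) ∩ A, and [A, G] = G' ∩ A. -/
theorem result {G : Type*} [Group G] [Finite G] (A : Subgroup G) [A.Normal] (hc : IsMulCommutative A) (hHall : Nat.Coprime (Nat.card A) A.index) : ⁅A, (⊤ : Subgroup G)⁆ = commutator G ⊓ A ∧ (commutator G ⊓ A) ⊓ (Subgroup.center G ⊓ A) = ⊥ ∧ (commutator G ⊓ A) ⊔ (Subgroup.center G ⊓ A) = A := by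
  have h0 : ⁅A, A⁆ = ⊥ := Subgroup.commutator_self_eq_bot_iff.mpr hc
  have h1 : ⁅A, (⊤ : Subgroup G)⁆ = commutator G ⊓ A := by
    rw [← H3.focalSubgroup_eq_of_coprime A (by rw [h0, Subgroup.relIndex_bot_left]; exact hHall.symm)]
    apply le_antisymm
    · rw [Subgroup.commutator_le]
      intro a ha g _
      exact Subgroup.subset_closure ⟨Subgroup.commutator_le_left A ⊤
        (Subgroup.commutator_mem_commutator ha (Subgroup.mem_top g)), a, ha, g, rfl⟩
    · rw [Subgroup.focalSubgroup_def, Subgroup.closure_le]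
      rintro _ ⟨-, a, ha, g, rfl⟩
      exact Subgroup.commutator_mem_commutator ha (Subgroup.mem_top g)
  refine ⟨h1, ?_, ?_⟩
  · rw [eq_bot_iff, ← S0088.result A hc hHall]
    exact le_inf (le_inf (inf_le_left.trans inf_le_right) (inf_le_left.trans inf_le_left))
      (inf_le_right.trans inf_le_left)
  · refine le_antisymm (sup_le inf_le_right inf_le_right) ?_
    obtain ⟨K, hK⟩ := Subgroup.exists_right_complement'_of_coprime hHall
    obtain ⟨-, h2⟩ := H2.coprime_abelian_decomposition K A (by rw [Subgroup.normalizer_eq_top]; exact le_top)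
      (by rw [← hK.symm.index_eq_card]; exact hHall.symm)
    refine h2.ge.trans (sup_le (le_sup_of_le_right (le_inf ?_ inf_le_left)) (le_sup_of_le_left ?_))
    · intro a ha
      have h3 : A ⊔ K ≤ Subgroup.centralizer {a} := sup_le
        (fun b hb => Subgroup.mem_centralizer_singleton_iff.mpr (setLike_mul_comm hb ha.1))
        (fun k hk => Subgroup.mem_centralizer_singleton_iff.mpr (ha.2 k hk))
      rw [hK.sup_eq_top] at h3
      exact Subgroup.mem_center_iff.mpr fun g =>
        Subgroup.mem_centralizer_singleton_iff.mp (h3 (Subgroup.mem_top g))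
    · rw [← h1]
      exact Subgroup.commutator_mono le_rfl le_top

end Cfsg.Agent.S0090
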