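import Cfsg.Statements.S0091
import Cfsg.Agent.H3.Fusion

set_option autoImplicit false
open Cfsg

namespace Cfsg.Agent.S0091

/-- If a nontrivial Sylow p-subgroup controls its own fusion then it is not contained in the derived subgroup. -/
theorem result {G : Type*} [Group G] [Finite G] {p : ℕ} [Fact p.Prime] (P : Sylow p G) (hp : p ∣ Nat.card G) (h : ∀ x ∈ P, ∀ y ∈ P, (∃ g : G, g * x * g⁻¹ = y) → ∃ z ∈ P, z * x * z⁻¹ = y) : ¬ (P : Subgroup G) ≤ commutator G := by
  intro hle
  have h1 := H3.commutator_inf_eq_of_controls_fusion P le_rfl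
    (fun x hx g hg => h x hx _ hg ⟨g, rfl⟩)
  rw [inf_eq_right.mpr hle] at h1
  haveI : Group.IsNilpotent P := P.2.isNilpotent
  have h2 : (⊤ : Subgroup P) = ⊥ := by
    apply H3.eq_bot_of_le_commutator_top
    intro x _
    have h3 : (x : G) ∈ ⁅(P : Subgroup G), (P : Subgroup G)⁆ := (h1.le x.2).1
    rw [← Subgroup.map_subtype_commutator] at h3
    obtain ⟨y, hy, hyx⟩ := h3
    have : y = x := Subtype.ext hyx
    exact this ▸ hy
  apply P.ne_bot_of_dvd_card hp
  rw [eq_bot_iff]
  intro x hx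
  have : (⟨x, hx⟩ : P) ∈ (⊥ : Subgroup P) := h2 ▸ Subgroup.mem_top _
  simpa [Subtype.ext_iff] using this

end Cfsg.Agent.S0091
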