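import Cfsg.Statements.S0092
import Cfsg.Agent.H3.Transfer2
import Cfsg.Agent.S0002
import Cfsg.Agent.H4.Basic
import Mathlib.GroupTheory.SchurZassenhaus

set_option autoImplicit false
open Cfsg

namespace Cfsg.Agent.S0092

open Subgroup
open scoped Pointwise commutatorElement

/-- Frattini argument for complements of an abelian normal Hall subgroup `A` of `M ⊴ X`. -/
theorem exists_complement_frattini {X : Type*} [Group X] [Finite X] (A M : Subgroup X) [A.Normal]
    [M.Normal] [IsMulCommutative A] (hAM : A ≤ M) (hc : (Nat.card A).Coprime (A.relIndex M)) :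
    ∃ L : Subgroup X, L ≤ M ∧ A ⊓ L = ⊥ ∧ A ⊔ L = M ∧ A ⊔ normalizer (L : Set X) = ⊤ := by
  have e := Nat.card_congr (subgroupOfEquivOfLe hAM).toEquiv
  have hc' : (Nat.card (A.subgroupOf M)).Coprime (A.subgroupOf M).index := by rw [e]; exact hc
  obtain ⟨L, hL⟩ := exists_right_complement'_of_coprime hc'
  refine ⟨L.map M.subtype, map_subtype_le _, ?_, ?_, ?_⟩
  · rw [eq_bot_iff]
    rintro _ ⟨h1, y, hy, rfl⟩
    have : y ∈ (⊥ : Subgroup M) := hL.disjoint.eq_bot ▸ mem_inf.mpr ⟨h1, hy⟩
    rw [mem_bot.mp this]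
    exact one_mem _
  · rw [← map_subgroupOf_eq_of_le hAM, ← Subgroup.map_sup, hL.sup_eq_top, ← MonoidHom.range_eq_map,
      range_subtype]
  · rw [eq_top_iff]
    intro x _
    have h1 : (A.subgroupOf M).IsComplement' (L.map (MulAut.conjNormal x).toMonoidHom) := by
      apply isComplement'_of_card_mul_and_disjoint
      · rw [card_map_of_injective (f := (MulAut.conjNormal (H := M) x).toMonoidHom)
          (MulAut.conjNormal (H := M) x).injective, hL.card_mul_card]
      · rw [disjoint_iff, eq_bot_iff]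
        rintro _ ⟨h1, y, hy, rfl⟩
        have h2 : (y : X) ∈ A := by
          have h3 : x * y * x⁻¹ ∈ A := h1
          simpa [mul_assoc] using ‹A.Normal›.conj_mem _ h3 x⁻¹
        have : y ∈ (⊥ : Subgroup M) := hL.disjoint.eq_bot ▸ mem_inf.mpr ⟨h2, hy⟩
        rw [mem_bot.mp this]
        simp
    obtain ⟨a, ha, h2⟩ := S0002.result (A.subgroupOf M) hc' L _ hL h1
    have h3 : (a : X)⁻¹ * x ∈ normalizer ((L.map M.subtype : Subgroup X) : Set X) := by
      rw [← H3.map_conj_eq_iff]
      refine eq_of_le_of_card_ge ?_ (card_map_of_injective (MulAut.conj _).injective).ge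
      rintro _ ⟨_, ⟨y, hy, rfl⟩, rfl⟩
      have h4 : MulAut.conjNormal x y ∈ MulAut.conj a • L := h2 ▸ ⟨y, hy, rfl⟩
      rw [mem_pointwise_smul_iff_inv_smul_mem] at h4
      exact ⟨_, h4, by simp [mul_assoc]⟩
    simpa using mul_mem (mem_sup_left ha : (a : X) ∈ A ⊔ normalizer ((L.map M.subtype : Subgroup X) : Set X)) (mem_sup_right h3)

/-- If the Sylow p-subgroups of O^p(G) are abelian then G splits over O^p(G). -/
theorem result {G : Type*} [Group G] [Finite G] {p : ℕ} [Fact p.Prime] (h : ∀ Q : Sylow p (Cfsg.pResidual p G), IsMulCommutative Q) : ∃ K : Subgroup G, K.IsComplement' (Cfsg.pResidual p G) := by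
  let P : Sylow p G := default
  set K := pResidual p G with hK
  set Q : Subgroup G := (P : Subgroup G) ⊓ K with hQ
  have hQe : ((H3.sylowInf P K : Sylow p K) : Subgroup K).map K.subtype = Q :=
    subgroupOf_map_subtype _ _
  haveI := h (H3.sylowInf P K)
  haveI hQc : IsMulCommutative Q := hQe ▸ inferInstance
  have hQp : IsPGroup p Q := P.2.to_inf_left
  set N : Subgroup G := normalizer (Q : Set G) with hN
  have hNK : N ⊔ K = ⊤ := by
    have := Sylow.normalizer_sup_eq_top (H3.sylowInf P K)
    rwa [hQe] at this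
  have hQN : Q ≤ N := le_normalizer
  have hidx : ¬ p ∣ (Q.subgroupOf N).relIndex (K.subgroupOf N) := by
    rw [← inf_subgroupOf_right K, relIndex_subgroupOf inf_le_right]
    intro hd
    apply H3.not_dvd_relIndex_sylow_of_normal P K
    rw [← inf_relIndex_right, ← relIndex_mul_relIndex _ (K ⊓ N) _ (le_inf inf_le_right hQN) inf_le_left]
    exact hd.mul_right _
  obtain ⟨L, hLM, hL1, hL2, hL3⟩ := exists_complement_frattini (Q.subgroupOf N) (K.subgroupOf N)
    (subgroupOf_mono N inf_le_right) (by
      obtain ⟨k, hk⟩ := IsPGroup.iff_card.mp (hQp.comap_subtype (K := N))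
      exact hk ▸ ((Nat.Prime.coprime_iff_not_dvd Fact.out).mpr hidx).pow_left k)
  let S : Sylow p (normalizer (L : Set N)) := default
  let S' : Subgroup N := (S : Subgroup _).map (normalizer (L : Set N)).subtype
  have hS' : IsPGroup p S' := S.2.map _
  refine ⟨S'.map N.subtype, isComplement'_of_disjoint_and_mul_eq_univ ?_ ?_⟩
  · rw [disjoint_iff, eq_bot_iff]
    rintro _ ⟨⟨s, hs, rfl⟩, hsK⟩
    have hsL : s ∈ normalizer (L : Set N) := map_subtype_le _ hs
    have hsQ : s ∈ Q.subgroupOf N := by
      let T : Sylow p (K.subgroupOf N) :=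
        ((hQp.comap_subtype (K := N)).comap_subtype (K := K.subgroupOf N)).toSylow hidx
      haveI : (T : Subgroup (K.subgroupOf N)).Normal :=
        (inferInstance : ((Q.subgroupOf N).subgroupOf (K.subgroupOf N)).Normal)
      obtain ⟨T', hT'⟩ := (hS'.comap_subtype (K := K.subgroupOf N)).exists_le_sylow
      haveI := Sylow.unique_of_normal T inferInstance
      rw [Subsingleton.elim T' T] at hT'
      exact hT' (x := ⟨s, hsK⟩) hs
    have hsc : K.subgroupOf N ≤ centralizer {s} := by
      rw [← hL2]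
      refine sup_le (fun a ha => mem_centralizer_singleton_iff.mpr (setLike_mul_comm ha hsQ))
        fun l hl => mem_centralizer_singleton_iff.mpr ?_
      rw [← commutatorElement_eq_one_iff_mul_comm, ← mem_bot, ← hL1]
      exact mem_inf.mpr ⟨commutator_le_right ⊤ _ (commutator_mem_commutator (mem_top l) hsQ),
        le_normalizer_iff_commutator_le_left.mp le_rfl (commutator_mem_commutator hl hsL)⟩
    have h1 := H4.eq_one_of_mem_commutator_of_abelian_sylow (H3.sylowInf P K) (z := ⟨s, hsK⟩) hsQ.1
      (fun n hn => by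
        have h2 : (n : G) ∈ N := by
          have := le_normalizer_map (H := ((H3.sylowInf P K : Sylow p K) : Subgroup K)) K.subtype
            ⟨n, hn, rfl⟩
          rwa [hQe] at this
        have h3 := congrArg Subtype.val
          (mem_centralizer_singleton_iff.mp (hsc (x := ⟨n, h2⟩) n.2))
        exact Subtype.ext h3)
      (H3.le_commutator_of_pResidual_eq_top H3.pResidual_pResidual (H3.sylowInf P K).2 hsQ.1)
    exact congrArg Subtype.val h1
  · rw [← mul_normal, ← coe_top, SetLike.coe_set_eq, eq_top_iff, ← hNK]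
    refine sup_le (fun n hn => ?_) le_sup_right
    have h1 : (⊤ : Subgroup N) ≤ (S'.map N.subtype ⊔ K).subgroupOf N := by
      rw [← hL3]
      refine sup_le (fun a ha => mem_sup_right ha.2) fun t ht => ?_
      obtain ⟨u, hu, w, hw, h2⟩ := H3.exists_mul_pResidual S ⟨t, ht⟩
      have h3 : t = u * w := congrArg Subtype.val h2
      rw [h3]
      refine mul_mem (mem_sup_left ⟨u, ⟨u, hu, rfl⟩, rfl⟩) (mem_sup_right ?_)
      exact H3.map_pResidual_le (N.subtype.comp (normalizer (L : Set N)).subtype) ⟨w, hw, rfl⟩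
    exact h1 (mem_top ⟨n, hn⟩)

end Cfsg.Agent.S0092
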