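import Cfsg.Statements.S0097
import Cfsg.Agent.H3.PGroup
import Cfsg.Agent.H3.ClassTwo

set_option autoImplicit false
open Cfsg

namespace Cfsg.Agent.S0097

/-- For odd p and E extraspecial, the subgroup generated by the elements of order dividing p has exponent dividing p and index at most p. -/
theorem result {E : Type*} [Group E] [Finite E] {p : ℕ} [Fact p.Prime] (hp : p ≠ 2) (h : Cfsg.IsExtraspecial p E) : (Subgroup.closure {x : E | x ^ p = 1}).index ≤ p ∧ ∀ g ∈ Subgroup.closure {x : E | x ^ p = 1}, g ^ p = 1 := by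
  obtain ⟨⟨hP, hF, hC⟩, hZ⟩ := h
  have hodd : Odd p := (Fact.out : p.Prime).odd_of_ne_two hp
  have hpow : ∀ x : E, x ^ p ∈ Subgroup.center E := fun x => hF ▸ H3.pow_mem_frattini hP x
  refine ⟨?_, fun g hg => H3.pow_eq_one_of_mem_closure_of_class_two hC.le hodd hg⟩
  let f : E →* Subgroup.center E := MonoidHom.mk' (fun x => ⟨x ^ p, hpow x⟩) fun x y => by
    apply Subtype.ext
    exact H3.mul_pow_of_odd_of_commute_commutator (H3.commute_commutator hC.le _ _ _)
      (H3.commute_commutator hC.le _ _ _) hodd
      (H3.pow_eq_one_of_mem_commutator hC.le hpow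
        (Subgroup.commutator_mem_commutator (Subgroup.mem_top _) (Subgroup.mem_top _)))
  have h1 : f.ker ≤ Subgroup.closure {x : E | x ^ p = 1} := fun x hx =>
    Subgroup.subset_closure (congrArg Subtype.val hx)
  calc _ ≤ f.ker.index := Subgroup.index_antitone h1
    _ = Nat.card f.range := Subgroup.index_ker f
    _ ≤ Nat.card (Subgroup.center E) := Subgroup.card_le_card_group _
    _ = p := hZ

end Cfsg.Agent.S0097
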