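import Cfsg.Statements.S0098
import Cfsg.Agent.H3.Extraspecial2
import Cfsg.Agent.H3.SympBasis

set_option autoImplicit false
open Cfsg

namespace Cfsg.Agent.S0098

/-- For odd p, extraspecial p-groups of exponent p are determined up to isomorphism by their order. -/
theorem result {E₁ : Type*} {E₂ : Type*} [Group E₁] [Group E₂] [Finite E₁] [Finite E₂] {p : ℕ} [Fact p.Prime] (hp : p ≠ 2) (h₁ : Cfsg.IsExtraspecial p E₁) (h₂ : Cfsg.IsExtraspecial p E₂) (he₁ : Monoid.exponent E₁ = p) (he₂ : Monoid.exponent E₂ = p) (hc : Nat.card E₁ = Nat.card E₂) : Nonempty (E₁ ≃* E₂) := by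
  obtain ⟨V₁, _, _, _, _, D₁, hD₁, -⟩ := H3.exists_esData_of_isExtraspecial h₁
  obtain ⟨V₂, _, _, _, _, D₂, hD₂, -⟩ := H3.exists_esData_of_isExtraspecial h₂
  have hp' : p.Prime := Fact.out
  have hr : Module.finrank (ZMod p) V₁ = Module.finrank (ZMod p) V₂ := by
    rw [D₁.card_eq, D₂.card_eq, Module.natCard_eq_pow_finrank (K := ZMod p),
      Module.natCard_eq_pow_finrank (K := ZMod p) (V := V₂), Nat.card_zmod] at hc
    exact Nat.pow_right_injective hp'.two_le (Nat.eq_of_mul_eq_mul_right hp'.pos hc)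
  obtain ⟨e, he⟩ := H3.exists_isometry_of_isAlt D₁.B D₂.B D₁.isAlt D₂.isAlt hD₁ hD₂ hr
  have k₁ : ∀ v, D₁.f v = 0 := fun v => by
    obtain ⟨a, rfl⟩ := D₁.π_surj v
    rw [← D₁.pow_eq_one_iff, ← he₁]
    exact Monoid.pow_exponent_eq_one a
  have k₂ : ∀ v, D₂.f v = 0 := fun v => by
    obtain ⟨a, rfl⟩ := D₂.π_surj v
    rw [← D₂.pow_eq_one_iff, ← he₂]
    exact Monoid.pow_exponent_eq_one a
  obtain ⟨φ, -⟩ := D₁.exists_mulEquiv D₂ e he fun v => by rw [k₁, k₂]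
  exact ⟨φ⟩

end Cfsg.Agent.S0098
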