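import Cfsg.Statements.S0104
import Cfsg.Agent.H4.Basic

set_option autoImplicit false
open Cfsg

namespace Cfsg.Agent.S0104

/-- A subgroup Z of a Sylow p-subgroup P that is normalized by N_G(P) is weakly closed in P exactly when it is normal in every Sylow p-subgroup containing it. -/
theorem result {G : Type*} [Group G] [Finite G] {p : ℕ} [Fact p.Prime] (P : Sylow p G) (Z : Subgroup G) (hZP : Z ≤ (P : Subgroup G)) (hZN : Subgroup.normalizer (P : Set G) ≤ Subgroup.normalizer (Z : Set G)) : Cfsg.IsWeaklyClosed Z P ↔ ∀ R : Sylow p G, Z ≤ (R : Subgroup G) → (R : Subgroup G) ≤ Subgroup.normalizer (Z : Set G) := by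
  constructor
  · rintro ⟨-, hW⟩ R hR
    obtain ⟨g, rfl⟩ := MulAction.exists_smul_eq G P R
    -- `Z^{g⁻¹} ≤ P`, so `g` normalises `Z`
    have h1 : Z.map (MulAut.conj g⁻¹).toMonoidHom ≤ (P : Subgroup G) := by
      rintro _ ⟨z, hz, rfl⟩
      have := H4.mem_map_conj.mp (hR hz)
      simpa using this
    have h2 : g ∈ Subgroup.normalizer (Z : Set G) := by
      rw [← inv_mem_iff]
      exact H4.map_conj_eq_iff.mp (hW _ h1)
    rintro _ ⟨x, hx, rfl⟩
    exact mul_mem (mul_mem h2 (hZN (Subgroup.le_normalizer hx))) (inv_mem h2)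
  · intro h
    refine ⟨hZP, fun g hg => ?_⟩
    have h1 : Z ≤ ((g⁻¹ • P : Sylow p G) : Subgroup G) := by
      intro z hz
      rw [H4.coe_sylow_smul, H4.mem_map_conj, inv_inv]
      exact hg (H4.conj_mem_map_conj g hz)
    have h2 := h _ h1
    have h3 := H4.IsSylowIn.of_sylow_le P (h P hZP)
    obtain ⟨n, hn, hc⟩ := h3.exists_conj (g⁻¹ • P : Sylow p G).isPGroup' h2
    have h4 : n * g⁻¹ ∈ Subgroup.normalizer ((P : Subgroup G) : Set G) := by
      refine H4.mem_normalizer_of_conj_mem fun x hx => ?_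
      have := hc _ (H4.conj_mem_map_conj g⁻¹ hx)
      simpa [mul_assoc] using this
    have h5 : g ∈ Subgroup.normalizer (Z : Set G) := by
      have := mul_mem (inv_mem (hZN h4)) hn
      simpa using this
    exact H4.map_conj_eq_iff.mpr h5

end Cfsg.Agent.S0104
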