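import Cfsg.Statements.S0105
import Cfsg.Agent.H4.Basic
import Cfsg.Agent.H2.AbelianCoprime
import Mathlib.GroupTheory.SchurZassenhaus

set_option autoImplicit false
open Cfsg

namespace Cfsg.Agent.S0105

/-- With an abelian Sylow p-subgroup P, some quotient of G is isomorphic to the part of P central in N_G(P). -/
theorem result {G : Type*} [Group G] [Finite G] {p : ℕ} [Fact p.Prime] (P : Sylow p G) (hP : IsMulCommutative P) : ∃ (N : Subgroup G) (hN : N.Normal), Nonempty (G ⧸ N ≃* ((P : Subgroup G) ⊓ Subgroup.centralizer (Subgroup.normalizer (P : Set G) : Set G) : Subgroup G)) := by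
  refine ⟨(P : Subgroup G).transferFocal.ker, inferInstance, ⟨?_⟩⟩
  refine (Subgroup.transferFocal.quotientKerMulEquivQuotientFocalSubroupOf P).trans (MulEquiv.symm ?_)
  set N := Subgroup.normalizer (P : Set G) with hN
  set Z := (P : Subgroup G) ⊓ Subgroup.centralizer (N : Set G) with hZ
  let f : Z →* (P : Subgroup G) ⧸ (P : Subgroup G).focalSubgroupOf :=
    (QuotientGroup.mk' _).comp (Subgroup.inclusion inf_le_left)
  refine MulEquiv.ofBijective f ⟨?_, ?_⟩
  · rw [injective_iff_map_eq_one]
    intro z hz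
    have h1 : (z : G) ∈ (P : Subgroup G).focalSubgroup :=
      (QuotientGroup.eq_one_iff (N := (P : Subgroup G).focalSubgroupOf) _).mp hz
    exact Subtype.ext (H4.eq_one_of_mem_commutator_of_abelian_sylow P z.2.1 z.2.2
      (Subgroup.focalSubgroup_le_commutator _ h1))
  · have hPN : (P : Subgroup G) ≤ N := Subgroup.le_normalizer
    have hnorm : ((P : Subgroup G).subgroupOf N).Normal := Subgroup.normal_in_normalizer
    obtain ⟨A₀, hA₀⟩ := Subgroup.exists_right_complement'_of_coprime
      (N := (P : Subgroup G).subgroupOf N) (P.subtype hPN).card_coprime_index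
    have hcop : (Nat.card (A₀.map N.subtype)).Coprime (Nat.card (P : Subgroup G)) := by
      rw [Subgroup.card_subtype, ← hA₀.symm.index_eq_card]
      have := (P.subtype hPN).card_coprime_index.symm
      rwa [Sylow.coe_subtype, H2.card_subgroupOf_of_le hPN] at this
    obtain ⟨-, h2⟩ := H2.coprime_abelian_decomposition (A₀.map N.subtype) (P : Subgroup G)
      (Subgroup.map_subtype_le _) hcop
    have h3 : (P : Subgroup G) ⊓ Subgroup.centralizer (A₀.map N.subtype : Set G) ≤ Z := by
      rintro c ⟨hc1, hc2⟩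
      refine ⟨hc1, ?_⟩
      intro n hn
      obtain ⟨u, hu, a, ha, hua⟩ := H2.exists_mul_eq_of_isComplement' hA₀ ⟨n, hn⟩
      have h4 : (u : G) * a = n := congrArg Subtype.val hua
      have h5 : (a : G) * c = c * a := hc2 a ⟨a, ha, rfl⟩
      have h6 : (u : G) * c = c * u := (P : Subgroup G).le_centralizer hc1 u hu
      rw [← h4, mul_assoc, h5, ← mul_assoc, h6, mul_assoc]
    have h7 : ⁅(P : Subgroup G), A₀.map N.subtype⁆ ≤ (P : Subgroup G).focalSubgroup := by
      rw [← Subgroup.commutator_inf_eq_focalSubgroup]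
      exact le_inf (Subgroup.commutator_mono le_top le_top) (le_sup_right.trans h2.le)
    have h8 : f.range.comap (QuotientGroup.mk' _) = ⊤ := by
      rw [eq_top_iff, ← Subgroup.map_subtype_le_map_subtype, ← MonoidHom.range_eq_map,
        Subgroup.range_subtype]
      refine h2.ge.trans (sup_le (h3.trans ?_) (h7.trans ?_))
      · intro z hz
        exact ⟨⟨z, hz.1⟩, ⟨⟨z, hz⟩, rfl⟩, rfl⟩
      · intro z hz
        refine ⟨⟨z, Subgroup.focalSubgroup_le _ hz⟩, ⟨1, ?_⟩, rfl⟩
        rw [map_one, eq_comm]
        exact (QuotientGroup.eq_one_iff (N := (P : Subgroup G).focalSubgroupOf) _).mpr hz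
    intro y
    obtain ⟨x, rfl⟩ := QuotientGroup.mk_surjective y
    have : x ∈ f.range.comap (QuotientGroup.mk' _) := h8 ▸ Subgroup.mem_top x
    exact this

end Cfsg.Agent.S0105
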