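import Cfsg.Statements.S0114
import Cfsg.Agent.H4.MaxClass
import Cfsg.Agent.H42.Index2

set_option autoImplicit false
open Cfsg

namespace Cfsg.Agent.S0114

/-- The central quotient of a 2-group of maximal class is dihedral. -/
theorem result {X : Type*} [Group X] [Finite X] (n : ℕ) (hn : 3 ≤ n) (hX : Nat.card X = 2 ^ n) (hc : Group.nilpotencyClass X = n - 1) : Nonempty (X ⧸ Subgroup.center X ≃* DihedralGroup (2 ^ (n - 2))) := by
-----
  have hXp : IsPGroup 2 X := IsPGroup.of_card hX
  have := hXp.isNilpotent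
  have h4 : (commutator X).index = 4 := H4.index_commutator_of_maximal_class hn hX hc
  have hG := H4.not_isMulCommutative_of_class hn hc
  obtain ⟨a, ha⟩ := H4.exists_index_zpowers_eq_two X hXp h4
  obtain ⟨b, hb⟩ := H4.exists_not_mem_of_index_eq_two ha
  let π := QuotientGroup.mk' (Subgroup.center X)
  have hπ : Function.Surjective π := QuotientGroup.mk'_surjective _
  have hZ : Subgroup.center X ≤ Subgroup.zpowers a := by
    rw [H4.center_eq_inf_centralizer (ha ▸ Nat.prime_two) hG hb]
    exact inf_le_left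
  have h1 : (Subgroup.zpowers (π a)).comap π = Subgroup.zpowers a := by
    rw [← MonoidHom.map_zpowers, Subgroup.comap_map_eq, QuotientGroup.ker_mk', sup_eq_left.mpr hZ]
  have h2 : orderOf (π a) = 2 ^ (n - 2) := by
    have h3 := H4.card_comap_mk' _ (Subgroup.zpowers (π a))
    have h5 := (Subgroup.zpowers a).card_mul_index
    rw [h1, H4.card_center_eq_two h4 hG ha hb, Nat.card_zpowers (π a)] at h3
    rw [h3, ha, hX, show n = n - 2 + 2 by omega, pow_add] at h5
    omega
  obtain ⟨e⟩ := H42.dihedral_recog (a := π a) (b := π b) (by positivity) h2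
    ((QuotientGroup.eq_one_iff (b * b)).mpr (H4.sq_mem_center hG ha hb))
    (eq_inv_of_mul_eq_one_right
      ((QuotientGroup.eq_one_iff (a * (b * a * b⁻¹))).mpr (H4.mul_conj_mem_center hG ha hb)))
    (fun h => hb (h1 ▸ h : b ∈ Subgroup.zpowers a))
  have h3 : Subgroup.zpowers (π a) ⊔ Subgroup.zpowers (π b) = ⊤ := by
    rw [← MonoidHom.map_zpowers, ← MonoidHom.map_zpowers, ← Subgroup.map_sup,
      H4.sup_zpowers_eq_top_of_index_prime (ha ▸ Nat.prime_two) hb,
      Subgroup.map_top_of_surjective π hπ]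
  exact ⟨Subgroup.topEquiv.symm.trans ((MulEquiv.subgroupCongr h3.symm).trans e)⟩

end Cfsg.Agent.S0114
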