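import Cfsg.Statements.S0122
import Cfsg.Agent.H4.SCN
import Cfsg.Agent.H4.Basic
import Cfsg.Agent.S0110

set_option autoImplicit false
open Cfsg

namespace Cfsg.Agent.S0122

open Subgroup
open scoped commutatorElement

/-- An abelian subgroup of a `p`-group induces a group of order at most `p ^ 2` on a normal
abelian subgroup of order `p ^ 3`. -/
theorem relIndex_le {G : Type*} [Group G] [Finite G] {p : ℕ} [hp : Fact p.Prime]
    (hG : IsPGroup p G) (E Z : Subgroup G) [IsMulCommutative E] [Z.Normal] [IsMulCommutative Z]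
    (hZ : Nat.card Z = p ^ 3) : (centralizer (Z : Set G)).relIndex E ≤ p ^ 2 := by
  have hlt : p ^ 2 < p ^ 3 := Nat.pow_lt_pow_right hp.out.one_lt (by decide)
  obtain ⟨Y, hYn, hYZ, hY⟩ := H3.exists_normal_le_card_eq hG Z 2 (hZ ▸ hlt.le)
  obtain ⟨z, hzZ, hzY, -, hz⟩ := H3.exists_mem_central_mod hG Y Z
    (fun h => by have := card_le_of_le h; omega)
  have hZeq : Y ⊔ zpowers z = Z := by
    refine eq_of_le_of_card_ge (sup_le hYZ (zpowers_le.mpr hzZ)) ?_
    have := S0110.card_mul_le_of_lt (hG.to_subgroup _) (lt_of_le_of_ne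
      (le_sup_left (a := Y) (b := zpowers z)) fun h => hzY (h ▸ mem_sup_right (mem_zpowers z)))
    rwa [hY, ← pow_succ, ← hZ] at this
  have h1 : centralizer (Z : Set G) = centralizer {z} ⊓ centralizer (Y : Set G) := by
    refine le_antisymm (le_inf (centralizer_le (by simpa using hzZ)) (centralizer_le hYZ)) ?_
    rw [← hZeq, le_centralizer_iff]
    refine sup_le (le_centralizer_iff.mp inf_le_right) (zpowers_le.mpr ?_)
    exact fun y hy => mem_centralizer_singleton_iff.mp hy.1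
  have h2 : (centralizer (Z : Set G)).relIndex E =
      (centralizer {z}).relIndex (centralizer (Y : Set G) ⊓ E) *
        (centralizer (Y : Set G)).relIndex E := by
    rw [h1, relIndex_inf_mul_relIndex]
  by_cases hEY : E ≤ centralizer (Y : Set G)
  · rw [h2, relIndex_eq_one.mpr hEY, mul_one, ← hY]
    exact H4.relIndex_centralizer_le fun c _ => hz c
  obtain ⟨g, hgE, hgY⟩ := SetLike.not_le_iff_exists.mp hEY
  have h3 : Nat.card (Y ⊓ centralizer {g} : Subgroup G) ≤ p := by
    have := S0110.card_mul_le_of_lt (hG.to_subgroup _) (lt_of_le_of_ne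
      (inf_le_left (a := Y) (b := centralizer {g})) fun h => hgY fun y hy =>
        mem_centralizer_singleton_iff.mp (h.ge hy).2)
    rw [hY, sq] at this
    exact Nat.le_of_mul_le_mul_right this hp.out.pos
  rw [h2, sq]
  refine Nat.mul_le_mul (le_trans (H4.relIndex_centralizer_le (M := Y ⊓ centralizer {g})
    fun c hc => mem_inf.mpr ⟨hz c, ?_⟩) h3) ?_
  · refine mem_centralizer_singleton_iff.mpr ?_
    have e1 : g * c = c * g := E.le_centralizer hc.2 g hgE
    have e2 : ⁅z, g⁆ * c = c * ⁅z, g⁆ := hc.1 _ (hz g)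
    have e3 : ⁅z, g⁆ * z = z * ⁅z, g⁆ := Z.le_centralizer hzZ _ (hYZ (hz g))
    have e4 : g * z * g⁻¹ = ⁅z, g⁆⁻¹ * z := by rw [commutatorElement_def]; group
    have e5 : g * ⁅z, c⁆ * g⁻¹ = ⁅z, c⁆ := by
      calc g * ⁅z, c⁆ * g⁻¹
          = (g * z * g⁻¹) * (g * c * g⁻¹) * (g * z * g⁻¹)⁻¹ * (g * c * g⁻¹)⁻¹ := by
            rw [commutatorElement_def]; group
        _ = ⁅z, g⁆⁻¹ * z * c * z⁻¹ * ⁅z, g⁆ * c⁻¹ := by rw [e4, e1]; group
        _ = ⁅z, g⁆⁻¹ * (z * c * z⁻¹ * ⁅z, g⁆) * c⁻¹ := by group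
        _ = ⁅z, g⁆⁻¹ * (⁅z, g⁆ * (z * c * z⁻¹)) * c⁻¹ := by
            rw [((((show Commute ⁅z, g⁆ z from e3).mul_right e2).mul_right
              (show Commute ⁅z, g⁆ z from e3).inv_right)).eq]
        _ = ⁅z, c⁆ := by rw [commutatorElement_def z c]; group
    exact (mul_inv_eq_iff_eq_mul.mp e5).symm
  · have := H4.index_centralizer_le hG 2 Y hY
    exact (Nat.le_of_dvd (Nat.pos_of_ne_zero FiniteIndex.index_ne_zero)
      (relIndex_dvd_index_of_normal _ E)).trans (by simpa using this)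

/-- For odd p, a p-group containing an elementary abelian subgroup of order p^4 has a normal elementary abelian subgroup of order p^4. -/
theorem result {G : Type*} [Group G] [Finite G] {p : ℕ} [Fact p.Prime] (hp : p ≠ 2) (hG : IsPGroup p G) (E : Subgroup G) (hE : Cfsg.IsElementaryAbelian p E) (hE4 : Nat.card E = p ^ 4) : ∃ A : Subgroup G, A.Normal ∧ Cfsg.IsElementaryAbelian p A ∧ Nat.card A = p ^ 4 := by
  have hpp : p.Prime := Fact.out
  obtain ⟨hEc, hEe⟩ := hE
  obtain ⟨Z, hZn, hZc, hZe, -, hZmax⟩ := H4.exists_maximal_abelian_exponent p (⊥ : Subgroup G)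
    (fun a ha => by rw [mem_bot.mp ha, one_pow])
  have hΩ : ∀ x ∈ centralizer (Z : Set G), x ^ p = 1 → x ∈ Z := fun x hx hxp =>
    H4.mem_of_mem_centralizer_of_maximal_exponent hG 1 (by rwa [pow_one]) Z (by rwa [pow_one])
      (by rwa [pow_one]) x hx (by rwa [pow_one])
  obtain ⟨a, ha⟩ := (hG.to_subgroup Z).exists_card_eq
  by_cases ha4 : 4 ≤ a
  · obtain ⟨K, hK, hKZ, hKc⟩ := H3.exists_normal_le_card_eq hG Z 4
      (ha ▸ Nat.pow_le_pow_right hpp.pos ha4)
    exact ⟨K, hK, ⟨le_centralizer_iff_isMulCommutative.mp fun x hx y hy =>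
      Z.le_centralizer (hKZ hx) y (hKZ hy), fun x hx => hZe x (hKZ hx)⟩, hKc⟩
  set C := centralizer (Z : Set G) with hC
  have hCE : C ⊓ E ≤ Z := fun x hx => hΩ x hx.1 (hEe x hx.2)
  obtain ⟨k, hk⟩ := (hG.to_subgroup (C ⊓ E)).exists_card_eq
  obtain ⟨j, hj⟩ : ∃ j, C.relIndex E = p ^ j := (hG.to_subgroup E).index _
  have hkj : k + j = 4 := by
    have := H2.card_inf_mul_relIndex C E
    rw [hk, hj, hE4, ← pow_add] at this
    exact Nat.pow_right_injective hpp.two_le this
  have hka : k < a := by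
    have : C ⊓ E < Z := lt_of_le_of_ne hCE fun h => by
      have h1 : E ≤ C := le_centralizer_iff.mp ((h.ge.trans inf_le_right).trans E.le_centralizer)
      have h2 := card_le_of_le ((le_inf h1 le_rfl).trans hCE)
      rw [hE4, ha, Nat.pow_le_pow_iff_right hpp.one_lt] at h2
      exact ha4 h2
    have := H2.card_lt_of_lt this
    rwa [hk, ha, Nat.pow_lt_pow_iff_right hpp.one_lt] at this
  have hCi := H4.index_centralizer_le hG a Z ha
  have hja : j ≤ a.choose 2 := by
    rw [← Nat.pow_le_pow_iff_right hpp.one_lt, ← hj]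
    exact (Nat.le_of_dvd (Nat.pos_of_ne_zero FiniteIndex.index_ne_zero)
      (relIndex_dvd_index_of_normal _ E)).trans hCi
  have ha3 : a = 3 := by
    have : a ≤ 3 := by omega
    interval_cases a <;> simp at hja <;> omega
  subst ha3
  have hj2 : j ≤ 2 := by
    rw [← Nat.pow_le_pow_iff_right hpp.one_lt, ← hj]
    exact relIndex_le hG E Z ha
  obtain rfl : k = 2 := by omega
  obtain rfl : j = 2 := by omega
  have hHn : (E ⊔ C).Normal := by
    have h1 := relIndex_mul_index (le_sup_right : C ≤ E ⊔ C)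
    rw [relIndex_sup_right, hj] at h1
    obtain ⟨m, hm⟩ := hG.index (E ⊔ C)
    rw [← h1, hm, ← pow_add, Nat.pow_le_pow_iff_right hpp.one_lt] at hCi
    have : m = 0 ∨ m = 1 := by simp at hCi; omega
    rcases this with rfl | rfl
    · rw [pow_zero, index_eq_one] at hm
      rw [hm]; infer_instance
    · exact H3.normal_of_index_eq hG (by rw [hm, pow_one])
  have hcen : ∀ c ∈ C ⊓ E, ∀ h ∈ E ⊔ C, Commute h c := by
    intro c hc h hh
    have : E ⊔ C ≤ centralizer {c} := sup_le
      (fun x hx => mem_centralizer_singleton_iff.mpr (E.le_centralizer hc.2 x hx))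
      (fun x hx => mem_centralizer_singleton_iff.mpr (hx c (hCE hc)).symm)
    exact mem_centralizer_singleton_iff.mp (this hh)
  refine ⟨E, ?_, ⟨hEc, hEe⟩, hE4⟩
  rw [← normalizer_eq_top_iff]
  by_contra hN
  have := hG.isNilpotent
  obtain ⟨g, hg1, hg2⟩ := SetLike.exists_of_lt
    (Group.normalizerCondition_of_isNilpotent _ (lt_top_iff_ne_top.mpr hN))
  let F := E.map (MulAut.conj g).toMonoidHom
  have hFE : F ≠ E := fun h => hg2 (H4.map_conj_eq_iff.mp h)
  have hFc : Nat.card F = p ^ 4 := by rw [H4.card_map_conj, hE4]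
  have hFD : F ≤ E ⊔ Z := by
    rintro _ ⟨e, he, rfl⟩
    change g * e * g⁻¹ ∈ E ⊔ Z
    set v := g * e * g⁻¹ with hv
    have hvN : v ∈ normalizer (E : Set G) := (mem_normalizer_iff.mp hg1 e).mp (le_normalizer he)
    have hvH : v ∈ E ⊔ C := hHn.conj_mem e (mem_sup_left he) g
    have hvp : v ^ p = 1 := by rw [hv, conj_pow, hEe e he, mul_one, mul_inv_cancel]
    have hvH' := hvH
    rw [← SetLike.mem_coe, mul_normal] at hvH'
    obtain ⟨u, hu, w, hw, huw⟩ := hvH'
    replace huw : u * w = v := huw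
    replace hu : u ∈ E := hu
    replace hw : w ∈ C := hw
    have h1 : ⁅v, u⁻¹⁆ ∈ C ⊓ E := by
      refine mem_inf.mpr ⟨?_, ?_⟩
      · have : ⁅v, u⁻¹⁆ = u * w * u⁻¹ * w⁻¹ := by rw [← huw, commutatorElement_def]; group
        rw [this]
        exact mul_mem ((inferInstance : C.Normal).conj_mem w hw u) (inv_mem hw)
      · rw [commutatorElement_def]
        exact mul_mem ((mem_normalizer_iff.mp hvN _).mp (inv_mem hu)) (inv_mem (inv_mem hu))
    have h2 := H3.mul_pow_of_odd_of_commute_commutator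
      (hcen _ h1 _ (mem_sup_left (inv_mem hu))) (hcen _ h1 _ hvH) (hpp.odd_of_ne_two hp)
      (hEe _ h1.2)
    rw [hvp, hEe _ (inv_mem hu), one_mul, ← huw, inv_mul_cancel_left] at h2
    rw [← huw]
    exact mul_mem_sup hu (hΩ w hw h2)
  have hD : Nat.card (E ⊔ Z : Subgroup G) = p ^ 4 * p := by
    have h1 := H2.card_sup_mul_card_inf_of_normal E Z
    have h2 : E ⊓ Z = C ⊓ E :=
      le_antisymm (le_inf (inf_le_right.trans Z.le_centralizer) inf_le_left)
        (le_inf inf_le_right hCE)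
    rw [h2, hk, hE4, ha] at h1
    refine Nat.eq_of_mul_eq_mul_right (pow_pos hpp.pos 2) ?_
    rw [h1]; ring
  have hsup : E ⊔ F = E ⊔ Z := by
    refine eq_of_le_of_card_ge (sup_le le_sup_left hFD) ?_
    rw [hD, ← hE4]
    refine S0110.card_mul_le_of_lt (hG.to_subgroup _) (lt_of_le_of_ne le_sup_left fun h => ?_)
    exact hFE (eq_of_le_of_card_ge (le_sup_right.trans h.ge) (by rw [hFc, hE4]))
  have h3 : E ⊓ F ≤ C ⊓ E := by
    refine le_inf (le_centralizer_iff.mp (le_sup_right.trans (hsup.ge.trans (sup_le ?_ ?_))))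
      inf_le_left
    · exact le_centralizer_iff.mp (inf_le_left.trans E.le_centralizer)
    · exact le_centralizer_iff.mp (inf_le_right.trans F.le_centralizer)
  have h4 := H2.card_inf_mul_relIndex E F
  have h5 : E.relIndex (E ⊔ Z) = p := by
    have := H2.card_mul_relIndex_of_le (le_sup_left : E ≤ E ⊔ Z)
    rw [hD, hE4] at this
    exact Nat.eq_of_mul_eq_mul_left (pow_pos hpp.pos 4) this
  have h6 := relIndex_le_of_le_right hFD (H := E) (by rw [h5]; exact hpp.ne_zero)
  have h7 := Nat.mul_le_mul (card_le_of_le h3) h6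
  rw [h4, hFc, hk, h5, ← pow_succ, Nat.pow_le_pow_iff_right hpp.one_lt] at h7
  omega

end Cfsg.Agent.S0122
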