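import Cfsg.Statements.S0125
import Cfsg.Agent.H4.Basic
import Cfsg.Agent.H3.PComplement

set_option autoImplicit false
open Cfsg

namespace Cfsg.Agent.S0125

/-- The centralizer of a self-centralizing normal subgroup A of a Sylow p-subgroup is the direct product of A with a normal p'-subgroup. -/
theorem result {G : Type*} [Group G] [Finite G] {p : ℕ} [Fact p.Prime] (R : Sylow p G) (A : Subgroup G) (hAR : A ≤ (R : Subgroup G)) (hAn : (R : Subgroup G) ≤ Subgroup.normalizer (A : Set G)) (hC : (R : Subgroup G) ⊓ Subgroup.centralizer (A : Set G) = A) : ∃ H : Subgroup G, H ≤ Subgroup.centralizer (A : Set G) ∧ Nat.Coprime (Nat.card H) p ∧ Subgroup.centralizer (A : Set G) ≤ Subgroup.normalizer (H : Set G) ∧ H ⊓ A = ⊥ ∧ H ⊔ A = Subgroup.centralizer (A : Set G) := by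
  set C := Subgroup.centralizer (A : Set G) with hCdef
  have hAC : A ≤ C := hC ▸ inf_le_right
  have h1 : H4.IsSylowIn p A C := by
    have := (H4.IsSylowIn.of_sylow_le R hAn).inf_of_normalizes
      (Subgroup.centralizer_le_normalizer (A : Set G)) (N := C) (by
        intro g hg
        rw [← H4.map_conj_eq_iff, hCdef, ← H4.centralizer_map_conj, H4.map_conj_eq_iff.mpr hg])
    rwa [hC] at this
  have h2 : Subgroup.normalizer (h1.toSylow : Set C) ≤ Subgroup.centralizer (h1.toSylow : Set C) := by
    intro c _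
    rw [Subgroup.mem_centralizer_iff]
    intro a ha
    exact Subtype.ext (c.2 a ha)
  have h3 := H3.hasNormalPComplement_of_normalizer_le_centralizer _ h2
  have h4 := H3.hasNormalPComplement_iff_coprime.mp h3
  have h5 : Nat.Coprime (Nat.card ((pResidual p C).map C.subtype)) p := by
    rwa [Subgroup.card_subtype]
  refine ⟨(pResidual p C).map C.subtype, Subgroup.map_subtype_le _, h5, ?_, ?_, ?_⟩
  · intro c hc
    refine H4.mem_normalizer_of_conj_mem ?_
    rintro _ ⟨x, hx, rfl⟩
    exact ⟨_, (H3.pResidual_normal (p := p) (G := C)).conj_mem x hx ⟨c, hc⟩, rfl⟩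
  · rw [inf_comm]
    exact H3.inf_eq_bot_of_isPGroup_of_coprime h1.isPGroup h5
  · have h6 := congrArg (Subgroup.map C.subtype) (H3.sylow_sup_pResidual h1.toSylow)
    rw [Subgroup.map_sup, h1.map_toSylow, ← MonoidHom.range_eq_map, Subgroup.range_subtype] at h6
    rw [sup_comm, h6]

end Cfsg.Agent.S0125
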