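import Cfsg.Statements.S0132
import Cfsg.Agent.H3.NilpotentHall
import Cfsg.Agent.H3.Frobenius
import Cfsg.Agent.H22.Core

set_option autoImplicit false
open Cfsg

namespace Cfsg.Agent.S0132

/-- A minimal non-p-nilpotent finite group is a minimal non-nilpotent group with a normal Sylow p-subgroup. -/
theorem result {G : Type*} [Group G] [Finite G] {p : ℕ} [Fact p.Prime] (h1 : ¬ Cfsg.HasNormalPComplement p G) (h2 : ∀ H : Subgroup G, H ≠ ⊤ → Cfsg.HasNormalPComplement p H) : (∀ H : Subgroup G, H ≠ ⊤ → Group.IsNilpotent H) ∧ ¬ Group.IsNilpotent G ∧ ∀ P : Sylow p G, (P : Subgroup G).Normal := by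
-----
  have h3 := h1
  rw [H3.hasNormalPComplement_iff_frobenius] at h3
  push Not at h3
  obtain ⟨Q, hQ, g, hg, hgp, hgc⟩ := h3
  have htop : Q ⊔ Subgroup.zpowers g = ⊤ := by
    by_contra hne
    have h4 := H3.mem_centralizer_of_hasNormalPComplement (h2 _ hne)
      (Q := Q.subgroupOf (Q ⊔ Subgroup.zpowers g)) hQ.comap_subtype
      (g := ⟨g, Subgroup.mem_sup_right (Subgroup.mem_zpowers g)⟩)
      (Subgroup.le_normalizer_comap _ hg) (by rwa [← Subgroup.orderOf_coe])
    exact hgc fun x hx => congrArg Subtype.val (h4 ⟨x, Subgroup.mem_sup_left hx⟩ hx)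
  have hQn : Q.Normal := by
    rw [← Subgroup.normalizer_eq_top_iff, eq_top_iff, ← htop]
    exact sup_le Subgroup.le_normalizer (Subgroup.zpowers_le.mpr hg)
  let π := QuotientGroup.mk' Q
  have hπ : Subgroup.zpowers (π g) = ⊤ := by
    rw [← Subgroup.map_top_of_surjective π (QuotientGroup.mk'_surjective Q), ← htop,
      Subgroup.map_sup, MonoidHom.map_zpowers, (Subgroup.map_eq_bot_iff Q).mpr
        (QuotientGroup.ker_mk' Q).ge, bot_sup_eq]
  have hcyc : IsCyclic (G ⧸ Q) :=
    ⟨⟨π g, fun x => (hπ ▸ Subgroup.mem_top x : x ∈ Subgroup.zpowers (π g))⟩⟩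
  have hcop : (Nat.card (G ⧸ Q)).Coprime p := by
    rw [← Subgroup.card_top, ← hπ, Nat.card_zpowers]
    exact hgp.coprime_dvd_left (orderOf_map_dvd π g)
  refine ⟨fun H hH => ?_, fun h => h1 H3.hasNormalPComplement_of_isNilpotent, fun P => ?_⟩
  · have h4 := H3.hasNormalPComplement_iff_coprime.mp (h2 H hH)
    have h5 := (H3.isPGroup_quotient_pResidual (p := p) (G := H)).isNilpotent
    have h6 : Group.IsNilpotent (G ⧸ Q) := by
      let _ := IsCyclic.commGroup (α := G ⧸ Q)
      infer_instance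
    let f : H →* (H ⧸ pResidual p H) × (G ⧸ Q) :=
      (QuotientGroup.mk' (pResidual p H)).prod (π.comp H.subtype)
    refine Subgroup.isNilpotent_of_ker_le_center f ?_
    rw [MonoidHom.ker_prod, QuotientGroup.ker_mk', ← MonoidHom.comap_ker, QuotientGroup.ker_mk',
      inf_comm, H22.inf_eq_bot_of_pgroup_coprime hQ.comap_subtype h4]
    exact bot_le
  · have h4 : (P : Subgroup G).map π = ⊥ := H22.eq_bot_of_pgroup_coprime (P.isPGroup'.map π)
      (hcop.coprime_dvd_left (Subgroup.card_subgroup_dvd_card _))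
    rw [Subgroup.map_eq_bot_iff, QuotientGroup.ker_mk'] at h4
    rwa [← P.is_maximal' hQ h4]

end Cfsg.Agent.S0132
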