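import Cfsg.Statements.S0162
import Cfsg.Agent.H6.FrobSchur
import Cfsg.Agent.H6.BrauerPerm
import Cfsg.Agent.H5.Central

set_option autoImplicit false
open Cfsg

namespace Cfsg.Agent.S0162

open scoped ComplexConjugate

theorem card_irr {G : Type*} [Group G] [Finite G] :
    Nat.card (Cfsg.IrrCharacter G) = Nat.card (ConjClasses G) := by
  have h := H6.card_fixed_irr_eq_card_fixed_classes (G := G) (fun g => g) (fun χ hχ => hχ)
  rw [Nat.card_congr (Equiv.subtypeUnivEquiv fun _ => rfl),
    Nat.card_congr (Equiv.subtypeUnivEquiv fun _ g _ => IsConj.refl g)] at h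
  exact h

/-- If a finite group has odd order, its order is congruent to its number of conjugacy classes modulo 16. -/
theorem result {G : Type*} [Group G] [Finite G] (hodd : Odd (Nat.card G)) : Nat.card G ≡ Nat.card (ConjClasses G) [MOD 16] := by
  classical
  choose d hd using fun χ : Cfsg.IrrCharacter G =>
    H5.exists_nat_degree (H5.isCharacter_of_isIrr χ.2)
  have hsum : ∑ χ : Cfsg.IrrCharacter G, d χ ^ 2 = Nat.card G := by
    have := H5.sum_degree_sq (G := G)
    simp only [hd] at this
    exact_mod_cast this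
  have hdodd : ∀ χ, Odd (d χ) := fun χ => hodd.of_dvd_nat (H5.degree_dvd_card χ.2 (hd χ))
  let c : Cfsg.IrrCharacter G → Cfsg.IrrCharacter G :=
    fun χ => ⟨fun g => conj ((χ : G → ℂ) g), H5.isIrrCharacter_conj χ.2⟩
  have hc : ∀ χ, d (c χ) = d χ := by
    intro χ
    have h1 := hd (c χ)
    change conj ((χ : G → ℂ) 1) = _ at h1
    rw [hd, map_natCast] at h1
    exact_mod_cast h1.symm
  have key : ∑ χ : Cfsg.IrrCharacter G, ((d χ : ZMod 16) ^ 2 - 1) = 0 := by
    refine Finset.sum_involution (fun χ _ => c χ) (fun χ _ => ?_) (fun χ _ h e => ?_)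
      (fun χ _ => Finset.mem_univ _) (fun χ _ => ?_)
    · rw [hc]
      obtain ⟨k, hk⟩ := hdodd χ
      rw [hk]
      push_cast
      generalize (k : ZMod 16) = x
      revert x
      decide
    · apply h
      have h1 : (χ : G → ℂ) = fun _ => 1 := by
        by_contra hne
        exact H6.conj_ne_of_odd hodd χ.2 hne (congrArg Subtype.val e)
      have h2 := hd χ
      rw [h1] at h2
      have h2' : (1 : ℂ) = d χ := h2
      have h3 : d χ = 1 := by exact_mod_cast h2'.symm
      simp [h3]
    · ext g
      simp [c]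
  rw [← ZMod.natCast_eq_natCast_iff, ← hsum, ← card_irr]
  rw [Finset.sum_sub_distrib, sub_eq_zero] at key
  push_cast
  rw [key]
  simp

end Cfsg.Agent.S0162
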