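import Cfsg.Statements.S0163
import Cfsg.Agent.H6.BrauerInd

set_option autoImplicit false
open Cfsg

namespace Cfsg.Agent.S0163

/-- Brauer's induction Theorem: every character of a finite group is a ℤ-linear combination of functions induced from linear characters (homomorphisms to ℂˣ) of elementary subgroups. -/
theorem result {G : Type*} [Group G] [Fintype G] (χ : G → ℂ) (hχ : Cfsg.IsCharacter G χ) : ∃ l : List ((E : Subgroup G) × ((E →* ℂˣ) × ℤ)), (∀ t ∈ l, ∃ p : ℕ, p.Prime ∧ Cfsg.IsElementary p t.1) ∧ χ = (l.map fun t => (t.2.2 : ℂ) • Cfsg.indFun t.1 (fun e => (t.2.1 e : ℂ))).sum := by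
  have key : ∀ f ∈ Submodule.span ℤ (H6.elemLinInd G),
      ∃ l : List ((E : Subgroup G) × ((E →* ℂˣ) × ℤ)),
        (∀ t ∈ l, ∃ p : ℕ, p.Prime ∧ Cfsg.IsElementary p t.1) ∧
        f = (l.map fun t => (t.2.2 : ℂ) • Cfsg.indFun t.1 (fun e => (t.2.1 e : ℂ))).sum := by
    intro f hf
    induction hf using Submodule.span_induction with
    | zero => exact ⟨[], by simp, by simp⟩
    | add a b _ _ ha hb =>
      obtain ⟨l, hl, rfl⟩ := ha
      obtain ⟨l', hl', rfl⟩ := hb
      refine ⟨l ++ l', fun t ht => ?_, by simp⟩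
      rcases List.mem_append.mp ht with h | h
      · exact hl t h
      · exact hl' t h
    | smul k a _ ha =>
      obtain ⟨l, hl, rfl⟩ := ha
      refine ⟨l.map fun t => ⟨t.1, t.2.1, k * t.2.2⟩, fun t ht => ?_, ?_⟩
      · obtain ⟨s, hs, rfl⟩ := List.mem_map.mp ht
        exact hl s hs
      · rw [List.smul_sum, List.map_map, List.map_map]
        congr 1
        refine List.map_congr_left fun t _ => ?_
        simp only [Function.comp_apply, Int.cast_mul, mul_smul, Int.cast_smul_eq_zsmul ℂ k]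
    | mem a ha =>
      obtain ⟨E, lam, hE, rfl⟩ := ha
      exact ⟨[⟨E, lam, 1⟩], by simpa using hE, by simp⟩
  exact key _ (H6.mem_span_elemLinInd_of_isCharacter hχ)

end Cfsg.Agent.S0163
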