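import Cfsg.Statements.S0166
import Cfsg.Agent.H6.CharOver

set_option autoImplicit false
open Cfsg

namespace Cfsg.Agent.S0166

/-- Brauer's splitting field Theorem: a complex representation of a finite group of exponent m is equivalent to a representation by matrices with entries in ℚ adjoined exp(2πi/m). -/
theorem result {G : Type*} [Group G] [Finite G] (n : ℕ) (ρ : Representation ℂ G (Fin n → ℂ)) : ∃ σ : Representation ℂ G (Fin n → ℂ), Nonempty (ρ.Equiv σ) ∧ ∀ g : G, ∀ i j : Fin n, LinearMap.toMatrix' (σ g) i j ∈ Algebra.adjoin ℚ ({Complex.exp (2 * Real.pi * Complex.I / (Monoid.exponent G : ℂ))} : Set ℂ) := by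
  have hm : Monoid.exponent G ≠ 0 := Monoid.exponent_ne_zero_of_finite
  have hζ := Complex.isPrimitiveRoot_exp _ hm
  set ζ := Complex.exp (2 * Real.pi * Complex.I / (Monoid.exponent G : ℂ))
  have halg : IsAlgebraic ℚ ζ :=
    ((hζ.isIntegral (Nat.pos_of_ne_zero hm)).tower_top (A := ℚ)).isAlgebraic
  let K := IntermediateField.adjoin ℚ ({ζ} : Set ℂ)
  obtain ⟨τ, hτ⟩ := H6.exists_equiv_extRep (K := K) ρ
    (H6.isCharOver_of_isPrimitiveRoot hζ hm Monoid.pow_exponent_eq_one
      ⟨⟨ζ, IntermediateField.mem_adjoin_simple_self ℚ ζ⟩, rfl⟩ (H5.isCharacter_character ρ))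
  refine ⟨_, hτ, fun g i j => ?_⟩
  rw [H6.toMatrix'_extRep, ← IntermediateField.adjoin_simple_toSubalgebra_of_isAlgebraic halg]
  exact (LinearMap.toMatrix' (τ g) i j).2

end Cfsg.Agent.S0166
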