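import Cfsg.Statements.S0167
import Cfsg.Agent.H5.Complete

set_option autoImplicit false
open Cfsg

namespace Cfsg.Agent.S0167

/-- Frobenius' formula for the number of ways to write `g` as a commutator. -/
theorem card_eq {G : Type*} [Group G] [Fintype G] (g : G) :
    (Nat.card {p : G × G // g = p.1 * p.2 * p.1⁻¹ * p.2⁻¹} : ℂ) =
      (Nat.card G : ℂ) * ∑ χ : Cfsg.IrrCharacter G, (χ : G → ℂ) g / (χ : G → ℂ) 1 := by
  classical
  have hG := H5.natCard_ne_zero (G := G)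
  have h1 : (Nat.card {p : G × G // g = p.1 * p.2 * p.1⁻¹ * p.2⁻¹} : ℂ) * Nat.card G =
      ∑ p : G × G, ∑ χ : Cfsg.IrrCharacter G,
        (χ : G → ℂ) 1 * (χ : G → ℂ) (p.1⁻¹ * g * (p.2 * p.1 * p.2⁻¹)) := by
    simp only [H5.sum_degree_mul_irr]
    rw [← Finset.sum_filter, Finset.sum_const, nsmul_eq_mul, Nat.card_eq_fintype_card
      (α := {p : G × G // g = p.1 * p.2 * p.1⁻¹ * p.2⁻¹}), Fintype.card_subtype]
    congr 3
    ext p
    simp only [Finset.mem_filter, Finset.mem_univ, true_and]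
    constructor
    · intro h; rw [h]; group
    · intro h
      have : g = p.1 * (p.1⁻¹ * g * (p.2 * p.1 * p.2⁻¹)) * p.1⁻¹ *
        (p.1 * p.2 * p.1⁻¹ * p.2⁻¹) := by group
      rw [this, h]; group
  have h2 : ∀ χ : Cfsg.IrrCharacter G, ∑ p : G × G,
      (χ : G → ℂ) 1 * (χ : G → ℂ) (p.1⁻¹ * g * (p.2 * p.1 * p.2⁻¹)) =
      (Nat.card G : ℂ) * ((χ : G → ℂ) g / (χ : G → ℂ) 1) * Nat.card G := by
    intro χ
    have h0 := H5.degree_ne_zero χ.2
    rw [← Finset.mul_sum, Fintype.sum_prod_type]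
    simp only [H5.sum_irr_mul_conj_eq χ.2]
    have h3 := H5.sum_irr_inv_mul_irr_mul χ.2 χ.2 g
    rw [if_pos rfl] at h3
    have h4 : ∑ a : G, (Nat.card G : ℂ) * (χ : G → ℂ) (a⁻¹ * g) * (χ : G → ℂ) a / (χ : G → ℂ) 1 =
        (Nat.card G : ℂ) / (χ : G → ℂ) 1 * ∑ a : G, (χ : G → ℂ) a⁻¹ * (χ : G → ℂ) (a * g) := by
      rw [Finset.mul_sum]
      refine Fintype.sum_equiv (Equiv.inv G) _ _ (fun a => ?_)
      simp only [Equiv.inv_apply, inv_inv]
      ring
    rw [h4, h3]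
    field_simp
  rw [Finset.sum_comm] at h1
  simp only [h2] at h1
  rw [← Finset.sum_mul, ← Finset.mul_sum] at h1
  exact mul_right_cancel₀ hG h1

/-- An element g of a finite group is a commutator if and only if the sum over the irreducible characters χ of χ g / χ 1 is nonzero. -/
theorem result {G : Type*} [Group G] [Finite G] (g : G) : (∃ a b : G, g = a * b * a⁻¹ * b⁻¹) ↔ ∑ᶠ χ : Cfsg.IrrCharacter G, (χ : G → ℂ) g / (χ : G → ℂ) 1 ≠ 0 := by
  classical
  have := Fintype.ofFinite G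
  have h := card_eq g
  have hG := H5.natCard_ne_zero (G := G)
  rw [finsum_eq_sum_of_fintype]
  constructor
  · rintro ⟨a, b, hab⟩ h0
    rw [h0, mul_zero, Nat.cast_eq_zero, Nat.card_eq_zero] at h
    rcases h with h | h
    · exact h.elim ⟨(a, b), hab⟩
    · exact (not_finite {p : G × G // g = p.1 * p.2 * p.1⁻¹ * p.2⁻¹})
  · intro h0
    have h1 : Nat.card {p : G × G // g = p.1 * p.2 * p.1⁻¹ * p.2⁻¹} ≠ 0 := by
      intro h1
      rw [h1, Nat.cast_zero] at h
      exact mul_ne_zero hG h0 h.symm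
    obtain ⟨⟨p, hp⟩⟩ := (Nat.card_ne_zero.1 h1).1
    exact ⟨p.1, p.2, hp⟩

end Cfsg.Agent.S0167
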