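import Cfsg.Statements.S0198
import Cfsg.Agent.H53.Virtual
import Cfsg.Agent.H5.Inner

set_option autoImplicit false
open Cfsg

namespace Cfsg.Agent.S0198

open Cfsg.Agent.H5 Cfsg.Agent.H53
/-- The isometry lemma behind exceptional characters. Let τ be a family of generalized characters of a finite group G indexed by Fin n, with τ i₀ = 0, every τ i vanishing at the identity, and inner products ⟨τ i, τ j⟩ = 2 if i = j and 1 otherwise for i, j ≠ i₀. Then there are a sign ε and pairwise distinct irreducible characters μ i with τ i = ε (μ i − μ i₀) for all i. -/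
theorem result {G : Type*} [Group G] [Fintype G] (n : ℕ) (i₀ : Fin n) (τ : Fin n → (G → ℂ)) (h0 : τ i₀ = 0) (hgen : ∀ i, Cfsg.IsGeneralizedCharacter G (τ i)) (hone : ∀ i, τ i 1 = 0) (hgram : ∀ i j, i ≠ i₀ → j ≠ i₀ → Cfsg.classInner (τ i) (τ j) = if i = j then 2 else 1) : ∃ ε : ℂ, (ε = 1 ∨ ε = -1) ∧ ∃ μ : Fin n → (G → ℂ), (∀ i, Cfsg.IsIrrCharacter G (μ i)) ∧ Function.Injective μ ∧ ∀ i, τ i = ε • (μ i - μ i₀) := by
  classical
  by_cases hall : ∀ i, i = i₀
  · refine ⟨1, Or.inl rfl, fun _ => fun _ => 1, fun _ => isIrrCharacter_one,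
      fun i j _ => (hall i).trans (hall j).symm, fun i => ?_⟩
    rw [hall i, h0]; simp
  push Not at hall
  obtain ⟨i₁, hi₁⟩ := hall
  have key : ∀ i : {i // i ≠ i₀}, ∃ α β, IsIrrCharacter G α ∧ IsIrrCharacter G β ∧ α ≠ β ∧
      τ i = α - β := fun i =>
    virt_norm_two (hgen i) (ip_of_ci (r := 2) (by rw [hgram i i i.2 i.2]; simp)) (hone i)
  choose α β hα hβ hne hτ using key
  have hpair : ∀ i j : {i // i ≠ i₀}, i ≠ j →
      (α i = α j ∧ β i ≠ β j) ∨ (α i ≠ α j ∧ β i = β j) := by
    intro i j hij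
    have h := hgram i j i.2 j.2
    rw [if_neg (fun h => hij (Subtype.ext h)), hτ i, hτ j, classInner_sub_left,
      classInner_sub_right, classInner_sub_right, classInner_irr (hα i) (hα j),
      classInner_irr (hα i) (hβ j), classInner_irr (hβ i) (hα j), classInner_irr (hβ i) (hβ j)] at h
    have h1 := hne i
    have h2 := hne j
    by_cases a : α i = α j <;> by_cases b : β i = β j
    · exfalso
      have c : α i ≠ β j := b ▸ h1
      have d : β i ≠ α j := a ▸ h1.symm
      rw [if_pos a, if_pos b, if_neg c, if_neg d] at h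
      norm_num at h
    · exact Or.inl ⟨a, b⟩
    · exact Or.inr ⟨a, b⟩
    · exfalso
      rw [if_neg a, if_neg b] at h
      split_ifs at h <;> norm_num at h
  -- a uniform construction from a common constituent
  have build : ∀ (ε : ℂ) (γ δ : {i // i ≠ i₀} → G → ℂ), (∀ i, IsIrrCharacter G (γ i)) →
      (∀ i, IsIrrCharacter G (δ i)) → (∀ i, γ i ≠ δ i) → (∀ i j, δ i = δ j) →
      (∀ i j, i ≠ j → γ i ≠ γ j) → (∀ i : {i // i ≠ i₀}, τ i = ε • (γ i - δ i)) →
      ∃ μ : Fin n → (G → ℂ), (∀ i, Cfsg.IsIrrCharacter G (μ i)) ∧ Function.Injective μ ∧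
        ∀ i, τ i = ε • (μ i - μ i₀) := by
    intro ε γ δ hγ hδ hγδ hδδ hγγ hτ'
    refine ⟨fun i => if h : i = i₀ then δ ⟨i₁, hi₁⟩ else γ ⟨i, h⟩, fun i => ?_, fun i j hij => ?_,
      fun i => ?_⟩
    · dsimp only
      split_ifs
      · exact hδ _
      · exact hγ _
    · by_cases hi : i = i₀ <;> by_cases hj : j = i₀
      · rw [hi, hj]
      · simp only [dif_pos hi, dif_neg hj] at hij
        exact absurd (hij.symm.trans (hδδ _ _)) (hγδ _)
      · simp only [dif_neg hi, dif_pos hj] at hij
        exact absurd (hij.trans (hδδ _ _)) (hγδ _)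
      · simp only [dif_neg hi, dif_neg hj] at hij
        by_contra h
        exact hγγ ⟨i, hi⟩ ⟨j, hj⟩ (fun h' => h (congrArg Subtype.val h')) hij
    · by_cases hi : i = i₀
      · rw [hi, h0]; simp
      · simp only [dif_neg hi, dif_pos]
        rw [hδδ ⟨i₁, hi₁⟩ ⟨i, hi⟩]
        exact hτ' ⟨i, hi⟩
  by_cases hex : ∃ i j, i ≠ j ∧ α i = α j
  · obtain ⟨i, j, hij, hαij⟩ := hex
    have hβij : β i ≠ β j := by
      rcases hpair i j hij with h | h
      · exact h.2
      · exact absurd hαij h.1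
    have hall : ∀ k, α k = α i := by
      intro k
      by_contra hk
      have hki : k ≠ i := fun h => hk (h ▸ rfl)
      have hkj : k ≠ j := fun h => hk (h ▸ hαij.symm)
      rcases hpair k i hki with h | h
      · exact hk h.1
      rcases hpair k j hkj with h' | h'
      · exact hk (h'.1.trans hαij.symm)
      · exact hβij (h.2.symm.trans h'.2)
    refine ⟨-1, Or.inr rfl, build (-1) β α hβ hα (fun k => (hne k).symm)
      (fun k l => (hall k).trans (hall l).symm) (fun k l hkl => ?_) (fun k => by rw [hτ k]; simp)⟩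
    rcases hpair k l hkl with h | h
    · exact h.2
    · exact absurd ((hall k).trans (hall l).symm) h.1
  · push Not at hex
    refine ⟨1, Or.inl rfl, build 1 α β hα hβ hne (fun k l => ?_) hex (fun k => by rw [hτ k]; simp)⟩
    by_cases hkl : k = l
    · rw [hkl]
    rcases hpair k l hkl with h | h
    · exact absurd h.1 (hex k l hkl)
    · exact h.2

end Cfsg.Agent.S0198
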