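import Cfsg.Statements.S0170
import Cfsg.Agent.H6.IndRep
import Cfsg.Agent.S0198
import Cfsg.Agent.H5.Inner

set_option autoImplicit false
open Cfsg

namespace Cfsg.Agent.S0170

/-- Exceptional characters. Let S be a subset of a finite group contained in its normalizer N and meeting its conjugates by elements outside N only in the identity. Given n ≥ 2 distinct irreducible characters of N of equal degree that vanish on N away from S, there exist a sign ε and n distinct irreducible characters θ_i of G such that inducing χ_i − χ_j to G gives ε (θ_i − θ_j) for all i, j. -/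
theorem result {G : Type*} [Group G] [Fintype G] (S : Set G) (hSN : S ⊆ Subgroup.normalizer S) (hTI : ∀ g : G, g ∉ Subgroup.normalizer S → ∀ s ∈ S, g * s * g⁻¹ ∈ S → s = 1) (n : ℕ) (hn : 2 ≤ n) (χ : Fin n → (Subgroup.normalizer S → ℂ)) (hirr : ∀ i, Cfsg.IsIrrCharacter (Subgroup.normalizer S) (χ i)) (hinj : Function.Injective χ) (hvan : ∀ i, ∀ x : Subgroup.normalizer S, (x : G) ∉ S → χ i x = 0) (hdeg : ∀ i j, χ i 1 = χ j 1) : ∃ ε : ℂ, (ε = 1 ∨ ε = -1) ∧ ∃ θ : Fin n → (G → ℂ), (∀ i, Cfsg.IsIrrCharacter G (θ i)) ∧ Function.Injective θ ∧ ∀ i j, Cfsg.indFun (Subgroup.normalizer S) (χ i) - Cfsg.indFun (Subgroup.normalizer S) (χ j) = ε • (θ i - θ j) := by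
  classical
  let i₀ : Fin n := ⟨0, by omega⟩
  have hcl : ∀ i, IsClassFunction _ (χ i - χ i₀) := fun i a b => by
    simp only [Pi.sub_apply, H5.isClassFunction_of_isIrr (hirr _) a b]
  have hv : ∀ i, ∀ x : Subgroup.normalizer S, (x : G) ∉ S → (χ i - χ i₀) x = 0 := fun i x hx => by
    simp [hvan _ x hx]
  have h1 : ∀ i, (χ i - χ i₀) 1 = 0 := fun i => by simp [hdeg i i₀]
  obtain ⟨ε, hε, μ, hμ, hμinj, h⟩ := S0198.result n i₀
    (fun i => Cfsg.indFun (Subgroup.normalizer S) (χ i - χ i₀)) (by simp)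
    (fun i => H6.isGeneralizedCharacter_indFun _
      ⟨_, _, H5.isCharacter_of_isIrr (hirr i), H5.isCharacter_of_isIrr (hirr i₀), rfl⟩)
    (fun i => by rw [H6.indFun_apply_one, h1, mul_zero])
    (fun i j hi hj => by
      rw [H6.classInner_indFun_indFun_of_TI _ S hTI (hcl j) (hv i) (hv j) (h1 i),
        H5.classInner_sub_left, H5.classInner_sub_right, H5.classInner_sub_right,
        H5.classInner_irr_ne (hirr i) (hirr i₀) (hinj.ne hi),
        H5.classInner_irr_ne (hirr i₀) (hirr j) (hinj.ne hj.symm),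
        H5.classInner_irr_self (hirr i₀)]
      split_ifs with hij
      · subst hij
        rw [H5.classInner_irr_self (hirr i)]; ring
      · rw [H5.classInner_irr_ne (hirr i) (hirr j) (hinj.ne hij)]; ring)
  refine ⟨ε, hε, μ, hμ, hμinj, fun i j => ?_⟩
  have e : χ i - χ j = (χ i - χ i₀) - (χ j - χ i₀) := by abel
  rw [← H6.indFun_sub, e, H6.indFun_sub, h i, h j, ← smul_sub]
  congr 1
  abel

end Cfsg.Agent.S0170
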