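import Cfsg.Statements.S0172
import Cfsg.Agent.H6.FrobGroup

set_option autoImplicit false
open Cfsg

namespace Cfsg.Agent.S0172

theorem card_centralizer_conj {G : Type*} [Group G] (a h : G) :
    Nat.card (Subgroup.centralizer ({a⁻¹ * h * a} : Set G)) =
      Nat.card (Subgroup.centralizer ({h} : Set G)) := by
  refine Nat.card_congr ((MulAut.conj a).toEquiv.subtypeEquiv fun x => ?_)
  simp only [Subgroup.mem_centralizer_singleton_iff, MulEquiv.toEquiv_eq_coe, MulEquiv.coe_toEquiv,
    MulAut.conj_apply]
  constructor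
  · intro e
    calc a * x * a⁻¹ * h = a * (x * (a⁻¹ * h * a)) * a⁻¹ := by group
      _ = h * (a * x * a⁻¹) := by rw [e]; group
  · intro e
    calc x * (a⁻¹ * h * a) = a⁻¹ * (a * x * a⁻¹ * h) * a := by group
      _ = a⁻¹ * h * a * x := by rw [e]; group

theorem card_centralizer_of_le {G : Type*} [Group G] (K : Subgroup G) (k : K)
    (hle : Subgroup.centralizer ({(k : G)} : Set G) ≤ K) :
    Nat.card (Subgroup.centralizer ({(k : G)} : Set G)) =
      Nat.card (Subgroup.centralizer ({k} : Set K)) := by
  refine Nat.card_congr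
    { toFun := fun x => ⟨⟨x, hle x.2⟩, by
        rw [Subgroup.mem_centralizer_singleton_iff]
        exact Subtype.ext (Subgroup.mem_centralizer_singleton_iff.1 x.2)⟩
      invFun := fun x => ⟨x.1, by
        rw [Subgroup.mem_centralizer_singleton_iff]
        exact congrArg Subtype.val (Subgroup.mem_centralizer_singleton_iff.1 x.2)⟩
      left_inv := fun x => rfl
      right_inv := fun x => rfl }

/-- Class number of a Frobenius group: if G = K H with K normal, K ⊓ H trivial and no non-identity element of H commuting with a non-identity element of K, then |H| * k(G) + 1 = |H| * k(H) + k(K), where k denotes the number of conjugacy classes. -/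
theorem result {G : Type*} [Group G] [Finite G] (K H : Subgroup G) [K.Normal] (hKH : K ⊓ H = ⊥) (hKH' : K ⊔ H = ⊤) (hfpf : ∀ h ∈ H, h ≠ 1 → ∀ k ∈ K, h * k = k * h → k = 1) : Nat.card H * Nat.card (ConjClasses G) + 1 = Nat.card H * Nat.card (ConjClasses H) + Nat.card (ConjClasses K) := by
  classical
  have := Fintype.ofFinite G
  have hK : K.Normal := inferInstance
  let c : G → ℕ := fun g => Nat.card (Subgroup.centralizer ({g} : Set G))
  have hdisj : ∀ x, x ∈ K → x ∈ H → x = 1 := fun x h1 h2 => by
    have : x ∈ K ⊓ H := ⟨h1, h2⟩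
    rwa [hKH, Subgroup.mem_bot] at this
  have hbij : Function.Bijective (fun p : K × H => (p.1 : G) * p.2) := by
    constructor
    · rintro ⟨k, h⟩ ⟨k', h'⟩ e
      simp only at e
      have h1 : (k' : G)⁻¹ * k = h' * (h : G)⁻¹ := by
        calc (k' : G)⁻¹ * k = (k' : G)⁻¹ * (k * h) * (h : G)⁻¹ := by group
          _ = h' * (h : G)⁻¹ := by rw [e]; group
      have h2 := hdisj _ (K.mul_mem (K.inv_mem k'.2) k.2)
        (h1 ▸ H.mul_mem h'.2 (H.inv_mem h.2))
      have h3 : (k : G) = k' := (inv_mul_eq_one.1 h2).symm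
      rw [h3, mul_left_cancel_iff] at e
      exact Prod.ext (Subtype.ext h3) (Subtype.ext e)
    · intro g
      obtain ⟨k, hk, h, hh, rfl⟩ := H6.exists_mul_of_sup_eq_top K H hKH' g
      exact ⟨(⟨k, hk⟩, ⟨h, hh⟩), rfl⟩
  have hG : Nat.card G = Nat.card K * Nat.card H := by
    rw [← Nat.card_prod, Nat.card_congr (Equiv.ofBijective _ hbij)]
  have hcK : ∀ k : K, k ≠ 1 → c k = Nat.card (Subgroup.centralizer ({k} : Set K)) := by
    intro k hk
    apply card_centralizer_of_le
    intro g hg
    by_contra hgK
    exact hk (Subtype.ext (H6.eq_one_of_commute_of_notMem_kernel K H hKH' hfpf hgK k.2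
      (Subgroup.mem_centralizer_singleton_iff.1 hg)))
  have hcH : ∀ h : H, h ≠ 1 → c h = Nat.card (Subgroup.centralizer ({h} : Set H)) := by
    intro h hh
    apply card_centralizer_of_le
    intro g hg
    obtain ⟨k, hk, h', hh', rfl⟩ := H6.exists_mul_of_sup_eq_top K H hKH' g
    have e := Subgroup.mem_centralizer_singleton_iff.1 hg
    have h1 : h' * h * h'⁻¹ * (h : G)⁻¹ = 1 := by
      apply hdisj
      · have : h' * h * h'⁻¹ * (h : G)⁻¹ = k⁻¹ * (h * k * (h : G)⁻¹) := by
          calc h' * h * h'⁻¹ * (h : G)⁻¹ = k⁻¹ * (k * h' * h) * h'⁻¹ * (h : G)⁻¹ := by group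
            _ = k⁻¹ * (h * k * (h : G)⁻¹) := by rw [e]; group
        rw [this]
        exact K.mul_mem (K.inv_mem hk) (hK.conj_mem k hk h)
      · exact H.mul_mem (H.mul_mem (H.mul_mem hh' h.2) (H.inv_mem hh')) (H.inv_mem h.2)
    have h2 : (h : G) * k = k * h := by
      calc (h : G) * k = (h * (k * h')) * h'⁻¹ := by group
        _ = k * (h' * h * h'⁻¹ * (h : G)⁻¹) * h := by rw [← e]; group
        _ = k * h := by rw [h1]; group
    have h3 := hfpf h h.2 (fun e => hh (Subtype.ext e)) k hk h2
    rw [h3, one_mul]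
    exact hh'
  have hc1 : c 1 = Nat.card G := by
    have : Subgroup.centralizer ({1} : Set G) = ⊤ := by
      ext x; simp [Subgroup.mem_centralizer_singleton_iff]
    simp only [c, this, Subgroup.card_top]
  have hKsum : ∑ k : K, c k + Nat.card K =
      Nat.card G + Nat.card K * Nat.card (ConjClasses K) := by
    rw [← H6.sum_card_centralizer, ← Finset.add_sum_erase _ _ (Finset.mem_univ (1 : K)),
      ← Finset.add_sum_erase _ _ (Finset.mem_univ (1 : K)),
      Finset.sum_congr rfl (fun k hk => hcK k (Finset.mem_erase.1 hk).1)]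
    have : Subgroup.centralizer ({1} : Set K) = ⊤ := by
      ext x; simp [Subgroup.mem_centralizer_singleton_iff]
    rw [this, Subgroup.card_top, OneMemClass.coe_one, hc1]
    ring
  have hHsum : ∑ h ∈ Finset.univ.erase (1 : H), c h + Nat.card H =
      Nat.card H * Nat.card (ConjClasses H) := by
    rw [← H6.sum_card_centralizer, ← Finset.add_sum_erase _ _ (Finset.mem_univ (1 : H)),
      Finset.sum_congr rfl (fun k hk => hcH k (Finset.mem_erase.1 hk).1)]
    have : Subgroup.centralizer ({1} : Set H) = ⊤ := by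
      ext x; simp [Subgroup.mem_centralizer_singleton_iff]
    rw [this, Subgroup.card_top]
    ring
  have hsum : ∑ g : G, c g = ∑ k : K, c k + Nat.card K * ∑ h ∈ Finset.univ.erase (1 : H), c h := by
    rw [← (Equiv.ofBijective _ hbij).sum_comp c, Fintype.sum_prod_type_right,
      ← Finset.add_sum_erase _ _ (Finset.mem_univ (1 : H)), Finset.mul_sum]
    congr 1
    · simp
    · refine Finset.sum_congr rfl (fun h hh => ?_)
      have : ∀ k : K, c (k * h) = c h := by
        intro k
        obtain ⟨a, -, e⟩ := H6.exists_conj_eq_mul_of_fpf K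
          (hfpf h h.2 (fun e => (Finset.mem_erase.1 hh).1 (Subtype.ext e))) k.2
        simp only [c]
        rw [e, card_centralizer_conj]
      simp [this]
  have htot := H6.sum_card_centralizer (G := G)
  have hKpos : 0 < Nat.card K := Nat.card_pos
  apply Nat.eq_of_mul_eq_mul_left hKpos
  change ∑ g : G, c g = _ at htot
  rw [hG] at htot hKsum
  have e1 : Nat.card K * (∑ h ∈ Finset.univ.erase (1 : H), c h + Nat.card H) =
    Nat.card K * (Nat.card H * Nat.card (ConjClasses H)) := by rw [hHsum]
  nlinarith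

end Cfsg.Agent.S0172
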