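import Cfsg.Statements.S0173
import Cfsg.Agent.H6.BrauerPerm

set_option autoImplicit false
open Cfsg

namespace Cfsg.Agent.S0173

/-- Brauer's permutation lemma for a single automorphism: the number of conjugacy classes mapped to themselves equals the number of irreducible complex characters χ with χ ∘ α = χ. -/
theorem result {G : Type*} [Group G] [Finite G] (α : G ≃* G) : Nat.card {C : ConjClasses G // ConjClasses.map α.toMonoidHom C = C} = Nat.card {χ : Cfsg.IrrCharacter G // (χ : G → ℂ) ∘ α = (χ : G → ℂ)} := by
  have h := H6.card_fixed_irr_eq_card_fixed_classes (G := G) α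
    (fun χ hχ => H5.isIrrCharacter_comp_equiv hχ α)
  refine Eq.trans ?_ h.symm
  refine Nat.card_congr (Equiv.subtypeEquivRight fun C => ?_)
  obtain ⟨a, rfl⟩ := ConjClasses.mk_surjective C
  have h1 : ∀ g : G, ConjClasses.map α.toMonoidHom (ConjClasses.mk g) = ConjClasses.mk (α g) :=
    fun g => rfl
  constructor
  · intro hC g hg
    rw [← ConjClasses.mk_eq_mk_iff_isConj, ← h1, hg, hC]
  · intro hC
    rw [h1, ConjClasses.mk_eq_mk_iff_isConj]
    exact (hC a rfl).symm

end Cfsg.Agent.S0173
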