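import Cfsg.Statements.S0177
import Cfsg.Agent.H5.Linear
import Cfsg.Agent.H6.Ind

set_option autoImplicit false
open Cfsg

namespace Cfsg.Agent.S0177

open Cfsg.Agent.H5 Cfsg.Agent.H6

/-- The integral combinations of functions induced from linear characters of cyclic subgroups. -/
def R (G : Type*) [Group G] [Fintype G] : AddSubgroup (G → ℂ) where
  carrier := {f | ∃ l : List ((A : Subgroup G) × ((A →* ℂˣ) × ℤ)), (∀ t ∈ l, IsCyclic t.1) ∧
    f = (l.map fun t => (t.2.2 : ℂ) • Cfsg.indFun t.1 (fun a => (t.2.1 a : ℂ))).sum}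
  zero_mem' := ⟨[], by simp, by simp⟩
  add_mem' := by
    rintro _ _ ⟨l, hl, rfl⟩ ⟨l', hl', rfl⟩
    refine ⟨l ++ l', fun t ht => ?_, by simp⟩
    rcases List.mem_append.mp ht with h | h
    · exact hl t h
    · exact hl' t h
  neg_mem' := by
    rintro _ ⟨l, hl, rfl⟩
    refine ⟨l.map fun t => ⟨t.1, t.2.1, -t.2.2⟩, fun t ht => ?_, ?_⟩
    · obtain ⟨t', ht', rfl⟩ := List.mem_map.mp ht
      exact hl t' ht'
    · clear hl
      induction l with
      | nil => simp
      | cons a l ih =>
        simp only [List.map_cons, List.sum_cons, neg_add, ih]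
        simp

variable {G : Type*} [Group G] [Fintype G]

theorem ind_mem (A : Subgroup G) (hA : IsCyclic A) {θ : A → ℂ} (hθ : IsCharacter A θ) :
    indFun A θ ∈ R G := by
  refine isCharacter_induction (P := fun θ => indFun A θ ∈ R G) ?_ ?_ ?_ hθ
  · rw [indFun_zero]; exact (R G).zero_mem
  · intro χ hχ
    obtain ⟨lam, rfl⟩ := exists_monoidHom_of_comm hA.commGroup.mul_comm hχ
    exact ⟨[⟨A, lam, 1⟩], by simpa using hA, by simp⟩
  · intro χ ψ _ _ h1 h2
    rw [indFun_add]; exact (R G).add_mem h1 h2

/-- The Artin induction Theorem: for a character χ of a finite group, |G| • χ is a ℤ-linear combination of functions induced from homomorphisms of cyclic subgroups into ℂˣ. -/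
theorem result {G : Type*} [Group G] [Fintype G] (χ : G → ℂ) (hχ : Cfsg.IsCharacter G χ) : ∃ l : List ((A : Subgroup G) × ((A →* ℂˣ) × ℤ)), (∀ t ∈ l, IsCyclic t.1) ∧ (Nat.card G : ℂ) • χ = (l.map fun t => (t.2.2 : ℂ) • Cfsg.indFun t.1 (fun a => (t.2.1 a : ℂ))).sum := by
  classical
  have := Fintype.ofFinite (Subgroup G)
  show (Nat.card G : ℂ) • χ ∈ R G
  let τ : Subgroup G → G → ℂ := fun A g =>
    ∑ x : G, if Subgroup.zpowers (x⁻¹ * g * x) = A then χ g else 0
  have hπ : ∀ B : Subgroup G, Nat.card B • indFun B (fun b => χ b) =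
      ∑ A ∈ Finset.univ.filter (· ≤ B), τ A := by
    intro B
    funext g
    rw [Pi.smul_apply, nsmul_eq_mul, card_mul_indFun, Finset.sum_apply]
    simp only [τ]
    rw [Finset.sum_comm]
    refine Finset.sum_congr rfl fun x _ => ?_
    rw [Finset.sum_ite_eq]
    simp only [Finset.mem_filter, Finset.mem_univ, true_and, Subgroup.zpowers_le]
    split_ifs with h
    · rw [extendByZero_of_mem _ _ h]
      simpa using isClassFunction_of_isCharacter hχ g x⁻¹
    · exact extendByZero_of_notMem _ _ h
  have hτ : ∀ B : Subgroup G, τ B ∈ R G := by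
    intro B
    induction B using WellFoundedLT.induction with
    | ind B ih =>
      by_cases hB : IsCyclic B
      · have h1 := (R G).nsmul_mem (ind_mem B hB (isCharacter_restrict hχ B)) (Nat.card B)
        rw [hπ, ← Finset.add_sum_erase _ _ (a := B) (by simp)] at h1
        have h2 : ∑ A ∈ (Finset.univ.filter (· ≤ B)).erase B, τ A ∈ R G := by
          refine (R G).sum_mem fun A hA => ih A ?_
          simp only [Finset.mem_erase, Finset.mem_filter, Finset.mem_univ, true_and] at hA
          exact lt_of_le_of_ne hA.2 hA.1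
        simpa using (R G).sub_mem h1 h2
      · have : τ B = 0 := by
          funext g
          refine Finset.sum_eq_zero fun x _ => if_neg ?_
          rintro rfl
          exact hB inferInstance
        rw [this]; exact (R G).zero_mem
  have hsum : (Nat.card G : ℂ) • χ = ∑ A, τ A := by
    funext g
    rw [Finset.sum_apply]
    simp only [τ]
    rw [Finset.sum_comm]
    simp [Nat.card_eq_fintype_card]
  rw [hsum]
  exact (R G).sum_mem fun A _ => hτ A

end Cfsg.Agent.S0177
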