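import Cfsg.Statements.S0178
import Cfsg.Agent.H7.Rep

set_option autoImplicit false
open Cfsg

namespace Cfsg.Agent.S0178

open Cfsg.Agent.H7
/-- The degree of an irreducible complex representation of a finite group is at most the index of any abelian subgroup. -/
theorem result {G : Type*} [Group G] [Finite G] {V : Type*} [AddCommGroup V] [Module ℂ V] [FiniteDimensional ℂ V] (ρ : Representation ℂ G V) [ρ.IsIrreducible] (A : Subgroup G) (hA : ∀ a ∈ A, ∀ b ∈ A, a * b = b * a) : Module.finrank ℂ V ≤ A.index := by
  classical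
  have := nontrivial_of_irreducible ρ
  obtain ⟨v, -, hv0, hv⟩ := exists_common_eigenvector ρ A hA ⊤ (fun _ _ _ _ => trivial) top_ne_bot
  have := Fintype.ofFinite (G ⧸ A)
  let f : G ⧸ A → V := fun q => ρ q.out v
  have hall : ∀ g, ρ g v ∈ Submodule.span ℂ (Set.range f) := by
    intro g
    obtain ⟨a, ha⟩ := QuotientGroup.mk_out_eq_mul A g
    obtain ⟨c, hc⟩ := hv (a⁻¹ : A) (a⁻¹).2
    have : ρ g v = c • f (g : G ⧸ A) := by
      show _ = c • ρ (Quotient.out (g : G ⧸ A)) v
      rw [← map_smul, ← hc, ← Module.End.mul_apply, ← map_mul, ha]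
      simp
    rw [this]
    exact Submodule.smul_mem _ _ (Submodule.subset_span ⟨_, rfl⟩)
  have hinv : ∀ g, ∀ w ∈ Submodule.span ℂ (Set.range f), ρ g w ∈ Submodule.span ℂ (Set.range f) := by
    intro g w hw
    refine Submodule.span_induction (p := fun w _ => ρ g w ∈ Submodule.span ℂ (Set.range f)) ?_ ?_ ?_ ?_ hw
    · rintro _ ⟨q, rfl⟩
      have := hall (g * q.out)
      rwa [map_mul] at this
    · simp
    · intro x y _ _ hx hy
      rw [map_add]; exact Submodule.add_mem _ hx hy
    · intro c x _ hx
      rw [map_smul]; exact Submodule.smul_mem _ _ hx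
  rcases eq_bot_or_eq_top_of_invariant ρ _ hinv with h | h
  · have := hall 1
    rw [h] at this
    simp at this
    exact absurd this hv0
  · rw [← finrank_top, ← h, Subgroup.index, Nat.card_eq_fintype_card]
    exact finrank_range_le_card f

end Cfsg.Agent.S0178
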