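import Cfsg.Statements.S0180
import Cfsg.Agent.H7.Galois
import Cfsg.Agent.H5.Complete

set_option autoImplicit false
open Cfsg

namespace Cfsg.Agent.S0180

open Cfsg.Agent.H5 Cfsg.Agent.H7
/-- Every irreducible complex character of a finite group takes only rational values if and only if g is conjugate to g ^ m for every element g and every m coprime to the group order. -/
theorem result {G : Type*} [Group G] [Finite G] : (∀ χ : Cfsg.IrrCharacter G, ∀ g : G, ∃ q : ℚ, (χ : G → ℂ) g = (q : ℂ)) ↔ ∀ m : ℕ, m.Coprime (Nat.card G) → ∀ g : G, IsConj g (g ^ m) := by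
  constructor
  · intro h m hm g
    rw [isConj_iff_forall_irr]
    intro χ
    obtain ⟨q, hq⟩ := h χ g
    exact (character_pow_eq_of_rat (isCharacter_of_isIrr χ.2) hq
      (hm.coprime_dvd_right (orderOf_dvd_natCard g))).symm
  · intro h χ g
    have hχ := isCharacter_of_isIrr χ.2
    refine exists_rat_of_forall_ringEquiv ((isIntegral_apply hχ g).tower_top (A := ℚ)).isAlgebraic
      fun τ => ?_
    obtain ⟨m, hm, hτ⟩ := exists_coprime_ringHom_character G τ.toRingHom
    exact (hτ χ hχ g).trans
      (isClassFunction_apply_of_isConj (isClassFunction_of_isCharacter hχ) (h m hm g)).symm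

end Cfsg.Agent.S0180
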