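import Cfsg.Statements.S0184
import Cfsg.Agent.H7.Rep
import Cfsg.Agent.H5.Complete
import Cfsg.Agent.H3.PGroup

set_option autoImplicit false
open Cfsg

namespace Cfsg.Agent.S0184

open Cfsg.Agent.H5 Cfsg.Agent.H7
/-- A finite p-group admits a faithful irreducible complex representation if and only if its centre is cyclic. -/
theorem result {G : Type*} [Group G] [Finite G] (p : ℕ) [Fact p.Prime] (hG : IsPGroup p G) : (∃ (n : ℕ) (ρ : Representation ℂ G (Fin n → ℂ)), ρ.IsIrreducible ∧ Function.Injective ρ) ↔ IsCyclic (Subgroup.center G) := by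
  constructor
  · rintro ⟨n, ρ, hρ, hinj⟩
    have := nontrivial_of_irreducible ρ
    choose c hc using fun z : Subgroup.center G => exists_eq_smul_of_mem_center ρ z.2
    have hsm : ∀ a b : ℂ, a • (1 : Module.End ℂ (Fin n → ℂ)) = b • 1 → a = b := fun a b h =>
      smul_left_injective ℂ (one_ne_zero (α := Module.End ℂ (Fin n → ℂ))) h
    let f : Subgroup.center G →* ℂ :=
      { toFun := c
        map_one' := hsm _ _ (by rw [← hc 1]; simp)
        map_mul' := fun a b => hsm _ _ (by
          rw [← hc (a * b), Subgroup.coe_mul, map_mul, hc a, hc b, smul_mul_smul_comm, one_mul]) }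
    refine isCyclic_of_injective_ringHom f fun a b hab => ?_
    apply Subtype.ext
    apply hinj
    rw [hc a, hc b]
    exact congrArg (· • (1 : Module.End ℂ (Fin n → ℂ))) hab
  · intro hZ
    rcases subsingleton_or_nontrivial G with hs | hs
    · obtain ⟨n, ρ, hρ, -⟩ := isIrrCharacter_one (G := G)
      exact ⟨n, ρ, hρ, fun a b _ => Subsingleton.elim a b⟩
    have hp : p.Prime := Fact.out
    obtain ⟨z, -, hzc, hz⟩ := Cfsg.Agent.H3.exists_mem_center_orderOf_eq hG ⊤ top_ne_bot
    have hz1 : z ≠ 1 := by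
      rintro rfl
      rw [orderOf_one] at hz
      exact hp.one_lt.ne hz
    have hnc : ¬ IsConj (1 : G) z := fun h => hz1 (isConj_one_right.mp h)
    rw [isConj_iff_forall_irr] at hnc
    push Not at hnc
    obtain ⟨⟨χ, n, ρ, hρ, rfl⟩, hχ⟩ := hnc
    refine ⟨n, ρ, hρ, ?_⟩
    rw [← MonoidHom.ker_eq_bot_iff]
    by_contra hker
    apply hχ
    obtain ⟨y, hyk, hyc, hy⟩ := Cfsg.Agent.H3.exists_mem_center_orderOf_eq hG _ hker
    let Z := Subgroup.center G
    let : CommGroup Z := IsCyclic.commGroup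
    let Ω : Subgroup Z := (powMonoidHom p : Z →* Z).ker
    have hΩ : Nat.card Ω ≤ p := by
      rw [IsCyclic.card_powMonoidHom_ker]
      exact Nat.gcd_le_right _ hp.pos
    have hmem : ∀ (w : G) (hw : w ∈ Z), orderOf w = p → (⟨w, hw⟩ : Z) ∈ Ω := by
      intro w hw ho
      apply Subtype.ext
      show w ^ p = 1
      rw [← ho, pow_orderOf_eq_one]
    have heq : Subgroup.zpowers (⟨y, hyc⟩ : Z) = Ω := by
      apply Subgroup.eq_of_le_of_card_ge
      · exact Subgroup.zpowers_le_of_mem (hmem y hyc hy)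
      · rw [Nat.card_zpowers, Subgroup.orderOf_mk, hy]; exact hΩ
    have hz' := hmem z hzc hz
    rw [← heq] at hz'
    obtain ⟨k, hk⟩ := hz'
    have hk' : y ^ k = z := congrArg Subtype.val hk
    have h : z ∈ MonoidHom.ker ρ := hk' ▸ Subgroup.zpow_mem _ hyk k
    rw [MonoidHom.mem_ker] at h
    simp [Representation.character, h]

end Cfsg.Agent.S0184
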