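import Cfsg.Statements.S0185
import Cfsg.Agent.H7.Degree

set_option autoImplicit false
open Cfsg

namespace Cfsg.Agent.S0185

open Cfsg.Agent.H5 Cfsg.Agent.H7
/-- If a finite group has a faithful complex representation of degree less than the smallest prime dividing its order, the group is abelian. -/
theorem result {G : Type*} [Group G] [Finite G] {V : Type*} [AddCommGroup V] [Module ℂ V] [FiniteDimensional ℂ V] (ρ : Representation ℂ G V) (hfaithful : Function.Injective ρ) (hdeg : ∀ p : ℕ, p.Prime → p ∣ Nat.card G → Module.finrank ℂ V < p) (a b : G) : a * b = b * a := by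
  have key : ∀ χ : G → ℂ, IsCharacter G χ →
      ∀ d : ℕ, χ 1 = d → d ≤ Module.finrank ℂ V → χ (a * b * a⁻¹ * b⁻¹) = χ 1 := by
    intro χ hχ
    refine isCharacter_induction (P := fun χ => ∀ d : ℕ, χ 1 = d → d ≤ Module.finrank ℂ V →
      χ (a * b * a⁻¹ * b⁻¹) = χ 1) ?_ ?_ ?_ hχ
    · intros; rfl
    · intro χ hχ d hd hle
      obtain ⟨e, he0, he, hdvd⟩ := exists_degree_dvd_card hχ
      have hde : d = e := by exact_mod_cast hd.symm.trans he
      have he1 : e = 1 := by
        by_contra hne
        obtain ⟨p, hp, hpe⟩ := Nat.exists_prime_and_dvd hne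
        have := hdeg p hp (hpe.trans hdvd)
        have := Nat.le_of_dvd he0 hpe
        omega
      obtain ⟨lam, rfl⟩ := exists_hom_of_degree_one (isCharacter_of_isIrr hχ) (by rw [he, he1]; simp)
      simp
    · intro χ ψ hχ hψ h1 h2 d hd hle
      obtain ⟨m, hm⟩ := exists_nat_degree hχ
      obtain ⟨n, hn⟩ := exists_nat_degree hψ
      have : m + n = d := by
        have : (m : ℂ) + n = d := by rw [← hm, ← hn, ← hd]; rfl
        exact_mod_cast this
      simp only [Pi.add_apply]
      rw [h1 m hm (by omega), h2 n hn (by omega)]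
  have := key _ (isCharacter_character ρ) _ ρ.char_one le_rfl
  rw [ρ.char_one, character_eq_finrank_iff] at this
  have h1 : a * b * a⁻¹ * b⁻¹ = 1 := hfaithful (this.trans (map_one ρ).symm)
  calc a * b = (a * b * a⁻¹ * b⁻¹) * (b * a) := by group
    _ = b * a := by rw [h1, one_mul]

end Cfsg.Agent.S0185
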