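import Cfsg.Statements.S0186
import Cfsg.Agent.H7.Rep
import Cfsg.Agent.H5.Complete
import Cfsg.Agent.S0185
import Cfsg.Agent.S0133

set_option autoImplicit false
open Cfsg

namespace Cfsg.Agent.S0186

open Cfsg.Agent.H5 Cfsg.Agent.H7
/-- Let G be a finite simple group of order n and p a prime dividing n. If G has more than n / p^2 conjugacy classes, then every Sylow p-subgroup of G is abelian. -/
theorem result {G : Type*} [Group G] [Finite G] [IsSimpleGroup G] (p : ℕ) [Fact p.Prime] (hp : p ∣ Nat.card G) (hmany : Nat.card G < p ^ 2 * Nat.card (ConjClasses G)) (P : Sylow p G) (a b : G) (ha : a ∈ P) (hb : b ∈ P) : a * b = b * a := by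
  classical
  have hpp : p.Prime := Fact.out
  by_cases hp2 : p ^ 2 ∣ Nat.card G
  swap
  · -- `P` has order `p`
    have hcard : Nat.card (P : Subgroup G) = p := by
      rw [P.card_eq_multiplicity]
      have h1 : 1 ≤ (Nat.card G).factorization p :=
        (hpp.dvd_iff_one_le_factorization Nat.card_pos.ne').mp hp
      have h2 : ¬ 2 ≤ (Nat.card G).factorization p := fun h =>
        hp2 ((hpp.pow_dvd_iff_le_factorization Nat.card_pos.ne').mpr h)
      rw [show (Nat.card G).factorization p = 1 by omega, pow_one]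
    have hc : IsCyclic (P : Subgroup G) := isCyclic_of_prime_card hcard
    exact congrArg Subtype.val (hc.commGroup.mul_comm (⟨a, ha⟩ : (P : Subgroup G)) ⟨b, hb⟩)
  -- some nonprincipal irreducible character has degree `< p`
  obtain ⟨χ, hχ1, d, hd, hdp⟩ : ∃ χ : IrrCharacter G, (χ : G → ℂ) ≠ (fun _ => 1) ∧
      ∃ d : ℕ, (χ : G → ℂ) 1 = d ∧ d < p := by
    by_contra hcon
    push Not at hcon
    choose d hd using fun χ : IrrCharacter G => exists_nat_degree (isCharacter_of_isIrr χ.2)
    have hsum : ∑ χ : IrrCharacter G, d χ ^ 2 = Nat.card G := by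
      have := sum_degree_sq (G := G)
      simp_rw [hd] at this
      exact_mod_cast this
    let one : IrrCharacter G := ⟨fun _ => 1, isIrrCharacter_one⟩
    have hd1 : d one = 1 := by
      have : (1 : ℂ) = d one := hd one
      exact_mod_cast this.symm
    rw [← Finset.add_sum_erase _ _ (Finset.mem_univ one), hd1] at hsum
    have hge : (Finset.univ.erase one).card * p ^ 2 ≤ ∑ χ ∈ Finset.univ.erase one, d χ ^ 2 := by
      rw [← smul_eq_mul]
      refine Finset.card_nsmul_le_sum _ _ _ fun χ hχ => Nat.pow_le_pow_left ?_ 2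
      exact hcon χ (fun h => (Finset.mem_erase.mp hχ).1 (Subtype.ext h)) _ (hd χ)
    rw [Finset.card_erase_of_mem (Finset.mem_univ _), Finset.card_univ, ← Nat.card_eq_fintype_card,
      Cfsg.Agent.S0133.result] at hge
    obtain ⟨m, hm⟩ := hp2
    rw [hm] at hmany hsum
    have h1 : m < Nat.card (ConjClasses G) := lt_of_mul_lt_mul_left hmany (Nat.zero_le _)
    have h2 : m * p ^ 2 ≤ (Nat.card (ConjClasses G) - 1) * p ^ 2 :=
      Nat.mul_le_mul_right _ (by omega)
    nlinarith
  obtain ⟨χ, n, ρ, hρ, rfl⟩ := χ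
  have hinj : Function.Injective ρ := by
    rw [← MonoidHom.ker_eq_bot_iff]
    rcases (MonoidHom.normal_ker ρ).eq_bot_or_eq_top with h | h
    · exact h
    · exfalso
      apply hχ1
      have := nontrivial_of_irreducible ρ
      obtain ⟨v, hv⟩ := exists_ne (0 : Fin n → ℂ)
      refine character_eq_one_of_invariant ρ hv fun g => ?_
      have : g ∈ MonoidHom.ker ρ := h ▸ Subgroup.mem_top g
      rw [MonoidHom.mem_ker.mp this]; rfl
  have hdn : Module.finrank ℂ (Fin n → ℂ) = d := by
    have := ρ.char_one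
    exact_mod_cast this.symm.trans hd
  have := Cfsg.Agent.S0185.result (ρ.comp (P : Subgroup G).subtype)
    (hinj.comp (P : Subgroup G).subtype_injective) (fun q hq hqd => by
      rw [P.card_eq_multiplicity] at hqd
      rw [(Nat.prime_dvd_prime_iff_eq hq hpp).mp (hq.dvd_of_dvd_pow hqd), hdn]
      exact hdp) ⟨a, ha⟩ ⟨b, hb⟩
  exact congrArg Subtype.val this

end Cfsg.Agent.S0186
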