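import Cfsg.Statements.S0192
import Cfsg.Agent.H7.Rep

set_option autoImplicit false
open Cfsg

namespace Cfsg.Agent.S0192

open Cfsg.Agent.H7
/-- Brauer's generation criterion. Let G be a finite simple group, H₁ and H₂ subgroups, and χ a non-principal irreducible character. If the multiplicity of the principal character in χ restricted to H₁ ⊓ H₂ is less than the sum of the corresponding multiplicities for H₁ and H₂, then H₁ and H₂ do not generate G. -/
theorem result {G : Type*} [Group G] [Fintype G] [IsSimpleGroup G] (H₁ H₂ : Subgroup G) [Fintype H₁] [Fintype H₂] [Fintype ↥(H₁ ⊓ H₂)] (χ : G → ℂ) (hχ : Cfsg.IsIrrCharacter G χ) (hχ1 : χ ≠ fun _ => 1) (hlt : (Cfsg.classInner (fun x : ↥(H₁ ⊓ H₂) => χ x) (fun _ => 1)).re < (Cfsg.classInner (fun x : H₁ => χ x) (fun _ => 1)).re + (Cfsg.classInner (fun x : H₂ => χ x) (fun _ => 1)).re) : H₁ ⊔ H₂ ≠ ⊤ := by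
  obtain ⟨n, ρ, hρ, rfl⟩ := hχ
  intro htop
  rw [classInner_restrict_one, classInner_restrict_one, classInner_restrict_one] at hlt
  simp only [Complex.natCast_re] at hlt
  set U₁ := Representation.invariants (ρ.comp H₁.subtype)
  set U₂ := Representation.invariants (ρ.comp H₂.subtype)
  set U := Representation.invariants (ρ.comp (H₁ ⊓ H₂).subtype)
  have hle : U₁ ⊔ U₂ ≤ U := by
    refine sup_le ?_ ?_
    · intro v hv g; exact hv ⟨g, g.2.1⟩
    · intro v hv g; exact hv ⟨g, g.2.2⟩
  have hinf : U₁ ⊓ U₂ = ⊥ := by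
    rw [eq_bot_iff]
    intro v hv
    by_contra hv0
    apply hχ1
    apply character_eq_one_of_invariant ρ hv0
    let S : Subgroup G :=
      { carrier := {g | ρ g v = v}
        mul_mem' := fun {a b} ha hb => by
          simp only [Set.mem_ofPred_eq, map_mul, Module.End.mul_apply] at *
          rw [hb, ha]
        one_mem' := by simp
        inv_mem' := fun {a} ha => by
          simp only [Set.mem_ofPred_eq] at *
          conv_lhs => rw [← ha]
          simp }
    have : H₁ ⊔ H₂ ≤ S := sup_le (fun g hg => hv.1 ⟨g, hg⟩) (fun g hg => hv.2 ⟨g, hg⟩)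
    intro g
    exact this (htop ▸ Subgroup.mem_top g)
  have h1 := Submodule.finrank_sup_add_finrank_inf_eq U₁ U₂
  have h2 := Submodule.finrank_mono hle
  rw [hinf, finrank_bot] at h1
  have : Module.finrank ℂ U < Module.finrank ℂ U₁ + Module.finrank ℂ U₂ := by exact_mod_cast hlt
  omega

end Cfsg.Agent.S0192
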