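import Cfsg.Statements.S0193
import Cfsg.Agent.H5.Inner
import Cfsg.Agent.H6.Ind

set_option autoImplicit false
open Cfsg

namespace Cfsg.Agent.S0193

open Cfsg.Agent.H5 Cfsg.Agent.H6

theorem isIrr_conj {G : Type*} [Group G] (H : Subgroup G) [hN : H.Normal] {θ : H → ℂ}
    (hθ : Cfsg.IsIrrCharacter H θ) (g : G) :
    IsIrrCharacter H (fun h : H => θ ⟨g * h * g⁻¹, hN.conj_mem h h.2 g⟩) :=
  isIrrCharacter_comp_equiv hθ (MulAut.conjNormal g)

/-- `|H| ⟨φ^G, θ^G⟩ = ∑ₓ ⟨φ, θ^x⟩` for a normal subgroup `H`. -/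
theorem card_mul_classInner_ind {G : Type*} [Group G] [Fintype G] (H : Subgroup G) [Fintype H]
    [hN : H.Normal] (φ θ : H → ℂ) :
    (Nat.card H : ℂ) * classInner (indFun H φ) (indFun H θ) =
      ∑ g : G, classInner φ (fun h : H => θ ⟨g * h * g⁻¹, hN.conj_mem h h.2 g⟩) := by
  rw [classInner_indFun_left H φ (indFun_isClassFunction H θ)]
  have : (fun h : H => indFun H θ h) = (Nat.card H : ℂ)⁻¹ •
      ∑ g : G, fun h : H => θ ⟨g * h * g⁻¹, hN.conj_mem h h.2 g⟩ := by
    funext h
    rw [indFun_normal_coe H hN]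
    simp
  rw [this, classInner_smul_right, classInner_sum_right]
  have hc : (Nat.card H : ℂ) ≠ 0 := natCard_ne_zero
  rw [map_inv₀, map_natCast, mul_inv_cancel_left₀ hc]

/-- Let H be a normal subgroup of a finite group G and θ an irreducible character of H. Then |H| times the inner product of the induced function of θ with itself equals the number of g in G with θ(g h g⁻¹) = θ(h) for all h in H; in particular the induced character is irreducible when only elements of H stabilise θ. -/
theorem result {G : Type*} [Group G] [Fintype G] (H : Subgroup G) [hN : H.Normal] (θ : H → ℂ) (hθ : Cfsg.IsIrrCharacter H θ) : (Nat.card H : ℂ) * Cfsg.classInner (Cfsg.indFun H θ) (Cfsg.indFun H θ) = (Nat.card {g : G // ∀ h : H, θ ⟨g * h * g⁻¹, hN.conj_mem h h.2 g⟩ = θ h} : ℂ) := by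
  classical
  have := Fintype.ofFinite H
  rw [card_mul_classInner_ind]
  simp_rw [fun g => classInner_irr hθ (isIrr_conj H hθ g)]
  rw [Finset.sum_boole, Nat.card_eq_fintype_card, Fintype.card_subtype]
  congr 2
  ext g
  simp only [Finset.mem_filter, Finset.mem_univ, true_and]
  exact ⟨fun h x => (congrFun h x).symm, fun h => funext fun x => (h x).symm⟩

end Cfsg.Agent.S0193
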