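import Cfsg.Statements.S0194
import Cfsg.Agent.S0193
import Cfsg.Agent.S0161

set_option autoImplicit false
open scoped ComplexConjugate
open Cfsg

namespace Cfsg.Agent.S0194

open Cfsg.Agent.H5 Cfsg.Agent.H6 Cfsg.Agent.S0193
open scoped ComplexConjugate
/-- Let G have odd order, H be a normal subgroup and θ a non-principal irreducible character of H. Then the function induced from θ is orthogonal to its complex conjugate. -/
theorem result {G : Type*} [Group G] [Fintype G] (hodd : Odd (Nat.card G)) (H : Subgroup G) [H.Normal] (θ : H → ℂ) (hθ : Cfsg.IsIrrCharacter H θ) (hθ1 : θ ≠ fun _ => 1) : Cfsg.classInner (fun g => conj (Cfsg.indFun H θ g)) (Cfsg.indFun H θ) = 0 := by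
  classical
  have := Fintype.ofFinite H
  have hN : H.Normal := inferInstance
  have hc : (Nat.card H : ℂ) ≠ 0 := natCard_ne_zero
  rw [← indFun_conj, ← mul_right_inj' hc, card_mul_classInner_ind, mul_zero]
  refine Finset.sum_eq_zero fun g _ => classInner_irr_ne (isIrrCharacter_conj hθ)
    (isIrr_conj H hθ g) fun h => hθ1 ?_
  have h' : ∀ x : H, θ (MulAut.conjNormal g x) = conj (θ x) := fun x => (congrFun h x).symm
  have hpow : ∀ (k : ℕ) (x : H), θ (MulAut.conjNormal (g ^ (2 * k)) x) = θ x := by
    intro k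
    induction k with
    | zero => simp
    | succ k ih =>
      intro x
      rw [show g ^ (2 * (k + 1)) = g * (g * g ^ (2 * k)) by rw [← pow_succ', ← pow_succ']; rfl,
        map_mul, map_mul, MulAut.mul_apply, MulAut.mul_apply, h', h', ih]
      simp
  obtain ⟨k, hk⟩ := hodd
  have hg : g ^ (2 * (k + 1)) = g := by
    rw [show 2 * (k + 1) = (2 * k + 1) + 1 by ring, ← hk, pow_succ, pow_card_eq_one', one_mul]
  have hoddH : Odd (Nat.card H) := Odd.of_dvd_nat ⟨k, hk⟩ (Subgroup.card_subgroup_dvd_card H)
  refine Cfsg.Agent.S0161.result hoddH ⟨θ, hθ⟩ fun x => ?_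
  have := hpow (k + 1) x
  rw [hg, h'] at this
  exact Complex.conj_eq_iff_im.mp this

end Cfsg.Agent.S0194
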