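import Cfsg.Statements.S0196
import Mathlib

set_option autoImplicit false
open Cfsg

namespace Cfsg.Agent.S0196

theorem dvd_card_of_orbits {N X : Type*} [Group N] [MulAction N X] [Finite X] (d : ℕ)
    (h : ∀ x : X, d ∣ (MulAction.stabilizer N x).index) : d ∣ Nat.card X := by
  classical
  have := Fintype.ofFinite X
  have := Fintype.ofFinite (MulAction.orbitRel.Quotient N X)
  rw [Nat.card_congr (MulAction.selfEquivSigmaOrbits N X), Nat.card_sigma]
  refine Finset.dvd_sum fun q _ => ?_
  have := h q.out
  rw [MulAction.index_stabilizer] at this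
  rwa [Nat.card_coe_set_eq]

/-- Let A be a subgroup of a finite group G that equals the centralizer of each of its non-identity elements, and let N be its normalizer. Then the index of A in N divides |A| − 1 (N/A permutes the non-identity elements of A in orbits of full length). -/
theorem result {G : Type*} [Group G] [Finite G] (A : Subgroup G) (hA : ∀ x ∈ A, x ≠ 1 → Subgroup.centralizer ({x} : Set G) = A) : (A.subgroupOf (Subgroup.normalizer (A : Set G))).index ∣ Nat.card A - 1 := by
  classical
  let N := Subgroup.normalizer (A : Set G)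
  let X := {x : G // x ∈ A ∧ x ≠ 1}
  let act : MulAction N X :=
    { smul := fun n x => ⟨(n : G) * x * (n : G)⁻¹, by
        refine ⟨?_, ?_⟩
        · exact ((Subgroup.mem_set_normalizer_iff.mp n.2) x).mp x.2.1
        · intro h
          apply x.2.2
          have : (x : G) = (n : G)⁻¹ * ((n : G) * x * (n : G)⁻¹) * n := by group
          rw [this, h]; group⟩
      one_smul := fun x => Subtype.ext (by
        show ((1 : N) : G) * x * ((1 : N) : G)⁻¹ = x
        simp)
      mul_smul := fun a b x => Subtype.ext (by
        show ((a * b : N) : G) * x * ((a * b : N) : G)⁻¹ = (a : G) * ((b : G) * x * (b : G)⁻¹) * (a : G)⁻¹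
        push_cast; group) }
  have hcard : Nat.card X = Nat.card A - 1 := by
    have e : X ≃ {a : A // a ≠ 1} :=
      { toFun := fun x => ⟨⟨x.1, x.2.1⟩, fun h => x.2.2 (congrArg Subtype.val h)⟩
        invFun := fun a => ⟨a.1.1, a.1.2, fun h => a.2 (Subtype.ext h)⟩
        left_inv := fun _ => rfl
        right_inv := fun _ => rfl }
    rw [Nat.card_congr e]
    have := Fintype.ofFinite A
    simp [Nat.card_eq_fintype_card, Fintype.card_subtype_compl]
  rw [← hcard]
  apply dvd_card_of_orbits (N := N)
  intro x
  have : MulAction.stabilizer N x = A.subgroupOf N := by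
    ext n
    rw [MulAction.mem_stabilizer_iff, Subgroup.mem_subgroupOf]
    conv_rhs => rw [← hA x x.2.1 x.2.2, Subgroup.mem_centralizer_singleton_iff]
    rw [Subtype.ext_iff]
    show (n : G) * x * (n : G)⁻¹ = x ↔ _
    rw [mul_inv_eq_iff_eq_mul]
  rw [this]

end Cfsg.Agent.S0196
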