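import Cfsg.Statements.S0203
import Cfsg.Agent.H8.KleinSylow

set_option autoImplicit false
open Cfsg

namespace Cfsg.Agent.S0203

/-- If a Sylow 2-subgroup P of a finite group G is a Klein four-group, then G has three classes of involutions if and only if P has a normal complement in G. -/
theorem result {G : Type*} [Group G] [Finite G] (P : Sylow 2 G) (hP : IsKleinFour (P : Subgroup G)) : Nat.card {C : ConjClasses G // ∃ t : G, orderOf t = 2 ∧ ConjClasses.mk t = C} = 3 ↔ ∃ N : Subgroup G, N.Normal ∧ Subgroup.IsComplement' N (P : Subgroup G) := by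
  constructor
  · intro h3
    rcases H8.klein_sylow_fusion P hP with h | h
    · have hN : Subgroup.normalizer (P : Set G) ≤ Subgroup.centralizer (P : Set G) := by
        intro n hn a ha
        have h1 := h a ha _ ((Subgroup.mem_normalizer_iff.mp hn a).mp ha) (isConj_iff.mpr ⟨n, rfl⟩)
        rw [eq_mul_inv_iff_mul_eq] at h1
        exact h1
      exact ⟨_, inferInstance, MonoidHom.ker_transferSylow_isComplement' P hN⟩
    · obtain ⟨t, -, ht⟩ := H8.exists_involution_of_klein hP
      rw [H8.card_involution_classes_eq_one ht h] at h3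
      omega
  · rintro ⟨N, hN, hc⟩
    refine H8.card_involution_classes_eq_three P hP fun a ha b hb hab => ?_
    obtain ⟨g, rfl⟩ := isConj_iff.mp hab
    obtain ⟨⟨n, s⟩, rfl⟩ := hc.2 g
    dsimp only at hb ⊢
    have h1 : (s : G) * a * (s : G)⁻¹ = a := by
      rw [H8.klein_comm hP s.2 ha, mul_inv_cancel_right]
    have h2 : (n : G) * s * a * ((n : G) * s)⁻¹ = n * a * (n : G)⁻¹ := by
      rw [← h1]; nth_rewrite 1 [h1]; group
    rw [h2] at hb ⊢
    have h3 : (n : G) * a * (n : G)⁻¹ * a⁻¹ ∈ N := by
      have := mul_mem n.2 (hN.conj_mem _ (inv_mem n.2) a)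
      simpa [mul_assoc] using this
    have h4 := Subgroup.disjoint_def.mp hc.disjoint h3 (mul_mem hb (inv_mem ha))
    exact (mul_inv_eq_one.mp h4).symm

end Cfsg.Agent.S0203
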