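import Cfsg.Statements.S0208
import Cfsg.Agent.H8.Dihedral

set_option autoImplicit false
open Cfsg

namespace Cfsg.Agent.S0208

/-- If x, y are involutions and xy has odd order, then some element of the subgroup generated by x and y conjugates x to y. -/
theorem result {G : Type*} [Group G] [Finite G] (x y : G) (hx : orderOf x = 2) (hy : orderOf y = 2) (hodd : Odd (orderOf (x * y))) : ∃ d ∈ Subgroup.closure ({x, y} : Set G), d * x * d⁻¹ = y := by
  obtain ⟨d, hd, h⟩ := H8.exists_conj_of_odd (H8.mul_self_of_orderOf_two hx)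
    (H8.mul_self_of_orderOf_two hy) hodd
  exact ⟨d, (Subgroup.zpowers_le.mpr (H8.mul_mem_closure_pair x y)) hd, h⟩

end Cfsg.Agent.S0208
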