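import Cfsg.Statements.S0210
import Cfsg.Agent.H8.Dihedral

set_option autoImplicit false
open Cfsg

namespace Cfsg.Agent.S0210

/-- If x, y are involutions whose product has even order, no element of the subgroup generated by x and y conjugates x to y. -/
theorem result {G : Type*} [Group G] [Finite G] (x y : G) (hx : orderOf x = 2) (hy : orderOf y = 2) (heven : Even (orderOf (x * y))) (d : G) (hd : d ∈ Subgroup.closure ({x, y} : Set G)) : d * x * d⁻¹ ≠ y := by
  have hx' := H8.mul_self_of_orderOf_two hx
  have hy' := H8.mul_self_of_orderOf_two hy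
  obtain ⟨k, hk⟩ := H8.conj_of_mem_closure_pair hx' hy' hd
  intro h
  have h1 : x * (x * y) ^ (2 * k) = x * (x * y) ^ (1 : ℤ) := by
    rw [← hk, h, zpow_one, ← mul_assoc, hx', one_mul]
  rw [mul_right_inj, zpow_eq_zpow_iff_modEq] at h1
  have h2 : (2 : ℤ) ∣ (orderOf (x * y) : ℤ) := by exact_mod_cast even_iff_two_dvd.mp heven
  have h3 := h2.trans h1.dvd
  omega

end Cfsg.Agent.S0210
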