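import Cfsg.Statements.S0211
import Cfsg.Agent.H8.Dihedral

set_option autoImplicit false
open Cfsg

namespace Cfsg.Agent.S0211

/-- Let x, y be involutions with xy of even order n and z = (xy)^(n/2). Then xz is conjugate to x by an element of the subgroup generated by x, y if and only if 4 divides n. -/
theorem result {G : Type*} [Group G] [Finite G] (x y : G) (hx : orderOf x = 2) (hy : orderOf y = 2) (heven : Even (orderOf (x * y))) : (∃ d ∈ Subgroup.closure ({x, y} : Set G), d * x * d⁻¹ = x * (x * y) ^ (orderOf (x * y) / 2)) ↔ 4 ∣ orderOf (x * y) := by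
  have hx' := H8.mul_self_of_orderOf_two hx
  have hy' := H8.mul_self_of_orderOf_two hy
  obtain ⟨m, hm⟩ := heven
  have hm2 : orderOf (x * y) / 2 = m := by omega
  rw [hm2]
  constructor
  · rintro ⟨d, hd, h⟩
    obtain ⟨k, hk⟩ := H8.conj_of_mem_closure_pair hx' hy' hd
    rw [hk, mul_right_inj, ← zpow_natCast, zpow_eq_zpow_iff_modEq] at h
    have h2 : (2 : ℤ) ∣ (orderOf (x * y) : ℤ) := ⟨m, by rw [hm]; push_cast; ring⟩
    have h3 := h2.trans h.dvd
    omega
  · rintro ⟨k, hk⟩
    refine ⟨(x * y) ^ (-(k : ℤ)), zpow_mem (H8.mul_mem_closure_pair x y) _, ?_⟩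
    rw [H8.zpow_conj_left hx' hy', ← zpow_natCast]
    congr 2
    omega

end Cfsg.Agent.S0211
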