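import Cfsg.Statements.S0220
import Cfsg.Agent.H8.StrongEmb

set_option autoImplicit false
open Cfsg

namespace Cfsg.Agent.S0220

/-- If x is an involution of a finite group G and a Sylow 2-subgroup of the centralizer of x is cyclic, then G has a subgroup of index 2; in particular G is not simple unless it has order 2. -/
theorem result {G : Type*} [Group G] [Finite G] (x : G) (hx : orderOf x = 2) (S : Sylow 2 ↥(Subgroup.centralizer ({x} : Set G))) (hS : IsCyclic (S : Subgroup ↥(Subgroup.centralizer ({x} : Set G)))) : ∃ H : Subgroup G, H.index = 2 := by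
  let C := Subgroup.centralizer ({x} : Set G)
  set D := (S : Subgroup C).map C.subtype with hDdef
  have hD : IsPGroup 2 D := S.isPGroup'.map _
  have hDc : IsCyclic D :=
    (Subgroup.equivMapOfInjective (S : Subgroup C) C.subtype
      C.subtype_injective).isCyclic.mp hS
  have hxC : x ∈ C := H8.mem_centralizer_singleton.mpr (Commute.refl x)
  have hxD : x ∈ D := by
    have hx' := H8.mul_self_of_orderOf_two hx
    have h1 : IsPGroup 2 (Subgroup.closure ({x, x} : Set G)) :=
      H8.isPGroup_closure_pair_of_commute hx' hx' (Commute.refl x)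
    have h2 : D ≤ Subgroup.normalizer (Subgroup.closure ({x, x} : Set G) : Set G) := by
      intro d hd
      apply Subgroup.normalizer_le_normalizer_closure
      have h3 := Subgroup.mem_centralizer_singleton_iff.mp (Subgroup.map_subtype_le _ hd)
      intro y
      simp only [Set.mem_insert_iff, Set.mem_singleton_iff, or_self]
      rw [mul_inv_eq_iff_eq_mul, ← h3, mul_right_inj]
    have h4 := H8.sylow_map_subtype_maximal S _ (hD.to_sup_of_normal_right' h1 h2) le_sup_left
      (sup_le (Subgroup.map_subtype_le _) (by
        rw [Subgroup.closure_le]; rintro y (rfl | rfl) <;> exact hxC))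
    rw [hDdef, ← h4]
    exact Subgroup.mem_sup_right (Subgroup.subset_closure (by simp))
  have hN : Subgroup.normalizer (D : Set G) ≤ C := by
    intro g hg
    have h1 := (Subgroup.mem_normalizer_iff.mp hg x).mp hxD
    have h2 := H8.involution_unique_of_isCyclic hDc h1 hxD ((H8.orderOf_conj' g x).trans hx) hx
    rw [Subgroup.mem_centralizer_singleton_iff, ← mul_inv_eq_iff_eq_mul, h2]
  obtain ⟨T, hT⟩ := H8.exists_sylow_eq_of_maximal hD hN (H8.sylow_map_subtype_maximal S)
  refine H8.exists_index_two_of_isCyclic ?_ T (hT ▸ hDc)
  rw [even_iff_two_dvd, ← hx]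
  exact orderOf_dvd_natCard x

end Cfsg.Agent.S0220
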