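import Cfsg.Statements.S0229
import Cfsg.Agent.H8.Dihedral

set_option autoImplicit false
open Cfsg

namespace Cfsg.Agent.S0229

/-- Let t be an involution of a Sylow 2-subgroup S of a finite group G, conjugate in G to no other element of S, and let s be an involution of G not conjugate to t. Then the order of st is twice an odd number. -/
theorem result {G : Type*} [Group G] [Finite G] (S : Sylow 2 G) (t : G) (ht : orderOf t = 2) (htS : t ∈ S) (hiso : ∀ g : G, g * t * g⁻¹ ∈ S → g * t * g⁻¹ = t) (s : G) (hs : orderOf s = 2) (hns : ¬ IsConj s t) : orderOf (s * t) % 4 = 2 := by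
  have hs' := H8.mul_self_of_orderOf_two hs
  have ht' := H8.mul_self_of_orderOf_two ht
  rw [H8.orderOf_mul_comm']
  have heven : Even (orderOf (t * s)) := by
    by_contra h
    exact hns (H8.isConj_of_odd ht' hs' (Nat.not_even_iff_odd.mp h)).symm
  obtain ⟨h1, h2, -⟩ := H8.central_involution ht' hs' heven
  obtain ⟨m, hm⟩ := heven
  have hm2 : orderOf (t * s) / 2 = m := by omega
  rw [hm2] at h1 h2
  by_contra hcon
  obtain ⟨k, hk⟩ : ∃ k, m = 2 * k := ⟨m / 2, by omega⟩
  have hc : IsConj t (t * (t * s) ^ m) := by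
    refine isConj_iff.mpr ⟨(t * s) ^ (-(k : ℤ)), ?_⟩
    rw [H8.zpow_conj_left ht' hs', ← zpow_natCast]
    congr 2
    omega
  have := H8.eq_of_isolated_of_commute S ht' hiso hc ((Commute.refl t).mul_right h2.symm)
  exact H8.ne_one_of_orderOf_two h1 (by simpa using this)

end Cfsg.Agent.S0229
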