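import Cfsg.Statements.S0230
import Cfsg.Agent.H8.InvCount

set_option autoImplicit false
open Cfsg

namespace Cfsg.Agent.S0230

/-- Let G be a finite group with two non-conjugate involutions, and let t be an involution whose centralizer has maximal order among centralizers of involutions. Then |G| < |C_G(t)|^3. -/
theorem result {G : Type*} [Group G] [Finite G] (s t : G) (hs : orderOf s = 2) (ht : orderOf t = 2) (hnc : ¬ IsConj s t) (hmax : ∀ u : G, orderOf u = 2 → Nat.card (Subgroup.centralizer ({u} : Set G)) ≤ Nat.card (Subgroup.centralizer ({t} : Set G))) : Nat.card G < Nat.card (Subgroup.centralizer ({t} : Set G)) ^ 3 := by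
  classical
  have hs' := H8.mul_self_of_orderOf_two hs
  have ht' := H8.mul_self_of_orderOf_two ht
  set c := Nat.card (Subgroup.centralizer ({t} : Set G)) with hc
  have hex : ∀ y : {y : G // IsConj s y}, ∃ z : {z : G // orderOf z = 2 ∧ Commute z t},
      y.1 ∈ Subgroup.centralizer ({z.1} : Set G) := by
    rintro ⟨y, hy⟩
    have hy2 : orderOf y = 2 := (H8.orderOf_eq_of_isConj hy).symm.trans hs
    have hy' := H8.mul_self_of_orderOf_two hy2
    have heven : Even (orderOf (y * t)) := by
      by_contra h
      exact hnc (hy.trans (H8.isConj_of_odd hy' ht' (Nat.not_even_iff_odd.mp h)))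
    obtain ⟨h1, h2, h3⟩ := H8.central_involution hy' ht' heven
    exact ⟨⟨_, h1, h3⟩, H8.mem_centralizer_singleton.mpr h2.symm⟩
  choose f hf using hex
  have h1 : Nat.card {y : G // IsConj s y} ≤
      Nat.card (Σ z : {z : G // orderOf z = 2 ∧ Commute z t},
        Subgroup.centralizer ({z.1} : Set G)) := by
    refine Nat.card_le_card_of_injective (fun y => ⟨f y, ⟨y.1, hf y⟩⟩) fun a b hab => ?_
    exact Subtype.ext (congrArg (fun w : (Σ z : {z : G // orderOf z = 2 ∧ Commute z t},
        Subgroup.centralizer ({z.1} : Set G)) => (w.2 : G)) hab)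
  have := Fintype.ofFinite {z : G // orderOf z = 2 ∧ Commute z t}
  rw [Nat.card_sigma] at h1
  have h2 : ∑ z : {z : G // orderOf z = 2 ∧ Commute z t},
      Nat.card (Subgroup.centralizer ({z.1} : Set G)) ≤
        Nat.card {z : G // orderOf z = 2 ∧ Commute z t} * c := by
    rw [Nat.card_eq_fintype_card, ← Finset.card_univ, ← smul_eq_mul]
    exact Finset.sum_le_card_nsmul _ _ _ fun z _ => hmax z.1 z.2.1
  have h3 := H8.card_involutions_commute_lt t
  have h4 := H8.card_isConj_mul_card_centralizer s
  have h5 := hmax s hs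
  have hcpos : 0 < c := Nat.card_pos
  calc Nat.card G = _ := h4.symm
    _ ≤ (Nat.card {z : G // orderOf z = 2 ∧ Commute z t} * c) * c :=
        Nat.mul_le_mul (h1.trans h2) h5
    _ < (c * c) * c := by gcongr
    _ = c ^ 3 := by ring

end Cfsg.Agent.S0230
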