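import Cfsg.Statements.S0231
import Cfsg.Agent.H8.InvCount

set_option autoImplicit false
open scoped Pointwise
open Cfsg

namespace Cfsg.Agent.S0231

/-- Let T be a Sylow 2-subgroup of the finite group G which is not normal and which intersects every other Sylow 2-subgroup trivially. Then G has a single conjugacy class of involutions. -/
theorem result {G : Type*} [Group G] [Finite G] (T : Sylow 2 G) (hnn : ¬ (T : Subgroup G).Normal) (hTI : ∀ g : G, MulAut.conj g • (T : Subgroup G) ≠ T → MulAut.conj g • (T : Subgroup G) ⊓ T = ⊥) (s t : G) (hs : orderOf s = 2) (ht : orderOf t = 2) : IsConj s t := by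
  have uniq : ∀ (P Q : Sylow 2 G) (z : G), z ≠ 1 → z ∈ P → z ∈ Q → P = Q := by
    intro P Q z hz hP hQ
    obtain ⟨a, rfl⟩ := MulAction.exists_smul_eq G T P
    obtain ⟨b, rfl⟩ := MulAction.exists_smul_eq G T Q
    by_contra hne
    have h1 : MulAut.conj (b⁻¹ * a) • (T : Subgroup G) ≠ T := by
      intro h
      rw [← Sylow.coe_subgroup_smul] at h
      have h2 : (b⁻¹ * a) • T = T := Sylow.ext h
      rw [mul_smul, inv_smul_eq_iff] at h2
      exact hne h2
    have h2 := hTI _ h1
    rw [← Sylow.coe_subgroup_smul] at h2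
    have h3 : b⁻¹ * z * b ∈ (((b⁻¹ * a) • T : Sylow 2 G) : Subgroup G) ⊓ T := by
      refine ⟨?_, (H8.mem_sylow_smul_iff T b z).mp hQ⟩
      refine (H8.mem_sylow_smul_iff T _ _).mpr ?_
      have := (H8.mem_sylow_smul_iff T a z).mp hP
      simpa [mul_assoc] using this
    rw [h2, Subgroup.mem_bot] at h3
    apply hz
    have : z = b * (b⁻¹ * z * b) * b⁻¹ := by group
    rw [this, h3]; simp
  have key : ∀ (u v : G) (P Q : Sylow 2 G), orderOf u = 2 → orderOf v = 2 → u ∈ P → v ∈ Q →
      P ≠ Q → IsConj u v := by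
    intro u v P Q hu hv hP hQ hne
    have hu' := H8.mul_self_of_orderOf_two hu
    have hv' := H8.mul_self_of_orderOf_two hv
    by_contra hnc
    have heven : Even (orderOf (u * v)) := by
      by_contra h
      exact hnc (H8.isConj_of_odd hu' hv' (Nat.not_even_iff_odd.mp h))
    obtain ⟨h1, h2, h3⟩ := H8.central_involution hu' hv' heven
    set z := (u * v) ^ (orderOf (u * v) / 2)
    have hz' := H8.mul_self_of_orderOf_two h1
    obtain ⟨R, hR⟩ := (H8.isPGroup_closure_pair_of_commute hz' hu' h2).exists_le_sylow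
    obtain ⟨S, hS⟩ := (H8.isPGroup_closure_pair_of_commute hz' hv' h3).exists_le_sylow
    have e1 : P = R := uniq P R u (H8.ne_one_of_orderOf_two hu) hP
      (hR (Subgroup.subset_closure (by simp)))
    have e2 : Q = S := uniq Q S v (H8.ne_one_of_orderOf_two hv) hQ
      (hS (Subgroup.subset_closure (by simp)))
    have e3 : R = S := uniq R S z (H8.ne_one_of_orderOf_two h1)
      (hR (Subgroup.subset_closure (by simp))) (hS (Subgroup.subset_closure (by simp)))
    exact hne (e1.trans (e3.trans e2.symm))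
  have hs' := H8.mul_self_of_orderOf_two hs
  have ht' := H8.mul_self_of_orderOf_two ht
  obtain ⟨P, hP⟩ := (H8.isPGroup_closure_pair_of_commute hs' hs' (Commute.refl s)).exists_le_sylow
  obtain ⟨Q, hQ⟩ := (H8.isPGroup_closure_pair_of_commute ht' ht' (Commute.refl t)).exists_le_sylow
  have hsP : s ∈ P := hP (Subgroup.subset_closure (by simp))
  have htQ : t ∈ Q := hQ (Subgroup.subset_closure (by simp))
  by_cases hPQ : P = Q
  · subst hPQ
    have : ∃ g : G, g • P ≠ P := by
      by_contra hcon
      push Not at hcon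
      have : Subsingleton (Sylow 2 G) := ⟨fun A B => by
        obtain ⟨a, rfl⟩ := MulAction.exists_smul_eq G P A
        obtain ⟨b, rfl⟩ := MulAction.exists_smul_eq G P B
        rw [hcon, hcon]⟩
      exact hnn (Sylow.normal_of_subsingleton T)
    obtain ⟨g, hg⟩ := this
    have h1 : IsConj s (g * s * g⁻¹) := isConj_iff.mpr ⟨g, rfl⟩
    refine h1.trans (key _ _ (g • P) P ((H8.orderOf_conj' g s).trans hs) ht ?_ htQ hg)
    rw [H8.mem_sylow_smul_iff]
    simpa [mul_assoc] using hsP
  · exact key s t P Q hs ht hsP htQ hPQ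

end Cfsg.Agent.S0231
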