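import Cfsg.Statements.S0232
import Cfsg.Agent.H8.BrauerFowler

set_option autoImplicit false
open Cfsg

namespace Cfsg.Agent.S0232

theorem aux (n : ℕ) : ∀ (G : Type*) [Group G] [Finite G], Nat.card G = n → Even (Nat.card G) →
    2 < Nat.card G → ∃ H : Subgroup G, H ≠ ⊤ ∧ Nat.card G < (Nat.card H) ^ 3 := by
  induction n using Nat.strong_induction_on with
  | _ n ih =>
  intro G _ _ hn heven hgt
  have idx2 : ∀ H : Subgroup G, H.index = 2 →
      ∃ H : Subgroup G, H ≠ ⊤ ∧ Nat.card G < (Nat.card H) ^ 3 := by
    intro H hH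
    refine ⟨H, fun h => by rw [h, Subgroup.index_top] at hH; omega, ?_⟩
    have h1 := H.card_mul_index
    rw [hH] at h1
    have h2 : 2 ≤ Nat.card H := by omega
    rw [← h1, pow_succ' _ 2]
    exact Nat.mul_lt_mul_of_pos_left (by nlinarith) (by omega)
  by_cases hZ : ∀ t : G, orderOf t = 2 → t ∉ Subgroup.center G
  · obtain ⟨H, hH, h | h⟩ := H8.brauer_fowler heven hZ
    · exact idx2 H h
    obtain ⟨t, ht⟩ := exists_prime_orderOf_dvd_card' (G := G) 2 (even_iff_two_dvd.mp heven)
    have hC : Subgroup.centralizer ({t} : Set G) ≠ ⊤ := by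
      intro h
      apply hZ t ht
      rw [Subgroup.mem_center_iff]
      intro y
      exact Subgroup.mem_centralizer_singleton_iff.mp (h ▸ Subgroup.mem_top y)
    have h3 := H8.card_le_involutions_mul ht
    have h4 := H8.card_involutions_lt (G := G)
    have h5 := H.card_mul_index
    set m := Nat.card {t : G // orderOf t = 2}
    set g := Nat.card G
    set c := Nat.card (Subgroup.centralizer ({t} : Set G))
    set k := Nat.card H
    have hk : 0 < k := Nat.card_pos
    have hc : 0 < c := Nat.card_pos
    have h6 : H.index * m ^ 2 < g * g := by nlinarith [Nat.zero_le (H.index * m)]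
    have h7 : m ^ 2 < k * g := by
      have : g * m ^ 2 < g * (k * g) := by
        calc g * m ^ 2 = k * (H.index * m ^ 2) := by rw [← h5]; ring
          _ < k * (g * g) := by gcongr
          _ = _ := by ring
      exact Nat.lt_of_mul_lt_mul_left this
    have h8 : g < k * c ^ 2 := by
      have : g * g < g * (k * c ^ 2) := by
        calc g * g ≤ (m * c) * (m * c) := by gcongr
          _ = m ^ 2 * c ^ 2 := by ring
          _ < k * g * c ^ 2 := by gcongr
          _ = _ := by ring
      exact Nat.lt_of_mul_lt_mul_left this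
    rcases le_total k c with hkc | hkc
    · exact ⟨_, hC, h8.trans_le (by rw [pow_succ' c 2]; gcongr)⟩
    · exact ⟨H, hH, h8.trans_le (by rw [pow_succ' k 2]; gcongr)⟩
  · push Not at hZ
    obtain ⟨z, hz, hzZ⟩ := hZ
    have hnormal : (Subgroup.zpowers z).Normal := ⟨by
      rintro _ ⟨k, rfl⟩ g
      have := Subgroup.mem_center_iff.mp (zpow_mem hzZ k) g
      dsimp only
      rw [this, mul_inv_cancel_right]
      exact ⟨k, rfl⟩⟩
    have hcard : Nat.card G = Nat.card (G ⧸ Subgroup.zpowers z) * 2 := by
      rw [Subgroup.card_eq_card_quotient_mul_card_subgroup (Subgroup.zpowers z), Nat.card_zpowers,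
        hz]
    by_cases hq : Even (Nat.card (G ⧸ Subgroup.zpowers z))
    · by_cases hq2 : 2 < Nat.card (G ⧸ Subgroup.zpowers z)
      · obtain ⟨K, hK, hlt⟩ := ih _ (by omega) (G ⧸ Subgroup.zpowers z) rfl hq hq2
        have hi := Subgroup.index_comap_of_surjective K
          (QuotientGroup.mk'_surjective (Subgroup.zpowers z))
        refine ⟨K.comap (QuotientGroup.mk' _), fun h => hK ?_, ?_⟩
        · rw [← Subgroup.index_eq_one, ← hi, h, Subgroup.index_top]
        · have h1 := (K.comap (QuotientGroup.mk' (Subgroup.zpowers z))).card_mul_index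
          have h2 := K.card_mul_index
          rw [hi, hcard, ← h2, mul_right_comm] at h1
          have h3 := Nat.eq_of_mul_eq_mul_right (Nat.pos_of_ne_zero Subgroup.index_ne_zero_of_finite) h1
          rw [h3, hcard, mul_pow]
          omega
      · apply idx2 (Subgroup.zpowers z)
        rw [Subgroup.index]
        obtain ⟨m, hm⟩ := hq
        omega
    · obtain ⟨T⟩ : Nonempty (Sylow 2 G) := inferInstance
      have hT : Nat.card T = 2 := by
        obtain ⟨k, hk⟩ := IsPGroup.iff_card.mp T.isPGroup'
        have h1 := (T : Subgroup G).card_subgroup_dvd_card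
        have h2 := T.dvd_card_of_dvd_card (even_iff_two_dvd.mp heven)
        rcases k with _ | _ | k
        · rw [hk] at h2; omega
        · exact hk
        · rw [hk, hcard, pow_succ] at h1
          have h3 := (dvd_pow_self 2 (Nat.succ_ne_zero k)).trans (Nat.dvd_of_mul_dvd_mul_right two_pos h1)
          exact absurd (even_iff_two_dvd.mpr h3) hq
      obtain ⟨H, hH⟩ := H8.exists_index_two_of_isCyclic heven T (isCyclic_of_prime_card hT)
      exact idx2 H hH

/-- A finite group G of even order greater than 2 has a proper subgroup H with |G| < |H|^3. -/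
theorem result {G : Type*} [Group G] [Finite G] (heven : Even (Nat.card G)) (hgt : 2 < Nat.card G) : ∃ H : Subgroup G, H ≠ ⊤ ∧ Nat.card G < (Nat.card H) ^ 3 := by
  exact aux _ G rfl heven hgt

end Cfsg.Agent.S0232
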