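import Cfsg.Statements.S0234
import Cfsg.Agent.H8.BrauerFowler
import Mathlib.GroupTheory.SpecificGroups.Alternating
import Mathlib.GroupTheory.Perm.ViaEmbedding

set_option autoImplicit false
open Cfsg

namespace Cfsg.Agent.S0234

theorem card_a5_inv : (Finset.univ.filter fun σ : Equiv.Perm (Fin 5) =>
    σ * σ = 1 ∧ σ ≠ 1 ∧ Equiv.Perm.sign σ = 1).card = 15 := by
  decide +kernel

/-- In a finite simple group G of even order greater than 2, the number n of involutions satisfies 3n < |G|. -/
theorem result {G : Type*} [Group G] [Finite G] [IsSimpleGroup G] (heven : Even (Nat.card G)) (hgt : 2 < Nat.card G) : 3 * Nat.card {t : G // orderOf t = 2} < Nat.card G := by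
  classical
  by_contra hcon
  obtain ⟨H, hH, h | h⟩ := H8.brauer_fowler heven fun z hz hZ => by
    have := H8.card_eq_two_of_central_involution hz hZ
    omega
  · have := H8.card_eq_two_of_index_two h
    omega
  set n := Nat.card {t : G // orderOf t = 2} with hn
  set g := Nat.card G with hg
  have hj : H.index ≤ 5 := by
    by_contra hj
    have h1 : 6 ≤ H.index := by omega
    have h2 : g ≤ 3 * n := by omega
    nlinarith
  -- every homomorphism to `ℤˣ` is trivial
  have hsign : ∀ ψ : G →* ℤˣ, ∀ x, ψ x = 1 := by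
    intro ψ x
    rcases ψ.normal_ker.eq_bot_or_eq_top with h | h
    · have h1 := Subgroup.card_dvd_of_injective ψ ((MonoidHom.ker_eq_bot_iff ψ).mp h)
      have h2 := Nat.le_of_dvd Nat.card_pos h1
      simp at h2
      omega
    · exact (h ▸ Subgroup.mem_top x : x ∈ ψ.ker)
  have hcore : H.normalCore = ⊥ := by
    rcases (Subgroup.normalCore_normal H).eq_bot_or_eq_top with h | h
    · exact h
    · exact absurd (top_le_iff.mp (h ▸ H.normalCore_le)) hH
  have := Fintype.ofFinite (G ⧸ H)
  obtain ⟨e⟩ : Nonempty (G ⧸ H ↪ Fin 5) :=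
    Function.Embedding.nonempty_of_card_le (α := G ⧸ H) (β := Fin 5)
      (by rw [← Nat.card_eq_fintype_card, Fintype.card_fin]; exact hj)
  let φ : G →* Equiv.Perm (Fin 5) :=
    (Equiv.Perm.viaEmbeddingHom e).comp (MulAction.toPermHom G (G ⧸ H))
  have hφ : Function.Injective φ := by
    refine (Equiv.Perm.viaEmbeddingHom_injective e).comp ?_
    rw [← MonoidHom.ker_eq_bot_iff, ← Subgroup.normalCore_eq_ker, hcore]
  have hs : ∀ x, Equiv.Perm.sign (φ x) = 1 := hsign (Equiv.Perm.sign.comp φ)
  have hn15 : n ≤ 15 := by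
    rw [← card_a5_inv, ← Fintype.card_subtype, ← Nat.card_eq_fintype_card]
    refine Nat.card_le_card_of_injective (fun t => ⟨φ t.1, ?_, ?_, hs _⟩)
      (fun a b hab => Subtype.ext (hφ (Subtype.mk.inj hab)))
    · rw [← map_mul, H8.mul_self_of_orderOf_two t.2, map_one]
    · rw [Ne, map_eq_one_iff φ hφ]
      exact H8.ne_one_of_orderOf_two t.2
  have hg60 : g ∣ 60 := by
    have h1 := Subgroup.card_dvd_of_injective (φ.codRestrict (alternatingGroup (Fin 5))
      fun x => Equiv.Perm.mem_alternatingGroup.mpr (hs x))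
      (fun a b hab => hφ (Subtype.mk.inj hab))
    rw [nat_card_alternatingGroup] at h1
    simpa [Nat.factorial] using h1
  have hsub : ∀ (p k : ℕ), p.Prime → p ^ k ∣ g → p ^ k < g → g ∣ (g / p ^ k).factorial := by
    intro p k hp h1 h2
    have := Fact.mk hp
    obtain ⟨K, hK⟩ := Sylow.exists_subgroup_card_pow_prime (G := G) p h1
    have h3 := H8.card_dvd_factorial_index (H := K) (by
      rintro rfl
      rw [Subgroup.card_top] at hK
      omega)
    have h4 := K.card_mul_index
    rw [hK] at h4
    rwa [Nat.div_eq_of_eq_mul_right (pow_pos hp.pos k) h4.symm]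
  have h4 : 4 ∣ g := by
    by_contra h4
    obtain ⟨T⟩ : Nonempty (Sylow 2 G) := inferInstance
    have hT : Nat.card T = 2 := by
      obtain ⟨k, hk⟩ := IsPGroup.iff_card.mp T.isPGroup'
      have h1 := (T : Subgroup G).card_subgroup_dvd_card
      have h2 := T.dvd_card_of_dvd_card (even_iff_two_dvd.mp heven)
      rcases k with _ | _ | k
      · rw [hk] at h2; omega
      · exact hk
      · rw [hk] at h1
        exact absurd ((pow_dvd_pow 2 (by omega : 2 ≤ k + 1 + 1)).trans h1) h4
    obtain ⟨K, hK⟩ := H8.exists_index_two_of_isCyclic heven T (isCyclic_of_prime_card hT)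
    have := H8.card_eq_two_of_index_two hK
    omega
  have hle : g ≤ 45 := by omega
  have h5 : g = 4 ∨ g = 12 ∨ g = 20 := by
    clear_value g
    interval_cases g <;> omega
  rcases h5 with h5 | h5 | h5
  · have := hsub 2 1 Nat.prime_two (by rw [h5]; norm_num) (by rw [h5]; norm_num)
    rw [h5] at this
    norm_num at this
  · have := hsub 2 2 Nat.prime_two (by rw [h5]; norm_num) (by rw [h5]; norm_num)
    rw [h5] at this
    norm_num [Nat.factorial] at this
  · have := hsub 5 1 Nat.prime_five (by rw [h5]; norm_num) (by rw [h5]; norm_num)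
    rw [h5] at this
    norm_num [Nat.factorial] at this

end Cfsg.Agent.S0234
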