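import Cfsg.Statements.S0239
import Cfsg.Agent.H8.InvCount

set_option autoImplicit false
open Cfsg

namespace Cfsg.Agent.S0239

/-- If some nontrivial element x of a finite group G is conjugate to x⁻¹, then |G| is even. -/
theorem result {G : Type*} [Group G] [Finite G] (x : G) (hx : x ≠ 1) (hreal : IsConj x x⁻¹) : Even (Nat.card G) := by
  by_contra hodd
  rw [Nat.not_even_iff_odd] at hodd
  obtain ⟨g, hg⟩ := isConj_iff.mp hreal
  have key : ∀ k : ℕ, g ^ (2 * k + 1) * x * (g ^ (2 * k + 1))⁻¹ = x⁻¹ := by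
    intro k
    induction k with
    | zero => simpa using hg
    | succ k ih =>
      have : g ^ (2 * (k + 1) + 1) = g * (g * g ^ (2 * k + 1)) := by
        rw [← pow_succ', ← pow_succ']; rfl
      rw [this]
      calc g * (g * g ^ (2 * k + 1)) * x * (g * (g * g ^ (2 * k + 1)))⁻¹
          = g * (g * (g ^ (2 * k + 1) * x * (g ^ (2 * k + 1))⁻¹) * g⁻¹) * g⁻¹ := by group
        _ = x⁻¹ := by rw [ih, ← conj_inv, hg, inv_inv, hg]
  obtain ⟨k, hk⟩ := hodd
  have h1 := key k
  rw [← hk, pow_card_eq_one', one_mul, inv_one, mul_one] at h1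
  have h2 : orderOf x = 2 := H8.orderOf_two_of (by nth_rewrite 1 [h1]; exact inv_mul_cancel x) hx
  have h3 := orderOf_dvd_natCard x
  rw [h2] at h3
  omega

end Cfsg.Agent.S0239
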