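import Cfsg.Statements.S0240
import Cfsg.Agent.H8.InvCount

set_option autoImplicit false
open Cfsg

namespace Cfsg.Agent.S0240

/-- Let G be a finite group with n involutions and H a subgroup with |H|·(n+1) > |G|. Then some nontrivial h ∈ H is strongly real in G: an involution t of G satisfies t h t⁻¹ = h⁻¹. -/
theorem result {G : Type*} [Group G] [Finite G] (H : Subgroup G) (hH : Nat.card G < Nat.card H * (Nat.card {t : G // orderOf t = 2} + 1)) : ∃ h : G, h ∈ H ∧ h ≠ 1 ∧ ∃ t : G, orderOf t = 2 ∧ t * h * t⁻¹ = h⁻¹ := by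
  let f : Option {t : G // orderOf t = 2} → G := fun o => o.elim 1 Subtype.val
  have hlt : Nat.card (G ⧸ H) < Nat.card (Option {t : G // orderOf t = 2}) := by
    rw [Finite.card_option]
    rw [← H.card_mul_index] at hH
    exact Nat.lt_of_mul_lt_mul_left hH
  have hninj : ¬ Function.Injective (fun o => (QuotientGroup.mk (f o) : G ⧸ H)) := fun h =>
    absurd (Nat.card_le_card_of_injective _ h) (not_le_of_gt hlt)
  obtain ⟨a, b, hab, hne⟩ := Function.not_injective_iff.mp hninj
  rw [QuotientGroup.eq] at hab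
  rcases a with _ | a <;> rcases b with _ | b
  · exact absurd rfl hne
  · refine ⟨b.1, by simpa [f] using hab, H8.ne_one_of_orderOf_two b.2, b.1, b.2, ?_⟩
    rw [mul_inv_cancel_right, H8.inv_eq_of_orderOf_two b.2]
  · refine ⟨a.1, by simpa [f] using hab, H8.ne_one_of_orderOf_two a.2, a.1, a.2, ?_⟩
    rw [mul_inv_cancel_right, H8.inv_eq_of_orderOf_two a.2]
  · change a.1⁻¹ * b.1 ∈ H at hab
    refine ⟨_, hab, fun h => hne (congrArg some (Subtype.ext (inv_mul_eq_one.mp h))), a.1, a.2, ?_⟩
    exact H8.inverts_of_mul a.2 b.2 (by rw [H8.inv_eq_of_orderOf_two a.2])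

end Cfsg.Agent.S0240
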