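import Cfsg.Statements.S0241
import Cfsg.Agent.H8.InvCount

set_option autoImplicit false
open Cfsg

namespace Cfsg.Agent.S0241

/-- If x ≠ 1 is conjugate to x⁻¹ in a finite group G and |C_G(x)| is odd, then some involution t satisfies t x t⁻¹ = x⁻¹. -/
theorem result {G : Type*} [Group G] [Finite G] (x : G) (hx : x ≠ 1) (hreal : IsConj x x⁻¹) (hodd : Odd (Nat.card (Subgroup.centralizer ({x} : Set G)))) : ∃ t : G, orderOf t = 2 ∧ t * x * t⁻¹ = x⁻¹ := by
  obtain ⟨g, hg⟩ := isConj_iff.mp hreal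
  have key : ∀ k : ℕ, g ^ (2 * k + 1) * x * (g ^ (2 * k + 1))⁻¹ = x⁻¹ := by
    intro k
    induction k with
    | zero => simpa using hg
    | succ k ih =>
      have : g ^ (2 * (k + 1) + 1) = g * (g * g ^ (2 * k + 1)) := by
        rw [← pow_succ', ← pow_succ']; rfl
      rw [this]
      calc g * (g * g ^ (2 * k + 1)) * x * (g * (g * g ^ (2 * k + 1)))⁻¹
          = g * (g * (g ^ (2 * k + 1) * x * (g ^ (2 * k + 1))⁻¹) * g⁻¹) * g⁻¹ := by group
        _ = x⁻¹ := by rw [ih, ← conj_inv, hg, inv_inv, hg]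
  have hg2 : g ^ 2 ∈ Subgroup.centralizer ({x} : Set G) := by
    rw [Subgroup.mem_centralizer_singleton_iff, ← mul_inv_eq_iff_eq_mul]
    calc g ^ 2 * x * (g ^ 2)⁻¹ = g * (g * x * g⁻¹) * g⁻¹ := by rw [pow_two]; group
      _ = x := by rw [hg, ← conj_inv, hg, inv_inv]
  obtain ⟨k, hk⟩ := hodd
  have h1 := key k
  refine ⟨g ^ (2 * k + 1), H8.orderOf_two_of ?_ fun h => ?_, h1⟩
  · rw [← pow_two, ← pow_mul, mul_comm, pow_mul, ← hk, ← orderOf_dvd_iff_pow_eq_one]
    exact Subgroup.orderOf_dvd_natCard _ hg2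
  · rw [h, one_mul, inv_one, mul_one] at h1
    have h2 : orderOf x = 2 := H8.orderOf_two_of (by nth_rewrite 1 [h1]; exact inv_mul_cancel x) hx
    have h3 := Subgroup.orderOf_dvd_natCard (Subgroup.centralizer ({x} : Set G))
      (H8.mem_centralizer_singleton.mpr (Commute.refl x))
    rw [h2] at h3
    omega

end Cfsg.Agent.S0241
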