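import Cfsg.Statements.S0257
import Cfsg.Agent.H9.Transport
import Cfsg.Agent.H9.QuatHom
import Cfsg.Agent.H9.Torus2

set_option autoImplicit false
open Cfsg

namespace Cfsg.Agent.S0257

open H9

theorem key : ∀ a b c d : ZMod 3, a * d - b * c = 1 → (!![a, b; c, d] ^ 4 = 1 ↔
    !![a, b; c, d] ∈ [!![1, 0; 0, 1], !![0, -1; 1, 0], !![-1, 0; 0, -1], !![0, 1; -1, 0],
      !![1, 1; 1, -1], !![1, -1; -1, -1], !![-1, -1; -1, 1], !![-1, 1; 1, 1]]) := by
  decide +kernel

def x : Matrix.SpecialLinearGroup (Fin 2) (ZMod 3) := slMk !![0, -1; 1, 0] (by decide)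
def y : Matrix.SpecialLinearGroup (Fin 2) (ZMod 3) := slMk !![1, 1; 1, -1] (by decide)

theorem hx : orderOf x = 2 * 2 := by
  rw [orderOf_eq_iff (by norm_num)]
  decide +kernel

theorem main : ∃ Q : Subgroup (Matrix.SpecialLinearGroup (Fin 2) (ZMod 3)),
    Q.Normal ∧ Nat.card Q = 8 ∧ Nonempty (Q ≃* QuaternionGroup 2) := by
  obtain ⟨Q, hxQ, hyQ, -, hc, ⟨e⟩⟩ := exists_subgroup_quaternion le_rfl x y hx (by decide +kernel)
    (by decide +kernel)
  refine ⟨Q, ⟨fun n hn g => ?_⟩, hc, ⟨e⟩⟩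
  have h4 : n ^ 4 = 1 := by
    have : ∀ t : QuaternionGroup 2, t ^ 4 = 1 := by decide +kernel
    have h := this (e ⟨n, hn⟩)
    rw [← map_pow, EmbeddingLike.map_eq_one_iff] at h
    exact congrArg Subtype.val h
  have h5 : (g * n * g⁻¹) ^ 4 = 1 := by rw [conj_pow, h4]; simp
  generalize g * n * g⁻¹ = t at h5
  induction t using Matrix.SpecialLinearGroup.fin_two_induction with | h a b c d hdet =>
  have h6 := (key a b c d hdet).1 (congrArg Subtype.val h5)
  have hm : ∀ (i j : ℕ) (t : Matrix.SpecialLinearGroup (Fin 2) (ZMod 3)),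
      t.1 = (y ^ i * x ^ j).1 → t ∈ Q := fun i j t ht => by
    rw [Subtype.ext ht]
    exact Q.mul_mem (Q.pow_mem hyQ i) (Q.pow_mem hxQ j)
  simp only [List.mem_cons, List.not_mem_nil, or_false] at h6
  rcases h6 with h | h | h | h | h | h | h | h
  · exact hm 0 0 _ (h.trans (by decide +kernel))
  · exact hm 0 1 _ (h.trans (by decide +kernel))
  · exact hm 0 2 _ (h.trans (by decide +kernel))
  · exact hm 0 3 _ (h.trans (by decide +kernel))
  · exact hm 1 0 _ (h.trans (by decide +kernel))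
  · exact hm 1 1 _ (h.trans (by decide +kernel))
  · exact hm 1 2 _ (h.trans (by decide +kernel))
  · exact hm 1 3 _ (h.trans (by decide +kernel))

/-- SL_2(3) has a normal subgroup of index 3 isomorphic to the quaternion group of order 8, and its centre has order 2. -/
theorem result {F : Type*} [Field F] [Fintype F] (hF : Fintype.card F = 3) : (∃ Q : Subgroup (Matrix.SpecialLinearGroup (Fin 2) F), Q.Normal ∧ Q.index = 3 ∧ Nonempty (Q ≃* QuaternionGroup 2)) ∧ Nat.card (Subgroup.center (Matrix.SpecialLinearGroup (Fin 2) F)) = 2 := by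
  refine ⟨?_, by rw [card_center_sl, hF]; simp⟩
  obtain ⟨Q, hN, hc, ⟨e⟩⟩ := main
  let φ := slMapEquiv (ι := Fin 2) (ZMod.ringEquivOfPrime F (by norm_num) hF)
  refine ⟨Q.map φ.toMonoidHom, hN.map _ φ.surjective, ?_,
    ⟨(φ.subgroupMap Q).symm.trans e⟩⟩
  have h := (Q.map φ.toMonoidHom).card_mul_index
  rw [Subgroup.card_map_of_injective (f := φ.toMonoidHom) φ.injective, hc, card_sl_two, hF] at h
  omega

end Cfsg.Agent.S0257
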