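import Cfsg.Statements.S0259
import Cfsg.Agent.H9.GL2Sylow

set_option autoImplicit false
open Cfsg

namespace Cfsg.Agent.S0259

/-- Distinct Sylow p-subgroups of GL_2(q), p the characteristic, intersect trivially. -/
theorem result {F : Type*} [Field F] [Fintype F] (p : ℕ) [Fact p.Prime] [CharP F p] (P Q : Sylow p (Matrix.GeneralLinearGroup (Fin 2) F)) (h : P ≠ Q) : (P : Subgroup (Matrix.GeneralLinearGroup (Fin 2) F)) ⊓ (Q : Subgroup (Matrix.GeneralLinearGroup (Fin 2) F)) = ⊥ := by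
  obtain ⟨x, hx⟩ := H9.sylow_gl_two_eq_lineStab p P
  obtain ⟨y, hy⟩ := H9.sylow_gl_two_eq_lineStab p Q
  have hxy : x ≠ y := by
    rintro rfl
    exact h (Sylow.ext (hx.trans hy.symm))
  rw [hx, hy, ← Subgroup.map_inf _ _ _ Matrix.SpecialLinearGroup.toGL_injective,
    H9.lineStab_inf_eq_bot hxy, Subgroup.map_bot]

end Cfsg.Agent.S0259
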