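import Cfsg.Statements.S0266
import Cfsg.Agent.H10.ProjLine

set_option autoImplicit false
open Cfsg
open scoped MatrixGroups

namespace Cfsg.Agent.S0266

open Cfsg.Agent.H10 Matrix

theorem mk_smul {F : Type*} [Field F] (g : GL (Fin 2) F) (a : Projectivization F (Fin 2 → F)) :
    (Matrix.ProjGenLinGroup.mk g : Matrix.ProjGenLinGroup (Fin 2) F) • a = g • a := rfl

/-- PGL_2(F) is sharply 3-transitive on the projective line: it is 3-transitive and the stabiliser of three distinct points is trivial. -/
theorem result {F : Type*} [Field F] : MulAction.IsMultiplyPretransitive (Matrix.ProjGenLinGroup (Fin 2) F) (Projectivization F (Fin 2 → F)) 3 ∧ ∀ (g : Matrix.ProjGenLinGroup (Fin 2) F) (a b c : Projectivization F (Fin 2 → F)), a ≠ b → a ≠ c → b ≠ c → g • a = a → g • b = b → g • c = c → g = 1 := by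
  constructor
  · refine three_pretransitive_of_frame (pt0 F) (pt1 F) (pt2 1) ?_
    intro a b c hab hac hbc
    obtain ⟨g, h0, h1, h2⟩ := exists_GL_frame a b c hab hac hbc
    exact ⟨Matrix.ProjGenLinGroup.mk g, h0, h1, h2⟩
  · intro g a b c hab hac hbc ha hb hc
    induction g using Matrix.ProjGenLinGroup.induction_on with | mk g =>
    rw [mk_smul] at ha hb hc
    obtain ⟨k, h0, h1, h2⟩ := exists_GL_frame a b c hab hac hbc
    obtain ⟨e1, e2, e3⟩ := GL_fix_frame (k⁻¹ * g * k) 1
      (by rw [mul_smul, mul_smul, h0, ha, ← h0, inv_smul_smul])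
      (by rw [mul_smul, mul_smul, h1, hb, ← h1, inv_smul_smul])
      (by rw [mul_smul, mul_smul, h2, hc, ← h2, inv_smul_smul])
    have hz : k⁻¹ * g * k ∈ Subgroup.center (GL (Fin 2) F) := by
      rw [Matrix.GeneralLinearGroup.mem_center_iff_val_mem_range_scalar]
      refine ⟨((k⁻¹ * g * k : GL (Fin 2) F) : Matrix (Fin 2) (Fin 2) F) 0 0, ?_⟩
      ext i j
      fin_cases i <;> fin_cases j
      · simp
      · simpa using e1.symm
      · simpa using e2.symm
      · simpa using e3.symm
    rw [Matrix.ProjGenLinGroup.mk_eq_one]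
    have := (Subgroup.normal_of_characteristic (Subgroup.center (GL (Fin 2) F))).conj_mem _ hz k
    simpa [mul_assoc] using this

end Cfsg.Agent.S0266
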