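import Cfsg.Statements.S0267
import Cfsg.Agent.H10.ProjLine

set_option autoImplicit false
open Cfsg

namespace Cfsg.Agent.S0267

open Cfsg.Agent.H10 Matrix

theorem toGL_smul {F : Type*} [Field F] (g : SpecialLinearGroup (Fin 2) F)
    (a : Projectivization F (Fin 2 → F)) : g • a = (SpecialLinearGroup.toGL g) • a := by
  induction a using Projectivization.ind with | _ u hu => rfl

/-- SL_2(q) is 3-transitive on the q+1 points of the projective line if and only if q is even. -/
theorem result {F : Type*} [Field F] [Fintype F] : MulAction.IsMultiplyPretransitive (Matrix.SpecialLinearGroup (Fin 2) F) (Projectivization F (Fin 2 → F)) 3 ↔ ringChar F = 2 := by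
  constructor
  · intro h
    by_contra hc
    obtain ⟨c, hc⟩ := FiniteField.exists_nonsquare hc
    have hc0 : c ≠ 0 := by rintro rfl; exact hc ⟨0, by simp⟩
    obtain ⟨g, h0, h1, h2⟩ := exists_smul_three h (pt0 F) (pt1 F) (pt2 1) (pt0 F) (pt1 F) (pt2 c)
      pt0_ne_pt1 (pt0_ne_pt2 one_ne_zero) (pt1_ne_pt2 1) pt0_ne_pt1 (pt0_ne_pt2 hc0) (pt1_ne_pt2 c)
    rw [toGL_smul] at h0 h1 h2
    obtain ⟨e1, e2, e3⟩ := GL_fix_frame _ c h0 h1 h2
    have hd := g.det_coe
    rw [det_fin_two] at hd
    change (g : Matrix (Fin 2) (Fin 2) F) 0 1 = 0 at e1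
    change (g : Matrix (Fin 2) (Fin 2) F) 1 1 = c * (g : Matrix (Fin 2) (Fin 2) F) 0 0 at e3
    apply hc
    refine ⟨(g : Matrix (Fin 2) (Fin 2) F) 1 1, ?_⟩
    rw [e1, e3] at hd
    rw [e3]
    linear_combination (-c) * hd
  · intro h
    refine three_pretransitive_of_frame (pt0 F) (pt1 F) (pt2 1) ?_
    intro a b c hab hac hbc
    obtain ⟨g, h0, h1, h2⟩ := exists_GL_frame a b c hab hac hbc
    obtain ⟨r, hr⟩ := FiniteField.isSquare_of_char_two h (g : Matrix (Fin 2) (Fin 2) F).det
    have hr0 : r ≠ 0 := by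
      rintro rfl
      exact g.det_ne_zero (by simpa using hr)
    have hdet : (r⁻¹ • (g : Matrix (Fin 2) (Fin 2) F)).det = 1 := by
      rw [det_smul, hr]; simp; field_simp
    have key : ∀ x : Projectivization F (Fin 2 → F),
        (show SpecialLinearGroup (Fin 2) F from ⟨_, hdet⟩) • x = g • x := by
      intro x
      induction x using Projectivization.ind with | _ u hu =>
      rw [Projectivization.smul_mk, Projectivization.smul_mk, Projectivization.mk_eq_mk_iff']
      refine ⟨r⁻¹, ?_⟩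
      change r⁻¹ • ((g : Matrix (Fin 2) (Fin 2) F) *ᵥ u) = (r⁻¹ • (g : Matrix (Fin 2) (Fin 2) F)) *ᵥ u
      rw [smul_mulVec]
    exact ⟨_, (key _).trans h0, (key _).trans h1, (key _).trans h2⟩

end Cfsg.Agent.S0267
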