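import Cfsg.Statements.S0273
import Cfsg.Agent.H9.GL2Sylow

set_option autoImplicit false
open Cfsg

namespace Cfsg.Agent.S0273

open Matrix

theorem card_centralizer_conj {G : Type*} [Group G] (g a : G) :
    Nat.card (Subgroup.centralizer ({g * a * g⁻¹} : Set G)) =
      Nat.card (Subgroup.centralizer ({a} : Set G)) := by
  refine Nat.card_congr ⟨fun x => ⟨g⁻¹ * x.1 * g, ?_⟩, fun x => ⟨g * x.1 * g⁻¹, ?_⟩, ?_, ?_⟩
  · have := Subgroup.mem_centralizer_singleton_iff.1 x.2
    rw [Subgroup.mem_centralizer_singleton_iff]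
    calc g⁻¹ * x.1 * g * a = g⁻¹ * (x.1 * (g * a * g⁻¹)) * g := by group
      _ = g⁻¹ * ((g * a * g⁻¹) * x.1) * g := by rw [this]
      _ = _ := by group
  · have := Subgroup.mem_centralizer_singleton_iff.1 x.2
    rw [Subgroup.mem_centralizer_singleton_iff]
    calc g * x.1 * g⁻¹ * (g * a * g⁻¹) = g * (x.1 * a) * g⁻¹ := by group
      _ = g * (a * x.1) * g⁻¹ := by rw [this]
      _ = _ := by group
  · intro x; apply Subtype.ext; simp [mul_assoc]
  · intro x; apply Subtype.ext; simp [mul_assoc]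

theorem card_centralizer_transvection {F : Type*} [Field F] [Fintype F] {c : F} (hc : c ≠ 0) :
    Nat.card (Subgroup.centralizer ({SpecialLinearGroup.toGL
      (SpecialLinearGroup.transvection (zero_ne_one' (Fin 2)) c)} : Set (GL (Fin 2) F))) =
      Fintype.card F * (Fintype.card F - 1) := by
  have hT : ((SpecialLinearGroup.toGL (SpecialLinearGroup.transvection (zero_ne_one' (Fin 2)) c) :
      GL (Fin 2) F) : Matrix (Fin 2) (Fin 2) F) = !![1, c; 0, 1] := by
    change (1 : Matrix (Fin 2) (Fin 2) F) + single 0 1 c = _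
    ext i j; fin_cases i <;> fin_cases j <;> simp
  rw [← Nat.card_eq_fintype_card, ← Nat.card_units, ← Nat.card_prod]
  symm
  refine Nat.card_congr (Equiv.ofBijective (fun x : F × Fˣ =>
    ⟨GeneralLinearGroup.mkOfDetNeZero !![(x.2 : F), x.1; 0, x.2] (by simp), ?_⟩) ⟨?_, ?_⟩)
  · rw [Subgroup.mem_centralizer_singleton_iff]
    apply Units.ext
    rw [Units.val_mul, Units.val_mul, hT]
    change !![(x.2 : F), x.1; 0, x.2] * _ = _ * !![(x.2 : F), x.1; 0, x.2]
    simp [mul_comm, add_comm]
  · intro x y h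
    have := congrArg (fun g => ((g.1 : GL (Fin 2) F) : Matrix (Fin 2) (Fin 2) F)) h
    have h0 := congrFun (congrFun this 0) 0
    have h1 := congrFun (congrFun this 0) 1
    exact Prod.ext h1 (Units.ext h0)
  · rintro ⟨g, hg⟩
    have := congrArg Units.val (Subgroup.mem_centralizer_singleton_iff.1 hg)
    rw [Units.val_mul, Units.val_mul, hT] at this
    have h0 := congrFun (congrFun this 0) 0
    have h1 := congrFun (congrFun this 0) 1
    simp [mul_apply, Fin.sum_univ_two, hc] at h0 h1
    have h2 : (g : Matrix (Fin 2) (Fin 2) F) 1 1 = (g : Matrix (Fin 2) (Fin 2) F) 0 0 :=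
      mul_left_cancel₀ hc (by linear_combination -h1)
    have hd := g.det_ne_zero
    rw [det_fin_two, h0, mul_zero, sub_zero] at hd
    refine ⟨⟨g 0 1, Units.mk0 (g 0 0) (left_ne_zero_of_mul hd)⟩, Subtype.ext (Units.ext ?_)⟩
    ext i j
    fin_cases i <;> fin_cases j
    · rfl
    · rfl
    · exact h0.symm
    · exact h2.symm

/-- In GL_2(q) the centraliser of a non-trivial element of a Sylow p-subgroup (p the characteristic) has order q (q-1): the Sylow subgroup times the scalars. -/
theorem result {F : Type*} [Field F] [Fintype F] {q : ℕ} (hF : Fintype.card F = q) (p : ℕ) [Fact p.Prime] [CharP F p] (P : Sylow p (Matrix.GeneralLinearGroup (Fin 2) F)) (a : Matrix.GeneralLinearGroup (Fin 2) F) (ha : a ∈ P) (ha1 : a ≠ 1) : Nat.card (Subgroup.centralizer ({a} : Set (Matrix.GeneralLinearGroup (Fin 2) F))) = q * (q - 1) := by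
  subst hF
  obtain ⟨x, hx⟩ := H9.sylow_gl_two_eq_lineStab p P
  have ha' : a ∈ (P : Subgroup (GL (Fin 2) F)) := ha
  rw [hx] at ha'
  obtain ⟨b, hb, rfl⟩ := ha'
  obtain ⟨g, rfl⟩ := H9.exists_smul_pt0 x
  rw [H9.lineStab_smul_point] at hb
  obtain ⟨t, ht, rfl⟩ := hb
  obtain ⟨c, rfl⟩ := (H9.mem_lineStab_pt0_iff t).1 ht
  have hc : c ≠ 0 := by
    rintro rfl
    apply ha1
    simp
  rw [← card_centralizer_transvection hc, ← card_centralizer_conj (SpecialLinearGroup.toGL g)
    (SpecialLinearGroup.toGL (SpecialLinearGroup.transvection _ c)), ← map_inv, ← map_mul,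
    ← map_mul]
  rfl

end Cfsg.Agent.S0273
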