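import Cfsg.Statements.S0307


set_option autoImplicit false
open Cfsg

namespace Cfsg.Agent.S0307

/-- PSL_n(q) is normal in PGL_n(q) with cyclic quotient of order gcd(n, q-1): the image of the natural map PSL_n → PGL_n is the kernel of a surjective homomorphism onto the cyclic group of that order. -/
theorem result {F : Type*} [Field F] [Fintype F] {q : ℕ} (hF : Fintype.card F = q) (n : ℕ) (hn : 1 ≤ n) : ∃ g : Matrix.ProjGenLinGroup (Fin n) F →* Multiplicative (ZMod (Nat.gcd n (q - 1))), Function.Surjective g ∧ g.ker = (Matrix.ProjectiveSpecialLinearGroup.toPGL : Matrix.ProjectiveSpecialLinearGroup (Fin n) F →* Matrix.ProjGenLinGroup (Fin n) F).range := by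
  have : Nonempty (Fin n) := ⟨⟨0, hn⟩⟩
  set P : Subgroup Fˣ := (powMonoidHom n : Fˣ →* Fˣ).range with hP
  have hc : IsCyclic (Fˣ ⧸ P) := isCyclic_of_surjective _ (QuotientGroup.mk'_surjective P)
  have hcard : Nat.card (Fˣ ⧸ P) = Nat.gcd n (q - 1) := by
    rw [← Subgroup.index_eq_card, hP, IsCyclic.index_powMonoidHom_range, Nat.card_units,
      Nat.card_eq_fintype_card, hF, Nat.gcd_comm]
  have e : (Fˣ ⧸ P) ≃* Multiplicative (ZMod (Nat.gcd n (q - 1))) :=
    hcard ▸ (zmodCyclicMulEquiv hc).symm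
  let f : GL (Fin n) F →* Fˣ ⧸ P := (QuotientGroup.mk' P).comp Matrix.GeneralLinearGroup.det
  have hf : f.comp (Matrix.GeneralLinearGroup.scalar (Fin n)) = 1 := by
    ext u : 1
    simp only [f, MonoidHom.comp_apply, Matrix.GeneralLinearGroup.det_scalar, Fintype.card_fin,
      QuotientGroup.mk'_apply, MonoidHom.one_apply, QuotientGroup.eq_one_iff]
    exact ⟨u, rfl⟩
  refine ⟨e.toMonoidHom.comp (Matrix.ProjGenLinGroup.lift f hf), ?_, ?_⟩
  · refine e.surjective.comp fun x => ?_
    obtain ⟨u, rfl⟩ := QuotientGroup.mk'_surjective P x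
    obtain ⟨g, rfl⟩ := Matrix.GeneralLinearGroup.det_surjective (n := Fin n) u
    exact ⟨Matrix.ProjGenLinGroup.mk g, Matrix.ProjGenLinGroup.lift_mk hf g⟩
  · ext x
    induction x using Matrix.ProjGenLinGroup.induction_on with | mk g =>
    rw [MonoidHom.mem_ker, MonoidHom.comp_apply, Matrix.ProjGenLinGroup.lift_mk,
      MulEquiv.coe_toMonoidHom, MulEquiv.map_eq_one_iff]
    simp only [f, MonoidHom.comp_apply, QuotientGroup.mk'_apply, QuotientGroup.eq_one_iff]
    constructor
    · rintro ⟨u, hu⟩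
      have hu' : u ^ n = Matrix.GeneralLinearGroup.det g := hu
      have hd : Matrix.GeneralLinearGroup.det
          (g * Matrix.GeneralLinearGroup.scalar (Fin n) u⁻¹) = 1 := by
        rw [map_mul, Matrix.GeneralLinearGroup.det_scalar, Fintype.card_fin, ← hu', inv_pow,
          mul_inv_cancel]
      refine ⟨QuotientGroup.mk ⟨(g * Matrix.GeneralLinearGroup.scalar (Fin n) u⁻¹ : GL (Fin n) F),
        congrArg Units.val hd⟩, ?_⟩
      refine (Matrix.ProjectiveSpecialLinearGroup.toPGL_mk _).trans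
        (Matrix.ProjGenLinGroup.mk_eq_mk_iff.2 ⟨u, ?_⟩)
      have : ∀ s : GL (Fin n) F, s = g * Matrix.GeneralLinearGroup.scalar (Fin n) u⁻¹ →
          s * Matrix.GeneralLinearGroup.scalar (Fin n) u = g := by
        rintro s rfl
        rw [mul_assoc, ← map_mul, inv_mul_cancel, map_one, mul_one]
      exact this _ (Units.ext rfl)
    · rintro ⟨y, hy⟩
      obtain ⟨s, rfl⟩ := QuotientGroup.mk_surjective y
      rw [Matrix.ProjectiveSpecialLinearGroup.toPGL_mk, Matrix.ProjGenLinGroup.mk_eq_mk_iff] at hy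
      obtain ⟨u, rfl⟩ := hy
      refine ⟨u, ?_⟩
      rw [map_mul, Matrix.GeneralLinearGroup.det_scalar, Fintype.card_fin,
        show Matrix.GeneralLinearGroup.det (Matrix.SpecialLinearGroup.toGL s) = 1 from
          Units.ext s.2, one_mul]
      rfl

end Cfsg.Agent.S0307
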