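import Cfsg.Statements.S0310
import Cfsg.Agent.H12.BNExchange

set_option autoImplicit false
open Cfsg

namespace Cfsg.Agent.S0310

open Cfsg.Agent.H12


/-- For a set `J` of distinguished generators, the subgroup generated by `B` and `J` is exactly the union of
the double cosets `B n B` with `n` in the subgroup generated by `J` (so `B W_J B` is a subgroup). -/
theorem result {G : Type*} [Group G] (P : Cfsg.BNPair G) {J : Set G}
    (hJ : J ⊆ P.S) (g : G) :
    g ∈ P.parabolic J ↔ ∃ n ∈ Subgroup.closure J, g ∈ DoubleCoset.doubleCoset n (P.B : Set G) P.B := by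
  constructor
  · intro h
    obtain ⟨l, hl, h1⟩ := (mem_parabolic_iff hJ).1 h
    rw [← mk_wordN, cell_mk_iff_mem_doubleCoset] at h1
    exact ⟨_, wordN_mem fun s hs => Subgroup.subset_closure (hl s hs), h1⟩
  · rintro ⟨n, hn, h⟩
    rw [DoubleCoset.mem_doubleCoset] at h
    obtain ⟨b₁, hb₁, b₂, hb₂, rfl⟩ := h
    exact Subgroup.mul_mem _ (Subgroup.mul_mem _ (le_parabolic J hb₁) (Subgroup.mem_sup_right hn))
      (le_parabolic J hb₂)

end Cfsg.Agent.S0310
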