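import Cfsg.Statements.S0321
import Cfsg.Agent.H12.BNExchange

set_option autoImplicit false
open Cfsg

namespace Cfsg.Agent.S0321

open Cfsg.Agent.H12


/-- For `n ∈ N` not in `B`, the union `B ∪ B n B` is (the underlying set of) a subgroup exactly when `n` agrees
modulo `B ⊓ N` with one of the distinguished representatives; thus the distinguished involutions are
determined by `B` and `N`. -/
theorem result {G : Type*} [Group G] (P : Cfsg.BNPair G) {n : G}
    (hn : n ∈ P.N) (hnB : n ∉ P.B) :
    (∃ H : Subgroup G, (H : Set G) = (P.B : Set G) ∪ DoubleCoset.doubleCoset n (P.B : Set G) P.B) ↔ ∃ s ∈ P.S, s⁻¹ * n ∈ P.B := by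
  constructor
  · rintro ⟨H, hH⟩
    have hB : P.B ≤ H := fun b hb => by
      rw [← SetLike.mem_coe, hH]; exact Or.inl hb
    have hnH : n ∈ H := by
      rw [← SetLike.mem_coe, hH]; exact Or.inr (DoubleCoset.mem_doubleCoset_self _ _ _)
    obtain ⟨l, hl, e⟩ := exists_reduced (weyl_gen (QuotientGroup.mk ⟨n, hn⟩ : Weyl P))
    have h1 := mem_of_reduced (l := l) (by rw [e, hl]) (x := n) (e ▸ cell_self ⟨n, hn⟩) hB
      fun b hb => H.mul_mem (H.mul_mem hnH (hB hb)) (H.inv_mem hnH)
    match l, e, h1 with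
    | [], e, _ =>
      rw [wp_nil, eq_comm, weyl_mk_eq_one_iff] at e
      exact absurd e hnB
    | s :: l, _, h1 =>
      have h2 := h1 s (by simp)
      rw [← SetLike.mem_coe, hH] at h2
      rcases h2 with h2 | h2
      · exact absurd h2 (notMem_B s)
      · have h3 : Cell P (QuotientGroup.mk ⟨n, hn⟩) s := cell_mk_iff_mem_doubleCoset.2 h2
        exact ⟨s, s.2, weyl_mk_eq_iff.1 ((cell_refl s).unique h3)⟩
  · rintro ⟨s, hs, h⟩
    have e : refl P ⟨s, hs⟩ = QuotientGroup.mk ⟨n, hn⟩ := weyl_mk_eq_iff.2 h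
    refine ⟨P.parabolic {s}, ?_⟩
    ext g
    rw [SetLike.mem_coe, mem_parabolic_iff (Set.singleton_subset_iff.2 hs), Set.mem_union,
      SetLike.mem_coe, ← cell_one_iff]
    have e2 : g ∈ DoubleCoset.doubleCoset n (P.B : Set G) P.B ↔ Cell P (refl P ⟨s, hs⟩) g := by
      rw [e, cell_mk_iff_mem_doubleCoset]
    rw [e2]
    constructor
    · rintro ⟨l, hl, h1⟩
      have : wp (refl P) l = 1 ∨ wp (refl P) l = refl P ⟨s, hs⟩ := by
        clear h1
        induction l with
        | nil => simp
        | cons t l ih =>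
          have ht : t = ⟨s, hs⟩ := Subtype.ext (hl t (by simp))
          rcases ih (fun u hu => hl u (by simp [hu])) with h2 | h2
          · right; rw [wp_cons, h2, ht, mul_one]
          · left; rw [wp_cons, h2, ht, refl_mul_self]
      rcases this with h2 | h2
      · left; rwa [h2] at h1
      · right; rwa [h2] at h1
    · rintro (h1 | h1)
      · exact ⟨[], by simp, h1⟩
      · exact ⟨[⟨s, hs⟩], by simp, by simpa using h1⟩

end Cfsg.Agent.S0321
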