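import Cfsg.Statements.S0323
import Cfsg.Prelude.Def_LieExceptional

set_option autoImplicit false
open scoped Pointwise
open Cfsg

namespace Cfsg.Agent.S0323

/-- A doubly transitive action on a set with at least three points yields a (B,N)-pair of rank one:
`B` is the stabiliser of a point `x`, `N` the setwise stabiliser of a pair `{x, y}`. -/
theorem result {G Ω : Type*} [Group G] [MulAction G Ω]
    (h2 : MulAction.IsMultiplyPretransitive G Ω 2) {x y z : Ω} (hxy : x ≠ y) (hyz : y ≠ z) (hxz : x ≠ z) :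
    ∃ P : Cfsg.BNPair G, P.B = MulAction.stabilizer G x ∧
      P.N = MulAction.stabilizer G ({x, y} : Set Ω) ∧ P.rank = 1 := by
  rw [MulAction.is_two_pretransitive_iff] at h2
  obtain ⟨s, hsx, hsy⟩ := h2 hxy hxy.symm
  have hN : ∀ g : G, g ∈ MulAction.stabilizer G ({x, y} : Set Ω) ↔
      (g • x = x ∧ g • y = y) ∨ (g • x = y ∧ g • y = x) := by
    intro g
    rw [MulAction.mem_stabilizer_iff, Set.smul_set_insert, Set.smul_set_singleton,
      Set.pair_eq_pair_iff]
  have hsN : s ∈ MulAction.stabilizer G ({x, y} : Set Ω) := (hN s).2 (Or.inr ⟨hsx, hsy⟩)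
  have hsinv : s⁻¹ • x = y := by rw [inv_smul_eq_iff, hsy]
  -- any two elements moving `x` lie in one double coset
  have hdc : ∀ g h : G, g • x ≠ x → h • x ≠ x →
      g ∈ DoubleCoset.doubleCoset h (MulAction.stabilizer G x : Set G) (MulAction.stabilizer G x) := by
    intro g h hg hh
    obtain ⟨b, hb1, hb2⟩ := h2 hh.symm hg.symm
    rw [DoubleCoset.mem_doubleCoset]
    refine ⟨b, hb1, h⁻¹ * b⁻¹ * g, ?_, by group⟩
    change (h⁻¹ * b⁻¹ * g) • x = x
    rw [mul_smul, mul_smul, ← hb2, inv_smul_smul, inv_smul_smul]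
  have hdc' : ∀ g h : G, g • x = x → h • x = x →
      g ∈ DoubleCoset.doubleCoset h (MulAction.stabilizer G x : Set G) (MulAction.stabilizer G x) := by
    intro g h hg hh
    rw [DoubleCoset.mem_doubleCoset]
    refine ⟨g * h⁻¹, ?_, 1, (MulAction.stabilizer G x).one_mem, by group⟩
    exact (MulAction.stabilizer G x).mul_mem hg ((MulAction.stabilizer G x).inv_mem hh)
  refine ⟨⟨MulAction.stabilizer G x, MulAction.stabilizer G ({x, y} : Set Ω), {s}, ?_, ?_, ?_, ?_,
    ?_, ?_, ?_, ?_⟩, rfl, rfl, ?_⟩
  · rw [eq_top_iff]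
    intro g _
    by_cases hg : g • x = x
    · exact Subgroup.mem_sup_left hg
    · have := hdc g s hg (by rw [hsx]; exact hxy.symm)
      rw [DoubleCoset.mem_doubleCoset] at this
      obtain ⟨b₁, hb₁, b₂, hb₂, rfl⟩ := this
      exact Subgroup.mul_mem _ (Subgroup.mul_mem _ (Subgroup.mem_sup_left hb₁)
        (Subgroup.mem_sup_right hsN)) (Subgroup.mem_sup_left hb₂)
  · intro n hn t ht
    have ht1 : t • x = x := ht.1
    have ht2 : t • y = y := by
      rcases (hN t).1 ht.2 with h | h
      · exact h.2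
      · exact absurd (ht1.symm.trans h.1) hxy
    change (n * t * n⁻¹) • x = x
    rw [mul_smul, mul_smul]
    rcases (hN _).1 ((MulAction.stabilizer G ({x, y} : Set Ω)).inv_mem hn) with h | h
    · rw [h.1, ht1, ← h.1, smul_inv_smul, h.1]
    · rw [h.1, ht2, ← h.1, smul_inv_smul]
  · rintro _ rfl
    exact hsN
  · rintro _ rfl
    change (_ * _ : G) • x = x
    rw [mul_smul, hsx, hsy]
  · rintro _ rfl _ rfl _
    rfl
  · apply le_antisymm
    · refine sup_le ?_ inf_le_right
      rw [Subgroup.closure_le, Set.singleton_subset_iff]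
      exact hsN
    · intro n hn
      rcases (hN n).1 hn with h | h
      · exact Subgroup.mem_sup_right ⟨h.1, hn⟩
      · have h1 : s⁻¹ * n ∈ MulAction.stabilizer G x ⊓ MulAction.stabilizer G ({x, y} : Set Ω) := by
          refine ⟨?_, Subgroup.mul_mem _ (Subgroup.inv_mem _ hsN) hn⟩
          change (s⁻¹ * n) • x = x
          rw [mul_smul, h.1, inv_smul_eq_iff, hsx]
        have := Subgroup.mul_mem _ (Subgroup.mem_sup_left (Subgroup.subset_closure
          (Set.mem_singleton s))) (Subgroup.mem_sup_right (S := Subgroup.closure {s}) h1)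
        simpa using this
  · rintro s' hs' n hn b hb
    rw [Set.mem_singleton_iff] at hs'
    subst hs'
    have hb' : b • x = x := hb
    rcases (hN n).1 hn with h | h
    · left
      apply hdc
      · rw [mul_smul, mul_smul, h.1, hb', hsx]; exact hxy.symm
      · rw [mul_smul, h.1, hsx]; exact hxy.symm
    · by_cases h1 : (s' * b * n) • x = x
      · left
        apply hdc' _ _ h1
        rw [mul_smul, h.1, hsy]
      · right
        apply hdc _ _ h1
        rw [h.1]; exact hxy.symm
  · rintro s' hs' heq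
    rw [Set.mem_singleton_iff] at hs'
    subst hs'
    obtain ⟨b, hb1, hb2⟩ := h2 hxy hxz
    have h1 : s' * b * s' ∈ (MulAction.stabilizer G x : Set G) := by
      rw [← heq]; exact ⟨b, hb1, rfl⟩
    have h3 : (s' * b * s') • x = x := h1
    rw [mul_smul, mul_smul, hsx, hb2, ← eq_inv_smul_iff, hsinv] at h3
    exact hyz h3.symm
  · simp [BNPair.rank]

end Cfsg.Agent.S0323
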