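import Cfsg.Statements.S0326


set_option autoImplicit false
open Cfsg

namespace Cfsg.Agent.S0326

set_option linter.style.haveILetI false

/-- The Suzuki–Tits ovoid over a finite field with `q` elements has `q² + 1` points. -/
theorem result {F : Type*} [Field F] [Fintype F] (m : ℕ) :
    Nat.card (Cfsg.suzukiOvoid F m) = Fintype.card F ^ 2 + 1 := by
  classical
  let v : Option (F × F) → (Fin 4 → F) := fun o => match o with
    | none => ![1, 0, 0, 0]
    | some (x, y) => ![x * y + x ^ (2 ^ (m + 1) + 2) + y ^ (2 ^ (m + 1)), y, x, 1]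
  have hv : ∀ o, v o ≠ 0 := by
    rintro (_ | ⟨x, y⟩) h
    · have := congrFun h 0; simp [v] at this
    · have := congrFun h 3; simp [v] at this
  have : Nat.card (Option (F × F)) = Nat.card (Cfsg.suzukiOvoid F m) := by
    refine Nat.card_eq_of_bijective (fun o => ⟨Projectivization.mk F (v o) (hv o), v o, hv o, rfl, ?_⟩)
      ⟨?_, ?_⟩
    · rcases o with _ | ⟨x, y⟩
      · exact Or.inl rfl
      · exact Or.inr ⟨x, y, rfl⟩
    · intro o o' h
      obtain ⟨a, ha⟩ := (Projectivization.mk_eq_mk_iff F _ _ _ _).1 (congrArg Subtype.val h)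
      have h3 := congrFun ha 3
      have h2 := congrFun ha 2
      have h1 := congrFun ha 1
      rcases o with _ | ⟨x, y⟩ <;> rcases o' with _ | ⟨x', y'⟩ <;>
        simp [v, Units.smul_def] at h1 h2 h3 ⊢
      simp [h3] at h1 h2
      exact ⟨h2.symm, h1.symm⟩
    · rintro ⟨_, w, hw, rfl, rfl | ⟨x, y, rfl⟩⟩
      · exact ⟨none, rfl⟩
      · exact ⟨some (x, y), rfl⟩
  rw [← this, Finite.card_option, Nat.card_prod, Nat.card_eq_fintype_card, sq]

end Cfsg.Agent.S0326
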