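import Cfsg.Statements.S0327
import Cfsg.Agent.H13.SzInst
import Cfsg.Agent.H13.SzGroup

set_option autoImplicit false
open Cfsg

namespace Cfsg.Agent.S0327

open Cfsg.Agent.H13
set_option linter.style.haveILetI false

/-- The Suzuki group (`m ≥ 1`) is a Zassenhaus group on the `q² + 1` points of the Suzuki–Tits ovoid. -/
theorem result {F : Type*} [Field F] [Fintype F] {m : ℕ} (hm : 1 ≤ m)
    (hF : Fintype.card F = 2 ^ (2 * m + 1)) :
    Cfsg.IsZassenhausGroup (Cfsg.Sz F m) (Cfsg.suzukiOvoid F m) := by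
  letI := titsOfCard hF
  have hy := exists_sq_ne (two_lt_card hm hF)
  have hθ := titsOfCard_θ hF
  let M := ovoidModel hθ hy
  let e : M.Ω → Cfsg.suzukiOvoid F m := fun o => ⟨ptP o, (mem_ovoid_iff hθ _).2 ⟨o, rfl⟩⟩
  have einj : Function.Injective e := fun a b h => ptP_inj (congrArg Subtype.val h)
  have esurj : Function.Surjective e := by
    rintro ⟨p, hp⟩
    obtain ⟨o, rfl⟩ := (mem_ovoid_iff hθ _).1 hp
    exact ⟨o, rfl⟩
  have esmul : ∀ (g : Cfsg.Sz F m) (o : M.Ω), g • e o = e (g • o) := fun g o =>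
    Subtype.ext (ovoidModel_smul hθ hy g o)
  obtain ⟨s, hs⟩ := exists_unit_ne_one hy
  refine ⟨⟨fun {g g'} h => ?_⟩, ?_, ?_, ?_, ?_⟩
  · apply M.ΩFaithful.eq_of_smul_eq_smul
    intro o
    apply einj
    rw [← esmul, ← esmul, h]
  · rw [MulAction.is_two_pretransitive_iff]
    intro a b c d hab hcd
    obtain ⟨a, rfl⟩ := esurj a
    obtain ⟨b, rfl⟩ := esurj b
    obtain ⟨c, rfl⟩ := esurj c
    obtain ⟨d, rfl⟩ := esurj d
    obtain ⟨g, h1, h2⟩ := M.two_trans (einj.ne_iff.1 hab) (einj.ne_iff.1 hcd)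
    exact ⟨g, by rw [esmul, h1], by rw [esmul, h2]⟩
  · intro g a b c hab hbc hac ha hb hc
    obtain ⟨a, rfl⟩ := esurj a
    obtain ⟨b, rfl⟩ := esurj b
    obtain ⟨c, rfl⟩ := esurj c
    rw [esmul] at ha hb hc
    exact M.eq_one_of_fix_three (einj.ne_iff.1 hab) (einj.ne_iff.1 hbc) (einj.ne_iff.1 hac)
      (einj ha) (einj hb) (einj hc)
  · exact ⟨M.h s, by rwa [Ne, M.h_eq_one], e M.inf, e (M.P 0 0), einj.ne (M.inf_ne_P _ _),
      by rw [esmul, M.h_smul_inf], by rw [esmul, M.h_smul_zero]⟩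
  · intro N hN htr
    rcases (M.isSimpleGroup hy).eq_bot_or_eq_top_of_normal N hN with rfl | rfl
    · obtain ⟨⟨g, hg⟩, h⟩ := htr.exists_smul_eq (e M.inf) (e (M.P 0 0))
      rw [Subgroup.mem_bot] at hg
      subst hg
      exact absurd (einj ((one_smul (Cfsg.Sz F m) _).symm.trans h)) (M.inf_ne_P _ _)
    · refine ⟨e M.inf, fun h => ?_⟩
      have : (⟨M.u 1 0, Subgroup.mem_top _⟩ : (⊤ : Subgroup (Cfsg.Sz F m))) ∈
          MulAction.stabilizer (⊤ : Subgroup (Cfsg.Sz F m)) (e M.inf) := by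
        rw [MulAction.mem_stabilizer_iff, Subgroup.mk_smul, esmul, M.u_smul_inf]
      rw [h, Subgroup.mem_bot] at this
      exact M.u_one_zero_ne_one (congrArg Subtype.val this)

end Cfsg.Agent.S0327
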