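import Cfsg.Statements.S0328
import Cfsg.Agent.H13.SzInst
import Cfsg.Agent.H13.SzGroup

set_option autoImplicit false
open Cfsg

namespace Cfsg.Agent.S0328

open Cfsg.Agent.H13
set_option linter.style.haveILetI false

/-- The stabiliser in the Suzuki group of the two ovoid points spanned by `(1,0,0,0)` and `(0,0,0,1)` is
isomorphic to the multiplicative group of the field (cyclic of order `q - 1`). -/
theorem result {F : Type*} [Field F] [Fintype F] {m : ℕ} (hm : 1 ≤ m)
    (hF : Fintype.card F = 2 ^ (2 * m + 1)) :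
    Nonempty (↥(MulAction.stabilizer (Cfsg.Sz F m) (Cfsg.suzukiPointInfinity F) ⊓
        MulAction.stabilizer (Cfsg.Sz F m) (Cfsg.suzukiPointZero F)) ≃* Fˣ) := by
  letI := titsOfCard hF
  have hy := exists_sq_ne (two_lt_card hm hF)
  let M := ovoidModel (titsOfCard_θ hF) hy
  have h := ovoidModel_fix_iff (titsOfCard_θ hF) hy M.inf
  have h' := ovoidModel_fix_iff (titsOfCard_θ hF) hy (M.P 0 0)
  have e0 : Cfsg.suzukiPointZero F = ptP (M.P 0 0) := by
    simp [Cfsg.suzukiPointZero, ptP, Model.P, pt]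
  have e : MulAction.stabilizer (Cfsg.Sz F m) (Cfsg.suzukiPointInfinity F) ⊓
      MulAction.stabilizer (Cfsg.Sz F m) (Cfsg.suzukiPointZero F) = M.H := by
    rw [M.H_eq_inf, ← h, ← h', e0]; rfl
  exact ⟨(MulEquiv.subgroupCongr e).trans (MonoidHom.ofInjective M.hHom_injective).symm⟩

end Cfsg.Agent.S0328
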