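import Cfsg.Statements.S0331
import Cfsg.Agent.H13.SzPart

set_option autoImplicit false
open Cfsg

namespace Cfsg.Agent.S0331

open Cfsg.Agent.H13
set_option linter.style.haveILetI false

/-- For every odd prime `p` the Sylow `p`-subgroups of the Suzuki group are cyclic. -/
theorem result {F : Type*} [Field F] [Fintype F] {m : ℕ} (hm : 1 ≤ m)
    (hF : Fintype.card F = 2 ^ (2 * m + 1)) {p : ℕ} [Fact p.Prime] (hp : p ≠ 2)
    (P : Sylow p (Cfsg.Sz F m)) : IsCyclic P := by
  letI := titsOfCard hF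
  have Q := par_of_card hm hF
  set M := ovoidModel (titsOfCard_θ hF) Q.hy
  haveI := M.finite
  have key : ∀ K : Subgroup (Cfsg.Sz F m), IsCyclic K → ¬ p ∣ K.index → IsCyclic P := by
    intro K hK hi
    obtain ⟨g, hg⟩ := exists_conj_mem_of_not_dvd_index hi P.isPGroup'
    let f : P →* K :=
      { toFun := fun x => ⟨g * x * g⁻¹, hg _ x.2⟩
        map_one' := by simp
        map_mul' := fun x y => Subtype.ext (by simp) }
    exact isCyclic_of_injective f (fun x y h => by simpa [f] using h)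
  have hH : Nat.card M.H = 2 ^ (2 * m + 1) - 1 := by rw [M.card_H, Q.card]
  by_cases hd : p ∣ Nat.card (Cfsg.Sz F m)
  · obtain ⟨Ap, _, cp, Tp⟩ := M.exists_torus Q (Or.inl rfl)
    obtain ⟨Am, _, cm, Tm⟩ := M.exists_torus Q (Or.inr rfl)
    rcases M.prime_dvd_cases Q Fact.out hd with h | h | h | h
    · exact absurd h hp
    · exact key _ M.isCyclic_H (M.not_dvd_index Q (Or.inl hH) Fact.out (hH ▸ h))
    · exact key _ Tp.isCyclic (M.not_dvd_index Q (Or.inr (Or.inl Tp.card)) Fact.out (Tp.card ▸ h))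
    · exact key _ Tm.isCyclic (M.not_dvd_index Q (Or.inr (Or.inr Tm.card)) Fact.out (Tm.card ▸ h))
  · exact key ⊥ inferInstance (by rwa [Subgroup.index_bot])

end Cfsg.Agent.S0331
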