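import Cfsg.Statements.S0332
import Cfsg.Agent.H13.SzPart

set_option autoImplicit false
open Cfsg

namespace Cfsg.Agent.S0332

open Cfsg.Agent.H13
set_option linter.style.haveILetI false

/-- The Suzuki group is a CN-group: every non-identity element has nilpotent centraliser. -/
theorem result {F : Type*} [Field F] [Fintype F] {m : ℕ} (hm : 1 ≤ m)
    (hF : Fintype.card F = 2 ^ (2 * m + 1)) : Cfsg.IsCNGroup (Cfsg.Sz F m) := by
  letI := titsOfCard hF
  have Q := par_of_card hm hF
  set M := ovoidModel (titsOfCard_θ hF) Q.hy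
  haveI := M.finite
  haveI : Fact (Nat.Prime 2) := ⟨Nat.prime_two⟩
  intro g hg
  rcases M.classify' Q g with ⟨k, hk⟩ | ⟨K, hK, hc, -, hgK⟩
  · refine IsPGroup.isNilpotent (p := 2) ((M.conj k).isPGroup_U.to_le fun x hx => ?_)
    exact (M.conj k).mem_U_of_commute hk hg (Subgroup.mem_centralizer_singleton_iff.1 hx)
  · rw [hK g hgK hg]
    letI := hc.commGroup
    infer_instance

end Cfsg.Agent.S0332
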