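import Cfsg.Statements.S0335
import Cfsg.Agent.H13.SzInst
import Cfsg.Agent.H13.SzGroup

set_option autoImplicit false
open Cfsg

namespace Cfsg.Agent.S0335

open Cfsg.Agent.H13
set_option linter.style.haveILetI false

/-- The Suzuki–Tits point set is an ovoid: any three distinct points of it are projectively independent
(no line of projective 3-space meets it in more than two points). -/
theorem result {F : Type*} [Field F] [Fintype F] {m : ℕ} (hm : 1 ≤ m)
    (hF : Fintype.card F = 2 ^ (2 * m + 1)) (p : Fin 3 ↪ Cfsg.suzukiOvoid F m) :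
    Projectivization.Independent (fun i => (p i : Projectivization F (Fin 4 → F))) := by
  letI := titsOfCard hF
  have hy := exists_sq_ne (two_lt_card hm hF)
  have hθ := titsOfCard_θ hF
  let M := ovoidModel hθ hy
  have hex : ∀ i, ∃ o : M.Ω, (p i : Projectivization F (Fin 4 → F)) = ptP o :=
    fun i => (mem_ovoid_iff hθ _).1 (p i).2
  choose o ho using hex
  have hinj : ∀ i j, i ≠ j → (o i : M.Ω) ≠ o j := by
    intro i j hij h
    exact hij (p.injective (Subtype.ext (by rw [ho, ho, h])))
  have : (fun i => (p i : Projectivization F (Fin 4 → F))) =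
      fun i => Projectivization.mk F (pt (o i)) (pt_ne_zero _) := by
    ext i; rw [ho]; rfl
  rw [this]
  refine Projectivization.Independent.mk _ _ ?_
  obtain ⟨g, h0, h1⟩ := M.two_trans (hinj 0 1 (by decide)) (M.inf_ne_P 0 0)
  have h2 : g • (o 2 : M.Ω) ≠ M.inf := by
    rw [← h0]; exact fun h => hinj 2 0 (by decide) (MulAction.injective g h)
  obtain ⟨x, y, h2⟩ := M.exists_P h2
  have hxy : ¬ (x = 0 ∧ y = 0) := by
    rintro ⟨rfl, rfl⟩
    exact hinj 2 1 (by decide) (MulAction.injective g (h2.trans h1.symm))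
  obtain ⟨c0, hc0, e0⟩ := M.smul_spec g (o 0)
  obtain ⟨c1, hc1, e1⟩ := M.smul_spec g (o 1)
  obtain ⟨c2, hc2, e2⟩ := M.smul_spec g (o 2)
  rw [h0] at e0
  rw [h1] at e1
  rw [h2] at e2
  rw [Fintype.linearIndependent_iff]
  intro a ha
  have hb := congrArg (M.ρ g).mulVec ha
  rw [Fin.sum_univ_three, Matrix.mulVec_add, Matrix.mulVec_add, Matrix.mulVec_smul,
    Matrix.mulVec_smul, Matrix.mulVec_smul, e0, e1, e2, Matrix.mulVec_zero] at hb
  have b0 := congrFun hb 0
  have b1 := congrFun hb 1
  have b2 := congrFun hb 2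
  have b3 := congrFun hb 3
  simp [Model.inf, Model.P, pt, hc0, hc1, hc2] at b0 b1 b2 b3
  have a2 : a 2 = 0 := by tauto
  simp [a2, hc0, hc1] at b0 b3
  intro i; fin_cases i <;> simp [*]

end Cfsg.Agent.S0335
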