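import Cfsg.Statements.S0341
import Cfsg.Agent.H12.ZassNormal
import Cfsg.Agent.S1545

set_option autoImplicit false
open Cfsg

namespace Cfsg.Agent.S0341

open Cfsg.Agent.H12 MulAction
open scoped Pointwise


/-- If a finite group acts faithfully and doubly transitively, no non-identity element fixes three points, some
non-identity element fixes two points, and some normal subgroup acts regularly, then the number of points
is `2^p` with `p` prime. -/
theorem result {G Ω : Type*} [Group G]
    [MulAction G Ω] [Fintype Ω] [FaithfulSMul G Ω] (h2 : MulAction.IsMultiplyPretransitive G Ω 2)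
    (h3 : ∀ g : G, ∀ a b c : Ω, a ≠ b → b ≠ c → a ≠ c → g • a = a → g • b = b → g • c = c → g = 1)
    (hfix : ∃ g : G, g ≠ 1 ∧ ∃ a b : Ω, a ≠ b ∧ g • a = a ∧ g • b = b)
    (N : Subgroup G) [N.Normal] (hNt : MulAction.IsPretransitive N Ω)
    (hNr : ∀ a : Ω, MulAction.stabilizer N a = ⊥) :
    ∃ p : ℕ, p.Prime ∧ Fintype.card Ω = 2 ^ p := by
  have hT : ZT G Ω :=
    { faithful := fun g hg => FaithfulSMul.eq_of_smul_eq_smul (α := Ω) (by simpa using hg)
      two := fun h h' => is_two_pretransitive_iff.1 h2 h h'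
      three := fun g _ _ _ => h3 g _ _ _ }
  have := hT.finite_group
  have hNn : N.Normal := inferInstance
  obtain ⟨g₀, hg₀, a, b, hab, hg₀a, hg₀b⟩ := id hfix
  obtain ⟨c, hca, hcb⟩ := zass_exists_third hT hfix hab
  have hreg : ∀ x ∈ N, x • a = a → x = 1 := by
    intro x hx h
    have : (⟨x, hx⟩ : N) ∈ stabilizer N a := h
    rw [hNr a, Subgroup.mem_bot] at this
    exact congrArg Subtype.val this
  have huniq : ∀ x ∈ N, ∀ y ∈ N, x • a = y • a → x = y := by
    intro x hx y hy e
    have := hreg (y⁻¹ * x) (N.mul_mem (N.inv_mem hy) hx) (by rw [mul_smul, e, inv_smul_smul])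
    exact (inv_mul_eq_one.1 this).symm
  have hconj : ∀ x ∈ N, ∀ y ∈ N, x ≠ 1 → y ≠ 1 → ∃ g : G, g * x * g⁻¹ = y := by
    intro x hx y hy hx1 hy1
    obtain ⟨g, -, -, e⟩ := conj_of_regular_normal (M := ⊤) (R := N)
      (fun h h' => by
        obtain ⟨g, hg⟩ := hT.two h h'
        exact ⟨g, trivial, hg⟩) (fun g _ r hr => hNn.conj_mem r hr g) a hreg hx hy hx1 hy1
    exact ⟨g, e⟩
  obtain ⟨hcomm, -⟩ := comm_of_conj_trans (R := N) (fun x hx y hy hx1 hy1 => by
    obtain ⟨g, e⟩ := hconj x hx y hy hx1 hy1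
    exact ⟨g, fun r hr => by simpa using hNn.conj_mem r hr g⁻¹, e⟩)
  have hcardN : Nat.card N = Fintype.card Ω := by
    have := index_stabilizer_of_transitive N a
    rwa [hNr a, Subgroup.index_bot, Nat.card_eq_fintype_card (α := Ω)] at this
  -- an element of prime order fixing `a` and `b`
  obtain ⟨r, hr, hrd⟩ := Nat.exists_prime_and_dvd (n := orderOf g₀) (by rwa [Ne, orderOf_eq_one_iff])
  set h := g₀ ^ (orderOf g₀ / r) with hh
  have hord : orderOf h = r := orderOf_pow_orderOf_div (orderOf_pos g₀).ne' hrd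
  have hh1 : h ≠ 1 := by
    intro e; rw [e, orderOf_one] at hord; exact hr.one_lt.ne hord
  have hha : h • a = a := (stabilizer G a).pow_mem hg₀a _
  have hhb : h • b = b := (stabilizer G b).pow_mem hg₀b _
  obtain ⟨⟨x, hxN⟩, hxa⟩ := hNt.exists_smul_eq a b
  replace hxa : x • a = b := hxa
  have hx1 : x ≠ 1 := by rintro rfl; exact hab (by simpa using hxa)
  have hcent : ∀ y ∈ N, h * y = y * h ↔ y = 1 ∨ y = x := by
    intro y hy
    constructor
    · intro e
      have h1 : h • y • a = y • a := by rw [← mul_smul, e, mul_smul, hha]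
      rcases hT.fix_eq hh1 hab hha hhb h1 with h4 | h4
      · exact Or.inl (hreg y hy h4)
      · exact Or.inr (huniq y hy x hxN (h4.trans hxa.symm))
    · rintro (rfl | rfl)
      · simp
      · have := huniq (h * y * h⁻¹) (hNn.conj_mem y hy h) y hy (by
          rw [mul_smul, mul_smul, inv_smul_eq_iff.2 hha.symm, hxa, hhb])
        calc h * y = (h * y * h⁻¹) * h := by group
          _ = _ := by rw [this]
  have hx2 : x * x = 1 := by
    have h1 := (hcent x hxN).2 (Or.inr rfl)
    rcases (hcent (x * x) (N.mul_mem hxN hxN)).1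
      (by rw [← mul_assoc, h1, mul_assoc, h1, mul_assoc]) with h4 | h4
    · exact h4
    · exact absurd (by simpa using h4) hx1
  have hsq : ∀ y ∈ N, y * y = 1 := by
    intro y hy
    by_cases hy1 : y = 1
    · simp [hy1]
    · obtain ⟨g, rfl⟩ := hconj x hxN y hy hx1 hy1
      calc g * x * g⁻¹ * (g * x * g⁻¹) = g * (x * x) * g⁻¹ := by group
        _ = 1 := by rw [hx2]; group
  have hN2 : IsPGroup 2 N := fun y => ⟨1, Subtype.ext (by simpa [pow_two] using hsq y y.2)⟩
  have : Fact (Nat.Prime 2) := ⟨Nat.prime_two⟩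
  obtain ⟨k, hk⟩ := IsPGroup.iff_card.1 hN2
  have hcardC : Nat.card ↥(N ⊓ Subgroup.centralizer {h}) = 2 := by
    rw [Nat.card_eq_two_iff]
    refine ⟨1, ⟨x, hxN, ?_⟩, fun e => hx1 (congrArg Subtype.val e).symm, ?_⟩
    · exact Subgroup.mem_centralizer_singleton_iff.2 ((hcent x hxN).2 (Or.inr rfl)).symm
    · ext ⟨y, hy, hy'⟩
      simpa [Subtype.ext_iff] using
        (hcent y hy).1 (Subgroup.mem_centralizer_singleton_iff.1 hy').symm
  have h3le : 3 ≤ Fintype.card Ω := by
    have := Fintype.two_lt_card_iff.2 ⟨a, b, c, hab, hca.symm, hcb.symm⟩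
    omega
  rcases hr.eq_two_or_odd' with hr2 | hrodd
  · -- `h` is an involution
    refine ⟨2, Nat.prime_two, ?_⟩
    have hh2 : h * h = 1 := by rw [← pow_two, ← hr2, ← hord, pow_orderOf_eq_one]
    have hhi : h⁻¹ = h := inv_eq_of_mul_eq_one_right hh2
    let φ : N →* N := MonoidHom.mk' (fun y => ⟨y * (h * y * h⁻¹), N.mul_mem y.2 (hNn.conj_mem _ y.2 h)⟩)
      (fun y z => Subtype.ext (by
        have := hcomm _ z.2 _ (hNn.conj_mem _ y.2 h)
        simp only [Subgroup.coe_mul]
        calc (y : G) * z * (h * (y * z) * h⁻¹) = y * (z * (h * y * h⁻¹)) * (h * z * h⁻¹) := by group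
          _ = _ := by rw [this]; group))
    have hφ : ∀ y : N, (φ y : G) = y * (h * y * h⁻¹) := fun y => rfl
    have hle : ∀ K : Subgroup N, (∀ y ∈ K, h * (y : G) = y * h) → Nat.card K ≤ 2 := by
      intro K hK
      rw [← hcardC]
      refine Nat.card_le_card_of_injective (fun y => ⟨(y : N), (y : N).2, ?_⟩) ?_
      · exact Subgroup.mem_centralizer_singleton_iff.2 (hK y y.2).symm
      · intro y z e
        exact Subtype.ext (Subtype.ext (Subtype.mk.inj e))
    have h1 := hle φ.ker (fun y hy => by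
      have e : (φ y : G) = 1 := congrArg Subtype.val (MonoidHom.mem_ker.1 hy)
      rw [hφ] at e
      have e2 : h * y * h⁻¹ = y := by
        rw [← inv_eq_of_mul_eq_one_right e, inv_eq_of_mul_eq_one_right (hsq y y.2)]
      calc h * y = (h * y * h⁻¹) * h := by group
        _ = _ := by rw [e2])
    have h4 := hle φ.range (by
      rintro _ ⟨y, rfl⟩
      rw [hφ, hcomm _ y.2 _ (hNn.conj_mem _ y.2 h)]
      have := hcomm _ y.2 _ (hNn.conj_mem _ y.2 h)
      rw [hhi] at this ⊢
      calc h * (h * y * h * y) = (h * h) * y * h * y := by simp only [mul_assoc]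
        _ = y * h * y * (h * h) := by rw [hh2, one_mul, mul_one]
        _ = (y * (h * y * h)) * h := by simp only [mul_assoc]
        _ = _ := by rw [this])
    have h5 : Nat.card N = Nat.card φ.range * Nat.card φ.ker := by
      rw [Subgroup.card_eq_card_quotient_mul_card_subgroup φ.ker,
        Nat.card_congr (QuotientGroup.quotientKerEquivRange φ).toEquiv]
    have h6 : Nat.card N ≤ 4 := by rw [h5]; exact Nat.mul_le_mul h4 h1
    rw [← hcardN] at h3le ⊢
    rw [hk] at h3le h6 ⊢
    match k, h3le, h6 with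
    | 0, h, _ => simp at h
    | 1, h, _ => simp at h
    | 2, _, _ => rfl
    | k + 3, _, h => rw [pow_add] at h; have := Nat.one_le_two_pow (n := k); omega
  · refine ⟨r, hr, ?_⟩
    have hE : Nat.card (Subgroup.zpowers h) = r := by rw [Nat.card_zpowers, hord]
    have hEfix : ∀ e ∈ Subgroup.zpowers h, e • a = a ∧ e • b = b := fun e he =>
      ⟨Subgroup.zpowers_le.2 (show h ∈ stabilizer G a from hha) he,
       Subgroup.zpowers_le.2 (show h ∈ stabilizer G b from hhb) he⟩
    obtain ⟨u, hu, hub⟩ := hT.ker_trans hab.symm hca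
    have hu1 : u ≠ 1 := by rintro rfl; exact hcb (by simpa using hub.symm)
    have hle : zker G a ⊔ Subgroup.zpowers h ≤ stabilizer G a :=
      sup_le (hT.ker_le a) fun e he => (hEfix e he).1
    have hcardU := hT.card_ker (a := a) hab.symm
    rw [Nat.card_eq_fintype_card (α := Ω), ← hcardN, hk] at hcardU
    have hk0 : k ≠ 0 := by
      rintro rfl
      rw [← hcardN, hk] at h3le
      simp at h3le
    have hUodd : ¬ 2 ∣ Nat.card (zker G a) := by
      intro h2
      have : 2 ∣ 2 ^ k := dvd_pow_self 2 hk0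
      rw [← hcardU] at this
      omega
    have hUE : zker G a ⊓ Subgroup.zpowers h = ⊥ := by
      rw [eq_bot_iff]
      intro y hy
      exact hT.ker_eq_one hy.1 hab.symm (hEfix y hy.2).2
    have hcop : ¬ 2 ∣ Nat.card ↥(zker G a ⊔ Subgroup.zpowers h) := by
      intro h2
      obtain ⟨y, hy⟩ := exists_prime_orderOf_dvd_card' 2 h2
      have hy' : orderOf (y : G) = 2 := by rw [Subgroup.orderOf_coe, hy]
      have hy2 := y.2
      rw [← SetLike.mem_coe, Subgroup.coe_mul_of_right_le_normalizer_left _ _ (fun e he => by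
        rw [Subgroup.mem_normalizer_iff]
        intro v
        exact ⟨fun hv => hT.conj_mem_ker' hv (hEfix e he).1,
          fun hv => by simpa [mul_assoc] using hT.conj_mem_ker'' hv (hEfix e he).1⟩)] at hy2
      obtain ⟨v, hv, e, he, hve⟩ := hy2
      have hyy : (y : G) * y = 1 := by rw [← pow_two, ← hy', pow_orderOf_eq_one]
      have hee : e * e ∈ zker G a ⊓ Subgroup.zpowers h := by
        refine ⟨?_, Subgroup.mul_mem _ he he⟩
        have e2 : v * (e * v * e⁻¹) * (e * e) = 1 := by
          rw [← hyy, ← hve]; group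
        have e3 : e * e = (v * (e * v * e⁻¹))⁻¹ := (inv_eq_of_mul_eq_one_right e2).symm
        rw [e3]
        exact Subgroup.inv_mem _ (Subgroup.mul_mem _ hv (hT.conj_mem_ker' hv (hEfix e he).1))
      rw [hUE, Subgroup.mem_bot] at hee
      have he1 : e = 1 := by
        have h4 : orderOf e ∣ 2 := orderOf_dvd_of_pow_eq_one (by rw [pow_two, hee])
        have h5 : orderOf e ∣ r := hE ▸ Subgroup.orderOf_dvd_natCard _ he
        have h6 := Nat.dvd_gcd h4 h5
        rw [Nat.Coprime.gcd_eq_one (Nat.coprime_two_left.2 hrodd), Nat.dvd_one] at h6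
        exact orderOf_eq_one_iff.1 h6
      apply hUodd
      rw [← hy']
      apply Subgroup.orderOf_dvd_natCard
      rw [← hve, he1]
      simpa using hv
    have hCU : ∀ K : Subgroup G, zker G a ≤ K → N ⊓ Subgroup.centralizer (K : Set G) = ⊥ := by
      intro K hK
      rw [eq_bot_iff]
      rintro y ⟨hy, hy'⟩
      have := hT.mem_ker_of_commute hu hu1 (hy' u (hK hu)).symm
      exact hreg y hy (hT.ker_fix this)
    have key := Cfsg.Agent.S1545.result (zker G a) (Subgroup.zpowers h) N
      (Subgroup.ne_bot_iff_exists_ne_one.2 ⟨⟨u, hu⟩, fun e => hu1 (congrArg Subtype.val e)⟩)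
      (by simpa using hh1) hUE (fun e he v hv => hT.conj_mem_ker' hv (hEfix e he).1)
      (fun e he he1 v hv hc => hT.ker_eq_one_of_commute hab.symm hv he1 (hEfix e he).2 hc)
      (fun y _ z hz => hNn.conj_mem z hz y)
      (by
        rw [eq_bot_iff]
        intro y hy
        exact hreg y hy.1 (hle hy.2))
      (Group.isSolvable_of_comm fun y z => Subtype.ext (hcomm _ y.2 _ z.2))
      (by
        rw [hk]
        exact Nat.Coprime.pow_left _ ((Nat.Prime.coprime_iff_not_dvd Nat.prime_two).2 hcop))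
    rw [hCU _ le_sup_left, hCU _ le_rfl, Subgroup.card_bot, hE, one_pow, one_mul, mul_one,
      Subgroup.zpowers_eq_closure, Subgroup.centralizer_closure, hcardC] at key
    rw [← hcardN, key]

end Cfsg.Agent.S0341
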