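import Cfsg.Statements.S0384
import Cfsg.Agent.H14.MathieuIso

set_option autoImplicit false
open scoped Pointwise
open Cfsg

namespace Cfsg.Agent.S0384

/-- A dodecad stabiliser is sharply 5-transitive on the dodecad. -/
theorem result (d : Finset Cfsg.GolayPt) (hd : d ∈ Cfsg.dodecads) (x y : Fin 5 ↪ Cfsg.GolayPt) (hx : ∀ i, x i ∈ d) (hy : ∀ i, y i ∈ d) : ∃! g : MulAction.stabilizer Cfsg.M24 d, ∀ i, ((g : Cfsg.M24) : Equiv.Perm Cfsg.GolayPt) (x i) = y i := by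
  obtain ⟨c, hc, e0⟩ := H14.exists_smul_eq_squareDodecad hd
  have hm : ∀ a ∈ d, c a ∈ Spor.squareDodecad := fun a ha => by
    rw [← e0]; exact H14.apply_mem_perm_smul_finset.2 ha
  have hconj : ∀ g ∈ Cfsg.M24, (c * g * c⁻¹ ∈ Spor.M12 ↔ g • d = d) := fun g hg => by
    rw [Spor.M12, Subgroup.mem_inf, H14.conj_mem_iff hc, ← e0, H14.conj_mem_stab_iff]
    exact and_iff_right hg
  obtain ⟨g, hg, e⟩ := H14.m12_exists_apply_eq le_rfl (fun i => c (x i)) (fun i => c (y i))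
    (c.injective.comp x.injective) (c.injective.comp y.injective) (fun i => hm _ (hx i))
    (fun i => hm _ (hy i))
  have hg1 : c⁻¹ * g * c ∈ Cfsg.M24 := M24.mul_mem (M24.mul_mem (M24.inv_mem hc) hg.1) hc
  have key : ∀ g g' : MulAction.stabilizer Cfsg.M24 d,
      (∀ i, ((g : Cfsg.M24) : Equiv.Perm Cfsg.GolayPt) (x i) = y i) →
      (∀ i, ((g' : Cfsg.M24) : Equiv.Perm Cfsg.GolayPt) (x i) = y i) → g = g' := by
    intro g g' h h'
    have h1 := (hconj _ (g'⁻¹ * g).1.2).2 (g'⁻¹ * g).2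
    have h2 := H14.m12_eq_one_of_fix h1 (fun i => c (x i)) (c.injective.comp x.injective)
      (fun i => hm _ (hx i)) (fun i => (H14.conj_smul_eq_iff c _ (x i)).2 (by
        show ((g' : Cfsg.M24) : Equiv.Perm Cfsg.GolayPt)⁻¹ (((g : Cfsg.M24) : Equiv.Perm _) (x i)) = _
        rw [h, ← h', Equiv.Perm.inv_eq_iff_eq]))
    rw [conj_eq_one_iff] at h2
    rw [eq_comm, ← inv_mul_eq_one]
    exact Subtype.ext (Subtype.ext h2)
  refine ⟨⟨⟨_, hg1⟩, (hconj _ hg1).1 (by simpa [mul_assoc] using hg)⟩, fun i => ?_,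
    fun g' hg' => key _ _ hg' fun i => ?_⟩ <;>
  · show c⁻¹ (g (c (x i))) = y i
    rw [e, Equiv.Perm.inv_eq_iff_eq]

end Cfsg.Agent.S0384
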