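import Cfsg.Statements.S0385
import Cfsg.Agent.H14.GolayFacts

set_option autoImplicit false
open Cfsg

namespace Cfsg.Agent.S0385

/-- The 6-point intersections of octads with a fixed dodecad form a Steiner system S(5, 6, 12) on the dodecad. -/
theorem result (d : Finset Cfsg.GolayPt) (hd : d ∈ Cfsg.dodecads) : Cfsg.IsSteinerSystem 5 6 {h : Finset {p : Cfsg.GolayPt // p ∈ d} | ∃ o ∈ Cfsg.octads, (o ∩ d).card = 6 ∧ h = Finset.subtype (fun p => p ∈ d) o} := by
  refine ⟨?_, fun s hs => ?_⟩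
  · rintro _ ⟨o, -, h6, rfl⟩
    rw [Finset.card_subtype, Finset.filter_mem_eq_inter, h6]
  · obtain ⟨o, ⟨ho, hso⟩, huniq⟩ := H14.octads_steiner.2 (s.map (Function.Embedding.subtype _))
      (by rw [Finset.card_map, hs])
    refine ⟨Finset.subtype (fun p => p ∈ d) o, ⟨⟨o, ho, ?_, rfl⟩, fun a ha => ?_⟩, ?_⟩
    · have h1 := H14.octad_inter_dodecad_card ho hd
      have h2 : (s.map (Function.Embedding.subtype _)).card ≤ (o ∩ d).card :=
        Finset.card_le_card (Finset.subset_inter hso fun a ha => by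
          obtain ⟨b, -, rfl⟩ := Finset.mem_map.1 ha
          exact b.2)
      rw [Finset.card_map, hs] at h2
      omega
    · exact Finset.mem_subtype.2 (hso (Finset.mem_map_of_mem _ ha))
    · rintro _ ⟨⟨o', ho', -, rfl⟩, hs'⟩
      rw [huniq o' ⟨ho', fun a ha => ?_⟩]
      obtain ⟨b, hb, rfl⟩ := Finset.mem_map.1 ha
      exact Finset.mem_subtype.1 (hs' hb)

end Cfsg.Agent.S0385
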