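import Cfsg.Statements.S0386
import Cfsg.Agent.H14.Mathieu

set_option autoImplicit false
open Cfsg

namespace Cfsg.Agent.S0386

open scoped Pointwise in
theorem aux (d : Finset Cfsg.GolayPt) (hd : d ∈ Cfsg.dodecads) (k : ℕ) :
    {o : Finset Cfsg.GolayPt | o ∈ Cfsg.octads ∧ (o ∩ d).card = k}.ncard =
      H14.cnt2 64 64 fun x => H14.force (H14.enc x) fun m =>
        Nat.beq (H14.pc m) 8 && Nat.beq (H14.pc (Nat.land m 340831)) k := by
  obtain ⟨c, hc, e0⟩ := H14.exists_smul_eq_squareDodecad hd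
  rw [← H14.ncard_cSets_filter (fun o => o.card = 8 ∧ (o ∩ Spor.squareDodecad).card = k),
    ← Set.ncard_smul_set c]
  · congr 1
    ext o
    rw [Set.mem_smul_set_iff_inv_smul_mem, Set.mem_ofPred_eq, Set.mem_ofPred_eq, ← and_assoc,
      ← Finset.card_smul_finset c (_ ∩ d), Finset.smul_finset_inter, smul_inv_smul, e0]
    refine and_congr_left fun _ => ⟨fun h => ?_, H14.smul_mem_octads (M24.inv_mem hc)⟩
    have := H14.smul_mem_octads hc h
    rwa [smul_inv_smul] at this
  · intro x _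
    rw [H14.force_eq, Bool.and_eq_true, H14.beq_iff, H14.beq_iff, H14.squareDodecad_eq,
      ← H14.bits_and, H14.card_bits, H14.card_bits]
    rfl


/-- For a fixed dodecad, 132 octads meet it in 6 points, 132 in 2 points and 495 in 4 points. -/
theorem result (d : Finset Cfsg.GolayPt) (hd : d ∈ Cfsg.dodecads) : {o : Finset Cfsg.GolayPt | o ∈ Cfsg.octads ∧ (o ∩ d).card = 6}.ncard = 132 ∧ {o : Finset Cfsg.GolayPt | o ∈ Cfsg.octads ∧ (o ∩ d).card = 2}.ncard = 132 ∧ {o : Finset Cfsg.GolayPt | o ∈ Cfsg.octads ∧ (o ∩ d).card = 4}.ncard = 495 := by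
  rw [aux d hd, aux d hd, aux d hd]
  decide +kernel

end Cfsg.Agent.S0386
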