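import Cfsg.Statements.S0389
import Cfsg.Agent.H14.MathieuIso

set_option autoImplicit false
open scoped Pointwise
open Cfsg

namespace Cfsg.Agent.S0389

/-- The stabiliser of a dodecad and a point on it is 3-transitive on the complementary dodecad. -/
theorem result (d : Finset Cfsg.GolayPt) (hd : d ∈ Cfsg.dodecads) (p : Cfsg.GolayPt) (hp : p ∈ d) (x y : Fin 3 ↪ Cfsg.GolayPt) (hx : ∀ i, x i ∉ d) (hy : ∀ i, y i ∉ d) : ∃ g ∈ MulAction.stabilizer Cfsg.M24 d ⊓ MulAction.stabilizer Cfsg.M24 p, ∀ i, (g : Equiv.Perm Cfsg.GolayPt) (x i) = y i := by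
  obtain ⟨c, hc, e0, e1⟩ := H14.exists_smul_flag hd hp
  have hm : ∀ a ∉ d, c a ∉ Spor.squareDodecad := fun a ha => by
    rw [← e0]; exact mt H14.apply_mem_perm_smul_finset.1 ha
  obtain ⟨g, hg, e⟩ := H14.m11_exists_apply_eq_compl le_rfl (fun i => c (x i)) (fun i => c (y i))
    (c.injective.comp x.injective) (c.injective.comp y.injective) (fun i => hm _ (hx i))
    (fun i => hm _ (hy i))
  refine ⟨⟨c⁻¹ * g * c, M24.mul_mem (M24.mul_mem (M24.inv_mem hc) hg.1.1) hc⟩, ⟨?_, ?_⟩, fun i => ?_⟩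
  · show (c⁻¹ * g * c) • d = d
    rw [mul_smul, mul_smul, e0, show g • Spor.squareDodecad = _ from hg.1.2, ← e0, inv_smul_smul]
  · show c⁻¹ (g (c p)) = p
    rw [e1, show g (some 0) = some 0 from hg.2, Equiv.Perm.inv_eq_iff_eq, e1]
  · show c⁻¹ (g (c (x i))) = y i
    rw [e, Equiv.Perm.inv_eq_iff_eq]

end Cfsg.Agent.S0389
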