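import Cfsg.Statements.S0405
import Cfsg.Agent.H15.Simple

set_option autoImplicit false
open Cfsg

namespace Cfsg.Agent.S0405

/-- Joint stabiliser of two vectors of sum of squares 48 with coordinate dot product −32 is simple of order 44352000. -/
theorem result (v w : Cfsg.leechLattice) (hv : Cfsg.sqNorm (v : Cfsg.GolayPt → ℤ) = 48) (hw : Cfsg.sqNorm (w : Cfsg.GolayPt → ℤ) = 48) (hvw : Cfsg.dotInt (v : Cfsg.GolayPt → ℤ) (w : Cfsg.GolayPt → ℤ) = -32) : Cfsg.IsHS ↥(MulAction.stabilizer Cfsg.Co0 v ⊓ MulAction.stabilizer Cfsg.Co0 w) := by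
  have h1 : sqNorm ((v + w : leechLattice) : GolayPt → ℤ) = 32 := by
    rw [AddSubgroup.coe_add, H15.sqNorm_add, hv, hw, hvw]; norm_num
  have h2 : dotInt ((v + w : leechLattice) : GolayPt → ℤ) (v : GolayPt → ℤ) = 16 := by
    rw [AddSubgroup.coe_add, H15.dot_add_left, H15.dot_self, H15.dot_comm, hv, hvw]; norm_num
  rw [← H15.stab_inf_add, inf_comm]
  exact ⟨H15.simple_HS _ _ h1 hv h2, H15.card_HS _ _ h1 hv h2⟩

end Cfsg.Agent.S0405
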