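import Cfsg.Statements.S0412
import Cfsg.Agent.H16.WittExt

set_option autoImplicit false
open Cfsg

namespace Cfsg.Agent.S0412

/-- Aut of an S(5, 8, 24) is simple of order 244823040 and 5-transitive on points. -/
theorem result {α : Type*} [Fintype α] [DecidableEq α] (hα : Fintype.card α = 24) {B : Set (Finset α)} (hB : Cfsg.IsSteinerSystem 5 8 B) : Cfsg.IsM24 (Cfsg.setSystemAut B) ∧ MulAction.IsMultiplyPretransitive (Cfsg.setSystemAut B) α 5 := by
  obtain ⟨f, h⟩ := H16.witt24 hα hB
  have hc := h.card_aut (by simp)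
  simp only [Finset.card_empty, Nat.choose_zero_right, mul_one] at hc
  exact ⟨⟨H16.simple_degree_24 (h.trans (by simp)) (by simp [hα]) hc, hc⟩, h.trans (by simp)⟩

end Cfsg.Agent.S0412
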