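import Cfsg.Statements.S0439
import Mathlib

set_option autoImplicit false
open Cfsg

namespace Cfsg.Agent.S0439

theorem same {n : ℕ} {x y w : Fin n} (hxy : x ≠ y) (hxw : x ≠ w) :
    (Equiv.swap x y * Equiv.swap x w) ^ 2 = 1 ∨ (Equiv.swap x y * Equiv.swap x w) ^ 3 = 1 := by
  by_cases h : y = w
  · subst h; left; simp
  · right
    have := (Equiv.Perm.isThreeCycle_swap_mul_swap_same hxy hxw h).orderOf
    rw [← this, pow_orderOf_eq_one]


/-- In the symmetric group of degree n ≥ 2, the set of transpositions is a conjugacy class of 3-transpositions which generates the group. -/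
theorem result (n : ℕ) (hn : 2 ≤ n) : Cfsg.IsThreeTranspositionClass {σ : Equiv.Perm (Fin n) | σ.IsSwap} := by
  refine ⟨⟨?_, ?_⟩, ?_, ?_⟩
  · rintro _ ⟨x, y, hxy, rfl⟩
    exact orderOf_eq_prime (by rw [pow_two, Equiv.swap_mul_self]) (by
      intro h; exact hxy (Equiv.swap_eq_one_iff.1 h))
  · rintro _ ⟨x, y, hxy, rfl⟩ _ ⟨z, w, hzw, rfl⟩
    by_cases h1 : x = z
    · subst h1
      exact same hxy hzw
    by_cases h2 : x = w
    · subst h2
      rw [Equiv.swap_comm z x]
      exact same hxy h1
    by_cases h3 : y = z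
    · subst h3
      rw [Equiv.swap_comm x y]
      exact same hxy.symm hzw
    by_cases h4 : y = w
    · subst h4
      rw [Equiv.swap_comm x y, Equiv.swap_comm z y]
      exact same hxy.symm h3
    left
    have : (Equiv.swap x y).Disjoint (Equiv.swap z w) := by
      apply Equiv.Perm.disjoint_swap_swap
      simp [hxy, h1, h2, h3, h4, hzw]
    rw [this.commute.mul_pow]
    simp [pow_two]
  · let a : Fin n := ⟨0, by omega⟩
    let b : Fin n := ⟨1, by omega⟩
    have hab : a ≠ b := by simp [a, b]
    refine ⟨Equiv.swap a b, ⟨a, b, hab, rfl⟩, ?_⟩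
    ext σ
    constructor
    · rintro ⟨x, y, hxy, rfl⟩
      exact Equiv.Perm.isConj_swap hab hxy
    · intro h
      obtain ⟨c, rfl⟩ := isConj_iff.1 h
      rw [← Equiv.swap_apply_apply]
      exact ⟨_, _, c.injective.ne hab, rfl⟩
  · exact Equiv.Perm.closure_isSwap

end Cfsg.Agent.S0439
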