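import Cfsg.Statements.S0440
import Cfsg.Agent.H29.TT1
import Cfsg.Agent.H27.SpPrim
import Cfsg.Agent.H27.SpGen

set_option autoImplicit false
open Cfsg

namespace Cfsg.Agent.S0440

open Matrix Cfsg.Agent.H27 Cfsg.Agent.H29

theorem z2 (a : ZMod 2) : a = 0 ∨ a = 1 := by revert a; decide

theorem rank_iff {n : ℕ} (g : symplecticGroup (Fin n) (ZMod 2)) :
    (g.1 - 1).rank = 1 ↔ ∃ v, v ≠ 0 ∧ g = spT v 1 := by
  refine ⟨fun h => ?_, ?_⟩
  · obtain ⟨v, p, h0, h1⟩ := exists_vecMulVec h
    have e : ∀ y, g.1 *ᵥ y = y + (p ⬝ᵥ y) • v := fun y => by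
      rw [← sub_eq_iff_eq_add', ← op_smul_eq_smul, ← vecMulVec_mulVec, ← h1, sub_mulVec, one_mulVec]
    obtain ⟨x, hx⟩ : ∃ x, p ⬝ᵥ x = 1 := by
      by_contra k
      push Not at k
      rw [h1, show p = 0 from funext fun i => by
        simpa using (z2 _).resolve_right (k (Pi.single i 1))] at h
      simp at h
    have e2 : ∀ y, sympForm n (ZMod 2) y v = p ⬝ᵥ y * sympForm n (ZMod 2) x v := fun y => by
      have := sp_sympForm g y x
      rw [e, e, hx, one_smul, sympForm_add_left, sympForm_add_right, sympForm_add_right,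
        sympForm_smul_left, sympForm_smul_left, sympForm_self, sympForm_neg_comm v x] at this
      linear_combination this
    rcases z2 (sympForm n (ZMod 2) x v) with k | k
    · exact absurd (eq_zero_of_sympForm_right fun y => by rw [e2, k, mul_zero]) h0
    · exact ⟨v, h0, sp_ext fun y => by rw [e, spT_mulVec, e2, k, mul_one, one_mul]⟩
  · rintro ⟨v, hv, rfl⟩
    have e : (spT v (1 : ZMod 2)).1 - 1 =
        vecMulVec v fun j => sympForm n (ZMod 2) (Pi.single j 1) v := by
      ext i j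
      have := congrFun (spT_mulVec v 1 (Pi.single j 1)) i
      rw [mulVec_single_one] at this
      simp only [Matrix.sub_apply, vecMulVec_apply, col_apply, Pi.add_apply, Pi.smul_apply, one_mul,
        smul_eq_mul] at this ⊢
      rw [this, one_apply, Pi.single_apply]; ring
    rw [e]
    refine rank_vecMulVec_eq_one fun h => hv (eq_zero_of_sympForm_right fun y => ?_)
    have := spT_mulVec v 1 y
    rw [sub_eq_zero.1 (e.trans h), one_mulVec, left_eq_add, smul_eq_zero, one_mul] at this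
    exact this.resolve_right hv


/-- In the symplectic group in dimension 2n ≥ 2 over the field with two elements, the elements g for which g - 1 has rank one (the symplectic transvections) form a conjugacy class of 3-transpositions generating the group. -/
theorem result (n : ℕ) (hn : 1 ≤ n) : Cfsg.IsThreeTranspositionClass {g : Matrix.symplecticGroup (Fin n) (ZMod 2) | ((g : Matrix (Fin n ⊕ Fin n) (Fin n ⊕ Fin n) (ZMod 2)) - 1).rank = 1} := by
  simp only [rank_iff]
  have h2 : ∀ v : Fin n ⊕ Fin n → ZMod 2, spT v (1 : ZMod 2) * spT v 1 = 1 := fun v => by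
    rw [spT_mul]; exact spT_zero v
  have hu : (Pi.single (Sum.inl ⟨0, hn⟩) 1 : Fin n ⊕ Fin n → ZMod 2) ≠ 0 := by simp
  refine ⟨⟨?_, ?_⟩, ⟨_, ⟨_, hu, rfl⟩, Set.ext fun g => ⟨?_, fun h => ?_⟩⟩,
    sp_eq_top_of_spT_mem _ fun w c => ?_⟩
  · rintro _ ⟨v, hv, rfl⟩
    refine orderOf_eq_prime ((pow_two _).trans (h2 v)) fun e => ?_
    have := (rank_iff _).2 ⟨v, hv, rfl⟩
    simp [e] at this
  · rintro _ ⟨v, hv, rfl⟩ _ ⟨w, hw, rfl⟩
    rcases z2 (sympForm n (ZMod 2) w v) with h | h
    · exact Or.inl (sq_of_comm (h2 v) (h2 w) (by rw [conj_spT, spT_mulVec, h]; simp))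
    · refine Or.inr (cube_of_braid (h2 v) (h2 w) ?_)
      rw [conj_spT, conj_spT, spT_mulVec, spT_mulVec, sympForm_neg_comm v w, h,
        show (1 * -1 : ZMod 2) = 1 * 1 by decide, one_mul, one_smul, one_smul, add_comm]
  · rintro ⟨v, hv, rfl⟩
    obtain ⟨A, hA⟩ := sp_exists_mulVec_eq hu hv
    exact isConj_iff.2 ⟨A, by rw [conj_spT, hA]⟩
  · obtain ⟨c, rfl⟩ := isConj_iff.1 h
    refine ⟨_, fun e => hu ?_, conj_spT c _ _⟩
    rw [← sp_inv_mulVec_mulVec c (Pi.single _ _), e, mulVec_zero]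
  · rcases z2 c with rfl | rfl
    · rw [spT_zero]; exact one_mem _
    by_cases hw : w = 0
    · rw [show spT w (1 : ZMod 2) = 1 from sp_ext fun y => by simp [spT_mulVec, hw]]
      exact one_mem _
    · exact Subgroup.subset_closure ⟨w, hw, rfl⟩

end Cfsg.Agent.S0440
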