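import Cfsg.Statements.S0442
import Mathlib

set_option autoImplicit false
open Cfsg

namespace Cfsg.Agent.S0442

theorem dih {G : Type*} [Group G] {a b : G} (ha : a * a = 1) (hb : b * b = 1) (k : ℕ) :
    a * (a * b) ^ k = ((a * b) ^ k)⁻¹ * a := by
  have ha' : a⁻¹ = a := inv_eq_of_mul_eq_one_right ha
  have hb' : b⁻¹ = b := inv_eq_of_mul_eq_one_right hb
  have : a * (a * b) * a⁻¹ = (a * b)⁻¹ := by
    rw [mul_inv_rev, ha', hb', ← mul_assoc, ha, one_mul]
  have h2 : a * (a * b) ^ k * a⁻¹ = ((a * b) ^ k)⁻¹ := by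
    rw [← inv_pow, ← this, conj_pow]
  rw [← h2]; simp


/-- A standard trick for producing elements of an involution centraliser: for an involution a and an element g, let b be the conjugate g⁻¹ * a * g. If a * b has odd order 2m + 1 then g * (a * b) ^ m commutes with a; if a * b has even order 2m then (a * b) ^ m and (a * (g * a * g⁻¹)) ^ m commute with a. -/
theorem result {G : Type*} [Group G] (a g : G) (ha : orderOf a = 2) : (∀ m : ℕ, orderOf (a * (g⁻¹ * a * g)) = 2 * m + 1 → Commute (g * (a * (g⁻¹ * a * g)) ^ m) a) ∧ (∀ m : ℕ, orderOf (a * (g⁻¹ * a * g)) = 2 * m → Commute ((a * (g⁻¹ * a * g)) ^ m) a ∧ Commute ((a * (g * a * g⁻¹)) ^ m) a) := by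
  have haa : a * a = 1 := by
    have := pow_orderOf_eq_one a
    rwa [ha, pow_two] at this
  have hconj : ∀ h : G, (h⁻¹ * a * h) * (h⁻¹ * a * h) = 1 := fun h => by
    calc (h⁻¹ * a * h) * (h⁻¹ * a * h) = h⁻¹ * (a * a) * h := by group
      _ = 1 := by rw [haa]; group
  have key : ∀ (b : G) (m : ℕ), b * b = 1 → (a * b) ^ (2 * m) = 1 → Commute ((a * b) ^ m) a := by
    intro b m hb h
    have h1 := dih haa hb m
    have h2 : ((a * b) ^ m)⁻¹ = (a * b) ^ m := by
      apply inv_eq_of_mul_eq_one_right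
      rw [← pow_add, ← two_mul, h]
    rw [h2] at h1
    exact h1.symm
  constructor
  · intro m hm
    set b := g⁻¹ * a * g with hb
    have hbb : b * b = 1 := hconj g
    have h1 := pow_orderOf_eq_one (a * b)
    rw [hm] at h1
    have h2 := dih haa hbb m
    have h3 : a * g = g * b := by rw [hb]; group
    have h4 : b = a * (a * b) := by rw [← mul_assoc, haa, one_mul]
    have h5 : ((a * b) ^ (m + 1))⁻¹ = (a * b) ^ m := by
      apply inv_eq_of_mul_eq_one_right
      rw [← pow_add, ← h1]; congr 1; ring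
    have h6 := dih haa hbb (m + 1)
    clear_value b
    show g * (a * b) ^ m * a = a * (g * (a * b) ^ m)
    rw [← mul_assoc, h3, mul_assoc g b, mul_assoc g]
    congr 1
    rw [← h5, ← h6, h5]
    nth_rewrite 2 [h4]
    rw [pow_succ', mul_assoc a (a * b)]
  · intro m hm
    have h1 := pow_orderOf_eq_one (a * (g⁻¹ * a * g))
    rw [hm] at h1
    refine ⟨key _ m (hconj g) h1, key _ m (by simpa using hconj g⁻¹) ?_⟩
    have h2 : a * (g * a * g⁻¹) = g * (a * (g⁻¹ * a * g))⁻¹ * g⁻¹ := by
      have ha' : a⁻¹ = a := inv_eq_of_mul_eq_one_right haa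
      simp only [mul_inv_rev, ha', inv_inv]
      group
    rw [h2, conj_pow, inv_pow, h1]; simp

end Cfsg.Agent.S0442
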