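import Cfsg.Statements.S0443
import Mathlib

set_option autoImplicit false
open Cfsg

namespace Cfsg.Agent.S0443


/-- Two definitions of a 2-central involution agree: an element t of order 2 of a finite group lies in the centre of some Sylow 2-subgroup if and only if its centraliser contains some Sylow 2-subgroup. -/
theorem result {G : Type*} [Group G] [Finite G] (t : G) (ht : orderOf t = 2) : Cfsg.IsTwoCentralInvolution t ↔ ∃ P : Sylow 2 G, (P : Subgroup G) ≤ Subgroup.centralizer ({t} : Set G) := by
  constructor
  · rintro ⟨-, P, -, h⟩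
    refine ⟨P, fun x hx => ?_⟩
    rw [Subgroup.mem_centralizer_singleton_iff]
    exact h x hx
  · rintro ⟨P, hP⟩
    have hc : ∀ x ∈ P, x * t = t * x := fun x hx => by
      have := hP hx
      rwa [Subgroup.mem_centralizer_singleton_iff] at this
    refine ⟨ht, P, ?_, hc⟩
    haveI : Fact (Nat.Prime 2) := ⟨Nat.prime_two⟩
    have hz : IsPGroup 2 (Subgroup.zpowers t) := by
      apply IsPGroup.of_card (n := 1)
      rw [Nat.card_zpowers, ht]; rfl
    have hn : (P : Subgroup G) ≤ Subgroup.normalizer (Subgroup.zpowers t : Set G) := by
      refine le_trans ?_ (Subgroup.centralizer_le_normalizer _)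
      intro x hx
      rw [Subgroup.mem_centralizer_iff]
      rintro _ ⟨k, rfl⟩
      exact ((Commute.zpow_right (hc x hx) k)).symm.eq
    have := P.2.to_sup_of_normal_right' hz hn
    have h2 := P.3 this le_sup_left
    have : t ∈ (P : Subgroup G) ⊔ Subgroup.zpowers t :=
      Subgroup.mem_sup_right (Subgroup.mem_zpowers t)
    rw [h2] at this
    exact this

end Cfsg.Agent.S0443
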