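import Cfsg.Statements.S0445
import Cfsg.Agent.H14.L52
import Cfsg.Agent.H14.CentIso
import Cfsg.Agent.H56.ClsTools

set_option autoImplicit false
open Cfsg

namespace Cfsg.Agent.S0445

open H14 H56

/-- In the special linear group of dimension 5 over the field with two elements, the centraliser of a transvection has order 21504 = 2 ^ 7 · 168 (it is an extension of an extraspecial group of order 2 ^ 7 by the simple group of order 168). -/
theorem result (s : Matrix.SpecialLinearGroup (Fin 5) (ZMod 2)) (hs : (s : Matrix (Fin 5) (Fin 5) (ZMod 2)) = Matrix.transvection 0 1 1) : Nat.card (Subgroup.centralizer ({s} : Set (Matrix.SpecialLinearGroup (Fin 5) (ZMod 2)))) = 21504 := by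
  obtain ⟨ι, -⟩ := exists_hom F2 (F := ZMod 2) rfl
  obtain ⟨φ, hφ⟩ := L52.model (F := ZMod 2) rfl ι
  obtain ⟨ψ, hψ⟩ := hφ.exists_equiv
  have h1 := pk_eq_of_actOK ι (Equiv.refl _) L52.E _ (modelOK_pts L52.ok) hφ.act
    L52.tv_act (hs.trans (matOf_transvection ι (0 : Fin 5) 1 (by decide)).symm)
  rw [← card_centralizer_equiv ψ, card_centralizer_subtype, hψ, ← L52.E.perm_pk (φ s), h1,
    L52.tvC_spec.1.card]
  decide +kernel

end Cfsg.Agent.S0445
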