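import Cfsg.Statements.S0458
import Cfsg.Agent.H57.J3Uni
import Cfsg.Agent.H57.J3D4

set_option autoImplicit false
set_option maxRecDepth 100000
set_option linter.unusedSectionVars false
set_option linter.style.haveILetI false
open Cfsg

namespace Cfsg.Agent.S0458

open Cfsg.Agent.H57 Cfsg.Agent.H57.J3 Cfsg.Spor

section
variable {F : Type*} [Field F] [Fintype F] (hF : Fintype.card F = 4) (ω : F)
  (hω : ω ^ 2 + ω + 1 = 0)

local notation "c" => cd F hF ω hω

theorem has_x3 : ∀ A ∈ x1 :: [x2, mW], Has (c).red (threeJ3 F ω) A := by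
  intro A hA
  simp only [List.mem_cons, List.not_mem_nil, or_false] at hA
  rcases hA with rfl | rfl | rfl
  · exact has_x hF ω hω _ (by simp)
  · exact has_x hF ω hω _ (by simp)
  · exact has_W hF ω hω

include hF hω in
theorem exists_sub : ∃ U : Subgroup (GL F9 F), U ≤ threeJ3 F ω ∧ Nat.card U = 8160 * 3 ∧
    (Subgroup.center (threeJ3 F ω)).map (threeJ3 F ω).subtype ≤ U := by
  haveI := finGL (F := F)
  have hu : ∀ A ∈ [u1, u2], Has (c).red (threeJ3 F ω) A := has_of_slpChk (has_x3 hF ω hω) slpU0
  obtain ⟨a, ha, ra⟩ := hu u1 (by simp)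
  obtain ⟨b, hb, rb⟩ := hu u2 (by simp)
  let Z := (Subgroup.center (threeJ3 F ω)).map (threeJ3 F ω).subtype
  have hZ : Nat.card Z = 3 := by
    rw [Subgroup.card_map_of_injective (Subgroup.subtype_injective _), card_center hF ω hω]
  have hWZ : Has (c).red Z mW := by
    obtain ⟨w, hw, h⟩ := exists_scalar hF ω hω
    obtain ⟨w', hw', h'⟩ := has_W hF ω hω
    refine ⟨w, ⟨⟨w, hw⟩, mem_center_of_scalar ω h, rfl⟩, ?_⟩
    have : w = w' := by
      ext a b
      rw [(c).entry_of_rep h', h]
      have key : ∀ a b : F9, ent mW (2 * e9 a) (2 * e9 b) = 0 ∧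
        ent mW (2 * e9 a + 1) (2 * e9 b) = if a = b then 1 else 0 := by decide +kernel
      change _ = (c).el (ent mW (2 * e9 a) (2 * e9 b)) (ent mW (2 * e9 a + 1) (2 * e9 b))
      rw [(key a b).1, (key a b).2]
      by_cases hab : a = b
      · subst hab
        have : (c).el 0 1 = ω := (c).el01
        simpa using this.symm
      · simpa [hab] using (c).el00.symm
    rwa [this]
  let U := Subgroup.closure ({a, b} ∪ (Z : Set (GL F9 F)))
  have hZU : Z ≤ U := fun x hx => Subgroup.subset_closure (Or.inr hx)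
  have hUG : U ≤ threeJ3 F ω := by
    rw [Subgroup.closure_le]
    rintro g ((rfl | rfl) | hg)
    · exact ha
    · exact hb
    · exact Subgroup.map_subtype_le _ hg
  have hT : ∀ A ∈ tU, Has (c).red U A := by
    refine has_of_slpChk (a := u1) (L := [u2, mW]) ?_ slpU
    intro A hA
    simp only [List.mem_cons, List.not_mem_nil, or_false] at hA
    rcases hA with rfl | rfl | rfl
    · exact ⟨a, Subgroup.subset_closure (by simp), ra⟩
    · exact ⟨b, Subgroup.subset_closure (by simp), rb⟩
    · exact hWZ.mono hZU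
  have hC : ∀ A ∈ [mW, mW], Has (c).red Z A := by simpa using hWZ
  refine ⟨U, hUG, le_antisymm ?_ ?_, hZU⟩
  · have := cover_of_close (S := {a, b} ∪ (Z : Set (GL F9 F))) (H := Z) (n := 8160)
      (t := cubeG (c).red U tU fU) (fun g _ => isOfFinOrder_of_finite g)
      ⟨4034, by norm_num, by rw [cubeG_zeroAt _ _ uzero]; exact Subgroup.one_mem _⟩ (by
        rintro g ((rfl | rfl) | hg)
        · exact close_step hT hC ra unet1 (faith hF ω hω) (allL_spec uclose1)
        · exact close_step hT hC rb unet2 (faith hF ω hω) (allL_spec uclose2)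
        · intro j hj
          refine ⟨j, hj, g, hg, ?_⟩
          obtain ⟨z, hz, rfl⟩ := hg
          exact congrArg Subtype.val (Subgroup.mem_center_iff.1 hz
            ⟨_, hUG (cubeG_mem U tU fU j)⟩).symm)
    exact (card_le_of_cover this).2.trans (by rw [hZ])
  · have h := (c).orb_nrm hT uorb ((c).red_dec_vecOf _) (fun h => by
      have h1 := (c).red_dec_vecOf 85738
      have h2 := (c).red_dec_vecOf 0
      have h3 : (c).dec (vecOf 18 0) = 0 := by
        funext z
        have : ∀ i, vecOf 18 0 i = 0 := by decide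
        simp only [Cd.dec, this]; exact (c).el00
      rw [h] at h1
      rw [h3, h1] at h2
      exact absurd h2 (by decide))
    refine le_trans (by rw [hZ]) (mul_card_le_of_distinct hZU (n := 8160)
      (t := cubeG (c).red U tU fU) (fun j _ => cubeG_mem _ _ _ _) ?_)
    rintro i hi j hj ⟨z, hz, e⟩
    have h1 := scalar_of_mem_center hF ω hω hz
    have h2 : ∀ v : F9 → F, (z : GL F9 F) • v = ((z : GL F9 F) : Matrix F9 F9 F) 0 0 • v := by
      intro v
      change Matrix.mulVec ((z : GL F9 F) : Matrix F9 F9 F) v = _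
      conv_lhs => rw [h1]
      funext w
      simp [Matrix.mulVec_diagonal]
    have e' : cubeG (c).red U tU fU j = cubeG (c).red U tU fU i * (z : GL F9 F) := by
      rw [← inv_mul_eq_iff_eq_mul]; exact e.symm
    refine (h j hj i hi (((z : GL F9 F) : Matrix F9 F9 F) 0 0) ?_).symm
    rw [e', mul_smul, h2, smul_comm]

include hF hω in
theorem exists_index : ∃ U : Subgroup (J3 F ω), U.index = 6156 := by
  obtain ⟨U, h1, h2, h3⟩ := exists_sub hF ω hω
  refine ⟨(U.subgroupOf (threeJ3 F ω)).map (QuotientGroup.mk' _), ?_⟩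
  rw [Subgroup.index_map_eq _ (QuotientGroup.mk'_surjective _)]
  · have := (U.subgroupOf (threeJ3 F ω)).card_mul_index
    rw [Nat.card_congr (Subgroup.subgroupOfEquivOfLe h1).toEquiv, h2, card_threeJ3 hF ω hω] at this
    omega
  · rw [QuotientGroup.ker_mk']
    intro x hx
    exact h3 ⟨x, hx, rfl⟩

end

/-- There is a transitive simple group of degree 6156 and order 50232960. -/
theorem result : ∃ H : Subgroup (Equiv.Perm (Fin 6156)), Cfsg.IsJ3 H ∧ MulAction.IsPretransitive H (Fin 6156) ∧ Nat.card (MulAction.stabilizer H (0 : Fin 6156)) = 8160 := by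
  obtain ⟨F, _, _, ω, hF, hω⟩ := exists_F4
  haveI := simple_J3 hF ω hω
  obtain ⟨U, hU⟩ := exists_index hF ω hω
  obtain ⟨H, e, h1, h2⟩ := exists_perm_group U hU (by norm_num)
  refine ⟨H, ⟨e.symm.isSimpleGroup, ?_⟩, h1, ?_⟩
  · rw [← Nat.card_congr e.toEquiv, card_J3 hF ω hω]
  · rw [← h2, Subgroup.card_map_of_injective e.injective]
    have := U.card_mul_index
    rw [hU, card_J3 hF ω hω] at this
    omega

end Cfsg.Agent.S0458
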