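import Cfsg.Statements.S0460
import Cfsg.Agent.H58.ONJ

set_option autoImplicit false
open Cfsg

namespace Cfsg.Agent.S0460

/-- The O'Nan group exists as a transitive permutation group of degree 122760: simple of order 460815505920, point stabiliser of order 3753792, and containing simple subgroups of orders 175560 and 7920. -/
theorem result : ∃ H : Subgroup (Equiv.Perm (Fin 122760)), Cfsg.IsON H ∧ MulAction.IsPretransitive H (Fin 122760) ∧ Nat.card (MulAction.stabilizer H (0 : Fin 122760)) = 3753792 ∧ (∃ K : Subgroup H, Cfsg.IsJ1 K) ∧ (∃ K : Subgroup H, Cfsg.IsM11 K) := by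
  obtain ⟨H, e, h1, ⟨f⟩⟩ := H58.ONP.M.realize H58.ONP.hgen H58.ONP.inj (n := 122760) rfl H58.ONP.trans
  obtain ⟨K, h2, h3⟩ := H58.ONJ.exists_J1
  obtain ⟨L, h4, h5⟩ := H58.ONJ.exists_M11
  have := H58.ONP.simple
  refine ⟨H, ⟨e.symm.isSimpleGroup, (Nat.card_congr e.toEquiv).symm.trans H58.ONP.card_eq⟩, h1, ?_,
    ⟨K.map e.toMonoidHom, (e.subgroupMap K).symm.isSimpleGroup,
      (Nat.card_congr (e.subgroupMap K).toEquiv).symm.trans h3⟩,
    ⟨L.map e.toMonoidHom, (e.subgroupMap L).symm.isSimpleGroup,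
      (Nat.card_congr (e.subgroupMap L).toEquiv).symm.trans h5⟩⟩
  rw [← Nat.card_congr f.toEquiv, ← H58.ONP.index_H.2]
  exact H58.ONP.card_H

end Cfsg.Agent.S0460
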