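import Cfsg.Statements.S0462
import Cfsg.Agent.H58.HeS

set_option autoImplicit false
open Cfsg

namespace Cfsg.Agent.S0462

/-- The Held group exists as a transitive permutation group of degree 2058: simple of order 4030387200, with point stabiliser containing, with index 2, a copy of the 4-dimensional symplectic group over the field with four elements. -/
theorem result : ∃ H : Subgroup (Equiv.Perm (Fin 2058)), Cfsg.IsHe H ∧ MulAction.IsPretransitive H (Fin 2058) ∧ ∃ (F : Type) (_ : Field F) (_ : Fintype F), Fintype.card F = 4 ∧ ∃ N : Subgroup (MulAction.stabilizer H (0 : Fin 2058)), N.index = 2 ∧ Nonempty (N ≃* Matrix.symplecticGroup (Fin 2) F) := by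
  obtain ⟨H, e, h1, ⟨f⟩⟩ := H58.HeP.M.realize H58.HeP.hgen H58.HeP.inj (n := 2058) rfl H58.HeP.trans
  obtain ⟨N, -, h2, ⟨g⟩⟩ := H58.HeS.index_two (H56.TF.card H56.F4)
  have := H58.HeP.simple
  let j := (MulEquiv.subgroupCongr H58.HeP.index_H.2).trans f
  refine ⟨H, ⟨e.symm.isSimpleGroup, (Nat.card_congr e.toEquiv).symm.trans H58.HeP.card_eq⟩, h1,
    H56.TF H56.F4, inferInstance, inferInstance, H56.TF.card _, N.map j.toMonoidHom, ?_,
    ⟨(j.subgroupMap N).symm.trans g⟩⟩
  rw [← h2]
  exact Subgroup.index_map_equiv N j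

end Cfsg.Agent.S0462
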