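import Cfsg.Statements.S0478
import Cfsg.Agent.H57.J3Uni

set_option autoImplicit false
open Cfsg

namespace Cfsg.Agent.S0478

/-- A triple cover of Janko's third group inside a unitary group: for a field F with four elements, the special unitary group of dimension 9 (with respect to the form with q = 2) has a subgroup whose centre has order 3 and whose quotient by its centre is simple of order 50232960. -/
theorem result : ∃ (F : Type) (_ : Field F) (_ : Fintype F), Fintype.card F = 4 ∧ ∃ H : Subgroup (Cfsg.SU 9 F 2), Nat.card (Subgroup.center H) = 3 ∧ Cfsg.IsJ3 (H ⧸ Subgroup.center H) := by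
  obtain ⟨F, _, _, ω, hF, hω⟩ := H57.exists_F4
  let e := MonoidHom.ofInjective (H57.J3.toSU_injective hF ω hω)
  refine ⟨F, inferInstance, inferInstance, hF, (H57.J3.toSU hF ω hω).range, ?_, ?_, ?_⟩
  · rw [← Nat.card_congr (Subgroup.centerCongr e).toEquiv]
    exact H57.J3.card_center hF ω hω
  · have := H57.J3.simple_J3 hF ω hω
    exact (H57.quotCenterCongr e).symm.isSimpleGroup
  · rw [← Nat.card_congr (H57.quotCenterCongr e).toEquiv]
    exact H57.J3.card_J3 hF ω hω

end Cfsg.Agent.S0478
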