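import Cfsg.Statements.S0481
import Mathlib

set_option autoImplicit false
open Cfsg

namespace Cfsg.Agent.S0481


/-- Large extraspecial subgroups: let z be an involution of a finite group G whose centraliser C contains a normal 2-subgroup Q with centre of order 2 and all squares central, such that every element of G centralising Q lies in Q. Then C contains a Sylow 2-subgroup of G, and any involution of G whose centraliser contains a Sylow 2-subgroup of G is conjugate to z. -/
theorem result {G : Type*} [Group G] [Finite G] (z : G) (hz : orderOf z = 2) (Q : Subgroup G) (hQC : Q ≤ Subgroup.centralizer ({z} : Set G)) (hQn : ∀ g ∈ Subgroup.centralizer ({z} : Set G), ∀ q ∈ Q, g * q * g⁻¹ ∈ Q) (hQ2 : IsPGroup 2 Q) (hZ : Nat.card (Subgroup.center Q) = 2) (hsq : ∀ x : Q, x ^ 2 ∈ Subgroup.center Q) (hlarge : Subgroup.centralizer (Q : Set G) ≤ Q) : (∃ P : Sylow 2 G, (P : Subgroup G) ≤ Subgroup.centralizer ({z} : Set G)) ∧ ∀ u : G, orderOf u = 2 → (∃ P : Sylow 2 G, (P : Subgroup G) ≤ Subgroup.centralizer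 ({u} : Set G)) → IsConj z u := by
  haveI : Fact (Nat.Prime 2) := ⟨Nat.prime_two⟩
  have hz1 : z ≠ 1 := by rintro rfl; simp at hz
  have hzQ : z ∈ Q := by
    apply hlarge
    rw [Subgroup.mem_centralizer_iff]
    intro q hq
    exact Subgroup.mem_centralizer_singleton_iff.1 (hQC hq)
  -- any nontrivial element centralizing Q is z
  have key : ∀ u : G, u ≠ 1 → (∀ q ∈ Q, q * u = u * q) → u = z := by
    intro u hu1 hu
    have huQ : u ∈ Q := hlarge (Subgroup.mem_centralizer_iff.2 hu)
    have h1 : (⟨u, huQ⟩ : Q) ∈ Subgroup.center Q :=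
      Subgroup.mem_center_iff.2 fun q => Subtype.ext (hu q q.2)
    have h2 : (⟨z, hzQ⟩ : Q) ∈ Subgroup.center Q :=
      Subgroup.mem_center_iff.2 fun q => Subtype.ext
        (Subgroup.mem_centralizer_singleton_iff.1 (hQC q.2))
    obtain ⟨y, -, hy⟩ := (Nat.card_eq_two_iff' (1 : Subgroup.center Q)).1 hZ
    have e1 := hy ⟨_, h1⟩ (fun h => hu1 (congrArg (fun x : Subgroup.center Q => ((x : Q) : G)) h))
    have e2 := hy ⟨_, h2⟩ (fun h => hz1 (congrArg (fun x : Subgroup.center Q => ((x : Q) : G)) h))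
    exact congrArg (fun x : Subgroup.center Q => ((x : Q) : G)) (e1.trans e2.symm)
  set C := Subgroup.centralizer ({z} : Set G) with hC
  -- a Sylow subgroup containing Q lies in C
  have hS : ∀ P : Sylow 2 G, Q ≤ P → (P : Subgroup G) ≤ C := by
    intro P hQP
    have hP : Nontrivial P := ⟨⟨⟨z, hQP hzQ⟩, 1, fun h => hz1 (congrArg Subtype.val h)⟩⟩
    haveI := P.2.center_nontrivial
    obtain ⟨w, hw⟩ := exists_ne (1 : Subgroup.center P)
    have hwz : ((w : P) : G) = z := by
      apply key
      · intro h; apply hw; ext; simpa using h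
      · intro q hq
        exact congrArg Subtype.val (Subgroup.mem_center_iff.1 w.2 ⟨q, hQP hq⟩)
    intro x hx
    rw [hC, Subgroup.mem_centralizer_singleton_iff, ← hwz]
    exact congrArg Subtype.val (Subgroup.mem_center_iff.1 w.2 ⟨x, hx⟩)
  obtain ⟨P, hP⟩ := hQ2.exists_le_sylow
  refine ⟨⟨P, hS P hP⟩, ?_⟩
  rintro u hu ⟨R, hR⟩
  obtain ⟨g, hg⟩ := MulAction.exists_smul_eq G R P
  have hu1 : u ≠ 1 := by rintro rfl; simp at hu
  have : g * u * g⁻¹ = z := by
    apply key
    · intro h; apply hu1
      have : u = g⁻¹ * (g * u * g⁻¹) * g := by group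
      rw [this, h]; group
    · intro q hq
      have hq' : q ∈ (P : Subgroup G) := hP hq
      rw [← hg, Sylow.coe_subgroup_smul, Subgroup.mem_pointwise_smul_iff_inv_smul_mem] at hq'
      have := Subgroup.mem_centralizer_singleton_iff.1 (hR hq')
      simp only [MulAut.smul_def, MulAut.conj_inv_apply] at this
      calc q * (g * u * g⁻¹) = g * (g⁻¹ * q * g * u) * g⁻¹ := by group
        _ = g * (u * (g⁻¹ * q * g)) * g⁻¹ := by rw [this]
        _ = _ := by group
  exact (isConj_iff.2 ⟨g, this⟩).symm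

end Cfsg.Agent.S0481
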