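import Cfsg.Statements.S0518
import Cfsg.Agent.H4.JC6

set_option autoImplicit false
open Cfsg

namespace Cfsg.Agent.S0518

open Subgroup Cfsg.Agent.H70 Cfsg.Agent.H92 Cfsg.Agent.H4

/-- Let G be a finite group of characteristic 2 type with trivial 2-core in which every 2-local subgroup is solvable
and, for every Sylow 2-subgroup S, the centralizer of the set of central involutions of S lies in the normalizer of S.
Then either G has a strongly embedded subgroup, or the subgroup generated by the elements of odd order has two distinct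
maximal 2-local subgroups, each isomorphic to the symmetric group of degree 4, whose intersection has order 8. -/
theorem result {G : Type*} [Group G] [Finite G]
    (hL : Cfsg.IsCharacteristicTwoType G) (hO : Cfsg.pCore 2 G = ⊥)
    (hN : ∀ N : Subgroup G, Cfsg.IsTwoLocal N → Group.IsSolvable N)
    (hZ : ∀ S : Sylow 2 G,
      Subgroup.centralizer {z : G | z ∈ (S : Subgroup G) ∧ z ^ 2 = 1 ∧ ∀ s ∈ (S : Subgroup G), s * z = z * s} ≤
        Subgroup.normalizer ((S : Subgroup G) : Set G))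
    (H : Subgroup G) (hH : H = Subgroup.closure {g : G | Odd (orderOf g)}) :
    (∃ K : Subgroup G, Cfsg.IsStronglyEmbedded K) ∨
      ∃ M₁ M₂ : Subgroup H, M₁ ≠ M₂ ∧ Cfsg.IsMaximalTwoLocal M₁ ∧ Cfsg.IsMaximalTwoLocal M₂ ∧
        Nonempty (M₁ ≃* Equiv.Perm (Fin 4)) ∧ Nonempty (M₂ ≃* Equiv.Perm (Fin 4)) ∧ Nat.card ↥(M₁ ⊓ M₂) = 8 := by
  have hG : ZN G := zn_of hL hN fun S => le_trans (fun g hg => mem_centralizer_iff.2 fun z hz =>
    mem_centralizer_iff.1 hg z (subset_closure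
      ⟨⟨hz.1, mem_centralizer_iff.2 hz.2.2⟩, hz.2.1⟩)) (hZ S)
  have hH' : H = pResidualOf 2 (⊤ : Subgroup G) := by
    rw [hH, ← closure_odd_eq]
    simp only [mem_top, true_and]
  refine (hG.se_or_fin2 hO hL.1).imp_right ?_
  rintro ⟨T, K₁, K₂, h⟩
  have iso : ∀ {M : Subgroup G}, Nonempty (↥(M ⊓ H) ≃* Equiv.Perm (Fin 4)) →
      Nonempty (↥(M.subgroupOf H) ≃* Equiv.Perm (Fin 4)) := fun {M} ⟨e⟩ => by
    rw [← inf_subgroupOf_right]
    exact ⟨(subgroupOfEquivOfLe inf_le_right).trans e⟩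
  have c8 : Nat.card ↥((K₁ ⊔ T).subgroupOf H ⊓ (K₂ ⊔ T).subgroupOf H) = 8 := by
    rw [show (K₁ ⊔ T).subgroupOf H ⊓ (K₂ ⊔ T).subgroupOf H =
      ((K₁ ⊔ T) ⊓ (K₂ ⊔ T)).subgroupOf H from rfl, h.pair.inf, ← inf_subgroupOf_right,
      Nat.card_congr (subgroupOfEquivOfLe inf_le_right).toEquiv, hH', (h.res_iso hG).2]
  have i1 := iso (M := K₁ ⊔ T) (hH' ▸ (h.res_iso hG).1)
  refine ⟨_, _, fun e => ?_, h.res_maxLocal hG hH', h.symm.res_maxLocal hG hH', i1,
    iso (hH' ▸ (h.symm.res_iso hG).1), c8⟩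
  obtain ⟨i⟩ := i1
  rw [← e, inf_idem, Nat.card_congr i.toEquiv, Nat.card_perm, Nat.card_fin] at c8
  exact absurd c8 (by decide)

end Cfsg.Agent.S0518
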