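import Cfsg.Statements.S0520
import Cfsg.Agent.H18.Four

set_option autoImplicit false
open Cfsg

namespace Cfsg.Agent.S0520

open Subgroup H42

variable {G : Type*} [Group G] [Finite G]

/-- adjacency -/
def Adj (A B : Subgroup G) : Prop :=
  IsKleinFour A ∧ IsKleinFour B ∧ ∀ a ∈ A, ∀ b ∈ B, a * b = b * a

omit [Finite G] in
theorem Adj.cj {A B : Subgroup G} (h : Adj A B) (g : G) : Adj (cj g A) (cj g B) := by
  refine ⟨isKleinFour_cj h.1 g, isKleinFour_cj h.2.1 g, ?_⟩
  rintro _ ⟨a, ha, rfl⟩ _ ⟨b, hb, rfl⟩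
  rw [← map_mul, ← map_mul, h.2.2 a ha b hb]

omit [Finite G] in
theorem conn_cj {A B : Subgroup G} (h : Relation.ReflTransGen Adj A B) (g : G) :
    Relation.ReflTransGen Adj (cj g A) (cj g B) := by
  induction h with
  | refl => exact Relation.ReflTransGen.refl
  | tail _ h ih => exact ih.tail (h.cj g)

omit [Finite G] in
theorem conn_symm {A B : Subgroup G} (h : Relation.ReflTransGen Adj A B) :
    Relation.ReflTransGen Adj B A := by
  induction h with
  | refl => exact Relation.ReflTransGen.refl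
  | tail _ h ih =>
    exact Relation.ReflTransGen.head ⟨h.2.1, h.1, fun b hb a ha => (h.2.2 a ha b hb).symm⟩ ih

omit [Finite G] in
theorem conn_of_le {S : Subgroup G} (hS : Cfsg.IsFourConnected S) {U V : Subgroup G}
    (hU : IsKleinFour U) (hV : IsKleinFour V) (hUS : U ≤ S) (hVS : V ≤ S) :
    Relation.ReflTransGen Adj U V := by
  have h := hS _ _ (H18.isKleinFour_subgroupOf hU hUS) (H18.isKleinFour_subgroupOf hV hVS)
  have key : ∀ A B : Subgroup S, Relation.ReflTransGen
      (fun A B : Subgroup S => IsKleinFour A ∧ IsKleinFour B ∧ ∀ a ∈ A, ∀ b ∈ B, a * b = b * a)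
      A B → Relation.ReflTransGen Adj (A.map S.subtype) (B.map S.subtype) := by
    intro A B h
    induction h with
    | refl => exact Relation.ReflTransGen.refl
    | tail _ h ih =>
      refine ih.tail ⟨H18.isKleinFour_map h.1 _ S.subtype_injective,
        H18.isKleinFour_map h.2.1 _ S.subtype_injective, ?_⟩
      rintro _ ⟨a, ha, rfl⟩ _ ⟨b, hb, rfl⟩
      rw [← map_mul, ← map_mul, h.2.2 a ha b hb]
  have := key _ _ h
  rwa [map_subgroupOf_eq_of_le hUS, map_subgroupOf_eq_of_le hVS] at this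

theorem normalizer_le {S M : Subgroup G} (hS : SylIn 2 S M)
    (hM : ∀ Q U : Subgroup G, Q ≤ S → U ≤ Q → IsKleinFour U → normalizer (Q : Set G) ≤ M)
    {Q U : Subgroup G} (hQ : IsPGroup 2 Q) (hQM : Q ≤ M) (hUQ : U ≤ Q) (hU : IsKleinFour U) :
    normalizer (Q : Set G) ≤ M := by
  have : Fact (Nat.Prime 2) := ⟨Nat.prime_two⟩
  obtain ⟨m, hm, hc⟩ := hS.exists_conj hQ hQM
  have h1 := hM (cj m Q) (cj m U) (cj_le_iff.mpr hc) (cj_mono m hUQ) (isKleinFour_cj hU m)
  rw [← cj_normalizer, ← cj_of_mem hm, cj_le_cj_iff] at h1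
  exact h1

theorem mem_of_conj_le {S M : Subgroup G} (hS : SylIn 2 S M)
    (hM : ∀ Q U : Subgroup G, Q ≤ S → U ≤ Q → IsKleinFour U → normalizer (Q : Set G) ≤ M)
    {U : Subgroup G} (hU : IsKleinFour U) {g : G} :
    ∀ Q : Subgroup G, IsPGroup 2 Q → U ≤ Q → Q ≤ M → cj g Q ≤ M → g ∈ M := by
  have : Fact (Nat.Prime 2) := ⟨Nat.prime_two⟩
  intro Q
  induction Q using WellFoundedGT.induction with
  | ind Q ih =>
    intro hQ hUQ hQM hgQ
    obtain ⟨T, hT, hQT⟩ := exists_sylIn (H := ⊤) hQ le_top
    rcases hQT.lt_or_eq with hlt | rfl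
    · refine ih _ (lt_inf_normalizer hT.isP hlt) hT.isP.to_inf_left
        (hUQ.trans (lt_inf_normalizer hT.isP hlt).le)
        (inf_le_right.trans (normalizer_le hS hM hQ hQM hUQ hU)) ?_
      refine (cj_mono g inf_le_right).trans ?_
      rw [cj_normalizer]
      exact normalizer_le hS hM (isPGroup_cj g hQ) hgQ (cj_mono g hUQ) (isKleinFour_cj hU g)
    · obtain ⟨m, hm, hc⟩ := (hT.of_le hQM le_top).exists_conj (isPGroup_cj g hQ) hgQ
      have h1 : m * g ∈ normalizer (Q : Set G) := by
        apply mem_normalizer_of_conj_mem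
        intro x hx
        have := hc _ (conj_mem_cj (g := g) hx)
        simpa [mul_assoc] using this
      have h2 := normalizer_le hS hM hQ hQM hUQ hU h1
      exact (M.mul_mem_cancel_left hm).mp h2

/-- Let G be a finite group of 2-rank at least 2 and S a Sylow 2-subgroup whose commuting graph of Klein four-subgroups is
connected. Then the commuting graph of Klein four-subgroups of G is disconnected if and only if the 2-generated core — the
subgroup generated by the normalizers N_G(Q) of the subgroups Q of S that contain a Klein four-group — is a proper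
subgroup of G. -/
theorem result {G : Type*} [Group G] [Finite G] (h2 : ¬ Cfsg.PRankLE 2 1 G)
    (S : Sylow 2 G) (hS : Cfsg.IsFourConnected (S : Subgroup G)) :
    ¬ Cfsg.IsFourConnected G ↔
      (⨆ Q : {Q : Subgroup G // Q ≤ (S : Subgroup G) ∧ ¬ Cfsg.PRankLE 2 1 Q},
          Subgroup.normalizer ((Q : Subgroup G) : Set G)) ≠ ⊤ := by
  have : Fact (Nat.Prime 2) := ⟨Nat.prime_two⟩
  set M := (⨆ Q : {Q : Subgroup G // Q ≤ (S : Subgroup G) ∧ ¬ Cfsg.PRankLE 2 1 Q},
    Subgroup.normalizer ((Q : Subgroup G) : Set G)) with hMdef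
  have hM : ∀ Q U : Subgroup G, Q ≤ S → U ≤ Q → IsKleinFour U → normalizer (Q : Set G) ≤ M :=
    fun Q U h1 h2 h3 => le_iSup_of_le (f := fun Q : {Q : Subgroup G // Q ≤ (S : Subgroup G) ∧
      ¬ Cfsg.PRankLE 2 1 Q} => Subgroup.normalizer ((Q : Subgroup G) : Set G))
      ⟨Q, h1, H18.not_pRankLE_one_iff_le.mpr ⟨U, h2, h3⟩⟩ le_rfl
  have hp : ∀ {U : Subgroup G}, IsKleinFour U → IsPGroup 2 U := fun hU =>
    IsPGroup.of_card (n := 2) hU.card_four
  have hconj : ∀ {U : Subgroup G}, IsKleinFour U → ∃ g, cj g U ≤ S := fun hU => by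
    obtain ⟨g, hg⟩ := exists_conj_sylow S (hp hU)
    exact ⟨g, cj_le_iff.mpr hg⟩
  obtain ⟨U₀, hU₀⟩ := H18.not_pRankLE_one_iff.mp h2
  obtain ⟨g₀, hg₀⟩ := hconj hU₀
  have hU := isKleinFour_cj hU₀ g₀
  set U := cj g₀ U₀
  have hSM : (S : Subgroup G) ≤ M := le_normalizer.trans (hM S U le_rfl hg₀ hU)
  have hSyl := sylIn_of_le S hSM
  rw [not_iff_not]
  constructor
  · intro hc
    rw [eq_top_iff]
    intro g _
    refine mem_of_conj_le hSyl hM hU U (hp hU) le_rfl (hg₀.trans hSM) ?_
    have key : ∀ V, Relation.ReflTransGen Adj U V → V ≤ M := by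
      intro V h
      induction h with
      | refl => exact hg₀.trans hSM
      | tail _ h ih =>
        refine le_trans ?_ ((centralizer_le_normalizer _).trans
          (normalizer_le hSyl hM (hp h.1) ih le_rfl h.1))
        intro b hb a ha
        exact h.2.2 a ha b hb
    exact key _ (hc U _ hU (isKleinFour_cj hU g))
  · intro htop
    let H : Subgroup G :=
      { carrier := {g | Relation.ReflTransGen Adj U (cj g U)}
        one_mem' := by
          change Relation.ReflTransGen Adj U (cj 1 U)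
          rw [cj_one]
        mul_mem' := fun {a b} ha hb => by
          change Relation.ReflTransGen Adj U (cj (a * b) U)
          rw [← cj_cj]
          exact Relation.ReflTransGen.trans ha (conn_cj hb a)
        inv_mem' := fun {a} ha => by
          have := conn_cj ha a⁻¹
          rw [cj_inv_cj] at this
          exact conn_symm this }
    have hH : M ≤ H := by
      refine iSup_le fun Q g hg => ?_
      obtain ⟨V, hVQ, hV⟩ := H18.not_pRankLE_one_iff_le.mp Q.2.2
      have h1 : cj g V ≤ S := by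
        refine le_trans ?_ Q.2.1
        have := cj_mono g hVQ
        rwa [cj_eq_iff_mem_normalizer.mpr hg] at this
      exact (conn_of_le hS hU (isKleinFour_cj hV g) hg₀ h1).trans
        (conn_cj (conn_of_le hS hV hU (hVQ.trans Q.2.1) hg₀) g)
    have key : ∀ V : Subgroup G, IsKleinFour V → Relation.ReflTransGen Adj U V := by
      intro V hV
      obtain ⟨g, hg⟩ := hconj hV
      have h1 : Relation.ReflTransGen Adj U (cj g⁻¹ U) := hH (htop ▸ mem_top g⁻¹)
      have h2 := conn_cj (conn_of_le hS hU (isKleinFour_cj hV g) hg₀ hg) g⁻¹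
      rw [cj_inv_cj] at h2
      exact h1.trans h2
    intro V W hV hW
    exact (conn_symm (key V hV)).trans (key W hW)

end Cfsg.Agent.S0520
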