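import Cfsg.Statements.S0521
import Cfsg.Agent.H21.PStab2
import Cfsg.Agent.H49.SylowOf
import Cfsg.Agent.H51.PStable

set_option autoImplicit false
open Cfsg

namespace Cfsg.Agent.S0521

open Cfsg.Agent.H49 Subgroup

universe u

theorem core {G : Type u} [Group G] [Finite G] [Group.IsSolvable G] (hX : Odd (Nat.card G))
    {p : ℕ} [hp : Fact p.Prime] (hO : pPrimeCore p G = ⊥) (S : Sylow p G)
    (hS : IsCyclic ↥⁅(S : Subgroup G), (S : Subgroup G)⁆) : (S : Subgroup G) ≤ pCore p G := by
  have two : ∀ T : Subgroup G, IsPGroup 2 T → T = ⊥ := fun T hT => by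
    obtain ⟨n, hn⟩ := IsPGroup.iff_card.1 hT
    have h3 : Odd (2 ^ n) := hn ▸ Odd.of_dvd_nat hX (card_subgroup_dvd_card T)
    have h4 : n = 0 := by
      by_contra h5
      rw [Nat.odd_pow_iff h5] at h3
      exact absurd h3 (by decide)
    rwa [h4, pow_zero, card_eq_one] at hn
  by_cases hp2 : p = 2
  · subst hp2
    rw [two _ S.isPGroup']
    exact bot_le
  obtain ⟨T⟩ : Nonempty (Sylow 2 G) := inferInstance
  have hq : H21.QuadStable p G := H21.quadStable_of_sylow_two_comm hp2 (T := T) (by
    rw [two _ T.isPGroup']; infer_instance)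
  have hQ : IsPGroup p (pCore p G) := H22.isPGroup_pCore
  have hC := H22.IsPSolvable.centralizer_pCore_le (H22.isPSolvable_of_isSolvable (p := p)) hO
  have hel := H21.isElementaryAbelian_map_mk_frattini hQ
  set Q := pCore p G with hQdef
  set Φ := (frattini Q).map Q.subtype with hΦ
  set π := QuotientGroup.mk' Φ with hπ
  have hQS : Q ≤ S := H22.pCore_le_sylow S
  have hn : (Q.map π).Normal := Normal.map inferInstance _ (QuotientGroup.mk'_surjective _)
  have hK : ⁅⁅Q.map π, (S : Subgroup G).map π⁆, (S : Subgroup G).map π⁆ = ⊥ := by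
    set K := ⁅Q.map π, (S : Subgroup G).map π⁆ with hKdef
    by_cases hK0 : K = ⊥
    · rw [hK0, commutator_bot_left]
    have h1 : K ≤ Q.map π := commutator_le_left _ _
    have h2 : K ≤ (⁅(S : Subgroup G), (S : Subgroup G)⁆).map π := by
      rw [Subgroup.map_commutator]
      exact commutator_mono (map_mono hQS) le_rfl
    have h3 : IsCyclic ↥((⁅(S : Subgroup G), (S : Subgroup G)⁆).map π) :=
      isCyclic_of_surjective _ (π.subgroupMap_surjective _)
    have h4 : IsCyclic K := isCyclic_of_le h2
    have h5 : Nat.card K = p := by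
      obtain ⟨g, hg⟩ := IsCyclic.exists_ofOrder_eq_natCard (α := K)
      have h6 : orderOf g ∣ p := orderOf_dvd_of_pow_eq_one (Subtype.ext (hel.2 g (h1 g.2)))
      rw [hg] at h6
      exact ((Nat.dvd_prime hp.out).1 h6).resolve_left fun e => hK0 (card_eq_one.1 e)
    have h6 := inf_center_ne_bot_of_nilpotent (N := K) (K := (S : Subgroup G).map π)
      (S.isPGroup'.map π).isNilpotent (h1.trans (map_mono hQS))
      (norm_commutator le_normalizer_of_normal le_normalizer) hK0
    exact commutator_eq_bot_iff.2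
      ((inf_eq_bot_or_le_of_prime_card (by rw [h5]; exact hp.out) _).resolve_left h6)
  intro a ha
  obtain ⟨D, hD, -, ⟨k, hk⟩, h2⟩ := hq.isPStableOnSection Q Φ hel a (by
    rw [← QuotientGroup.ker_mk' Φ, ← Subgroup.map_eq_bot_iff, eq_bot_iff, ← hK,
      Subgroup.map_commutator, Subgroup.map_commutator]
    exact commutator_mono (commutator_mono le_rfl (map_mono (zpowers_le.2 ha)))
      (map_mono (zpowers_le.2 ha)))
  refine H22.le_pCore hD ?_ h2
  rintro ⟨d, hd⟩
  have hn2 : (sectionKernel Q Φ).Normal := by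
    unfold sectionKernel
    infer_instance
  have h3 : d ^ p ^ k ∈ sectionKernel Q Φ := by
    rw [← hk]
    exact pow_relIndex_mem _ hd
  obtain ⟨n, hn⟩ := H21.exists_pow_mem_centralizer_of_mem_sectionKernel hQ h3
  obtain ⟨m, hm⟩ := hQ ⟨_, hC hn⟩
  refine ⟨k + n + m, Subtype.ext ?_⟩
  have hm' : ((d ^ p ^ k) ^ p ^ n) ^ p ^ m = 1 := congrArg Subtype.val hm
  rwa [← pow_mul, ← pow_mul, ← pow_add, ← pow_add, ← add_assoc] at hm'

/-- Let X be a finite solvable group of odd order, p a prime and S a Sylow p-subgroup of X whose commutator subgroup is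
cyclic. Then the product of the largest normal subgroup of X of order prime to p with S is a normal subgroup of X. -/
theorem result {X : Type*} [Group X] [Finite X] [Group.IsSolvable X]
    (hX : Odd (Nat.card X)) (p : ℕ) [Fact p.Prime] (S : Sylow p X) (hS : IsCyclic (commutator (S : Subgroup X))) :
    (Cfsg.pPrimeCore p X ⊔ (S : Subgroup X)).Normal := by
  set N := Cfsg.pPrimeCore p X with hN
  have hπ := QuotientGroup.mk'_surjective N
  let Q : Sylow p (X ⧸ N) := S.mapSurjective hπ
  have hS' : IsCyclic ↥⁅(S : Subgroup X), (S : Subgroup X)⁆ := by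
    rw [← map_subtype_commutator]
    exact isCyclic_of_surjective _ ((S : Subgroup X).subtype.subgroupMap_surjective _)
  have h3 : (Q : Subgroup (X ⧸ N)) ≤ Cfsg.pCore p (X ⧸ N) :=
    core (Odd.of_dvd_nat hX (card_quotient_dvd_card _)) H22.pPrimeCore_quotient_pPrimeCore Q (by
      change IsCyclic ↥⁅(S : Subgroup X).map (QuotientGroup.mk' N),
        (S : Subgroup X).map (QuotientGroup.mk' N)⁆
      rw [← Subgroup.map_commutator]
      exact isCyclic_of_surjective _ ((QuotientGroup.mk' N).subgroupMap_surjective _))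
  have h4 : ((S : Subgroup X).map (QuotientGroup.mk' N)).Normal := by
    change (Q : Subgroup (X ⧸ N)).Normal
    rw [le_antisymm h3 (H22.pCore_le_sylow Q)]
    infer_instance
  have h5 := h4.comap (QuotientGroup.mk' N)
  rwa [Subgroup.comap_map_eq, QuotientGroup.ker_mk', sup_comm] at h5

end Cfsg.Agent.S0521
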