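import Cfsg.Statements.S0522
import Cfsg.Agent.H51.Transit
import Cfsg.Agent.H22.PConstrained

set_option autoImplicit false
open Cfsg

namespace Cfsg.Agent.S0522

open Cfsg.Agent.H49 Subgroup

/-- Transitivity Theorem (odd-order setting). Let X be a finite group of odd order in which the normalizer of every
nontrivial p-subgroup is solvable, P a Sylow p-subgroup, and B an abelian subgroup of P, normalized by P, with
C_P(B) = B and containing an elementary abelian subgroup of order p^3. Then for every prime q ≠ p, any two q-subgroups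
that are maximal among the q-subgroups normalized by B are conjugate by an element of the centralizer of B. -/
theorem result {X : Type*} [Group X] [Finite X] (hX : Odd (Nat.card X)) (p : ℕ)
    [Fact p.Prime] (hloc : ∀ T : Subgroup X, IsPGroup p T → T ≠ ⊥ → Group.IsSolvable (Subgroup.normalizer (T : Set X)))
    (P : Sylow p X) (B : Subgroup X) (hBP : B ≤ (P : Subgroup X))
    (hBn : ∀ x ∈ (P : Subgroup X), ∀ b ∈ B, x * b * x⁻¹ ∈ B) (hBa : IsMulCommutative B)
    (hBc : (P : Subgroup X) ⊓ Subgroup.centralizer (B : Set X) = B)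
    (hB3 : ∃ E : Subgroup X, E ≤ B ∧ (∀ e ∈ E, e ^ p = 1) ∧ p ^ 3 ≤ Nat.card E)
    (q : ℕ) [Fact q.Prime] (hqp : q ≠ p) (Q₁ Q₂ : Subgroup X)
    (h₁ : IsPGroup q Q₁ ∧ B ≤ Subgroup.normalizer (Q₁ : Set X) ∧
      ∀ R : Subgroup X, IsPGroup q R → B ≤ Subgroup.normalizer (R : Set X) → Q₁ ≤ R → R = Q₁)
    (h₂ : IsPGroup q Q₂ ∧ B ≤ Subgroup.normalizer (Q₂ : Set X) ∧
      ∀ R : Subgroup X, IsPGroup q R → B ≤ Subgroup.normalizer (R : Set X) → Q₂ ≤ R → R = Q₂) :
    ∃ c ∈ Subgroup.centralizer (B : Set X), Q₂ = Q₁.map (MulAut.conj c).toMonoidHom := by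
  have hp : p.Prime := Fact.out
  have hq : q.Prime := Fact.out
  obtain ⟨E, hEB, hEp, hE3⟩ := hB3
  have hBc' : B ≤ 𝒞(B) := abelian_iff.1 hBa
  have hPN : (P : Subgroup X) ≤ 𝒩(B) := le_norm_iff.2 hBn
  have hS : IsSylowOf p B 𝒞(B) := by
    have := ((sylowOf_top hp P).sub hPN le_top).inf_normal (cent_le_norm B) (norm_cent le_rfl)
    rwa [hBc] at this
  have key : ∀ {Q : Subgroup X}, (IsPGroup q Q ∧ B ≤ 𝒩(Q) ∧
      ∀ R : Subgroup X, IsPGroup q R → B ≤ 𝒩(R) → Q ≤ R → R = Q) → Q ∈ maxInvSubgroups ⊤ B {q} :=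
    fun h => H48.mem_maxInv_iff.2 ⟨⟨isPi_of_isPGroup hq h.1, h.2.1⟩,
      fun R h1 h2 h3 => h.2.2 R (h1.isPGroup hq) h2 h3⟩
  obtain ⟨k, hk, e⟩ := H51.transit (p := p) (E := B) (A := E)
    (fun T h1 h2 => by
      have := hloc T h1 h2
      exact H22.IsPSolvable.isPConstrained H22.isPSolvable_of_isSolvable)
    (fun h2 S hS => by
      obtain ⟨n, hn⟩ := IsPGroup.iff_card.1 hS
      have h3 : Odd (p ^ n) := hn ▸ Odd.of_dvd_nat hX (card_subgroup_dvd_card S)
      have h4 : n = 0 := by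
        by_contra h5
        rw [Nat.odd_pow_iff h5, h2] at h3
        exact absurd h3 (by decide)
      rw [h4, pow_zero, card_eq_one] at hn
      rw [hn, cent_bot]
      exact le_top)
    (P.isPGroup'.to_le hBP) hBc'
    (fun T h1 h2 => hS.le_of_normal (cent_le_norm B) h1 (isPi_of_isPGroup hp h2))
    hEB ⟨abelian_of_le hBa hEB, hEp⟩
    (lt_of_lt_of_le (Nat.pow_lt_pow_right hp.one_lt (by norm_num)) hE3) hqp ⊥
    Q₁ (key h₁) Q₂ (key h₂) bot_le bot_le
  exact ⟨k, piCoreOf_le _ _ hk, e⟩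

end Cfsg.Agent.S0522
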