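import Cfsg.Statements.S0531
import Cfsg.Agent.H19.Supersolvable

set_option autoImplicit false
open Cfsg

namespace Cfsg.Agent.S0531

theorem card_comap_mk' {G : Type*} [Group G] (N : Subgroup G) [N.Normal] (K : Subgroup (G ⧸ N)) :
    Nat.card (K.comap (QuotientGroup.mk' N)) = Nat.card N * Nat.card K :=
  QuotientGroup.card_preimage_mk N (K : Set (G ⧸ N))

/-- A finite supersolvable group has a subgroup of each order dividing its order. -/
theorem result {G : Type*} [Group G] [Finite G] (hG : Cfsg.IsSupersolvable G) : Cfsg.HasSubgroupOfEveryOrder G := by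
  refine H19.isSupersolvable_induction (P := fun G _ => Cfsg.HasSubgroupOfEveryOrder G) ?_ ?_ G hG
  · intro G _ _ d hd
    rw [Nat.card_unique, Nat.dvd_one] at hd
    exact ⟨⊥, by rw [hd, Subgroup.card_bot]⟩
  · intro G _ _ N _ _ hp ih d hd
    have hcard : Nat.card G = Nat.card N * Nat.card (G ⧸ N) := by
      rw [← N.card_mul_index, Subgroup.index_eq_card]
    by_cases hpd : Nat.card N ∣ d
    · obtain ⟨e, rfl⟩ := hpd
      rw [hcard] at hd
      obtain ⟨K, hK⟩ := ih e (Nat.dvd_of_mul_dvd_mul_left hp.pos hd)
      exact ⟨K.comap (QuotientGroup.mk' N), by rw [card_comap_mk', hK]⟩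
    · have hcop : (Nat.card N).Coprime d := (Nat.Prime.coprime_iff_not_dvd hp).mpr hpd
      rw [hcard] at hd
      obtain ⟨K, hK⟩ := ih d (hcop.symm.dvd_of_dvd_mul_left hd)
      let L := K.comap (QuotientGroup.mk' N)
      have hNL : N ≤ L := by
        intro x hx
        change QuotientGroup.mk' N x ∈ K
        rw [QuotientGroup.mk'_apply, (QuotientGroup.eq_one_iff x).mpr hx]
        exact K.one_mem
      have hL : Nat.card L = Nat.card N * d := by rw [card_comap_mk', hK]
      have h1 : Nat.card (N.subgroupOf L) = Nat.card N :=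
        Nat.card_congr (Subgroup.subgroupOfEquivOfLe hNL).toEquiv
      have h2 : (N.subgroupOf L).index = d := by
        have := (N.subgroupOf L).card_mul_index
        rw [h1, hL] at this
        exact Nat.eq_of_mul_eq_mul_left hp.pos this
      obtain ⟨H, hH⟩ := Subgroup.exists_right_complement'_of_coprime (N := N.subgroupOf L)
        (by rw [h1, h2]; exact hcop)
      refine ⟨H.map L.subtype, ?_⟩
      rw [Subgroup.card_map_of_injective L.subtype_injective, ← hH.symm.index_eq_card, h2]

end Cfsg.Agent.S0531
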