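import Cfsg.Statements.S0529
import Cfsg.Agent.H19.Supersolvable
import Cfsg.Agent.S0531

set_option autoImplicit false
open Cfsg

namespace Cfsg.Agent.S0529

universe u

/-- A finite supersolvable group has a normal subgroup of order its largest prime divisor. -/
theorem exists_normal_card_max_prime {G : Type u} [Group G] [Finite G]
    (hG : Cfsg.IsSupersolvable G) (p : ℕ) (hp : p.Prime) (hpd : p ∣ Nat.card G)
    (hmax : ∀ q : ℕ, q.Prime → q ∣ Nat.card G → q ≤ p) :
    ∃ K : Subgroup G, K.Normal ∧ Nat.card K = p := by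
  revert hpd hmax
  refine H19.isSupersolvable_induction (P := fun G _ => p ∣ Nat.card G →
    (∀ q : ℕ, q.Prime → q ∣ Nat.card G → q ≤ p) → ∃ K : Subgroup G, K.Normal ∧ Nat.card K = p)
    ?_ ?_ G hG
  · intro G _ _ hd _
    rw [Nat.card_unique] at hd
    exact absurd hd hp.not_dvd_one
  · intro G _ _ N hN _ hq ih hd hmax
    by_cases hqp : Nat.card N = p
    · exact ⟨N, hN, hqp⟩
    have hcard : Nat.card G = Nat.card N * Nat.card (G ⧸ N) := by
      rw [← N.card_mul_index, Subgroup.index_eq_card]
    have hcop : p.Coprime (Nat.card N) := (Nat.coprime_primes hp hq).mpr (Ne.symm hqp)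
    obtain ⟨K, hKn, hK⟩ := ih (hcop.dvd_of_dvd_mul_left (hcard ▸ hd))
      (fun q hq hqd => hmax q hq (hcard ▸ hqd.mul_left _))
    let L := K.comap (QuotientGroup.mk' N)
    have hL : Nat.card L = Nat.card N * p := by rw [S0531.card_comap_mk', hK]
    have := Fact.mk hp
    obtain ⟨R, hR⟩ := Sylow.exists_subgroup_card_pow_prime (G := L) p (n := 1)
      (by rw [hL, pow_one]; exact Dvd.intro_left _ rfl)
    rw [pow_one] at hR
    have hi : R.index = Nat.card N := by
      have h1 := R.index_mul_card
      rw [hL, hR] at h1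
      exact Nat.eq_of_mul_eq_mul_right hp.pos h1
    have hle : Nat.card N ≤ p := hmax _ hq N.card_subgroup_dvd_card
    have hRn : R.Normal := by
      apply Subgroup.normal_of_index_eq_minFac_card
      rw [hi, hL]
      apply le_antisymm
      · have h2 : (Nat.card N * p).minFac.Prime :=
          Nat.minFac_prime (fun h => hp.one_lt.ne' (Nat.eq_one_of_mul_eq_one_left h))
        rcases (Nat.Prime.dvd_mul h2).mp (Nat.minFac_dvd _) with h | h
        · exact ((Nat.prime_dvd_prime_iff_eq h2 hq).mp h).ge
        · exact hle.trans ((Nat.prime_dvd_prime_iff_eq h2 hp).mp h).ge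
      · exact Nat.minFac_le_of_dvd hq.two_le (Dvd.intro _ rfl)
    let S : Sylow p L := (IsPGroup.of_card (n := 1) (by rw [hR, pow_one])).toSylow
      (by rw [hi]; exact (Nat.Prime.coprime_iff_not_dvd hp).mp hcop)
    have hS : R.Characteristic := S.characteristic_of_normal hRn
    refine ⟨R.map L.subtype, H19.normal_map_of_characteristic L R, ?_⟩
    rw [Subgroup.card_map_of_injective L.subtype_injective, hR]

/-- A finite supersolvable group has a chain of normal subgroups, from the trivial subgroup to the whole group, in which every step has prime index and the primes occurring are non-increasing as one goes up the chain. -/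
theorem result {G : Type*} [Group G] [Finite G] (hG : Cfsg.IsSupersolvable G) : ∃ (n : ℕ) (H : Fin (n + 1) → Subgroup G), H 0 = ⊥ ∧ H (Fin.last n) = ⊤ ∧ (∀ i, (H i).Normal) ∧ (∀ i : Fin n, H i.castSucc ≤ H i.succ ∧ ((H i.castSucc).relIndex (H i.succ)).Prime) ∧ ∀ i j : Fin n, i ≤ j → (H j.castSucc).relIndex (H j.succ) ≤ (H i.castSucc).relIndex (H i.succ) := by
  induction hn : Nat.card G using Nat.strong_induction_on generalizing G with
  | _ n ih =>
  cases subsingleton_or_nontrivial G with
  | inl _ =>
    exact ⟨0, fun _ => ⊥, rfl, Subsingleton.elim _ _, fun _ => inferInstance, fun i => i.elim0,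
      fun i => i.elim0⟩
  | inr _ =>
  have hne : (Nat.card G).primeFactors.Nonempty :=
    Nat.nonempty_primeFactors.mpr Finite.one_lt_card
  obtain ⟨p, hpmem, hmax⟩ := Finset.exists_max_image _ id hne
  have hp : p.Prime := Nat.prime_of_mem_primeFactors hpmem
  have hpd : p ∣ Nat.card G := Nat.dvd_of_mem_primeFactors hpmem
  have hmax' : ∀ q : ℕ, q.Prime → q ∣ Nat.card G → q ≤ p := fun q hq hqd =>
    hmax q (Nat.mem_primeFactors.mpr ⟨hq, hqd, Nat.card_pos.ne'⟩)
  obtain ⟨K, hKn, hK⟩ := exists_normal_card_max_prime hG p hp hpd hmax'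
  have hKbot : K ≠ ⊥ := (Subgroup.one_lt_card_iff_ne_bot K).mp (hK ▸ hp.one_lt)
  obtain ⟨m, H, h0, hl, hN, hs, hd⟩ := ih _ (hn ▸ H19.card_quotient_lt hKbot)
    (H19.isSupersolvable_quotient hG K) rfl
  let π := QuotientGroup.mk' K
  have hπ : Function.Surjective π := QuotientGroup.mk'_surjective K
  have hrel : ∀ A B : Subgroup (G ⧸ K), (A.comap π).relIndex (B.comap π) = A.relIndex B := by
    intro A B
    rw [Subgroup.relIndex_comap, Subgroup.map_comap_eq_self_of_surjective hπ]
  let H' : Fin (m + 1 + 1) → Subgroup G := Fin.cons ⊥ fun i => (H i).comap π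
  have e0 : H' 0 = ⊥ := rfl
  have es : ∀ i : Fin (m + 1), H' i.succ = (H i).comap π := fun i => rfl
  have e1 : (H' (Fin.castSucc 0)).relIndex (H' (Fin.succ 0)) = p := by
    rw [Fin.castSucc_zero, e0, es, h0, MonoidHom.comap_bot, QuotientGroup.ker_mk',
      Subgroup.relIndex_bot_left, hK]
  have e2 : ∀ j : Fin m, (H' (Fin.castSucc j.succ)).relIndex (H' (Fin.succ j.succ)) =
      (H j.castSucc).relIndex (H j.succ) := by
    intro j
    rw [← Fin.succ_castSucc, es, es, hrel]
  have hprime : ∀ i : Fin (m + 1), H' i.castSucc ≤ H' i.succ ∧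
      ((H' i.castSucc).relIndex (H' i.succ)).Prime := by
    intro i
    refine Fin.cases ?_ (fun j => ?_) i
    · exact ⟨bot_le, e1 ▸ hp⟩
    · refine ⟨?_, e2 j ▸ (hs j).2⟩
      rw [← Fin.succ_castSucc, es, es]
      exact Subgroup.comap_mono (hs j).1
  refine ⟨m + 1, H', rfl, ?_, ?_, hprime, ?_⟩
  · rw [← Fin.succ_last, es, hl, Subgroup.comap_top]
  · intro i
    refine Fin.cases ?_ (fun j => ?_) i
    · rw [e0]; infer_instance
    · rw [es]; exact (hN j).comap π
  · intro i j
    refine Fin.cases ?_ (fun i' => ?_) i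
    · intro _
      rw [e1]
      exact hmax' _ (hprime j).2 ((Subgroup.relIndex_dvd_card _ _).trans
        (Subgroup.card_subgroup_dvd_card _))
    · refine Fin.cases ?_ (fun j' => ?_) j
      · intro h
        exact absurd h (by simp)
      · intro h
        rw [e2, e2]
        exact hd i' j' (Fin.succ_le_succ_iff.mp h)

end Cfsg.Agent.S0529
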