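import Cfsg.Statements.S0530
import Cfsg.Agent.H19.Supersolvable

set_option autoImplicit false
open Cfsg

namespace Cfsg.Agent.S0530

/-- A finite group whose order is twice a prime power is supersolvable. -/
theorem result {G : Type*} [Group G] [Finite G] (p n : ℕ) (hp : p.Prime) (hG : Nat.card G = 2 * p ^ n) : Cfsg.IsSupersolvable G := by
  have := Fact.mk hp
  obtain ⟨P, hP⟩ := Sylow.exists_subgroup_card_pow_prime (G := G) p (n := n)
    (by rw [hG]; exact Dvd.intro_left 2 rfl)
  have hi : P.index = 2 := by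
    have h1 := P.index_mul_card
    rw [hG, hP] at h1
    exact Nat.eq_of_mul_eq_mul_right (pow_pos hp.pos n) h1
  have hPn : P.Normal := Subgroup.normal_of_index_eq_two hi
  have hnil : Group.IsNilpotent P := (IsPGroup.of_card hP).isNilpotent
  apply H19.isSupersolvable_of_forall_quotient
  intro N _ hN
  have : Nontrivial (G ⧸ N) := QuotientGroup.nontrivial_iff.mpr hN
  have hπ := QuotientGroup.mk'_surjective N
  have hQn : (P.map (QuotientGroup.mk' N)).Normal := hPn.map _ hπ
  have hQi : (P.map (QuotientGroup.mk' N)).index ∣ 2 := hi ▸ Subgroup.index_map_dvd P hπ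
  have hQnil : Group.IsNilpotent (P.map (QuotientGroup.mk' N)) :=
    Group.nilpotent_of_surjective _ ((QuotientGroup.mk' N).subgroupMap_surjective P)
  generalize P.map (QuotientGroup.mk' N) = Q at hQn hQi hQnil
  by_cases hbot : Q = ⊥
  · rw [hbot, Subgroup.index_bot] at hQi
    have : IsCyclic (G ⧸ N) := isCyclic_of_card_dvd_prime hQi
    exact H19.exists_zpowers_normal_of_cyclic ⊤ top_ne_bot
  have : Nontrivial Q := (Subgroup.nontrivial_iff_ne_bot Q).mpr hbot
  let Z : Subgroup (G ⧸ N) := (Subgroup.center Q).map Q.subtype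
  have hZn : Z.Normal := H19.normal_map_of_characteristic Q _
  have hZQ : Z ≤ Q := Subgroup.map_subtype_le _
  have hZP : ∀ z ∈ Z, ∀ y ∈ Q, y * z = z * y := by
    rintro _ ⟨z, hz, rfl⟩ y hy
    exact congrArg Subtype.val (Subgroup.mem_center_iff.mp hz ⟨y, hy⟩)
  obtain ⟨⟨z, hz⟩, hz1⟩ := (Subgroup.ne_bot_iff_exists_ne_one (H := Z)).mp (by
    intro h
    apply Group.IsNilpotent.center_ne_bot Q
    rwa [← Subgroup.map_eq_bot_iff_of_injective _ Q.subtype_injective])
  have hz1 : z ≠ 1 := fun h => hz1 (Subtype.ext h)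
  obtain ⟨t, ht⟩ := Subgroup.index_dvd_two_iff.mp hQi
  -- a subgroup of `Z` generated by `w` is normal as soon as `t` normalises it
  have key : ∀ w ∈ Z, t * w * t⁻¹ ∈ Subgroup.zpowers w → (Subgroup.zpowers w).Normal := by
    intro w hw htw
    have h1 : ∀ g, g * w * g⁻¹ ∈ Subgroup.zpowers w := by
      intro g
      rcases ht g⁻¹ with h | h
      · have h2 : g * w * g⁻¹ = t * ((g⁻¹ * t)⁻¹ * w * (g⁻¹ * t)) * t⁻¹ := by group
        rw [h2, hZP w hw _ (Q.inv_mem h), inv_mul_cancel_right]
        exact htw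
      · rw [hZP w hw g (by simpa using Q.inv_mem h), mul_inv_cancel_right]
        exact Subgroup.mem_zpowers w
    constructor
    intro x hx g
    obtain ⟨k, rfl⟩ := Subgroup.mem_zpowers_iff.mp hx
    rw [← conj_zpow]
    exact Subgroup.zpow_mem _ (h1 g) k
  have htz : t * z * t⁻¹ ∈ Z := hZn.conj_mem z hz t
  by_cases hw : z * (t * z * t⁻¹) = 1
  · refine ⟨z, hz1, key z hz ?_⟩
    rw [eq_inv_of_mul_eq_one_right hw]
    exact Subgroup.inv_mem _ (Subgroup.mem_zpowers z)
  · refine ⟨_, hw, key _ (Z.mul_mem hz htz) ?_⟩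
    have htt : t * t ∈ Q := by
      rcases ht t with h | h
      · exact h
      · exact Q.mul_mem h h
    have h3 : t * (z * (t * z * t⁻¹)) * t⁻¹ = (t * z * t⁻¹) * ((t * t) * z * (t * t)⁻¹) := by group
    rw [h3, hZP z hz _ htt, mul_inv_cancel_right, hZP z hz _ (hZQ htz)]
    exact Subgroup.mem_zpowers _

end Cfsg.Agent.S0530
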