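import Cfsg.Statements.S0532
import Cfsg.Agent.H19.Basic

set_option autoImplicit false
open Cfsg

namespace Cfsg.Agent.S0532

universe u

theorem hereditary {G : Type u} [Group G] (h : ∀ H : Subgroup G, Cfsg.HasSubgroupOfEveryOrder H)
    (K : Subgroup G) : ∀ H : Subgroup K, Cfsg.HasSubgroupOfEveryOrder H := by
  intro H d hd
  let e := Subgroup.equivMapOfInjective H K.subtype K.subtype_injective
  obtain ⟨L, hL⟩ := h (H.map K.subtype) d (by rwa [← Nat.card_congr e.toEquiv])
  exact ⟨L.map e.symm.toMonoidHom, by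
    rw [Subgroup.card_map_of_injective e.symm.injective, hL]⟩

theorem self_clt {G : Type u} [Group G] (h : ∀ H : Subgroup G, Cfsg.HasSubgroupOfEveryOrder H) :
    Cfsg.HasSubgroupOfEveryOrder G := by
  intro d hd
  obtain ⟨L, hL⟩ := h ⊤ d (by rwa [Subgroup.card_top])
  exact ⟨L.map (Subgroup.subtype ⊤), by
    rw [Subgroup.card_map_of_injective (Subgroup.subtype_injective _), hL]⟩

theorem exists_index_eq {G : Type u} [Group G] [Finite G] (h : Cfsg.HasSubgroupOfEveryOrder G)
    (q : ℕ) (hq : q ∣ Nat.card G) : ∃ H : Subgroup G, H.index = q := by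
  obtain ⟨e, he⟩ := hq
  obtain ⟨H, hH⟩ := h e ⟨q, by rw [he, mul_comm]⟩
  refine ⟨H, ?_⟩
  have h1 := H.index_mul_card
  have h2 : 0 < Nat.card H := Nat.card_pos
  rw [he, ← hH] at h1
  exact Nat.eq_of_mul_eq_mul_right h2 h1

theorem aux (p : ℕ) [hp : Fact p.Prime] (n : ℕ) : ∀ (G : Type u) [Group G] [Finite G],
    Nat.card G = n → (∀ H : Subgroup G, Cfsg.HasSubgroupOfEveryOrder H) →
    (∀ q : ℕ, q.Prime → q ∣ Nat.card G → q ≤ p) → ∀ P : Sylow p G, (P : Subgroup G).Normal := by
  induction n using Nat.strong_induction_on with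
  | _ n ih =>
  intro G _ _ hn h hmax P
  by_cases hP : (P : Subgroup G).index = 1
  · rw [Subgroup.index_eq_one.mp hP]; infer_instance
  obtain ⟨r, hr, hrd⟩ := Nat.exists_prime_and_dvd hP
  have hrp : r ≠ p := fun h => P.not_dvd_index (h ▸ hrd)
  have hrG : r ∣ Nat.card G := hrd.trans (Subgroup.index_dvd_card _)
  have hG1 : Nat.card G ≠ 1 := fun h => hr.not_dvd_one (h ▸ hrG)
  have hq : (Nat.card G).minFac.Prime := Nat.minFac_prime hG1
  have hqp : (Nat.card G).minFac ≠ p := by
    have h1 := Nat.minFac_le_of_dvd hr.two_le hrG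
    have h2 := hmax r hr hrG
    omega
  obtain ⟨H, hH⟩ := exists_index_eq (self_clt h) _ (Nat.minFac_dvd (Nat.card G))
  have hHn : H.Normal := Subgroup.normal_of_index_eq_minFac_card hH
  have hHtop : H ≠ ⊤ := by
    intro h
    rw [h, Subgroup.index_top] at hH
    exact hq.one_lt.ne hH
  have hPH : (P : Subgroup G) ≤ H := by
    rw [← Subgroup.relIndex_eq_one]
    obtain ⟨k, hk⟩ := P.isPGroup'.exists_card_eq
    have h1 : H.relIndex P ∣ p ^ k := hk ▸ Subgroup.relIndex_dvd_card H P
    have h2 : H.relIndex P ∣ (Nat.card G).minFac := hH ▸ Subgroup.relIndex_dvd_index_of_normal H P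
    exact Nat.eq_one_of_dvd_coprimes (Nat.Coprime.pow_left k
      ((Nat.coprime_primes hp.out hq).mpr hqp.symm)) h1 h2
  have h3 := ih _ (hn ▸ H19.card_lt_of_ne_top hHtop) H rfl (hereditary h H)
    (fun q hq hqH => hmax q hq (hqH.trans H.card_subgroup_dvd_card)) (P.subtype hPH)
  have h4 := (P.subtype hPH).characteristic_of_normal h3
  have h5 := H19.normal_map_of_characteristic H (P.subtype hPH)
  rwa [Sylow.coe_subtype, Subgroup.map_subgroupOf_eq_of_le hPH] at h5

/-- If each subgroup of a finite group satisfies the converse of Lagrange's theorem, then a Sylow subgroup for the largest prime dividing the group order is normal. -/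
theorem result {G : Type*} [Group G] [Finite G] (h : ∀ H : Subgroup G, Cfsg.HasSubgroupOfEveryOrder H) (p : ℕ) [Fact p.Prime] (hdvd : p ∣ Nat.card G) (hmax : ∀ q : ℕ, q.Prime → q ∣ Nat.card G → q ≤ p) (P : Sylow p G) : (P : Subgroup G).Normal := by
  exact aux p _ G rfl h hmax P

end Cfsg.Agent.S0532
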