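import Cfsg.Statements.S0533
import Cfsg.Agent.H19.Supersolvable
import Cfsg.Agent.S0532

set_option autoImplicit false
open Cfsg

namespace Cfsg.Agent.S0533

universe u

/-- If `G = P M` with `P` normal nilpotent, `M` supersolvable of index dividing a prime, then
`G` has a nontrivial cyclic normal subgroup (when nontrivial). -/
theorem exists_cyclic_normal {G : Type u} [Group G] [Finite G] [Nontrivial G] (P M : Subgroup G)
    [P.Normal] (hP : Group.IsNilpotent P) (hM : Cfsg.IsSupersolvable M) (hPM : P ⊔ M = ⊤)
    (p : ℕ) (hp : p.Prime) (hi : M.index ∣ p) :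
    ∃ x : G, x ≠ 1 ∧ (Subgroup.zpowers x).Normal := by
  by_cases hbot : P = ⊥
  · rw [hbot, bot_sup_eq] at hPM
    subst hPM
    obtain ⟨K, hK, hKp⟩ := H19.exists_prime_card_normal
      (H19.isSupersolvable_of_equiv Subgroup.topEquiv hM)
    have := Fact.mk hKp
    have : IsCyclic K := isCyclic_of_prime_card rfl
    exact H19.exists_zpowers_normal_of_cyclic K ((Subgroup.one_lt_card_iff_ne_bot K).mp hKp.one_lt)
  have : Nontrivial P := (Subgroup.nontrivial_iff_ne_bot P).mpr hbot
  let Z : Subgroup G := (Subgroup.center P).map P.subtype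
  have hZn : Z.Normal := H19.normal_map_of_characteristic P _
  have hZ : Z ≠ ⊥ := by
    intro h
    apply Group.IsNilpotent.center_ne_bot P
    rwa [← Subgroup.map_eq_bot_iff_of_injective _ P.subtype_injective]
  have hZP : ∀ z ∈ Z, ∀ y ∈ P, y * z = z * y := by
    rintro _ ⟨z, hz, rfl⟩ y hy
    exact congrArg Subtype.val (Subgroup.mem_center_iff.mp hz ⟨y, hy⟩)
  by_cases hZM : Z.subgroupOf M = ⊥
  · have h1 : M.relIndex Z = Nat.card Z := by
      rw [← Subgroup.inf_relIndex_right, ← Subgroup.relIndex_bot_left]
      congr 1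
      rw [Subgroup.subgroupOf_eq_bot] at hZM
      exact disjoint_iff.mp hZM.symm
    have h2 := (H19.relIndex_dvd_index_of_normal_right M Z).trans hi
    rw [h1] at h2
    have := Fact.mk hp
    have : IsCyclic Z := isCyclic_of_card_dvd_prime h2
    exact H19.exists_zpowers_normal_of_cyclic Z hZ
  · obtain ⟨K, hKn, hKZ, hKp⟩ := H19.exists_prime_card_normal_le hM (Z.subgroupOf M) hZM
    let C : Subgroup G := K.map M.subtype
    have hC : Nat.card C = Nat.card K := Subgroup.card_map_of_injective M.subtype_injective
    have hCZ : C ≤ Z := by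
      rintro _ ⟨x, hx, rfl⟩
      exact hKZ hx
    have hCn : C.Normal := by
      rw [← Subgroup.normalizer_eq_top_iff, eq_top_iff, ← hPM]
      refine sup_le ?_ ?_
      · intro y hy
        apply Subgroup.mem_normalizer_fintype
        intro c hc
        rw [hZP c (hCZ hc) y hy, mul_inv_cancel_right]
        exact hc
      · intro y hy
        apply Subgroup.mem_normalizer_fintype
        rintro _ ⟨x, hx, rfl⟩
        exact ⟨_, hKn.conj_mem x hx ⟨y, hy⟩, rfl⟩
    have := Fact.mk hKp
    have : IsCyclic C := isCyclic_of_prime_card hC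
    exact H19.exists_zpowers_normal_of_cyclic C
      ((Subgroup.one_lt_card_iff_ne_bot C).mp (hC ▸ hKp.one_lt))

/-- If `G = P M` with `P` normal nilpotent, `M` supersolvable of index dividing a prime, then
`G` is supersolvable. -/
theorem isSupersolvable_of_prime_index {G : Type u} [Group G] [Finite G] (P M : Subgroup G)
    [P.Normal] (hP : Group.IsNilpotent P) (hM : Cfsg.IsSupersolvable M) (hPM : P ⊔ M = ⊤)
    (p : ℕ) (hp : p.Prime) (hi : M.index ∣ p) : Cfsg.IsSupersolvable G := by
  apply H19.isSupersolvable_of_forall_quotient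
  intro N _ hN
  have : Nontrivial (G ⧸ N) := QuotientGroup.nontrivial_iff.mpr hN
  have hπ := QuotientGroup.mk'_surjective N
  have : (P.map (QuotientGroup.mk' N)).Normal := Subgroup.Normal.map inferInstance _ hπ
  refine exists_cyclic_normal (P.map (QuotientGroup.mk' N)) (M.map (QuotientGroup.mk' N))
    (Group.nilpotent_of_surjective _ ((QuotientGroup.mk' N).subgroupMap_surjective P))
    (H19.isSupersolvable_map _ hM) ?_ p hp ((Subgroup.index_map_dvd M hπ).trans hi)
  rw [← Subgroup.map_sup, hPM, Subgroup.map_top_of_surjective _ hπ]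

theorem aux (n : ℕ) : ∀ (G : Type u) [Group G] [Finite G],
    Nat.card G = n → (∀ H : Subgroup G, Cfsg.HasSubgroupOfEveryOrder H) →
    Cfsg.IsSupersolvable G := by
  induction n using Nat.strong_induction_on with
  | _ n ih =>
  intro G _ _ hn h
  cases subsingleton_or_nontrivial G with
  | inl _ => exact H19.isSupersolvable_of_subsingleton
  | inr _ =>
  have hne : (Nat.card G).primeFactors.Nonempty :=
    Nat.nonempty_primeFactors.mpr Finite.one_lt_card
  let p := (Nat.card G).primeFactors.max' hne
  have hpmem : p ∈ (Nat.card G).primeFactors := Finset.max'_mem _ _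
  have hp : p.Prime := Nat.prime_of_mem_primeFactors hpmem
  have hpd : p ∣ Nat.card G := Nat.dvd_of_mem_primeFactors hpmem
  have := Fact.mk hp
  obtain ⟨P⟩ : Nonempty (Sylow p G) := inferInstance
  have hPn : (P : Subgroup G).Normal := S0532.result h p hpd (fun q hq hqd =>
    Finset.le_max' _ _ (Nat.mem_primeFactors.mpr ⟨hq, hqd, Nat.card_pos.ne'⟩)) P
  obtain ⟨M, hM⟩ := S0532.exists_index_eq (S0532.self_clt h) p hpd
  have hMtop : M ≠ ⊤ := by
    intro h
    rw [h, Subgroup.index_top] at hM
    exact hp.one_lt.ne hM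
  have hMs := ih _ (hn ▸ H19.card_lt_of_ne_top hMtop) M rfl (S0532.hereditary h M)
  refine isSupersolvable_of_prime_index (P : Subgroup G) M P.isPGroup'.isNilpotent hMs ?_ p hp
    hM.dvd
  rw [← Subgroup.index_eq_one]
  have h1 : ((P : Subgroup G) ⊔ M).index ∣ p := (Subgroup.index_dvd_of_le le_sup_right).trans hM.dvd
  rcases (Nat.dvd_prime hp).mp h1 with h2 | h2
  · exact h2
  · exact absurd (h2.symm.dvd.trans (Subgroup.index_dvd_of_le le_sup_left)) P.not_dvd_index

/-- If every subgroup of a finite group has subgroups of all orders dividing its order, then the group is supersolvable. -/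
theorem result {G : Type*} [Group G] [Finite G] (h : ∀ H : Subgroup G, Cfsg.HasSubgroupOfEveryOrder H) : Cfsg.IsSupersolvable G := by
  exact aux _ G rfl h

end Cfsg.Agent.S0533
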