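import Cfsg.Statements.S0534
import Cfsg.Agent.H19.Supersolvable
import Cfsg.Agent.S0531
import Cfsg.Agent.S0003

set_option autoImplicit false
open Cfsg

namespace Cfsg.Agent.S0534

/-- Let G be a finite solvable group and A a finite abelian group such that every prime dividing the order of A divides the order of G and, for each prime p dividing the order of G, the exponent of p in the order of A is one less than its exponent in the order of G. Then G × A has a subgroup of every order dividing its order. -/
theorem result {G A : Type*} [Group G] [CommGroup A] [Finite G] [Finite A] [Group.IsSolvable G] (hA : ∀ p : ℕ, p.Prime → p ∣ Nat.card A → p ∣ Nat.card G) (hexp : ∀ p : ℕ, p.Prime → p ∣ Nat.card G → (Nat.card A).factorization p + 1 = (Nat.card G).factorization p) : Cfsg.HasSubgroupOfEveryOrder (G × A) := by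
  classical
  intro d hd
  have hG0 : Nat.card G ≠ 0 := Nat.card_pos.ne'
  have hA0 : Nat.card A ≠ 0 := Nat.card_pos.ne'
  rw [Nat.card_prod] at hd
  have hd0 : d ≠ 0 := fun h => mul_ne_zero hG0 hA0 (zero_dvd_iff.mp (h ▸ hd))
  let π : ℕ → Prop := fun p => (Nat.card G).factorization p ≤ d.factorization p
  let m := ((Nat.card G).factorization.filter π).prod (· ^ ·)
  let n := ((Nat.card G).factorization.filter fun p => ¬ π p).prod (· ^ ·)
  have hmf : m.factorization = (Nat.card G).factorization.filter π :=
    Nat.prod_pow_factorization_eq_self fun p hp =>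
      Nat.prime_of_mem_primeFactors (Finset.mem_filter.mp hp).1
  have hnf : n.factorization = (Nat.card G).factorization.filter fun p => ¬ π p :=
    Nat.prod_pow_factorization_eq_self fun p hp =>
      Nat.prime_of_mem_primeFactors (Finset.mem_filter.mp hp).1
  have hmn : Nat.card G = m * n := by
    rw [Finsupp.prod_filter_mul_prod_filter_not, Nat.prod_factorization_pow_eq_self hG0]
  have hm0 : m ≠ 0 := fun h => hG0 (by rw [hmn, h, zero_mul])
  have hn0 : n ≠ 0 := fun h => hG0 (by rw [hmn, h, mul_zero])
  have hcop : m.Coprime n := by
    apply Nat.coprime_of_dvd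
    intro p hp h1 h2
    have h3 := hp.factorization_pos_of_dvd hm0 h1
    have h4 := hp.factorization_pos_of_dvd hn0 h2
    rw [hmf, Finsupp.filter_apply] at h3
    rw [hnf, Finsupp.filter_apply] at h4
    by_cases h : π p <;> simp [h] at h3 h4
  obtain ⟨H, hH⟩ := S0003.result m n hmn hcop
  have hmd : m ∣ d := by
    rw [← Nat.factorization_le_iff_dvd hm0 hd0, hmf]
    intro p
    rw [Finsupp.filter_apply]
    split_ifs with h
    · exact h
    · exact Nat.zero_le _
  obtain ⟨e, he⟩ := hmd
  have he0 : e ≠ 0 := fun h => hd0 (by rw [he, h, mul_zero])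
  have heA : e ∣ Nat.card A := by
    rw [← Nat.factorization_prime_le_iff_dvd he0 hA0]
    intro p hp
    have h1 := (Nat.factorization_le_iff_dvd hd0 (mul_ne_zero hG0 hA0)).mpr hd p
    rw [Nat.factorization_mul hG0 hA0, Finsupp.add_apply] at h1
    have h2 : d.factorization p = m.factorization p + e.factorization p := by
      conv_lhs => rw [he]
      rw [Nat.factorization_mul hm0 he0, Finsupp.add_apply]
    rw [hmf, Finsupp.filter_apply] at h2
    split_ifs at h2 with h
    · omega
    · have h3 : ¬ (Nat.card G).factorization p ≤ d.factorization p := h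
      have h4 := hexp p hp (Nat.dvd_of_factorization_pos (by omega))
      omega
  obtain ⟨B, hB⟩ := S0531.result (G := A) H19.isSupersolvable_of_isNilpotent e heA
  exact ⟨H.prod B, by rw [Nat.card_congr (H.prodEquiv B).toEquiv, Nat.card_prod, hH, hB, ← he]⟩

end Cfsg.Agent.S0534
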