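import Cfsg.Statements.S0535
import Cfsg.Agent.H19.SystemNormalizer
import Cfsg.Agent.S0006

set_option autoImplicit false
open Cfsg

namespace Cfsg.Agent.S0535

/-- Suppose that for every nontrivial subgroup H of a finite group and every prime p dividing the order of H there is a proper subgroup of H whose index in H is a power of p. Then the group is solvable. -/
theorem result {G : Type*} [Group G] [Finite G] (h : ∀ H : Subgroup G, H ≠ ⊥ → ∀ p : ℕ, p.Prime → p ∣ Nat.card H → ∃ K : Subgroup H, K ≠ ⊤ ∧ ∃ k : ℕ, K.index = p ^ k) : Group.IsSolvable G := by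
  apply S0006.result
  intro p hp
  obtain ⟨H, hH, hmin⟩ := (wellFounded_lt (α := Subgroup G)).has_min
    {H | ∃ k, H.index = p ^ k} ⟨⊤, 0, by rw [Subgroup.index_top, pow_zero]⟩
  refine ⟨H, (H19.index_eq_pow_factorization_iff hp H).mpr ⟨hH, fun hd => ?_⟩⟩
  have hne : H ≠ ⊥ := by
    rintro rfl
    rw [Subgroup.card_bot] at hd
    exact hp.not_dvd_one hd
  obtain ⟨K, hK, k, hk⟩ := h H hne p hp hd
  obtain ⟨j, hj⟩ := hH
  refine hmin (K.map H.subtype) ⟨k + j, ?_⟩ ?_
  · rw [Subgroup.index_map_subtype, hk, hj, pow_add]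
  · refine lt_of_le_of_ne (Subgroup.map_subtype_le K) fun h => hK ?_
    apply Subgroup.map_injective H.subtype_injective
    rw [h, ← MonoidHom.range_eq_map, Subgroup.range_subtype]

end Cfsg.Agent.S0535
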