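import Cfsg.Statements.S0537
import Cfsg.Agent.S0536
import Cfsg.Agent.S0056

set_option autoImplicit false
open Cfsg

namespace Cfsg.Agent.S0537

/-- A finite non-abelian group in which every proper subgroup is abelian is either of prime-power order, or is generated by a cyclic Sylow p-subgroup and a normal Sylow q-subgroup that is elementary abelian, for distinct primes p and q. -/
theorem result {G : Type*} [Group G] [Finite G] (hna : ¬ IsMulCommutative G) (h : ∀ H : Subgroup G, H ≠ ⊤ → IsMulCommutative H) : (∃ p : ℕ, p.Prime ∧ IsPGroup p G) ∨ ∃ p q : ℕ, p.Prime ∧ q.Prime ∧ p ≠ q ∧ ∃ (P : Sylow p G) (Q : Sylow q G), IsCyclic P ∧ (Q : Subgroup G).Normal ∧ Cfsg.IsElementaryAbelian q (Q : Subgroup G) ∧ (P : Subgroup G) ⊔ Q = ⊤ := by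
  by_cases hnil : Group.IsNilpotent G
  · left
    by_contra hc
    push Not at hc
    apply hna
    obtain ⟨e⟩ := ((Group.isNilpotent_of_finite_tfae (G := G)).out 0 4).mp hnil
    have hcomm : ∀ (p : (Nat.card G).primeFactors) (P : Sylow p G),
        IsMulCommutative (P : Subgroup G) := by
      intro p P
      apply h
      intro htop
      apply hc p (Nat.prime_of_mem_primeFactors p.2)
      have := P.isPGroup'
      rw [htop] at this
      exact this.of_equiv Subgroup.topEquiv
    refine ⟨⟨fun a b => e.symm.injective ?_⟩⟩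
    rw [map_mul, map_mul]
    funext p P
    exact (hcomm p P).is_comm.comm _ _
  right
  obtain ⟨p, q, hp, hq, hpq, P, Q, hPc, hQn, hPQ⟩ := S0536.result (G := G) ⟨hnil, fun H hH => by
    have := h H hH
    exact (IsMulCommutative.instCommGroup (G := H)).isNilpotent⟩
  have hpf := Fact.mk hp
  have hqf := Fact.mk hq
  have hQtop : (Q : Subgroup G) ≠ ⊤ := by
    intro htop
    have := Q.isPGroup'.isNilpotent
    rw [htop] at this
    exact hnil (Group.isNilpotent_top.mp this)
  have hQc := h _ hQtop
  refine ⟨p, q, hp, hq, hpq, P, Q, hPc, hQn, ⟨hQc, ?_⟩, hPQ⟩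
  let K : Subgroup G :=
    { carrier := {y | y ∈ (Q : Subgroup G) ∧ y ^ q = 1}
      one_mem' := ⟨Subgroup.one_mem _, one_pow _⟩
      mul_mem' := by
        rintro a b ⟨ha, ha'⟩ ⟨hb, hb'⟩
        refine ⟨Subgroup.mul_mem _ ha hb, ?_⟩
        have : Commute a b := setLike_mul_comm ha hb
        rw [this.mul_pow, ha', hb', one_mul]
      inv_mem' := by
        rintro a ⟨ha, ha'⟩
        exact ⟨Subgroup.inv_mem _ ha, by rw [inv_pow, ha', inv_one]⟩ }
  have hK : K.Normal := ⟨by
    rintro a ⟨ha, ha'⟩ g
    refine ⟨hQn.conj_mem a ha g, ?_⟩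
    rw [conj_pow, ha', mul_one, mul_inv_cancel]⟩
  have hKQ : K ≤ Q := fun y hy => hy.1
  by_cases htop : K ⊔ (P : Subgroup G) = ⊤
  · have h1 := H19.sup_inf_of_normal_le (H := (P : Subgroup G)) hKQ
    rw [htop, top_inf_eq, disjoint_iff.mp (IsPGroup.disjoint_of_ne p q hpq _ _ P.isPGroup'
      Q.isPGroup'), sup_bot_eq] at h1
    intro a ha
    rw [h1] at ha
    exact ha.2
  · exfalso
    have h1 := h _ htop
    have h2 := S0056.result (P : Subgroup G) (Q : Subgroup G)
      (by rw [Subgroup.normalizer_eq_top]; exact le_top)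
      (IsPGroup.coprime_card_of_ne p q hpq _ _ P.isPGroup' Q.isPGroup') (by
        intro v hv hvp a ha
        have hvK : v ∈ K := by
          refine ⟨hv, ?_⟩
          obtain ⟨k, hk⟩ := Q.isPGroup' ⟨v, hv⟩
          have h3 : v ^ q ^ k = 1 := by simpa using congrArg Subtype.val hk
          have h4 := (Nat.prime_dvd_prime_iff_eq hvp hq).mp
            (hvp.dvd_of_dvd_pow (orderOf_dvd_of_pow_eq_one h3))
          rw [← h4, pow_orderOf_eq_one]
        exact setLike_mul_comm (s := K ⊔ (P : Subgroup G)) (Subgroup.mem_sup_right ha)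
          (Subgroup.mem_sup_left hvK))
    have hPcomm : IsMulCommutative (P : Subgroup G) :=
      IsCyclic.isMulCommutative
    have h5 : ∀ X : Subgroup G, (P : Subgroup G) ≤ Subgroup.centralizer (X : Set G) →
        (Q : Subgroup G) ≤ Subgroup.centralizer (X : Set G) → X ≤ Subgroup.center G := by
      intro X h6 h7 x hx
      rw [Subgroup.mem_center_iff]
      intro g
      have : g ∈ (P : Subgroup G) ⊔ Q := hPQ ▸ Subgroup.mem_top g
      exact (sup_le h6 h7 this x hx).symm
    apply hna
    rw [← commutator_eq_bot_iff, commutator_eq_bot_iff_center_eq_top, eq_top_iff, ← hPQ]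
    refine sup_le (h5 _ (fun a ha b hb => setLike_mul_comm hb ha)
      (fun a ha b hb => (h2 hb a ha).symm)) (h5 _ h2 fun a ha b hb => setLike_mul_comm hb ha)

end Cfsg.Agent.S0537
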