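import Cfsg.Statements.S0540
import Cfsg.Agent.S0539

set_option autoImplicit false
open Pointwise
open Cfsg

namespace Cfsg.Agent.S0540

/-- A uniqueness lemma of zipper type. Let A be a subgroup of a finite group G and U a nonempty family of subgroups. For V in U write S(V) for the set of conjugates of A that lie in V and are subnormal in V. Assume: A belongs to S(V) for every V in U; a member of some S(W) that lies in V belongs to S(V); and for all V, W in U the normalizer of the join of S(V) ∩ S(W) lies in some member of U. Then U has a greatest element. -/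
theorem result {G : Type*} [Group G] [Finite G] (A : Subgroup G) (U : Set (Subgroup G)) (hU : U.Nonempty) (S : Subgroup G → Set (Subgroup G)) (hS : ∀ V B : Subgroup G, B ∈ S V ↔ (∃ g : G, B = MulAut.conj g • A) ∧ B ≤ V ∧ (B.subgroupOf V).IsSubnormal) (h1 : ∀ V ∈ U, A ∈ S V) (h2 : ∀ V ∈ U, ∀ W ∈ U, ∀ B ∈ S W, B ≤ V → B ∈ S V) (h3 : ∀ V ∈ U, ∀ W ∈ U, ∃ X ∈ U, Subgroup.normalizer ((sSup (S V ∩ S W) : Subgroup G) : Set G) ≤ X) : ∃ M ∈ U, ∀ V ∈ U, V ≤ M := by
  -- `S V` is closed under conjugation by `V`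
  have hconj : ∀ V : Subgroup G, ∀ B ∈ S V, ∀ g ∈ V, MulAut.conj g • B ∈ S V := by
    intro V B hB g hg
    obtain ⟨⟨x, rfl⟩, hBV, hBs⟩ := (hS V B).mp hB
    refine (hS V _).mpr ⟨⟨g * x, by rw [map_mul, mul_smul]⟩, H19.conj_smul_le_of_mem hg hBV, ?_⟩
    have h := hBs.smul (MulAut.conj (⟨g, hg⟩ : V))
    rw [Subgroup.conj_smul_subgroupOf hBV] at h
    exact h
  -- every member lies below a maximal member
  have hmax : ∀ V ∈ U, ∃ M, Maximal (· ∈ U) M ∧ V ≤ M := by
    intro V hV
    obtain ⟨M, hVM, hM⟩ := Finite.exists_le_maximal (p := (· ∈ U)) hV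
    exact ⟨M, hM, hVM⟩
  -- uniqueness of maximal members
  have key : ∀ D : Set (Subgroup G), ∀ V W : Subgroup G, Maximal (· ∈ U) V → Maximal (· ∈ U) W →
      S V ∩ S W = D → V = W := by
    intro D
    induction D using WellFoundedGT.induction with
    | _ D ih =>
    intro V W hV hW hD
    obtain ⟨X, hX, hNX⟩ := h3 V hV.1 W hW.1
    obtain ⟨M, hM, hXM⟩ := hmax X hX
    rw [hD] at hNX
    have hNM := hNX.trans hXM
    have step : ∀ T : Subgroup G, Maximal (· ∈ U) T → D ⊆ S T → T = M := by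
      intro T hT hDT
      by_cases heq : D = S T
      · apply hT.eq_of_le hM.1
        refine le_trans ?_ hNM
        intro g hg
        apply S0539.mem_normalizer_sSup
        intro B hB
        rw [heq] at hB ⊢
        exact hconj T B hB g hg
      · obtain ⟨Y, hY, hYD, hYN⟩ := S0539.relative T (S T) D
          (fun B hB => ((hS T B).mp hB).2) (hconj T) (ssubset_of_subset_of_ne hDT heq)
        refine ih (S T ∩ S M) ?_ T M hT hM rfl
        refine ssubset_of_subset_of_ne ?_ fun h => hYD ?_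
        · intro B hB
          refine ⟨hDT hB, h2 M hM.1 T hT.1 B (hDT hB) ?_⟩
          exact ((le_sSup hB).trans Subgroup.le_normalizer).trans hNM
        · rw [h]
          exact ⟨hY, h2 M hM.1 T hT.1 Y hY (hYN.trans hNM)⟩
    rw [step V hV (hD ▸ Set.inter_subset_left), step W hW (hD ▸ Set.inter_subset_right)]
  obtain ⟨V₀, hV₀⟩ := hU
  obtain ⟨M, hM, -⟩ := hmax V₀ hV₀
  refine ⟨M, hM.1, fun V hV => ?_⟩
  obtain ⟨M', hM', hVM'⟩ := hmax V hV
  rwa [key _ M M' hM hM' rfl]

end Cfsg.Agent.S0540
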