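import Cfsg.Statements.S0544
import Cfsg.Agent.H19.SystemNormalizer

set_option autoImplicit false
open Cfsg

namespace Cfsg.Agent.S0544

/-- In a finite solvable group the intersection of the normalizers of the members of a Hall complement system is a nilpotent subgroup. -/
theorem result {G : Type*} [Group G] [Finite G] [Group.IsSolvable G] (K : Nat.Primes → Subgroup G) (hK : Cfsg.IsComplementSystem K) : Group.IsNilpotent (Cfsg.systemNormalizer K) := by
  set D := Cfsg.systemNormalizer K with hD
  have hnorm : ∀ p, ((K p).subgroupOf D).Normal := fun p =>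
    Subgroup.normal_subgroupOf_of_le_normalizer (iInf_le (fun p => Subgroup.normalizer (K p : Set G)) p)
  apply (Group.isNilpotent_of_finite_tfae (G := D)).out 3 0 |>.mp
  intro q hq Q
  let R : Subgroup D := ⨅ p ∈ {p : Nat.Primes | (p : ℕ) ≠ q}, (K p).subgroupOf D
  have hRn : R.Normal := Subgroup.normal_iInf_normal fun p => Subgroup.normal_iInf_normal
    fun _ => hnorm p
  have hRq : IsPGroup q R := by
    rw [IsPGroup.iff_card]
    refine ⟨_, Nat.eq_prime_pow_of_unique_prime_dvd Nat.card_pos.ne' fun {p} hp hd => ?_⟩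
    by_contra hpq
    apply H19.IsComplementSystem.not_dvd_card hK ⟨p, hp⟩
    have h1 : R ≤ (K ⟨p, hp⟩).subgroupOf D := biInf_le _ (i := (⟨p, hp⟩ : Nat.Primes)) hpq
    refine hd.trans ((Subgroup.card_dvd_of_le h1).trans ?_)
    exact Subgroup.card_comap_dvd_of_injective _ _ D.subtype_injective
  have hQR : (Q : Subgroup D) ≤ R := by
    refine le_iInf₂ fun p hp => ?_
    have := hnorm p
    rw [← Subgroup.relIndex_eq_one]
    obtain ⟨k, hk⟩ := Q.isPGroup'.exists_card_eq
    have h1 : ((K p).subgroupOf D).relIndex Q ∣ q ^ k := hk ▸ Subgroup.relIndex_dvd_card _ _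
    have h2 : ((K p).subgroupOf D).relIndex Q ∣ ((K p).subgroupOf D).index :=
      Subgroup.relIndex_dvd_index_of_normal _ _
    have h3 : ((K p).subgroupOf D).index ∣ (p : ℕ) ^ (Nat.card G).factorization p := by
      have hle : D ≤ Subgroup.normalizer (K p : Set G) :=
        iInf_le (fun p => Subgroup.normalizer (K p : Set G)) p
      have h4 := Subgroup.relIndex_dvd_index_of_normal
        ((K p).subgroupOf (Subgroup.normalizer (K p : Set G)))
        (D.subgroupOf (Subgroup.normalizer (K p : Set G)))
      rw [Subgroup.relIndex_subgroupOf hle] at h4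
      refine h4.trans ?_
      rw [← hK p]
      exact Subgroup.relIndex_dvd_index_of_le Subgroup.le_normalizer
    exact Nat.eq_one_of_dvd_coprimes (Nat.Coprime.pow _ _
      ((Nat.coprime_primes hq.out p.2).mpr (Ne.symm hp))) h1 (h2.trans h3)
  rw [← Q.is_maximal' hRq hQR]
  exact hRn

end Cfsg.Agent.S0544
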