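import Cfsg.Statements.S0546
import Cfsg.Agent.H19.SystemNormalizer

set_option autoImplicit false
open Cfsg

namespace Cfsg.Agent.S0546

/-- The normal closure of a system normalizer of a finite solvable group is the whole group. -/
theorem result {G : Type*} [Group G] [Finite G] [Group.IsSolvable G] (K : Nat.Primes → Subgroup G) (hK : Cfsg.IsComplementSystem K) : Subgroup.normalClosure ((Cfsg.systemNormalizer K : Subgroup G) : Set G) = ⊤ := by
  by_contra hne
  set N := Subgroup.normalClosure ((Cfsg.systemNormalizer K : Subgroup G) : Set G) with hN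
  have : Nontrivial (G ⧸ N) := QuotientGroup.nontrivial_iff.mpr hne
  have h1 := Group.IsSolvable.commutator_lt_top_of_nontrivial (G ⧸ N)
  let f : G →* Abelianization (G ⧸ N) := Abelianization.of.comp (QuotientGroup.mk' N)
  have hf : Function.Surjective f :=
    (QuotientGroup.mk'_surjective _).comp (QuotientGroup.mk'_surjective N)
  have h2 := H19.systemNormalizer_map hK f hf
  have h3 : (Cfsg.systemNormalizer K).map f = ⊥ := by
    rw [Subgroup.map_eq_bot_iff]
    intro x hx
    have : x ∈ N := Subgroup.subset_normalClosure hx
    rw [MonoidHom.mem_ker, MonoidHom.comp_apply, QuotientGroup.mk'_apply,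
      (QuotientGroup.eq_one_iff x).mpr this, map_one]
  apply h1.ne
  rw [eq_top_iff]
  intro y _
  have h4 : Abelianization.of y ∈ Cfsg.systemNormalizer (fun p => (K p).map f) := by
    simp only [Cfsg.systemNormalizer, Subgroup.mem_iInf, Subgroup.normalizer_eq_top,
      Subgroup.mem_top, implies_true]
  rw [h2, h3, Subgroup.mem_bot] at h4
  rwa [← Abelianization.ker_of, MonoidHom.mem_ker]

end Cfsg.Agent.S0546
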