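import Cfsg.Statements.S0550
import Cfsg.Agent.S0549

set_option autoImplicit false
open Cfsg

namespace Cfsg.Agent.S0550

theorem isComplement'_of_inf_sup {G : Type*} [Group G] (N H : Subgroup G) [N.Normal]
    (h1 : N ⊓ H = ⊥) (h2 : N ⊔ H = ⊤) : Subgroup.IsComplement' N H := by
  apply Subgroup.isComplement'_of_disjoint_and_mul_eq_univ (disjoint_iff.mpr h1)
  rw [← Subgroup.normal_mul, h2, Subgroup.coe_top]

/-- Two subgroups meeting a normal subgroup `B` trivially with the same product with `B` are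
isomorphic. -/
theorem nonempty_equiv {G : Type*} [Group G] (B X Y : Subgroup G) [B.Normal]
    (hX : B ⊓ X = ⊥) (hY : B ⊓ Y = ⊥) (h : B ⊔ X = B ⊔ Y) : Nonempty (X ≃* Y) := by
  have key : ∀ X : Subgroup G, B ⊓ X = ⊥ →
      Nonempty (X ≃* (B ⊔ X).map (QuotientGroup.mk' B)) := by
    intro X hX
    have hinj : Function.Injective ((QuotientGroup.mk' B).comp X.subtype) := by
      rw [injective_iff_map_eq_one]
      intro x hx
      have h1 : (x : G) ∈ B ⊓ X := ⟨(QuotientGroup.eq_one_iff _).mp hx, x.2⟩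
      rw [hX] at h1
      exact Subtype.ext h1
    refine ⟨(MonoidHom.ofInjective hinj).trans (MulEquiv.subgroupCongr ?_)⟩
    rw [Subgroup.map_sup, QuotientGroup.map_mk'_self, bot_sup_eq, MonoidHom.range_comp,
      Subgroup.range_subtype]
  obtain ⟨e₁⟩ := key X hX
  obtain ⟨e₂⟩ := key Y hY
  rw [h] at e₁
  exact ⟨e₁.trans e₂.symm⟩

/-- Let U be a maximal subgroup with trivial normal core in a finite group G, and A ≠ B two minimal normal subgroups. Then A is the centralizer of B and B that of A, U complements each of them, A and B are non-abelian, and A, B and (A ⊔ B) ∩ U are pairwise isomorphic. -/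
theorem result {G : Type*} [Group G] [Finite G] (U : Subgroup G) (hU : IsCoatom U) (hcore : U.normalCore = ⊥) (A B : Subgroup G) [A.Normal] [B.Normal] (hA : A ≠ ⊥) (hB : B ≠ ⊥) (hAmin : ∀ K : Subgroup G, K.Normal → K ≤ A → K = ⊥ ∨ K = A) (hBmin : ∀ K : Subgroup G, K.Normal → K ≤ B → K = ⊥ ∨ K = B) (hAB : A ≠ B) : Subgroup.centralizer (B : Set G) = A ∧ Subgroup.centralizer (A : Set G) = B ∧ Subgroup.IsComplement' A U ∧ Subgroup.IsComplement' B U ∧ ¬ IsMulCommutative A ∧ Nonempty (A ≃* B) ∧ Nonempty (A ≃* ↥((A ⊔ B) ⊓ U)) := by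
  have hinf : A ⊓ B = ⊥ := by
    rcases hAmin (A ⊓ B) inferInstance inf_le_left with h | h
    · exact h
    · rcases hBmin A inferInstance (h ▸ inf_le_right) with h' | h'
      · exact absurd h' hA
      · exact absurd h' hAB
  have key : ∀ (A B : Subgroup G) [A.Normal] [B.Normal], A ≠ ⊥ → B ≠ ⊥ → A ⊓ B = ⊥ →
      Subgroup.centralizer (B : Set G) = A ∧ A ⊓ U = ⊥ := by
    intro A B _ _ hA hB hinf
    have hle : A ≤ Subgroup.centralizer (B : Set G) := by
      rw [← Subgroup.commutator_eq_bot_iff_le_centralizer, eq_bot_iff, ← hinf]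
      exact Subgroup.commutator_le_inf A B
    obtain ⟨h1, h2⟩ := S0549.result U hU hcore B hB
    have h3 : Subgroup.centralizer (B : Set G) = A := by
      rcases h2 with h2 | ⟨-, h2⟩
      · exact absurd (le_bot_iff.mp (h2 ▸ hle)) hA
      · exact ((h2 A inferInstance hle).resolve_left hA).symm
    exact ⟨h3, h3 ▸ h1⟩
  obtain ⟨hCB, hAU⟩ := key A B hA hB hinf
  obtain ⟨hCA, hBU⟩ := key B A hB hA (by rw [inf_comm, hinf])
  have hAs := S0549.sup_eq_top U hU hcore A hA
  have hBs := S0549.sup_eq_top U hU hcore B hB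
  have e₁ : Nonempty (A ≃* ↥((A ⊔ B) ⊓ U)) := by
    apply nonempty_equiv B
    · rw [inf_comm, hinf]
    · rw [eq_bot_iff, ← hBU]
      exact inf_le_inf_left _ inf_le_right
    · rw [inf_comm, ← H19.sup_inf_of_normal_le le_sup_right, hBs, top_inf_eq, sup_comm]
  have e₂ : Nonempty (B ≃* ↥((A ⊔ B) ⊓ U)) := by
    apply nonempty_equiv A
    · exact hinf
    · rw [eq_bot_iff, ← hAU]
      exact inf_le_inf_left _ inf_le_right
    · rw [inf_comm, ← H19.sup_inf_of_normal_le le_sup_left, hAs, top_inf_eq]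
  refine ⟨hCB, hCA, isComplement'_of_inf_sup A U hAU hAs, isComplement'_of_inf_sup B U hBU hBs,
    ?_, ⟨e₁.some.trans e₂.some.symm⟩, e₁⟩
  intro hc
  apply hA
  rw [eq_bot_iff, ← hinf]
  refine le_inf le_rfl ?_
  rw [← hCA]
  intro a ha b hb
  exact setLike_mul_comm hb ha

end Cfsg.Agent.S0550
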