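import Cfsg.Statements.S0551
import Cfsg.Agent.S0549

set_option autoImplicit false
open Pointwise
open Cfsg

namespace Cfsg.Agent.S0551

theorem card_sup_of_disjoint {G : Type*} [Group G] [Finite G] (N H : Subgroup G) [N.Normal]
    (h : N ⊓ H = ⊥) : Nat.card (N ⊔ H : Subgroup G) = Nat.card N * Nat.card H := by
  have h1 := (N.subgroupOf (N ⊔ H)).card_mul_index
  have h2 : Nat.card (N.subgroupOf (N ⊔ H)) = Nat.card N :=
    Nat.card_congr (Subgroup.subgroupOfEquivOfLe le_sup_left).toEquiv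
  have h3 : (N.subgroupOf (N ⊔ H)).index = Nat.card H := by
    change N.relIndex (N ⊔ H) = _
    rw [Subgroup.relIndex_sup_left, ← Subgroup.inf_relIndex_right, h, Subgroup.relIndex_bot_left]
  rw [← h1, h2, h3]

/-- In a finite solvable group all core-free maximal subgroups are conjugate. -/
theorem result {G : Type*} [Group G] [Finite G] [Group.IsSolvable G] (U V : Subgroup G) (hU : IsCoatom U) (hV : IsCoatom V) (hUc : U.normalCore = ⊥) (hVc : V.normalCore = ⊥) : ∃ g : G, MulAut.conj g • U = V := by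
  have hnt : (⊤ : Subgroup G) ≠ ⊥ := fun h => hU.1 (top_le_iff.mp (h ▸ bot_le))
  obtain ⟨N, hNn, hN, -, hNmin⟩ := H19.exists_minimal_normal_le ⊤ hnt
  obtain ⟨hNc, p, hp, -, -, hNp⟩ := H19.minimal_normal_of_solvable N hN hNmin
  have hNC : N ≤ Subgroup.centralizer (N : Set G) := fun a ha b hb => setLike_mul_comm hb ha
  have hC : Subgroup.centralizer (N : Set G) = N := by
    rcases (S0549.result U hU hUc N hN).2 with h | ⟨-, h⟩
    · exact absurd (le_bot_iff.mp (h ▸ hNC)) hN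
    · exact ((h N hNn hNC).resolve_left hN).symm
  have hNU : N ⊓ U = ⊥ := hC ▸ (S0549.result U hU hUc N hN).1
  have hNV : N ⊓ V = ⊥ := hC ▸ (S0549.result V hV hVc N hN).1
  have hsU := S0549.sup_eq_top U hU hUc N hN
  have hsV := S0549.sup_eq_top V hV hVc N hN
  by_cases hU0 : U = ⊥
  · refine ⟨1, ?_⟩
    rw [hU0, sup_bot_eq] at hsU
    rw [hsU, top_inf_eq] at hNV
    rw [hU0, hNV, map_one, one_smul]
  have hUt : (⊤ : Subgroup U) ≠ ⊥ := by
    have : Nontrivial U := (Subgroup.nontrivial_iff_ne_bot U).mpr hU0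
    exact top_ne_bot
  obtain ⟨Q', hQn, hQ', -, hQmin⟩ := H19.exists_minimal_normal_le ⊤ hUt
  obtain ⟨-, q, hq, -, -, hQq⟩ := H19.minimal_normal_of_solvable Q' hQ' hQmin
  let Q : Subgroup G := Q'.map U.subtype
  have hQU : Q ≤ U := Subgroup.map_subtype_le _
  have hQ : Q ≠ ⊥ := by
    rwa [Ne, Subgroup.map_eq_bot_iff_of_injective _ U.subtype_injective]
  have hQq' : IsPGroup q Q := hQq.map _
  have hUQ : U ≤ Subgroup.normalizer (Q : Set G) := by
    intro u hu
    apply Subgroup.mem_normalizer_fintype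
    rintro _ ⟨x, hx, rfl⟩
    exact ⟨_, hQn.conj_mem x hx ⟨u, hu⟩, rfl⟩
  have hMn : (N ⊔ Q).Normal := by
    rw [← Subgroup.normalizer_eq_top_iff, eq_top_iff, ← hsU]
    refine sup_le (le_sup_left.trans Subgroup.le_normalizer) fun u hu => ?_
    rw [← H19.conj_smul_eq_iff, Subgroup.smul_sup, H19.conj_smul_eq_iff.mpr (hUQ hu),
      H19.conj_smul_eq_iff.mpr (by rw [Subgroup.normalizer_eq_top]; trivial)]
  have hNQ : N ⊓ Q = ⊥ := le_bot_iff.mp (hNU ▸ inf_le_inf_left N hQU)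
  have := Fact.mk hp
  have := Fact.mk hq
  -- `p ≠ q`
  have hpq : p ≠ q := by
    rintro rfl
    have hM : IsPGroup p (N ⊔ Q : Subgroup G) := hNp.to_sup_of_normal_left hQq'
    have hnil := hM.isNilpotent
    have : Nontrivial (N ⊔ Q : Subgroup G) :=
      (Subgroup.nontrivial_iff_ne_bot _).mpr fun h => hN (le_bot_iff.mp (h ▸ le_sup_left))
    let Z : Subgroup G := (Subgroup.center (N ⊔ Q : Subgroup G)).map (N ⊔ Q).subtype
    have hZn : Z.Normal := H19.normal_map_of_characteristic _ _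
    have hZ : Z ≠ ⊥ := by
      rw [Ne, Subgroup.map_eq_bot_iff_of_injective _ (Subgroup.subtype_injective _)]
      exact Group.IsNilpotent.center_ne_bot _
    have hZc : ∀ z ∈ Z, ∀ y ∈ N ⊔ Q, y * z = z * y := by
      rintro _ ⟨z, hz, rfl⟩ y hy
      exact congrArg Subtype.val (Subgroup.mem_center_iff.mp hz ⟨y, hy⟩)
    have hZN : Z ≤ N := hC ▸ fun z hz y hy => hZc z hz y (Subgroup.mem_sup_left hy)
    have hZN' := (hNmin Z hZn hZN).resolve_left hZ
    apply hQ
    rw [eq_bot_iff, ← hNQ]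
    refine le_inf ?_ le_rfl
    rw [← hC]
    intro y hy z hz
    exact (hZc z (hZN' ▸ hz) y (Subgroup.mem_sup_right hy)).symm
  -- `R = V ⊓ (N ⊔ Q)` has the same order as `Q`
  let R : Subgroup G := V ⊓ (N ⊔ Q)
  have hNR : N ⊓ R = ⊥ := le_bot_iff.mp (hNV ▸ inf_le_inf_left N inf_le_left)
  have hsR : N ⊔ R = N ⊔ Q := by
    rw [← H19.sup_inf_of_normal_le le_sup_left, hsV, top_inf_eq]
  have hcM := card_sup_of_disjoint N Q hNQ
  have hcR : Nat.card R = Nat.card Q := by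
    have h1 := card_sup_of_disjoint N R hNR
    rw [hsR, hcM] at h1
    exact (Nat.eq_of_mul_eq_mul_left Nat.card_pos h1).symm
  obtain ⟨k, hk⟩ := hQq'.exists_card_eq
  obtain ⟨j, hj⟩ := hNp.exists_card_eq
  have hsyl : ∀ X : Subgroup G, X ≤ N ⊔ Q → Nat.card X = Nat.card Q →
      ∃ S : Sylow q (N ⊔ Q : Subgroup G), (S : Subgroup (N ⊔ Q : Subgroup G)) =
        X.subgroupOf (N ⊔ Q) := by
    intro X hX hc
    have h2 : Nat.card (X.subgroupOf (N ⊔ Q)) = Nat.card Q :=
      (Nat.card_congr (Subgroup.subgroupOfEquivOfLe hX).toEquiv).trans hc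
    have h3 : (X.subgroupOf (N ⊔ Q)).index = Nat.card N := by
      have h1 := (X.subgroupOf (N ⊔ Q)).index_mul_card
      rw [h2, hcM] at h1
      exact Nat.eq_of_mul_eq_mul_right Nat.card_pos h1
    refine ⟨(IsPGroup.of_card (h2.trans hk)).toSylow ?_, rfl⟩
    rw [h3, hj]
    intro h
    exact hpq ((Nat.prime_dvd_prime_iff_eq hq hp).mp (hq.dvd_of_dvd_pow h)).symm
  obtain ⟨S₁, hS₁⟩ := hsyl Q le_sup_right rfl
  obtain ⟨S₂, hS₂⟩ := hsyl R inf_le_right hcR
  obtain ⟨m, hm⟩ := MulAction.exists_smul_eq (N ⊔ Q : Subgroup G) S₁ S₂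
  have hm' : MulAut.conj (m : G) • Q = R := by
    have h1 := congrArg (fun S : Sylow q (N ⊔ Q : Subgroup G) =>
      (S : Subgroup (N ⊔ Q : Subgroup G))) hm
    simp only [Sylow.coe_subgroup_smul, hS₁, hS₂] at h1
    rw [Subgroup.conj_smul_subgroupOf le_sup_right] at h1
    have h2 := congrArg (Subgroup.map (N ⊔ Q).subtype) h1
    rwa [Subgroup.map_subgroupOf_eq_of_le (H19.conj_smul_le_of_mem m.2 le_sup_right),
      Subgroup.map_subgroupOf_eq_of_le inf_le_right] at h2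
  -- normalisers
  have hnorm : ∀ (W X : Subgroup G), IsCoatom W → W.normalCore = ⊥ → X ≠ ⊥ → X ≤ W →
      W ≤ Subgroup.normalizer (X : Set G) → Subgroup.normalizer (X : Set G) = W := by
    intro W X hW hWc hX hXW hWX
    by_contra hne
    have h1 := hW.2 _ (lt_of_le_of_ne hWX (Ne.symm hne))
    rw [Subgroup.normalizer_eq_top_iff] at h1
    apply hX
    rw [eq_bot_iff, ← hWc, Subgroup.normal_le_normalCore]
    exact hXW
  have hR : R ≠ ⊥ := by
    intro h
    apply hQ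
    rw [← Subgroup.card_eq_one, ← hcR, h, Subgroup.card_bot]
  have hVR : V ≤ Subgroup.normalizer (R : Set G) := by
    intro v hv
    apply Subgroup.mem_normalizer_fintype
    rintro x ⟨hx1, hx2⟩
    exact ⟨V.mul_mem (V.mul_mem hv hx1) (V.inv_mem hv), hMn.conj_mem x hx2 v⟩
  refine ⟨m, ?_⟩
  rw [← hnorm U Q hU hUc hQ hQU hUQ, ← hnorm V R hV hVc hR inf_le_left hVR, ← hm']
  ext x
  rw [H19.mem_conj_smul_iff, ← H19.conj_smul_eq_iff, ← H19.conj_smul_eq_iff, map_mul, map_mul,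
    mul_smul, mul_smul, map_inv, inv_smul_eq_iff]

end Cfsg.Agent.S0551
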