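import Cfsg.Statements.S0553
import Cfsg.Agent.H19.Basic

set_option autoImplicit false
open Cfsg

namespace Cfsg.Agent.S0553

/-- Let G be a nontrivial finite solvable group in which every maximal subgroup has order coprime to its index. Then for some prime p dividing the order of G the Sylow p-subgroups of G are normal. -/
theorem result {G : Type*} [Group G] [Finite G] [Group.IsSolvable G] [Nontrivial G] (h : ∀ M : Subgroup G, IsCoatom M → (Nat.card M).Coprime M.index) : ∃ p : ℕ, p.Prime ∧ p ∣ Nat.card G ∧ ∀ P : Sylow p G, (P : Subgroup G).Normal := by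
  induction hn : Nat.card G using Nat.strong_induction_on generalizing G with
  | _ n ih =>
  subst hn
  obtain ⟨N, hNn, hN, -, hNmin⟩ := H19.exists_minimal_normal_le (⊤ : Subgroup G) top_ne_bot
  obtain ⟨hNc, p, hp, hpd, -, hNp⟩ := H19.minimal_normal_of_solvable N hN hNmin
  by_cases hΦ : N ≤ frattini G
  · have hNtop : N ≠ ⊤ := by
      intro h
      have := frattini_nongenerating (K := (⊥ : Subgroup G)) (by rw [bot_sup_eq, eq_top_iff, ← h]; exact hΦ)
      exact bot_ne_top this
    have : Nontrivial (G ⧸ N) := QuotientGroup.nontrivial_iff.mpr hNtop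
    have hπ := QuotientGroup.mk'_surjective N
    obtain ⟨q, hq, hqd, hqn⟩ := ih _ (H19.card_quotient_lt hN) (G := G ⧸ N) (fun M hM => by
      have h1 := h _ (Subgroup.isCoatom_comap_of_surjective hπ hM)
      rw [Subgroup.index_comap_of_surjective _ hπ] at h1
      refine Nat.Coprime.coprime_dvd_left ?_ h1
      conv_lhs => rw [← Subgroup.map_comap_eq_self_of_surjective hπ M]
      exact Subgroup.card_map_dvd _ _) rfl
    refine ⟨q, hq, hqd.trans N.card_quotient_dvd_card, fun Q => ?_⟩
    have := Fact.mk hq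
    have h1 := (hqn (Q.mapSurjective hπ)).comap (QuotientGroup.mk' N)
    rw [Sylow.coe_mapSurjective, Subgroup.comap_map_eq, QuotientGroup.ker_mk'] at h1
    have h2 := Sylow.normalizer_sup_eq_top' Q (N := (Q : Subgroup G) ⊔ N) le_sup_left
    rw [← Subgroup.normalizer_eq_top_iff]
    apply frattini_nongenerating
    rw [eq_top_iff, ← h2]
    exact sup_le le_sup_left (sup_le (Subgroup.le_normalizer.trans le_sup_left)
      (hΦ.trans le_sup_right))
  · obtain ⟨M, hM, hNM⟩ : ∃ M : Subgroup G, IsCoatom M ∧ ¬ N ≤ M := by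
      by_contra hc
      push Not at hc
      exact hΦ (le_iInf₂ fun M hM => hc M hM)
    have hsup : M ⊔ N = ⊤ := hM.2 _ (lt_of_le_of_ne le_sup_left fun h => hNM (h ▸ le_sup_right))
    have := Fact.mk hp
    obtain ⟨k, hk⟩ := hNp.exists_card_eq
    have h1 := H19.relIndex_eq_index_of_sup_eq_top M N hsup
    have h2 : M.index ∣ p ^ k := h1 ▸ hk ▸ Subgroup.relIndex_dvd_card M N
    obtain ⟨j, -, hj⟩ := (Nat.dvd_prime_pow hp).mp h2
    have hj0 : j ≠ 0 := by
      rintro rfl
      exact hM.1 (Subgroup.index_eq_one.mp hj)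
    have h3 : ¬ p ∣ Nat.card M := by
      intro hd
      exact hp.one_lt.ne' (Nat.eq_one_of_dvd_coprimes (h M hM) hd (hj ▸ dvd_pow_self p hj0))
    have h4 : ¬ p ∣ N.index := by
      rw [← Subgroup.relIndex_top_right, ← hsup, Subgroup.relIndex_sup_right]
      exact fun hd => h3 (hd.trans (Subgroup.relIndex_dvd_card N M))
    refine ⟨p, hp, hpd.trans N.card_subgroup_dvd_card, fun P => ?_⟩
    rw [(hNp.toSylow h4).is_maximal' P.isPGroup' (hNp.le_sylow_of_normal P)]
    exact hNn

end Cfsg.Agent.S0553
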