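import Cfsg.Statements.S0554
import Cfsg.Agent.H19.Basic

set_option autoImplicit false
open Cfsg

namespace Cfsg.Agent.S0554

/-- Let G be a finite solvable group and let S assign to each of t distinct primes, including every prime divisor of the order of G, a Sylow subgroup of G. Then every element of G is a product s_0 s_1 ⋯ s_(t-1) with s_i in S i, the factors taken in the given order. -/
theorem result {G : Type*} [Group G] [Finite G] [Group.IsSolvable G] (t : ℕ) (p : Fin t → ℕ) (hp : ∀ i, (p i).Prime) (hinj : Function.Injective p) (hall : ∀ q : ℕ, q.Prime → q ∣ Nat.card G → ∃ i, p i = q) (S : (i : Fin t) → Sylow (p i) G) : ∀ g : G, ∃ s : (i : Fin t) → G, (∀ i, s i ∈ (S i : Subgroup G)) ∧ g = (List.ofFn s).prod := by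
  induction hn : Nat.card G using Nat.strong_induction_on generalizing G with
  | _ n ih =>
  intro g
  cases subsingleton_or_nontrivial G with
  | inl _ => exact ⟨fun _ => 1, fun i => Subgroup.one_mem _, Subsingleton.elim _ _⟩
  | inr _ =>
  obtain ⟨N, hNn, hN, -, hNmin⟩ := H19.exists_minimal_normal_le (⊤ : Subgroup G) top_ne_bot
  obtain ⟨-, q, hq, hqd, -, hNq⟩ := H19.minimal_normal_of_solvable N hN hNmin
  obtain ⟨i, rfl⟩ := hall q hq (hqd.trans N.card_subgroup_dvd_card)
  have hπ := QuotientGroup.mk'_surjective N
  have hf : ∀ i, Fact (p i).Prime := fun i => ⟨hp i⟩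
  obtain ⟨s, hs, hg⟩ := ih _ (hn ▸ H19.card_quotient_lt hN)
    (fun q hq hd => hall q hq (hd.trans N.card_quotient_dvd_card))
    (fun i => (S i).mapSurjective hπ) rfl (QuotientGroup.mk' N g)
  choose s' hs' hs'' using hs
  have h1 : QuotientGroup.mk' N (List.ofFn s').prod = QuotientGroup.mk' N g := by
    rw [hg, map_list_prod, List.map_ofFn]
    congr 2
    exact funext hs''
  have h2 : ((List.ofFn s').prod)⁻¹ * g ∈ N := QuotientGroup.eq.mp h1
  have hNS : N ≤ S i := hNq.le_sylow_of_normal (S i)
  let B := ((List.ofFn s').drop (i + 1)).prod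
  let v := s' i * (B * (((List.ofFn s').prod)⁻¹ * g) * B⁻¹)
  have hset : ∀ v : G, List.ofFn (Function.update s' i v) = (List.ofFn s').set i v := by
    intro v
    apply List.ext_getElem (by simp)
    intro j h1 h2
    simp only [List.getElem_ofFn, List.getElem_set, Function.update_apply, Fin.ext_iff]
    simp only [eq_comm]
  refine ⟨Function.update s' i v, fun j => ?_, ?_⟩
  · by_cases hj : j = i
    · subst hj
      rw [Function.update_self]
      exact Subgroup.mul_mem _ (hs' j) (hNS (hNn.conj_mem _ h2 B))
    · rw [Function.update_of_ne hj]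
      exact hs' j
  · have h3 := List.prod_set (List.ofFn s') i (s' i)
    rw [← hset, Function.update_eq_self, if_pos (by simp)] at h3
    rw [hset, List.prod_set, if_pos (by simp)]
    change g = _ * (s' i * (B * (((List.ofFn s').prod)⁻¹ * g) * B⁻¹)) * B
    change _ = _ * s' i * B at h3
    generalize (List.ofFn s').prod = A at h3 ⊢
    rw [h3]
    group

end Cfsg.Agent.S0554
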