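import Cfsg.Statements.S0555
import Cfsg.Agent.H19.Basic
import Cfsg.Agent.S0526

set_option autoImplicit false
open Cfsg

namespace Cfsg.Agent.S0555

theorem exists_generator {G : Type*} [Group G] (A B : Subgroup G) [B.Normal] (hBA : B ≤ A)
    (h : IsCyclic (A ⧸ B.subgroupOf A)) : ∃ a : G, A = B ⊔ Subgroup.zpowers a := by
  obtain ⟨x, hx⟩ := h.exists_generator
  obtain ⟨a, rfl⟩ := QuotientGroup.mk'_surjective _ x
  refine ⟨a, le_antisymm ?_ (sup_le hBA ((Subgroup.zpowers_le).mpr a.2))⟩
  intro y hy
  obtain ⟨k, hk⟩ := Subgroup.mem_zpowers_iff.mp (hx (QuotientGroup.mk' _ ⟨y, hy⟩))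
  rw [← map_zpow] at hk
  have h1 : ((a : G) ^ k)⁻¹ * y ∈ B := QuotientGroup.eq (s := B.subgroupOf A).mp hk
  have h2 : y = (a : G) ^ k * (((a : G) ^ k)⁻¹ * y) := by group
  rw [h2]
  exact Subgroup.mul_mem _ (Subgroup.mem_sup_right (Subgroup.zpow_mem_zpowers _ k))
    (Subgroup.mem_sup_left h1)

/-- Let i ≥ 1. If in the derived series of a group the quotient of the i-th term by the (i+1)-st and the quotient of the (i+1)-st by the (i+2)-nd are both cyclic, then the (i+1)-st and (i+2)-nd terms coincide. -/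
theorem result {G : Type*} [Group G] (i : ℕ) (hi : 1 ≤ i) (h₁ : IsCyclic (↥(derivedSeries G i) ⧸ (derivedSeries G (i + 1)).subgroupOf (derivedSeries G i))) (h₂ : IsCyclic (↥(derivedSeries G (i + 1)) ⧸ (derivedSeries G (i + 2)).subgroupOf (derivedSeries G (i + 1)))) : derivedSeries G (i + 1) = derivedSeries G (i + 2) := by
  obtain ⟨b, hb⟩ := exists_generator _ _ (derivedSeries_antitone G (Nat.le_succ i)) h₁
  obtain ⟨a, ha⟩ := exists_generator _ _ (derivedSeries_antitone G (Nat.le_succ (i + 1))) h₂
  refine le_antisymm ?_ (derivedSeries_antitone G (Nat.le_succ (i + 1)))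
  let π := QuotientGroup.mk' (derivedSeries G (i + 2))
  have hπ : Function.Surjective π := QuotientGroup.mk'_surjective _
  have hA : (derivedSeries G (i + 1)).map π = Subgroup.zpowers (π a) := by
    conv_lhs => rw [ha]
    rw [Subgroup.map_sup, MonoidHom.map_zpowers, QuotientGroup.map_mk'_self, bot_sup_eq]
  have hAn : (Subgroup.zpowers (π a)).Normal := hA ▸ Subgroup.Normal.map inferInstance π hπ
  have hB : (derivedSeries G i).map π = Subgroup.closure {π a, π b} := by
    conv_lhs => rw [hb]
    rw [Subgroup.map_sup, MonoidHom.map_zpowers, hA, Subgroup.zpowers_eq_closure,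
      Subgroup.zpowers_eq_closure, ← Subgroup.closure_union]
    rfl
  have hbc : π b ∈ commutator (G ⧸ derivedSeries G (i + 2)) := by
    rw [← derivedSeries_one, ← map_derivedSeries_eq hπ]
    apply Subgroup.mem_map_of_mem
    apply derivedSeries_antitone G hi
    rw [hb]
    exact Subgroup.mem_sup_right (Subgroup.mem_zpowers b)
  have hab : π b * π a = π a * π b :=
    Subgroup.mem_centralizer_singleton_iff.mp (S0526.commutator_le_centralizer (π a) hbc)
  conv_rhs => rw [← QuotientGroup.ker_mk' (derivedSeries G (i + 2))]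
  rw [← Subgroup.map_eq_bot_iff]
  change (derivedSeries G (i + 1)).map π = ⊥
  rw [derivedSeries_succ G i, Subgroup.map_commutator, hB,
    Subgroup.commutator_eq_bot_iff_le_centralizer, Subgroup.centralizer_closure,
    Subgroup.closure_le]
  rintro x (rfl | rfl) y (rfl | rfl)
  · rfl
  · exact hab
  · exact hab.symm
  · rfl

end Cfsg.Agent.S0555
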