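import Cfsg.Statements.S0557
import Cfsg.Agent.H49.HallOf

set_option autoImplicit false
open Cfsg

namespace Cfsg.Agent.S0557

open Cfsg.Agent.H49

universe u

theorem focal_mono {G : Type*} [Group G] {H K : Subgroup G} (h : H ≤ K) :
    H.focalSubgroup ≤ K.focalSubgroup := by
  apply Subgroup.closure_mono
  rintro g ⟨hg, x, hx, u, e⟩
  exact ⟨h hg, x, h hx, u, e⟩

theorem map_focal_le {G G' : Type*} [Group G] [Group G'] (f : G →* G') (H : Subgroup G) :
    H.focalSubgroup.map f ≤ (H.map f).focalSubgroup := by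
  rw [Subgroup.focalSubgroup_def, MonoidHom.map_closure]
  apply Subgroup.closure_mono
  rintro _ ⟨g, ⟨hg, x, hx, u, e⟩, rfl⟩
  exact ⟨Subgroup.mem_map_of_mem f hg, f x, Subgroup.mem_map_of_mem f hx, f u, by
    rw [e, map_commutatorElement]⟩

theorem iter_mono {G : Type*} [Group G] (n : ℕ) {H K : Subgroup G} (h : H ≤ K) :
    (fun K : Subgroup G => Subgroup.focalSubgroup K)^[n] H ≤
      (fun K : Subgroup G => Subgroup.focalSubgroup K)^[n] K := by
  induction n with
  | zero => exact h
  | succ n ih =>
    rw [Function.iterate_succ_apply', Function.iterate_succ_apply']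
    exact focal_mono ih

theorem map_iter_le {G G' : Type*} [Group G] [Group G'] (f : G →* G') (n : ℕ) (H : Subgroup G) :
    ((fun K : Subgroup G => Subgroup.focalSubgroup K)^[n] H).map f ≤
      (fun K : Subgroup G' => Subgroup.focalSubgroup K)^[n] (H.map f) := by
  induction n with
  | zero => exact le_rfl
  | succ n ih =>
    rw [Function.iterate_succ_apply', Function.iterate_succ_apply']
    exact (map_focal_le f _).trans (focal_mono ih)

theorem exists_normal {G : Type*} [Group G] [Finite G] (H : Subgroup G)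
    (hHall : (Nat.card H).Coprime H.index) :
    ∃ N : Subgroup G, N.Normal ∧ H ⊓ N = H.focalSubgroup ∧ H ⊔ N = ⊤ := by
  have hc : (Nat.card (H ⧸ H.focalSubgroupOf)).Coprime H.index :=
    Nat.Coprime.coprime_dvd_left (Subgroup.card_quotient_dvd_card _) hHall
  refine ⟨H.transferFocal.ker, inferInstance, ?_, ?_⟩
  · apply le_antisymm
    · rintro x ⟨hx, hx'⟩
      have h1 := H.transferFocal_eq_pow ⟨x, hx⟩
      rw [MonoidHom.mem_ker.mp hx'] at h1
      have h2 : ((⟨x, hx⟩ : H) : H ⧸ H.focalSubgroupOf) = 1 :=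
        (powCoprime hc).injective (by simpa using h1.symm)
      have h3 : (⟨x, hx⟩ : H) ∈ H.focalSubgroupOf := (QuotientGroup.eq_one_iff _).mp h2
      exact h3
    · intro x hx
      have hxH := H.focalSubgroup_le hx
      refine ⟨hxH, ?_⟩
      have h1 := H.transferFocal_eq_pow ⟨x, hxH⟩
      have h2 : ((⟨x, hxH⟩ : H) : H ⧸ H.focalSubgroupOf) = 1 := (QuotientGroup.eq_one_iff _).mpr hx
      rw [h2, one_pow] at h1
      exact h1
  · rw [eq_top_iff]
    intro g _
    obtain ⟨y, hy⟩ := (powCoprime hc).surjective (H.transferFocal g)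
    obtain ⟨y, rfl⟩ := QuotientGroup.mk_surjective y
    have h1 := H.transferFocal_eq_pow y
    have h2 : (y : G)⁻¹ * g ∈ H.transferFocal.ker := by
      rw [MonoidHom.mem_ker, map_mul, map_inv, h1, ← hy]
      simp
    have : g = y * ((y : G)⁻¹ * g) := by group
    rw [this]
    exact Subgroup.mul_mem_sup y.2 h2

theorem aux (π : Set ℕ) (n : ℕ) : ∀ {G : Type u} [Group G] [Finite G] (H : Subgroup G),
    IsPiHallOf π H ⊤ → (fun K : Subgroup G => Subgroup.focalSubgroup K)^[n] H = ⊥ →
    ∃ N : Subgroup G, N.Normal ∧ IsPiHallOf πᶜ N ⊤ := by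
  induction n with
  | zero =>
    intro G _ _ H hH h
    have h' : H = ⊥ := h
    subst h'
    exact ⟨⊤, inferInstance, hall_self hH.compl_of_eq_bot⟩
  | succ n ih =>
    intro G _ _ H hH h
    obtain ⟨N, hN, h1, h2⟩ := exists_normal H (by simpa using hH.coprime)
    have h3 := hH.inf_normal (N := N) le_top Subgroup.le_normalizer_of_normal
    obtain ⟨K, hK, hKh⟩ := ih ((H ⊓ N).subgroupOf N) ((hall_subgroupOf_top inf_le_right).2 h3) (by
      rw [← Subgroup.map_eq_bot_iff_of_injective _ N.subtype_injective, eq_bot_iff]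
      refine (map_iter_le _ _ _).trans ?_
      rw [Subgroup.map_subgroupOf_eq_of_le inf_le_right, h1, ← h, Function.iterate_succ_apply])
    have h4 : IsPiHallOf πᶜ (K.map N.subtype) N := hall_map_subtype_top.2 hKh
    refine ⟨K.map N.subtype, ?_, h4.of_index le_top ?_⟩
    · rw [normal_iff_top_le_norm]
      exact Subgroup.le_normalizer_of_normal.trans (h4.norm_of_normal (norm_map_subtype K))
    · rw [compl_compl, ← h2, relIndex_sup_of_norm (Or.inl Subgroup.le_normalizer_of_normal)]
      exact hH.pi.relIndex N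

/-- Let H be a subgroup of a finite group G with order coprime to its index. If iterating the focal-subgroup construction starting from H reaches the trivial subgroup after finitely many steps, then H has a normal complement in G. -/
theorem result {G : Type*} [Group G] [Finite G] (H : Subgroup G) (hHall : (Nat.card H).Coprime H.index) (n : ℕ) (hfoc : (fun K : Subgroup G => Subgroup.focalSubgroup K)^[n] H = ⊥) : ∃ N : Subgroup G, N.Normal ∧ Subgroup.IsComplement' N H := by
  have hH : IsPiHallOf (primesOf H) H ⊤ := IsHallOf.hall ⟨le_top, by simpa using hHall⟩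
  obtain ⟨N, hN, hNh⟩ := aux _ n H hH hfoc
  exact ⟨N, hN, isComplIn_top_iff.1 (hNh.isComplIn hH.compl_compl)⟩

end Cfsg.Agent.S0557
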