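import Cfsg.Statements.S0558
import Cfsg.Agent.H20.NilHall

set_option autoImplicit false
open Cfsg

namespace Cfsg.Agent.S0558

open Cfsg.Agent.H49

/-- Let H be a subgroup of a finite group G that is not a Sylow subgroup of G for any prime, and suppose that for every prime p dividing the order of H and every Sylow p-subgroup P of H the normalizer of P in G is exactly H. Then some normal subgroup of G is a complement to H. -/
theorem result {G : Type*} [Group G] [Finite G] (H : Subgroup G) (hnot : ∀ p : ℕ, p.Prime → ∀ P : Sylow p G, (P : Subgroup G) ≠ H) (hnorm : ∀ p : ℕ, p.Prime → p ∣ Nat.card H → ∀ P : Sylow p H, Subgroup.normalizer (((P : Subgroup H).map H.subtype : Subgroup G) : Set G) = H) : ∃ N : Subgroup G, N.Normal ∧ Subgroup.IsComplement' N H := by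
  have hnil : Group.IsNilpotent H := by
    refine ((Group.isNilpotent_of_finite_tfae (G := H)).out 0 3).mpr ?_
    intro p hp P
    by_cases hd : p ∣ Nat.card H
    · have h1 := hnorm p hp.out hd P
      have h2 := normal_subgroupOf h1.ge
      rwa [Subgroup.subgroupOf, Subgroup.comap_map_eq_self_of_injective H.subtype_injective] at h2
    · have h1 : (P : Subgroup H) = ⊥ := by
        rw [← Subgroup.card_eq_one, P.card_eq_multiplicity, Nat.factorization_eq_zero_of_not_dvd hd,
          pow_zero]
      rw [h1]; infer_instance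
  have hN : ∀ p : ℕ, p.Prime → p ∣ Nat.card H → 𝒩(piCoreOf {p} H) = H := by
    intro p hp hd
    obtain ⟨P, hP⟩ := exists_sylow_of hp (H20.hall_pcore_of_nil {p} hnil)
    rw [← hP]; exact hnorm p hp hd P
  have hS : ∀ p : ℕ, p.Prime → p ∣ Nat.card H → IsSylowOf p (piCoreOf {p} H) ⊤ := fun p hp hd =>
    sylowOf_of_norm_le (H20.hall_pcore_of_nil {p} hnil) le_top (by rw [hN p hp hd]; exact inf_le_right)
  have hH : IsPiHallOf (primesOf H) H ⊤ := by
    refine hall_mk le_top (isPi_primesOf H) fun p hp hd hπ => ?_
    exact ((hS p hp hπ.2).index_of_le (H48.pcore_le _ _)).not_dvd hp rfl hd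
  obtain ⟨N, hNn, hNh⟩ := H20.exists_normal_hall_compl_of_nil hH hnil (fun p hp hd => by
    by_contra hc
    have h1 : IsPi {p} H := fun r hr hrd => by
      by_contra hne
      exact hc ⟨r, hr, hne, hrd, (hN r hr hrd).le⟩
    obtain ⟨P, hP⟩ := exists_sylow_of_top hp (hS p hp hd)
    exact hnot p hp P (hP.trans ((H20.hall_pcore_of_nil {p} hnil).eq_self h1)))
  exact ⟨N, hNn, isComplIn_top_iff.1 (hNh.isComplIn hH.compl_compl)⟩

end Cfsg.Agent.S0558
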