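import Cfsg.Statements.S0559
import Cfsg.Agent.H2.Basic

set_option autoImplicit false
open Pointwise
open Cfsg

namespace Cfsg.Agent.S0559

/-- Let G = HK be a finite group (every element a product of an element of H and an element of K), and let A and B be conjugates of H and K. Then every element is a product of an element of A and one of B, and there is g with A = gHg⁻¹ and B = gKg⁻¹ simultaneously. -/
theorem result {G : Type*} [Group G] [Finite G] (H K A B : Subgroup G) (hHK : ∀ g : G, ∃ h ∈ H, ∃ k ∈ K, g = h * k) (hA : ∃ x : G, A = MulAut.conj x • H) (hB : ∃ y : G, B = MulAut.conj y • K) : (∀ g : G, ∃ a ∈ A, ∃ b ∈ B, g = a * b) ∧ ∃ g : G, A = MulAut.conj g • H ∧ B = MulAut.conj g • K := by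
  obtain ⟨x, rfl⟩ := hA
  obtain ⟨y, rfl⟩ := hB
  obtain ⟨h, hh, k, hk, hxy⟩ := hHK (x⁻¹ * y)
  have h1 : MulAut.conj x • H = MulAut.conj (x * h) • H := by
    rw [← H2.conj_smul_conj_smul, H2.conj_smul_eq_iff_mem_normalizer.mpr (Subgroup.le_normalizer hh)]
  have h2 : MulAut.conj y • K = MulAut.conj (x * h) • K := by
    have : y = (x * h) * k := by rw [mul_assoc, ← hxy]; group
    rw [this, ← H2.conj_smul_conj_smul _ (x * h) k,
      H2.conj_smul_eq_iff_mem_normalizer.mpr (Subgroup.le_normalizer hk)]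
  refine ⟨fun g => ?_, x * h, h1, h2⟩
  obtain ⟨a, ha, b, hb, hg⟩ := hHK ((x * h)⁻¹ * g * (x * h))
  refine ⟨(x * h) * a * (x * h)⁻¹, ?_, (x * h) * b * (x * h)⁻¹, ?_, ?_⟩
  · rw [h1]; exact H2.conj_mem_conj_smul _ ha
  · rw [h2]; exact H2.conj_mem_conj_smul _ hb
  · have : g = (x * h) * (a * b) * (x * h)⁻¹ := by rw [← hg]; group
    rw [this]; group

end Cfsg.Agent.S0559
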