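import Cfsg.Statements.S0561
import Cfsg.Agent.H20.Product

set_option autoImplicit false
open Pointwise
open Cfsg

namespace Cfsg.Agent.S0561

open Cfsg.Agent.H49

/-- Let the finite solvable group G be the product HK of subgroups, and let A be normal in H and B normal in K, where A and B are Hall subgroups of G (order coprime to index). Then for all x, y the product set of xAx⁻¹ and yBy⁻¹ is a subgroup of G. -/
theorem result {G : Type*} [Group G] [Finite G] [Group.IsSolvable G] (H K A B : Subgroup G) (hHK : ∀ g : G, ∃ h ∈ H, ∃ k ∈ K, g = h * k) (hA : A ≤ H) (hAn : (A.subgroupOf H).Normal) (hB : B ≤ K) (hBn : (B.subgroupOf K).Normal) (hAh : (Nat.card A).Coprime A.index) (hBh : (Nat.card B).Coprime B.index) (x y : G) : ∃ S : Subgroup G, (S : Set G) = ((MulAut.conj x • A : Subgroup G) : Set G) * ((MulAut.conj y • B : Subgroup G) : Set G) := by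
  have h := H20.isProd_top_iff.2 hHK
  have hA' := (Subgroup.normal_subgroupOf_iff_le_normalizer hA).mp hAn
  have hB' := (Subgroup.normal_subgroupOf_iff_le_normalizer hB).mp hBn
  have h1 := H20.isProd_of_hall_normal inferInstance h hA' hB'
    (IsHallOf.hall ⟨le_top, by simpa using hAh⟩) (IsHallOf.hall ⟨le_top, by simpa using hBh⟩)
  obtain ⟨g, -, h2, h3⟩ := H20.exists_cj_pair h (Subgroup.mem_top x) (Subgroup.mem_top y)
  refine ⟨cj g (A ⊔ B), ?_⟩
  rw [← cj_eq_smul, ← cj_eq_smul, h2 A hA', h3 B hB']
  exact H20.IsProd_coe_eq (h1.cj g)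

end Cfsg.Agent.S0561
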