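import Cfsg.Statements.S0562
import Cfsg.Agent.H72.Conj

set_option autoImplicit false
open Cfsg

namespace Cfsg.Agent.S0562

/-- Let the finite group G be the product HK of subgroups, A normal in H, B normal in K, and L the normalizer of the subgroup generated by A and B. Then every element of L is a product of an element of L ∩ H and an element of L ∩ K. -/
theorem result {G : Type*} [Group G] [Finite G] (H K A B : Subgroup G) (hHK : ∀ g : G, ∃ h ∈ H, ∃ k ∈ K, g = h * k) (hA : A ≤ H) (hAn : (A.subgroupOf H).Normal) (hB : B ≤ K) (hBn : (B.subgroupOf K).Normal) : ∀ g ∈ Subgroup.normalizer ((A ⊔ B : Subgroup G) : Set G), ∃ h ∈ Subgroup.normalizer ((A ⊔ B : Subgroup G) : Set G) ⊓ H, ∃ k ∈ Subgroup.normalizer ((A ⊔ B : Subgroup G) : Set G) ⊓ K, g = h * k := by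
  intro g hg
  obtain ⟨h, hh, k, hk, rfl⟩ := hHK g
  have hAn' : H ≤ Subgroup.normalizer (A : Set G) :=
    (Subgroup.normal_subgroupOf_iff_le_normalizer hA).mp hAn
  have hBn' : K ≤ Subgroup.normalizer (B : Set G) :=
    (Subgroup.normal_subgroupOf_iff_le_normalizer hB).mp hBn
  have e1 : H72.cj k (A ⊔ B) = H72.cj h⁻¹ (A ⊔ B) := by
    have := H72.cj_eq_of_mem_normalizer hg
    rw [H72.cj_mul] at this
    conv_rhs => rw [← this, H72.cj_inv_cj]
  have hle : A ⊔ B ≤ H72.cj k (A ⊔ B) := by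
    apply sup_le
    · rw [e1, H72.cj_sup, H72.cj_eq_of_mem_normalizer (hAn' (H.inv_mem hh))]
      exact le_sup_left
    · rw [H72.cj_sup, H72.cj_eq_of_mem_normalizer (hBn' hk)]
      exact le_sup_right
  have hk' : k ∈ Subgroup.normalizer ((A ⊔ B : Subgroup G) : Set G) := by
    rw [← H72.cj_eq_iff]
    exact (Subgroup.eq_of_le_of_card_ge hle (by rw [H72.card_cj])).symm
  refine ⟨h, ⟨?_, hh⟩, k, ⟨hk', hk⟩, rfl⟩
  have := Subgroup.mul_mem _ hg (Subgroup.inv_mem _ hk')
  simpa using this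

end Cfsg.Agent.S0562
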