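import Cfsg.Statements.S0565
import Cfsg.Agent.H19.KW

set_option autoImplicit false
open Cfsg

namespace Cfsg.Agent.S0565

open Subgroup Cfsg.Agent.H49

universe u

theorem pi_compl {G : Type u} [Group G] [Finite G] {A N : Subgroup G} {p : ℕ} [N.Normal]
    (hA : Group.IsNilpotent A) (hne : A ≠ ⊤) (hN : N ≠ ⊥) (hp : IsPi {p} N)
    (hmin : ∀ K : Subgroup G, K.Normal → K ≤ N → K = ⊥ ∨ K = N)
    (h : ∀ K : Subgroup G, K.Normal → K ≠ ⊥ → A ⊔ K = ⊤) : IsPi {p}ᶜ A := by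
  have hn : ∀ X : Subgroup G, X ≤ 𝒩(N) := fun X => le_normalizer_of_normal
  have h1 : ⊤ ≤ 𝒩(piCoreOf {p} A ⊔ N) := by
    rw [← h N inferInstance hN]
    exact sup_le (norm_sup (le_norm_piCoreOf _ _) (hn _)) (norm_of_le le_sup_right)
  have h2 := inf_center_ne_bot_of_nilpotent
    ((piCoreOf_pi {p} A).sup hp (Or.inl (hn _))).nilpotent le_sup_right (hn _) hN
  have h3 := (hmin _ (normal_iff_top_le_norm.2 (norm_inf (hn _) (norm_cent h1)))
    inf_le_left).resolve_left h2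
  have h4 : (piCoreOf {p} A).Normal := by
    rw [normal_iff_top_le_norm, ← h N inferInstance hN]
    exact sup_le (le_norm_piCoreOf _ _)
      (norm_of_cent ((h3.ge.trans inf_le_right).trans (cent_anti le_sup_left)))
  have h5 : piCoreOf {p} A = ⊥ := by
    by_contra e
    exact hne ((sup_eq_left.2 (piCoreOf_le _ _)).symm.trans (h _ h4 e))
  exact (h5 ▸ nilpotent_hall_piCoreOf hA {p}).compl_of_eq_bot

theorem exists_normal_of_nil {G : Type u} [Group G] [Finite G]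
    (h : Group.IsNilpotent (⊤ : Subgroup G)) {B : Subgroup G} (hB : B ≠ ⊤) :
    ∃ N : Subgroup G, N.Normal ∧ N ≠ ⊤ ∧ B ≤ N := by
  obtain ⟨M, hM, hle⟩ := (eq_top_or_exists_le_coatom B).resolve_left hB
  refine ⟨M, normal_iff_top_le_norm.2 ?_, hM.1, hle⟩
  have := lt_inf_norm_of_nilpotent h hM.lt_top
  rw [top_inf_eq] at this
  exact (hM.2 _ this).ge

theorem map_ne_top {G : Type u} [Group G] {A K : Subgroup G} [K.Normal] (h : A ⊔ K ≠ ⊤) :
    A.map (QuotientGroup.mk' K) ≠ ⊤ := fun e => h (by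
  have := congrArg (Subgroup.comap (QuotientGroup.mk' K)) e
  rwa [comap_map_eq, QuotientGroup.ker_mk', comap_top] at this)

theorem aux (n : ℕ) : ∀ (G : Type u) [Group G] [Finite G], Nat.card G = n →
    ∀ A B : Subgroup G, Group.IsNilpotent A → Group.IsNilpotent B → IsProd A B ⊤ →
    (A ≠ ⊤ ∨ B ≠ ⊤) → ∃ N : Subgroup G, N.Normal ∧ N ≠ ⊤ ∧ (A ≤ N ∨ B ≤ N) := by
  induction n using Nat.strong_induction_on with
  | _ n ih =>
  intro G _ _ hn A B hA hB hp hne
  by_cases hA' : A = ⊤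
  · obtain ⟨N, h1, h2, h3⟩ := exists_normal_of_nil (hA' ▸ hA) (hne.resolve_left fun h => h hA')
    exact ⟨N, h1, h2, Or.inr h3⟩
  by_cases hB' : B = ⊤
  · obtain ⟨N, h1, h2, h3⟩ := exists_normal_of_nil (hB' ▸ hB) hA'
    exact ⟨N, h1, h2, Or.inl h3⟩
  by_contra hc
  have h1 : ∀ K : Subgroup G, K.Normal → K ≠ ⊥ → A ⊔ K = ⊤ ∧ B ⊔ K = ⊤ := by
    intro K _ hK
    by_contra hc'
    obtain ⟨N, h1, h2, h3⟩ := ih _ (hn ▸ H19.card_quotient_lt hK) (G ⧸ K) rfl _ _
      (nilpotent_map hA _) (nilpotent_map hB _)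
      (H20.isProd_map_top hp _ (QuotientGroup.mk'_surjective K))
      ((not_and_or.1 hc').imp map_ne_top map_ne_top)
    refine hc ⟨N.comap (QuotientGroup.mk' K), inferInstance, fun e => h2 ?_,
      h3.imp map_le_iff_le_comap.1 map_le_iff_le_comap.1⟩
    exact comap_injective (QuotientGroup.mk'_surjective K) (e.trans (comap_top _).symm)
  haveI := H19.kegel_wielandt hA hB hp
  obtain ⟨N, hN, h2, -, h3⟩ := H19.exists_minimal_normal_le (⊤ : Subgroup G)
    (fun e => hA' (top_le_iff.1 (e.le.trans bot_le)))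
  obtain ⟨-, p, hp', hd, -, h4⟩ := H19.minimal_normal_of_solvable N h2 h3
  have h5 := isPi_of_isPGroup hp' h4
  exact h2 (h5.eq_bot ((IsPi.of_isProd (pi_compl hA hA' h2 h5 h3 fun K h h' => (h1 K h h').1)
    (pi_compl hB hB' h2 h5 h3 fun K h h' => (h1 K h h').2) hp).of_le le_top))

/-- Let the finite group G be the product AB of nilpotent subgroups A and B, not both equal to G. Then there is a proper normal subgroup of G containing A or containing B. -/
theorem result {G : Type*} [Group G] [Finite G] (A B : Subgroup G) (hA : Group.IsNilpotent A) (hB : Group.IsNilpotent B) (hAB : ∀ g : G, ∃ a ∈ A, ∃ b ∈ B, g = a * b) (hproper : A ≠ ⊤ ∨ B ≠ ⊤) : ∃ N : Subgroup G, N.Normal ∧ N ≠ ⊤ ∧ (A ≤ N ∨ B ≤ N) := by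
  exact aux _ G rfl A B hA hB (H20.isProd_top_iff.2 hAB) hproper

end Cfsg.Agent.S0565
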