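import Cfsg.Statements.S0567
import Cfsg.Agent.H72.Conj

set_option autoImplicit false
open Cfsg

namespace Cfsg.Agent.S0567

open scoped commutatorElement

theorem le_normalizer_aux {G : Type*} [Group G] (K H : Subgroup G) :
    K ⊔ H ≤ Subgroup.normalizer ((⁅K, H⁆ ⊔ H : Subgroup G) : Set G) := by
  apply sup_le
  · apply H72.le_normalizer_of_cj_le
    intro k hk
    rw [H72.cj_sup]
    apply sup_le
    · rw [H72.cj_eq_of_mem_normalizer]
      · exact le_sup_left
      · exact Subgroup.normalizer_commutator_ge_left K H hk
    · intro x hx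
      rw [H72.mem_cj] at hx
      have h1 := Subgroup.commutator_mem_commutator hk hx
      have : x = ⁅k, k⁻¹ * x * k⁆ * (k⁻¹ * x * k) := by
        rw [commutatorElement_def]; group
      rw [this]
      exact Subgroup.mul_mem_sup h1 hx
  · exact le_sup_right.trans Subgroup.le_normalizer

theorem aux {G : Type*} [Group G] (H : Subgroup G) (m : ℕ) :
    ((fun K : Subgroup G => ⁅K, H⁆)^[m] ⊤ ⊔ H).IsSubnormal := by
  induction m with
  | zero => simp
  | succ m ih =>
    rw [Function.iterate_succ_apply']
    set K := (fun K : Subgroup G => ⁅K, H⁆)^[m] ⊤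
    have hle : ⁅K, H⁆ ⊔ H ≤ K ⊔ H := sup_le (Subgroup.commutator_le_sup K H) le_sup_right
    exact Subgroup.IsSubnormal.step _ _ hle ih
      ((Subgroup.normal_subgroupOf_iff_le_normalizer hle).mpr (le_normalizer_aux K H))

theorem mono_aux {G : Type*} [Group G] {H K : Subgroup G} (h : H ≤ K) (m : ℕ) :
    (fun L : Subgroup G => ⁅L, H⁆)^[m] ⊤ ≤ (fun L : Subgroup G => ⁅L, K⁆)^[m] ⊤ := by
  induction m with
  | zero => exact le_rfl
  | succ m ih =>
    rw [Function.iterate_succ_apply', Function.iterate_succ_apply']
    exact Subgroup.commutator_mono ih h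

/-- A subgroup H of a group G is subnormal exactly when, for some m, the subgroup obtained from G by taking the commutator with H m times in succession is contained in H. -/
theorem result {G : Type*} [Group G] (H : Subgroup G) : H.IsSubnormal ↔ ∃ m : ℕ, (fun K : Subgroup G => ⁅K, H⁆)^[m] ⊤ ≤ H := by
  constructor
  · intro h
    induction h with
    | top => exact ⟨0, le_top⟩
    | step H K hle hK hN ih =>
      obtain ⟨m, hm⟩ := ih
      refine ⟨m + 1, ?_⟩
      rw [Function.iterate_succ_apply']
      have h1 := (mono_aux hle m).trans hm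
      refine (Subgroup.commutator_mono h1 le_rfl).trans ?_
      have hn := (Subgroup.normal_subgroupOf_iff_le_normalizer hle).mp hN
      exact Subgroup.le_normalizer_iff_commutator_le_right.mp hn
  · rintro ⟨m, hm⟩
    have := aux H m
    rwa [sup_eq_right.mpr hm] at this

end Cfsg.Agent.S0567
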