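import Cfsg.Statements.S0568
import Cfsg.Agent.H19.SystemNormalizer
import Cfsg.Agent.H19.Nilp

set_option autoImplicit false
open Cfsg

namespace Cfsg.Agent.S0568

theorem center_le {G : Type*} [Group G] (K : Nat.Primes → Subgroup G) :
    Subgroup.center G ≤ Cfsg.systemNormalizer K :=
  le_iInf fun p => Subgroup.center_le_normalizer (K p : Set G)

/-- A system normalizer avoids a non-central minimal normal subgroup. -/
theorem inf_eq_bot {G : Type*} [Group G] [Finite G] [Group.IsSolvable G]
    (K : Nat.Primes → Subgroup G) (hK : Cfsg.IsComplementSystem K) (B : Subgroup G) [hBn : B.Normal]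
    (hmin : ∀ N : Subgroup G, N.Normal → N ≤ B → N = ⊥ ∨ N = B)
    (hc : ¬ B ≤ Subgroup.center G) : B ⊓ Cfsg.systemNormalizer K = ⊥ := by
  have hB : B ≠ ⊥ := fun h => hc (h ▸ bot_le)
  obtain ⟨-, p, hp, -, -, hBp⟩ := H19.minimal_normal_of_solvable B hB hmin
  have := Fact.mk hp
  have hC : Subgroup.centralizer (B : Set G) ≠ ⊤ := fun h =>
    hc (Subgroup.centralizer_eq_top_iff_subset.mp h)
  have : Nontrivial (G ⧸ Subgroup.centralizer (B : Set G)) := QuotientGroup.nontrivial_iff.mpr hC
  obtain ⟨M, hMn, hM, -, hMmin⟩ := H19.exists_minimal_normal_le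
    (⊤ : Subgroup (G ⧸ Subgroup.centralizer (B : Set G))) top_ne_bot
  obtain ⟨-, q, hq, -, -, hMq⟩ := H19.minimal_normal_of_solvable M hM hMmin
  have := Fact.mk hq
  let π := QuotientGroup.mk' (Subgroup.centralizer (B : Set G))
  have hπ : Function.Surjective π := QuotientGroup.mk'_surjective _
  have key : ∀ (X : Subgroup G) (z : G), M ≤ X.map π → z ∈ B → (∀ y ∈ X, y * z = z * y) →
      z = 1 := by
    intro X z hX hz hXz
    by_contra hz1
    have h1 : M.comap π ≤ Subgroup.centralizer (B : Set G) := by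
      refine H19.le_centralizer_of_minimal_normal hmin hz hz1 fun y hy => ?_
      have h2 := Subgroup.comap_mono (f := π) hX hy
      rw [Subgroup.comap_map_eq, QuotientGroup.ker_mk'] at h2
      have h3 : X ⊔ Subgroup.centralizer (B : Set G) ≤ Subgroup.centralizer {z} :=
        sup_le (fun y hy => Subgroup.mem_centralizer_singleton_iff.mpr (hXz y hy))
          (Subgroup.centralizer_le (Set.singleton_subset_iff.mpr hz))
      exact Subgroup.mem_centralizer_singleton_iff.mp (h3 h2)
    apply hM
    rw [← Subgroup.map_comap_eq_self_of_surjective hπ M, Subgroup.map_eq_bot_iff,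
      QuotientGroup.ker_mk']
    exact h1
  have hqp : q ≠ p := by
    rintro rfl
    obtain ⟨P⟩ : Nonempty (Sylow q G) := inferInstance
    obtain ⟨z, hz, hz1, hzc⟩ := H19.exists_mem_centralizer_of_le_nilpotent
      P.isPGroup'.isNilpotent (hBp.le_sylow_of_normal P)
      (by rw [Subgroup.normalizer_eq_top]; exact le_top) hB
    exact hz1 (key P z (hMq.le_sylow_of_normal (P.mapSurjective hπ)) hz hzc)
  rw [eq_bot_iff]
  rintro z ⟨hz, hzD⟩
  refine key (K ⟨p, hp⟩) z ?_ hz fun y hy => ?_
  · apply H19.le_of_normal_of_coprime_index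
    obtain ⟨k, hk⟩ := hMq.exists_card_eq
    rw [hk, H19.IsComplementSystem.map hK π hπ ⟨p, hp⟩]
    exact Nat.Coprime.pow _ _ ((Nat.coprime_primes hq hp).mpr hqp)
  · have h1 : B ⊓ K ⟨p, hp⟩ = ⊥ := by
      obtain ⟨k, hk⟩ := hBp.exists_card_eq
      refine disjoint_iff.mp (Subgroup.disjoint_of_coprime_natCard ?_)
      rw [hk]
      exact Nat.Coprime.pow_left _ ((Nat.Prime.coprime_iff_not_dvd hp).mpr
        (H19.IsComplementSystem.not_dvd_card hK ⟨p, hp⟩))
    have hzN : z ∈ Subgroup.normalizer (K ⟨p, hp⟩ : Set G) :=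
      (iInf_le (fun p => Subgroup.normalizer (K p : Set G)) ⟨p, hp⟩) hzD
    have h2 : y * z * y⁻¹ * z⁻¹ ∈ B ⊓ K ⟨p, hp⟩ := by
      refine ⟨B.mul_mem (hBn.conj_mem z hz y) (B.inv_mem hz), ?_⟩
      have h3 := (Subgroup.mem_normalizer_iff.mp hzN y⁻¹).mp ((K _).inv_mem hy)
      have h4 := (K _).mul_mem hy h3
      rw [← mul_assoc, ← mul_assoc] at h4
      exact h4
    rw [h1, Subgroup.mem_bot, mul_inv_eq_one, mul_inv_eq_iff_eq_mul] at h2
    exact h2

/-- Let D be the system normalizer of a Hall complement system of a finite solvable group G, and let A < B be normal subgroups with no normal subgroup of G strictly between them (a chief factor). If G centralizes B modulo A then B ≤ A ⊔ D (D covers the factor); otherwise B ∩ D ≤ A (D avoids it). -/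
theorem result {G : Type*} [Group G] [Finite G] [Group.IsSolvable G] (K : Nat.Primes → Subgroup G) (hK : Cfsg.IsComplementSystem K) (A B : Subgroup G) [A.Normal] [B.Normal] (hAB : A < B) (hchief : ∀ N : Subgroup G, N.Normal → A ≤ N → N ≤ B → N = A ∨ N = B) : (⁅B, (⊤ : Subgroup G)⁆ ≤ A → B ≤ A ⊔ Cfsg.systemNormalizer K) ∧ (¬ ⁅B, (⊤ : Subgroup G)⁆ ≤ A → B ⊓ Cfsg.systemNormalizer K ≤ A) := by
  let π := QuotientGroup.mk' A
  have hπ : Function.Surjective π := QuotientGroup.mk'_surjective A
  have hD := H19.systemNormalizer_map hK π hπ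
  have hcomm : ⁅B, (⊤ : Subgroup G)⁆ ≤ A ↔ B.map π ≤ Subgroup.center (G ⧸ A) := by
    rw [← Subgroup.commutator_top_right_eq_bot_iff_le_center,
      ← Subgroup.map_top_of_surjective π hπ, ← Subgroup.map_commutator, Subgroup.map_eq_bot_iff,
      QuotientGroup.ker_mk']
  rw [hcomm]
  constructor
  · intro h
    have h1 := h.trans (center_le fun p => (K p).map π)
    rw [hD, Subgroup.map_le_iff_le_comap, Subgroup.comap_map_eq, QuotientGroup.ker_mk',
      sup_comm] at h1
    exact h1
  · intro h
    have : (B.map π).Normal := Subgroup.Normal.map inferInstance π hπ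
    have h1 := inf_eq_bot _ (H19.IsComplementSystem.map hK π hπ) (B.map π) (by
      intro N hN hNB
      have h2 : A ≤ N.comap π := by
        conv_lhs => rw [← QuotientGroup.ker_mk' A]
        exact Subgroup.ker_le_comap _ _
      have h3 : N.comap π ≤ B := by
        refine (Subgroup.comap_mono hNB).trans ?_
        rw [Subgroup.comap_map_eq, QuotientGroup.ker_mk', sup_eq_left.mpr hAB.le]
      rw [← Subgroup.map_comap_eq_self_of_surjective hπ N]
      rcases hchief _ (hN.comap π) h2 h3 with h4 | h4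
      · left; rw [h4, QuotientGroup.map_mk'_self]
      · right; rw [h4]) h
    rw [hD] at h1
    conv_rhs => rw [← QuotientGroup.ker_mk' A]
    rw [← Subgroup.map_eq_bot_iff, eq_bot_iff, ← h1]
    exact Subgroup.map_inf_le _ _ _

end Cfsg.Agent.S0568
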