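import Cfsg.Statements.S0570
import Cfsg.Agent.S0568
import Cfsg.Agent.S0544
import Cfsg.Agent.S0045
import Cfsg.Agent.S0003

set_option autoImplicit false
open Cfsg

namespace Cfsg.Agent.S0570

open Pointwise

universe u

theorem exists_complementSystem (G : Type*) [Group G] [Finite G] [Group.IsSolvable G] :
    ∃ K : Nat.Primes → Subgroup G, Cfsg.IsComplementSystem K := by
  have h : ∀ p : Nat.Primes, ∃ H : Subgroup G,
      H.index = (p : ℕ) ^ (Nat.card G).factorization p := by
    intro p
    have h0 : Nat.card G ≠ 0 := Nat.card_pos.ne'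
    have h1 := Nat.ordProj_mul_ordCompl_eq_self (Nat.card G) p
    obtain ⟨H, hH⟩ := S0003.result (G := G) _ _ ((mul_comm _ _).trans h1).symm
      (Nat.Coprime.pow_right _ (Nat.coprime_ordCompl p.2 h0).symm)
    refine ⟨H, ?_⟩
    have h2 := H.index_mul_card
    rw [hH] at h2
    exact Nat.eq_of_mul_eq_mul_right (Nat.ordCompl_pos _ h0) (h2.trans h1.symm)
  choose K hK using h
  exact ⟨K, hK⟩

theorem systemNormalizer_eq_top {G : Type*} [Group G] [Finite G] [Group.IsNilpotent G]
    (K : Nat.Primes → Subgroup G) (hK : Cfsg.IsComplementSystem K) :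
    Cfsg.systemNormalizer K = ⊤ := by
  rw [eq_top_iff]
  refine le_iInf fun p => ?_
  have := Fact.mk p.2
  obtain ⟨P⟩ : Nonempty (Sylow p G) := inferInstance
  have hcop : (P : Subgroup G).index.Coprime (K p).index := by
    rw [hK p]
    exact Nat.Coprime.pow_right _ ((Nat.Prime.coprime_iff_not_dvd p.2).mpr P.not_dvd_index).symm
  intro g _
  obtain ⟨x, hx, y, hy, rfl⟩ := (S0007.result _ _ hcop).2 g
  refine Subgroup.mul_mem _ ?_ (Subgroup.le_normalizer hy)
  apply Subgroup.mem_normalizer_fintype
  intro k hk
  obtain ⟨j, hj⟩ := P.isPGroup'.exists_card_eq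
  rw [H19.commute_of_coprime_of_le_nilpotent (T := ⊤) inferInstance le_top le_top (by
    rw [hj]
    exact Nat.Coprime.pow_left _ ((Nat.Prime.coprime_iff_not_dvd p.2).mpr
      (H19.IsComplementSystem.not_dvd_card hK p))) hx hk, mul_inv_cancel_right]
  exact hk

theorem smul_systemNormalizer {G : Type*} [Group G] (K : Nat.Primes → Subgroup G) (g : G) :
    MulAut.conj g • Cfsg.systemNormalizer K =
      Cfsg.systemNormalizer fun p => MulAut.conj g • K p := by
  ext x
  rw [H19.mem_conj_smul_iff, H19.mem_systemNormalizer, H19.mem_systemNormalizer]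
  refine forall_congr' fun p => ?_
  rw [map_mul, map_mul, mul_smul, mul_smul, map_inv, inv_smul_eq_iff]

theorem normalizer_le (n : ℕ) : ∀ (G : Type u) [Group G] [Finite G] [Group.IsSolvable G],
    Nat.card G = n → ∀ (F : Subgroup G) [F.Normal], Group.IsNilpotent F →
    ∀ K : Nat.Primes → Subgroup G, Cfsg.IsComplementSystem K →
    F ⊔ Cfsg.systemNormalizer K = ⊤ →
    Subgroup.normalizer (Cfsg.systemNormalizer K : Set G) ≤ Cfsg.systemNormalizer K := by
  induction n using Nat.strong_induction_on with
  | _ n ih =>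
  intro G _ _ _ hn F _ hF K hK hFD
  by_cases hF0 : F = ⊥
  · rw [hF0, bot_sup_eq] at hFD
    exact le_top.trans hFD.ge
  obtain ⟨B, hBn, hB, hBF, hmin⟩ := H19.exists_minimal_normal_le F hF0
  let π := QuotientGroup.mk' B
  have hπ : Function.Surjective π := QuotientGroup.mk'_surjective B
  have hD := H19.systemNormalizer_map hK π hπ
  have : (F.map π).Normal := Subgroup.Normal.map inferInstance π hπ
  have h1 := ih _ (hn ▸ H19.card_quotient_lt hB) (G ⧸ B) rfl (F.map π)
    (Group.nilpotent_of_surjective _ (π.subgroupMap_surjective F)) _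
    (H19.IsComplementSystem.map hK π hπ)
    (by rw [hD, ← Subgroup.map_sup, hFD, Subgroup.map_top_of_surjective π hπ])
  rw [hD] at h1
  have h2 := (Subgroup.le_normalizer_map π).trans h1
  rw [Subgroup.map_le_iff_le_comap, Subgroup.comap_map_eq, QuotientGroup.ker_mk'] at h2
  by_cases hc : B ≤ Subgroup.center G
  · exact h2.trans (sup_le le_rfl (hc.trans (S0568.center_le K)))
  have h3 := S0568.inf_eq_bot K hK B hmin hc
  intro x hx
  obtain ⟨d, hd, y, hy, rfl⟩ := H19.mem_sup_normal_right.mp (h2 hx)
  have hyN : y ∈ Subgroup.normalizer (Cfsg.systemNormalizer K : Set G) := by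
    simpa using Subgroup.mul_mem _ (Subgroup.inv_mem _ (Subgroup.le_normalizer hd)) hx
  have hy1 : y = 1 := by
    by_contra hy1
    apply hc
    have h4 : (⊤ : Subgroup G) ≤ Subgroup.centralizer (B : Set G) := by
      refine H19.le_centralizer_of_minimal_normal hmin hy hy1 fun g hg => ?_
      rw [← hFD] at hg
      refine Subgroup.mem_centralizer_singleton_iff.mp ((sup_le ?_ ?_ :
        _ ≤ Subgroup.centralizer {y}) hg)
      · exact (H19.nilpotent_le_centralizer_minimal_normal hF hmin).trans
          (Subgroup.centralizer_le (Set.singleton_subset_iff.mpr hy))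
      · intro e he
        have h5 : e * y * e⁻¹ * y⁻¹ ∈ B ⊓ Cfsg.systemNormalizer K := by
          refine ⟨B.mul_mem (hBn.conj_mem y hy e) (B.inv_mem hy), ?_⟩
          have h6 := (Subgroup.mem_normalizer_iff.mp hyN e⁻¹).mp (Subgroup.inv_mem _ he)
          have h7 := Subgroup.mul_mem _ he h6
          rw [← mul_assoc, ← mul_assoc] at h7
          exact h7
        rw [h3, Subgroup.mem_bot, mul_inv_eq_one, mul_inv_eq_iff_eq_mul] at h5
        exact Subgroup.mem_centralizer_singleton_iff.mpr h5
    exact Subgroup.centralizer_eq_top_iff_subset.mp (top_le_iff.mp h4)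
  rwa [hy1, mul_one]

/-- Let G be a finite group with a nilpotent normal subgroup F such that G modulo F is nilpotent (nilpotent length at most two). Then a subgroup of G is a Carter subgroup if and only if it is the system normalizer of some Hall complement system. -/
theorem result {G : Type*} [Group G] [Finite G] (F : Subgroup G) [F.Normal] (hF : Group.IsNilpotent F) (hGF : Group.IsNilpotent (G ⧸ F)) (C : Subgroup G) : Cfsg.IsCarterSubgroup C ↔ ∃ K : Nat.Primes → Subgroup G, Cfsg.IsComplementSystem K ∧ C = Cfsg.systemNormalizer K := by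
  have hs : Group.IsSolvable G :=
    (Group.isSolvable_iff_subgroup_quotient F).mpr ⟨inferInstance, inferInstance⟩
  have key : ∀ K : Nat.Primes → Subgroup G, Cfsg.IsComplementSystem K →
      Cfsg.IsCarterSubgroup (Cfsg.systemNormalizer K) := by
    intro K hK
    refine ⟨S0544.result K hK, le_antisymm (normalizer_le _ G rfl F hF K hK ?_)
      Subgroup.le_normalizer⟩
    have hπ := QuotientGroup.mk'_surjective F
    have h1 := H19.systemNormalizer_map hK _ hπ
    rw [systemNormalizer_eq_top _ (H19.IsComplementSystem.map hK _ hπ)] at h1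
    have h2 := congrArg (Subgroup.comap (QuotientGroup.mk' F)) h1
    rw [Subgroup.comap_top, Subgroup.comap_map_eq, QuotientGroup.ker_mk', sup_comm] at h2
    exact h2.symm
  constructor
  · intro hC
    obtain ⟨K, hK⟩ := exists_complementSystem G
    obtain ⟨g, hg⟩ := (S0045.result (G := G)).2 _ C (key K hK).1 (key K hK).2 hC.1 hC.2
    exact ⟨_, H19.IsComplementSystem.smul hK g, by rw [← hg, smul_systemNormalizer]⟩
  · rintro ⟨K, hK, rfl⟩
    exact key K hK

end Cfsg.Agent.S0570
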