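import Cfsg.Statements.S0569
import Cfsg.Agent.S0570
import Cfsg.Agent.S0543
import Cfsg.Agent.S0005

set_option autoImplicit false
open Cfsg

namespace Cfsg.Agent.S0569

open Pointwise

universe u

theorem carter_smul {G : Type*} [Group G] {C : Subgroup G} (hC : Cfsg.IsCarterSubgroup C) (g : G) :
    Cfsg.IsCarterSubgroup (MulAut.conj g • C) := by
  refine ⟨?_, ?_⟩
  · have := hC.1
    exact Group.nilpotent_of_mulEquiv (Subgroup.equivSMul (MulAut.conj g) C)
  · ext x
    rw [← H19.conj_smul_eq_iff, H19.mem_conj_smul_iff, ← hC.2, ← H19.conj_smul_eq_iff, hC.2,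
      map_mul, map_mul, mul_smul, mul_smul, map_inv, inv_smul_eq_iff]

theorem carter_subgroupOf {G : Type*} [Group G] {C H : Subgroup G}
    (hC : Cfsg.IsCarterSubgroup C) (h : C ≤ H) : Cfsg.IsCarterSubgroup (C.subgroupOf H) := by
  refine ⟨?_, ?_⟩
  · have := hC.1
    exact Group.nilpotent_of_mulEquiv (Subgroup.subgroupOfEquivOfLe h).symm
  · rw [← Subgroup.subgroupOf_normalizer_eq h, hC.2]

/-- The image of a Carter subgroup of a finite solvable group is a Carter subgroup. -/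
theorem carter_map {G G' : Type*} [Group G] [Finite G] [Group.IsSolvable G] [Group G']
    {C : Subgroup G} (hC : Cfsg.IsCarterSubgroup C) (f : G →* G') (hf : Function.Surjective f) :
    Cfsg.IsCarterSubgroup (C.map f) := by
  refine ⟨?_, le_antisymm ?_ Subgroup.le_normalizer⟩
  · have := hC.1
    exact Group.nilpotent_of_surjective _ (f.subgroupMap_surjective C)
  intro y hy
  obtain ⟨x, rfl⟩ := hf y
  have h1 : MulAut.conj x • C ≤ C ⊔ f.ker := by
    rw [← Subgroup.comap_map_eq, ← Subgroup.map_le_iff_le_comap, H19.map_conj_smul,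
      H19.conj_smul_eq_iff.mpr hy]
  have h2 := carter_subgroupOf (carter_smul hC x) h1
  have h3 := carter_subgroupOf hC (le_sup_left : C ≤ C ⊔ f.ker)
  obtain ⟨h, hh⟩ := (S0045.result (G := (C ⊔ f.ker : Subgroup G))).2 _ _ h2.1 h2.2 h3.1 h3.2
  rw [Subgroup.conj_smul_subgroupOf h1] at hh
  have h4 := congrArg (Subgroup.map (C ⊔ f.ker).subtype) hh
  rw [Subgroup.map_subgroupOf_eq_of_le (H19.conj_smul_le_of_mem h.2 h1),
    Subgroup.map_subgroupOf_eq_of_le le_sup_left, ← mul_smul, ← map_mul, H19.conj_smul_eq_iff,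
    hC.2] at h4
  have h5 : x ∈ C ⊔ f.ker := by
    simpa using Subgroup.mul_mem _ (Subgroup.inv_mem _ h.2) (Subgroup.mem_sup_left h4)
  rw [← Subgroup.comap_map_eq] at h5
  exact h5

theorem le_carter (n : ℕ) : ∀ (G : Type u) [Group G] [Finite G] [Group.IsSolvable G],
    Nat.card G = n → ∀ C : Subgroup G, Cfsg.IsCarterSubgroup C →
    ∀ K : Nat.Primes → Subgroup G, Cfsg.IsComplementSystem K →
    (∀ p : Nat.Primes, ∃ k, (K p).relIndex C ∣ (p : ℕ) ^ k) → Cfsg.systemNormalizer K ≤ C := by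
  induction n using Nat.strong_induction_on with
  | _ n ih =>
  intro G _ _ _ hn C hC K hK hKC
  cases subsingleton_or_nontrivial G with
  | inl _ => exact (Subsingleton.elim _ _).le
  | inr _ =>
  obtain ⟨N, hNn, hN, -, hmin⟩ := H19.exists_minimal_normal_le (⊤ : Subgroup G) top_ne_bot
  obtain ⟨-, p, hp, -, -, hNp⟩ := H19.minimal_normal_of_solvable N hN hmin
  have := Fact.mk hp
  let π := QuotientGroup.mk' N
  have hπ : Function.Surjective π := QuotientGroup.mk'_surjective N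
  have h1 := ih _ (hn ▸ H19.card_quotient_lt hN) (G ⧸ N) rfl _ (carter_map hC π hπ) _
    (H19.IsComplementSystem.map hK π hπ) (fun q => by
      obtain ⟨k, hk⟩ := hKC q
      refine ⟨k, Dvd.dvd.trans ?_ hk⟩
      rw [← Subgroup.relIndex_comap]
      exact Subgroup.relIndex_dvd_of_le_left _ (Subgroup.le_comap_map _ _))
  rw [H19.systemNormalizer_map hK π hπ, Subgroup.map_le_iff_le_comap, Subgroup.comap_map_eq,
    QuotientGroup.ker_mk'] at h1
  obtain ⟨S₀⟩ : Nonempty (Sylow p C) := inferInstance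
  let S : Subgroup G := (S₀ : Subgroup C).map C.subtype
  let R : Subgroup G := K ⟨p, hp⟩ ⊓ C
  have hSC : S ≤ C := Subgroup.map_subtype_le _
  have hSp : IsPGroup p S := S₀.isPGroup'.map _
  have hcop : ∀ X : Subgroup G, IsPGroup p X → (Nat.card X).Coprime (Nat.card (K ⟨p, hp⟩)) := by
    intro X hX
    obtain ⟨k, hk⟩ := hX.exists_card_eq
    rw [hk]
    exact Nat.Coprime.pow_left _ ((Nat.Prime.coprime_iff_not_dvd hp).mpr
      (H19.IsComplementSystem.not_dvd_card hK ⟨p, hp⟩))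
  have hSR : S ≤ Subgroup.centralizer (R : Set G) := fun s hs r hr =>
    (H19.commute_of_coprime_of_le_nilpotent hC.1 hSC inf_le_right
      ((hcop S hSp).coprime_dvd_right (Subgroup.card_dvd_of_le inf_le_left)) hs hr).symm
  have hCSR : ∀ c ∈ C, ∃ s ∈ S, ∃ r ∈ R, c = s * r := by
    intro c hc
    obtain ⟨k, hk⟩ := hKC ⟨p, hp⟩
    obtain ⟨s, hs, r, hr, h⟩ := (S0007.result (S₀ : Subgroup C) ((K ⟨p, hp⟩).subgroupOf C)
      (Nat.Coprime.coprime_dvd_right hk (Nat.Coprime.pow_right _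
        ((Nat.Prime.coprime_iff_not_dvd hp).mpr S₀.not_dvd_index).symm))).2 ⟨c, hc⟩
    exact ⟨s, Subgroup.mem_map_of_mem _ hs, r, ⟨hr, r.2⟩, congrArg Subtype.val h⟩
  have hCeq : C = S ⊔ R := by
    refine le_antisymm (fun c hc => ?_) (sup_le hSC inf_le_right)
    obtain ⟨s, hs, r, hr, rfl⟩ := hCSR c hc
    exact Subgroup.mul_mem _ (Subgroup.mem_sup_left hs) (Subgroup.mem_sup_right hr)
  have hCR : C ≤ Subgroup.normalizer (R : Set G) := by
    conv_lhs => rw [hCeq]
    exact sup_le (hSR.trans (Subgroup.centralizer_le_normalizer _)) Subgroup.le_normalizer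
  let V : Subgroup G := N ⊓ Subgroup.centralizer (R : Set G)
  have hSV : S ≤ Subgroup.normalizer (V : Set G) := by
    intro s hs
    apply Subgroup.mem_normalizer_fintype
    rintro v ⟨hv1, hv2⟩
    exact ⟨hNn.conj_mem v hv1 s, Subgroup.mul_mem _ (Subgroup.mul_mem _ (hSR hs) hv2)
      (Subgroup.inv_mem _ (hSR hs))⟩
  have hT : IsPGroup p (S ⊔ V : Subgroup G) :=
    hSp.to_sup_of_normal_right' (hNp.to_le inf_le_left) hSV
  have hVC : V ≤ C := by
    by_contra hne
    have hlt : S < S ⊔ V := lt_of_le_of_ne le_sup_left fun h =>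
      hne (le_sup_right.trans (h.ge.trans hSC))
    obtain ⟨t, ht, htS, htN⟩ := H19.exists_mem_normalizer_of_lt_nilpotent hT.isNilpotent hlt
    have htR : t ∈ Subgroup.normalizer (R : Set G) :=
      Subgroup.centralizer_le_normalizer _ (sup_le hSR inf_le_right ht)
    have htC : t ∈ C := by
      rw [← hC.2, ← H19.conj_smul_eq_iff, hCeq, Subgroup.smul_sup, H19.conj_smul_eq_iff.mpr htN,
        H19.conj_smul_eq_iff.mpr htR]
    have h2 := S₀.is_maximal' (hT.comap_subtype (K := C))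
      (fun x hx => Subgroup.mem_sup_left (Subgroup.mem_map_of_mem _ hx))
    apply htS
    refine ⟨⟨t, htC⟩, ?_, rfl⟩
    rw [← h2]
    exact ht
  intro d hd
  obtain ⟨c, hc, y, hy, rfl⟩ := H19.mem_sup_normal_right.mp (h1 hd)
  refine C.mul_mem hc (hVC ⟨hy, fun r hr => ?_⟩)
  have hdK : c * y ∈ Subgroup.normalizer (K ⟨p, hp⟩ : Set G) :=
    (iInf_le (fun p => Subgroup.normalizer (K p : Set G)) ⟨p, hp⟩) hd
  have h3 : c * y * r * (c * y)⁻¹ ∈ K ⟨p, hp⟩ := (Subgroup.mem_normalizer_iff.mp hdK r).mp hr.1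
  have h4 : c * r * c⁻¹ ∈ K ⟨p, hp⟩ := ((Subgroup.mem_normalizer_iff.mp (hCR hc) r).mp hr).1
  have h5 : c * (y * (r * y⁻¹ * r⁻¹)) * c⁻¹ ∈ N ⊓ K ⟨p, hp⟩ := by
    refine ⟨hNn.conj_mem _ (N.mul_mem hy (hNn.conj_mem _ (N.inv_mem hy) r)) c, ?_⟩
    have h6 := (K ⟨p, hp⟩).mul_mem h3 ((K ⟨p, hp⟩).inv_mem h4)
    have h7 : c * y * r * (c * y)⁻¹ * (c * r * c⁻¹)⁻¹ = c * (y * (r * y⁻¹ * r⁻¹)) * c⁻¹ := by group
    rw [h7] at h6
    exact h6
  rw [disjoint_iff.mp (Subgroup.disjoint_of_coprime_natCard (hcop N hNp)), Subgroup.mem_bot,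
    conj_eq_one_iff] at h5
  calc r * y = (y * (r * y⁻¹ * r⁻¹)) * (r * y) := by rw [h5, one_mul]
    _ = y * r := by group

/-- In a finite solvable group: each nilpotent self-normalizing subgroup contains the system normalizer of some Hall complement system, and the system normalizer of any Hall complement system lies in some nilpotent self-normalizing subgroup. -/
theorem result {G : Type*} [Group G] [Finite G] [Group.IsSolvable G] : (∀ C : Subgroup G, Cfsg.IsCarterSubgroup C → ∃ K : Nat.Primes → Subgroup G, Cfsg.IsComplementSystem K ∧ Cfsg.systemNormalizer K ≤ C) ∧ ∀ K : Nat.Primes → Subgroup G, Cfsg.IsComplementSystem K → ∃ C : Subgroup G, Cfsg.IsCarterSubgroup C ∧ Cfsg.systemNormalizer K ≤ C := by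
  have key : ∀ C : Subgroup G, Cfsg.IsCarterSubgroup C → ∃ K : Nat.Primes → Subgroup G,
      Cfsg.IsComplementSystem K ∧ Cfsg.systemNormalizer K ≤ C := by
    intro C hC
    obtain ⟨L, hL⟩ := S0570.exists_complementSystem C
    have h : ∀ p : Nat.Primes, ∃ H : Subgroup G,
        H.index = (p : ℕ) ^ (Nat.card G).factorization p ∧ (L p).map C.subtype ≤ H := by
      intro p
      have h0 : Nat.card G ≠ 0 := Nat.card_pos.ne'
      have h1 := Nat.ordProj_mul_ordCompl_eq_self (Nat.card G) p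
      obtain ⟨H, hH, hle⟩ := S0005.result (G := G) _ _ ((mul_comm _ _).trans h1).symm
        (Nat.Coprime.pow_right _ (Nat.coprime_ordCompl p.2 h0).symm) ((L p).map C.subtype) (by
          rw [Subgroup.card_map_of_injective C.subtype_injective]
          exact Nat.Coprime.pow_right _ ((Nat.Prime.coprime_iff_not_dvd p.2).mpr
            (H19.IsComplementSystem.not_dvd_card hL p)).symm)
      refine ⟨H, ?_, hle⟩
      have h2 := H.index_mul_card
      rw [hH] at h2
      exact Nat.eq_of_mul_eq_mul_right (Nat.ordCompl_pos _ h0) (h2.trans h1.symm)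
    choose K hK hLK using h
    refine ⟨K, hK, le_carter _ G rfl C hC K hK fun p => ⟨(Nat.card C).factorization p, ?_⟩⟩
    · rw [← hL p]
      exact Subgroup.index_dvd_of_le (Subgroup.map_le_iff_le_comap.mp (hLK p))
  refine ⟨key, fun K hK => ?_⟩
  obtain ⟨C, hC⟩ := (S0045.result (G := G)).1
  obtain ⟨K₀, hK₀, hle⟩ := key C hC
  obtain ⟨g, hg⟩ := S0543.result K₀ K hK₀ hK
  refine ⟨_, carter_smul hC g, ?_⟩
  rw [← funext hg, ← S0570.smul_systemNormalizer]
  exact Subgroup.pointwise_smul_le_pointwise_smul_iff.mpr hle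

end Cfsg.Agent.S0569
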