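import Cfsg.Statements.S0573
import Cfsg.Agent.S0572
import Cfsg.Agent.S0560
import Cfsg.Agent.H19.Nilp
import Cfsg.Agent.H19.Supersolvable

set_option autoImplicit false
open Cfsg

namespace Cfsg.Agent.S0573

theorem swap {G : Type*} [Group G] {A B : Subgroup G}
    (hAB : ∀ g : G, ∃ a ∈ A, ∃ b ∈ B, g = a * b) : ∀ g : G, ∃ b ∈ B, ∃ a ∈ A, g = b * a := by
  intro g
  obtain ⟨a, ha, b, hb, h⟩ := hAB g⁻¹
  exact ⟨b⁻¹, B.inv_mem hb, a⁻¹, A.inv_mem ha, by rw [← mul_inv_rev, ← h, inv_inv]⟩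

theorem fin {G : Type*} [Group G] (A B : Subgroup G) [hA : IsMulCommutative A]
    [hB : IsMulCommutative B] (hAB : ∀ g : G, ∃ a ∈ A, ∃ b ∈ B, g = a * b) {a : G} (ha : a ∈ A)
    (ha1 : a ≠ 1) (hc : ∀ k ∈ commutator G, k * a = a * k) :
    ∃ N : Subgroup G, N.Normal ∧ N ≠ ⊥ ∧ (N ≤ A ∨ N ≤ B) := by
  have hn : (A ⊔ commutator G).Normal := Subgroup.Normal.of_commutator_le G le_sup_right
  let N := Subgroup.centralizer ((A ⊔ commutator G : Subgroup G) : Set G)
  have haN : a ∈ N := by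
    have : A ⊔ commutator G ≤ Subgroup.centralizer {a} := by
      refine sup_le (fun x hx => ?_) (fun x hx => ?_)
      · rw [Subgroup.mem_centralizer_singleton_iff]
        exact H2.mul_comm_of_mem hA hx ha
      · rw [Subgroup.mem_centralizer_singleton_iff]
        exact hc x hx
    intro x hx
    exact Subgroup.mem_centralizer_singleton_iff.mp (this hx)
  by_cases hNA : N ≤ A
  · refine ⟨N, inferInstance, fun h => ha1 ?_, Or.inl hNA⟩
    rw [h] at haN
    exact haN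
  · obtain ⟨n, hnN, hnA⟩ := SetLike.not_le_iff_exists.mp hNA
    obtain ⟨a', ha', b, hb, rfl⟩ := hAB n
    have hb1 : b ≠ 1 := by
      rintro rfl
      exact hnA (by simpa using ha')
    have hbZ : b ∈ Subgroup.center G := by
      rw [Subgroup.mem_center_iff]
      intro g
      obtain ⟨x, hx, y, hy, rfl⟩ := hAB g
      have h1 : x * (a' * b) = a' * b * x := hnN x (Subgroup.mem_sup_left hx)
      have h2 : x * a' = a' * x := H2.mul_comm_of_mem hA hx ha'
      have h3 : x * b = b * x := by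
        rw [← mul_assoc, h2, mul_assoc, mul_assoc] at h1
        exact mul_left_cancel h1
      rw [mul_assoc, H2.mul_comm_of_mem hB hy hb, ← mul_assoc, h3, mul_assoc]
    refine ⟨Subgroup.zpowers b, H19.normal_of_le_center (by simpa using hbZ), ?_, Or.inr ?_⟩
    · simpa using hb1
    · simpa using hb

/-- The `p`-elements of an abelian subgroup. -/
def pPart {G : Type*} [Group G] (p : ℕ) (K : Subgroup G) (hK : ∀ x ∈ K, ∀ y ∈ K, x * y = y * x) :
    Subgroup G where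
  carrier := {k | k ∈ K ∧ ∃ n : ℕ, k ^ p ^ n = 1}
  one_mem' := ⟨K.one_mem, 0, one_pow _⟩
  mul_mem' := by
    rintro x y ⟨hx, n, hn⟩ ⟨hy, m, hm⟩
    refine ⟨K.mul_mem hx hy, n + m, ?_⟩
    rw [(show Commute x y from hK x hx y hy).mul_pow, pow_add, pow_mul, hn, one_pow, mul_comm (p ^ n),
      pow_mul, hm, one_pow, one_mul]
  inv_mem' := by
    rintro x ⟨hx, n, hn⟩
    exact ⟨K.inv_mem hx, n, by rw [inv_pow, hn, inv_one]⟩

theorem normal_of_eq {G : Type*} [Group G] {A B A' B' M Y : Subgroup G} [hA : IsMulCommutative A]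
    [hB : IsMulCommutative B] [M.Normal] (hAB : ∀ g : G, ∃ a ∈ A, ∃ b ∈ B, g = a * b)
    (h1 : A' ≤ A) (h2 : B' ≤ B) (hY : Y = (A' ⊔ M) ⊓ (B' ⊔ M)) : Y.Normal := by
  have key : ∀ {A A' B' : Subgroup G} [IsMulCommutative A], A' ≤ A → ∀ x ∈ A,
      ∀ y ∈ (A' ⊔ M) ⊓ (B' ⊔ M), x * y * x⁻¹ ∈ (A' ⊔ M) ⊓ (B' ⊔ M) := by
    intro A A' B' hA h1 x hx y hy
    obtain ⟨a, ha, m, hm, rfl⟩ := H19.mem_sup_normal_right.mp hy.1
    have e : x * (a * m) * x⁻¹ = (a * m) * (m⁻¹ * (x * m * x⁻¹)) := by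
      rw [← mul_assoc x a m, H2.mul_comm_of_mem hA hx (h1 ha)]; group
    rw [e]
    refine Subgroup.mul_mem _ hy ?_
    have : m⁻¹ * (x * m * x⁻¹) ∈ M := M.mul_mem (M.inv_mem hm) (‹M.Normal›.conj_mem m hm x)
    exact ⟨Subgroup.mem_sup_right this, Subgroup.mem_sup_right this⟩
  subst hY
  refine ⟨fun y hy g => ?_⟩
  obtain ⟨a, ha, b, hb, rfl⟩ := hAB g
  have e : a * b * y * (a * b)⁻¹ = a * (b * y * b⁻¹) * a⁻¹ := by group
  rw [e]
  apply key h1 a ha
  rw [inf_comm] at hy ⊢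
  exact key h2 b hb y hy

/-- If a nontrivial finite group G is the product AB of abelian subgroups A and B, then some nontrivial normal subgroup of G is contained in A or in B. -/
theorem result {G : Type*} [Group G] [Finite G] [Nontrivial G] (A B : Subgroup G) [IsMulCommutative A] [IsMulCommutative B] (hAB : ∀ g : G, ∃ a ∈ A, ∃ b ∈ B, g = a * b) : ∃ N : Subgroup G, N.Normal ∧ N ≠ ⊥ ∧ (N ≤ A ∨ N ≤ B) := by
  rename_i hA hB
  have hK : ∀ x ∈ commutator G, ∀ y ∈ commutator G, x * y = y * x := by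
    have h := S0572.result A B hAB
    have h2 : derivedSeries G 2 = ⁅commutator G, commutator G⁆ := rfl
    rw [h2, Subgroup.commutator_eq_bot_iff_le_centralizer] at h
    intro x hx y hy
    exact h hy x hx
  have hsym : ∀ {b : G}, b ∈ B → b ≠ 1 → (∀ k ∈ commutator G, k * b = b * k) →
      ∃ N : Subgroup G, N.Normal ∧ N ≠ ⊥ ∧ (N ≤ A ∨ N ≤ B) := by
    intro b hb hb1 hc
    obtain ⟨N, h1, h2, h3⟩ := fin B A (swap hAB) hb hb1 hc
    exact ⟨N, h1, h2, h3.symm⟩
  by_cases hK1 : commutator G = ⊥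
  · obtain ⟨g, hg⟩ := exists_ne (1 : G)
    obtain ⟨a, ha, b, hb, rfl⟩ := hAB g
    by_cases ha1 : a = 1
    · subst ha1
      refine hsym hb (by simpa using hg) ?_
      rw [hK1]
      rintro k rfl
      simp
    · refine fin A B hAB ha ha1 ?_
      rw [hK1]
      rintro k rfl
      simp
  obtain ⟨p, hp, hpd⟩ := Nat.exists_prime_and_dvd
    ((Subgroup.one_lt_card_iff_ne_bot _).mpr hK1).ne'
  haveI := Fact.mk hp
  obtain ⟨P, Q, R, hR⟩ := S0560.result A B hAB p
  let M := pPart p (commutator G) hK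
  haveI hMn : M.Normal := ⟨by
    rintro x ⟨hx, n, hn⟩ g
    refine ⟨(inferInstance : (commutator G).Normal).conj_mem x hx g, n, ?_⟩
    rw [conj_pow, hn, mul_one, mul_inv_cancel]⟩
  have hMp : IsPGroup p M := fun x => x.2.2.imp fun n hn => Subtype.ext hn
  have hM1 : M ≠ ⊥ := by
    obtain ⟨x, hx⟩ := exists_prime_orderOf_dvd_card' p hpd
    intro h
    have : (x : G) ∈ M := ⟨x.2, 1, by
      rw [pow_one, ← hx, ← Subgroup.coe_pow, pow_orderOf_eq_one]; rfl⟩
    rw [h, Subgroup.mem_bot] at this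
    have h1 : x = 1 := Subtype.ext this
    rw [h1, orderOf_one] at hx
    exact hp.one_lt.ne hx
  set A' := (P : Subgroup A).map A.subtype with hA'
  set B' := (Q : Subgroup B).map B.subtype with hB'
  have hAA : A' ≤ A := Subgroup.map_subtype_le _
  have hBB : B' ≤ B := Subgroup.map_subtype_le _
  have hAR : A' ≤ R := by
    intro x hx
    change x ∈ ((R : Subgroup G) : Set G)
    rw [hR]
    exact ⟨x, hx, 1, B'.one_mem, mul_one x⟩
  have hMR : M ≤ R := hMp.le_sylow_of_normal R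
  let Y := (A' ⊔ M) ⊓ (B' ⊔ M)
  haveI hYn : Y.Normal := normal_of_eq hAB hAA hBB rfl
  have hYR : Y ≤ R := inf_le_left.trans (sup_le hAR hMR)
  have hYp : IsPGroup p Y := R.2.to_le hYR
  have hMY : M ≤ Y := le_inf le_sup_right le_sup_right
  have hdec : ∀ y ∈ Y, ∃ a ∈ A, ∃ b ∈ B, a ∈ Y ∧ b ∈ Y ∧ y = a * b := by
    intro y hy
    have h1 : y ∈ ((R : Subgroup G) : Set G) := hYR hy
    rw [hR] at h1
    obtain ⟨a, ha, b, hb, rfl⟩ := h1
    have hbY : b ∈ Y := ⟨by
      have := Subgroup.mul_mem _ (Subgroup.inv_mem _ (Subgroup.mem_sup_left (T := M) ha)) hy.1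
      simpa using this, Subgroup.mem_sup_left hb⟩
    refine ⟨a, hAA ha, b, hBB hb, ?_, hbY, rfl⟩
    have := Y.mul_mem hy (Y.inv_mem hbY)
    simpa using this
  -- elements of `Y` centralizing `M` centralize the commutator subgroup
  have hcent : ∀ a ∈ Y, (∀ m ∈ M, m * a = a * m) → ∀ k ∈ commutator G, k * a = a * k := by
    intro a ha hm k hk
    obtain ⟨e, m, hm', hcard⟩ := Nat.exists_eq_pow_mul_and_not_dvd
      (Nat.card_pos (α := G)).ne' p hp.ne_one
    have hkm : k ^ m ∈ M := ⟨Subgroup.pow_mem _ hk _, e, by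
      rw [← pow_mul, mul_comm, ← hcard, pow_card_eq_one']⟩
    have hk' : a * k * a⁻¹ ∈ commutator G :=
      (inferInstance : (commutator G).Normal).conj_mem k hk a
    have hc : Commute (a * k * a⁻¹) k⁻¹ := hK _ hk' _ (Subgroup.inv_mem _ hk)
    have h1 : (a * k * a⁻¹ * k⁻¹) ^ m = 1 := by
      rw [hc.mul_pow, conj_pow, ← hm _ hkm, inv_pow]; group
    have h2 : a * k * a⁻¹ * k⁻¹ ∈ Y := by
      have := Y.mul_mem ha (hYn.conj_mem _ (Y.inv_mem ha) k)
      simpa [mul_assoc] using this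
    obtain ⟨n, hn⟩ := hYp ⟨_, h2⟩
    have hn' : (a * k * a⁻¹ * k⁻¹) ^ p ^ n = 1 := congrArg Subtype.val hn
    have h3 : (a * k * a⁻¹ * k⁻¹) ^ Nat.gcd m (p ^ n) = 1 := pow_gcd_eq_one.mpr ⟨h1, hn'⟩
    rw [((Nat.Prime.coprime_iff_not_dvd hp).mpr hm').symm.pow_right n, pow_one] at h3
    rw [mul_inv_eq_one, mul_inv_eq_iff_eq_mul] at h3
    exact h3.symm
  haveI : Nontrivial Y := (Subgroup.nontrivial_iff_ne_bot _).mpr fun h => hM1 (by
    rw [eq_bot_iff, ← h]; exact hMY)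
  haveI := hYp.center_nontrivial
  obtain ⟨⟨z, hz⟩, hz1⟩ := exists_ne (1 : Subgroup.center Y)
  have hz' : ∀ y ∈ Y, y * z = z * y := fun y hy =>
    congrArg Subtype.val (Subgroup.mem_center_iff.mp hz ⟨y, hy⟩)
  obtain ⟨a, ha, b, hb, haY, hbY, hzab⟩ := hdec z z.2
  have hca : ∀ y ∈ Y, y * a = a * y := by
    intro y hy
    obtain ⟨a', ha', b', hb', -, hbY', rfl⟩ := hdec y hy
    have h1 : b' * a = a * b' := by
      have := hz' b' hbY'
      rw [hzab, mul_assoc, ← H2.mul_comm_of_mem hB hb' hb, ← mul_assoc, ← mul_assoc] at this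
      exact mul_right_cancel this
    rw [mul_assoc, h1, ← mul_assoc, H2.mul_comm_of_mem hA ha' ha, mul_assoc]
  by_cases ha1 : a = 1
  · subst ha1
    rw [one_mul] at hzab
    refine hsym hb ?_ (hcent b hbY fun m hm => hzab ▸ hz' m (hMY hm))
    intro h
    apply hz1
    exact Subtype.ext (Subtype.ext (hzab.trans h))
  · exact fin A B hAB ha ha1 (hcent a haY fun m hm => hca m (hMY hm))

end Cfsg.Agent.S0573
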