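import Cfsg.Statements.S0571
import Cfsg.Agent.H19.Supersolvable
import Cfsg.Agent.S0573

set_option autoImplicit false
open Cfsg

namespace Cfsg.Agent.S0571

/-- If a finite group G is the product AB of two cyclic subgroups (every element is a product ab), then G is supersolvable. -/
theorem result {G : Type*} [Group G] [Finite G] (A B : Subgroup G) [IsCyclic A] [IsCyclic B] (hAB : ∀ g : G, ∃ a ∈ A, ∃ b ∈ B, g = a * b) : Cfsg.IsSupersolvable G := by
  apply H19.isSupersolvable_of_forall_quotient
  intro N _ hN
  have : Nontrivial (G ⧸ N) := QuotientGroup.nontrivial_iff.mpr hN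
  let π := QuotientGroup.mk' N
  have hA : IsCyclic (A.map π) := isCyclic_of_surjective _ (π.subgroupMap_surjective A)
  have hB : IsCyclic (B.map π) := isCyclic_of_surjective _ (π.subgroupMap_surjective B)
  have : IsMulCommutative (A.map π) := IsCyclic.isMulCommutative
  have : IsMulCommutative (B.map π) := IsCyclic.isMulCommutative
  obtain ⟨C, hCn, hC, h⟩ := S0573.result (A.map π) (B.map π) (by
    intro x
    obtain ⟨g, rfl⟩ := QuotientGroup.mk'_surjective N x
    obtain ⟨a, ha, b, hb, rfl⟩ := hAB g
    exact ⟨π a, Subgroup.mem_map_of_mem π ha, π b, Subgroup.mem_map_of_mem π hb, map_mul π a b⟩)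
  have : IsCyclic C := by
    rcases h with h | h
    · exact Subgroup.isCyclic_of_le h
    · exact Subgroup.isCyclic_of_le h
  exact H19.exists_zpowers_normal_of_cyclic C hC

end Cfsg.Agent.S0571
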