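import Cfsg.Statements.S0574
import Cfsg.Agent.S0565
import Cfsg.Agent.S0572
import Cfsg.Agent.H19.CompLen

set_option autoImplicit false
open Cfsg

namespace Cfsg.Agent.S0574

open Subgroup Cfsg.Agent.H49 ArithmeticFunction

universe u

theorem eq_top_aux (n : ℕ) : ∀ (G : Type u) [Group G] [Finite G], Nat.card G = n →
    ∀ A B : Subgroup G, IsMulCommutative A → Group.IsNilpotent B → IsProd A B ⊤ →
    A ⊔ ⁅B, B⁆ = ⊤ → A = ⊤ := by
  induction n using Nat.strong_induction_on with
  | _ n ih =>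
  intro G _ _ hn A B hA hB hp h
  by_contra hA'
  have h1 : ∀ K : Subgroup G, K.Normal → K ≠ ⊥ → A ⊔ K = ⊤ := by
    intro K _ hK
    by_contra hc
    refine S0565.map_ne_top hc (ih _ (hn ▸ H19.card_quotient_lt hK) (G ⧸ K) rfl _ _ inferInstance
      (nilpotent_map hB _) (H20.isProd_map_top hp _ (QuotientGroup.mk'_surjective K)) ?_)
    rw [← Subgroup.map_commutator, ← Subgroup.map_sup, h,
      map_top_of_surjective _ (QuotientGroup.mk'_surjective K)]
  haveI := H19.kegel_wielandt (nilpotent_of_abelian hA) hB hp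
  obtain ⟨N, hN, h2, -, h3⟩ := H19.exists_minimal_normal_le (⊤ : Subgroup G)
    (fun e => hA' (top_le_iff.1 (e.le.trans bot_le)))
  obtain ⟨hab, p, hp', hd, -, h4⟩ := H19.minimal_normal_of_solvable N h2 h3
  have h5 := isPi_of_isPGroup hp' h4
  have h6 := S0565.pi_compl (nilpotent_of_abelian hA) hA' h2 h5 h3 h1
  have h7 : N ≤ B := h5.le_of_relIndex ((h6.relIndex B).of_dvd (by
    rw [hp.relIndex_eq, relIndex_top_right]
    exact H19.relIndex_dvd_index_of_normal_right B N))
  have h8 := isProd_sup_of_norm_left (H := N) (K := A) le_normalizer_of_normal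
  rw [sup_comm, h1 N hN h2] at h8
  have h9 := abelian_sup hab (abelian_of_le hA (inf_le_left : A ⊓ B ≤ A))
    (nilpotent_cent hB h7 inf_le_right h5 (h6.inf_left B))
  rw [(h8.restrict_left h7 le_top).sup_eq, abelian_iff, ← H49.commutator_eq_bot_iff] at h9
  rw [h9, sup_bot_eq] at h
  exact hA' h

variable {G : Type u} [Group G]

theorem eq_of_sup_eq [Finite G] {A B M : Subgroup G} (hA : IsMulCommutative A)
    (hB : Group.IsNilpotent B) (hp : IsProd A B M) (h : A ⊔ ⁅B, B⁆ = M) : A = M := by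
  have := eq_top_aux _ M rfl (A.subgroupOf M) (B.subgroupOf M) inferInstance
    (H19.nilpotent_subgroupOf hB M) (H20.isProd_subgroupOf hp) (by
      apply map_injective M.subtype_injective
      rw [Subgroup.map_sup, Subgroup.map_commutator, map_subgroupOf_eq_of_le hp.1,
        map_subgroupOf_eq_of_le hp.2.1, h, map_subtype_top])
  exact le_antisymm hp.1 (subgroupOf_eq_top.1 this)

/-- the derived series of a subgroup -/
def ds (n : ℕ) (H : Subgroup G) : Subgroup G := (fun X : Subgroup G => ⁅X, X⁆)^[n] H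

theorem ds_succ (n : ℕ) (H : Subgroup G) : ds (n + 1) H = ⁅ds n H, ds n H⁆ :=
  Function.iterate_succ_apply' _ _ _

theorem ds_add (m n : ℕ) (H : Subgroup G) : ds (m + n) H = ds m (ds n H) :=
  Function.iterate_add_apply _ _ _ _

theorem ds_mono (n : ℕ) {H K : Subgroup G} (h : H ≤ K) : ds n H ≤ ds n K := by
  induction n with
  | zero => exact h
  | succ n ih => rw [ds_succ, ds_succ]; exact der_mono ih

theorem ds_le (n : ℕ) (H : Subgroup G) : ds n H ≤ H := by
  induction n with
  | zero => exact le_rfl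
  | succ n ih => rw [ds_succ]; exact der_le.trans ih

theorem ds_top (n : ℕ) : ds n (⊤ : Subgroup G) = derivedSeries G n := by
  induction n with
  | zero => rfl
  | succ n ih => rw [ds_succ, ih, derivedSeries_succ]

theorem ito {A B M : Subgroup G} (hA : IsMulCommutative A) (hp : IsProd A B M) :
    ds 2 M ≤ H20.ncl M ⁅B, B⁆ := by
  haveI := normal_subgroupOf (H20.norm_ncl M ⁅B, B⁆)
  set K := (H20.ncl M ⁅B, B⁆).subgroupOf M
  haveI : IsMulCommutative ((B.subgroupOf M).map (QuotientGroup.mk' K)) := by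
    rw [abelian_iff, ← H49.commutator_eq_bot_iff, ← Subgroup.map_commutator,
      Subgroup.map_eq_bot_iff,
      QuotientGroup.ker_mk', ← map_subtype_le_map_subtype, Subgroup.map_commutator,
      map_subgroupOf_eq_of_le hp.2.1,
      map_subgroupOf_eq_of_le (H20.ncl_le_self (der_le.trans hp.2.1))]
    exact H20.le_ncl _ _
  have h1 := S0572.result ((A.subgroupOf M).map (QuotientGroup.mk' K))
    ((B.subgroupOf M).map (QuotientGroup.mk' K)) (H20.isProd_top_iff.1
      (H20.isProd_map_top (H20.isProd_subgroupOf hp) _ (QuotientGroup.mk'_surjective K)))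
  have h2 := map_derivedSeries_le_derivedSeries (QuotientGroup.mk' K) 2
  rw [h1, le_bot_iff, Subgroup.map_eq_bot_iff, QuotientGroup.ker_mk'] at h2
  have h3 := (map_mono (f := M.subtype) h2).trans ((subgroupOf_map_subtype _ _).le.trans inf_le_left)
  rwa [derivedSeries_succ, derivedSeries_succ, derivedSeries_zero, Subgroup.map_commutator,
    Subgroup.map_commutator, map_subtype_top] at h3

theorem aux [Finite G] {A : Subgroup G} (hA : IsMulCommutative A) (M : Subgroup G) :
    ∀ B : Subgroup G, ⁅B, B⁆ ≤ 𝒞(B) → IsProd A B M →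
      ds (2 * cardFactors (Nat.card (⁅B, B⁆ : Subgroup G))) (H20.ncl M ⁅B, B⁆) = ⊥ := by
  induction M using WellFoundedLT.induction with
  | ind M ih =>
  intro B hB hp
  have hL : A ⊔ ⁅B, B⁆ ≤ M := sup_le hp.1 (der_le.trans hp.2.1)
  rcases hL.eq_or_lt with e | hlt
  · have hn : Group.IsNilpotent B := (isNilpotent_iff_lowerCentralSeries B).2
      ⟨2, H49.commutator_eq_bot_iff.2 hB⟩
    have h1 : ⁅B, B⁆ = ⊥ := H49.commutator_eq_bot_iff.2 (abelian_iff.1
      (abelian_of_le hA (eq_of_sup_eq hA hn hp e ▸ hp.2.1)))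
    refine eq_bot_iff.2 ((ds_le _ _).trans ?_)
    rw [h1]
    exact H20.ncl_le le_rfl (le_norm_bot M)
  have hp' := hp.restrict_left le_sup_left hL
  have h1 : ⁅B ⊓ (A ⊔ ⁅B, B⁆), B ⊓ (A ⊔ ⁅B, B⁆)⁆ ≤ ⁅B, B⁆ := der_mono inf_le_left
  have h2 := ih _ hlt _ (h1.trans (hB.trans (cent_anti inf_le_left))) hp'
  have h3 : H20.ncl M ⁅B, B⁆ ≤ H20.ncl (A ⊔ ⁅B, B⁆) ⁅B, B⁆ := H20.ncl_le_iff.2 fun g hg => by
    obtain ⟨a, ha, b, hb, rfl⟩ := hp.2.2 g hg
    rw [cj_mul, cj_eq_of_mem_norm (norm_der hb)]
    exact H20.cj_le_ncl _ (mem_sup_left ha)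
  refine eq_bot_iff.2 ((ds_mono _ h3).trans ?_)
  rcases h1.eq_or_lt with e | hlt'
  · rw [e] at h2
    exact h2.le
  · obtain ⟨k, hk⟩ := Nat.exists_eq_add_of_lt (H19.cardFactors_card_lt hlt')
    rw [hk, mul_add, mul_add, add_comm _ (2 * k), add_assoc, ds_add, ds_add]
    refine (ds_le _ _).trans (le_trans (ds_mono _ ?_) h2.le)
    exact (ds_mono _ (H20.ncl_le_self le_sup_right)).trans (ito hA hp')

/-- Let the finite group G be the product AB of an abelian subgroup A and a subgroup B of nilpotency class at most two, and let Ω be the number of prime factors, with multiplicity, of the order of the commutator subgroup of B. Then the term of index 2(1 + Ω) of the derived series of G is trivial. -/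
theorem result {G : Type*} [Group G] [Finite G] (A B : Subgroup G) [IsMulCommutative A] (hB : commutator ↥B ≤ Subgroup.center ↥B) (hAB : ∀ g : G, ∃ a ∈ A, ∃ b ∈ B, g = a * b) : derivedSeries G (2 * (1 + (Nat.card ↥(commutator ↥B)).primeFactorsList.length)) = ⊥ := by
  have hp := H20.isProd_top_iff.2 hAB
  have h1 : ⁅B, B⁆ ≤ 𝒞(B) := by
    rw [← map_subtype_commutator]
    rintro _ ⟨x, hx, rfl⟩ y hy
    exact congrArg Subtype.val (mem_center_iff.1 (hB hx) ⟨y, hy⟩)
  have h2 := aux ‹_› ⊤ B h1 hp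
  rw [← map_subtype_commutator, card_map_of_injective B.subtype_injective, cardFactors_apply,
    map_subtype_commutator] at h2
  rw [← ds_top, add_comm, mul_add, ds_add, eq_bot_iff, ← h2]
  exact ds_mono _ (ito ‹_› hp)

end Cfsg.Agent.S0574
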