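import Cfsg.Statements.S0576
import Cfsg.Agent.H20.Frattini

set_option autoImplicit false
open Cfsg

namespace Cfsg.Agent.S0576

theorem inn_normal (X : Type*) [Group X] : (MulAut.conj : X →* MulAut X).range.Normal := by
  refine ⟨?_⟩
  rintro _ ⟨x, rfl⟩ φ
  refine ⟨φ x, ?_⟩
  ext y
  simp

/-- Let H be a normal subgroup of a finite group G with H contained in the Frattini subgroup of G. Then the group of inner automorphisms of H is contained in the Frattini subgroup of the automorphism group of H. -/
theorem result {G : Type*} [Group G] [Finite G] (H : Subgroup G) [H.Normal] (hH : H ≤ frattini G) : (MulAut.conj : ↥H →* MulAut ↥H).range ≤ frattini (MulAut ↥H) := by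
  have hfin : Finite (MulAut ↥H) :=
    Finite.of_injective (fun φ : MulAut ↥H => (φ : ↥H → ↥H)) DFunLike.coe_injective
  have := inn_normal ↥H
  let φ : G →* MulAut ↥H := MulAut.conjNormal
  apply H20.le_frattini_of_le_map_frattini _ φ.range
  rintro _ ⟨x, rfl⟩
  have h1 := frattini_le_comap_frattini_of_surjective φ.rangeRestrict_surjective (hH x.2)
  refine ⟨φ.rangeRestrict x, h1, ?_⟩
  ext y
  simp [φ]

end Cfsg.Agent.S0576
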