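import Cfsg.Statements.S0577
import Cfsg.Agent.S0536
import Cfsg.Agent.S0011
import Cfsg.Agent.H1.Frattini
import Cfsg.Agent.H20.Frattini
import Cfsg.Agent.H20.NilHall

set_option autoImplicit false
open Cfsg

namespace Cfsg.Agent.S0577

open Cfsg.Agent.H49

/-- Let G be a finite minimal non-nilpotent group and Q a normal Sylow q-subgroup of G, and let D be the commutator subgroup of Q regarded in G (a normal subgroup). Then G modulo D is non-abelian and all its proper subgroups are abelian. -/
theorem result {G : Type*} [Group G] [Finite G] (hG : Cfsg.IsMinimalNonNilpotent G) (q : ℕ) [Fact q.Prime] (hq : q ∣ Nat.card G) (Q : Sylow q G) (hQ : (Q : Subgroup G).Normal) (D : Subgroup G) [D.Normal] (hD : D = (commutator ↥(Q : Subgroup G)).map (Q : Subgroup G).subtype) : ¬ IsMulCommutative (G ⧸ D) ∧ ∀ K : Subgroup (G ⧸ D), K ≠ ⊤ → IsMulCommutative K := by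
  have hqp : q.Prime := Fact.out
  obtain ⟨p, r, hp, hr, hpr, P, R, hP, hR, hPR⟩ := S0536.result hG
  have hQ' := sylowOf_top hqp Q
  have hP' := sylowOf_top hp P
  have hR' := sylowOf_top hr R
  have hprod : IsProd (P : Subgroup G) (R : Subgroup G) ⊤ :=
    hPR ▸ isProd_sup_of_norm_right Subgroup.le_normalizer_of_normal
  have hqr : q = r := by
    have h1 : IsPi ({p} ∪ {r}) (⊤ : Subgroup G) := (hP'.pi.mono Set.subset_union_left).of_isProd
      (hR'.pi.mono Set.subset_union_right) hprod
    rcases h1 q hqp (by simpa using hq) with h | h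
    · exfalso
      have h' : q = p := h
      subst h'
      apply hG.1
      refine ((Group.isNilpotent_of_finite_tfae (G := G)).out 0 3).mpr ?_
      intro s hs S
      have hS := sylowOf_top hs.out S
      by_cases e1 : s = q
      · subst e1
        rwa [hQ'.eq_of_normal Subgroup.le_normalizer_of_normal hS]
      by_cases e2 : s = r
      · subst e2
        rwa [hR'.eq_of_normal Subgroup.le_normalizer_of_normal hS]
      have : (S : Subgroup G) = ⊥ := hS.eq_bot (fun t ht hd e => by
        have e' : t = s := e
        subst e'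
        rcases h1 t ht hd with h | h
        · exact e1 h
        · exact e2 h)
      rw [this]; infer_instance
    · exact h
  subst hqr
  have hQR : (R : Subgroup G) = Q := hQ'.eq_of_normal Subgroup.le_normalizer_of_normal hR'
  rw [hQR] at hPR
  constructor
  · intro hc
    apply hG.1
    apply S0011.result
    have h1 : D ≤ frattini G := by
      rw [hD]
      exact (Subgroup.map_mono (H1.commutator_le_frattini Q.isPGroup')).trans
        (H20.map_frattini_le _)
    have h2 : commutator G ≤ frattini G :=
      (Subgroup.Normal.quotient_commutative_iff_commutator_le.mp hc).trans h1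
    exact ⟨1, by
      rw [Subgroup.upperCentralSeries_one_eq_top_iff]
      exact Subgroup.Normal.quotient_commutative_iff_commutator_le.mpr h2⟩
  · intro K hK
    set π := QuotientGroup.mk' D
    have hsurj : Function.Surjective π := QuotientGroup.mk'_surjective D
    set L := K.comap π with hL
    have hLtop : L ≠ ⊤ := fun e => hK (by
      rw [← Subgroup.map_comap_eq_self_of_surjective hsurj K, ← hL, e]
      exact Subgroup.map_top_of_surjective _ hsurj)
    have hnil := hG.2 L hLtop
    have hKL : K = L.map π := (Subgroup.map_comap_eq_self_of_surjective hsurj K).symm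
    have h1 : L = piCoreOf {q} L ⊔ piCoreOf {q}ᶜ L :=
      le_antisymm (H48.nil_le_pcore_sup _ hnil) (sup_le (H48.pcore_le _ _) (H48.pcore_le _ _))
    have hA : piCoreOf {q} L ≤ Q :=
      hQ'.le_of_normal Subgroup.le_normalizer_of_normal le_top (H48.pcore_isPi _ _)
    have hB : IsPi {p} (piCoreOf {q}ᶜ L) := by
      have h2 : IsPi ({p} ∪ {q}) (⊤ : Subgroup G) := (hP'.pi.mono Set.subset_union_left).of_isProd
        (hR'.pi.mono Set.subset_union_right) hprod
      intro t ht hd
      rcases (h2.of_le le_top) t ht hd with h | h
      · exact h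
      · exact absurd h (H48.pcore_isPi _ _ t ht hd)
    obtain ⟨g, -, hg⟩ := sylowOf_Jsub hP' le_top hB
    have hBc : IsMulCommutative (piCoreOf {q}ᶜ L) :=
      abelian_of_le (isMulCommutative_cj.2 (abelian_of_cyclic hP)) hg
    rw [hKL, h1, Subgroup.map_sup]
    apply abelian_sup
    · refine abelian_of_le (B := (Q : Subgroup G).map π) ?_ (Subgroup.map_mono hA)
      rw [abelian_iff, ← H49.commutator_eq_bot_iff, ← Subgroup.map_commutator, Subgroup.map_eq_bot_iff,
        QuotientGroup.ker_mk', hD, Subgroup.map_subtype_commutator]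
    · exact Subgroup.map_isMulCommutative _ _
    · rw [← H49.commutator_eq_bot_iff, ← Subgroup.map_commutator,
        H49.commutator_eq_bot_iff.2 (H48.pcore_cent_pcore (π := {q}) (ρ := {q}ᶜ) (fun _ _ h1 h2 => h2 h1) L), Subgroup.map_bot]

end Cfsg.Agent.S0577
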