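import Cfsg.Statements.S0578
import Cfsg.Agent.H49.SylowOf

set_option autoImplicit false
open Cfsg

namespace Cfsg.Agent.S0578

open Cfsg.Agent.H49

theorem sylow_comm {G : Type*} [Group G] [Finite G]
    (h : ∀ A : Subgroup G, IsMulCommutative A → 𝒩(A) = 𝒞(A)) (P : Subgroup G)
    (hP : Group.IsNilpotent P) : IsMulCommutative P := by
  have hwf : WellFoundedGT (Subgroup G) := inferInstance
  obtain ⟨A, ⟨hAP, hA⟩, hmax⟩ := hwf.wf.has_min
    {A : Subgroup G | A ≤ P ∧ IsMulCommutative A} ⟨⊥, bot_le, inferInstance⟩
  rcases hAP.eq_or_lt with e | e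
  · exact e ▸ hA
  · exfalso
    obtain ⟨x, hx, hxA⟩ := SetLike.exists_of_lt (lt_inf_norm_of_nilpotent hP e)
    rw [h A hA] at hx
    apply hmax (A ⊔ Subgroup.zpowers x)
    · refine ⟨sup_le hAP (Subgroup.zpowers_le.2 hx.1), ?_⟩
      exact abelian_sup hA inferInstance (cent_symm (Subgroup.zpowers_le.2 hx.2))
    · exact lt_of_le_of_ne le_sup_left fun e =>
        hxA (e ▸ Subgroup.mem_sup_right (Subgroup.mem_zpowers x))

/-- If in a finite group the normalizer of each abelian subgroup coincides with its centralizer, then the group is abelian. -/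
theorem result {G : Type*} [Group G] [Finite G] (h : ∀ A : Subgroup G, IsMulCommutative A → Subgroup.normalizer (A : Set G) = Subgroup.centralizer (A : Set G)) : IsMulCommutative G := by
  rw [← commutator_eq_bot_iff]
  by_contra hne
  obtain ⟨p, hp, hd⟩ := exists_prime_dvd_card hne
  have := Fact.mk hp
  let P : Sylow p G := default
  have hP : IsMulCommutative (P : Subgroup G) := sylow_comm h _ P.isPGroup'.isNilpotent
  have hN : Subgroup.normalizer (P : Set G) ≤ Subgroup.centralizer (P : Set G) := (h P hP).le
  apply MonoidHom.not_dvd_card_ker_transferSylow P hN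
  refine hd.trans (Subgroup.card_dvd_of_le ?_)
  rw [commutator_def, Subgroup.commutator_le]
  intro a _ b _
  rw [MonoidHom.mem_ker, map_commutatorElement, commutatorElement_eq_one_iff_mul_comm]
  exact hP.is_comm.comm _ _

end Cfsg.Agent.S0578
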