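import Cfsg.Statements.S0579
import Cfsg.Agent.H19.Huppert
import Cfsg.Agent.S0580
import Cfsg.Agent.S0050

set_option autoImplicit false
open Cfsg

namespace Cfsg.Agent.S0579

open scoped commutatorElement

/-- Huppert's supersolvability criterion: if every maximal subgroup of a finite group has prime index, then the group is supersolvable. -/
theorem result {G : Type*} [Group G] [Finite G] (h : ∀ M : Subgroup G, IsCoatom M → M.index.Prime) : Cfsg.IsSupersolvable G := by
  induction hn : Nat.card G using Nat.strong_induction_on generalizing G with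
  | _ n ih =>
  cases subsingleton_or_nontrivial G with
  | inl _ => exact H19.isSupersolvable_of_subsingleton
  | inr _ =>
  have hs := S0580.result h
  obtain ⟨p, hp, hpd, hmax⟩ := S0580.exists_max_prime (Finite.one_lt_card (α := G))
  have := Fact.mk hp
  obtain ⟨P⟩ : Nonempty (Sylow p G) := inferInstance
  have hPn := S0580.sylow_normal h p hmax P
  obtain ⟨N, hNn, hN, hNP, hmin⟩ := H19.exists_minimal_normal_le _ (P.ne_bot_of_dvd_card hpd)
  have hq := ih _ (hn ▸ H19.card_quotient_lt hN) (S0580.hyp_quotient h N) rfl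
  suffices IsCyclic N from H19.isSupersolvable_of_quotient_cyclic N hq
  obtain ⟨hNc, r, hr, hrd, hNr, -⟩ := H19.minimal_normal_of_solvable N hN hmin
  obtain ⟨k, hk⟩ := (P.isPGroup'.to_le hNP).exists_card_eq
  obtain rfl : r = p := (Nat.prime_dvd_prime_iff_eq hr hp).mp (hr.dvd_of_dvd_pow (hk ▸ hrd))
  by_cases hΦ : N ≤ frattini G
  swap
  · obtain ⟨M, hM, hNM⟩ : ∃ M : Subgroup G, IsCoatom M ∧ ¬ N ≤ M := by
      by_contra hc
      push Not at hc
      exact hΦ (le_iInf₂ fun M hM => hc M hM)
    have hsup : M ⊔ N = ⊤ := hM.2 _ (lt_of_le_of_ne le_sup_left fun h => hNM (h ▸ le_sup_right))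
    have hn' : (M ⊓ N).Normal := by
      rw [← Subgroup.normalizer_eq_top_iff, eq_top_iff, ← hsup]
      refine sup_le (fun m hm => ?_) fun y hy => ?_
      · apply Subgroup.mem_normalizer_fintype
        rintro x ⟨hx1, hx2⟩
        exact ⟨M.mul_mem (M.mul_mem hm hx1) (M.inv_mem hm), hNn.conj_mem x hx2 m⟩
      · apply Subgroup.mem_normalizer_fintype
        intro x hx
        rwa [setLike_mul_comm hy hx.2, mul_inv_cancel_right]
    have hbot : M ⊓ N = ⊥ := (hmin _ hn' inf_le_right).resolve_right fun h =>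
      hNM (h ▸ inf_le_left)
    have h1 := H19.relIndex_eq_index_of_sup_eq_top M N hsup
    rw [← Subgroup.inf_relIndex_right, hbot, Subgroup.relIndex_bot_left] at h1
    have := Fact.mk (h M hM)
    exact isCyclic_of_prime_card h1
  obtain ⟨K, hK⟩ := Subgroup.exists_right_complement'_of_coprime P.card_coprime_index
  have hKp : (Nat.card K).Coprime r := by
    rw [← hK.symm.index_eq_card]
    exact ((Nat.Prime.coprime_iff_not_dvd hp).mpr P.not_dvd_index).symm
  let π := QuotientGroup.mk' N
  have hπ : Function.Surjective π := QuotientGroup.mk'_surjective N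
  have hPm : ((P : Subgroup G).map π).Normal := hPn.map π hπ
  let C : Subgroup G := (Subgroup.centralizer ((P : Subgroup G).map π : Set (G ⧸ N))).comap π
  have hCn : C.Normal := Subgroup.Normal.comap inferInstance π
  have hLn : (N ⊔ (K ⊓ C)).Normal := by
    rw [← Subgroup.normalizer_eq_top_iff, eq_top_iff, ← hK.sup_eq_top]
    refine sup_le ?_ fun y hy => ?_
    · rw [Subgroup.le_normalizer_iff_commutator_le_right]
      conv_rhs => rw [sup_comm, ← QuotientGroup.ker_mk' N, ← Subgroup.comap_map_eq]
      rw [← Subgroup.map_le_iff_le_comap, Subgroup.map_commutator, Subgroup.map_sup,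
        QuotientGroup.map_mk'_self, bot_sup_eq]
      refine le_trans (le_of_eq ?_) bot_le
      rw [Subgroup.commutator_comm, Subgroup.commutator_eq_bot_iff_le_centralizer,
        Subgroup.map_le_iff_le_comap]
      exact inf_le_right
    · rw [← H19.conj_smul_eq_iff, Subgroup.smul_sup, Subgroup.smul_inf,
        H19.conj_smul_eq_iff.mpr (Subgroup.le_normalizer hy),
        H19.conj_smul_eq_iff.mpr (by rw [Subgroup.normalizer_eq_top]; trivial),
        H19.conj_smul_eq_iff.mpr (by rw [Subgroup.normalizer_eq_top]; trivial)]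
  have hcop : (Nat.card (K ⊓ C : Subgroup G)).Coprime (Nat.card N) := by
    rw [hk]
    exact Nat.Coprime.pow_right _ (hKp.coprime_dvd_left (Subgroup.card_dvd_of_le inf_le_left))
  have h2 := S0050.result (N ⊔ (K ⊓ C)) inferInstance (K ⊓ C) le_sup_right (by
    refine hcop.coprime_dvd_right ?_
    have h3 := H19.relIndex_eq_index_of_sup_eq_top ((K ⊓ C).subgroupOf (N ⊔ (K ⊓ C)))
      (N.subgroupOf (N ⊔ (K ⊓ C)))
      (by rw [← Subgroup.subgroupOf_sup le_sup_right le_sup_left, sup_comm,
        Subgroup.subgroupOf_self])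
    rw [Subgroup.relIndex_subgroupOf le_sup_left] at h3
    change ((K ⊓ C).subgroupOf (N ⊔ (K ⊓ C))).index ∣ _
    rw [← h3]
    exact Subgroup.relIndex_dvd_card _ _)
  have hK₀n : (K ⊓ C).Normal := by
    rw [← Subgroup.normalizer_eq_top_iff]
    apply frattini_nongenerating
    rw [eq_top_iff, ← h2]
    exact sup_le (sup_le (hΦ.trans le_sup_right) (Subgroup.le_normalizer.trans le_sup_left))
      le_sup_left
  have hK₀ : K ⊓ C ≤ Subgroup.centralizer (N : Set G) := by
    rw [← Subgroup.commutator_eq_bot_iff_le_centralizer, eq_bot_iff,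
      ← disjoint_iff.mp (Subgroup.disjoint_of_coprime_natCard hcop)]
    exact Subgroup.commutator_le_inf _ _
  have hPC : (P : Subgroup G) ≤ Subgroup.centralizer (N : Set G) :=
    H19.nilpotent_le_centralizer_minimal_normal P.isPGroup'.isNilpotent hmin
  have key : ∀ a b c : G, ⁅a, b⁆ * c ^ (r - 1) ∈ Subgroup.centralizer (N : Set G) := by
    intro a b c
    let σ := QuotientGroup.mk' (Subgroup.centralizer (N : Set G))
    have h4 : ∀ g : G, ∃ x ∈ K, σ g = σ x := by
      intro g
      obtain ⟨u, hu, x, hx, rfl⟩ := H19.mem_sup_normal_left.mp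
        (hK.sup_eq_top ▸ Subgroup.mem_top g : g ∈ (P : Subgroup G) ⊔ K)
      refine ⟨x, hx, ?_⟩
      have : σ u = 1 := (QuotientGroup.eq_one_iff u).mpr (hPC hu)
      rw [map_mul, this, one_mul]
    obtain ⟨a', ha, ha'⟩ := h4 a
    obtain ⟨b', hb, hb'⟩ := h4 b
    obtain ⟨c', hc, hc'⟩ := h4 c
    have hy : ⁅a', b'⁆ * c' ^ (r - 1) ∈ K :=
      K.mul_mem (Subgroup.commutator_le_self K (Subgroup.commutator_mem_commutator ha hb))
        (K.pow_mem hc _)
    have h5 := H19.centralizes_of_isSupersolvable hp _ hKp _ (G ⧸ N) rfl hq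
      ((P : Subgroup G).map π) (P.isPGroup'.map π) (π a') (π b') (π c')
      (by rw [← map_commutatorElement, ← map_pow, ← map_mul, ← map_pow,
        H19.pow_card_eq_one_of_mem hy, map_one])
    rw [← map_commutatorElement, ← map_pow, ← map_mul] at h5
    have h6 := hK₀ ⟨hy, h5⟩
    rw [← QuotientGroup.eq_one_iff] at h6 ⊢
    change σ _ = 1 at h6 ⊢
    rw [map_mul, map_commutatorElement, map_pow] at h6 ⊢
    rw [ha', hb', hc', h6]
  exact H19.isCyclic_of_minimal_normal (p := r) N ⟨hNc, hNr⟩ hmin
    (fun a b => by simpa using key a b 1) fun c => by simpa using key 1 1 c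

end Cfsg.Agent.S0579
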