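import Cfsg.Statements.S0582
import Cfsg.Agent.H19.Supersolvable
import Cfsg.Agent.S0580
import Cfsg.Agent.S0527
import Cfsg.Agent.S0531
import Cfsg.Agent.H19.SystemNormalizer

set_option autoImplicit false
open Pointwise
open Cfsg

namespace Cfsg.Agent.S0582

universe u

theorem aux (n : ℕ) : ∀ (G : Type u) [Group G] [Finite G] (H K : Subgroup G),
    Nat.card H = n → Cfsg.IsSupersolvable H → Cfsg.IsSupersolvable K → Nat.card H = Nat.card K →
    (Nat.card H).Coprime H.index → ∃ x : G, MulAut.conj x • H = K := by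
  induction n using Nat.strong_induction_on with
  | _ n ih =>
  intro G _ _ H K hn hH hK hcard hHall
  by_cases hH0 : H = ⊥
  · refine ⟨1, ?_⟩
    rw [map_one, one_smul, hH0, eq_comm, ← Subgroup.card_eq_one, ← hcard, hH0, Subgroup.card_bot]
  obtain ⟨p, hp, hpd, hmax⟩ := S0580.exists_max_prime ((Subgroup.one_lt_card_iff_ne_bot H).mpr hH0)
  have := Fact.mk hp
  have hpi : ¬ p ∣ H.index := fun h => hp.one_lt.ne' (Nat.eq_one_of_dvd_coprimes hHall hpd h)
  have key : ∀ X : Subgroup G, Cfsg.IsSupersolvable X → Nat.card H = Nat.card X →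
      ∃ P : Sylow p G, (P : Subgroup G) ≤ X ∧ X ≤ Subgroup.normalizer (P : Set G) := by
    intro X hX hc
    obtain ⟨S⟩ : Nonempty (Sylow p X) := inferInstance
    have hSn := S0580.sylow_normal (S0527.result hX) p (hc ▸ hmax) S
    have hi : X.index = H.index := by
      have h1 := X.card_mul_index
      rw [← H.card_mul_index, hc] at h1
      exact Nat.eq_of_mul_eq_mul_left Nat.card_pos h1
    refine ⟨(S.isPGroup'.map X.subtype).toSylow (by
      rw [Subgroup.index_map_subtype, hi]
      exact fun h => ((Nat.Prime.dvd_mul hp).mp h).elim S.not_dvd_index hpi),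
      Subgroup.map_subtype_le _, fun u hu => ?_⟩
    apply Subgroup.mem_normalizer_fintype
    rintro _ ⟨x, hx, rfl⟩
    exact ⟨_, hSn.conj_mem x hx ⟨u, hu⟩, rfl⟩
  obtain ⟨P, hPK, hKP⟩ := key K hK hcard
  obtain ⟨P₀, hPH, hHP⟩ := key H hH rfl
  obtain ⟨y, rfl⟩ := MulAction.exists_smul_eq G P₀ P
  have hH' : Cfsg.IsSupersolvable (MulAut.conj y • H : Subgroup G) :=
    H19.isSupersolvable_of_equiv (Subgroup.equivSMul (MulAut.conj y) H) hH
  have hc' : Nat.card (MulAut.conj y • H : Subgroup G) = Nat.card H :=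
    (Nat.card_congr (Subgroup.equivSMul (MulAut.conj y) H).toEquiv).symm
  have hi' : (MulAut.conj y • H).index = H.index := Subgroup.index_map_equiv H (MulAut.conj y)
  have hPH' : ((y • P₀ : Sylow p G) : Subgroup G) ≤ MulAut.conj y • H :=
    Subgroup.pointwise_smul_le_pointwise_smul_iff.mpr hPH
  have hHP' : MulAut.conj y • H ≤ Subgroup.normalizer ((y • P₀ : Sylow p G) : Set G) := by
    intro x hx
    rw [H19.mem_conj_smul_iff] at hx
    have h1 := Sylow.smul_eq_iff_mem_normalizer.mpr (hHP hx)
    rw [← Sylow.smul_eq_iff_mem_normalizer]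
    rwa [mul_smul, mul_smul, inv_smul_eq_iff] at h1
  suffices ∃ x : G, MulAut.conj x • MulAut.conj y • H = K by
    obtain ⟨x, hx⟩ := this
    exact ⟨x * y, by rwa [map_mul, mul_smul]⟩
  rw [← hc'] at hn hcard hpd
  rw [← hc', ← hi'] at hHall
  generalize MulAut.conj y • H = H' at *
  generalize y • P₀ = P at *
  let N := Subgroup.normalizer (P : Set G)
  let P' : Subgroup N := (P : Subgroup G).subgroupOf N
  have hP'n : P'.Normal := Subgroup.normal_in_normalizer
  let π := QuotientGroup.mk' P'
  have hπ : Function.Surjective π := QuotientGroup.mk'_surjective P'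
  have hcm : ∀ X : Subgroup G, (P : Subgroup G) ≤ X → X ≤ N →
      ((X.subgroupOf N).map π).comap π = X.subgroupOf N ∧
      Nat.card X = Nat.card P' * Nat.card ((X.subgroupOf N).map π) := by
    intro X h1 h2
    have h3 : ((X.subgroupOf N).map π).comap π = X.subgroupOf N := by
      apply Subgroup.comap_map_eq_self
      rw [QuotientGroup.ker_mk']
      exact Subgroup.comap_mono h1
    refine ⟨h3, ?_⟩
    rw [← S0531.card_comap_mk', h3]
    exact (Nat.card_congr (Subgroup.subgroupOfEquivOfLe h2).toEquiv).symm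
  obtain ⟨e1, c1⟩ := hcm H' hPH' hHP'
  obtain ⟨e2, c2⟩ := hcm K hPK hKP
  have hP1 : 1 < Nat.card P' := by
    have hPN : (P : Subgroup G) ≤ N := Subgroup.le_normalizer
    rw [show Nat.card P' = Nat.card (P : Subgroup G) from
      Nat.card_congr (Subgroup.subgroupOfEquivOfLe hPN).toEquiv, Subgroup.one_lt_card_iff_ne_bot]
    exact P.ne_bot_of_dvd_card (hpd.trans H'.card_subgroup_dvd_card)
  obtain ⟨x, hx⟩ := ih (Nat.card ((H'.subgroupOf N).map π)) (by
      rw [← hn, c1]
      have : 0 < Nat.card ((H'.subgroupOf N).map π) := Nat.card_pos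
      nlinarith) (N ⧸ P') ((H'.subgroupOf N).map π) ((K.subgroupOf N).map π) rfl
    (H19.isSupersolvable_map π (H19.isSupersolvable_of_equiv
      (Subgroup.subgroupOfEquivOfLe hHP').symm hH'))
    (H19.isSupersolvable_map π (H19.isSupersolvable_of_equiv
      (Subgroup.subgroupOfEquivOfLe hKP).symm hK))
    (Nat.eq_of_mul_eq_mul_left (by omega) (c1.symm.trans (hcard.trans c2)))
    ((hHall.coprime_dvd_left (Dvd.intro_left _ c1.symm)).coprime_dvd_right
      ((Subgroup.index_map_dvd _ hπ).trans (Subgroup.relIndex_dvd_index_of_le hHP')))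
  obtain ⟨m, rfl⟩ := hπ x
  rw [← H19.map_conj_smul, Subgroup.conj_smul_subgroupOf hHP'] at hx
  have hle : MulAut.conj (m : G) • H' ≤ N := H19.conj_smul_le_of_mem m.2 hHP'
  have hP2 : (P : Subgroup G) ≤ MulAut.conj (m : G) • H' := by
    have h4 : MulAut.conj (m : G) • (P : Subgroup G) = P := H19.conj_smul_eq_iff.mpr m.2
    exact h4.ge.trans (Subgroup.pointwise_smul_le_pointwise_smul_iff.mpr hPH')
  have h5 := congrArg (Subgroup.comap π) hx
  rw [e2, (hcm _ hP2 hle).1] at h5
  have h6 := congrArg (Subgroup.map N.subtype) h5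
  rw [Subgroup.map_subgroupOf_eq_of_le hle, Subgroup.map_subgroupOf_eq_of_le hKP] at h6
  exact ⟨m, h6⟩

/-- Let H and K be supersolvable subgroups of a finite group G of the same order, that order being coprime to their index. Then H and K are conjugate in G. -/
theorem result {G : Type*} [Group G] [Finite G] (H K : Subgroup G) (hH : Cfsg.IsSupersolvable H) (hK : Cfsg.IsSupersolvable K) (hcard : Nat.card H = Nat.card K) (hHall : (Nat.card H).Coprime H.index) : ∃ x : G, MulAut.conj x • H = K := by
  exact aux _ G H K rfl hH hK hcard hHall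

end Cfsg.Agent.S0582
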