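import Cfsg.Statements.S0583
import Cfsg.Agent.H72.Conj

set_option autoImplicit false
open Cfsg

namespace Cfsg.Agent.S0583

theorem le_centralizer_of_nilpotent {G : Type*} [Group G] (M : Subgroup G) [M.Normal]
    (hmin : ∀ K : Subgroup G, K.Normal → K ≤ M → K = ⊥ ∨ K = M) (N : Subgroup G) [N.Normal]
    (hN : Group.IsNilpotent N) : N ≤ Subgroup.centralizer (M : Set G) := by
  rw [← Subgroup.commutator_eq_bot_iff_le_centralizer, Subgroup.commutator_comm]
  rcases hmin ⁅M, N⁆ inferInstance (Subgroup.commutator_le_left M N) with h | h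
  · exact h
  · obtain ⟨n, hn⟩ := (Subgroup.isNilpotent_iff_lowerCentralSeries N).mp hN
    have : ∀ k, M ≤ N.lowerCentralSeries k := by
      intro k
      induction k with
      | zero => exact h ▸ Subgroup.commutator_le_right M N
      | succ k ih =>
        rw [Subgroup.lowerCentralSeries_succ, ← h]
        exact Subgroup.commutator_mono ih le_rfl
    rw [h]
    exact le_bot_iff.mp (hn ▸ this n)

/-- In a finite group the Fitting subgroup is contained in the centralizer of each minimal normal subgroup. -/
theorem result {G : Type*} [Group G] [Finite G] (M : Subgroup G) [M.Normal] (hM : M ≠ ⊥) (hmin : ∀ K : Subgroup G, K.Normal → K ≤ M → K = ⊥ ∨ K = M) : Cfsg.fittingSubgroup G ≤ Subgroup.centralizer (M : Set G) := by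
  unfold Cfsg.fittingSubgroup
  apply sSup_le
  rintro N ⟨hN1, hN2⟩
  exact le_centralizer_of_nilpotent M hmin N hN2

end Cfsg.Agent.S0583
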