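import Cfsg.Statements.S0584
import Cfsg.Agent.H20.Frattini

set_option autoImplicit false
open Cfsg

namespace Cfsg.Agent.S0584

/-- Let B ≤ A be normal subgroups of a finite group G with B contained in the Frattini subgroup of G. If A modulo B is nilpotent then A is nilpotent. -/
theorem result {G : Type*} [Group G] [Finite G] (A B : Subgroup G) [A.Normal] [B.Normal] (hBA : B ≤ A) (hB : B ≤ frattini G) (h : Group.IsNilpotent (↥A ⧸ B.subgroupOf A)) : Group.IsNilpotent A := by
  refine ((Group.isNilpotent_of_finite_tfae (G := A)).out 0 3).mpr ?_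
  intro p hp P
  let π := QuotientGroup.mk' (B.subgroupOf A)
  let Q : Sylow p (↥A ⧸ B.subgroupOf A) := P.mapSurjective (QuotientGroup.mk'_surjective _)
  have hQ : (Q : Subgroup (↥A ⧸ B.subgroupOf A)).Normal := inferInstance
  have h1 : ((P : Subgroup A) ⊔ B.subgroupOf A).Normal := by
    have := hQ.comap π
    rwa [Sylow.coe_mapSurjective, Subgroup.comap_map_eq, QuotientGroup.ker_mk'] at this
  set P' : Subgroup G := (P : Subgroup A).map A.subtype with hP'
  have hsyl : H72.IsSylowIn p P' A := H72.isSylowIn_map A P
  have h2 : A ≤ Subgroup.normalizer ((P' ⊔ B : Subgroup G) : Set G) := by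
    have h3 : P' ⊔ B = ((P : Subgroup A) ⊔ B.subgroupOf A).map A.subtype := by
      rw [Subgroup.map_sup, Subgroup.map_subgroupOf_eq_of_le hBA]
    rw [← Subgroup.normal_subgroupOf_iff_le_normalizer (sup_le hsyl.le hBA), h3,
      Subgroup.subgroupOf, Subgroup.comap_map_eq_self_of_injective A.subtype_injective]
    exact h1
  have h4 : (P' ⊔ B).Normal := by
    rw [← Subgroup.normalizer_eq_top_iff, eq_top_iff]
    have := hsyl.frattini_sup (H := ⊤) le_top Subgroup.le_normalizer_of_normal
    rw [← this]
    exact sup_le h2 (H72.le_normalizer_sup inf_le_right Subgroup.le_normalizer_of_normal)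
  have h5 : P'.Normal := H20.normal_of_sup_normal_of_le_frattini hB
    (hsyl.of_le le_sup_left (sup_le hsyl.le hBA)) h4
  have := h5.comap A.subtype
  rwa [hP', Subgroup.comap_map_eq_self_of_injective A.subtype_injective] at this

end Cfsg.Agent.S0584
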