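import Cfsg.Statements.S0586
import Cfsg.Agent.H20.Frattini
import Cfsg.Agent.H44.Cores
import Cfsg.Agent.H2.MinNormal
import Cfsg.Agent.H1.Frattini

set_option autoImplicit false
open Cfsg

namespace Cfsg.Agent.S0586

theorem commutator_le_frattini_of_nilpotent (X : Type*) [Group X] [Finite X]
    [h : Group.IsNilpotent X] : commutator X ≤ frattini X := by
  rw [H20.le_frattini_iff]
  intro M hM
  have hn : M.Normal := Subgroup.NormalizerCondition.normal_of_coatom M Group.normalizerCondition_of_isNilpotent hM
  have hs : IsSimpleGroup (X ⧸ M) := by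
    have hnt : Nontrivial (X ⧸ M) := QuotientGroup.nontrivial_iff.mpr hM.1
    refine ⟨fun K _ => ?_⟩
    have hle : M ≤ K.comap (QuotientGroup.mk' M) := QuotientGroup.le_comap_mk' M K
    rcases hle.eq_or_lt with e | e
    · left
      rw [← Subgroup.map_comap_eq_self_of_surjective (QuotientGroup.mk'_surjective M) K, ← e]
      exact QuotientGroup.map_mk'_self M
    · right
      rw [← Subgroup.map_comap_eq_self_of_surjective (QuotientGroup.mk'_surjective M) K, hM.2 _ e]
      exact Subgroup.map_top_of_surjective _ (QuotientGroup.mk'_surjective M)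
  rw [← Subgroup.Normal.quotient_commutative_iff_commutator_le]
  exact ⟨⟨IsSimpleGroup.comm_iff_isSolvable.mpr inferInstance⟩⟩

/-- If the Frattini subgroup of a finite group G is trivial, then the Fitting subgroup of G equals the join of all abelian minimal normal subgroups of G. -/
theorem result {G : Type*} [Group G] [Finite G] (hΦ : frattini G = ⊥) : Cfsg.fittingSubgroup G = sSup {N : Subgroup G | N.Normal ∧ N ≠ ⊥ ∧ IsMulCommutative N ∧ ∀ K : Subgroup G, K.Normal → K ≤ N → K = ⊥ ∨ K = N} := by
  set S := sSup {N : Subgroup G | N.Normal ∧ N ≠ ⊥ ∧ IsMulCommutative N ∧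
    ∀ K : Subgroup G, K.Normal → K ≤ N → K = ⊥ ∨ K = N} with hS
  have hSF : S ≤ Cfsg.fittingSubgroup G := by
    apply sSup_le
    rintro N ⟨h1, -, h3, -⟩
    apply H44.le_fitting h1
    exact ⟨1, by rw [Subgroup.upperCentralSeries_one_eq_top_iff]; exact h3⟩
  have hFn : (Cfsg.fittingSubgroup G).Normal :=
    haveI := H44.fitting_characteristic (G := G); inferInstance
  have hnil := H44.fitting_isNilpotent (G := G)
  have hFc : IsMulCommutative (Cfsg.fittingSubgroup G) := by
    have h1 := commutator_le_frattini_of_nilpotent (Cfsg.fittingSubgroup G)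
    have h2 := H20.map_frattini_le (Cfsg.fittingSubgroup G)
    rw [hΦ, le_bot_iff, Subgroup.map_eq_bot_iff_of_injective _ (Subgroup.subtype_injective _)] at h2
    rw [h2, le_bot_iff] at h1
    exact (commutator_eq_bot_iff _).mp h1
  have hSn : S.Normal := by
    rw [hS, sSup_eq_iSup]
    exact Subgroup.biSup_normal _ _ (fun N hN => hN.1)
  have hSc : IsMulCommutative S :=
    H2.isMulCommutative_of_forall fun x hx y hy => H2.mul_comm_of_mem hFc (hSF hx) (hSF hy)
  obtain ⟨H, hH⟩ := H20.exists_complement_of_inf_frattini_eq_bot S (by rw [hΦ, inf_bot_eq])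
  have hn : (Cfsg.fittingSubgroup G ⊓ H).Normal := by
    rw [← Subgroup.normalizer_eq_top_iff, eq_top_iff, ← hH.sup_eq_top]
    apply sup_le
    · exact ((hSF.trans (Subgroup.le_centralizer _)).trans (H72.centralizer_anti inf_le_left)).trans
        (Subgroup.centralizer_le_normalizer _)
    · exact H72.le_normalizer_inf Subgroup.le_normalizer_of_normal Subgroup.le_normalizer
  have hbot : Cfsg.fittingSubgroup G ⊓ H = ⊥ := by
    by_contra hne
    obtain ⟨M, hM1, hM2, hM3, hM4⟩ := H2.exists_minimal_normal_le _ hn hne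
    have hMS : M ≤ S := le_sSup ⟨hM1, hM2, H2.isMulCommutative_of_forall fun x hx y hy =>
      H2.mul_comm_of_mem hFc (hM3 hx).1 (hM3 hy).1, hM4⟩
    exact hM2 (le_bot_iff.mp (hH.disjoint hMS (hM3.trans inf_le_right)))
  apply le_antisymm _ hSF
  have := H72.inf_sup_of_normalizes' (K := H) hSF Subgroup.le_normalizer_of_normal
  rw [hH.sup_eq_top, inf_top_eq, hbot, sup_bot_eq] at this
  exact this.le

end Cfsg.Agent.S0586
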