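import Cfsg.Statements.S0587
import Cfsg.Agent.S0549
import Cfsg.Agent.S0583
import Cfsg.Agent.H44.Cores
import Cfsg.Agent.H49.Pi
import Cfsg.Agent.H2.MinNormal
import Cfsg.Agent.H2.Basic

set_option autoImplicit false
open Cfsg

namespace Cfsg.Agent.S0587

open Cfsg.Agent.H49

/-- A `q`-group normalizing `L` without nontrivial fixed points forces `|L| ≡ 1 (mod q)`. -/
theorem card_modEq_one {G : Type*} [Group G] [Finite G] {q : ℕ} [Fact q.Prime] {R L : Subgroup G}
    (hR : IsPGroup q R) (hn : R ≤ 𝒩(L)) (hC : L ⊓ 𝒞(R) = ⊥) : Nat.card L ≡ 1 [MOD q] := by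
  let φ : R →* MulAut L := L.normalizerMonoidHom.comp (Subgroup.inclusion hn)
  letI : MulAction R L := MulAction.compHom L φ
  have h1 := hR.card_modEq_card_fixedPoints L
  have h2 : Nat.card (MulAction.fixedPoints R L) = 1 := by
    rw [Nat.card_eq_one_iff_unique]
    have key : ∀ x : MulAction.fixedPoints R L, x.1 = 1 := by
      rintro ⟨x, hx⟩
      have : (x : G) ∈ L ⊓ 𝒞(R) := by
        refine ⟨x.2, fun r hr => ?_⟩
        have := congrArg Subtype.val (hx ⟨r, hr⟩)
        change r * x * r⁻¹ = x at this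
        rw [mul_inv_eq_iff_eq_mul] at this
        exact this
      rw [hC] at this
      exact Subtype.ext this
    exact ⟨⟨fun x y => Subtype.ext ((key x).trans (key y).symm)⟩, ⟨⟨1, fun r => map_one (φ r)⟩⟩⟩
  rwa [h2] at h1

/-- Let G be a finite group whose largest normal p-subgroup L is nontrivial, and M a maximal subgroup of G with trivial normal core. Then L is elementary abelian, M is a complement to L, L is a minimal normal subgroup of G, the centralizer of L is L, and for every prime q such that the largest normal q-subgroup of M is nontrivial, the order of L is congruent to 1 modulo q and q ≠ p. -/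
theorem result {G : Type*} [Group G] [Finite G] (p : ℕ) [Fact p.Prime] (hL : Cfsg.pCore p G ≠ ⊥) (M : Subgroup G) (hM : IsCoatom M) (hcore : M.normalCore = ⊥) : Cfsg.IsElementaryAbelian p (Cfsg.pCore p G) ∧ Subgroup.IsComplement' (Cfsg.pCore p G) M ∧ (∀ K : Subgroup G, K.Normal → K ≤ Cfsg.pCore p G → K = ⊥ ∨ K = Cfsg.pCore p G) ∧ Subgroup.centralizer ((Cfsg.pCore p G : Subgroup G) : Set G) = Cfsg.pCore p G ∧ ∀ (q : ℕ) [Fact q.Prime], Cfsg.pCore q ↥M ≠ ⊥ → Nat.card (Cfsg.pCore p G) % q = 1 % q ∧ q ≠ p := by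
  have hp : p.Prime := Fact.out
  have hLn : (Cfsg.pCore p G).Normal :=
    haveI := H44.pCore_characteristic (p := p) (G := G); inferInstance
  have hLp : IsPGroup p (Cfsg.pCore p G) := H44.pCore_isPGroup
  have hnil : Group.IsNilpotent (Cfsg.pCore p G) := hLp.isNilpotent
  obtain ⟨N, q, hq, hNn, hN, hNL, hNc, hNq, hNe, hNmin⟩ :=
    H2.exists_minimal_normal_le_of_solvable (Cfsg.pCore p G) hLn inferInstance hL
  have hqp : q = p := by
    have h1 := (isPi_of_isPGroup hq hNq).mem_of_ne_bot hN (isPi_of_isPGroup hp (hLp.to_le hNL))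
    exact h1
  subst hqp
  have hsup := S0549.sup_eq_top M hM hcore N hN
  have hC := (S0549.result M hM hcore N hN).1
  have hNC : N ≤ 𝒞(N) := abelian_iff.1 hNc
  have hCN : 𝒞(N) = N := by
    have := modular_left (A := N) (B := M) (L := 𝒞(N)) (Or.inr Subgroup.le_normalizer_of_normal) hNC
    rw [hsup, top_inf_eq, inf_comm M, hC, sup_bot_eq] at this
    exact this
  have hLN : Cfsg.pCore q G = N := by
    apply le_antisymm _ hNL
    exact (S0583.le_centralizer_of_nilpotent N hNmin _ hnil).trans hCN.le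
  have hinf : N ⊓ M = ⊥ := by rw [← hCN]; exact hC
  rw [hLN]
  refine ⟨⟨hNc, hNe⟩, H2.isComplement'_of_normal_of_sup_of_inf N M hsup hinf, hNmin, hCN, ?_⟩
  intro r hr hR
  set R : Subgroup G := (Cfsg.pCore r M).map M.subtype with hRdef
  have hRr : IsPGroup r R := (H44.pCore_isPGroup (p := r) (G := M)).map _
  have hRM : R ≤ M := Subgroup.map_subtype_le _
  have hRn : M ≤ 𝒩(R) := H44.le_normalizer_pCoreOf M
  have hRne : R ≠ ⊥ := by
    rwa [hRdef, Ne, Subgroup.map_eq_bot_iff_of_injective _ M.subtype_injective]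
  have hnorm : (N ⊓ 𝒞(R)).Normal := by
    rw [normal_iff_top_le_norm, ← hsup]
    apply sup_le
    · exact norm_of_cent (le_cent_of_abelian hNc le_rfl inf_le_left)
    · exact norm_inf Subgroup.le_normalizer_of_normal (norm_cent hRn)
  have hbot : N ⊓ 𝒞(R) = ⊥ := by
    rcases hNmin _ hnorm inf_le_left with h | h
    · exact h
    · exfalso
      apply hRne
      have h1 : R ≤ N := (cent_symm (h ▸ inf_le_right : N ≤ 𝒞(R))).trans hCN.le
      exact le_bot_iff.mp (hinf ▸ le_inf h1 hRM)
  have hmod := card_modEq_one hRr Subgroup.le_normalizer_of_normal hbot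
  refine ⟨hmod, ?_⟩
  rintro rfl
  have hd : r ∣ Nat.card N := (isPi_of_isPGroup hq hNq).dvd_card hN
  have := (hmod.dvd_iff (dvd_refl r)).mp hd
  exact hq.one_lt.ne' (Nat.dvd_one.mp this)

end Cfsg.Agent.S0587
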