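import Cfsg.Statements.S0588
import Cfsg.Agent.H49.SylowOf

set_option autoImplicit false
open Cfsg

namespace Cfsg.Agent.S0588

open Cfsg.Agent.H49

/-- If a subgroup H of a finite group G contains the centralizer of every non-identity element of H, then the order of H is coprime to its index. -/
theorem result {G : Type*} [Group G] [Finite G] (H : Subgroup G) (h : ∀ x ∈ H, x ≠ 1 → Subgroup.centralizer ({x} : Set G) ≤ H) : (Nat.card H).Coprime H.index := by
  apply Nat.Coprime.symm
  apply Nat.coprime_of_dvd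
  intro p hp h1 h2
  obtain ⟨P, hP⟩ := exists_sylowOf p H
  have hPne := hP.ne_bot hp rfl h2
  obtain ⟨S, hS, hPS⟩ := exists_sylowOf_ge hP.pi (le_top (a := P))
  obtain ⟨x, hx, hx1⟩ := ne_bot_iff_exists.1 hPne
  obtain ⟨z, hz, hz1⟩ := ne_bot_iff_exists.1
    (center_ne_bot_of_nilpotent hS.pi.nilpotent (ne_bot_mono hPS hPne))
  have hzH : z ∈ H := h x (hP.le hx) hx1 (cent_le_cent1 (hPS hx) hz.2)
  have hSH : S ≤ H := (le_cent1_iff.2 hz.2).trans (h z hzH hz1)
  have := (hS.index_of_le hSH).not_dvd hp rfl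
  rw [Subgroup.relIndex_top_right] at this
  exact this h1

end Cfsg.Agent.S0588
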