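import Cfsg.Statements.S0589
import Cfsg.Agent.H2.Basic
import Mathlib.GroupTheory.GroupAction.Quotient

set_option autoImplicit false
open Pointwise
open Cfsg

namespace Cfsg.Agent.S0589

/-- A free action: the order of the group divides the number of points. -/
theorem card_dvd_of_free {L X : Type*} [Group L] [MulAction L X]
    (h : ∀ x : X, MulAction.stabilizer L x = ⊥) : Nat.card L ∣ Nat.card X := by
  rw [Nat.card_congr (MulAction.selfEquivOrbitsQuotientProd h), Nat.card_prod]
  exact Dvd.intro_left _ rfl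

/-- The points with trivial stabilizer. -/
def freePts (L X : Type*) [Group L] [MulAction L X] : SubMulAction L X where
  carrier := {x | ∀ l : L, l • x = x → l = 1}
  smul_mem' := by
    intro c x hx l hl
    have := hx (c⁻¹ * l * c) (by rw [mul_smul, mul_smul, hl, inv_smul_smul])
    have h2 : l = c * (c⁻¹ * l * c) * c⁻¹ := by group
    rw [h2, this]; group

theorem card_dvd_freePts {L X : Type*} [Group L] [MulAction L X] :
    Nat.card L ∣ Nat.card (freePts L X) := by
  apply card_dvd_of_free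
  intro x
  rw [eq_bot_iff]
  intro l hl
  exact x.2 l (congrArg Subtype.val hl)

theorem card_split {L X : Type*} [Group L] [MulAction L X] [Finite X] :
    Nat.card X = Nat.card (freePts L X) + Nat.card {x : X // x ∉ freePts L X} := by
  classical
  rw [← Nat.card_sum]
  exact Nat.card_congr (Equiv.sumCompl (fun x : X => x ∈ freePts L X)).symm

theorem fix_unique {G : Type*} [Group G] (H : Subgroup G) (hH : Cfsg.IsFrobeniusComplement H)
    (g : G) (hg : g ≠ 1) (x y : G ⧸ H) (hx : g • x = x) (hy : g • y = y) : x = y := by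
  obtain ⟨x, rfl⟩ := QuotientGroup.mk_surjective x
  obtain ⟨y, rfl⟩ := QuotientGroup.mk_surjective y
  rw [MulAction.Quotient.smul_mk, QuotientGroup.eq, smul_eq_mul] at hx hy
  rw [QuotientGroup.eq]
  by_contra hne
  have h1 := hH.2.2 _ hne
  have h2 : (g * x)⁻¹ * x ∈ H ⊓ MulAut.conj (x⁻¹ * y) • H := by
    refine ⟨hx, H2.mem_conj_smul.mpr ?_⟩
    have : (x⁻¹ * y)⁻¹ * ((g * x)⁻¹ * x) * (x⁻¹ * y) = (g * y)⁻¹ * y := by group
    rw [this]; exact hy
  rw [h1, Subgroup.mem_bot] at h2
  apply hg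
  have : g = x * ((g * x)⁻¹ * x)⁻¹ * x⁻¹ := by group
  rw [this, h2]; group

/-- Let H be a Frobenius complement in a finite group G and L a subgroup of G whose order divides the order of H. Then L is contained in some conjugate of H. -/
theorem result {G : Type*} [Group G] [Finite G] (H : Subgroup G) (hH : Cfsg.IsFrobeniusComplement H) (L : Subgroup G) (hL : Nat.card L ∣ Nat.card H) : ∃ x : G, L ≤ MulAut.conj x • H := by
  classical
  have hone : ∀ h : H, h • ((1 : G) : G ⧸ H) = ((1 : G) : G ⧸ H) := by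
    intro h
    change (h : G) • ((1 : G) : G ⧸ H) = _
    rw [MulAction.Quotient.smul_mk, QuotientGroup.eq]
    simp
  -- the index is congruent to one modulo the order of `H`
  have h1 : Nat.card {x : G ⧸ H // x ∉ freePts H (G ⧸ H)} = 1 := by
    rw [Nat.card_eq_one_iff_unique]
    obtain ⟨h, hh, hh1⟩ := (Subgroup.bot_or_exists_ne_one H).resolve_left hH.1
    have key : ∀ x : {x : G ⧸ H // x ∉ freePts H (G ⧸ H)}, x.1 = ((1 : G) : G ⧸ H) := by
      rintro ⟨x, hx⟩
      have : ∃ l : H, l • x = x ∧ l ≠ 1 := by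
        by_contra hc
        push Not at hc
        exact hx hc
      obtain ⟨l, hl, hl1⟩ := this
      exact fix_unique H hH l (fun e => hl1 (Subtype.ext e)) _ _ hl (hone l)
    refine ⟨⟨fun x y => Subtype.ext ((key x).trans (key y).symm)⟩, ⟨⟨((1 : G) : G ⧸ H), fun hc => ?_⟩⟩⟩
    exact hh1 (congrArg Subtype.val (hc ⟨h, hh⟩ (hone _)))
  by_cases hL1 : L = ⊥
  · exact ⟨1, hL1 ▸ bot_le⟩
  have hLc : 1 < Nat.card L := (Subgroup.one_lt_card_iff_ne_bot _).mpr hL1
  have e1 := card_split (L := H) (X := G ⧸ H)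
  have e2 := card_split (L := L) (X := G ⧸ H)
  have d1 := hL.trans (card_dvd_freePts (L := H) (X := G ⧸ H))
  have d2 := card_dvd_freePts (L := L) (X := G ⧸ H)
  set Y := {x : G ⧸ H // x ∉ freePts L (G ⧸ H)}
  have hY : ∀ y : Y, ∃ l : L, l • y.1 = y.1 ∧ l ≠ 1 := by
    rintro ⟨x, hx⟩
    by_contra hc
    push Not at hc
    exact hx hc
  choose f hf hf1 using hY
  have hlt : Nat.card Y < Nat.card L := by
    have hinj : Function.Injective f := fun a b hab =>
      Subtype.ext (fix_unique H hH (f a) (fun e => hf1 a (Subtype.ext e)) _ _ (hf a) (hab ▸ hf b))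
    apply lt_of_le_of_ne (Nat.card_le_card_of_injective f hinj)
    intro e
    obtain ⟨y, hy⟩ := ((Nat.bijective_iff_injective_and_card f).mpr ⟨hinj, e⟩).2 1
    exact hf1 y hy
  have hY1 : Nat.card Y = 1 := by
    rw [h1] at e1
    obtain ⟨a, ha⟩ := d1
    obtain ⟨b, hb⟩ := d2
    have e3 : Nat.card L * a + 1 = Nat.card L * b + Nat.card Y := by rw [← ha, ← hb, ← e1, ← e2]
    have := congrArg (· % Nat.card L) e3
    simp only [Nat.mul_add_mod, Nat.mod_eq_of_lt hLc, Nat.mod_eq_of_lt hlt] at this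
    exact this.symm
  obtain ⟨hsub, ⟨y⟩⟩ := Nat.card_eq_one_iff_unique.mp hY1
  obtain ⟨x, hx⟩ := QuotientGroup.mk_surjective y.1
  refine ⟨x, fun l hl => ?_⟩
  have hmem : (⟨l, hl⟩ : L) • y.1 ∉ freePts L (G ⧸ H) := fun hc =>
    y.2 (by simpa using (freePts L (G ⧸ H)).smul_mem (⟨l, hl⟩ : L)⁻¹ hc)
  have := congrArg Subtype.val (hsub.elim ⟨_, hmem⟩ y)
  change l • y.1 = y.1 at this
  rw [← hx, MulAction.Quotient.smul_mk, eq_comm, QuotientGroup.eq, smul_eq_mul] at this
  rw [H2.mem_conj_smul, mul_assoc]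
  exact this

end Cfsg.Agent.S0589
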