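import Cfsg.Statements.S0592
import Cfsg.Agent.H21.SL2Quad

set_option autoImplicit false
open Cfsg

namespace Cfsg.Agent.S0592

open Polynomial in
/-- An endomorphism killed by a split polynomial and without eigenvalue other than `1` is
unipotent. -/
theorem unipotent_of_splits {K W : Type*} [Field K] [AddCommGroup W] [Module K W]
    [FiniteDimensional K W] (c : Module.End K W) (P : K[X]) (hP0 : P ≠ 0) (hP : P.Splits)
    (hc : aeval c P = 0) (h : ∀ l : K, c.HasEigenvalue l → l = 1) : ∃ m : ℕ, (c - 1) ^ m = 0 := by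
  have hint : IsIntegral K c := LinearMap.isIntegral c
  have hs : (minpoly K c).Splits := hP.of_dvd hP0 (minpoly.dvd K c hc)
  have h1 := hs.eq_prod_roots_of_monic (minpoly.monic hint)
  have h2 : (minpoly K c).roots = Multiset.replicate (minpoly K c).roots.card 1 :=
    Multiset.eq_replicate.2 ⟨rfl, fun l hl =>
      h l (Module.End.hasEigenvalue_of_isRoot (isRoot_of_mem_roots hl))⟩
  refine ⟨(minpoly K c).roots.card, ?_⟩
  have h3 := minpoly.aeval K c
  rw [h1, h2, Multiset.map_replicate, Multiset.prod_replicate] at h3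
  simpa using h3

theorem upperT_mul_lowerT_pow_ne {K : Type*} [Field K] {p : ℕ} [Fact p.Prime] [CharP K p] {μ : K}
    (hμ : μ ≠ 0) (n : ℕ) : (H21.upperT μ * H21.lowerT 1) ^ p ^ n ≠ 1 := by
  intro h
  set M : Matrix (Fin 2) (Fin 2) K := (H21.upperT μ * H21.lowerT (1 : K)).1 with hM
  have h1 : M ^ p ^ n = 1 := by
    rw [hM, ← Matrix.SpecialLinearGroup.coe_pow, h]; rfl
  have h2 := sub_pow_char_pow_of_commute p n (Commute.one_right M)
  rw [h1, one_pow, sub_self] at h2
  have h3 : IsNilpotent (M - 1).trace := Matrix.isNilpotent_trace_of_isNilpotent ⟨_, h2⟩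
  have h4 : (M - 1).trace = μ := by
    simp [hM, H21.coe_upperT, H21.coe_lowerT, Matrix.trace_fin_two]
    ring
  rw [h4] at h3
  exact hμ h3.eq_zero

/-- Two quadratically acting generators of a linear group that is not a p-group, with the p'-part of the order of their product dividing q - 1, give a homomorphism onto a subgroup of SL(2, q) that is not a p-group. -/
theorem result {K : Type*} [Field K] [Fintype K] {p : ℕ} [Fact p.Prime] [CharP K p] {W : Type*} [AddCommGroup W] [Module K W] [FiniteDimensional K W] [Finite W] [Nontrivial W] (H : Subgroup (W ≃ₗ[K] W)) (a b : W ≃ₗ[K] W) (hH : H = Subgroup.closure {a, b}) (ha : ∀ w : W, a (a w - w) = a w - w) (hb : ∀ w : W, b (b w - w) = b w - w) (hnp : ¬ IsPGroup p H) (hk : ∃ e k : ℕ, orderOf (a * b) = p ^ e * k ∧ k ∣ Fintype.card K - 1) : ∃ φ : H →* Matrix.SpecialLinearGroup (Fin 2) K, ¬ IsPGroup p φ.range := by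
  classical
  subst hH
  set H := Subgroup.closure ({a, b} : Set (W ≃ₗ[K] W)) with hH
  let a' : H := ⟨a, Subgroup.subset_closure (by simp)⟩
  let b' : H := ⟨b, Subgroup.subset_closure (by simp)⟩
  have hab : Subgroup.closure {a', b'} = ⊤ := by
    apply Subgroup.map_injective H.subtype_injective
    rw [MonoidHom.map_closure, ← MonoidHom.range_eq_map, Subgroup.range_subtype,
      Set.image_pair]
    rfl
  let ρ : H →* Module.End K W := (LinearEquiv.automorphismGroup.toLinearMapMonoidHom).comp H.subtype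
  have hρ : ∀ (h : H) (w : W), ρ h w = (h : W ≃ₗ[K] W) w := fun _ _ => rfl
  have ha' : (ρ a' - 1) * (ρ a' - 1) = 0 := LinearMap.ext fun w => by
    simp only [Module.End.mul_apply, LinearMap.sub_apply, hρ, Module.End.one_apply,
      LinearMap.zero_apply]
    exact sub_eq_zero.2 (ha w)
  have hb' : (ρ b' - 1) * (ρ b' - 1) = 0 := LinearMap.ext fun w => by
    simp only [Module.End.mul_apply, LinearMap.sub_apply, hρ, Module.End.one_apply,
      LinearMap.zero_apply]
    exact sub_eq_zero.2 (hb w)
  have hγ := H21.gamma_eq ρ ha' hb'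
  by_cases hev : ∀ l : K, (ρ (a' * b')).HasEigenvalue l → l = 1
  · exfalso
    apply hnp
    obtain ⟨e, k, hek, hk⟩ := hk
    have hq : 1 < Fintype.card K := Fintype.one_lt_card
    have hc1 : ρ (a' * b') ^ (p ^ e * (Fintype.card K - 1)) = 1 := by
      rw [← map_pow, ← map_one ρ]
      congr 1
      apply Subtype.ext
      change (a * b) ^ _ = 1
      rw [← orderOf_dvd_iff_pow_eq_one, hek]
      exact Nat.mul_dvd_mul_left _ hk
    have : CharP (Module.End K W) p := charP_of_injective_algebraMap
      (FaithfulSMul.algebraMap_injective K (Module.End K W)) p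
    obtain ⟨m, hm⟩ := unipotent_of_splits (ρ (a' * b'))
      ((Polynomial.X ^ Fintype.card K - Polynomial.X) ^ p ^ e)
      (pow_ne_zero _ (FiniteField.X_pow_card_sub_X_ne_zero K hq))
      (Polynomial.Splits.pow (by
        rw [Polynomial.splits_iff_card_roots, FiniteField.roots_X_pow_card_sub_X,
          FiniteField.X_pow_card_sub_X_natDegree_eq K hq]
        simp) _) (by
        rw [map_pow, map_sub, map_pow, Polynomial.aeval_X,
          sub_pow_char_pow_of_commute p e ((Commute.refl _).pow_left _), ← pow_mul,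
          show Fintype.card K * p ^ e = p ^ e * (Fintype.card K - 1) + p ^ e by
            rw [mul_comm, ← Nat.mul_succ]; congr 1; omega,
          pow_add, hc1, one_mul, sub_self]) hev
    have hnil : IsNilpotent ((ρ a' - 1) * (ρ b' - 1) + (ρ b' - 1) * (ρ a' - 1)) := by
      rw [hγ]
      have hc : Commute (ρ (a' * b')⁻¹) (ρ (a' * b') - 1) :=
        ((Commute.refl (a' * b')).inv_left.map ρ).sub_right (Commute.one_right _)
      exact (hc.mul_right hc).isNilpotent_mul_left
        ((Commute.refl _).isNilpotent_mul_left ⟨m, hm⟩)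
    obtain ⟨N, hN⟩ := H21.exists_pow_sub_one_eq_zero ρ hab ha' hb' hnil
    intro h
    refine ⟨N, Subtype.ext (LinearEquiv.ext fun w => ?_)⟩
    have := H21.pow_prime_pow_eq_one_of_sub_one_pow (p := p) (hN h)
    rw [← map_pow] at this
    exact (hρ _ w).symm.trans (by rw [this]; rfl)
  · push Not at hev
    obtain ⟨l, hl, hl1⟩ := hev
    obtain ⟨w, hw⟩ := hl.exists_hasEigenvector
    have hw1 : ρ (a' * b') w = l • w := hw.apply_eq_smul
    have hinv : ρ (a' * b')⁻¹ (ρ (a' * b') w) = w := by
      rw [← Module.End.mul_apply, ← map_mul, inv_mul_cancel, map_one, Module.End.one_apply]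
    have hl0 : l ≠ 0 := by
      rintro rfl
      rw [hw1, zero_smul, map_zero] at hinv
      exact hw.2 hinv.symm
    have hinv' : ρ (a' * b')⁻¹ w = l⁻¹ • w := by
      rw [hw1, map_smul] at hinv
      rw [eq_inv_smul_iff₀ hl0, hinv]
    have hμ : (l - 1) * (l - 1) * l⁻¹ ≠ 0 :=
      mul_ne_zero (mul_ne_zero (sub_ne_zero.2 hl1) (sub_ne_zero.2 hl1)) (inv_ne_zero hl0)
    obtain ⟨φ, h1, h2⟩ := H21.exists_sl2_hom ρ hab ha' hb' hμ hw.2 (by
      have h3 : (ρ (a' * b') - 1) w = (l - 1) • w := by
        rw [LinearMap.sub_apply, hw1, sub_smul, one_smul, Module.End.one_apply]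
      rw [hγ, Module.End.mul_apply, Module.End.mul_apply, h3, map_smul, h3, map_smul, map_smul,
        hinv', smul_smul, smul_smul])
    refine ⟨φ, fun hp => ?_⟩
    obtain ⟨n, hn⟩ := hp ⟨φ (a' * b'), a' * b', rfl⟩
    have := congrArg Subtype.val hn
    rw [Subgroup.coe_pow] at this
    simp only [map_mul, h1, h2] at this
    exact upperT_mul_lowerT_pow_ne hμ n this

end Cfsg.Agent.S0592
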