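import Cfsg.Statements.S0594
import Cfsg.Agent.H21.PStab

set_option autoImplicit false
open Cfsg

namespace Cfsg.Agent.S0594

/-- For odd p, two quadratic generators of a faithful group that is not a p-group, one of which acts nontrivially on a normal subgroup of order prime to p, force p = 3 and a section isomorphic to SL(2,3). -/
theorem result {G : Type*} [Group G] [Finite G] {p : ℕ} [Fact p.Prime] (hp : p ≠ 2) (V H : Subgroup G) (hV : Cfsg.IsElementaryAbelian p V) (hHV : H ≤ Subgroup.normalizer (V : Set G)) (hf : H ⊓ Subgroup.centralizer (V : Set G) = ⊥) (a b : G) (hab : H = Subgroup.closure {a, b}) (ha : ⁅⁅V, Subgroup.zpowers a⁆, Subgroup.zpowers a⁆ = ⊥) (hb : ⁅⁅V, Subgroup.zpowers b⁆, Subgroup.zpowers b⁆ = ⊥) (hnp : ¬ IsPGroup p H) (Q : Subgroup G) (hQH : Q ≤ H) (hQn : H ≤ Subgroup.normalizer (Q : Set G)) (hQ : (Nat.card Q).Coprime p) (hQa : ⁅Q, Subgroup.zpowers a⁆ ≠ ⊥) : p = 3 ∧ ∃ (K L : Subgroup G) (hL : (L.subgroupOf K).Normal), K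 ≤ H ∧ Nonempty ((K ⧸ L.subgroupOf K) ≃* Matrix.SpecialLinearGroup (Fin 2) (ZMod 3)) := by
  have haH : a ∈ H := hab ▸ Subgroup.subset_closure (by simp)
  have hn : (Q.subgroupOf H).Normal := (Subgroup.normal_subgroupOf_iff_le_normalizer hQH).2 hQn
  have hcard : Nat.card (Q.subgroupOf H) = Nat.card Q :=
    Nat.card_congr (Subgroup.subgroupOfEquivOfLe hQH).toEquiv
  obtain ⟨g, hg, hga⟩ : ∃ g ∈ Q, ¬ Commute g a := by
    by_contra hcon
    push Not at hcon
    apply hQa
    rw [Subgroup.commutator_eq_bot_iff_le_centralizer]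
    intro g hg
    exact H21.mem_centralizer_zpowers.2 (hcon g hg)
  have hker : (Subgroup.centralizer (V : Set G)).comap H.subtype ≤ (MonoidHom.id H).ker :=
    fun x hx => Subtype.ext (Subgroup.mem_bot.1 (hf ▸ ⟨x.2, hx⟩))
  obtain ⟨h1, h2⟩ := H21.eq_three_of_not_commute hp hV H.subtype (fun x => hHV x.2) (MonoidHom.id H)
    hker (fun x hx => ⟨0, by rw [show x = 1 from hx]; simp⟩) (a := ⟨a, haH⟩) ha (Q.subgroupOf H)
    (hcard ▸ hQ) (g := ⟨g, hQH hg⟩) hg (fun h => hga (congrArg Subtype.val h))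
  exact ⟨h1, H21.exists_section_of_involves h2⟩

end Cfsg.Agent.S0594
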