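import Cfsg.Statements.S0605
import Cfsg.Agent.H21.Thompson

set_option autoImplicit false
open Cfsg

namespace Cfsg.Agent.S0605

/-- Elements of order p in the centralizer of the Thompson subgroup belong to the Thompson subgroup (so to its centre). -/
theorem result {G : Type*} [Group G] [Finite G] {p : ℕ} [Fact p.Prime] (x : G) (hx : x ∈ Subgroup.centralizer (Cfsg.thompsonSubgroup p G : Set G)) (ho : orderOf x = p) : x ∈ Cfsg.thompsonSubgroup p G := by
  obtain ⟨A, hA⟩ := H21.exists_mem_maxEAOf p (⊤ : Subgroup G)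
  have hAJ := H21.le_thompsonSubgroupOf hA
  rw [H21.thompsonSubgroupOf_top] at hAJ
  exact hAJ (H21.mem_of_mem_maxEAOf hA (Subgroup.mem_top x) (ho ▸ pow_orderOf_eq_one x)
    (H21.centralizer_anti hAJ hx))

end Cfsg.Agent.S0605
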