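import Cfsg.Statements.S0617
import Cfsg.Agent.H21.FF3

set_option autoImplicit false
open Cfsg

namespace Cfsg.Agent.S0617

/-- Structure Theorem for failure of factorization: a faithful group generated by best offenders, with self-centralizing p'-core, is a direct product of copies of SL(2, p) (p = 2 or 3), each acting on its own plane in V, which is the direct product of these planes and C_V(H). -/
theorem result {G : Type*} [Group G] [Finite G] {p : ℕ} [Fact p.Prime] (V H : Subgroup G) (hV : Cfsg.IsElementaryAbelian p V) (hHV : H ≤ Subgroup.normalizer (V : Set G)) (hf : H ⊓ Subgroup.centralizer (V : Set G) = ⊥) (hS1 : Subgroup.centralizer (Cfsg.pPrimeCore p ↥H : Set ↥H) ≤ Cfsg.pPrimeCore p ↥H) (hS3 : H = ⨆ A : {A : Subgroup G // A ≤ H ∧ Cfsg.IsBestOffenderOn p V A}, (A : Subgroup G)) (hH1 : H ≠ ⊥) : (p = 2 ∨ p = 3) ∧ (∀ E : {E : Subgroup G // ∃ A : Subgroup G, A ≤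 H ∧ Cfsg.IsBestOffenderOn p V A ∧ ⁅V, A⁆ ≠ ⊥ ∧ (∀ B : Subgroup G, B ≤ A → Cfsg.IsBestOffenderOn p V B → ⁅V, B⁆ ≠ ⊥ → B = A) ∧ E = ⁅((Cfsg.pPrimeCore p ↥H).map H.subtype), A⁆ ⊔ A}, H ≤ Subgroup.normalizer ((E : Subgroup G) : Set G) ∧ Nonempty (↥(E : Subgroup G) ≃* Matrix.SpecialLinearGroup (Fin 2) (ZMod p)) ∧ Nat.card ↥(⁅V, (E : Subgroup G)⁆) = p ^ 2) ∧ iSupIndep (fun E : {E : Subgroup G // ∃ A : Subgroup G, A ≤ H ∧ Cfsg.IsBestOffenderOn p V A ∧ ⁅V, A⁆ ≠ ⊥ ∧ (∀ B : Subgroup G, B ≤ A → Cfsg.IsBestOffenderOn p V B → ⁅V, B⁆ ≠ ⊥ → B = A) ∧ E = ⁅((Cfsg.pPrimeCore p ↥H).map H.subtype), A⁆ ⊔ A} => (E : Subgroup G)) ∧ (⨆ E : {E : Subgroup G // ∃ A : Subgroup G, A ≤ H ∧ Cfsg.IsBestOffenderOn p V A ∧ ⁅V, A⁆ ≠ ⊥ ∧ (∀ B : Subgroup G, B ≤ A → Cfsg.IsBestOffenderOn p V B → ⁅V, B⁆ ≠ ⊥ → B = A) ∧ E = ⁅((Cfsg.pPrimeCore p ↥H).map H.subtype), A⁆ ⊔ A}, (E : Subgroup G)) = H ∧ iSupIndep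 (fun o : Option {E : Subgroup G // ∃ A : Subgroup G, A ≤ H ∧ Cfsg.IsBestOffenderOn p V A ∧ ⁅V, A⁆ ≠ ⊥ ∧ (∀ B : Subgroup G, B ≤ A → Cfsg.IsBestOffenderOn p V B → ⁅V, B⁆ ≠ ⊥ → B = A) ∧ E = ⁅((Cfsg.pPrimeCore p ↥H).map H.subtype), A⁆ ⊔ A} => o.elim (V ⊓ Subgroup.centralizer (H : Set G)) (fun E => ⁅V, (E : Subgroup G)⁆)) ∧ (V ⊓ Subgroup.centralizer (H : Set G)) ⊔ (⨆ E : {E : Subgroup G // ∃ A : Subgroup G, A ≤ H ∧ Cfsg.IsBestOffenderOn p V A ∧ ⁅V, A⁆ ≠ ⊥ ∧ (∀ B : Subgroup G, B ≤ A → Cfsg.IsBestOffenderOn p V B → ⁅V, B⁆ ≠ ⊥ → B = A) ∧ E = ⁅((Cfsg.pPrimeCore p ↥H).map H.subtype), A⁆ ⊔ A}, ⁅V, (E : Subgroup G)⁆) = V := by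
  have h := H21.ffHyp_of_centralizer_le hV hHV hf hS1
  set Q := (Cfsg.pPrimeCore p ↥H).map H.subtype with hQ
  set ι := {E : Subgroup G // ∃ A : Subgroup G, A ≤ H ∧ Cfsg.IsBestOffenderOn p V A ∧ ⁅V, A⁆ ≠ ⊥ ∧
    (∀ B : Subgroup G, B ≤ A → Cfsg.IsBestOffenderOn p V B → ⁅V, B⁆ ≠ ⊥ → B = A) ∧
      E = ⁅Q, A⁆ ⊔ A} with hι
  have hfac : ∀ E : ι, H21.SL2Factor p V H E ∧ ∃ R ≤ Q, H21.Block p V E R := by
    rintro ⟨_, A, h1, h2, h3, h4, rfl⟩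
    exact ⟨h.sl2Factor hS3.le h1 ⟨h2, h3, h4⟩, _,
      H21.commutator_le_of_le_normalizer (h1.trans h.qnorm), h.block h1 ⟨h2, h3, h4⟩⟩
  choose hF R hRQ hB using hfac
  have hsup : ⨆ E : ι, (E : Subgroup G) = H := le_antisymm (iSup_le fun E => (hF E).le)
    (h.le_of_forall_minOff' hS3.le fun B hBH hB =>
      le_iSup_of_le ⟨_, B, hBH, hB.off, hB.ne, hB.min, rfl⟩ le_sup_right)
  have hind : ∀ E E' : ι, E' ≠ E → ⁅V, (E : Subgroup G)⁆ ≤ Subgroup.centralizer (E' : Set G) ∧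
      ⁅V, (E' : Subgroup G)⁆ ≤ Subgroup.centralizer (E : Set G) := fun E E' hne =>
    ((hF E).eq_or_centralize hHV (hF E')).resolve_left fun he => hne (Subtype.ext he.symm)
  obtain ⟨d1, d2⟩ := h.decomposition (iSup_le hRQ)
  have e1 : ⁅V, ⨆ E, R E⁆ = ⨆ E : ι, ⁅V, (E : Subgroup G)⁆ := by
    rw [H21.commutator_iSup_right_eq fun E => ((hRQ E).trans h.le).trans hHV]
    exact iSup_congr fun E => (hB E).comm
  have e2 : V ⊓ Subgroup.centralizer ((⨆ E, R E : Subgroup G) : Set G) =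
      V ⊓ Subgroup.centralizer (H : Set G) := by
    refine le_antisymm (le_inf inf_le_left ?_)
      (inf_le_inf_left V (H21.centralizer_anti ((iSup_le hRQ).trans h.le)))
    conv_rhs => rw [← hsup, H21.centralizer_iSup]
    exact le_iInf fun E => ((inf_le_inf_left V (H21.centralizer_anti (le_iSup R E))).trans
      (hB E).cent.le).trans inf_le_right
  rw [e1, e2] at d1 d2
  refine ⟨?_, fun E => ⟨(hF E).norm, (hB E).iso, (hB E).card⟩, ?_, hsup, ?_, d2⟩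
  · by_contra hp
    exact hH1 (le_bot_iff.1 (h.le_of_forall_minOff' hS3.le fun B hBH hB =>
      absurd (h.prime_eq hBH hB) hp))
  · refine iSupIndep_def.2 fun E => disjoint_iff.2 (eq_bot_iff.2 ?_)
    exact le_trans (inf_le_inf_left _ (iSup₂_le fun E' hne =>
      Subgroup.le_centralizer_iff.1 (hind E E' hne).1)) (hB E).faith.le
  · refine iSupIndep_def.2 fun o => disjoint_iff.2 (eq_bot_iff.2 ?_)
    rcases o with _ | E
    · refine le_trans (inf_le_inf_left _ (iSup₂_le fun o => ?_)) d1.le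
      rcases o with _ | E
      · exact fun hne => absurd rfl hne
      · exact fun _ => le_iSup (fun E : ι => ⁅V, (E : Subgroup G)⁆) E
    · refine le_trans (inf_le_inf_left _ (iSup₂_le fun o => ?_))
        ((inf_comm _ _).trans (hB E).inf).le
      rcases o with _ | E'
      · exact fun _ => inf_le_inf_left V (H21.centralizer_anti (hF E).le)
      · exact fun hne => le_inf (hF E').commutator_le (hind E E' fun he => hne (by rw [he])).2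

end Cfsg.Agent.S0617
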