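import Cfsg.Statements.S0618
import Cfsg.Agent.H21.FF4

set_option autoImplicit false
open Cfsg

namespace Cfsg.Agent.S0618

/-- A p-separable group with trivial p'-core in which the Thompson factorization fails has p = 2 or 3, and J(G) induces on the normal closure of Ω₁(Z(S)) a group containing a normal SL(2, p). -/
theorem result {G : Type*} [Group G] [Finite G] {p : ℕ} [Fact p.Prime] (hsep : Cfsg.IsPSolvable p G) (hO : Cfsg.pPrimeCore p G = ⊥) (hnf : ¬ Cfsg.IsThompsonFactorizable p G) : (p = 2 ∨ p = 3) ∧ ∃ E : Subgroup G, Subgroup.centralizer ((⨆ S : Sylow p G, Cfsg.omegaOne p ((S : Subgroup G) ⊓ Subgroup.centralizer ((S : Subgroup G) : Set G))) : Set G) ≤ E ∧ E ≤ Cfsg.thompsonSubgroup p G ⊔ Subgroup.centralizer ((⨆ S : Sylow p G, Cfsg.omegaOne p ((S : Subgroup G) ⊓ Subgroup.centralizer ((S : Subgroup G) : Set G))) : Set G) ∧ Cfsg.thompsonSubgroup p G ⊔ Subgroup.centralizer ((⨆ S : Sylow p G, Cfsg.omegaOne p ((S : Subgroup G) ⊓ Subgroup.centralizer ((S : Subgroup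 G) : Set G))) : Set G) ≤ Subgroup.normalizer (E : Set G) ∧ ∃ hn : ((Subgroup.centralizer ((⨆ S : Sylow p G, Cfsg.omegaOne p ((S : Subgroup G) ⊓ Subgroup.centralizer ((S : Subgroup G) : Set G))) : Set G)).subgroupOf E).Normal, Nonempty ((↥E ⧸ (Subgroup.centralizer ((⨆ S : Sylow p G, Cfsg.omegaOne p ((S : Subgroup G) ⊓ Subgroup.centralizer ((S : Subgroup G) : Set G))) : Set G)).subgroupOf E) ≃* Matrix.SpecialLinearGroup (Fin 2) (ZMod p)) := by
  obtain ⟨hp, E, hE⟩ := H21.exists_sl2Factor_of_not_factorizable hsep hO hnf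
  have he : Subgroup.centralizer ((⨆ S : Sylow p G, Cfsg.omegaOne p ((S : Subgroup G) ⊓
      Subgroup.centralizer ((S : Subgroup G) : Set G))) : Set G) =
        Subgroup.centralizer (H21.omegaZClosure p G : Set G) := by
    rw [H21.centralizer_iSup]
    ext x
    simp [Subgroup.mem_centralizer_iff, Subgroup.mem_iInf]
    exact ⟨fun h i y hy => h y i hy, fun h y i hy => h i y hy⟩
  rw [he]
  obtain ⟨f, h1, h2⟩ := hE.hom
  have := H21.omegaZClosure_normal (G := G) p
  refine ⟨hp, E, (le_inf le_sup_right le_rfl).trans hE.inf_centralizer_le, hE.le, hE.norm,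
    inferInstance, ⟨(QuotientGroup.quotientMulEquivOfEq h2.symm).trans
      (QuotientGroup.quotientKerEquivOfSurjective f h1)⟩⟩

end Cfsg.Agent.S0618
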