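import Cfsg.Statements.S0619
import Cfsg.Agent.H21.FF3
import Cfsg.Agent.H21.Thompson
import Cfsg.Agent.H21.Offender

set_option autoImplicit false
open Cfsg

namespace Cfsg.Agent.S0619

/-- For a p-separable group and a normal elementary abelian p-subgroup V with no nontrivial normal p-subgroup modulo its centralizer C, the Thompson subgroup J(G) moves Ω₁(Z(J(C))) only inside V. -/
theorem result {G : Type*} [Group G] [Finite G] {p : ℕ} [Fact p.Prime] (hsep : Cfsg.IsPSolvable p G) (V : Subgroup G) [V.Normal] (hV : Cfsg.IsElementaryAbelian p V) (hO : Cfsg.pCore p (G ⧸ Subgroup.centralizer (V : Set G)) = ⊥) : ⁅Cfsg.omegaOne p (Cfsg.centerThompsonOf p (Subgroup.centralizer (V : Set G))), Cfsg.thompsonSubgroup p G⁆ ≤ V := by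
  have := hV.1
  rw [← H21.thompsonSubgroupOf_top, H21.thompsonSubgroupOf_eq_sSup, sSup_eq_iSup']
  refine H21.commutator_iSup_right_le (fun _ => Subgroup.le_normalizer_of_normal) fun ⟨A, hA⟩ => ?_
  have hAe := hA.2.1
  have := hAe.1
  have h1 := H21.card_offender hV hsep hO (H21.isBestOffenderOn_of_mem_maxEAOf hA le_top hV)
  have h2 := H21.card_sup_mul_card_inf (X := V) (Y := A ⊓ Subgroup.centralizer (V : Set G))
    Subgroup.le_normalizer_of_normal
  rw [← h1, H21.inf_centralizer_eq_of_mem_maxEAOf hA le_top hV, inf_comm A, ← inf_assoc,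
    inf_eq_left.2 V.le_centralizer, inf_comm _ A] at h2
  have h3 := Nat.eq_of_mul_eq_mul_right (H21.card_pos' _) h2
  have h4 : V ⊔ A ⊓ Subgroup.centralizer (V : Set G) ∈
      H21.maxEAOf p (Subgroup.centralizer (V : Set G)) :=
    H21.mem_maxEAOf_of_le le_top (H21.mem_maxEAOf_of_card_le hA le_top
      (H21.isElementaryAbelian_sup hV (H21.isElementaryAbelian_of_le hAe inf_le_left)
        (Subgroup.le_centralizer_iff.1 inf_le_right)) h3.ge) (sup_le V.le_centralizer inf_le_right)
  have h5 : IsMulCommutative (Cfsg.centerThompsonOf p (Subgroup.centralizer (V : Set G))) :=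
    Subgroup.le_centralizer_iff_isMulCommutative.1
      (inf_le_right.trans (H21.centralizer_anti inf_le_left))
  have h6 := H21.le_of_mem_maxEAOf h4
    (((H21.omegaOne_le p _).trans inf_le_left).trans (H21.thompsonSubgroupOf_le _ _))
    (H21.isElementaryAbelian_omegaOne p (Cfsg.centerThompsonOf p (Subgroup.centralizer (V : Set G))))
    (((H21.omegaOne_le p _).trans inf_le_right).trans
      (H21.centralizer_anti (H21.le_thompsonSubgroupOf h4)))
  refine (Subgroup.commutator_mono h6 le_rfl).trans (H21.commutator_sup_left_le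
    Subgroup.le_normalizer_of_normal Subgroup.le_normalizer_of_normal
    (Subgroup.commutator_le_left _ _) ?_)
  rw [Subgroup.commutator_eq_bot_iff_le_centralizer.2
    (H21.le_centralizer_of_le_comm inf_le_left le_rfl)]
  exact bot_le

end Cfsg.Agent.S0619
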