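import Cfsg.Statements.S0621
import Cfsg.Agent.H21.FF5

set_option autoImplicit false
open Cfsg

namespace Cfsg.Agent.S0621

/-- Let K be p-separable with O_p'(K) = 1, normalized by an elementary abelian q-group X for a prime q not dividing the order of K. If the Thompson factorization fails in K, then p is 2 or 3 and the fixed points of X contain a plane W of order p² and a subgroup inducing SL(2, p) on it. -/
theorem result {G : Type*} [Group G] [Finite G] {p : ℕ} [Fact p.Prime] {q : ℕ} [Fact q.Prime] (K X : Subgroup G) (hXK : X ≤ Subgroup.normalizer (K : Set G)) (hX : Cfsg.IsElementaryAbelian q X) (hq : ¬ q ∣ Nat.card K) (hsep : Cfsg.IsPSolvable p ↥K) (hO : Cfsg.pPrimeCore p ↥K = ⊥) (hnf : ¬ Cfsg.IsThompsonFactorizable p ↥K) : (p = 2 ∨ p = 3) ∧ ∃ W D : Subgroup G, W ≤ K ⊓ Subgroup.centralizer (X : Set G) ∧ D ≤ K ⊓ Subgroup.centralizer (X : Set G) ∧ Cfsg.IsElementaryAbelian p W ∧ Nat.card W = p ^ 2 ∧ D ≤ Subgroup.normalizer (W : Set G) ∧ ∃ hn : ((Subgroup.centralizer (W : Set G)).subgroupOf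 D).Normal, Nonempty ((↥D ⧸ (Subgroup.centralizer (W : Set G)).subgroupOf D) ≃* Matrix.SpecialLinearGroup (Fin 2) (ZMod p)) := by
  obtain ⟨hp, E, hE⟩ := H21.exists_sl2Factor_of_not_factorizable hsep hO hnf
  obtain ⟨hV, -⟩ := H21.omegaZClosure_facts hsep hO
  obtain ⟨h1, h2, h3⟩ := H21.thompson_setup (p := p) hXK
  have hV' := H21.isElementaryAbelian_map hV K.subtype
  obtain ⟨W, hW, hc, hn, g, hg, hker⟩ := (hE.map K.subtype_injective).exists_fixed_plane hV' h3 hp
    hX (H46.not_dvd_card_of_le hq (Subgroup.map_subtype_le _))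
    (H46.not_dvd_card_of_le hq (Subgroup.map_subtype_le _)) h1 h2
  exact ⟨hp, W, _, hW.trans (inf_le_inf_right _ (Subgroup.map_subtype_le _)),
    inf_le_inf_right _ (Subgroup.map_subtype_le _),
    H21.isElementaryAbelian_of_le hV' (hW.trans inf_le_left), hc, hn, hker ▸ g.normal_ker,
    ⟨by
      have : ((Subgroup.centralizer (W : Set G)).subgroupOf _).Normal := hker ▸ g.normal_ker
      exact (QuotientGroup.quotientMulEquivOfEq hker.symm).trans
        (QuotientGroup.quotientKerEquivOfSurjective g hg)⟩⟩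

end Cfsg.Agent.S0621
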