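import Cfsg.Statements.S0628
import Cfsg.Agent.H4.NPCFunctor
import Cfsg.Agent.H22.StableClosure
import Cfsg.Agent.S0624
import Cfsg.Agent.S0626

set_option autoImplicit false
open Cfsg

namespace Cfsg.Agent.S0628

universe u

theorem isPFunctor_WOf {p : ℕ} [Fact p.Prime] :
    H4.IsPFunctor.{u} p (fun _ _ _ S => H22.WOf p S) where
  le := fun _ _ _ S => H22.WOf_le S
  ne_bot := fun _ _ _ _ hS h => H22.WOf_ne_bot hS h
  map := fun _ _ _ _ _ _ f _ _ h => H22.map_WOf_of_disjoint f h

/-- The normal p-complement Theorem of Thompson in the form with W(S): for odd p, G has a normal p-complement as soon as the normalizer of the characteristic subgroup W(S) of a Sylow p-subgroup S has one. -/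
theorem result {G : Type*} [Group G] [Finite G] {p : ℕ} [Fact p.Prime] (hp : p ≠ 2) (S : Sylow p G) (hN : Cfsg.HasNormalPComplement p ↥(Subgroup.normalizer (((Cfsg.stableNormalClosure p ↥(S : Subgroup G)).map (S : Subgroup G).subtype) : Set G))) : Cfsg.HasNormalPComplement p G := by
  refine isPFunctor_WOf.hasNormalPComplement ?_ S hN
  intro G _ _ P L hL
  exact S0624.result (S0626.result hp (hL.sylow_isMulCommutative hp.symm)) hL.cent P

end Cfsg.Agent.S0628
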