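import Cfsg.Statements.S0632
import Cfsg.Agent.H22.PStableQuot

set_option autoImplicit false
open Cfsg

namespace Cfsg.Agent.S0632

/-- For a group with a nontrivial normal p-subgroup, p-stability passes to and from the quotient by the largest normal subgroup of order prime to p. -/
theorem result {G : Type*} [Group G] [Finite G] {p : ℕ} [Fact p.Prime] (hO : Cfsg.pCore p G ≠ ⊥) : Cfsg.IsPStable p G ↔ Cfsg.IsPStable p (G ⧸ Cfsg.pPrimeCore p G) := by
  exact H22.isPStable_iff_of_ker_coprime _ (QuotientGroup.mk'_surjective _) H22.coprime_ker_mk' hO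

end Cfsg.Agent.S0632
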