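import Cfsg.Statements.S0633
import Cfsg.Agent.H79.HHCore
import Cfsg.Agent.H22.PSolvable

set_option autoImplicit false
open Cfsg

namespace Cfsg.Agent.S0633

theorem not_comm_sylow {G : Type*} [Group G] [Finite G] {q : ℕ} [Fact q.Prime] {Q : Subgroup G}
    (hQ : IsPGroup q Q) (h : ¬ IsMulCommutative Q) (S : Sylow q G) :
    ¬ IsMulCommutative (S : Subgroup G) := fun hS => by
  obtain ⟨T, hT⟩ := hQ.exists_le_sylow
  obtain ⟨g, rfl⟩ := MulAction.exists_smul_eq G S T
  exact h (H49.abelian_of_le (H49.isMulCommutative_cj.2 hS) hT)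

/-- Theorem B of Hall and Higman on the minimal polynomial of a p-element of order p^n in a p-solvable linear group on a nonzero vector space in characteristic p with no nontrivial normal p-subgroup: its degree is p^n, except when some p^n₀ - 1 (n₀ ≤ n) is a power of a prime q for which the Sylow q-subgroups are non-abelian, in which case the degree is at least p^(n-n₀)(p^n₀ - 1). -/
theorem result {F : Type*} [Field F] {p : ℕ} [Fact p.Prime] [CharP F p] {V : Type*} [AddCommGroup V] [Module F V] [FiniteDimensional F V] [Nontrivial V] (H : Subgroup (V ≃ₗ[F] V)) [Finite H] (hsol : Cfsg.IsPSolvable p H) (hOp : Cfsg.pCore p H = ⊥) (x : V ≃ₗ[F] V) (hx : x ∈ H) (n : ℕ) (hn : orderOf x = p ^ n) (r : ℕ) (hr : minpoly F (x : Module.End F V) = (Polynomial.X - 1) ^ r) : r = p ^ n ∨ ∃ n₀ q m : ℕ, 1 ≤ n₀ ∧ n₀ ≤ n ∧ q.Prime ∧ 1 ≤ m ∧ p ^ n₀ - 1 = q ^ m ∧ (∀ Q : Sylow q H, ¬ IsMulCommutative Q) ∧ p ^ (n - n₀) * (p ^ n₀ - 1) ≤ r := by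
  have hp : p.Prime := Fact.out
  have hint : IsIntegral F (x : Module.End F V) := Algebra.IsIntegral.isIntegral _
  have hlt : ∀ k, ((x : Module.End F V) - 1) ^ k ≠ 0 → k < r := fun k hk => by
    by_contra h
    have := minpoly.aeval F (x : Module.End F V)
    rw [hr] at this
    exact hk (pow_eq_zero_of_le (not_lt.1 h) (by simpa using this))
  have hxn : x ^ p ^ n = 1 := by rw [← hn, pow_orderOf_eq_one]
  have hle : r ≤ p ^ n := by
    have h1 : minpoly F (x : Module.End F V) ∣ (Polynomial.X - 1) ^ p ^ n := minpoly.dvd _ _ (by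
      simp only [map_pow, map_sub, Polynomial.aeval_X, map_one]
      rw [H79.sub_one_pow_char (K := F), sub_eq_zero]
      exact (map_pow LinearEquiv.automorphismGroup.toLinearMapMonoidHom x _).symm.trans
        (by rw [hxn, map_one]))
    rw [hr] at h1
    have := Polynomial.natDegree_le_of_dvd h1 (pow_ne_zero _ (Polynomial.X_sub_C_ne_zero 1))
    rwa [Polynomial.natDegree_pow, Polynomial.natDegree_pow, ← Polynomial.C_1,
      Polynomial.natDegree_X_sub_C, mul_one, mul_one] at this
  rcases n with _ | n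
  · exact Or.inl (le_antisymm hle (hlt 0 (by simp)))
  let ρ : H →* Module.End F V := LinearEquiv.automorphismGroup.toLinearMapMonoidHom.comp H.subtype
  have hρ : Function.Injective ρ := fun a b h => Subtype.ext (LinearEquiv.toLinearMap_injective h)
  have hxn' : (⟨x, hx⟩ : H) ^ p ^ (n + 1) = 1 := Subtype.ext hxn
  rcases H79.hall_higman ρ hρ (N := pPrimeCore p H) H22.coprime_card_pPrimeCore (x := ⟨x, hx⟩)
    (by rw [Subgroup.normalizer_eq_top]; trivial) hxn' (fun h => by
      have h1 := H22.IsPSolvable.centralizer_pPrimeCore_le hsol hOp h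
      have h2 := orderOf_dvd_natCard (⟨_, h1⟩ : pPrimeCore p H)
      have h3 : orderOf ((⟨x, hx⟩ : H) ^ p ^ n) = p := by
        rw [orderOf_pow' _ (pow_pos hp.pos n).ne', Subgroup.orderOf_mk, hn,
          Nat.gcd_eq_right (pow_dvd_pow p n.le_succ), pow_succ', Nat.mul_div_cancel _ (pow_pos hp.pos n)]
      rw [Subgroup.orderOf_mk, h3] at h2
      exact hp.one_lt.ne' (Nat.Coprime.eq_one_of_dvd H22.coprime_card_pPrimeCore.symm h2)) with h | h
  · have := hlt _ h
    exact Or.inl (by omega)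
  · obtain ⟨n₀, q, m, h1, h2, hq, hm, h3, ⟨Q, -, hQ, hab, -⟩, h4⟩ := h
    haveI := Fact.mk hq
    have := hlt _ h4
    exact Or.inr ⟨n₀, q, m, h1, h2, hq, hm, h3, not_comm_sylow hQ hab, by omega⟩

end Cfsg.Agent.S0633
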