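import Cfsg.Statements.S0635
import Cfsg.Agent.H22.UpperPSeries

set_option autoImplicit false
open Cfsg

namespace Cfsg.Agent.S0635

/-- The p-length of a p-soluble group is at most the nilpotency class of its Sylow p-subgroups. -/
theorem result {G : Type*} [Group G] [Finite G] {p : ℕ} [Fact p.Prime] (hsol : Cfsg.IsPSolvable p G) (S : Sylow p G) : Cfsg.PLengthLE p (Group.nilpotencyClass ↥(S : Subgroup G)) G := by
  have key : ∀ k : ℕ, (Subgroup.upperCentralSeries (S : Subgroup G) k).map (S : Subgroup G).subtype
      ≤ (upperPSeries p G (2 * k)).1 := by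
    intro k
    induction k with
    | zero => simp
    | succ k ih =>
      rintro _ ⟨x, hx, rfl⟩
      apply H22.IsPSolvable.mem_upperPSeries_of_commutator hsol S k
      intro y hy
      apply H22.upperPSeries_le_succ
      apply ih
      exact ⟨_, Subgroup.mem_upperCentralSeries_succ_iff.mp hx ⟨y, hy⟩, rfl⟩
  apply H22.pLengthLE_of_sylow_le S
  have hn : Group.IsNilpotent (S : Subgroup G) := S.isPGroup'.isNilpotent
  have := key (Group.nilpotencyClass (S : Subgroup G))
  rwa [Subgroup.upperCentralSeries_nilpotencyClass, ← MonoidHom.range_eq_map,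
    Subgroup.range_subtype] at this

end Cfsg.Agent.S0635
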