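import Cfsg.Statements.S0642
import Cfsg.Agent.H23.Regular

set_option autoImplicit false
open Cfsg

namespace Cfsg.Agent.S0642

/-- Among finite 2-groups the regular ones are exactly the abelian ones. -/
theorem result {G : Type*} [Group G] [Finite G] (hG : IsPGroup 2 G) : Cfsg.IsRegularPGroup 2 G ↔ ∀ a b : G, a * b = b * a := by
  refine ⟨fun h a b => ?_, fun h => ⟨hG, fun a b n => ⟨1, one_mem _, ?_⟩⟩⟩
  · have h1 := H23.Reg1.of_regular h
    have hn : H23.gen2 a b ≤ Subgroup.normalizer (powerClosure 2 1 ⁅H23.gen2 a b, H23.gen2 a b⁆ : Set G) :=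
      le_trans (le_trans (le_inf Subgroup.le_normalizer Subgroup.le_normalizer)
        (H23.normalizer_inf_le_normalizer_commutator _ _))
        (H23.normalizer_le_normalizer_powerClosure 1 _)
    obtain ⟨c, hc, e⟩ := h1 a b
    have h2 := H23.der_gen2_le hn (by
      have h3 := H23.conj_mem_of_mem_normalizer (hn (mul_mem (H23.left_mem_gen2 a b)
        (pow_mem (H23.right_mem_gen2 a b) 2))) (inv_mem hc)
      have h4 : c = (a ^ 2 * b ^ 2)⁻¹ * (a * b) ^ 2 := by rw [e]; group
      convert h3 using 1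
      rw [h4, commutatorElement_def]
      simp only [pow_two]; group)
    have h5 : ∀ n : ℕ, ∀ c ∈ ⁅H23.gen2 a b, H23.gen2 a b⁆, ∃ d ∈ ⁅H23.gen2 a b, H23.gen2 a b⁆,
        c = d ^ 2 ^ n := by
      intro n
      induction n with
      | zero => exact fun c hc => ⟨c, hc, by simp⟩
      | succ n ih =>
        intro c hc
        obtain ⟨d, hd, rfl⟩ := ih c hc
        obtain ⟨e, he, rfl⟩ := h1.exists_pow_of_mem hG (h2 hd)
        exact ⟨e, he, by rw [← pow_mul, ← pow_add, add_comm]⟩
    obtain ⟨n, hn⟩ := hG.exists_card_eq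
    obtain ⟨d, -, e⟩ := h5 n _ (Subgroup.commutator_mem_commutator (H23.left_mem_gen2 a b)
      (H23.right_mem_gen2 a b))
    rwa [← hn, pow_card_eq_one', commutatorElement_eq_one_iff_mul_comm] at e
  · rw [mul_one]
    exact Commute.mul_pow (h a b) _

end Cfsg.Agent.S0642
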