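import Cfsg.Statements.S0643
import Cfsg.Agent.H23.Regular

set_option autoImplicit false
open Cfsg

namespace Cfsg.Agent.S0643

/-- Kemhadze's criterion: a finite p-group is regular exactly when (ab)^p = a^p b^p c^p always holds for some c in the derived subgroup of the subgroup generated by a and b. -/
theorem result {G : Type*} [Group G] [Finite G] {p : ℕ} [Fact p.Prime] (hG : IsPGroup p G) : Cfsg.IsRegularPGroup p G ↔ ∀ a b : G, ∃ c ∈ ⁅Subgroup.closure ({a, b} : Set G), Subgroup.closure ({a, b} : Set G)⁆, (a * b) ^ p = a ^ p * b ^ p * c ^ p := by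
  refine ⟨fun h a b => ?_, fun h => H23.Reg1.regular (fun a b => ?_) hG⟩
  · have h1 := H23.Reg1.of_regular h
    obtain ⟨c, hc, e⟩ := h1 a b
    obtain ⟨d, hd, rfl⟩ := h1.exists_pow_of_mem hG hc
    exact ⟨d, hd, by rwa [pow_one] at e⟩
  · obtain ⟨c, hc, e⟩ := h a b
    exact ⟨_, H23.pow_mem_powerClosure hc, by rwa [pow_one]⟩

end Cfsg.Agent.S0643
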