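import Cfsg.Statements.S0645
import Cfsg.Agent.S0127

set_option autoImplicit false
open Cfsg

namespace Cfsg.Agent.S0645

/-- Classification of p-groups with a cyclic maximal subgroup, odd p: a non-abelian one of order p^n has generators a of order p^(n-1) and b of order p, b outside the cyclic subgroup generated by a, with b a b⁻¹ = a^(1 + p^(n-2)). -/
theorem result {G : Type*} [Group G] [Finite G] {p : ℕ} [Fact p.Prime] (hp : p ≠ 2) (n : ℕ) (hn : 3 ≤ n) (hG : Nat.card G = p ^ n) (C : Subgroup G) (hC : IsCyclic C) (hCi : C.index = p) (hna : ∃ x y : G, x * y ≠ y * x) : ∃ a b : G, orderOf a = p ^ (n - 1) ∧ orderOf b = p ∧ b ∉ Subgroup.zpowers a ∧ b * a * b⁻¹ = a ^ (1 + p ^ (n - 2)) := by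
  have hpp : p.Prime := Fact.out
  have hP : IsPGroup p G := IsPGroup.of_card hG
  obtain ⟨x, y, hxy⟩ := hna
  have hnc : ¬ IsCyclic G := fun h => hxy ((IsCyclic.commGroup (α := G)).mul_comm x y)
  obtain ⟨⟨hWc, hWe⟩, hWcard⟩ := S0127.result hp hP hnc C hC hCi
  set W := Subgroup.closure {x : G | x ^ p = 1} with hW
  have hCn := H3.normal_of_index_eq hP hCi
  have hCcard : Nat.card C = p ^ (n - 1) := by
    have := C.index_mul_card
    rw [hCi, hG] at this
    obtain ⟨m, rfl⟩ : ∃ m, n = m + 1 := ⟨n - 1, by omega⟩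
    rw [pow_succ'] at this
    exact Nat.eq_of_mul_eq_mul_left hpp.pos this
  obtain ⟨a, ha⟩ := (Subgroup.isCyclic_iff_exists_zpowers_eq_top C).1 hC
  have hao : orderOf a = p ^ (n - 1) := by rw [← Nat.card_zpowers, ha, hCcard]
  have haC : a ∈ C := ha ▸ Subgroup.mem_zpowers a
  have hWC : Nat.card (W ⊓ C : Subgroup G) ≤ p :=
    S0127.card_le_of_isCyclic hC inf_le_right hpp.pos fun x hx => hWe x hx.1
  obtain ⟨b, hbW, hbC⟩ : ∃ b ∈ W, b ∉ C := by
    by_contra h
    push Not at h
    rw [inf_eq_left.2 h, hWcard] at hWC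
    have := Nat.pow_lt_pow_right hpp.one_lt (show 1 < 2 by decide)
    rw [pow_one] at this
    omega
  have hmem : ∀ x : G, x ^ p = 1 → x ∈ W := fun x hx => Subgroup.subset_closure hx
  set c := b * a * b⁻¹ * a⁻¹ with hc
  have hcC : c ∈ C := mul_mem (hCn.conj_mem a haC b) (inv_mem haC)
  have hcW : c ∈ W := by
    have : a * b⁻¹ * a⁻¹ ∈ W := hmem _ (by rw [conj_pow, inv_pow, hWe b hbW]; simp)
    simpa [hc, mul_assoc] using mul_mem hbW this
  have hcb : Commute c b := setLike_mul_comm hcW hbW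
  have hca : Commute c a := by
    have := hC
    exact congrArg Subtype.val ((IsCyclic.commGroup (α := C)).mul_comm ⟨c, hcC⟩ ⟨a, haC⟩)
  have hc1 : c ≠ 1 := by
    intro h1
    have hab : Commute a b := by
      have : b * a = a * b := by
        calc b * a = c * (a * b) := by rw [hc]; group
          _ = a * b := by rw [h1, one_mul]
      exact this.symm
    have htop : Subgroup.closure {a, b} = ⊤ := by
      refine (H3.isCoatom_of_index_prime (by rw [hCi]; exact hpp)).2 _ (lt_of_le_of_ne ?_ ?_)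
      · rw [← ha, Subgroup.zpowers_le]
        exact Subgroup.subset_closure (by simp)
      · intro e
        exact hbC (e ▸ Subgroup.subset_closure (by simp))
    have := Subgroup.isMulCommutative_closure (k := {a, b}) (by
      rintro u (rfl | rfl) v (rfl | rfl)
      exacts [rfl, hab.eq, hab.eq.symm, rfl])
    rw [htop] at this
    exact hxy (setLike_mul_comm (Subgroup.mem_top x) (Subgroup.mem_top y))
  have hco : orderOf c = p := orderOf_eq_prime (hWe c hcW) hc1
  have hz : Subgroup.zpowers c = W ⊓ C :=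
    Subgroup.eq_of_le_of_card_ge (Subgroup.zpowers_le.2 ⟨hcW, hcC⟩) (by rwa [Nat.card_zpowers, hco])
  have hzm : a ^ p ^ (n - 2) ∈ Subgroup.zpowers c := by
    rw [hz]
    refine ⟨hmem _ ?_, pow_mem haC _⟩
    rw [← pow_mul, ← pow_succ, show n - 2 + 1 = n - 1 by omega, ← hao, pow_orderOf_eq_one]
  obtain ⟨m, hm⟩ := (mem_powers_iff_mem_zpowers.2 hzm)
  simp only at hm
  have hpm : ¬ p ∣ m := by
    rintro ⟨t, rfl⟩
    rw [pow_mul, hWe c hcW, one_pow] at hm
    have := orderOf_dvd_of_pow_eq_one hm.symm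
    rw [hao, Nat.pow_dvd_pow_iff_le_right hpp.one_lt] at this
    omega
  have hb1 : b ≠ 1 := fun e => hbC (e ▸ one_mem C)
  have hbo : orderOf b = p := orderOf_eq_prime (hWe b hbW) hb1
  have hcop : Nat.Coprime m (orderOf b) := by
    rw [hbo]; exact ((Nat.Prime.coprime_iff_not_dvd hpp).2 hpm).symm
  refine ⟨a, b ^ m, hao, by rw [hcop.symm.orderOf_pow, hbo], ?_, ?_⟩
  · rw [ha]
    intro h
    obtain ⟨k, hk⟩ := exists_pow_eq_self_of_coprime hcop
    exact hbC (hk ▸ pow_mem h k)
  · have key : ∀ k : ℕ, b ^ k * a * (b ^ k)⁻¹ = c ^ k * a := by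
      intro k
      induction k with
      | zero => simp
      | succ k ih =>
        calc b ^ (k + 1) * a * (b ^ (k + 1))⁻¹ = b * (b ^ k * a * (b ^ k)⁻¹) * b⁻¹ := by
              rw [pow_succ']; group
          _ = b * c ^ k * b⁻¹ * (b * a * b⁻¹ * a⁻¹) * a := by rw [ih]; group
          _ = c ^ (k + 1) * a := by rw [← (hcb.pow_left k).eq, ← hc, pow_succ]; group
    rw [key, hm, add_comm, pow_succ]

end Cfsg.Agent.S0645
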