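import Cfsg.Statements.S0663
import Cfsg.Agent.H23.Basic
import Cfsg.Agent.H3.PGroup
import Cfsg.Agent.H1.NilComm
import Cfsg.Agent.Eqns.Def_PLocal

set_option autoImplicit false
open Cfsg

namespace Cfsg.Agent.S0663

section
open Subgroup

variable {L : Type*} [Group L] [Finite L] {p : ℕ} [hp : Fact p.Prime] {N G : Subgroup L}

omit [Finite L] in
theorem le_norm_map {T : Subgroup L} (K : Subgroup T) (hK : K.Normal) :
    T ≤ normalizer (K.map T.subtype : Set L) := by
  rw [← normal_subgroupOf_iff_le_normalizer (map_subtype_le K), ← comap_subtype,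
    comap_map_eq_self_of_injective T.subtype_injective]
  exact hK

omit [Finite L] in
theorem card_sub {H T : Subgroup L} (h : H ≤ T) : Nat.card (H.subgroupOf T) = Nat.card H :=
  Nat.card_congr (subgroupOfEquivOfLe h).toEquiv

theorem step (hN : IsPGroup p N) (hG : IsPGroup p G) (hGN : G ≤ normalizer (N : Set L))
    {H : Subgroup L} (hH : H < N) (hGH : G ≤ normalizer (H : Set L)) :
    ∃ K : Subgroup L, K ≤ N ∧ G ≤ normalizer (K : Set L) ∧ Nat.card K = Nat.card H * p ∧
      ⁅K, G⁆ ≤ H := by
  have h1 := H23.lt_normalizer_inf hN hH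
  set M := normalizer (H : Set L) ⊓ N
  have hGM : G ≤ normalizer (M : Set L) :=
    (le_inf (hGH.trans le_normalizer) hGN).trans inf_normalizer_le_normalizer_inf
  have hT : IsPGroup p (M ⊔ G : Subgroup L) :=
    (hN.to_le inf_le_right).to_sup_of_normal_left' hG hGM
  have hHT : H ≤ M ⊔ G := h1.le.trans le_sup_left
  have := (normal_subgroupOf_iff_le_normalizer hHT).2 (sup_le inf_le_left hGH)
  have := (normal_subgroupOf_iff_le_normalizer (le_sup_left : M ≤ M ⊔ G)).2
    (sup_le le_normalizer hGM)
  obtain ⟨K, hK, -, k2, k3, k4⟩ := H3.exists_normal_card_eq_mul hT (H.subgroupOf (M ⊔ G))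
    (M.subgroupOf (M ⊔ G)) (lt_of_le_of_ne (comap_mono h1.le) fun e => h1.ne (by
      simpa [inf_eq_left.2 hHT] using subgroupOf_inj.1 e))
  refine ⟨K.map (M ⊔ G).subtype, ?_, le_sup_right.trans (le_norm_map K hK), ?_, ?_⟩
  · exact (map_le_iff_le_comap.2 k2).trans inf_le_right
  · rw [card_subtype, k3, card_sub hHT]
  · refine le_trans (commutator_mono le_rfl (le_sup_right : G ≤ M ⊔ G)) ?_
    have := map_mono (f := (M ⊔ G).subtype) k4
    rwa [map_commutator, ← MonoidHom.range_eq_map, range_subtype, subgroupOf_map_subtype,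
      inf_eq_left.2 hHT] at this

omit [Finite L] in
theorem inv_iter (hGN : G ≤ normalizer (N : Set L)) (i : ℕ) :
    iterCommutator N G i ≤ N ∧ G ≤ normalizer (iterCommutator N G i : Set L) := by
  induction i with
  | zero => exact ⟨le_rfl, hGN⟩
  | succ i ih =>
    exact ⟨(le_normalizer_iff_commutator_le_left.1 ih.2).trans ih.1,
      (le_inf ih.2 le_normalizer).trans (H23.normalizer_inf_le_normalizer_commutator _ _)⟩

theorem classify (hN : IsPGroup p N) (hG : IsPGroup p G) (hGN : G ≤ normalizer (N : Set L)) {n : ℕ}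
    (hC : ∀ i ≤ n, Nat.card (iterCommutator N G i) = p ^ (n - i)) (i : ℕ) (hi : i ≤ n) :
    ∀ H : Subgroup L, H ≤ N → G ≤ normalizer (H : Set L) → Nat.card H = p ^ (n - i) →
      H = iterCommutator N G i := by
  induction i with
  | zero => exact fun H h _ e => eq_of_le_of_card_ge h ((hC 0 hi).trans e.symm).le
  | succ i ih =>
    intro H h hH e
    obtain ⟨K, k1, k2, k3, k4⟩ := step hN hG hGN (lt_of_le_of_ne h fun e' => by
      have := Nat.pow_right_injective hp.out.two_le ((hC 0 (by omega)).symm.trans (e' ▸ e))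
      omega) hH
    rw [ih (by omega) K k1 k2 (by rw [k3, e, ← pow_succ]; congr 1; omega)] at k4
    exact (eq_of_le_of_card_ge k4 (e.trans (hC _ hi).symm).le).symm

theorem exists_card (hN : IsPGroup p N) {n : ℕ} (hn : Nat.card N = p ^ n) {H : Subgroup L}
    (h : H ≤ N) : ∃ i ≤ n, Nat.card H = p ^ (n - i) := by
  obtain ⟨k, hk, e⟩ := (Nat.dvd_prime_pow hp.out).1 (hn ▸ card_dvd_of_le h)
  exact ⟨n - k, by omega, by rw [e]; congr 1; omega⟩

end

/-- A p-group acts uniserially on a p-group N of order p^n exactly when the iterated commutator chain from N has length n; in that case the chain terms are all the invariant subgroups of N and they are normal in N. -/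
theorem result {L : Type*} [Group L] [Finite L] {p : ℕ} [Fact p.Prime] (N G : Subgroup L) (hN : IsPGroup p N) (hG : IsPGroup p G) (hGN : G ≤ Subgroup.normalizer (N : Set L)) (n : ℕ) (hn : Nat.card N = p ^ n) : ((∀ H : Subgroup L, H ≤ N → G ≤ Subgroup.normalizer (H : Set L) → H ≠ ⊥ → (⁅H, G⁆).relIndex H = p) ↔ Cfsg.iterCommutator N G (n - 1) ≠ ⊥ ∨ n = 0) ∧ ((∀ H : Subgroup L, H ≤ N → G ≤ Subgroup.normalizer (H : Set L) → H ≠ ⊥ → (⁅H, G⁆).relIndex H = p) → ∀ H : Subgroup L, H ≤ N → G ≤ Subgroup.normalizer (H : Set L) → (∃ i ≤ n, H = Cfsg.iterCommutator N G i) ∧ N ≤ Subgroup.normalizer (H : Set L)) := by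
  have hI := inv_iter hGN
  have hm : ∀ i, Nat.card (iterCommutator N G i) = (iterCommutator N G (i + 1)).relIndex
      (iterCommutator N G i) * Nat.card (iterCommutator N G (i + 1)) := fun i =>
    H23.card_eq_relIndex_mul (Subgroup.le_normalizer_iff_commutator_le_left.1 (hI i).2)
  have hp1 := (Fact.out : p.Prime).one_lt
  have a1 : (∀ H : Subgroup L, H ≤ N → G ≤ Subgroup.normalizer (H : Set L) → H ≠ ⊥ →
      (⁅H, G⁆).relIndex H = p) → ∀ i ≤ n, Nat.card (iterCommutator N G i) = p ^ (n - i) := by
    intro hU i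
    induction i with
    | zero => exact fun _ => hn
    | succ i ih =>
      intro hi
      have h1 := ih (by omega)
      have h2 : (iterCommutator N G (i + 1)).relIndex (iterCommutator N G i) = p :=
        hU _ (hI i).1 (hI i).2 fun e => by
          rw [e, Subgroup.card_bot, ← pow_zero p] at h1
          have := Nat.pow_right_injective hp1 h1
          omega
      rw [hm, h2, show n - i = n - (i + 1) + 1 by omega, pow_succ'] at h1
      exact Nat.eq_of_mul_eq_mul_left (by omega) h1
  have a2 : iterCommutator N G (n - 1) ≠ ⊥ ∨ n = 0 →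
      ∀ i ≤ n, Nat.card (iterCommutator N G i) = p ^ (n - i) := by
    intro h
    choose f hf hf' using fun i => exists_card hN hn (hI i).1
    have hanti : Antitone (iterCommutator N G) := antitone_nat_of_succ_le fun i =>
      Subgroup.le_normalizer_iff_commutator_le_left.1 (hI i).2
    have hn1 : ∀ i < n, f i < f (i + 1) ∧ f i < n := fun i hi => by
      have h1 : iterCommutator N G i ≠ ⊥ := fun e =>
        (h.resolve_right (by omega)) (le_bot_iff.1 (e ▸ hanti (by omega)))
      have h2 := H23.card_lt_of_lt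
        (H1.commutator_lt_of_pgroup (hN.to_le (hI i).1) hG (hI i).2 h1)
      change Nat.card (iterCommutator N G (i + 1)) < _ at h2
      rw [hf', hf', Nat.pow_lt_pow_iff_right hp1] at h2
      omega
    have l1 : ∀ i ≤ n, i ≤ f i := fun i => by
      induction i with
      | zero => omega
      | succ i ih => intro hi; have := hn1 i hi; omega
    have l2 : ∀ k i, i + k = n → f i ≤ i := fun k => by
      induction k with
      | zero => intro i hi; have := hf i; omega
      | succ k ih => intro i hi; have := ih (i + 1) (by omega); have := hn1 i (by omega); omega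
    intro i hi
    rw [hf', le_antisymm (l2 (n - i) i (by omega)) (l1 i hi)]
  refine ⟨⟨fun hU => ?_, fun h H h1 h2 h3 => ?_⟩, fun hU H h1 h2 => ?_⟩
  · rcases Nat.eq_zero_or_pos n with c | c
    · exact Or.inr c
    refine Or.inl fun e => ?_
    have h1 := a1 hU (n - 1) (by omega)
    rw [e, Subgroup.card_bot, eq_comm, Nat.pow_eq_one] at h1
    omega
  · obtain ⟨i, hi, e⟩ := exists_card hN hn h1
    have hi' : i < n := lt_of_le_of_ne hi fun c => h3 (Subgroup.card_eq_one.1 (by simpa [c] using e))
    rw [classify hN hG hGN (a2 h) i hi H h1 h2 e]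
    have h4 := hm i
    rw [a2 h i hi, a2 h _ hi', show n - i = n - (i + 1) + 1 by omega, pow_succ'] at h4
    exact (Nat.eq_of_mul_eq_mul_right (by positivity) h4).symm
  · obtain ⟨i, hi, e⟩ := exists_card hN hn h1
    have hc := classify hN hG hGN (a1 hU) i hi
    refine ⟨⟨i, hi, hc H h1 h2 e⟩, ?_⟩
    have := (Subgroup.normal_subgroupOf_iff_le_normalizer (le_sup_left : N ≤ N ⊔ G)).2
      (sup_le Subgroup.le_normalizer hGN)
    obtain ⟨K, hK, k1, k2⟩ := H3.exists_normal_le_card_eq (hN.to_sup_of_normal_left' hG hGN)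
      (N.subgroupOf (N ⊔ G)) (n - i) (by
        rw [card_sub le_sup_left, hn]; exact Nat.pow_le_pow_right (by omega) (by omega))
    rw [hc H h1 h2 e, ← hc (K.map (N ⊔ G).subtype) (Subgroup.map_le_iff_le_comap.2 k1)
      (le_sup_right.trans (le_norm_map K hK)) (by rw [Subgroup.card_subtype, k2])]
    exact le_sup_left.trans (le_norm_map K hK)

end Cfsg.Agent.S0663
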