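import Cfsg.Statements.S0674
import Cfsg.Agent.H24.PrimeDegree

set_option autoImplicit false
open Cfsg

namespace Cfsg.Agent.S0674

open Cfsg.Agent.H24

/-- Let `G` be a non-solvable transitive permutation group of prime degree `p` and `K` a field of characteristic `p`. Then the heart of the permutation module is irreducible: an invariant subspace containing the constants and contained in the sum-zero functions is one or the other. -/
theorem result {α : Type*} [Fintype α] [DecidableEq α] {p : ℕ} [Fact p.Prime] (hα : Fintype.card α = p) (G : Subgroup (Equiv.Perm α)) [MulAction.IsPretransitive G α] (hG : ¬ Group.IsSolvable G) {K : Type*} [Field K] [CharP K p] (W : Subrepresentation (Cfsg.permRep K G α)) (h₁ : (Cfsg.permConstants K G α).toSubmodule ≤ W.toSubmodule) (h₂ : W.toSubmodule ≤ (Cfsg.permSumZero K G α).toSubmodule) : W = Cfsg.permConstants K G α ∨ W = Cfsg.permSumZero K G α := by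
  obtain ⟨σ, hσ, hσ1⟩ := exists_orderOf_eq_of_transitive (G := G) hα
  have : Nonempty α := Fintype.card_pos_iff.mp (hα ▸ (Fact.out : p.Prime).pos)
  obtain ⟨a⟩ := this
  obtain ⟨e, -, he⟩ := exists_coord hα σ hσ a (smul_ne_of_orderOf hα σ hσ hσ1 a)
  rcases heart_irreducible e σ he (fun h => hG (isSolvable_of_affine e h)) W.toSubmodule
    (subrep_invariant W) h₁ h₂ with h | h
  · exact Or.inl (Subrepresentation.toSubmodule_injective h)
  · exact Or.inr (Subrepresentation.toSubmodule_injective h)

end Cfsg.Agent.S0674
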