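import Cfsg.Statements.S0677
import Cfsg.Agent.H24.PrimeDegree3

set_option autoImplicit false
open Cfsg

namespace Cfsg.Agent.S0677

open Cfsg.Agent.H24

theorem even_card_of_involution {β : Type*} [DecidableEq β] (T : Finset β) (f : β → β)
    (hf : ∀ x, f (f x) = x) (hT : ∀ x ∈ T, f x ∈ T) (hne : ∀ x ∈ T, f x ≠ x) : Even T.card := by
  have h : ∑ _x ∈ T, (1 : ZMod 2) = 0 :=
    Finset.sum_involution (fun x _ => f x) (fun _ _ => by decide) (fun x hx _ => hne x hx) hT
      (fun x _ => hf x)
  rw [Finset.sum_const, nsmul_eq_mul, mul_one] at h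
  exact (ZMod.natCast_eq_zero_iff_even).mp h

theorem main {G : Type*} [Group G] [Finite G] {α β : Type*} [MulAction G α] [MulAction G β]
    {p : ℕ} [hp : Fact p.Prime] [Fintype α] [Fintype β] [FaithfulSMul G α]
    [MulAction.IsPretransitive G α] [MulAction.IsPretransitive G β]
    (hα : Fintype.card α = p) (hβ : Fintype.card β = p) (hp2 : p ≠ 2)
    (σ t : G) (e : α ≃ ZMod p) (hσp : σ ^ p = 1) (hσ1 : σ ≠ 1) (hσ : ∀ x, e (σ • x) = e x + 1)
    (ht : ∀ x, e (t • x) = - e x) :
    ∃ (a : α) (b : β), MulAction.stabilizer G b ≤ MulAction.stabilizer G a := by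
  classical
  have h20 := two_ne_zero_zmod hp2
  have hord : orderOf σ = p := orderOf_eq_prime hσp hσ1
  have hnd : ∀ b : β, ¬ p ∣ Nat.card (MulAction.stabilizer G b) := fun b =>
    not_dvd_card_of_index hα _ (by
      rw [MulAction.index_stabilizer_of_transitive, Nat.card_eq_fintype_card, hβ])
  have htt : t * t = 1 := by
    apply FaithfulSMul.eq_of_smul_eq_smul (α := α)
    intro x
    apply e.injective
    rw [mul_smul, ht, ht, neg_neg, one_smul]
  have htσ : t * σ * t⁻¹ = σ ^ (p - 1) := by
    apply FaithfulSMul.eq_of_smul_eq_smul (α := α)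
    intro x
    apply e.injective
    rw [mul_smul, mul_smul, ht, hσ, inv_eq_of_mul_eq_one_right htt, ht, coord_pow e σ hσ,
      Nat.cast_sub hp.out.one_le]
    simp only [CharP.cast_eq_zero, Nat.cast_one]
    ring
  have : Nonempty β := Fintype.card_pos_iff.mp (hβ ▸ hp.out.pos)
  obtain ⟨b1⟩ := this
  have hσb : σ • b1 ≠ b1 := by
    intro h
    apply hnd b1
    rw [← hord]
    exact Subgroup.orderOf_dvd_natCard _ h
  obtain ⟨e1, -, he1⟩ := exists_coord hβ σ hσp b1 hσb
  have h1 := coord_of_conj e1 σ he1 t (p - 1) htσ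
  rw [Nat.cast_sub hp.out.one_le] at h1
  simp only [CharP.cast_eq_zero, Nat.cast_one] at h1
  set c := e1 (t • e1.symm 0)
  let b0 := e1.symm (c / 2)
  have hb0 : ∀ b, t • b = b ↔ b = b0 := by
    intro b
    rw [← e1.injective.eq_iff, h1, ← e1.injective.eq_iff, Equiv.apply_symm_apply, eq_div_iff h20]
    constructor
    · intro h; linear_combination -h
    · intro h; linear_combination -h
  have htb0 : t • b0 = b0 := (hb0 b0).mpr rfl
  let a0 := e.symm 0
  refine ⟨a0, b0, ?_⟩
  by_cases haff : ∀ g : G, ∃ a b : ZMod p, ∀ x, e (g • x) = a * e x + b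
  · intro h hh
    obtain ⟨a, b, hab⟩ := haff h
    have h2 : ∀ x, e ((h * t * h⁻¹ * t) • x) = e x + 2 * b := by
      intro x
      have h3 := hab (h⁻¹ • t • x)
      rw [smul_inv_smul, ht] at h3
      rw [mul_smul, mul_smul, mul_smul, hab, ht]
      linear_combination h3
    have h3 : h * t * h⁻¹ * t = σ ^ (2 * b).val := by
      apply FaithfulSMul.eq_of_smul_eq_smul (α := α)
      intro x
      apply e.injective
      rw [h2, coord_pow e σ hσ]
      simp
    have h4 : σ ^ (2 * b).val ∈ MulAction.stabilizer G b0 := by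
      rw [← h3]
      exact mul_mem (mul_mem (mul_mem hh htb0) (inv_mem hh)) htb0
    have hb : b = 0 := by
      by_contra hb
      apply hnd b0
      have h5 : (2 * b).val ≠ 0 := by
        rw [Ne, ZMod.val_eq_zero]
        exact mul_ne_zero h20 hb
      have h6 : σ ∈ Subgroup.zpowers (σ ^ (2 * b).val) := by
        rw [mem_zpowers_pow_iff, hord]
        exact Nat.Coprime.symm (Nat.coprime_of_lt_prime h5 (ZMod.val_lt _) hp.out)
      rw [← hord]
      exact Subgroup.orderOf_dvd_natCard _ ((Subgroup.zpowers_le.mpr h4) h6)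
    change h • a0 = a0
    apply e.injective
    rw [hab, hb]
    simp [a0]
  have h2 := two_transitive_of_not_affine e σ hσ haff
  rw [MulAction.is_two_pretransitive_iff] at h2
  let I : α → β → Prop := fun x b => ∃ g : G, g • a0 = x ∧ g • b0 = b
  have hI : ∀ (g : G) x b, I (g • x) (g • b) ↔ I x b := by
    intro g y t
    constructor
    · rintro ⟨k, h1, h2⟩
      exact ⟨g⁻¹ * k, by rw [mul_smul, h1, inv_smul_smul], by rw [mul_smul, h2, inv_smul_smul]⟩
    · rintro ⟨k, rfl, rfl⟩
      exact ⟨g * k, mul_smul _ _ _, mul_smul _ _ _⟩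
  let B : α → α → Finset β := fun x y => Finset.univ.filter fun b => I x b ∧ I y b
  have hB : ∀ (g : G) x y, (B (g • x) (g • y)).card = (B x y).card := by
    intro g x y
    symm
    apply Finset.card_bijective (fun b => g • b) (MulAction.bijective g)
    intro b
    simp [B, hI]
  have httx : ∀ x : α, t • t • x = x := fun x => by rw [← mul_smul, htt, one_smul]
  have httb : ∀ x : β, t • t • x = x := fun x => by rw [← mul_smul, htt, one_smul]
  have hpar : ∀ x, Even (B x (t • x)).card ↔ ¬ I x b0 := by
    intro x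
    have h3 : Even ((B x (t • x)).erase b0).card := by
      apply even_card_of_involution _ (fun b => t • b) httb
      · intro b hb
        simp only [B, Finset.mem_erase, Finset.mem_filter, Finset.mem_univ, true_and] at hb ⊢
        refine ⟨fun h => hb.1 ?_, ?_, (hI t x b).mpr hb.2.1⟩
        · rw [← httb b, h, htb0]
        · rw [← hI t, httb]
          exact hb.2.2
      · intro b hb h
        exact (Finset.mem_erase.mp hb).1 ((hb0 b).mp h)
    have h4 : b0 ∈ B x (t • x) ↔ I x b0 := by
      simp only [B, Finset.mem_filter, Finset.mem_univ, true_and, and_iff_left_iff_imp]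
      intro h
      rw [← htb0, hI]
      exact h
    rw [← h4]
    by_cases h5 : b0 ∈ B x (t • x)
    · rw [← Finset.card_erase_add_one h5, Nat.even_add_one]
      exact ⟨fun h => absurd h3 h, fun h => absurd h5 h⟩
    · rw [Finset.erase_eq_of_notMem h5] at h3
      simp [h3, h5]
  have hne : ∀ x, x ≠ a0 → x ≠ t • x := by
    intro x hx h
    apply hx
    apply e.injective
    have h3 := ht x
    rw [← h] at h3
    have h4 : 2 * e x = 0 := by linear_combination h3
    simpa [a0, h20] using h4
  intro h hh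
  by_contra hn
  have hn' : h • a0 ≠ a0 := hn
  have hall : ∀ x, I x b0 := by
    intro x
    by_cases hx : x = a0
    · exact ⟨1, by rw [one_smul, hx], one_smul _ _⟩
    obtain ⟨g, hg1, hg2⟩ := h2 (hne _ hn') (hne x hx)
    have h3 := hB g (h • a0) (t • h • a0)
    rw [hg1, hg2] at h3
    by_contra h4
    rw [← hpar, h3, hpar] at h4
    exact h4 ⟨h, rfl, hh⟩
  have : MulAction.IsPretransitive (MulAction.stabilizer G b0) α := by
    rw [MulAction.isPretransitive_iff_base a0]
    intro x
    obtain ⟨g, hg1, hg2⟩ := hall x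
    exact ⟨⟨g, hg2⟩, hg1⟩
  have : Nonempty α := ⟨a0⟩
  exact hnd b0 (hα ▸ dvd_card_of_transitive (G := MulAction.stabilizer G b0) (α := α))

/-- In a transitive permutation group of prime degree `p` whose Sylow `p`-normaliser has even order, the point stabilisers are the only subgroups of index `p`. -/
theorem result {α : Type*} [Fintype α] [DecidableEq α] {p : ℕ} [Fact p.Prime] (hα : Fintype.card α = p) (G : Subgroup (Equiv.Perm α)) [MulAction.IsPretransitive G α] (P : Sylow p G) (heven : Even (Nat.card (Subgroup.normalizer ((P : Subgroup G) : Set G)))) (H : Subgroup G) (hH : H.index = p) : ∃ a : α, H = MulAction.stabilizer G a := by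
  classical
  have hp : p.Prime := Fact.out
  suffices h : ∃ a : α, H ≤ MulAction.stabilizer G a by
    obtain ⟨a, ha⟩ := h
    refine ⟨a, Subgroup.eq_of_le_of_card_ge ha ?_⟩
    have h1 := H.card_mul_index
    have h2 := (MulAction.stabilizer G a).card_mul_index
    rw [MulAction.index_stabilizer_of_transitive, Nat.card_eq_fintype_card (α := α), hα, ← h1,
      hH] at h2
    exact (Nat.eq_of_mul_eq_mul_right hp.pos h2).le
  by_cases hp2 : p = 2
  · have : Nonempty α := Fintype.card_pos_iff.mp (hα ▸ hp.pos)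
    obtain ⟨a⟩ := this
    refine ⟨a, ?_⟩
    have h1 := card_dvd_factorial (G := G) (α := α)
    rw [← H.card_mul_index, hH, hα, hp2] at h1
    have h2 : Nat.card H = 1 := by
      have h3 := Nat.le_of_dvd (by norm_num) h1
      have h4 : 0 < Nat.card H := Nat.card_pos
      simp only [Nat.factorial_two] at h3
      omega
    rw [Subgroup.card_eq_one.mp h2]
    exact bot_le
  obtain ⟨σ, t, e, hσp, hσ1, hσ, ht⟩ := exists_coord_neg hα hp2 P heven
  have : Fintype (G ⧸ H) := Fintype.ofFinite _
  obtain ⟨a, b, hab⟩ := main (β := G ⧸ H) hα (by rw [← Nat.card_eq_fintype_card]; exact hH) hp2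
    σ t e hσp hσ1 hσ ht
  obtain ⟨g, rfl⟩ := MulAction.exists_smul_eq G ((1 : G) : G ⧸ H) b
  refine ⟨g⁻¹ • a, fun h hh => ?_⟩
  have h1 : g * h * g⁻¹ ∈ MulAction.stabilizer G (g • ((1 : G) : G ⧸ H)) := by
    rw [← MulAction.stabilizer_quotient H] at hh
    rw [MulAction.mem_stabilizer_iff] at hh ⊢
    rw [mul_smul, inv_smul_smul, mul_smul, hh]
  have h2 : (g * h * g⁻¹) • a = a := hab h1
  rw [MulAction.mem_stabilizer_iff, eq_inv_smul_iff, ← mul_smul, ← mul_smul]
  exact h2

end Cfsg.Agent.S0677
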