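import Cfsg.Statements.S0680
import Cfsg.Agent.H24.Sharp2

set_option autoImplicit false
open Cfsg

namespace Cfsg.Agent.S0680

open Cfsg.Agent.H24

/-- A finite sharply doubly transitive group has prime-power degree and a regular normal elementary abelian Sylow subgroup. -/
theorem result {α : Type*} [Fintype α] [DecidableEq α] (G : Subgroup (Equiv.Perm α)) [MulAction.IsMultiplyPretransitive G α 2] (hsharp : ∀ x : Fin 2 ↪ α, MulAction.stabilizer G x = ⊥) (h2 : 2 ≤ Fintype.card α) : ∃ p j : ℕ, p.Prime ∧ 1 ≤ j ∧ Fintype.card α = p ^ j ∧ ∀ (hp : Fact p.Prime) (P : Sylow p G), (P : Subgroup G).Normal ∧ IsMulCommutative (P : Subgroup G) ∧ (∀ x ∈ (P : Subgroup G), x ^ p = 1) ∧ MulAction.IsPretransitive (P : Subgroup G) α ∧ (∀ a : α, MulAction.stabilizer (P : Subgroup G) a = ⊥) ∧ ∀ g : G, g ∈ (P : Subgroup G) ↔ g = 1 ∨ ∀ a : α, g • a ≠ a := by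
  obtain ⟨K, hK, hc, hN, hcomm, hconj⟩ := exists_kernel_of_sharp_two hsharp h2
  obtain ⟨p, hp, hpd⟩ := Nat.exists_prime_and_dvd (n := Fintype.card α) (by omega)
  have : Fact p.Prime := ⟨hp⟩
  obtain ⟨x, hx⟩ := exists_prime_orderOf_dvd_card' (G := K) p (hc ▸ hpd)
  have hx1 : (x : G) ≠ 1 := by
    intro h
    rw [show x = 1 from Subtype.ext h, orderOf_one] at hx
    exact hp.one_lt.ne hx
  have hxp : (x : G) ^ p = 1 := by
    rw [← hx, ← Subgroup.orderOf_coe, pow_orderOf_eq_one]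
  have hall : ∀ y ∈ K, y ^ p = 1 := by
    intro y hy
    by_cases hy1 : y = 1
    · simp [hy1]
    obtain ⟨g, rfl⟩ := isConj_iff.mp (hconj x x.2 y hy hx1 hy1)
    rw [conj_pow, hxp]
    simp
  have hP : IsPGroup p K := fun y => ⟨1, Subtype.ext (by simpa using hall y y.2)⟩
  obtain ⟨j, hj⟩ := IsPGroup.iff_card.mp hP
  refine ⟨p, j, hp, ?_, hc ▸ hj, fun _ P => ?_⟩
  · rcases Nat.eq_zero_or_pos j with rfl | h
    · rw [pow_zero] at hj; omega
    · exact h
  have hidx : ¬ p ∣ K.index := by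
    have h1 := K.card_mul_index
    rw [card_of_sharp_two hsharp h2, hc] at h1
    rw [Nat.eq_of_mul_eq_mul_left (by omega) h1]
    intro h
    have := (Nat.dvd_sub_iff_right (by omega) hpd).mp h
    exact hp.one_lt.ne' (Nat.dvd_one.mp this)
  let Q : Sylow p G := hP.toSylow hidx
  have hQ : (Q : Subgroup G).Normal := hN
  have hPQ : P = Q := by
    have := Sylow.unique_of_normal Q hQ
    exact Subsingleton.elim _ _
  have hPK : (P : Subgroup G) = K := by rw [hPQ]; rfl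
  obtain ⟨h3, h4⟩ := isPretransitive_of_card_eq K (fun g hg => (hK g).mp hg) hc
  rw [hPK]
  exact ⟨hN, ⟨⟨fun a b => Subtype.ext (hcomm a a.2 b b.2)⟩⟩, hall, h4, h3, hK⟩

end Cfsg.Agent.S0680
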