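import Cfsg.Statements.S0681
import Cfsg.Agent.H24.NearField

set_option autoImplicit false
open Cfsg

namespace Cfsg.Agent.S0681

open Cfsg.Agent.H24

/-- The affine permutation `x ↦ x * a + b`. -/
def aff {F : Type*} [Cfsg.NearField F] (a a' b : F) (h : a * a' = 1) (h' : a' * a = 1) :
    Equiv.Perm F where
  toFun x := x * a + b
  invFun y := (y + -b) * a'
  left_inv x := by
    simp only [add_neg_cancel_right, mul_assoc, h, mul_one]
  right_inv y := by
    simp only [mul_assoc, h', mul_one, neg_add_cancel_right]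

/-- The group of affine maps. -/
def affGroup (F : Type*) [Cfsg.NearField F] : Subgroup (Equiv.Perm F) where
  carrier := {σ | ∃ a b : F, a ≠ 0 ∧ ∀ x : F, σ x = x * a + b}
  one_mem' := ⟨1, 0, (Cfsg.NearField.zero_ne_one).symm, fun x => by simp⟩
  mul_mem' := by
    rintro σ τ ⟨a, b, ha, hσ⟩ ⟨c, d, hc, hτ⟩
    refine ⟨c * a, d * a + b, nf_mul_ne_zero hc ha, fun x => ?_⟩
    rw [Equiv.Perm.mul_apply, hτ, hσ, Cfsg.NearField.right_distrib, mul_assoc, add_assoc]
  inv_mem' := by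
    rintro σ ⟨a, b, ha, hσ⟩
    obtain ⟨c, hc, hc'⟩ := Cfsg.NearField.exists_inv a ha
    refine ⟨c, (-b) * c, nf_inv_ne_zero hc, fun x => ?_⟩
    apply σ.injective
    rw [Equiv.Perm.inv_def, Equiv.apply_symm_apply, hσ, ← Cfsg.NearField.right_distrib, mul_assoc,
      hc', mul_one, neg_add_cancel_right]

theorem exists_to_zero_one {F : Type*} [Cfsg.NearField F] {x y : F} (h : x ≠ y) :
    ∃ g : affGroup F, g • x = 0 ∧ g • y = 1 := by
  have hne : y + -x ≠ 0 := by
    intro h0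
    apply h
    rw [add_neg_eq_zero] at h0
    exact h0.symm
  obtain ⟨c, hc, hc'⟩ := Cfsg.NearField.exists_inv _ hne
  refine ⟨⟨aff c (y + -x) ((-x) * c) hc' hc, c, (-x) * c, nf_inv_ne_zero hc, fun _ => rfl⟩, ?_, ?_⟩
  · change x * c + (-x) * c = 0
    rw [← Cfsg.NearField.right_distrib, add_neg_cancel, nf_zero_mul]
  · change y * c + (-x) * c = 1
    rw [← Cfsg.NearField.right_distrib, hc]

/-- The affine maps `x ↦ x * a + b`, `a ≠ 0`, of a near-field form a sharply doubly transitive permutation group. -/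
theorem result {F : Type*} [Cfsg.NearField F] : ∃ H : Subgroup (Equiv.Perm F), (∀ σ : Equiv.Perm F, σ ∈ H ↔ ∃ a b : F, a ≠ 0 ∧ ∀ x : F, σ x = x * a + b) ∧ MulAction.IsMultiplyPretransitive H F 2 ∧ ∀ x : Fin 2 ↪ F, MulAction.stabilizer H x = ⊥ := by
  refine ⟨affGroup F, fun σ => Iff.rfl, ?_, ?_⟩
  · rw [MulAction.is_two_pretransitive_iff]
    intro a b c d hab hcd
    obtain ⟨g, hg, hg'⟩ := exists_to_zero_one hab
    obtain ⟨k, hk, hk'⟩ := exists_to_zero_one hcd
    refine ⟨k⁻¹ * g, ?_, ?_⟩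
    · rw [mul_smul, hg, ← hk, inv_smul_smul]
    · rw [mul_smul, hg', ← hk', inv_smul_smul]
  · intro x
    rw [eq_bot_iff]
    rintro ⟨σ, a, b, ha, hσ⟩ hx
    rw [MulAction.mem_stabilizer_iff] at hx
    have h0 : σ (x 0) = x 0 := congrArg (fun f : Fin 2 ↪ F => f 0) hx
    have h1 : σ (x 1) = x 1 := congrArg (fun f : Fin 2 ↪ F => f 1) hx
    rw [hσ] at h0 h1
    have hne : x 0 + -(x 1) ≠ 0 := by
      intro h
      rw [add_neg_eq_zero] at h
      exact absurd (x.injective h) (by decide)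
    have h0' : x 0 * a = x 0 + -b := by rw [eq_add_neg_iff_add_eq, h0]
    have h1' : x 1 * a = x 1 + -b := by rw [eq_add_neg_iff_add_eq, h1]
    have h2 : (x 0 + -(x 1)) * a = x 0 + -(x 1) := by
      rw [Cfsg.NearField.right_distrib, nf_neg_mul, h0', h1', neg_add_rev, neg_neg, add_assoc,
        neg_add_cancel_left]
    obtain ⟨c, hc, hc'⟩ := Cfsg.NearField.exists_inv _ hne
    have ha1 : a = 1 := by
      rw [← one_mul a, ← hc', mul_assoc, h2]
    rw [ha1, mul_one] at h0
    have hb : b = 0 := by simpa using h0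
    rw [Subgroup.mem_bot]
    ext y
    simp [hσ, ha1, hb]

end Cfsg.Agent.S0681
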