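import Cfsg.Statements.S0682
import Cfsg.Agent.H24.NearField

set_option autoImplicit false
open Cfsg

namespace Cfsg.Agent.S0682

open Cfsg.Agent.H24

/-- A finite near-field has prime-power order and elementary abelian additive group. -/
theorem result {F : Type*} [Cfsg.NearField F] [Finite F] : ∃ p j : ℕ, p.Prime ∧ 1 ≤ j ∧ Nat.card F = p ^ j ∧ (∀ x y : F, x + y = y + x) ∧ ∀ x : F, p • x = 0 := by
  have hnt : Nontrivial F := ⟨⟨0, 1, Cfsg.NearField.zero_ne_one⟩⟩
  have h1 : 1 < Nat.card F := Finite.one_lt_card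
  obtain ⟨p, hp, hpd⟩ := Nat.exists_prime_and_dvd h1.ne'
  have : Fact p.Prime := ⟨hp⟩
  obtain ⟨x, hx⟩ := exists_prime_addOrderOf_dvd_card' (G := F) p hpd
  have hx0 : x ≠ 0 := by
    rintro rfl
    rw [addOrderOf_zero] at hx
    exact hp.one_lt.ne hx
  have hall : ∀ y : F, p • y = 0 := by
    intro y
    by_cases hy : y = 0
    · simp [hy]
    obtain ⟨a, -, rfl⟩ := nf_exists_mul_eq hx0 hy
    have := map_nsmul (nfMulRight a) p x
    change (p • x) * a = p • (x * a) at this
    rw [← this, ← hx, addOrderOf_nsmul_eq_zero, nf_zero_mul]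
  have hP : IsPGroup p (Multiplicative F) := by
    intro g
    refine ⟨1, ?_⟩
    rw [pow_one]
    exact hall g.toAdd
  obtain ⟨j, hj⟩ := IsPGroup.iff_card.mp hP
  have hj' : Nat.card F = p ^ j := hj
  refine ⟨p, j, hp, ?_, hj', ?_, hall⟩
  · rcases Nat.eq_zero_or_pos j with rfl | h
    · rw [pow_zero] at hj'; omega
    · exact h
  · have hc := hP.center_nontrivial
    obtain ⟨⟨z, hz⟩, hz1⟩ := exists_ne (1 : Subgroup.center (Multiplicative F))
    have hz0 : z.toAdd ≠ 0 := fun h => hz1 (Subtype.ext h)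
    have hzc : ∀ w : F, z.toAdd + w = w + z.toAdd := fun w =>
      (congrArg Multiplicative.toAdd (Subgroup.mem_center_iff.mp hz (Multiplicative.ofAdd w))).symm
    intro y w
    by_cases hy : y = 0
    · simp [hy]
    obtain ⟨a, ha, rfl⟩ := nf_exists_mul_eq hz0 hy
    obtain ⟨c, hc, hc'⟩ := Cfsg.NearField.exists_inv a ha
    have hw : w = (w * c) * a := by rw [mul_assoc, hc', mul_one]
    rw [hw, ← Cfsg.NearField.right_distrib, ← Cfsg.NearField.right_distrib, hzc]

end Cfsg.Agent.S0682
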