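import Cfsg.Statements.S0683
import Cfsg.Agent.H24.Sharp2

set_option autoImplicit false
open Cfsg

namespace Cfsg.Agent.S0683

open Cfsg.Agent.H24

theorem main {G : Type*} [Group G] {α : Type*} [MulAction G α] (K : Subgroup G) [K.Normal]
    (hcomm : ∀ x ∈ K, ∀ y ∈ K, x * y = y * x) (o e : α) (hoe : o ≠ e) (τ : α → G) (hτK : ∀ b, τ b ∈ K) (hτ : ∀ b, τ b • o = b)
    (hτu : ∀ g ∈ K, τ (g • o) = g) (μ : α → G) (hμo : ∀ a, μ a • o = o)
    (hμ : ∀ a, a ≠ o → μ a • e = a) (hμu : ∀ g : G, g • o = o → μ (g • e) = g) :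
    ∃ _ : Cfsg.NearField α, ∀ g : α → α, (∃ h : G, ∀ x, g x = h • x) ↔
      ∃ a b : α, a ≠ 0 ∧ ∀ x : α, g x = x * a + b := by
  classical
  have hN : K.Normal := inferInstance
  have hτo : τ o = 1 := by simpa using hτu 1 K.one_mem
  have hμe : μ e = 1 := by simpa using hμu 1 (one_smul _ _)
  have hne : ∀ (g : G) (a : α), g • o = o → a ≠ o → g • a ≠ o := by
    intro g a hg ha h
    exact ha (smul_left_cancel g (h.trans hg.symm))
  have hadd : ∀ a b, τ (τ a • b) = τ a * τ b := by
    intro a b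
    rw [← hτu (τ a * τ b) (K.mul_mem (hτK a) (hτK b)), mul_smul, hτ]
  have hmul : ∀ a b, a ≠ o → μ (μ b • a) = μ b * μ a := by
    intro a b ha
    rw [← hμu (μ b * μ a) (by rw [mul_smul, hμo, hμo]), mul_smul, hμ a ha]
  letI : Add α := ⟨fun a b => τ a • b⟩
  letI : Zero α := ⟨o⟩
  letI : Neg α := ⟨fun a => (τ a)⁻¹ • o⟩
  letI : Mul α := ⟨fun a b => if b = o then o else μ b • a⟩
  letI : One α := ⟨e⟩
  have add_def : ∀ a b : α, a + b = τ a • b := fun _ _ => rfl
  have mul_def : ∀ a b : α, a * b = if b = o then o else μ b • a := fun _ _ => rfl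
  letI AG : AddGroup α := AddGroup.ofLeftAxioms
    (fun a b c => by rw [add_def, add_def, add_def, add_def, hadd, mul_smul])
    (fun a => by rw [add_def]; change τ o • a = a; rw [hτo, one_smul])
    (fun a => by
      rw [add_def]
      change τ ((τ a)⁻¹ • o) • a = o
      rw [hτu _ (K.inv_mem (hτK a)), inv_smul_eq_iff, hτ])
  letI M : Monoid α :=
    { mul_assoc := fun a b c => by
        simp only [mul_def]
        by_cases hc : c = o
        · simp [hc]
        by_cases hb : b = o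
        · simp [hb, hμo]
        simp only [hb, hc, if_false, hne _ b (hμo c) hb, hmul b c hb, mul_smul]
      one_mul := fun a => by
        rw [mul_def]
        split_ifs with h
        · exact h.symm
        · exact hμ a h
      mul_one := fun a => by
        rw [mul_def]
        change (if e = o then o else μ e • a) = a
        rw [if_neg hoe.symm, hμe, one_smul] }
  have hdist : ∀ (g : G) (a b : α), g • o = o → g • τ a • b = τ (g • a) • g • b := by
    intro g a b hg
    have h1 := hτu (g * τ a * g⁻¹) (hN.conj_mem _ (hτK a) g)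
    rw [mul_smul, mul_smul, inv_smul_eq_iff.mpr hg.symm, hτ] at h1
    rw [h1, mul_smul, mul_smul, inv_smul_smul]
  have hac : ∀ a b : α, τ a • b = τ b • a := by
    intro a b
    conv_lhs => rw [← hτ b, ← mul_smul, hcomm _ (hτK a) _ (hτK b), mul_smul, hτ]
  refine ⟨{ AG, M with
    right_distrib := fun a b c => ?_
    mul_zero := fun a => ?_
    zero_ne_one := hoe
    exists_inv := fun a ha => ?_ }, fun g => ⟨?_, ?_⟩⟩
  · change (if c = o then o else μ c • τ a • b) =
      τ (if c = o then o else μ c • a) • (if c = o then o else μ c • b)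
    split_ifs with h
    · rw [hτ]
    · exact hdist _ _ _ (hμo c)
  · exact if_pos rfl
  · have ha' : a ≠ o := ha
    have h1 : (μ a)⁻¹ • o = o := by rw [inv_smul_eq_iff, hμo]
    refine ⟨(μ a)⁻¹ • e, ?_, ?_⟩
    · change (if (μ a)⁻¹ • e = o then o else μ ((μ a)⁻¹ • e) • a) = e
      rw [if_neg (hne _ e h1 hoe.symm), hμu _ h1, inv_smul_eq_iff, hμ a ha']
    · change (if a = o then o else μ a • (μ a)⁻¹ • e) = e
      rw [if_neg ha', smul_inv_smul]
  · rintro ⟨h, hg⟩
    have h1 : ((τ (h • o))⁻¹ * h) • o = o := by rw [mul_smul, inv_smul_eq_iff, hτ]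
    have h2 := hne _ e h1 hoe.symm
    refine ⟨((τ (h • o))⁻¹ * h) • e, h • o, h2, fun x => ?_⟩
    change g x = τ (if ((τ (h • o))⁻¹ * h) • e = o then o else
      μ (((τ (h • o))⁻¹ * h) • e) • x) • h • o
    rw [if_neg h2, hμu _ h1, hac, mul_smul, smul_inv_smul, hg]
  · rintro ⟨a, b, ha, hg⟩
    have ha' : a ≠ o := ha
    refine ⟨τ b * μ a, fun x => ?_⟩
    rw [hg]
    change τ (if a = o then o else μ a • x) • b = _
    rw [if_neg ha', hac, mul_smul]

/-- A finite sharply doubly transitive permutation group is the affine group of a near-field: the permuted set carries a near-field structure for which the group consists exactly of the maps `x ↦ x * a + b` with `a ≠ 0`. -/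
theorem result {α : Type*} [Fintype α] [DecidableEq α] (H : Subgroup (Equiv.Perm α)) [MulAction.IsMultiplyPretransitive H α 2] (hsharp : ∀ x : Fin 2 ↪ α, MulAction.stabilizer H x = ⊥) (h2 : 2 ≤ Fintype.card α) : ∃ _ : Cfsg.NearField α, ∀ σ : Equiv.Perm α, σ ∈ H ↔ ∃ a b : α, a ≠ 0 ∧ ∀ x : α, σ x = x * a + b := by
  obtain ⟨K, hK, hc, hN, hcomm, -⟩ := exists_kernel_of_sharp_two hsharp h2
  obtain ⟨h3, h4⟩ := isPretransitive_of_card_eq K (fun g hg => (hK g).mp hg) hc
  obtain ⟨o, e, hoe⟩ := Fintype.exists_pair_of_one_lt_card (α := α) (by omega)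
  have h5 : ∀ b : α, ∃ g : H, g ∈ K ∧ g • o = b := by
    intro b
    obtain ⟨g, hg⟩ := MulAction.exists_smul_eq K o b
    exact ⟨g, g.2, hg⟩
  choose τ hτK hτ using h5
  have h6 : ∀ a : α, ∃ g : H, g • o = o ∧ (a ≠ o → g • e = a) := by
    intro a
    by_cases ha : a = o
    · exact ⟨1, one_smul _ _, fun h => absurd ha h⟩
    obtain ⟨g, hg, hg'⟩ := MulAction.is_two_pretransitive_iff.mp
      (inferInstance : MulAction.IsMultiplyPretransitive H α 2) hoe (Ne.symm ha)
    exact ⟨g, hg, fun _ => hg'⟩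
  choose μ hμo hμ using h6
  obtain ⟨NF, hNF⟩ := main K hcomm o e hoe τ hτK hτ (by
    intro g hg
    have h7 : (⟨g⁻¹ * τ (g • o), K.mul_mem (K.inv_mem hg) (hτK _)⟩ : K) ∈
        MulAction.stabilizer K o := by
      change (g⁻¹ * τ (g • o)) • o = o
      rw [mul_smul, hτ, inv_smul_smul]
    rw [h3, Subgroup.mem_bot] at h7
    exact (inv_mul_eq_one.mp (congrArg Subtype.val h7)).symm) μ hμo hμ (by
    intro g hg
    have h7 : g • e ≠ o := fun h => hoe (smul_left_cancel g (hg.trans h.symm))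
    have := sharp_iff.mp hsharp (g⁻¹ * μ (g • e)) o e hoe
      (by rw [mul_smul, hμo, inv_smul_eq_iff, hg]) (by rw [mul_smul, hμ _ h7, inv_smul_smul])
    exact (inv_mul_eq_one.mp this).symm)
  refine ⟨NF, fun σ => ?_⟩
  rw [← hNF σ]
  constructor
  · intro h
    exact ⟨⟨σ, h⟩, fun x => rfl⟩
  · rintro ⟨h, hh⟩
    have : σ = h := Equiv.ext hh
    rw [this]
    exact h.2

end Cfsg.Agent.S0683
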