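import Cfsg.Statements.S0684
import Cfsg.Agent.H24.Trans9

set_option autoImplicit false
open Cfsg

namespace Cfsg.Agent.S0684

/-- Point stabiliser of a sharply doubly transitive group not of semilinear type: a maximal normal abelian subgroup `A` of a linear group `H` that is regular on non-zero vectors and has no irreducible cyclic normal subgroup is cyclic and reducible, and the order of `A` divides `p ^ k - 1` for `k` the dimension of a minimal `A`-invariant subspace. -/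
theorem result {p : ℕ} [Fact p.Prime] {V : Type*} [AddCommGroup V] [Module (ZMod p) V] [Finite V] (H : Subgroup (V ≃ₗ[ZMod p] V)) (hreg : ∀ v w : V, v ≠ 0 → w ≠ 0 → ∃! h : H, (h : V ≃ₗ[ZMod p] V) v = w) (hI : ∀ A : Subgroup H, A.Normal → IsCyclic A → ∃ W : Submodule (ZMod p) V, W ≠ ⊥ ∧ W ≠ ⊤ ∧ ∀ a ∈ A, ∀ v ∈ W, ((a : H) : V ≃ₗ[ZMod p] V) v ∈ W) (A : Subgroup H) (hAn : A.Normal) (hAc : IsMulCommutative A) (hAmax : ∀ B : Subgroup H, B.Normal → IsMulCommutative B → A ≤ B → B = A) : IsCyclic A ∧ ∃ W : Submodule (ZMod p) V, W ≠ ⊥ ∧ W ≠ ⊤ ∧ (∀ a ∈ A, ∀ v ∈ W, ((a : H) : V ≃ₗ[ZMod p] V) v ∈ W) ∧ (∀ W' : Submodule (ZMod p) V, W' ≤ W → (∀ a ∈ A, ∀ v ∈ W', ((a : H) : V ≃ₗ[ZMod p] V) v ∈ W') → W' = ⊥ ∨ W' = W) ∧ Nat.card A ∣ p ^ Module.finrank (ZMod p) W - 1 := by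
  have R := H24.reg_of hreg
  have := H24.nontriv_of hI
  have := H24.finite_lin (H := H)
  have := R.faithful
  obtain ⟨F, _, _, _, σ, h⟩ := H24.exists_FS R.ht A (H24.comm_iff.1 hAc)
  obtain ⟨W₀, h1, h2, h3⟩ := hI A hAn h.isCyclic
  have : Finite (Submodule (ZMod p) V) :=
    Finite.of_injective (fun W : Submodule (ZMod p) V => (W : Set V)) SetLike.coe_injective
  obtain ⟨W, hW, hmin⟩ := (Set.toFinite {W : Submodule (ZMod p) V | W ≠ ⊥ ∧ W ≤ W₀ ∧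
    ∀ a ∈ A, ∀ v ∈ W, ((a : H) : V ≃ₗ[ZMod p] V) v ∈ W}).exists_minimal ⟨W₀, h1, le_rfl, h3⟩
  refine ⟨h.isCyclic, W, hW.1, fun e => h2 (top_le_iff.1 (e ▸ hW.2.1)), hW.2.2, fun W' h4 h5 => ?_, ?_⟩
  · exact or_iff_not_imp_left.2 fun h6 => le_antisymm h4 (hmin ⟨h6, h4.trans hW.2.1, h5⟩ h4)
  · have h6 : Nat.card A ∣ Nat.card W - 1 := R.dvd_sub A W.toAddSubgroup hW.2.2
    rwa [Module.natCard_eq_pow_finrank (K := ZMod p) (V := W), Nat.card_zmod] at h6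

end Cfsg.Agent.S0684
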