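import Cfsg.Statements.S0688
import Cfsg.Agent.H24.Trans9

set_option autoImplicit false
open Cfsg

namespace Cfsg.Agent.S0688

/-- Degrees of the soluble exceptional sharply doubly transitive groups: if a solvable linear group over the prime field is regular on the non-zero vectors of `V` and has no irreducible cyclic normal subgroup, then `V` has 25, 49, 121 or 529 elements. -/
theorem result {p : ℕ} [Fact p.Prime] {V : Type*} [AddCommGroup V] [Module (ZMod p) V] [Finite V] (H : Subgroup (V ≃ₗ[ZMod p] V)) (hreg : ∀ v w : V, v ≠ 0 → w ≠ 0 → ∃! h : H, (h : V ≃ₗ[ZMod p] V) v = w) (hI : ∀ A : Subgroup H, A.Normal → IsCyclic A → ∃ W : Submodule (ZMod p) V, W ≠ ⊥ ∧ W ≠ ⊤ ∧ ∀ a ∈ A, ∀ v ∈ W, ((a : H) : V ≃ₗ[ZMod p] V) v ∈ W) (hsolv : Group.IsSolvable H) : Nat.card V = 25 ∨ Nat.card V = 49 ∨ Nat.card V = 121 ∨ Nat.card V = 529 := by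
  have R := H24.reg_of hreg
  have := H24.nontriv_of hI
  have := H24.finite_lin (H := H)
  have := R.faithful
  obtain ⟨A, hA⟩ := H24.exists_maxAb (G := H)
  have := hA.normal
  obtain ⟨F, _, _, _, σ, h⟩ := H24.exists_FS R.ht A hA.comm
  obtain ⟨N, -, hN⟩ := H24.exists_minNA inferInstance le_rfl
    (h.cent_nc hA R.ht (H24.rank_ne hI this h))
  obtain ⟨e⟩ := R.solv_q8 hA hN
  obtain ⟨-, -, -, q, rfl | h1, h2, -⟩ := R.q8 hA hN e
  · obtain ⟨B, h3, h4, h5⟩ := R.exists_c4 hA hN h2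
    obtain ⟨W, a1, a2, a3⟩ := hI B (Subgroup.normal_of_index_eq_two h3) h4
    rcases R.irr Nat.prime_three h2 (N := B) (by rw [h5]; decide) W.toAddSubgroup a3 with e | e
    · exact absurd (Submodule.toAddSubgroup_injective e) a1
    · exact absurd (Submodule.toAddSubgroup_injective e) a2
  · rw [h2]
    rcases h1 with rfl | rfl | rfl | rfl <;> simp

end Cfsg.Agent.S0688
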