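import Cfsg.Statements.S0691
import Cfsg.Agent.H24.Mat2

set_option autoImplicit false
open Cfsg

namespace Cfsg.Agent.S0691

open Cfsg.Agent.H24

/-- generators -/
def gens : List N4 := [(2,0,0,3),(0,4,1,0),(1,2,1,3)]

/-- words -/
def words : List (List ℕ) :=
  [[], [0], [1], [2], [0,0], [1,0], [2,0], [0,1], [2,1], [1,2], [2,2], [0,0,0], [1,0,0], [2,0,0],
  [1,2,0], [2,2,0], [2,0,1], [2,2,1], [0,1,2], [2,1,2], [2,2,0,0], [2,1,2,0], [2,2,0,1],
  [2,0,1,2]]

/-- elements -/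
def elts : List N4 :=
  [(1,0,0,1), (2,0,0,3), (0,4,1,0), (1,2,1,3), (4,0,0,4), (0,2,2,0), (2,1,2,4), (0,3,3,0),
  (2,4,3,4), (4,2,1,2), (3,3,4,1), (3,0,0,2), (0,1,4,0), (4,3,4,2), (3,1,2,1), (1,4,3,3),
  (1,3,4,3), (3,2,1,1), (3,4,3,1), (1,1,2,3), (2,2,1,4), (2,3,4,4), (4,4,3,2), (4,1,2,2)]

/-- An exceptional sharply doubly transitive group of degree 5^2: the listed matrices generate a subgroup of GL(2,5) of order 24 acting regularly on the non-zero vectors. -/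
theorem result (A : Matrix.GeneralLinearGroup (Fin 2) (ZMod 5)) (B : Matrix.GeneralLinearGroup (Fin 2) (ZMod 5)) (C : Matrix.GeneralLinearGroup (Fin 2) (ZMod 5)) (hA : (A : Matrix (Fin 2) (Fin 2) (ZMod 5)) = !![2, 0; 0, -2]) (hB : (B : Matrix (Fin 2) (Fin 2) (ZMod 5)) = !![0, -1; 1, 0]) (hC : (C : Matrix (Fin 2) (Fin 2) (ZMod 5)) = !![1, 2; 1, -2]) : Nat.card (Subgroup.closure ({A, B, C} : Set (Matrix.GeneralLinearGroup (Fin 2) (ZMod 5)))) = 24 ∧ ∀ v w : Fin 2 → ZMod 5, v ≠ 0 → w ≠ 0 → ∃! h : Subgroup.closure ({A, B, C} : Set (Matrix.GeneralLinearGroup (Fin 2) (ZMod 5))), Matrix.mulVec ((h : Matrix.GeneralLinearGroup (Fin 2) (ZMod 5)) : Matrix (Fin 2) (Fin 2) (ZMod 5)) v = w := by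
  have : Fact (Nat.Prime 5) := ⟨by norm_num⟩
  have hA' : (A : Matrix (Fin 2) (Fin 2) (ZMod 5)) = toMat 5 (2, 0, 0, 3) := by
    rw [hA]; decide
  have hB' : (B : Matrix (Fin 2) (Fin 2) (ZMod 5)) = toMat 5 (0, 4, 1, 0) := by
    rw [hB]; decide
  have hC' : (C : Matrix (Fin 2) (Fin 2) (ZMod 5)) = toMat 5 (1, 2, 1, 3) := by
    rw [hC]; decide
  obtain ⟨h1, h2⟩ := mem_closure_iff_list gens ({A, B, C} : Set (GL (Fin 2) (ZMod 5)))
    (by
      rintro g (rfl | rfl | rfl)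
      · exact ⟨_, by simp [gens], hA'⟩
      · exact ⟨_, by simp [gens], hB'⟩
      · exact ⟨_, by simp [gens], hC'⟩)
    (by
      intro x hx
      simp only [gens, List.mem_cons, List.not_mem_nil, or_false] at hx
      rcases hx with rfl | rfl | rfl
      · exact ⟨A, by simp, hA'⟩
      · exact ⟨B, by simp, hB'⟩
      · exact ⟨C, by simp, hC'⟩)
    words elts (by decide +kernel) (by decide +kernel) (by decide +kernel)
  have hc := card_eq_of_list _ elts h1 h2 (by decide +kernel) (by decide +kernel)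
  refine ⟨hc, fun v w hv hw => ?_⟩
  exact regular_of_card _ (by rw [hc]; decide +kernel) (fpf_of_list _ elts h1 (by decide +kernel))
    v w hv hw

end Cfsg.Agent.S0691
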