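import Mathlib
import Cfsg.Statements.S0694

set_option autoImplicit false
open Cfsg

namespace Cfsg.Agent.S0694

/-- The geometric sum `1 + q + ... + q^(i-1)`. -/
def S (q : ℤ) (i : ℕ) : ℤ := ∑ j ∈ Finset.range i, q ^ j

theorem S_mul (q : ℤ) (i : ℕ) : S q i * (q - 1) = q ^ i - 1 := geom_sum_mul q i

theorem S_succ (q : ℤ) (i : ℕ) : S q (i + 1) = q * S q i + 1 := geom_sum_succ

theorem S_add (q : ℤ) (i j : ℕ) : S q (i + j) = S q i + q ^ i * S q j := by
  unfold S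
  rw [Finset.sum_range_add, Finset.mul_sum]
  simp [pow_add]

theorem modEq_iff {q n : ℕ} (hq : 2 ≤ q) (i : ℕ) :
    q ^ i ≡ 1 [MOD n * (q - 1)] ↔ (n : ℤ) ∣ S q i := by
  rw [Nat.ModEq.comm, Nat.modEq_iff_dvd]
  push_cast [Nat.cast_sub (show 1 ≤ q by omega)]
  rw [← S_mul]
  have : (q : ℤ) - 1 ≠ 0 := by omega
  exact mul_dvd_mul_iff_right this

theorem emult_S {q : ℤ} (hq : q - 1 ≠ 0) {r : ℕ} (hr : r.Prime) (hrq : (r : ℤ) ∣ q - 1)
    (h2 : r = 2 → 4 ∣ q - 1) (i : ℕ) : emultiplicity (r : ℤ) (S q i) = emultiplicity r i := by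
  have hrp : Prime (r : ℤ) := Nat.prime_iff_prime_int.mp hr
  have hnd : ¬ (r : ℤ) ∣ q := by
    intro h
    have : (r : ℤ) ∣ 1 := by
      have := dvd_sub h hrq
      simpa using this
    exact hrp.not_dvd_one this
  have h1 : emultiplicity (r : ℤ) (q ^ i - 1) =
      emultiplicity (r : ℤ) (q - 1) + emultiplicity r i := by
    rcases hr.eq_two_or_odd' with rfl | hodd
    · have := Int.two_pow_sub_pow' (x := q) (y := 1) i (h2 rfl) hnd
      rw [one_pow] at this
      rw [← Int.natCast_emultiplicity]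
      exact this
    · have := Int.emultiplicity_pow_sub_pow hr hodd (x := q) (y := 1) hrq hnd i
      rwa [one_pow] at this
  rw [← S_mul, emultiplicity_mul hrp, add_comm] at h1
  have hfin : emultiplicity (r : ℤ) (q - 1) ≠ ⊤ := by
    rw [← finiteMultiplicity_iff_emultiplicity_ne_top]
    exact FiniteMultiplicity.of_prime_left hrp hq
  exact WithTop.add_left_cancel hfin h1

theorem prime_dvd_S {q : ℤ} {r : ℤ} (hrq : r ∣ q - 1) (i : ℕ) : r ∣ S q i ↔ r ∣ i := by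
  have := dvd_geom_sum₂_iff_of_dvd_sub (n := i) hrq
  simpa [S] using this

theorem dvd_S_iff {q : ℤ} (hq : q - 1 ≠ 0) {n : ℕ}
    (h1 : ∀ r : ℕ, r.Prime → r ∣ n → (r : ℤ) ∣ q - 1) (h4 : 4 ∣ n → 4 ∣ q - 1) (i : ℕ) :
    (n : ℤ) ∣ S q i ↔ n ∣ i := by
  have key : ∀ r k : ℕ, r.Prime → r ^ k ∣ n → (((r : ℤ)) ^ k ∣ S q i ↔ r ^ k ∣ i) := by
    intro r k hr hk
    rcases Nat.lt_or_ge k 2 with hk2 | hk2
    · interval_cases k
      · simp
      · rw [pow_one] at hk
        rw [pow_one, pow_one, prime_dvd_S (h1 r hr hk), Int.natCast_dvd_natCast]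
    · have hrn : r ∣ n := (dvd_pow_self r (by omega)).trans hk
      rw [pow_dvd_iff_le_emultiplicity, pow_dvd_iff_le_emultiplicity,
        emult_S hq hr (h1 r hr hrn)]
      rintro rfl
      exact h4 ((pow_dvd_pow 2 hk2).trans hk)
  rw [Int.natCast_dvd, Nat.dvd_iff_prime_pow_dvd_dvd, Nat.dvd_iff_prime_pow_dvd_dvd]
  refine forall_congr' fun r => forall_congr' fun k => forall_congr' fun hr =>
    forall_congr' fun hk => ?_
  rw [← key r k hr hk, ← Int.natCast_dvd]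
  push_cast
  rfl

theorem surj {q : ℤ} {n : ℕ} (hn : 1 < n) (h1 : (n : ℤ) ∣ S q n)
    (h2 : ∀ i : ℕ, 0 < i → i < n → ¬ (n : ℤ) ∣ S q i) :
    IsCoprime (n : ℤ) q ∧ ∀ x : ℤ, ∃ i : ℕ, (n : ℤ) ∣ S q i - x := by
  have hcop : IsCoprime (n : ℤ) q := by
    obtain ⟨m, rfl⟩ : ∃ m, n = m + 1 := ⟨n - 1, by omega⟩
    rw [S_succ] at h1
    obtain ⟨c, hc⟩ := h1
    exact ⟨c, -S q m, by linear_combination -hc⟩
  refine ⟨hcop, fun x => ?_⟩
  have : NeZero n := ⟨by omega⟩
  let f : Fin n → ZMod n := fun i => (S q i : ZMod n)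
  have aux : ∀ i j : Fin n, i < j → f i ≠ f j := by
    intro i j hij h
    have h' : (n : ℤ) ∣ S q j - S q i := (ZMod.intCast_eq_intCast_iff_dvd_sub _ _ _).mp h
    obtain ⟨d, hd⟩ : ∃ d, (j : ℕ) = i + d := ⟨j - i, by have : (i : ℕ) < j := hij; omega⟩
    rw [hd, S_add, add_sub_cancel_left] at h'
    have : (i : ℕ) < j := hij
    have := j.2
    exact h2 d (by omega) (by omega) ((hcop.pow_right).dvd_of_dvd_mul_left h')
  have hinj : Function.Injective f := by
    intro i j h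
    rcases lt_trichotomy i j with hij | hij | hij
    · exact absurd h (aux i j hij)
    · exact hij
    · exact absurd h.symm (aux j i hij)
  have hbij : Function.Bijective f :=
    (Fintype.bijective_iff_injective_and_card f).mpr ⟨hinj, by simp⟩
  obtain ⟨i, hi⟩ := hbij.2 (x : ZMod n)
  exact ⟨i, (ZMod.intCast_eq_intCast_iff_dvd_sub _ _ _).mp hi.symm⟩

theorem four_dvd {q : ℤ} (hq : q % 4 = 3) (i : ℕ) : S q i % 4 = 0 ∨ S q i % 4 = 1 := by
  induction i with
  | zero => left; simp [S]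
  | succ i ih =>
    rw [S_succ]
    rcases ih with h | h
    · right
      rw [Int.add_emod, Int.mul_emod, h]; simp
    · left
      rw [Int.add_emod, Int.mul_emod, h, hq]; simp

/-- The Dickson pair condition: for a prime power `q` and `n > 1`, (every prime factor of `n` divides `q - 1`, and `4 ∣ n → 4 ∣ q - 1`) holds exactly when `q ^ n ≡ 1` modulo `n * (q - 1)` but `q ^ i` is not, for `0 < i < n`. -/
theorem result (q n : ℕ) (hq : IsPrimePow q) (hn : 1 < n) : ((∀ r : ℕ, r.Prime → r ∣ n → r ∣ q - 1) ∧ (4 ∣ n → 4 ∣ q - 1)) ↔ (q ^ n ≡ 1 [MOD n * (q - 1)] ∧ ∀ i : ℕ, 0 < i → i < n → ¬ q ^ i ≡ 1 [MOD n * (q - 1)]) := by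
  have hq2 : 2 ≤ q := hq.two_le
  have hcast : ((q - 1 : ℕ) : ℤ) = (q : ℤ) - 1 := by push_cast [Nat.cast_sub (show 1 ≤ q by omega)]; rfl
  have hq1 : (q : ℤ) - 1 ≠ 0 := by omega
  simp only [modEq_iff hq2]
  constructor
  · rintro ⟨h1, h4⟩
    have key := dvd_S_iff hq1 (n := n) (fun r hr hrn => by
      rw [← hcast]; exact Int.natCast_dvd_natCast.mpr (h1 r hr hrn)) (fun h => by
      rw [← hcast]; exact Int.natCast_dvd_natCast.mpr (h4 h))
    refine ⟨(key n).mpr dvd_rfl, fun i hi hin h => ?_⟩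
    exact absurd (Nat.le_of_dvd hi ((key i).mp h)) (by omega)
  · rintro ⟨h1, h2⟩
    obtain ⟨hcop, hsurj⟩ := surj hn h1 h2
    have hA : ∀ r : ℕ, r.Prime → r ∣ n → r ∣ q - 1 := by
      intro r hr hrn
      by_contra hnd
      have hrp : Prime (r : ℤ) := Nat.prime_iff_prime_int.mp hr
      have hc : IsCoprime (r : ℤ) ((q : ℤ) - 1) := by
        rw [← hcast, Nat.isCoprime_iff_coprime]
        exact (Nat.Prime.coprime_iff_not_dvd hr).mpr hnd
      obtain ⟨a, b, hab⟩ := hc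
      obtain ⟨i, hi⟩ := hsurj (-b)
      have hrn' : (r : ℤ) ∣ n := Int.natCast_dvd_natCast.mpr hrn
      have h3 : (r : ℤ) ∣ (q : ℤ) ^ i := by
        have h4 : (q : ℤ) ^ i = (S q i - -b) * (q - 1) + a * r := by
          linear_combination -(S_mul q i) - hab
        rw [h4]
        exact dvd_add ((hrn'.trans hi).mul_right _) (dvd_mul_left _ _)
      have h5 : IsCoprime (r : ℤ) ((q : ℤ) ^ i) := (hcop.of_isCoprime_of_dvd_left hrn').pow_right
      exact hrp.not_unit (h5.isUnit_of_dvd' dvd_rfl h3)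
    refine ⟨hA, fun h4 => ?_⟩
    have h2' := hA 2 Nat.prime_two (Dvd.dvd.trans (by norm_num) h4)
    by_contra hn4
    have hq4 : (q : ℤ) % 4 = 3 := by omega
    obtain ⟨i, hi⟩ := hsurj 2
    have h4' : (4 : ℤ) ∣ S q i - 2 := (Int.natCast_dvd_natCast.mpr h4).trans hi
    have := four_dvd hq4 i
    omega

end Cfsg.Agent.S0694
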