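import Cfsg.Statements.S0702
import Mathlib.Algebra.Group.Subgroup.Finite
import Mathlib.GroupTheory.QuotientGroup.Basic
import Mathlib.GroupTheory.GroupAction.Basic

set_option autoImplicit false
open Cfsg

namespace Cfsg.Agent.S0702

section
variable {α : Type*} (G : Subgroup (Equiv.Perm α)) [MulAction.IsPretransitive G α] (a : α)

/-- a choice of an element carrying the base point to `x` -/
noncomputable def u (x : α) : G := (MulAction.exists_smul_eq G a x).choose

theorem u_spec (x : α) : u G a x • a = x := (MulAction.exists_smul_eq G a x).choose_spec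

/-- the function attached to an element of the normaliser -/
noncomputable def cfun
    (n : Subgroup.normalizer ((MulAction.stabilizer G a : Subgroup G) : Set G)) (x : α) : α :=
  u G a x • ((n : G)⁻¹ • a)

theorem cfun_smul (n : Subgroup.normalizer ((MulAction.stabilizer G a : Subgroup G) : Set G))
    (g : G) : cfun G a n (g • a) = g • ((n : G)⁻¹ • a) := by
  have h1 : g⁻¹ * u G a (g • a) ∈ MulAction.stabilizer G a := by
    rw [MulAction.mem_stabilizer_iff, mul_smul, u_spec, inv_smul_smul]
  have h2 := (Subgroup.mem_normalizer_iff.mp n.2 _).mp h1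
  rw [MulAction.mem_stabilizer_iff, mul_smul, mul_smul, ← eq_inv_smul_iff, mul_smul,
    inv_smul_eq_iff] at h2
  exact h2

/-- the permutation attached to an element of the normaliser -/
noncomputable def cperm
    (n : Subgroup.normalizer ((MulAction.stabilizer G a : Subgroup G) : Set G)) :
    Equiv.Perm α where
  toFun := cfun G a n
  invFun := cfun G a n⁻¹
  left_inv x := by
    obtain ⟨g, rfl⟩ := MulAction.exists_smul_eq G a x
    rw [cfun_smul, ← mul_smul, cfun_smul]
    simp [mul_smul]
  right_inv x := by
    obtain ⟨g, rfl⟩ := MulAction.exists_smul_eq G a x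
    rw [cfun_smul, ← mul_smul, cfun_smul]
    simp [mul_smul]

theorem cperm_apply (n : Subgroup.normalizer ((MulAction.stabilizer G a : Subgroup G) : Set G))
    (g : G) : cperm G a n (g • a) = g • ((n : G)⁻¹ • a) := cfun_smul G a n g

theorem cperm_mem (n : Subgroup.normalizer ((MulAction.stabilizer G a : Subgroup G) : Set G)) :
    cperm G a n ∈ Subgroup.centralizer (G : Set (Equiv.Perm α)) := by
  intro h hh
  ext x
  obtain ⟨g, rfl⟩ := MulAction.exists_smul_eq G a x
  change (⟨h, hh⟩ : G) • cperm G a n (g • a) = cperm G a n ((⟨h, hh⟩ : G) • g • a)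
  rw [← mul_smul, cperm_apply, cperm_apply, mul_smul]

/-- the homomorphism from the normaliser to the centraliser -/
noncomputable def chom :
    Subgroup.normalizer ((MulAction.stabilizer G a : Subgroup G) : Set G) →*
      Subgroup.centralizer (G : Set (Equiv.Perm α)) :=
  MonoidHom.mk' (fun n => ⟨cperm G a n, cperm_mem G a n⟩) (by
    intro m n
    apply Subtype.ext
    ext x
    obtain ⟨g, rfl⟩ := MulAction.exists_smul_eq G a x
    change cperm G a (m * n) (g • a) = cperm G a m (cperm G a n (g • a))
    rw [cperm_apply, cperm_apply, ← mul_smul g, ← mul_smul g, cperm_apply]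
    simp [mul_smul])

theorem chom_ker : (chom G a).ker = (MulAction.stabilizer G a).subgroupOf
    (Subgroup.normalizer ((MulAction.stabilizer G a : Subgroup G) : Set G)) := by
  ext n
  rw [MonoidHom.mem_ker, Subgroup.mem_subgroupOf, MulAction.mem_stabilizer_iff]
  constructor
  · intro h
    have h1 : cperm G a n = 1 := congrArg Subtype.val h
    have h2 := cperm_apply G a n 1
    rw [h1, one_smul, one_smul, Equiv.Perm.one_apply, eq_inv_smul_iff] at h2
    exact h2
  · intro h
    apply Subtype.ext
    ext x
    obtain ⟨g, rfl⟩ := MulAction.exists_smul_eq G a x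
    change cperm G a n (g • a) = g • a
    rw [cperm_apply, inv_smul_eq_iff.mpr h.symm]

theorem mem_norm [Finite α] (g : G)
    (hg : g⁻¹ • a ∈ MulAction.fixedPoints (MulAction.stabilizer G a) α) :
    g ∈ Subgroup.normalizer ((MulAction.stabilizer G a : Subgroup G) : Set G) := by
  apply Subgroup.mem_normalizer_fintype
  intro h hh
  have := hg ⟨h, hh⟩
  change h • g⁻¹ • a = g⁻¹ • a at this
  change (g * h * g⁻¹) • a = a
  rw [mul_smul, mul_smul, this, smul_inv_smul]

theorem apply_mem_fixed (c : Subgroup.centralizer (G : Set (Equiv.Perm α))) :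
    (c : Equiv.Perm α) a ∈ MulAction.fixedPoints (MulAction.stabilizer G a) α := by
  rintro ⟨h, hh⟩
  have h1 := congrArg (fun σ : Equiv.Perm α => σ a) (c.2 h h.2)
  have h2 : (h : Equiv.Perm α) a = a := hh
  simp only [Equiv.Perm.coe_mul, Function.comp_apply, h2] at h1
  exact h1

theorem chom_surj [Finite α] : Function.Surjective (chom G a) := by
  intro c
  obtain ⟨g, hg⟩ := MulAction.exists_smul_eq G ((c : Equiv.Perm α) a) a
  have hg' : g⁻¹ • a = (c : Equiv.Perm α) a := inv_smul_eq_iff.mpr hg.symm
  refine ⟨⟨g, mem_norm G a g (hg' ▸ apply_mem_fixed G a c)⟩, ?_⟩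
  apply Subtype.ext
  ext x
  obtain ⟨h, rfl⟩ := MulAction.exists_smul_eq G a x
  change cperm G a _ (h • a) = _
  rw [cperm_apply]
  change h • g⁻¹ • a = _
  rw [hg']
  exact congrArg (fun σ : Equiv.Perm α => σ a) (c.2 h h.2)

end

/-- For a transitive permutation group `G` on a finite set, the centraliser of `G` in the symmetric group is isomorphic to `N_G(G_ω)/G_ω`, and its orbit of `ω` is the set of fixed points of `G_ω`. -/
theorem result {α : Type*} [Finite α] (G : Subgroup (Equiv.Perm α)) [MulAction.IsPretransitive G α] (a : α) : Nonempty (Subgroup.centralizer (G : Set (Equiv.Perm α)) ≃* Subgroup.normalizer ((MulAction.stabilizer G a : Subgroup G) : Set G) ⧸ (MulAction.stabilizer G a).subgroupOf (Subgroup.normalizer ((MulAction.stabilizer G a : Subgroup G) : Set G))) ∧ MulAction.orbit (Subgroup.centralizer (G : Set (Equiv.Perm α))) a = MulAction.fixedPoints (MulAction.stabilizer G a) α := by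
  refine ⟨⟨((QuotientGroup.quotientKerEquivOfSurjective _ (chom_surj G a)).symm).trans
    (QuotientGroup.quotientMulEquivOfEq (chom_ker G a))⟩, ?_⟩
  ext b
  constructor
  · rintro ⟨c, rfl⟩
    exact apply_mem_fixed G a c
  · intro hb
    obtain ⟨g, hg⟩ := MulAction.exists_smul_eq G b a
    have hg' : g⁻¹ • a = b := inv_smul_eq_iff.mpr hg.symm
    refine ⟨chom G a ⟨g, mem_norm G a g (hg' ▸ hb)⟩, ?_⟩
    have := cperm_apply G a ⟨g, mem_norm G a g (hg' ▸ hb)⟩ 1
    rw [one_smul, one_smul] at this
    exact this.trans hg'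

end Cfsg.Agent.S0702
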