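import Cfsg.Statements.S0709
import Mathlib.Tactic

set_option autoImplicit false
open Cfsg

namespace Cfsg.Agent.S0709

/-- The inductive step for the double coset decomposition. -/
theorem double_coset_step {Γ : Type*} [Group Γ] {A B : Subgroup Γ} (hBA : B ≤ A) {σ τ : Γ}
    (hτ : τ ∈ A) (hD : ∀ g ∈ A, g ∈ B ∨ ∃ a ∈ B, ∃ b ∈ B, g = a * τ * b)
    (hσ : σ ^ 2 ∈ B) (hbr : (τ * σ) ^ 3 ∈ A) (hn : ∀ b ∈ B, σ * b * σ⁻¹ ∈ B)
    (S : Set Γ) (hS : ∀ x ∈ S, x ∈ A ∨ x = σ) :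
    ∀ g ∈ Subgroup.closure S, g ∈ A ∨ ∃ a ∈ A, ∃ b ∈ A, g = a * σ * b := by
  have hA : ∀ x ∈ A, ∀ y, (y ∈ A ∨ ∃ a ∈ A, ∃ b ∈ A, y = a * σ * b) →
      (x * y ∈ A ∨ ∃ a ∈ A, ∃ b ∈ A, x * y = a * σ * b) := by
    rintro x hx y (hy | ⟨a, ha, b, hb, rfl⟩)
    · exact Or.inl (A.mul_mem hx hy)
    · exact Or.inr ⟨x * a, A.mul_mem hx ha, b, hb, by group⟩
  have hn' : ∀ b ∈ B, σ⁻¹ * b * σ ∈ B := by
    intro b hb
    have := B.mul_mem (B.mul_mem (B.inv_mem hσ) (hn b hb)) hσ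
    convert this using 1
    group
  have hσ' : ∀ y, (y ∈ A ∨ ∃ a ∈ A, ∃ b ∈ A, y = a * σ * b) →
      (σ * y ∈ A ∨ ∃ a ∈ A, ∃ b ∈ A, σ * y = a * σ * b) := by
    rintro y (hy | ⟨a, ha, b, hb, rfl⟩)
    · exact Or.inr ⟨1, A.one_mem, y, hy, by group⟩
    · rcases hD a ha with h | ⟨c, hc, d, hd, rfl⟩
      · left
        have := A.mul_mem (A.mul_mem (hBA (hn a h)) (hBA hσ)) hb
        convert this using 1
        group
      · right
        refine ⟨(σ * c * σ⁻¹) * τ⁻¹ * (τ * σ) ^ 3 * (σ ^ 2)⁻¹,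
          A.mul_mem (A.mul_mem (A.mul_mem (hBA (hn c hc)) (A.inv_mem hτ)) hbr)
            (A.inv_mem (hBA hσ)), τ⁻¹ * (σ⁻¹ * d * σ) * b,
          A.mul_mem (A.mul_mem (A.inv_mem hτ) (hBA (hn' d hd))) hb, ?_⟩
        rw [pow_succ, pow_succ, pow_one]
        group
  intro g hg
  induction hg using Subgroup.closure_induction_left with
  | one => exact Or.inl A.one_mem
  | mul_left x hx y _ ih =>
    rcases hS x hx with h | rfl
    · exact hA x h y ih
    · exact hσ' y ih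
  | inv_mul_cancel x hx y _ ih =>
    rcases hS x hx with h | rfl
    · exact hA _ (A.inv_mem h) y ih
    · have := hA _ (A.inv_mem (hBA hσ)) _ (hσ' y ih)
      have e : (x ^ 2)⁻¹ * (x * y) = x⁻¹ * y := by group
      rwa [e] at this

/-- Witt's Lemma for constructing transitive extensions. Points `q 1, …, q t` (`t ≥ 2`) of a finite set are given; `G` fixes `q i` for `i ≥ 3` and is doubly transitive on the remaining points; `s 1 ∈ G` swaps `q 1, q 2`; for `2 ≤ i ≤ t-1`, `s i` swaps `q i, q (i+1)` and fixes the other `q j`; with `H` the stabiliser of `q 1, q 2` in `G`: `s i ^ 2 ∈ H`, `(s i * s (i+1)) ^ 3 ∈ H`, `(s i * s j) ^ 2 ∈ H` for `j ≥ i + 2`, and `s i` (`i ≥ 2`) normalises the stabiliser of `q 2` in `G`. Then `G` and the `s i` generate a `t`-transitive group whose pointwise stabiliser of the `q`'s is `H`. -/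
theorem result {α : Type*} [Fintype α] [DecidableEq α] (t : ℕ) (ht : 2 ≤ t) (q : ℕ → α) (hq : ∀ i j : ℕ, 1 ≤ i → i ≤ t → 1 ≤ j → j ≤ t → q i = q j → i = j) (G : Subgroup (Equiv.Perm α)) (hfix : ∀ g ∈ G, ∀ i : ℕ, 3 ≤ i → i ≤ t → g (q i) = q i) (h2 : ∀ a b c d : α, (∀ i, 3 ≤ i → i ≤ t → a ≠ q i ∧ b ≠ q i ∧ c ≠ q i ∧ d ≠ q i) → a ≠ b → c ≠ d → ∃ g ∈ G, g a = c ∧ g b = d) (s : ℕ → Equiv.Perm α) (hs1 : s 1 ∈ G) (hs1q : s 1 (q 1) = q 2 ∧ s 1 (q 2) = q 1) (hsq : ∀ i : ℕ, 2 ≤ i → i + 1 ≤ t → s i (q i) = q (i + 1) ∧ s i (q (i + 1)) = q i ∧ ∀ j : ℕ, 1 ≤ j → j ≤ t → j ≠ i → j ≠ i + 1 → s i (q j) = q j) (H : Subgroup (Equiv.Perm α)) (hH : H = G ⊓ MulAction.stabilizer (Equiv.Perm α) (q 1) ⊓ MulAction.stabilizer (Equiv.Perm α) (q 2)) (hsq2 : ∀ i : ℕ, 1 ≤ i → i + 1 ≤ t → s i ^ 2 ∈ H) (hbraid : ∀ i : ℕ, 1 ≤ i → i + 2 ≤ t → (s i * s (i + 1)) ^ 3 ∈ H) (hcomm : ∀ i j : ℕ, 1 ≤ i → i + 2 ≤ j → j + 1 ≤ t → (s i * s j) ^ 2 ∈ H ∧ (s j * s i) ^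 2 ∈ H) (hnorm : ∀ i : ℕ, 2 ≤ i → i + 1 ≤ t → ∀ g ∈ G ⊓ MulAction.stabilizer (Equiv.Perm α) (q 2), s i * g * (s i)⁻¹ ∈ G ⊓ MulAction.stabilizer (Equiv.Perm α) (q 2)) : MulAction.IsMultiplyPretransitive ↥(Subgroup.closure ((G : Set (Equiv.Perm α)) ∪ {x | ∃ i : ℕ, 2 ≤ i ∧ i + 1 ≤ t ∧ x = s i})) α t ∧ Subgroup.closure ((G : Set (Equiv.Perm α)) ∪ {x | ∃ i : ℕ, 2 ≤ i ∧ i + 1 ≤ t ∧ x = s i}) ⊓ fixingSubgroup (Equiv.Perm α) {x | ∃ i : ℕ, 1 ≤ i ∧ i ≤ t ∧ x = q i} = H := by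
  set K := G ⊓ MulAction.stabilizer (Equiv.Perm α) (q 2) with hK
  have hHK : H ≤ K := by
    rw [hH]; exact fun g hg => ⟨hg.1.1, hg.2⟩
  let L : ℕ → Subgroup (Equiv.Perm α) := fun i =>
    Subgroup.closure ((K : Set (Equiv.Perm α)) ∪ {x | ∃ j : ℕ, 1 ≤ j ∧ j + 1 ≤ i ∧ x = s j})
  have hKL : ∀ i, K ≤ L i := fun i g hg => Subgroup.subset_closure (Or.inl hg)
  have hsL : ∀ i j, 1 ≤ j → j + 1 ≤ i → s j ∈ L i := fun i j h1 h2 =>
    Subgroup.subset_closure (Or.inr ⟨j, h1, h2, rfl⟩)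
  have hmono : ∀ i j, i ≤ j → L i ≤ L j := by
    intro i j hij
    apply Subgroup.closure_mono
    rintro x (hx | ⟨m, h1, h2, rfl⟩)
    · exact Or.inl hx
    · exact Or.inr ⟨m, h1, by omega, rfl⟩
  have hL1 : L 1 ≤ K := by
    apply (Subgroup.closure_le _).mpr
    rintro x (hx | ⟨m, h1, h2, rfl⟩)
    · exact hx
    · omega
  have hL2 : L 2 ≤ G := by
    apply (Subgroup.closure_le _).mpr
    rintro x (hx | ⟨m, h1, h2, rfl⟩)
    · exact hx.1
    · obtain rfl : m = 1 := by omega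
      exact hs1
  have hne : ∀ i j, 1 ≤ i → i ≤ t → 1 ≤ j → j ≤ t → i ≠ j → q i ≠ q j :=
    fun i j h1 h2 h3 h4 h5 e => h5 (hq i j h1 h2 h3 h4 e)
  have h12 : q 1 ≠ q 2 := hne 1 2 le_rfl (by omega) (by omega) ht (by omega)
  have hG : ∀ g ∈ G, g ∈ K ∨ ∃ a ∈ K, ∃ b ∈ K, g = a * s 1 * b := by
    intro g hg
    by_cases h : g (q 2) = q 2
    · exact Or.inl ⟨hg, h⟩
    right
    obtain ⟨a, ha, a1, a2⟩ := h2 (q 2) (q 1) (q 2) (g (q 2)) (fun i h3 hi =>
      ⟨hne 2 i (by omega) ht (by omega) hi (by omega),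
        hne 1 i le_rfl (by omega) (by omega) hi (by omega),
        hne 2 i (by omega) ht (by omega) hi (by omega), fun e =>
          hne 2 i (by omega) ht (by omega) hi (by omega)
            (g.injective (e.trans (hfix g hg i h3 hi).symm))⟩) h12.symm (Ne.symm h)
    refine ⟨a, ⟨ha, a1⟩, (s 1)⁻¹ * a⁻¹ * g,
      ⟨G.mul_mem (G.mul_mem (G.inv_mem hs1) (G.inv_mem ha)) hg, ?_⟩, by group⟩
    change (s 1)⁻¹ (a⁻¹ (g (q 2))) = q 2
    rw [← a2, Equiv.Perm.inv_eq_iff_eq, hs1q.2]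
    simp
  have hGL : G ≤ L 2 := by
    intro g hg
    rcases hG g hg with h | ⟨a, ha, b, hb, rfl⟩
    · exact hKL 2 h
    · exact (L 2).mul_mem ((L 2).mul_mem (hKL 2 ha) (hsL 2 1 le_rfl le_rfl)) (hKL 2 hb)
  have hD : ∀ i, 1 ≤ i → i + 1 ≤ t →
      ∀ g ∈ L (i + 1), g ∈ L i ∨ ∃ a ∈ L i, ∃ b ∈ L i, g = a * s i * b := by
    intro i hi
    induction i, hi using Nat.le_induction with
    | base =>
      intro _ g hg
      rcases hG g (hL2 hg) with h | ⟨a, ha, b, hb, e⟩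
      · exact Or.inl (hKL 1 h)
      · exact Or.inr ⟨a, hKL 1 ha, b, hKL 1 hb, e⟩
    | succ i hi ih =>
      intro hit
      apply double_coset_step (B := L i) (τ := s i) (hmono _ _ (by omega))
        (hsL _ _ hi le_rfl) (ih (by omega)) (hKL _ (hHK (hsq2 _ (by omega) hit)))
        (hKL _ (hHK (hbraid i hi hit)))
      · intro b hb
        induction hb using Subgroup.closure_induction with
        | mem x hx =>
          rcases hx with hx | ⟨m, h1, h2, rfl⟩
          · exact hKL _ (hnorm (i + 1) (by omega) hit x hx)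
          · have := (L i).mul_mem ((L i).mul_mem
              (hKL i (hHK (hcomm m (i + 1) h1 (by omega) hit).2))
              ((L i).inv_mem (hsL i m h1 h2)))
              ((L i).inv_mem (hKL i (hHK (hsq2 (i + 1) (by omega) hit))))
            convert this using 1
            rw [pow_two, pow_two]
            group
        | one => simp
        | mul x y _ _ hx hy =>
          convert (L i).mul_mem hx hy using 1
          group
        | inv x _ hx =>
          convert (L i).inv_mem hx using 1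
          group
      · rintro x (hx | ⟨m, h1, h2, rfl⟩)
        · exact Or.inl (hKL _ hx)
        · by_cases hm : m = i + 1
          · exact Or.inr (by rw [hm])
          · exact Or.inl (hsL _ m h1 (by omega))
  have hF : ∀ i j, 1 ≤ i → i < j → j ≤ t → ∀ g ∈ L i, g (q j) = q j := by
    intro i j hi hij hj
    change L i ≤ MulAction.stabilizer (Equiv.Perm α) (q j)
    apply (Subgroup.closure_le _).mpr
    rintro x (hx | ⟨m, h1, h2, rfl⟩)
    · by_cases hj2 : j = 2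
      · rw [hj2]; exact hx.2
      · exact hfix x hx.1 j (by omega) hj
    · by_cases hm : m = 1
      · rw [hm]; exact hfix _ hs1 j (by omega) hj
      · exact (hsq m (by omega) (by omega)).2.2 j (by omega) hj (by omega) (by omega)
  have hsw : ∀ i, 1 ≤ i → i + 1 ≤ t → s i (q i) = q (i + 1) ∧ s i (q (i + 1)) = q i := by
    intro i hi hit
    by_cases h1 : i = 1
    · rw [h1]; exact hs1q
    · exact ⟨(hsq i (by omega) hit).1, (hsq i (by omega) hit).2.1⟩
  have hS : ∀ i, 1 ≤ i → i ≤ t → ∀ g ∈ L i, (∀ j, 1 ≤ j → j ≤ t → g (q j) = q j) → g ∈ K := by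
    intro i hi
    induction i, hi using Nat.le_induction with
    | base => exact fun _ g hg _ => hL1 hg
    | succ i hi ih =>
      intro hit g hg hgq
      rcases hD i hi hit g hg with h | ⟨a, ha, b, hb, rfl⟩
      · exact ih (by omega) g h hgq
      · exfalso
        have h1 := hgq (i + 1) (by omega) hit
        rw [Equiv.Perm.mul_apply, Equiv.Perm.mul_apply, hF i (i + 1) hi (by omega) hit b hb,
          (hsw i hi hit).2, ← hF i (i + 1) hi (by omega) hit a ha] at h1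
        exact hne i (i + 1) hi (by omega) (by omega) hit (by omega) (a.injective h1)
  have hQ : ∀ i, 2 ≤ i → i ≤ t → ∀ y, (∀ j, i < j → j ≤ t → y ≠ q j) → ∃ g ∈ L i, g y = q i := by
    intro i hi
    induction i, hi using Nat.le_induction with
    | base =>
      intro _ y hy
      have e1 : ∀ j, 3 ≤ j → j ≤ t → q 1 ≠ q j := fun j h3 hj =>
        hne 1 j le_rfl (by omega) (by omega) hj (by omega)
      have e2 : ∀ j, 3 ≤ j → j ≤ t → q 2 ≠ q j := fun j h3 hj =>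
        hne 2 j (by omega) ht (by omega) hj (by omega)
      by_cases h : y = q 1
      · exact ⟨s 1, hGL hs1, h ▸ hs1q.1⟩
      · obtain ⟨g, hg, g1, -⟩ := h2 y (q 1) (q 2) (q 1)
          (fun j h3 hj => ⟨hy j h3 hj, e1 j h3 hj, e2 j h3 hj, e1 j h3 hj⟩) h h12.symm
        exact ⟨g, hGL hg, g1⟩
    | succ i hi ih =>
      intro hit y hy
      by_cases h : y = q (i + 1)
      · exact ⟨1, Subgroup.one_mem _, h⟩
      · obtain ⟨g, hg, g1⟩ := ih (by omega) y (fun j h1 h3 => by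
          by_cases hj : j = i + 1
          · rwa [hj]
          · exact hy j (by omega) h3)
        exact ⟨s i * g, Subgroup.mul_mem _ (hsL _ i (by omega) le_rfl) (hmono _ _ (by omega) hg),
          by rw [Equiv.Perm.mul_apply, g1, (hsw i (by omega) hit).1]⟩
  have hT : ∀ i, 2 ≤ i → i ≤ t → ∀ x : ℕ → α,
      (∀ a b, 1 ≤ a → a ≤ i → 1 ≤ b → b ≤ i → x a = x b → a = b) →
      (∀ a j, 1 ≤ a → a ≤ i → i < j → j ≤ t → x a ≠ q j) →
      ∃ g ∈ L i, ∀ a, 1 ≤ a → a ≤ i → g (x a) = q a := by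
    intro i hi
    induction i, hi using Nat.le_induction with
    | base =>
      intro _ x hx hxq
      obtain ⟨g, hg, g1, g2⟩ := h2 (x 1) (x 2) (q 1) (q 2) (fun j h3 hj =>
        ⟨hxq 1 j le_rfl (by omega) h3 hj, hxq 2 j (by omega) le_rfl h3 hj,
          hne 1 j le_rfl (by omega) (by omega) hj (by omega),
          hne 2 j (by omega) ht (by omega) hj (by omega)⟩)
        (fun e => by have := hx 1 2 le_rfl (by omega) (by omega) le_rfl e; omega) h12
      refine ⟨g, hGL hg, fun a h1 h3 => ?_⟩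
      interval_cases a
      · exact g1
      · exact g2
    | succ i hi ih =>
      intro hit x hx hxq
      obtain ⟨g, hg, g1⟩ := hQ (i + 1) (by omega) hit (x (i + 1))
        (fun j h1 h3 => hxq (i + 1) j (by omega) le_rfl h1 h3)
      obtain ⟨k, hk, k1⟩ := ih (by omega) (fun a => g (x a))
        (fun a b h1 h3 h4 h5 e => hx a b h1 (by omega) h4 (by omega) (g.injective e))
        (fun a j h1 h3 h4 h5 e => by
          by_cases hj : j = i + 1
          · rw [hj, ← g1] at e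
            have := hx a (i + 1) h1 (by omega) (by omega) le_rfl (g.injective e)
            omega
          · rw [← hF (i + 1) j (by omega) (by omega) h5 g hg] at e
            exact hxq a j h1 (by omega) (by omega) h5 (g.injective e))
      refine ⟨k * g, Subgroup.mul_mem _ (hmono _ _ (by omega) hk) hg, fun a h1 h3 => ?_⟩
      rw [Equiv.Perm.mul_apply]
      by_cases ha : a = i + 1
      · rw [ha, g1, hF i (i + 1) (by omega) (by omega) hit k hk]
      · exact k1 a h1 (by omega)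
  have hLt : Subgroup.closure ((G : Set (Equiv.Perm α)) ∪
      {x | ∃ i : ℕ, 2 ≤ i ∧ i + 1 ≤ t ∧ x = s i}) = L t := by
    apply le_antisymm
    · apply (Subgroup.closure_le _).mpr
      rintro x (hx | ⟨m, h1, h3, rfl⟩)
      · exact hmono _ _ ht (hGL hx)
      · exact hsL t m (by omega) h3
    · apply (Subgroup.closure_le _).mpr
      rintro x (hx | ⟨m, h1, h3, rfl⟩)
      · exact Subgroup.subset_closure (Or.inl hx.1)
      · by_cases hm : m = 1
        · rw [hm]; exact Subgroup.subset_closure (Or.inl hs1)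
        · exact Subgroup.subset_closure (Or.inr ⟨m, by omega, h3, rfl⟩)
  rw [hLt]
  constructor
  · have key : ∀ x : Fin t ↪ α, ∃ g ∈ L t, ∀ a : Fin t, g (x a) = q (a + 1) := by
      intro x
      obtain ⟨g, hg, g1⟩ := hT t ht le_rfl
        (fun m => if h : m - 1 < t then x ⟨m - 1, h⟩ else q 1)
        (fun a b h1 h3 h4 h5 e => by
          rw [dif_pos (by omega), dif_pos (by omega)] at e
          have := congrArg Fin.val (x.injective e)
          simp only at this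
          omega)
        (fun a j _ _ h4 h5 => by omega)
      refine ⟨g, hg, fun a => ?_⟩
      have := g1 (a + 1) (by omega) (by omega)
      simpa using this
    refine ⟨fun x y => ?_⟩
    obtain ⟨g, hg, g1⟩ := key x
    obtain ⟨k, hk, k1⟩ := key y
    refine ⟨⟨k⁻¹ * g, Subgroup.mul_mem _ (Subgroup.inv_mem _ hk) hg⟩, ?_⟩
    ext a
    change k⁻¹ (g (x a)) = y a
    rw [g1, Equiv.Perm.inv_eq_iff_eq, k1]
  · apply le_antisymm
    · rintro g ⟨hg, hg'⟩
      have h1 : ∀ j, 1 ≤ j → j ≤ t → g (q j) = q j := fun j h1 h3 => hg' ⟨q j, j, h1, h3, rfl⟩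
      have h3 := hS t (by omega) le_rfl g hg h1
      rw [hH]
      exact ⟨⟨h3.1, h1 1 le_rfl (by omega)⟩, h3.2⟩
    · intro g hg
      refine ⟨hKL t (hHK hg), ?_⟩
      rintro ⟨_, j, h1, h3, rfl⟩
      by_cases hj : j = 1
      · subst hj
        rw [hH] at hg
        exact hg.1.2
      · exact hF 1 j le_rfl (by omega) h3 g (hKL 1 (hHK hg))

end Cfsg.Agent.S0709
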