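import Cfsg.Statements.S0710
import Cfsg.Agent.S0704
import Mathlib.GroupTheory.Sylow
import Mathlib.GroupTheory.SpecificGroups.Cyclic

set_option autoImplicit false
open Cfsg

namespace Cfsg.Agent.S0710

/-- In a permutation group of prime degree `p`, the normaliser of a subgroup of order `p` has
order `p * d` with `d ∣ p - 1`. -/
theorem card_normalizer {α : Type*} [Fintype α] [DecidableEq α] {p : ℕ} (hp : p.Prime)
    (hα : Fintype.card α = p) (G : Subgroup (Equiv.Perm α)) (P : Subgroup G)
    (hP : Nat.card P = p) :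
    ∃ d, d ∣ p - 1 ∧ Nat.card (Subgroup.normalizer (P : Set G)) = p * d := by
  have := Fact.mk hp
  have hcyc : IsCyclic P := isCyclic_of_prime_card hP
  obtain ⟨g, hg⟩ := IsCyclic.exists_ofOrder_eq_natCard (α := P)
  have hgo : orderOf ((g : G) : Equiv.Perm α) = Fintype.card α := by
    rw [Subgroup.orderOf_coe, Subgroup.orderOf_coe, hg, hP, hα]
  have hgc := Equiv.Perm.isCycle_of_prime_order'' (hα ▸ hp) hgo
  have hsupp : ((g : G) : Equiv.Perm α).support = Finset.univ := by
    apply Finset.eq_univ_of_card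
    rw [← hgc.orderOf, hgo]
  have htr : MulAction.IsPretransitive P α := by
    refine ⟨fun x y => ?_⟩
    obtain ⟨i, hi⟩ := hgc.exists_zpow_eq (x := x) (y := y)
      (Equiv.Perm.mem_support.mp (hsupp ▸ Finset.mem_univ x))
      (Equiv.Perm.mem_support.mp (hsupp ▸ Finset.mem_univ y))
    exact ⟨g ^ i, hi⟩
  have hne : Nonempty α := Fintype.card_pos_iff.mp (hα ▸ hp.pos)
  have hcomm : ∀ a ∈ P, ∀ b ∈ P, Commute a b := fun a ha b hb =>
    congrArg Subtype.val (hcyc.isMulCommutative.is_comm.comm (⟨a, ha⟩ : P) ⟨b, hb⟩)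
  have hC := S0704.centralizer_eq G P P hcomm htr htr
  have hC' : Subgroup.centralizer (P : Set G) = P := by
    apply le_antisymm
    · intro c hc
      have : (c : Equiv.Perm α) ∈ P.map G.subtype := by
        rw [← hC]
        rintro _ ⟨x, hx, rfl⟩
        exact congrArg Subtype.val (hc x hx)
      obtain ⟨x, hx, e⟩ := this
      rwa [← Subtype.ext e]
    · intro c hc x hx
      exact (hcomm x hx c hc).eq
  refine ⟨Nat.card (Subgroup.normalizerMonoidHom P).range, ?_, ?_⟩
  · rw [← Nat.totient_prime hp, ← hP, ← IsCyclic.card_mulAut]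
    exact Subgroup.card_subgroup_dvd_card _
  · rw [← Subgroup.card_mul_index (Subgroup.normalizerMonoidHom P).ker, Subgroup.index_ker,
      Subgroup.normalizerMonoidHom_ker, hC',
      Nat.card_congr (Subgroup.subgroupOfEquivOfLe Subgroup.le_normalizer).toEquiv, hP]

/-- No transitive permutation group on 13 points has order `13 * 12 * 11 * 10 * 9 * 8`. -/
theorem result {α : Type*} [Fintype α] [DecidableEq α] (hα : Fintype.card α = 13) (G : Subgroup (Equiv.Perm α)) [MulAction.IsPretransitive G α] : Nat.card G ≠ 13 * 12 * 11 * 10 * 9 * 8 := by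
  intro hG
  have hp : Nat.Prime 13 := by norm_num
  have := Fact.mk hp
  obtain ⟨P⟩ : Nonempty (Sylow 13 G) := inferInstance
  have hP : Nat.card P = 13 := by
    rw [P.card_eq_multiplicity, hG]
    have : (13 * 12 * 11 * 10 * 9 * 8).factorization 13 = 1 := by
      rw [show 13 * 12 * 11 * 10 * 9 * 8 = 13 ^ 1 * 95040 by norm_num,
        Nat.factorization_mul (by norm_num) (by norm_num), hp.factorization_pow]
      simp [Nat.factorization_eq_zero_of_not_dvd]
    rw [this, pow_one]
  obtain ⟨d, hd, hN⟩ := card_normalizer hp hα G P hP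
  have h1 := card_sylow_modEq_one 13 G
  rw [P.card_eq_index_normalizer] at h1
  have h2 := (Subgroup.normalizer ((P : Subgroup G) : Set G)).index_mul_card
  rw [hN, hG] at h2
  have h3 : d ≤ 12 := Nat.le_of_dvd (by norm_num) hd
  change (Subgroup.normalizer ((P : Subgroup G) : Set G)).index % 13 = 1 % 13 at h1
  generalize (Subgroup.normalizer ((P : Subgroup G) : Set G)).index = t at h1 h2
  interval_cases d <;> omega

end Cfsg.Agent.S0710
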