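import Cfsg.Statements.S0714
import Mathlib.GroupTheory.GroupAction.MultipleTransitivity

set_option autoImplicit false
open Cfsg

namespace Cfsg.Agent.S0714

open Equiv

theorem three_cycle {α : Type*} [Fintype α] [DecidableEq α] {a b c : α} (hab : a ≠ b)
    (hac : a ≠ c) (hbc : b ≠ c) : ∃ σ : alternatingGroup α, σ⁻¹ • a = b ∧ σ⁻¹ • b = c ∧
      σ⁻¹ • c = a ∧ ∀ x, x ≠ a → x ≠ b → x ≠ c → σ⁻¹ • x = x := by
  refine ⟨⟨swap a c * swap a b, by simp [hab, hac]⟩⁻¹, ?_, ?_, ?_, ?_⟩
  all_goals rw [inv_inv]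
  · change swap a c (swap a b a) = b
    rw [swap_apply_left, swap_apply_of_ne_of_ne hab.symm hbc]
  · change swap a c (swap a b b) = c
    rw [swap_apply_right, swap_apply_left]
  · change swap a c (swap a b c) = a
    rw [swap_apply_of_ne_of_ne hac.symm hbc.symm, swap_apply_right]
  · intro x h1 h2 h3
    change swap a c (swap a b x) = x
    rw [swap_apply_of_ne_of_ne h1 h2, swap_apply_of_ne_of_ne h1 h3]

/-- Over any field, the permutation module of the alternating group of degree at least 5 has exactly four invariant subspaces: zero, the constant functions, the functions with coordinate sum zero, and everything. -/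
theorem result {α : Type*} [Fintype α] [DecidableEq α] (hα : 5 ≤ Fintype.card α) {K : Type*} [Field K] (W : Subrepresentation (Cfsg.permRep K (alternatingGroup α) α)) : W.toSubmodule = ⊥ ∨ W = Cfsg.permConstants K (alternatingGroup α) α ∨ W = Cfsg.permSumZero K (alternatingGroup α) α ∨ W.toSubmodule = ⊤ := by
  have hact : ∀ (σ : alternatingGroup α) (f : α → K), f ∈ W.toSubmodule →
      (fun x => f (σ⁻¹ • x)) ∈ W.toSubmodule := fun σ f hf => W.apply_mem_toSubmodule σ hf
  by_cases hconst : ∀ f ∈ W.toSubmodule, ∀ a b, f a = f b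
  · by_cases hbot : W.toSubmodule = ⊥
    · exact Or.inl hbot
    right; left
    obtain ⟨f, hf, hf0⟩ := (Submodule.ne_bot_iff _).mp hbot
    obtain ⟨a, ha⟩ := Function.ne_iff.mp hf0
    apply Subrepresentation.toSubmodule_injective
    apply le_antisymm
    · intro g hg
      exact Submodule.mem_span_singleton.mpr ⟨g a, funext fun x => by
        simp [hconst g hg x a]⟩
    · change Submodule.span K _ ≤ _
      rw [Submodule.span_singleton_le_iff_mem]
      have : (fun _ => 1 : α → K) = (f a)⁻¹ • f := funext fun x => by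
        rw [Pi.smul_apply, hconst f hf x a, smul_eq_mul, inv_mul_cancel₀ ha]
      rw [this]
      exact W.toSubmodule.smul_mem _ hf
  right; right
  push Not at hconst
  obtain ⟨f, hf, a, b, hfab⟩ := hconst
  have hab : a ≠ b := fun h => hfab (h ▸ rfl)
  have hex : ∀ s : Finset α, s.card < 5 → ∃ x, x ∉ s := fun s hs => by
    by_contra h
    push Not at h
    rw [Finset.eq_univ_iff_forall.mpr h, Finset.card_univ] at hs
    omega
  obtain ⟨c, hc⟩ := hex {a, b} (Finset.card_le_two.trans_lt (by norm_num))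
  obtain ⟨d, hd⟩ := hex {a, b, c} (Finset.card_le_three.trans_lt (by norm_num))
  obtain ⟨e, he⟩ := hex {a, b, c, d} (Finset.card_le_four.trans_lt (by norm_num))
  simp only [Finset.mem_insert, Finset.mem_singleton, not_or] at hc hd he
  obtain ⟨σ, σ1, σ2, σ3, σ4⟩ := three_cycle hab (Ne.symm hc.1) (Ne.symm hc.2)
  obtain ⟨τ, τ1, τ2, τ3, τ4⟩ := three_cycle (Ne.symm hd.1) (Ne.symm he.1) (Ne.symm he.2.2.2)
  set u : α → K := f - fun x => f (σ⁻¹ • x) with hu
  have huW : u ∈ W.toSubmodule := W.toSubmodule.sub_mem hf (hact σ f hf)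
  have hua : u a ≠ 0 := by simpa [hu, σ1, sub_eq_zero] using hfab
  have hu0 : ∀ x, x ≠ a → x ≠ b → x ≠ c → u x = 0 := fun x h1 h2 h3 => by
    simp [hu, σ4 x h1 h2 h3]
  have hv : (Pi.single a 1 - Pi.single e 1 : α → K) ∈ W.toSubmodule := by
    have h1 := W.toSubmodule.smul_mem (u a)⁻¹ (W.toSubmodule.sub_mem huW (hact τ u huW))
    convert h1 using 1
    funext x
    simp only [Pi.sub_apply, Pi.smul_apply, smul_eq_mul]
    by_cases h2 : x = a
    · rw [h2, τ1, hu0 d hd.1 hd.2.1 hd.2.2, sub_zero, inv_mul_cancel₀ hua]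
      simp [Ne.symm he.1]
    by_cases h3 : x = d
    · rw [h3, τ2, hu0 d hd.1 hd.2.1 hd.2.2, hu0 e he.1 he.2.1 he.2.2.1]
      simp [hd.1, Ne.symm he.2.2.2]
    by_cases h4 : x = e
    · rw [h4, τ3, hu0 e he.1 he.2.1 he.2.2.1]
      simp [he.1, hua]
    · rw [τ4 x h2 h3 h4]
      simp [h2, h4]
  have h2t : MulAction.IsMultiplyPretransitive (alternatingGroup α) α 2 := by
    have := alternatingGroup.isMultiplyPretransitive α
    exact MulAction.isMultiplyPretransitive_of_le (n := Nat.card α - 2)
      (by rw [Nat.card_eq_fintype_card]; omega) (by omega)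
  have hall : ∀ x, (Pi.single x 1 - Pi.single a 1 : α → K) ∈ W.toSubmodule := by
    intro x
    by_cases hx : x = a
    · rw [hx, sub_self]; exact W.toSubmodule.zero_mem
    obtain ⟨g, g1, g2⟩ := MulAction.is_two_pretransitive_iff.mp h2t (Ne.symm he.1) hx
    convert hact g _ hv using 1
    funext y
    simp only [Pi.sub_apply, Pi.single_apply, inv_smul_eq_iff, g1, g2]
  have hle : (Cfsg.permSumZero K (alternatingGroup α) α).toSubmodule ≤ W.toSubmodule := by
    intro g hg
    have hg' : ∑ x, g x = 0 := hg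
    have : g = ∑ x, g x • (Pi.single x 1 - Pi.single a 1 : α → K) := by
      funext y
      simp [smul_sub, Finset.sum_sub_distrib, ← Finset.sum_mul, hg', Pi.single_apply,
        Finset.sum_apply]
    rw [this]
    exact W.toSubmodule.sum_mem fun x _ => W.toSubmodule.smul_mem _ (hall x)
  by_cases hz : ∀ g ∈ W.toSubmodule, ∑ x, g x = 0
  · left
    exact Subrepresentation.toSubmodule_injective (le_antisymm hz hle)
  · right
    push Not at hz
    obtain ⟨g, hg, hg0⟩ := hz
    rw [eq_top_iff]
    intro h _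
    have h1 : h - ((∑ x, h x) / ∑ x, g x) • g ∈ W.toSubmodule := by
      apply hle
      change ∑ x, (h x - ((∑ x, h x) / ∑ x, g x) * g x) = 0
      rw [Finset.sum_sub_distrib, ← Finset.mul_sum, div_mul_cancel₀ _ hg0, sub_self]
    simpa using W.toSubmodule.add_mem h1 (W.toSubmodule.smul_mem ((∑ x, h x) / ∑ x, g x) hg)

end Cfsg.Agent.S0714
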