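import Cfsg.Statements.S0715
import Cfsg.Agent.H25.PermMod
import Cfsg.Agent.H5.Central

set_option autoImplicit false
open Cfsg

namespace Cfsg.Agent.S0715

/-- If a natural number `f` divides the degree of every non-principal irreducible constituent of the permutation character of a transitive group, then `f` divides every non-trivial subdegree. -/
theorem result {G : Type*} [Group G] [Fintype G] {Ω : Type*} [Fintype Ω] [MulAction G Ω] [MulAction.IsPretransitive G Ω] (f : ℕ) (hf : ∀ χ : G → ℂ, Cfsg.IsIrrCharacter G χ → χ ≠ (fun _ => 1) → Cfsg.classInner (fun g : G => (Nat.card (MulAction.fixedBy Ω g) : ℂ)) χ ≠ 0 → ∃ m : ℕ, χ 1 = (f : ℂ) * m) (a b : Ω) (hab : b ≠ a) : f ∣ Nat.card (MulAction.orbit (MulAction.stabilizer G a) b) := by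
  classical
  have : Nonempty Ω := ⟨a⟩
  obtain ⟨μ, h1, h2, h3, h4⟩ := H25.exists_spec_matrix (G := G) (H25.orbMat G a b)
    (H25.orbMat_smul a b) a
  have h5 := h4 1 1
  simp only [pow_one, one_smul, H25.orbMat_diag hab, Finset.sum_const_zero, Int.cast_zero,
    Multiset.map_id'] at h5
  rw [← Finset.add_sum_erase _ _ (Finset.mem_univ (H25.trivChar G)), h3, H25.sum_orbMat] at h5
  have h6 : ∀ ψ ∈ Finset.univ.erase (H25.trivChar G), ∃ z : ℂ, IsIntegral ℤ z ∧
      (μ ψ).sum * (ψ : G → ℂ) 1 = f * z := by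
    intro ψ hψ
    by_cases h0 : μ ψ = 0
    · exact ⟨0, isIntegral_zero, by simp [h0]⟩
    obtain ⟨m, hm⟩ := hf ψ ψ.2 (fun h => Finset.ne_of_mem_erase hψ (Subtype.ext h)) (by
      rw [← h1]
      exact_mod_cast fun h => h0 (Multiset.card_eq_zero.mp h))
    refine ⟨(μ ψ).sum * m, IsIntegral.mul ?_ (by exact_mod_cast isIntegral_algebraMap (x := (m : ℤ))), by rw [hm]; ring⟩
    exact IsIntegral.multiset_sum (h2 ψ)
  choose! z hz hz' using h6
  rw [Finset.sum_congr rfl hz', ← Finset.mul_sum] at h5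
  have h7 : IsIntegral ℤ (∑ ψ ∈ Finset.univ.erase (H25.trivChar G), z ψ) := IsIntegral.sum _ hz
  simp only [H25.trivChar, Multiset.sum_singleton, Int.cast_natCast, mul_one] at h5 h7
  rcases Nat.eq_zero_or_pos f with rfl | hf0
  · simp only [Nat.cast_zero, zero_mul, add_zero] at h5
    rw [show Nat.card (MulAction.orbit (MulAction.stabilizer G a) b) = 0 by exact_mod_cast h5.symm]
  refine H5.dvd_of_isIntegral_div hf0.ne' ?_
  have hf1 : (f : ℂ) ≠ 0 := by exact_mod_cast hf0.ne'
  convert h7.neg using 1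
  rw [div_eq_iff hf1]
  linear_combination -h5

end Cfsg.Agent.S0715
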