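import Cfsg.Statements.S0716
import Cfsg.Agent.S0715

set_option autoImplicit false
open Cfsg

namespace Cfsg.Agent.S0716

theorem sum_card_orbit {H Ω : Type*} [Group H] [MulAction H Ω] [Fintype Ω]
    [Fintype (MulAction.orbitRel.Quotient H Ω)] :
    ∑ q : MulAction.orbitRel.Quotient H Ω, Nat.card q.orbit = Fintype.card Ω := by
  classical
  rw [Fintype.card_congr (MulAction.selfEquivSigmaOrbits' H Ω), Fintype.card_sigma]
  exact Finset.sum_congr rfl fun q _ => Nat.card_eq_fintype_card

/-- (a) If all non-principal irreducible constituents of the permutation character of a transitive group have the same degree `f`, the character is multiplicity-free and all non-trivial subdegrees equal `f`. (b) A transitive group of rank at most 5 has multiplicity-free permutation character. -/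
theorem result {G : Type*} [Group G] [Fintype G] {Ω : Type*} [Fintype Ω] [MulAction G Ω] [MulAction.IsPretransitive G Ω] (a : Ω) : ((f : ℕ) → (∀ χ : G → ℂ, Cfsg.IsIrrCharacter G χ → χ ≠ (fun _ => 1) → Cfsg.classInner (fun g : G => (Nat.card (MulAction.fixedBy Ω g) : ℂ)) χ ≠ 0 → χ 1 = f) → (∀ χ : G → ℂ, Cfsg.IsIrrCharacter G χ → Cfsg.classInner (fun g : G => (Nat.card (MulAction.fixedBy Ω g) : ℂ)) χ = 0 ∨ Cfsg.classInner (fun g : G => (Nat.card (MulAction.fixedBy Ω g) : ℂ)) χ = 1) ∧ ∀ b : Ω, b ≠ a → Nat.card (MulAction.orbit (MulAction.stabilizer G a) b) = f) ∧ (Nat.card (MulAction.orbitRel.Quotient (MulAction.stabilizer G a) Ω) ≤ 5 → ∀ χ : G → ℂ, Cfsg.IsIrrCharacter G χ → Cfsg.classInner (fun g : G => (Nat.card (MulAction.fixedBy Ω g) : ℂ)) χ = 0 ∨ Cfsg.classInner (fun g : G => (Nat.card (MulAction.fixedBy Ω g) : ℂ)) χ = 1) := by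
  classical
  have : Nonempty Ω := ⟨a⟩
  set π : G → ℂ := fun g : G => (Nat.card (MulAction.fixedBy Ω g) : ℂ) with hπ
  have hchar : IsCharacter G π := H5.isCharacter_perm Ω
  obtain ⟨n, hn⟩ := H5.isCharacter_iff_exists_nat.mp hchar
  have hn' : ∀ ψ : IrrCharacter G, classInner π ψ = n ψ := fun ψ => by
    rw [hn, H5.classInner_sum_smul_irr]
  have hn1 : n (H25.trivChar G) = 1 := by
    have := (hn' (H25.trivChar G)).symm.trans H25.classInner_perm_triv
    exact_mod_cast this
  let Q := MulAction.orbitRel.Quotient (MulAction.stabilizer G a) Ω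
  have : Fintype Q := Fintype.ofFinite _
  have hrank : Fintype.card Q = 1 + ∑ ψ ∈ Finset.univ.erase (H25.trivChar G), n ψ ^ 2 := by
    have h1 := H25.classInner_perm_self (G := G) a
    rw [← hπ, hn, H5.classInner_sum_smul_sum_smul,
      ← Finset.add_sum_erase _ _ (Finset.mem_univ (H25.trivChar G)), hn1,
      Nat.card_eq_fintype_card] at h1
    simp only [map_natCast, ← sq] at h1
    exact_mod_cast h1.symm
  have key : ∀ f : ℕ, (∀ χ : G → ℂ, IsIrrCharacter G χ → χ ≠ (fun _ => 1) →
      classInner π χ ≠ 0 → χ 1 = f) → (∀ ψ, n ψ ≤ 1) ∧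
      ∀ b : Ω, b ≠ a → Nat.card (MulAction.orbit (MulAction.stabilizer G a) b) = f := by
    intro f hf
    have hdeg : Fintype.card Ω = 1 + f * ∑ ψ ∈ Finset.univ.erase (H25.trivChar G), n ψ := by
      have h1 := congrFun hn 1
      rw [Finset.sum_apply, ← Finset.add_sum_erase _ _ (Finset.mem_univ (H25.trivChar G)), hn1,
        Finset.sum_congr rfl (g := fun ψ => (f : ℂ) * n ψ) fun ψ hψ => ?_, ← Finset.mul_sum] at h1
      · have h2 : π 1 = Fintype.card Ω := by simp [hπ]
        have h3 : (((1 : ℕ) : ℂ) • (H25.trivChar G : G → ℂ)) 1 = 1 := by simp [H25.trivChar]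
        rw [h2, h3] at h1
        exact_mod_cast h1
      · by_cases h0 : n ψ = 0
        · simp [h0]
        · rw [Pi.smul_apply, smul_eq_mul, mul_comm, hf ψ ψ.2
            (fun h => Finset.ne_of_mem_erase hψ (Subtype.ext h)) (by rw [hn']; exact_mod_cast h0)]
    let q₀ : Q := Quotient.mk'' a
    have hq₀ : Nat.card q₀.orbit = 1 := by
      have : q₀.orbit = {a} := by
        ext y
        rw [MulAction.orbitRel.Quotient.orbit_mk, H25.mem_orbit_stabilizer_iff]
        exact ⟨fun ⟨g, h1, h2⟩ => h2.symm.trans h1, fun h => ⟨1, one_smul _ _, by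
          rw [one_smul]; exact h.symm⟩⟩
      rw [this]
      simp
    have hne : ∀ b : Ω, (Quotient.mk'' b : Q) ≠ q₀ ↔ b ≠ a := by
      intro b
      refine not_congr ⟨fun h => ?_, fun h => by rw [h]⟩
      obtain ⟨g, h1, h2⟩ := H25.mem_orbit_stabilizer_iff.mp
        (MulAction.orbitRel_apply.mp (Quotient.exact' h))
      exact h2.symm.trans h1
    have hle : ∀ q ∈ Finset.univ.erase q₀, f ≤ Nat.card q.orbit := by
      intro q hq
      induction q using Quotient.inductionOn' with
      | h b =>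
        rw [MulAction.orbitRel.Quotient.orbit_mk]
        have : Nonempty (MulAction.orbit (MulAction.stabilizer G a) b) :=
          ⟨⟨b, MulAction.mem_orbit_self b⟩⟩
        refine Nat.le_of_dvd Nat.card_pos (S0715.result f (fun χ h1 h2 h3 => ⟨1, ?_⟩) a b
          ((hne b).mp (Finset.ne_of_mem_erase hq)))
        rw [hf χ h1 h2 h3, Nat.cast_one, mul_one]
    have hsum := sum_card_orbit (H := MulAction.stabilizer G a) (Ω := Ω)
    rw [← Finset.add_sum_erase _ _ (Finset.mem_univ q₀), hq₀, hdeg, add_right_inj] at hsum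
    have hcard : (Finset.univ.erase q₀).card = ∑ ψ ∈ Finset.univ.erase (H25.trivChar G), n ψ ^ 2 := by
      rw [Finset.card_erase_of_mem (Finset.mem_univ _), Finset.card_univ, hrank]
      omega
    have hle2 : ∀ ψ ∈ Finset.univ.erase (H25.trivChar G), n ψ ≤ n ψ ^ 2 := fun ψ _ =>
      Nat.le_self_pow two_ne_zero _
    have hle3 := Finset.sum_le_sum hle
    rw [Finset.sum_const, smul_eq_mul, hcard, hsum, mul_comm] at hle3
    have hle4 := Finset.sum_le_sum hle2
    constructor
    · intro ψ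
      by_cases hψ : ψ = H25.trivChar G
      · rw [hψ, hn1]
      by_cases h0 : n ψ = 0
      · omega
      have hf0 : 0 < f := by
        have h1 := hf ψ ψ.2 (fun h => hψ (Subtype.ext h)) (by rw [hn']; exact_mod_cast h0)
        have h2 := H5.degree_ne_zero ψ.2
        rw [h1] at h2
        exact Nat.pos_of_ne_zero (by exact_mod_cast h2)
      have h3 := (Finset.sum_eq_sum_iff_of_le hle2).mp
        (le_antisymm hle4 (Nat.le_of_mul_le_mul_left hle3 hf0)) ψ (by simpa using hψ)
      by_contra h4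
      nlinarith
    · intro b hb
      have h3 : ∑ _q ∈ Finset.univ.erase q₀, f = ∑ q ∈ Finset.univ.erase q₀, Nat.card q.orbit := by
        refine le_antisymm (Finset.sum_le_sum hle) ?_
        rw [Finset.sum_const, smul_eq_mul, hcard, hsum, mul_comm _ f]
        exact Nat.mul_le_mul_left _ hle4
      exact ((Finset.sum_eq_sum_iff_of_le hle).mp h3 (Quotient.mk'' b)
        (by simpa using (hne b).mpr hb)).symm
  have fin : (∀ ψ, n ψ ≤ 1) → ∀ χ : G → ℂ, IsIrrCharacter G χ →
      classInner π χ = 0 ∨ classInner π χ = 1 := by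
    intro h χ hχ
    rw [hn' ⟨χ, hχ⟩]
    have := h ⟨χ, hχ⟩
    rcases Nat.le_one_iff_eq_zero_or_eq_one.mp this with h | h <;> simp [h]
  refine ⟨fun f hf => ⟨fin (key f hf).1, (key f hf).2⟩, fun h5 => fin ?_⟩
  by_contra! hc
  obtain ⟨ψ, hψ⟩ := hc
  have hψ1 : ψ ≠ H25.trivChar G := by
    rintro rfl
    omega
  obtain ⟨f, -, hf⟩ := H5.exists_pos_nat_degree ψ.2
  refine absurd ((key f fun χ h1 h2 h3 => ?_).1 ψ) (by omega)
  by_cases hχ : (⟨χ, h1⟩ : IrrCharacter G) = ψ
  · rw [← hf, ← hχ]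
  exfalso
  rw [hn' ⟨χ, h1⟩] at h3
  have h4 : n ⟨χ, h1⟩ ≠ 0 := by exact_mod_cast h3
  rw [Nat.card_eq_fintype_card, hrank] at h5
  have h6 : ∑ x ∈ {ψ, ⟨χ, h1⟩}, n x ^ 2 ≤ ∑ ψ ∈ Finset.univ.erase (H25.trivChar G), n ψ ^ 2 := by
    refine Finset.sum_le_sum_of_subset fun x hx => ?_
    rcases Finset.mem_insert.mp hx with rfl | hx
    · simpa using hψ1
    · rw [Finset.mem_singleton.mp hx]
      simpa using fun h => h2 (congrArg Subtype.val h)
  rw [Finset.sum_pair (Ne.symm hχ)] at h6
  have h7 : 1 ≤ n ⟨χ, h1⟩ := Nat.one_le_iff_ne_zero.mpr h4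
  nlinarith

end Cfsg.Agent.S0716
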