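import Cfsg.Statements.S0717
import Cfsg.Agent.H25.PermMod
import Cfsg.Agent.H25.MultFree

set_option autoImplicit false
open Cfsg

namespace Cfsg.Agent.S0717

/-- All suborbits of a transitive group are self-paired (every pair of points is interchanged by some group element) if and only if the permutation character is multiplicity-free and each of its irreducible constituents is real-valued. -/
theorem result {G : Type*} [Group G] [Fintype G] {Ω : Type*} [Fintype Ω] [MulAction G Ω] [MulAction.IsPretransitive G Ω] : (∀ a b : Ω, ∃ g : G, g • a = b ∧ g • b = a) ↔ ∀ χ : G → ℂ, Cfsg.IsIrrCharacter G χ → Cfsg.classInner (fun g : G => (Nat.card (MulAction.fixedBy Ω g) : ℂ)) χ ≠ 0 → Cfsg.classInner (fun g : G => (Nat.card (MulAction.fixedBy Ω g) : ℂ)) χ = 1 ∧ ∀ g : G, (starRingEnd ℂ) (χ g) = χ g := by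
  classical
  set π : G → ℂ := fun g : G => (Nat.card (MulAction.fixedBy Ω g) : ℂ) with hπ
  have hchar : IsCharacter G π := H5.isCharacter_perm Ω
  have hρ : (permRep ℂ G Ω).character = π := H25.character_permRep
  constructor
  · intro hs χ hχ hne
    have hsym : ∀ T : Module.End ℂ (Ω → ℂ), (∀ g, T * permRep ℂ G Ω g = permRep ℂ G Ω g * T) →
        (LinearMap.toMatrix' T).transpose = LinearMap.toMatrix' T := by
      intro T hT
      ext a b
      obtain ⟨g, h1, h2⟩ := hs a b
      rw [Matrix.transpose_apply, LinearMap.toMatrix'_apply, LinearMap.toMatrix'_apply]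
      have h3 := congrFun (LinearMap.congr_fun (hT g) (Pi.single b 1)) b
      have h4 : permRep ℂ G Ω g (Pi.single b 1) = Pi.single a 1 := by
        ext j
        change (Pi.single b 1 : Ω → ℂ) (g⁻¹ • j) = _
        simp only [Pi.single_apply, inv_smul_eq_iff, h2]
      rw [Module.End.mul_apply, h4] at h3
      rw [h3]
      change T _ (g⁻¹ • b) = _
      rw [inv_smul_eq_iff.mpr h1.symm]
    constructor
    · rw [← hρ] at hne ⊢
      refine (H25.multFree_of_comm _ (fun S T hS hT => ?_) χ hχ).resolve_left hne
      have hST : ∀ g, S * T * permRep ℂ G Ω g = permRep ℂ G Ω g * (S * T) := fun g => by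
        rw [mul_assoc, hT, ← mul_assoc, hS, mul_assoc]
      apply LinearMap.toMatrix'.injective
      rw [← hsym _ hST, LinearMap.toMatrix'_mul, LinearMap.toMatrix'_mul, Matrix.transpose_mul,
        hsym S hS, hsym T hT]
    · have hχ' := H5.isIrrCharacter_conj hχ
      have hc := H5.isCharacter_of_isIrr hχ
      have key : ∀ h : G, ∑ g, χ g⁻¹ * π (g * h) = ∑ g, (starRingEnd ℂ) (χ g⁻¹) * π (g * h) := by
        intro h
        simp only [hπ, H25.card_fixedBy_eq_sum, Finset.mul_sum]
        rw [Finset.sum_comm, Finset.sum_comm (s := Finset.univ (α := G))]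
        refine Finset.sum_congr rfl fun x _ => ?_
        obtain ⟨w, h1, h2⟩ := hs x (h • x)
        refine Fintype.sum_equiv ((Equiv.inv G).trans (MulAut.conj w).toEquiv) _ _ fun g => ?_
        change _ = (starRingEnd ℂ) (χ (w * g⁻¹ * w⁻¹)⁻¹) *
          if (w * g⁻¹ * w⁻¹ * h) • x = x then 1 else 0
        rw [H5.isCharacter_apply_inv hc (w * g⁻¹ * w⁻¹), Complex.conj_conj,
          H5.isClassFunction_of_isCharacter hc]
        congr 2
        rw [mul_smul, mul_smul (_ * _ * _), mul_smul, mul_smul, inv_smul_eq_iff.mpr h1.symm]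
        refine propext ⟨fun h3 => ?_, fun h3 => ?_⟩
        · rw [inv_smul_eq_iff.mpr h3.symm, h2]
        · rw [← h2] at h3
          rw [h2] at h3
          have h4 : g⁻¹ • x = h • x := MulAction.injective w (h3.trans h2.symm)
          rw [← h4, smul_inv_smul]
      by_contra hne2
      have hne3 : (fun g => (starRingEnd ℂ) (χ g)) ≠ χ := fun h => hne2 (congrFun h)
      have h1 : (classInner π χ * Nat.card G / χ 1) • χ =
          (classInner π (fun g => (starRingEnd ℂ) (χ g)) * Nat.card G / (starRingEnd ℂ) (χ 1)) •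
            fun g => (starRingEnd ℂ) (χ g) := by
        ext h
        have h2 := key h
        rw [H25.sum_irr_inv_mul_char_mul hchar hχ, H25.sum_irr_inv_mul_char_mul hchar hχ'] at h2
        simp only [Pi.smul_apply, smul_eq_mul]
        linear_combination h2
      have h2 := congrArg (fun f => classInner f χ) h1
      simp only [H5.classInner_smul_left, H5.classInner_irr_self hχ,
        H5.classInner_irr_ne hχ' hχ hne3, mul_one, mul_zero] at h2
      exact div_ne_zero (mul_ne_zero hne H5.natCard_ne_zero) (H5.degree_ne_zero hχ) h2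
  · intro h a b
    let M : Matrix Ω Ω ℂ := (Int.castRingHom ℂ).mapMatrix (H25.orbMat G a b)
    have hM : ∀ (g : G) x y, M (g • x) (g • y) = M x y := fun g x y => by
      simp [M, H25.orbMat_smul]
    obtain ⟨c, hc⟩ := H25.exists_eq_sum_of_multFree (permRep ℂ G Ω) (fun χ hχ => by
      rw [hρ]
      by_cases h0 : classInner π χ = 0
      · exact Or.inl h0
      · exact Or.inr (h χ hχ h0).1) (Matrix.toLin' M) (H25.toLin'_comm_permRep M hM)
    have h1 : ∀ x y, M x y = ∑ ψ, c ψ * ∑ g, (ψ.1 : G → ℂ) g⁻¹ * if g⁻¹ • x = y then 1 else 0 := by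
      intro x y
      have h2 := congrFun (LinearMap.congr_fun hc (Pi.single y 1)) x
      rw [Matrix.toLin'_apply, Matrix.mulVec_single_one] at h2
      refine h2.trans ?_
      simp only [LinearMap.sum_apply, LinearMap.smul_apply, Finset.sum_apply, Pi.smul_apply,
        smul_eq_mul]
      refine Finset.sum_congr rfl fun ψ _ => congrArg _ (Finset.sum_congr rfl fun g _ => ?_)
      change _ * (Pi.single y 1 : Ω → ℂ) (g⁻¹ • x) = _
      rw [Pi.single_apply]
    have h2 : M b a = M a b := by
      rw [h1, h1]
      refine Finset.sum_congr rfl fun ψ _ => congrArg _ ?_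
      refine Fintype.sum_equiv (Equiv.inv G) _ _ fun g => ?_
      have h3 := (h ψ.1 ψ.1.2 (by rw [← hρ]; exact ψ.2)).2 g
      rw [Equiv.inv_apply, inv_inv, H5.isCharacter_apply_inv (H5.isCharacter_of_isIrr ψ.1.2), h3]
      simp only [inv_smul_eq_iff, eq_comm (a := b)]
    by_contra h3
    have h4 : M b a = 0 := by simp [M, H25.orbMat_eq_zero h3]
    have h5 : M a b = 1 := by
      simp [M, H25.orbMat_eq_one (G := G) (a := a) (b := b) ⟨1, one_smul _ _, one_smul _ _⟩]
    rw [h4, h5] at h2
    exact zero_ne_one h2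

end Cfsg.Agent.S0717
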