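import Cfsg.Statements.S0719
import Cfsg.Agent.H25.PermMod
import Cfsg.Agent.H5.Central

set_option autoImplicit false
open Cfsg

namespace Cfsg.Agent.S0719

theorem fixes_all {G Ω : Type*} [Group G] [Finite G] [Fintype Ω] [MulAction G Ω]
    (hprim : MulAction.IsPreprimitive G Ω) {a b : Ω} (hab : b ≠ a)
    (h : MulAction.stabilizer G a ≤ MulAction.stabilizer G b) (c : Ω) :
    MulAction.stabilizer G c = MulAction.stabilizer G a := by
  have he : MulAction.stabilizer G a = MulAction.stabilizer G b :=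
    Subgroup.eq_of_le_of_card_ge h (le_of_eq (Nat.eq_of_mul_eq_mul_left (Fintype.card_pos_iff.mpr ⟨a⟩)
      ((H25.card_mul_card_stabilizer b).trans (H25.card_mul_card_stabilizer a).symm)))
  let B : Set Ω := {x | MulAction.stabilizer G x = MulAction.stabilizer G a}
  have hB : MulAction.IsBlock G B := by
    rw [MulAction.isBlock_iff_smul_eq_of_mem]
    intro g x hx hgx
    have hx' : MulAction.stabilizer G x = MulAction.stabilizer G a := hx
    have hgx' : MulAction.stabilizer G (g • x) = MulAction.stabilizer G a := hgx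
    rw [MulAction.stabilizer_smul_eq_stabilizer_map_conj, hx'] at hgx'
    ext y
    rw [Set.mem_smul_set_iff_inv_smul_mem]
    change MulAction.stabilizer G (g⁻¹ • y) = _ ↔ MulAction.stabilizer G y = _
    have h1 : MulAction.stabilizer G y =
        (MulAction.stabilizer G (g⁻¹ • y)).map (MulAut.conj g).toMonoidHom := by
      rw [← MulAction.stabilizer_smul_eq_stabilizer_map_conj, smul_inv_smul]
    constructor
    · intro h
      rw [h1, h, hgx']
    · intro h
      rw [h1, ← hgx'] at h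
      rw [← hgx']
      have := Subgroup.map_injective (f := (MulAut.conj g).toMonoidHom) (MulAut.conj g).injective h
      rw [this, hgx']
  rcases hprim.isTrivialBlock_of_isBlock hB with h1 | h1
  · exact absurd (h1 (show b ∈ B from he.symm) (show a ∈ B from rfl)) hab
  · exact (h1 ▸ Set.mem_univ c : c ∈ B)

theorem arith {m k r s : ℤ} (hm : 2 ≤ m) (h1 : k + (m - 1) * r + m * s = 0)
    (h2 : k ^ 2 + (m - 1) * r ^ 2 + m * s ^ 2 = 2 * m * k) (hk : 2 ≤ k) (hk' : k ≤ 2 * m - 3) :
    ∃ a : ℕ, 0 < a ∧ m = 2 * a ^ 2 + 2 * a + 1 ∧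
      (k = a * (2 * a + 1) ∨ k = (a + 1) * (2 * a + 1)) := by
  obtain ⟨t, ht⟩ : ∃ t, t = -(r + s) := ⟨_, rfl⟩
  have hr : r = k - m * t := by rw [ht]; linear_combination -h1
  have hs : s = (m - 1) * t - k := by linear_combination ht - hr
  have h3 : 2 * k ^ 2 - 4 * (m - 1) * k * t + (m - 1) * (2 * m - 1) * t ^ 2 = 2 * k := by
    have hm0 : m ≠ 0 := by omega
    apply mul_left_cancel₀ hm0
    rw [hr, hs] at h2
    linear_combination h2
  have h4 : 2 * ((m - 1) * (t * (t - 2))) ≤ 1 := by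
    nlinarith [sq_nonneg (2 * k - (2 * (m - 1) * t + 1))]
  have h5 : t * (t - 2) ≤ 0 := by
    by_contra h
    nlinarith
  have h6 : t = 0 ∨ t = 1 ∨ t = 2 := by
    have : 0 ≤ t := by nlinarith
    have : t ≤ 2 := by nlinarith
    omega
  rcases h6 with rfl | rfl | rfl
  · nlinarith
  · have h7 : m = 2 * r ^ 2 + 2 * r + 1 := by
      have : k = r + m := by linear_combination -hr
      rw [this] at h3
      linear_combination -h3
    rcases le_or_gt 0 r with h0 | h0
    · obtain ⟨a, rfl⟩ := Int.eq_ofNat_of_zero_le h0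
      refine ⟨a, Nat.pos_of_ne_zero ?_, h7, Or.inr (by linear_combination h7 - hr)⟩
      rintro rfl
      simp at h7
      omega
    · obtain ⟨a, ha⟩ := Int.eq_ofNat_of_zero_le (show 0 ≤ -1 - r by omega)
      have h8 : r = -1 - a := by omega
      subst h8
      refine ⟨a, Nat.pos_of_ne_zero ?_, by linear_combination h7,
        Or.inl (by linear_combination h7 - hr)⟩
      rintro rfl
      simp at h7
      omega
  · have : (k - (2 * m - 2)) * (k - (2 * m - 1)) = 0 := by linarith
    rcases mul_eq_zero.mp this with h | h <;> omega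

theorem exists_int {m : ℕ} (hm : 2 ≤ m) {r s : ℂ} (hr : IsIntegral ℤ r) (hs : IsIntegral ℤ s)
    {p₁ p₂ p₃ : ℤ} (h1 : ((m : ℂ) - 1) * r + m * s = p₁)
    (h2 : ((m : ℂ) - 1) * r ^ 2 + m * s ^ 2 = p₂) (h3 : ((m : ℂ) - 1) * r ^ 3 + m * s ^ 3 = p₃) :
    ∃ r' s' : ℤ, r = r' ∧ s = s' := by
  have hm0 : (m : ℂ) ≠ 0 := by exact_mod_cast (show m ≠ 0 by omega)
  have hm1 : (m : ℂ) - 1 ≠ 0 := sub_ne_zero.mpr (by exact_mod_cast (show m ≠ 1 by omega))
  have hm2 : 2 * (m : ℂ) - 1 ≠ 0 := sub_ne_zero.mpr (by exact_mod_cast (show 2 * m ≠ 1 by omega))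
  obtain ⟨q, hq⟩ : ∃ q : ℚ, r + s = q := by
    by_cases h : r = s
    · refine ⟨2 * p₁ / (2 * m - 1), ?_⟩
      push_cast
      rw [eq_div_iff hm2, ← h1, h]
      ring
    · refine ⟨((2 * m - 1) * p₃ - p₁ * p₂) / ((2 * m - 1) * p₂ - p₁ ^ 2), ?_⟩
      push_cast
      have h4 : (2 * (m : ℂ) - 1) * p₂ - p₁ ^ 2 = (m - 1) * m * (r - s) ^ 2 := by
        rw [← h1, ← h2]; ring
      rw [h4, eq_div_iff (mul_ne_zero (mul_ne_zero hm1 hm0) (pow_ne_zero _ (sub_ne_zero.mpr h))),
        ← h1, ← h2, ← h3]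
      ring
  have h4 : r = ((m * q - p₁ : ℚ) : ℂ) := by push_cast; linear_combination m * hq - h1
  have h5 : s = ((p₁ - (m - 1) * q : ℚ) : ℂ) := by push_cast; linear_combination h1 - (m - 1) * hq
  obtain ⟨r', hr'⟩ := H5.exists_int_of_isIntegral_rat (h4 ▸ hr)
  obtain ⟨s', hs'⟩ := H5.exists_int_of_isIntegral_rat (h5 ▸ hs)
  exact ⟨r', s', by rw [h4, hr']; simp, by rw [h5, hs']; simp⟩

/-- Groups of Wielandt type: if a primitive group of degree `2m` has rank 3 and permutation character `1 + χ₁ + χ₂` with irreducible `χ₁, χ₂` of degrees `m - 1` and `m`, then `m = 2a² + 2a + 1` for some positive integer `a` and the two non-trivial subdegrees are `a(2a+1)` and `(a+1)(2a+1)`. -/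
theorem result {G : Type*} [Group G] [Fintype G] {Ω : Type*} [Fintype Ω] [MulAction G Ω] (hprim : MulAction.IsPreprimitive G Ω) {m : ℕ} (hm : Fintype.card Ω = 2 * m) (a₀ : Ω) (hrank : Nat.card (MulAction.orbitRel.Quotient (MulAction.stabilizer G a₀) Ω) = 3) (χ₁ χ₂ : G → ℂ) (h₁ : Cfsg.IsIrrCharacter G χ₁) (h₂ : Cfsg.IsIrrCharacter G χ₂) (hπ : (fun g : G => (Nat.card (MulAction.fixedBy Ω g) : ℂ)) = fun g => 1 + χ₁ g + χ₂ g) (hd₁ : χ₁ 1 = (m : ℂ) - 1) (hd₂ : χ₂ 1 = m) : ∃ a : ℕ, 0 < a ∧ m = 2 * a ^ 2 + 2 * a + 1 ∧ ∀ b : Ω, b ≠ a₀ → Nat.card (MulAction.orbit (MulAction.stabilizer G a₀) b) = a * (2 * a + 1) ∨ Nat.card (MulAction.orbit (MulAction.stabilizer G a₀) b) = (a + 1) * (2 * a + 1) := by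
  classical
  have : Nonempty Ω := ⟨a₀⟩
  have htrans : MulAction.IsPretransitive G Ω := hprim.toIsPretransitive
  have hm2 : 2 ≤ m := by
    obtain ⟨d, hd, hd'⟩ := H5.exists_pos_nat_degree h₁
    have : (m : ℂ) = d + 1 := by linear_combination hd' - hd₁
    have : m = d + 1 := by exact_mod_cast this
    omega
  have h12 : χ₁ ≠ χ₂ := by
    rintro rfl
    have : (1 : ℂ) = 0 := by linear_combination hd₁ - hd₂
    exact one_ne_zero this
  have hinner : ∀ ψ : G → ℂ, classInner (fun g : G => (Nat.card (MulAction.fixedBy Ω g) : ℂ)) ψ =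
      classInner (fun _ => 1) ψ + classInner χ₁ ψ + classInner χ₂ ψ := by
    intro ψ
    rw [hπ, ← H5.classInner_add_left, ← H5.classInner_add_left]
    rfl
  have h0 := hinner fun _ => 1
  rw [H25.classInner_perm_triv, H5.classInner_irr_self H5.isIrrCharacter_one] at h0
  have h01 : χ₁ ≠ fun _ => 1 := by
    intro h
    rw [H5.classInner_irr_ne h₂ H5.isIrrCharacter_one (h ▸ h12.symm), h,
      H5.classInner_irr_self H5.isIrrCharacter_one] at h0
    norm_num at h0
  have h02 : χ₂ ≠ fun _ => 1 := by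
    intro h
    rw [H5.classInner_irr_ne h₁ H5.isIrrCharacter_one h01, h,
      H5.classInner_irr_self H5.isIrrCharacter_one] at h0
    norm_num at h0
  let Q := MulAction.orbitRel.Quotient (MulAction.stabilizer G a₀) Ω
  have hfix : ∀ b : Ω, b ≠ a₀ → ¬ MulAction.stabilizer G a₀ ≤ MulAction.stabilizer G b := by
    intro b hb hle
    have h3 := fixes_all hprim hb hle
    have h4 : Function.Bijective (Quotient.mk'' : Ω → Q) := by
      refine ⟨fun x y hxy => ?_, Quotient.mk''_surjective⟩
      obtain ⟨g, hg⟩ := MulAction.orbitRel_apply.mp (Quotient.exact' hxy)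
      have : (g : G) ∈ MulAction.stabilizer G y := by rw [h3 y]; exact g.2
      exact hg.symm.trans this
    have h5 := Nat.card_eq_of_bijective _ h4
    rw [hrank, Nat.card_eq_fintype_card, hm] at h5
    omega
  have key : ∀ b : Ω, b ≠ a₀ → ∃ a : ℕ, 0 < a ∧ m = 2 * a ^ 2 + 2 * a + 1 ∧
      (Nat.card (MulAction.orbit (MulAction.stabilizer G a₀) b) = a * (2 * a + 1) ∨
        Nat.card (MulAction.orbit (MulAction.stabilizer G a₀) b) = (a + 1) * (2 * a + 1)) := by
    intro b hb
    set O := MulAction.orbit (MulAction.stabilizer G a₀) b with hO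
    have hbO : b ∈ O := MulAction.mem_orbit_self b
    have haO : a₀ ∉ O := fun h => by
      obtain ⟨g, h1, h2⟩ := H25.mem_orbit_stabilizer_iff.mp h
      exact hb (MulAction.injective g (h2.trans h1.symm))
    have hk2 : 2 ≤ Nat.card O := by
      by_contra hlt
      have h3 : O.Subsingleton := by
        rw [← Set.ncard_le_one_iff_subsingleton, ← Nat.card_coe_set_eq]
        omega
      exact hfix b hb fun g hg => h3 ⟨⟨g, hg⟩, rfl⟩ hbO
    have hcompl : (insert a₀ O)ᶜ.ncard + Nat.card O + 1 = 2 * m := by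
      rw [← hm, ← Nat.card_eq_fintype_card, ← Set.ncard_add_ncard_compl (insert a₀ O),
        Set.ncard_insert_of_notMem haO, Nat.card_coe_set_eq]
      ring
    have hk3 : 2 ≤ (insert a₀ O)ᶜ.ncard := by
      by_contra hlt
      have h3 : (insert a₀ O)ᶜ.Subsingleton := by
        rw [← Set.ncard_le_one_iff_subsingleton]
        omega
      rcases h3.eq_empty_or_singleton with h4 | ⟨c, h4⟩
      · have h5 : (Set.univ : Set Q) ⊆ {Quotient.mk'' a₀, Quotient.mk'' b} := by
          intro q _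
          induction q using Quotient.inductionOn' with
          | h x =>
            have : x ∈ insert a₀ O := by rw [Set.compl_empty_iff.mp h4]; trivial
            rcases this with rfl | hx
            · exact Or.inl rfl
            · exact Or.inr (Quotient.sound' (MulAction.orbitRel_apply.mpr hx))
        have h6 := (Set.ncard_le_ncard h5).trans (Set.ncard_insert_le _ _)
        rw [Set.ncard_univ, hrank, Set.ncard_singleton] at h6
        omega
      · have hc : c ∈ (insert a₀ O)ᶜ := by rw [h4]; rfl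
        refine hfix c (fun h => hc (Or.inl h)) fun g hg => ?_
        have : g • c ∈ (insert a₀ O)ᶜ := by
          rintro (h | h)
          · exact hc (Or.inl (MulAction.injective g (h.trans hg.symm)))
          · refine hc (Or.inr ?_)
            obtain ⟨u, h1, h2⟩ := H25.mem_orbit_stabilizer_iff.mp h
            exact H25.mem_orbit_stabilizer_iff.mpr ⟨g⁻¹ * u, by
              rw [mul_smul, h1, inv_smul_eq_iff]; exact hg.symm, by
              rw [mul_smul, h2, inv_smul_smul]⟩
        rwa [h4] at this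
    obtain ⟨μ, h1, h2, h3, h4⟩ := H25.exists_spec_matrix (G := G) (H25.orbMat G a₀ b)
      (H25.orbMat_smul a₀ b) a₀
    rw [H25.sum_orbMat, ← hO] at h3
    obtain ⟨r, hr⟩ : ∃ r, μ ⟨χ₁, h₁⟩ = {r} := by
      have := h1 ⟨χ₁, h₁⟩
      rw [hinner, H5.classInner_irr_ne H5.isIrrCharacter_one h₁ h01.symm,
        H5.classInner_irr_self h₁, H5.classInner_irr_ne h₂ h₁ h12.symm, zero_add, add_zero] at this
      exact Multiset.card_eq_one.mp (by exact_mod_cast this)
    obtain ⟨s, hs⟩ : ∃ s, μ ⟨χ₂, h₂⟩ = {s} := by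
      have := h1 ⟨χ₂, h₂⟩
      rw [hinner, H5.classInner_irr_ne H5.isIrrCharacter_one h₂ h02.symm,
        H5.classInner_irr_self h₂, H5.classInner_irr_ne h₁ h₂ h12, zero_add, zero_add] at this
      exact Multiset.card_eq_one.mp (by exact_mod_cast this)
    have htr : ∀ j : ℕ, ((∑ x, (H25.orbMat G a₀ b ^ j) x x : ℤ) : ℂ) =
        (Nat.card O : ℂ) ^ j + (((m : ℂ) - 1) * r ^ j + m * s ^ j) := by
      intro j
      have h5 := h4 j 1
      simp only [one_smul] at h5
      rw [h5, ← Finset.sum_subset (Finset.subset_univ {H25.trivChar G, ⟨χ₁, h₁⟩, ⟨χ₂, h₂⟩}),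
        Finset.sum_insert, Finset.sum_pair, h3, hr, hs]
      · simp only [H25.trivChar, Multiset.map_singleton, Multiset.sum_singleton, hd₁, hd₂,
          Int.cast_natCast]
        ring
      · exact fun h => h12 (congrArg Subtype.val h)
      · simp only [Finset.mem_insert, Finset.mem_singleton, not_or]
        exact ⟨fun h => h01 (congrArg Subtype.val h).symm,
          fun h => h02 (congrArg Subtype.val h).symm⟩
      · intro ψ _ hψ
        simp only [Finset.mem_insert, Finset.mem_singleton, not_or] at hψ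
        have := h1 ψ
        rw [hinner, H5.classInner_irr_ne H5.isIrrCharacter_one ψ.2
            (fun h => hψ.1 (Subtype.ext h.symm)),
          H5.classInner_irr_ne h₁ ψ.2 (fun h => hψ.2.1 (Subtype.ext h.symm)),
          H5.classInner_irr_ne h₂ ψ.2 (fun h => hψ.2.2 (Subtype.ext h.symm)), add_zero,
          add_zero] at this
        rw [Multiset.card_eq_zero.mp (by exact_mod_cast this : (μ ψ).card = 0)]
        simp
    obtain ⟨r', s', rfl, rfl⟩ := exists_int hm2 (h2 _ r (by rw [hr]; simp))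
      (h2 _ s (by rw [hs]; simp))
      (p₁ := (∑ x, (H25.orbMat G a₀ b ^ 1) x x) - (Nat.card O : ℤ) ^ 1)
      (p₂ := (∑ x, (H25.orbMat G a₀ b ^ 2) x x) - (Nat.card O : ℤ) ^ 2)
      (p₃ := (∑ x, (H25.orbMat G a₀ b ^ 3) x x) - (Nat.card O : ℤ) ^ 3)
      (by rw [Int.cast_sub, htr]; push_cast; ring) (by rw [Int.cast_sub, htr]; push_cast; ring)
      (by rw [Int.cast_sub, htr]; push_cast; ring)
    have e1 : (Nat.card O : ℤ) + ((m : ℤ) - 1) * r' + m * s' = 0 := by
      have h5 := htr 1
      simp only [pow_one, H25.orbMat_diag hb, Finset.sum_const_zero] at h5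
      have h6 : (((Nat.card O : ℤ) + ((m : ℤ) - 1) * r' + m * s' : ℤ) : ℂ) = ((0 : ℤ) : ℂ) := by
        rw [h5]; push_cast; ring
      exact_mod_cast h6
    have e2 : (Nat.card O : ℤ) ^ 2 + ((m : ℤ) - 1) * r' ^ 2 + m * s' ^ 2 =
        ∑ x, ∑ y, H25.orbMat G a₀ b x y * H25.orbMat G a₀ b y x := by
      have h5 := htr 2
      simp only [sq (H25.orbMat G a₀ b), Matrix.mul_apply] at h5
      apply Int.cast_injective (α := ℂ)
      rw [h5]; push_cast; ring
    have e3 : ∑ x, ∑ y, H25.orbMat G a₀ b x y * H25.orbMat G a₀ b y x = 2 * m * Nat.card O := by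
      by_cases hw : ∃ w : G, w • a₀ = b ∧ w • b = a₀
      · obtain ⟨w, hw1, hw2⟩ := hw
        have h5 : ∀ x y, H25.orbMat G a₀ b x y * H25.orbMat G a₀ b y x = H25.orbMat G a₀ b x y := by
          intro x y
          by_cases h : ∃ g : G, g • a₀ = x ∧ g • b = y
          · obtain ⟨g, rfl, rfl⟩ := h
            rw [H25.orbMat_eq_one (x := g • b) ⟨g * w, by rw [mul_smul, hw1], by
              rw [mul_smul, hw2]⟩, mul_one]
          · rw [H25.orbMat_eq_zero h, zero_mul]
        simp only [h5]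
        rw [Finset.sum_congr rfl fun x _ =>
          H25.rowSum_eq _ (H25.orbMat_smul (G := G) a₀ b) a₀ x, H25.sum_orbMat]
        simp [hm, hO]
      · exfalso
        have h5 : ∀ x y, H25.orbMat G a₀ b x y * H25.orbMat G a₀ b y x = 0 := by
          intro x y
          by_cases h : ∃ g : G, g • a₀ = x ∧ g • b = y
          · obtain ⟨g, rfl, rfl⟩ := h
            rw [H25.orbMat_eq_zero (x := g • b), mul_zero]
            rintro ⟨u, h6, h7⟩
            exact hw ⟨g⁻¹ * u, by rw [mul_smul, h6, inv_smul_smul],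
              by rw [mul_smul, h7, inv_smul_smul]⟩
          · rw [H25.orbMat_eq_zero h, zero_mul]
        simp only [h5, Finset.sum_const_zero] at e2
        have h6 : (2 : ℤ) ≤ m := by exact_mod_cast hm2
        have h7 : (2 : ℤ) ≤ Nat.card O := by exact_mod_cast hk2
        nlinarith [sq_nonneg r', sq_nonneg s']
    obtain ⟨a, ha0, ha1, ha2⟩ := arith (by exact_mod_cast hm2) e1 (e2.trans e3)
      (by exact_mod_cast hk2) (by omega)
    exact ⟨a, ha0, by exact_mod_cast ha1, by exact_mod_cast ha2⟩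
  obtain ⟨b₀, hb₀⟩ := Fintype.exists_ne_of_one_lt_card (by omega) a₀
  obtain ⟨a, ha0, ha1, -⟩ := key b₀ hb₀
  refine ⟨a, ha0, ha1, fun b hb => ?_⟩
  obtain ⟨a', -, ha', h⟩ := key b hb
  have : a' = a := by
    rcases lt_trichotomy a' a with h | h | h
    · nlinarith
    · exact h
    · nlinarith
  rwa [this] at h

end Cfsg.Agent.S0719
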