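import Cfsg.Statements.S0724
import Mathlib.GroupTheory.GroupAction.Quotient
import Mathlib.Algebra.Polynomial.Eval.Defs
import Mathlib.Algebra.Polynomial.BigOperators

set_option autoImplicit false
open Cfsg

namespace Cfsg.Agent.S0724

open MulAction

theorem dvd_sum_pow {G α : Type*} [Group G] [Fintype G] [MulAction G α] [Fintype α] (k : ℕ) :
    Fintype.card G ∣ ∑ g : G, Nat.card (fixedBy α g) ^ k := by
  classical
  have h := sum_card_fixedBy_eq_card_orbits_mul_card_group G (Fin k → α)
  refine ⟨Fintype.card (Quotient (orbitRel G (Fin k → α))), ?_⟩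
  rw [mul_comm, ← h]
  refine Finset.sum_congr rfl fun g _ => ?_
  rw [← Nat.card_eq_fintype_card]
  have e : (Fin k → fixedBy α g) ≃ fixedBy (Fin k → α) g :=
    { toFun := fun f => ⟨fun i => f i, funext fun i => (f i).2⟩
      invFun := fun f i => ⟨f.1 i, congrFun f.2 i⟩
      left_inv := fun f => rfl
      right_inv := fun f => rfl }
  rw [← Nat.card_congr e, Nat.card_fun, Nat.card_fin]

theorem dvd_sum_poly {G α : Type*} [Group G] [Fintype G] [MulAction G α] [Fintype α]
    (P : Polynomial ℤ) :
    (Fintype.card G : ℤ) ∣ ∑ g : G, P.eval (Nat.card (fixedBy α g) : ℤ) := by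
  induction P using Polynomial.induction_on' with
  | add p q hp hq =>
    simp only [Polynomial.eval_add, Finset.sum_add_distrib]
    exact dvd_add hp hq
  | monomial n a =>
    simp only [Polynomial.eval_monomial, ← Finset.mul_sum]
    apply Dvd.dvd.mul_left
    exact_mod_cast dvd_sum_pow (G := G) (α := α) n

/-- Blichfeldt's Theorem: if a finite set `L` of natural numbers contains the number of fixed points of every non-identity element of a permutation group `G` of degree `n`, then the order of `G` divides `∏ (n - l)` over `l ∈ L`. -/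
theorem result {α : Type*} [Fintype α] [DecidableEq α] (G : Subgroup (Equiv.Perm α)) (L : Finset ℕ) (hL : ∀ g ∈ G, g ≠ 1 → Nat.card (MulAction.fixedBy α g) ∈ L) : Nat.card G ∣ ∏ l ∈ L, (Fintype.card α - l) := by
  classical
  have : Fintype G := Fintype.ofFinite G
  by_cases hle : ∀ l ∈ L, l ≤ Fintype.card α
  · have h := dvd_sum_poly (G := G) (α := α) (∏ l ∈ L, (Polynomial.X - Polynomial.C (l : ℤ)))
    rw [Finset.sum_eq_single (1 : G)] at h
    · rw [Nat.card_eq_fintype_card, ← Int.natCast_dvd_natCast, Nat.cast_prod]
      convert h using 1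
      rw [Polynomial.eval_prod]
      refine Finset.prod_congr rfl fun l hl => ?_
      rw [Nat.cast_sub (hle l hl), fixedBy_one_eq_univ, Nat.card_univ, Nat.card_eq_fintype_card]
      simp
    · intro g _ hg
      rw [Polynomial.eval_prod]
      refine Finset.prod_eq_zero (hL g g.2 (fun e => hg (Subtype.ext e))) ?_
      rw [Polynomial.eval_sub, Polynomial.eval_X, Polynomial.eval_C]
      exact sub_self _
    · simp
  · push Not at hle
    obtain ⟨l, hl, hlt⟩ := hle
    rw [Finset.prod_eq_zero hl (by omega)]
    exact dvd_zero _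

end Cfsg.Agent.S0724
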