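import Cfsg.Statements.S0735
import Cfsg.Agent.H26.Basic

set_option autoImplicit false
open Cfsg

namespace Cfsg.Agent.S0735

open MulAction Cfsg.Agent.H26
open scoped Pointwise

theorem pair {G α : Type*} [Group G] [MulAction G α] [DecidableEq α]
    (h2 : IsPretransitive G (Set.powersetCard α 2)) {a b c d : α} (hab : a ≠ b) (hcd : c ≠ d) :
    ∃ g : G, (g • a = c ∧ g • b = d) ∨ (g • a = d ∧ g • b = c) := by
  obtain ⟨g, hg⟩ := homog_iff.1 h2 {a, b} {c, d} (Finset.card_pair hab) (Finset.card_pair hcd)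
  refine ⟨g, ?_⟩
  rw [Finset.smul_finset_insert, Finset.smul_finset_singleton] at hg
  have h1 : g • a ∈ ({c, d} : Finset α) := hg ▸ by simp
  have h3 : g • b ∈ ({c, d} : Finset α) := hg ▸ by simp
  have h4 : g • a ≠ g • b := fun e => hab (MulAction.injective g e)
  simp only [Finset.mem_insert, Finset.mem_singleton] at h1 h3
  rcases h1 with h1 | h1 <;> rcases h3 with h3 | h3
  · exact absurd (h1.trans h3.symm) h4
  · exact Or.inl ⟨h1, h3⟩
  · exact Or.inr ⟨h1, h3⟩
  · exact absurd (h1.trans h3.symm) h4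

theorem two_trans_of_swap {G α : Type*} [Group G] [MulAction G α] [DecidableEq α]
    (h2 : IsPretransitive G (Set.powersetCard α 2)) {a b : α} (hab : a ≠ b) (t : G)
    (hta : t • a = b) (htb : t • b = a) : IsMultiplyPretransitive G α 2 := by
  have key : ∀ {c d : α}, c ≠ d → ∃ g : G, g • a = c ∧ g • b = d := by
    intro c d hcd
    obtain ⟨g, hg | hg⟩ := pair h2 hab hcd
    · exact ⟨g, hg⟩
    · exact ⟨g * t, by rw [mul_smul, hta, hg.2], by rw [mul_smul, htb, hg.1]⟩
  rw [is_two_pretransitive_iff]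
  intro x y z w hxy hzw
  obtain ⟨g, hg⟩ := key hxy
  obtain ⟨h, hh⟩ := key hzw
  exact ⟨h * g⁻¹, by rw [mul_smul, ← hg.1, inv_smul_smul, hh.1],
    by rw [mul_smul, ← hg.2, inv_smul_smul, hh.2]⟩

theorem prim {G α : Type*} [Group G] [MulAction G α] [Fintype α] [DecidableEq α]
    (h2 : IsPretransitive G (Set.powersetCard α 2)) (hα : 3 ≤ Fintype.card α) :
    IsPreprimitive G α := by
  have htr : IsPretransitive G α := by
    refine ⟨fun x y => ?_⟩
    by_cases hxy : x = y
    · exact ⟨1, by rw [one_smul, hxy]⟩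
    obtain ⟨z, hz⟩ : ∃ z, z ∉ ({x, y} : Finset α) := by
      by_contra hcon
      push Not at hcon
      have h3 : ({x, y} : Finset α) = Finset.univ := Finset.eq_univ_iff_forall.2 hcon
      have := Finset.card_pair hxy
      rw [h3, Finset.card_univ] at this
      omega
    simp only [Finset.mem_insert, Finset.mem_singleton, not_or] at hz
    obtain ⟨g, hg | hg⟩ := pair h2 (Ne.symm hz.1) hxy
    · obtain ⟨h, hh | hh⟩ := pair h2 (Ne.symm hz.2) hxy
      · exact ⟨h⁻¹, by rw [← hh.1, inv_smul_smul]⟩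
      · exact ⟨g * h⁻¹, by rw [mul_smul, ← hh.2, inv_smul_smul, hg.2]⟩
    · exact ⟨g, hg.1⟩
  refine ⟨fun {B} hB => ?_⟩
  rcases B.subsingleton_or_nontrivial with hs | ⟨a, ha, b, hb, hab⟩
  · exact Or.inl hs
  right
  rw [isBlock_iff_smul_eq_of_mem] at hB
  rw [Set.eq_univ_iff_forall]
  intro c
  by_cases hac : a = c
  · exact hac ▸ ha
  obtain ⟨g, hg | hg⟩ := pair h2 hab hac
  · rw [← hB (g := g) ha (by rwa [hg.1]), ← hg.2]
    exact Set.smul_mem_smul_set hb
  · rw [← hB (g := g) hb (by rwa [hg.2]), ← hg.1]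
    exact Set.smul_mem_smul_set ha

/-- A 2-homogeneous permutation group (transitive on 2-subsets) of even order is doubly transitive; a non-trivial 2-homogeneous group is primitive. -/
theorem result {α : Type*} [Fintype α] [DecidableEq α] (G : Subgroup (Equiv.Perm α)) (h2 : MulAction.IsPretransitive G (Set.powersetCard α 2)) (hα : 3 ≤ Fintype.card α) : (Even (Nat.card G) → MulAction.IsMultiplyPretransitive G α 2) ∧ (G ≠ ⊥ → MulAction.IsPreprimitive G α) := by
  refine ⟨fun he => ?_, fun _ => prim h2 hα⟩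
  obtain ⟨t, ht⟩ := exists_prime_orderOf_dvd_card' 2 (even_iff_two_dvd.1 he)
  have ht1 : t ≠ 1 := by
    rintro rfl
    simp at ht
  obtain ⟨a, ha⟩ : ∃ a : α, t • a ≠ a := by
    by_contra hcon
    push Not at hcon
    exact ht1 (Subtype.ext (Equiv.ext hcon))
  refine two_trans_of_swap h2 (Ne.symm ha) t rfl ?_
  rw [← mul_smul, ← pow_two, ← ht, pow_orderOf_eq_one, one_smul]

end Cfsg.Agent.S0735
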