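import Cfsg.Statements.S0736
import Cfsg.Agent.H26.Basic
import Mathlib.Data.Nat.Choose.Basic
import Mathlib.Data.Nat.Factorization.Basic
import Mathlib.Data.Nat.Choose.Lucas

set_option autoImplicit false
open Cfsg

namespace Cfsg.Agent.S0736

open MulAction Cfsg.Agent.H26
open scoped Pointwise

section count

variable {α : Type*} [DecidableEq α] (O : Finset (Finset α))

/-- members of `O` between `A` and `A ∪ B` -/
def F (A B : Finset α) : ℕ := (O.filter fun S => A ⊆ S ∧ S ⊆ A ∪ B).card

theorem F_insert (A B : Finset α) (x : α) (hA : x ∉ A) (hB : x ∉ B) :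
    F O A (insert x B) = F O (insert x A) B + F O A B := by
  unfold F
  rw [← Finset.card_filter_add_card_filter_not (s := O.filter fun S => A ⊆ S ∧ S ⊆ A ∪ insert x B)
    (fun S => x ∈ S), Finset.filter_filter, Finset.filter_filter]
  congr 2
  · apply Finset.filter_congr
    intro S _
    rw [Finset.union_insert, Finset.insert_union, Finset.insert_subset_iff]
    tauto
  · apply Finset.filter_congr
    intro S _
    rw [Finset.union_insert]
    constructor
    · rintro ⟨⟨h1, h2⟩, h3⟩
      exact ⟨h1, (Finset.subset_insert_iff_of_notMem h3).1 h2⟩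
    · rintro ⟨h1, h2⟩
      refine ⟨⟨h1, h2.trans (Finset.subset_insert _ _)⟩, fun h => ?_⟩
      rcases Finset.mem_union.1 (h2 h) with h | h
      · exact hA h
      · exact hB h

theorem sum_erase {k : ℕ} (hO : ∀ S ∈ O, S.card = k) (B : Finset α) :
    ∑ x ∈ B, F O ∅ (B.erase x) = (B.card - k) * F O ∅ B := by
  unfold F
  simp only [Finset.empty_subset, Finset.empty_union, true_and, Finset.card_filter]
  rw [Finset.sum_comm, Finset.mul_sum]
  refine Finset.sum_congr rfl fun S hS => ?_
  split_ifs with h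
  · rw [← Finset.card_filter, mul_one, ← hO S hS, ← Finset.card_sdiff_of_subset h]
    congr 1
    ext x
    simp [Finset.subset_erase, h]
  · rw [mul_zero]
    refine Finset.sum_eq_zero fun x _ => ?_
    rw [if_neg]
    exact fun h' => h (h'.trans (Finset.erase_subset _ _))

theorem base {k a : ℕ} (hO : ∀ S ∈ O, S.card = k)
    (ha : ∀ T : Finset α, T.card = k + 1 → F O ∅ T = a) (i : ℕ) :
    ∀ B : Finset α, B.card = k + 1 + i → (k + 1) * F O ∅ B = a * B.card.choose k := by
  induction i with
  | zero =>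
    intro B hB
    rw [ha B hB, hB, add_zero, Nat.choose_succ_self_right, mul_comm]
  | succ i ih =>
    intro B hB
    have h1 := sum_erase O hO B
    have h2 : (k + 1) * ∑ x ∈ B, F O ∅ (B.erase x) = B.card * (a * (k + 1 + i).choose k) := by
      rw [Finset.mul_sum, Finset.sum_congr rfl (g := fun _ => a * (k + 1 + i).choose k)]
      · simp
      · intro x hx
        have : (B.erase x).card = k + 1 + i := by rw [Finset.card_erase_of_mem hx]; omega
        rw [ih _ this, this]
    rw [h1, hB] at h2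
    have h3 := Nat.choose_mul_succ_eq (k + 1 + i) k
    rw [hB]
    have h4 : k + 1 + (i + 1) - k = i + 2 := by omega
    have h5 : k + 1 + i + 1 - k = i + 2 := by omega
    rw [h4] at h2
    rw [h5] at h3
    apply Nat.eq_of_mul_eq_mul_left (show 0 < i + 2 by omega)
    have h6 : k + 1 + (i + 1) = k + 1 + i + 1 := by omega
    rw [h6] at h2 ⊢
    calc (i + 2) * ((k + 1) * F O ∅ B) = (k + 1) * ((i + 2) * F O ∅ B) := by ring
      _ = a * ((k + 1 + i).choose k * (k + 1 + i + 1)) := by rw [h2]; ring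
      _ = _ := by rw [h3]; ring

theorem step {k a : ℕ} (hO : ∀ S ∈ O, S.card = k)
    (ha : ∀ T : Finset α, T.card = k + 1 → F O ∅ T = a) (j : ℕ) :
    ∀ A B : Finset α, Disjoint A B → A.card = j → j ≤ k → k + 1 ≤ B.card →
      (k + 1) * F O A B = a * B.card.choose (k - j) := by
  induction j with
  | zero =>
    intro A B _ hA _ hB
    rw [Finset.card_eq_zero.1 hA]
    exact base O hO ha (B.card - (k + 1)) B (by omega)
  | succ j ih =>
    intro A B hAB hA hj hB
    obtain ⟨x, A', hx, rfl, hA'⟩ := Finset.card_eq_succ.1 hA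
    rw [Finset.disjoint_insert_left] at hAB
    have h1 := ih A' B hAB.2 hA' (by omega) hB
    have h2 := ih A' (insert x B) (by
      rw [Finset.disjoint_insert_right]; exact ⟨hx, hAB.2⟩) hA' (by omega) (by
      rw [Finset.card_insert_of_notMem hAB.1]; omega)
    rw [F_insert O A' B x hx hAB.1, Finset.card_insert_of_notMem hAB.1, mul_add, h1,
      show k - j = (k - (j + 1)) + 1 by omega, Nat.choose_succ_succ, mul_add] at h2
    exact Nat.add_right_cancel h2

end count

theorem not_dvd_choose {p e k : ℕ} (hp : p.Prime) (hk : p ^ e ∣ k + 1) :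
    ¬ p ∣ k.choose (p ^ e - 1) := by
  have := Fact.mk hp
  induction e generalizing k with
  | zero => simpa using hp.one_lt.ne'
  | succ e ih =>
    obtain ⟨c, hc⟩ := hk
    have hc0 : c ≠ 0 := by rintro rfl; simp at hc
    have hpe : 0 < p ^ e := pow_pos hp.pos e
    have h0 : 0 < p ^ e * c := Nat.mul_pos hpe (Nat.pos_of_ne_zero hc0)
    have hk' : k = (p - 1) + p * (p ^ e * c - 1) := by
      have : p * (p ^ e * c - 1) = p ^ (e + 1) * c - p := by
        rw [Nat.mul_sub_one]; congr 1; ring
      have h2 : p ≤ p ^ (e + 1) * c := by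
        rw [pow_succ', mul_assoc]; exact Nat.le_mul_of_pos_right _ h0
      have := hp.pos
      omega
    have hq' : p ^ (e + 1) - 1 = (p - 1) + p * (p ^ e - 1) := by
      have : p * (p ^ e - 1) = p ^ (e + 1) - p := by
        rw [Nat.mul_sub_one]; congr 1; ring
      have h2 : p ≤ p ^ (e + 1) := by
        rw [pow_succ']; exact Nat.le_mul_of_pos_right _ hpe
      have := hp.pos
      omega
    have hlt : p - 1 < p := Nat.sub_lt hp.pos one_pos
    have hL := Choose.choose_modEq_choose_mod_mul_choose_div_nat (n := k) (k := p ^ (e + 1) - 1)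
      (p := p)
    have e1 : k % p = p - 1 := by rw [hk', Nat.add_mul_mod_self_left, Nat.mod_eq_of_lt hlt]
    have e2 : k / p = p ^ e * c - 1 := by
      rw [hk', Nat.add_mul_div_left _ _ hp.pos, Nat.div_eq_of_lt hlt, zero_add]
    have e3 : (p ^ (e + 1) - 1) % p = p - 1 := by
      rw [hq', Nat.add_mul_mod_self_left, Nat.mod_eq_of_lt hlt]
    have e4 : (p ^ (e + 1) - 1) / p = p ^ e - 1 := by
      rw [hq', Nat.add_mul_div_left _ _ hp.pos, Nat.div_eq_of_lt hlt, zero_add]
    rw [e1, e2, e3, e4, Nat.choose_self, one_mul] at hL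
    intro h
    exact ih (k := p ^ e * c - 1) ⟨c, by omega⟩ ((hL.dvd_iff dvd_rfl).1 h)

theorem general {G α : Type*} [Group G] [MulAction G α] [Fintype α] [DecidableEq α] {k : ℕ}
    (hG : IsPretransitive G (Set.powersetCard α (k + 1))) (hkn : k + 1 ≤ Fintype.card α)
    (hq : ∀ q : ℕ, IsPrimePow q → q ∣ k + 1 → k + q ≤ Fintype.card α) :
    IsPretransitive G (Set.powersetCard α k) := by
  classical
  rw [homog_iff] at hG ⊢
  intro s t hs ht
  by_contra hcon
  push Not at hcon
  let O : Finset (Finset α) := Finset.univ.filter fun S => ∃ g : G, g • s = S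
  have hmem : ∀ S, S ∈ O ↔ ∃ g : G, g • s = S := fun S => by simp [O]
  have hO : ∀ S ∈ O, S.card = k := by
    intro S hS
    obtain ⟨g, rfl⟩ := (hmem S).1 hS
    rw [Finset.card_smul_finset, hs]
  have hext : ∀ u : Finset α, u.card = k → ∃ T : Finset α, u ⊆ T ∧ T.card = k + 1 := by
    intro u hu
    obtain ⟨T, h1, -, h2⟩ := Finset.exists_subsuperset_card_eq (Finset.subset_univ u)
      (show u.card ≤ k + 1 by omega) (by rw [Finset.card_univ]; exact hkn)
    exact ⟨T, h1, h2⟩
  obtain ⟨T₀, hsT, hT₀⟩ := hext s hs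
  obtain ⟨T₁, htT, hT₁⟩ := hext t ht
  have hle : ∀ (g : G) (T : Finset α), F O ∅ T ≤ F O ∅ (g • T) := by
    intro g T
    unfold F
    apply Finset.card_le_card_of_injOn (fun S => g • S)
    · intro S hS
      simp only [Finset.coe_filter, Finset.empty_subset, Finset.empty_union, true_and,
        Set.mem_ofPred_eq] at hS ⊢
      obtain ⟨h, rfl⟩ := (hmem S).1 hS.1
      exact ⟨(hmem _).2 ⟨g * h, mul_smul _ _ _⟩, Finset.smul_finset_subset_smul_finset hS.2⟩
    · exact (MulAction.injective g).injOn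
  have ha : ∀ T : Finset α, T.card = k + 1 → F O ∅ T = F O ∅ T₀ := by
    intro T hT
    obtain ⟨g, rfl⟩ := hG T₀ T hT₀ hT
    refine le_antisymm ?_ (hle g T₀)
    simpa using hle g⁻¹ (g • T₀)
  have hpos : 0 < F O ∅ T₀ := by
    unfold F
    exact Finset.card_pos.2 ⟨s, by simp [hsT, (hmem s).2 ⟨1, one_smul _ _⟩]⟩
  have hlt : F O ∅ T₀ < k + 1 := by
    rw [← ha T₁ hT₁]
    have : (T₁.powersetCard k).card = k + 1 := by
      rw [Finset.card_powersetCard, hT₁, Nat.choose_succ_self_right]
    rw [← this]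
    apply Finset.card_lt_card
    rw [Finset.ssubset_iff_of_subset]
    · refine ⟨t, Finset.mem_powersetCard.2 ⟨htT, ht⟩, fun h => ?_⟩
      obtain ⟨g, hg⟩ := (hmem t).1 (Finset.mem_filter.1 h).1
      exact hcon g hg
    · intro S hS
      have := Finset.mem_filter.1 hS
      exact Finset.mem_powersetCard.2 ⟨by simpa using this.2.2, hO S this.1⟩
  have hdvd : k + 1 ∣ F O ∅ T₀ := by
    rw [Nat.dvd_iff_prime_pow_dvd_dvd]
    intro p e hp hpe
    rcases Nat.eq_zero_or_pos e with rfl | he
    · simp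
    have hq1 := hq (p ^ e) (hp.isPrimePow.pow he.ne') hpe
    have hq0 : 0 < p ^ e := pow_pos hp.pos e
    have hq2 : p ^ e ≤ k + 1 := Nat.le_of_dvd (by omega) hpe
    obtain ⟨A, hA1, hA2⟩ := Finset.exists_subset_card_eq (s := T₀ᶜ) (n := p ^ e - 1)
      (by rw [Finset.card_compl]; omega)
    have h1 := step O hO ha (p ^ e - 1) A T₀ (by
      rw [← Finset.subset_compl_iff_disjoint_right]; exact hA1) hA2 (by omega) hT₀.ge
    rw [hT₀, show k - (p ^ e - 1) = k + 1 - p ^ e by omega, Nat.choose_symm hq2] at h1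
    have h2 := Nat.add_one_mul_choose_eq k (p ^ e - 1)
    rw [show p ^ e - 1 + 1 = p ^ e by omega] at h2
    have h3 : p ^ e * F O A T₀ = F O ∅ T₀ * k.choose (p ^ e - 1) := by
      apply Nat.eq_of_mul_eq_mul_left (show 0 < k + 1 by omega)
      calc (k + 1) * (p ^ e * F O A T₀) = p ^ e * ((k + 1) * F O A T₀) := by ring
        _ = F O ∅ T₀ * ((k + 1).choose (p ^ e) * p ^ e) := by rw [h1]; ring
        _ = _ := by rw [← h2]; ring
    exact (Nat.Coprime.pow_left e ((Nat.Prime.coprime_iff_not_dvd hp).2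
      (not_dvd_choose hp hpe))).dvd_of_dvd_mul_right ⟨_, h3.symm⟩
  exact absurd (Nat.le_of_dvd hpos hdvd) (by omega)

/-- A `k`-homogeneous permutation group of degree `n`, `k ≥ 2`, with `k + q - 1 ≤ n` for every prime power `q` dividing `k`, is `(k-1)`-homogeneous. -/
theorem result {α : Type*} [Fintype α] [DecidableEq α] (G : Subgroup (Equiv.Perm α)) {k : ℕ} (hk : 2 ≤ k) (hG : MulAction.IsPretransitive G (Set.powersetCard α k)) (hq : ∀ q : ℕ, IsPrimePow q → q ∣ k → k + q - 1 ≤ Fintype.card α) : MulAction.IsPretransitive G (Set.powersetCard α (k - 1)) := by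
  obtain ⟨k, rfl⟩ : ∃ j, k = j + 1 := ⟨k - 1, by omega⟩
  obtain ⟨p, hp, hpk⟩ := Nat.exists_prime_and_dvd (show k + 1 ≠ 1 by omega)
  have h1 := hq p hp.isPrimePow hpk
  have h2 := hp.pos
  exact general hG (by omega) (fun q h3 h4 => by have := hq q h3 h4; omega)

end Cfsg.Agent.S0736
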