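import Cfsg.Statements.S0740
import Cfsg.Agent.H26.Zass

set_option autoImplicit false
open Cfsg

namespace Cfsg.Agent.S0740

open MulAction Cfsg.Agent.H26

/-- In a finite Zassenhaus group any two points `a ≠ b` are swapped by an involution; every such involution has exactly one fixed point when the degree is odd and 0 or 2 fixed points when the degree is even; and if the two-point stabiliser has even order, some such involution has exactly 2 fixed points. -/
theorem result {G Ω : Type*} [Group G] [Finite G] [MulAction G Ω] [Fintype Ω] (hZ : Cfsg.IsZassenhausGroup G Ω) {a b : Ω} (hab : a ≠ b) : (∃ s : G, orderOf s = 2 ∧ s • a = b ∧ s • b = a) ∧ (∀ s : G, orderOf s = 2 → s • a = b → s • b = a → (Odd (Fintype.card Ω) → Nat.card (MulAction.fixedBy Ω s) = 1) ∧ (Even (Fintype.card Ω) → Nat.card (MulAction.fixedBy Ω s) = 0 ∨ Nat.card (MulAction.fixedBy Ω s) = 2)) ∧ (Even (Fintype.card Ω) → Even (Nat.card ↥(MulAction.stabilizer G a ⊓ MulAction.stabilizer G b)) →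 ∃ s : G, orderOf s = 2 ∧ s • a = b ∧ s • b = a ∧ Nat.card (MulAction.fixedBy Ω s) = 2) := by
  have := hZ.1
  refine ⟨?_, ?_, ?_⟩
  · obtain ⟨s, h1, h2, h⟩ := exists_invol_swap hZ.2.1 hab
    exact ⟨s, orderOf_eq_two_iff'.2 ⟨h1, h2⟩, h⟩
  · intro s hs _ _
    obtain ⟨h1, h2⟩ := orderOf_eq_two_iff'.1 hs
    have h3 := (zass_fix3 hZ).card_fixedBy_le h1
    have h4 := card_fixedBy_modEq (α := Ω) (k := 1) Nat.prime_two (g := s) (by rwa [pow_one, pow_two])
    rw [Nat.card_eq_fintype_card, Nat.ModEq] at h4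
    rw [Nat.odd_iff, Nat.even_iff]
    omega
  · intro _ he
    obtain ⟨t, ht, ht1, ht2⟩ := exists_invol_mem he
    obtain ⟨k, hk⟩ := exists_conj_swap hZ.2.1 ht1 ht2 hab
    refine ⟨k * t * k⁻¹, orderOf_eq_two_iff'.2 ⟨by simpa using ht1,
      by simp [mul_assoc, ← mul_assoc t t, ht2]⟩, hk.1, hk.2, ?_⟩
    rw [card_fixedBy_conj, (zass_fix3 hZ).fixedBy_eq ht1 hab ht.1 ht.2, Nat.card_coe_set_eq,
      Set.ncard_pair hab]

end Cfsg.Agent.S0740
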