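import Cfsg.Statements.S0744
import Cfsg.Agent.S0743
import Mathlib.GroupTheory.Sylow

set_option autoImplicit false
open Cfsg

namespace Cfsg.Agent.S0744

open MulAction Cfsg.Agent.H26

theorem general {G α : Type*} [Group G] [Finite G] [MulAction G α] [FaithfulSMul G α] [Fintype α]
    {k : ℕ} (hk : 1 ≤ k) (hkn : k < Fintype.card α) (l m : ℕ) (hl : 1 < l)
    (hkm1 : ∀ s : Finset α, s.card = k → Nat.card (fixingSubgroup G (s : Set α)) = l)
    (hkm : ∀ s : Finset α, s.card = k + 1 → Nat.card (fixingSubgroup G (s : Set α)) = m) :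
    IsMultiplyPretransitive G α k := by
  classical
  have hle : ∀ (s : Finset α) (a : α), fixingSubgroup G ((insert a s : Finset α) : Set α) ≤
      fixingSubgroup G (s : Set α) := fun s a => fixingSubgroup_antitone G α (by simp)
  obtain ⟨s₀, hs₀⟩ : ∃ s : Finset α, s.card = k := by
    obtain ⟨s, -, hs⟩ := Finset.exists_subset_card_eq (s := (Finset.univ : Finset α)) (n := k)
      (by rw [Finset.card_univ]; omega)
    exact ⟨s, hs⟩
  obtain ⟨a₀, ha₀⟩ : ∃ a, a ∉ s₀ := by
    by_contra hcon
    push Not at hcon
    have h3 : s₀ = Finset.univ := Finset.eq_univ_iff_forall.2 hcon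
    rw [h3, Finset.card_univ] at hs₀
    omega
  have hdvd : m ∣ l := by
    rw [← hkm1 s₀ hs₀, ← hkm (insert a₀ s₀) (by rw [Finset.card_insert_of_notMem ha₀, hs₀])]
    exact Subgroup.card_dvd_of_le (hle _ _)
  have hne : m ≠ l := by
    intro hml
    have hbot : fixingSubgroup G (s₀ : Set α) = ⊥ := by
      rw [eq_bot_iff]
      intro g hg
      rw [Subgroup.mem_bot]
      apply eq_of_smul_eq_smul (α := α)
      intro a
      rw [one_smul]
      by_cases ha : a ∈ s₀
      · exact (mem_fixingSubgroup_iff G).1 hg a ha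
      · have := Subgroup.eq_of_le_of_card_ge (hle s₀ a) (by
          rw [hkm1 s₀ hs₀, hkm (insert a s₀) (by rw [Finset.card_insert_of_notMem ha, hs₀]), hml])
        rw [← this] at hg
        exact (mem_fixingSubgroup_iff G).1 hg a (by simp)
    have := hkm1 s₀ hs₀
    rw [hbot, Subgroup.card_bot] at this
    omega
  obtain ⟨t, rfl⟩ := hdvd
  have ht1 : t ≠ 1 := by rintro rfl; simp at hne
  have hm0 : m ≠ 0 := by rintro rfl; simp at hl
  have ht0 : t ≠ 0 := by rintro rfl; simp at hl
  obtain ⟨p, hp, hpt⟩ := Nat.exists_prime_and_dvd ht1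
  have := Fact.mk hp
  apply Cfsg.Agent.S0743.gleason hp hk hkn
  intro s hs
  let K := fixingSubgroup G (s : Set α)
  let P : Sylow p K := default
  refine ⟨(P : Subgroup K).map K.subtype, P.isPGroup'.map _, ?_⟩
  ext a
  constructor
  · intro ha
    by_contra has
    have hle' : (P : Subgroup K).map K.subtype ≤
        fixingSubgroup G ((insert a s : Finset α) : Set α) := by
      rintro _ ⟨u, hu, rfl⟩
      rw [mem_fixingSubgroup_iff]
      intro x hx
      rcases Finset.mem_insert.1 hx with rfl | hx
      · exact ha ⟨_, u, hu, rfl⟩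
      · exact (mem_fixingSubgroup_iff G).1 u.2 x hx
    have h1 := Subgroup.card_dvd_of_le hle'
    rw [hkm _ (by rw [Finset.card_insert_of_notMem has, hs]),
      Subgroup.card_map_of_injective K.subtype_injective, P.card_eq_multiplicity, hkm1 s hs,
      hp.pow_dvd_iff_le_factorization hm0, Nat.factorization_mul hm0 ht0] at h1
    have := hp.factorization_pos_of_dvd ht0 hpt
    simp only [Finsupp.add_apply] at h1
    omega
  · rintro ha ⟨_, u, hu, rfl⟩
    exact (mem_fixingSubgroup_iff G).1 u.2 a ha

/-- If for some `k > 1` the pointwise stabilisers of all `(k-1)`-subsets have the same order `> 1` and those of all `k`-subsets have the same order, then the group is `(k-1)`-transitive. -/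
theorem result {α : Type*} [Fintype α] [DecidableEq α] (G : Subgroup (Equiv.Perm α)) {k : ℕ} (hk : 1 < k) (hkn : k ≤ Fintype.card α) (l m : ℕ) (hl : 1 < l) (hkm1 : ∀ s : Finset α, s.card = k - 1 → Nat.card (fixingSubgroup G (s : Set α)) = l) (hkm : ∀ s : Finset α, s.card = k → Nat.card (fixingSubgroup G (s : Set α)) = m) : MulAction.IsMultiplyPretransitive G α (k - 1) :=
  general (by omega) (by omega) l m hl hkm1 (fun s hs => hkm s (by omega))

end Cfsg.Agent.S0744
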