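import Cfsg.Statements.S0754


set_option autoImplicit false
open Cfsg

namespace Cfsg.Agent.S0754

/-- In a field F with q^2 elements, every non-zero μ with μ^q = μ (that is, μ in the subfield of order q) has exactly q + 1 solutions λ of λ^(q+1) = μ. -/
theorem result {F : Type*} [Field F] [Fintype F] {q : ℕ} (hF : Fintype.card F = q ^ 2) (μ : F) (hμ : μ ≠ 0) (hμq : μ ^ q = μ) : Nat.card {x : F // x ^ (q + 1) = μ} = q + 1 := by
  classical
  have hq : 2 ≤ q := by
    have := Fintype.one_lt_card (α := F)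
    rw [hF] at this
    by_contra h
    have : q = 0 ∨ q = 1 := by omega
    rcases this with rfl | rfl <;> simp at this
  have hcard : Nat.card Fˣ = (q + 1) * (q - 1) := by
    rw [Nat.card_units, Nat.card_eq_fintype_card, hF]
    obtain ⟨r, rfl⟩ : ∃ r, q = r + 1 := ⟨q - 1, by omega⟩
    simp only [Nat.add_sub_cancel]
    exact Nat.sub_eq_of_eq_add (by ring)
  have h1 : Nat.card (powMonoidHom (q + 1) : Fˣ →* Fˣ).ker = q + 1 := by
    rw [IsCyclic.card_powMonoidHom_ker, hcard, Nat.gcd_mul_right_left]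
  have h2 : Nat.card (powMonoidHom (q + 1) : Fˣ →* Fˣ).range = q - 1 := by
    rw [IsCyclic.card_powMonoidHom_range, hcard, Nat.gcd_mul_right_left,
      Nat.mul_div_cancel_left _ (by omega)]
  have h3 : Nat.card (powMonoidHom (q - 1) : Fˣ →* Fˣ).ker = q - 1 := by
    rw [IsCyclic.card_powMonoidHom_ker, hcard, Nat.gcd_mul_left_left]
  have h4 : (powMonoidHom (q + 1) : Fˣ →* Fˣ).range ≤ (powMonoidHom (q - 1) : Fˣ →* Fˣ).ker := by
    rintro _ ⟨x, rfl⟩
    rw [MonoidHom.mem_ker, powMonoidHom_apply, powMonoidHom_apply, ← pow_mul, ← hcard,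
      pow_card_eq_one']
  have h5 := Subgroup.eq_of_le_of_card_ge h4 (by rw [h2, h3])
  have h6 : Units.mk0 μ hμ ∈ (powMonoidHom (q - 1) : Fˣ →* Fˣ).ker := by
    rw [MonoidHom.mem_ker, powMonoidHom_apply, Units.ext_iff, Units.val_pow_eq_pow_val,
      Units.val_mk0, Units.val_one]
    apply mul_right_cancel₀ hμ
    rw [← pow_succ, Nat.sub_add_cancel (by omega), hμq, one_mul]
  rw [← h5] at h6
  obtain ⟨a, ha⟩ := h6
  rw [powMonoidHom_apply, Units.ext_iff, Units.val_pow_eq_pow_val, Units.val_mk0] at ha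
  refine Eq.trans ?_ h1
  symm
  refine Nat.card_congr (Equiv.ofBijective (fun x => ⟨(a : F) * (x.1 : Fˣ), ?_⟩) ⟨?_, ?_⟩)
  · have := x.2
    rw [MonoidHom.mem_ker, powMonoidHom_apply, Units.ext_iff, Units.val_pow_eq_pow_val,
      Units.val_one] at this
    rw [mul_pow, ha, this, mul_one]
  · intro x y hxy
    have := congrArg Subtype.val hxy
    exact Subtype.ext (Units.ext (mul_left_cancel₀ a.ne_zero this))
  · rintro ⟨x, hx⟩
    have hx0 : x ≠ 0 := by
      rintro rfl
      exact hμ (by rw [← hx, zero_pow (by omega)])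
    refine ⟨⟨a⁻¹ * Units.mk0 x hx0, ?_⟩, Subtype.ext (by simp)⟩
    rw [MonoidHom.mem_ker, powMonoidHom_apply, Units.ext_iff, Units.val_pow_eq_pow_val,
      Units.val_one, Units.val_mul, mul_pow, Units.val_mk0, hx, Units.val_inv_eq_inv_val, inv_pow,
      ha, inv_mul_cancel₀ hμ]

end Cfsg.Agent.S0754
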