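import Cfsg.Statements.S0757
import Cfsg.Agent.H27.Orth

set_option autoImplicit false
open Cfsg

namespace Cfsg.Agent.S0757

theorem polar_wss {F : Type*} [Field F] {ι : Type*} [Fintype ι] [DecidableEq ι] (w : ι → F) (i j : ι) :
    QuadraticMap.polar (QuadraticMap.weightedSumSquares F w) (Pi.single i 1) (Pi.single j 1) = Matrix.diagonal (fun i => 2 * w i) i j := by
  simp only [QuadraticMap.polar, QuadraticMap.weightedSumSquares_apply, ← Finset.sum_sub_distrib,
    Pi.add_apply, smul_eq_mul]
  have : ∀ k, w k * (((Pi.single i 1 : ι → F) k + (Pi.single j 1 : ι → F) k) * ((Pi.single i 1 : ι → F) k + (Pi.single j 1 : ι → F) k)) - w k * ((Pi.single i 1 : ι → F) k * (Pi.single i 1 : ι → F) k) - w k * ((Pi.single j 1 : ι → F) k * (Pi.single j 1 : ι → F) k) = (Pi.single i 1 : ι → F) k * (2 * w k * (Pi.single j 1 : ι → F) k) := fun k => by ring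
  simp only [this]
  by_cases hij : i = j
  · subst hij
    simp [Pi.single_apply]
  · simp [Pi.single_apply, hij, Ne.symm hij]

/-- The two diagonal forms Σ x_i^2 and Σ_(i<n) x_i^2 + α x_n^2 on F^(n+1), with α a non-square and 2 ≠ 0 in F, are inequivalent quadratic forms (so over a finite field of odd order there are exactly two classes of non-singular symmetric bilinear forms in each dimension). -/
theorem result {F : Type*} [Field F] (h2 : (2 : F) ≠ 0) (n : ℕ) (α : F) (hα : ¬ IsSquare α) : ¬ (QuadraticMap.weightedSumSquares F (fun _ : Fin (n + 1) => (1 : F))).Equivalent (QuadraticMap.weightedSumSquares F (fun i : Fin (n + 1) => if i = Fin.last n then α else (1 : F))) := by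
  rintro ⟨e⟩
  set Q₁ := QuadraticMap.weightedSumSquares F (fun _ : Fin (n + 1) => (1 : F)) with hQ₁
  set Q₂ := QuadraticMap.weightedSumSquares F (fun i : Fin (n + 1) => if i = Fin.last n then α else (1 : F)) with hQ₂
  obtain ⟨t, ht, h⟩ := Cfsg.Agent.H27.gram_det_eq_sq_mul (QuadraticMap.polarBilin Q₂)
    (Pi.basisFun F (Fin (n + 1))) ((Pi.basisFun F (Fin (n + 1))).map e.toLinearEquiv)
  have h1 : (Matrix.of fun i j => QuadraticMap.polarBilin Q₂ (((Pi.basisFun F (Fin (n + 1))).map e.toLinearEquiv) i) (((Pi.basisFun F (Fin (n + 1))).map e.toLinearEquiv) j)) = Matrix.diagonal (fun _ => 2 * 1) := by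
    ext i j
    rw [Matrix.of_apply, QuadraticMap.polarBilin_apply_apply, Module.Basis.map_apply, Module.Basis.map_apply, Pi.basisFun_apply, Pi.basisFun_apply, ← polar_wss (fun _ => (1 : F))]
    exact Cfsg.Agent.H27.polar_eq_of_quad_eq Q₂ Q₁ e.toLinearEquiv.toLinearMap e.map_app _ _
  have h2' : (Matrix.of fun i j => QuadraticMap.polarBilin Q₂ ((Pi.basisFun F (Fin (n + 1))) i) ((Pi.basisFun F (Fin (n + 1))) j)) = Matrix.diagonal (fun i => 2 * (if i = Fin.last n then α else (1 : F))) := by
    ext i j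
    rw [Matrix.of_apply, QuadraticMap.polarBilin_apply_apply, Pi.basisFun_apply, Pi.basisFun_apply, polar_wss]
  rw [h1, h2', Matrix.det_diagonal, Matrix.det_diagonal, Finset.prod_mul_distrib, Finset.prod_mul_distrib] at h
  simp only [Finset.prod_const_one, mul_one, Finset.prod_ite_eq', Finset.mem_univ, if_true] at h
  have h3 : (∏ _i : Fin (n + 1), (2 : F)) ≠ 0 := Finset.prod_ne_zero_iff.mpr fun _ _ => h2
  apply hα
  refine ⟨t⁻¹, ?_⟩
  field_simp
  apply mul_left_cancel₀ h3
  linear_combination -h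

end Cfsg.Agent.S0757
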