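import Cfsg.Statements.S0758
import Cfsg.Agent.H27.FinField

set_option autoImplicit false
open Cfsg

namespace Cfsg.Agent.S0758

theorem aux {F : Type*} [Field F] (α : F) : (∃ x y : F, (x ≠ 0 ∨ y ≠ 0) ∧ x ^ 2 + α * y ^ 2 = 0) ↔ IsSquare (-α) := by
  constructor
  · rintro ⟨x, y, hxy, h⟩
    have hy : y ≠ 0 := by
      rintro rfl
      have : x = 0 := by simpa using h
      simp [this] at hxy
    exact ⟨x / y, by field_simp; linear_combination -h⟩
  · rintro ⟨t, ht⟩
    exact ⟨t, 1, Or.inr one_ne_zero, by linear_combination -ht⟩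

/-- For a finite field F of odd order q and a non-square α: the form x² + y² is isotropic iff q ≡ 1 mod 4, and the form x² + α y² is isotropic iff q ≡ 3 mod 4. -/
theorem result {F : Type*} [Field F] [Fintype F] (h2 : (2 : F) ≠ 0) (α : F) (hα : ¬ IsSquare α) : ((∃ x y : F, (x ≠ 0 ∨ y ≠ 0) ∧ x ^ 2 + y ^ 2 = 0) ↔ Fintype.card F % 4 = 1) ∧ ((∃ x y : F, (x ≠ 0 ∨ y ≠ 0) ∧ x ^ 2 + α * y ^ 2 = 0) ↔ Fintype.card F % 4 = 3) := by
  have hodd := Cfsg.Agent.H27.card_mod_two_of_two_ne_zero h2
  have h1 := FiniteField.isSquare_neg_one_iff (F := F)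
  constructor
  · have := aux (1 : F)
    simp only [one_mul] at this
    rw [this, h1]
    omega
  · rw [aux]
    constructor
    · intro h
      by_contra h3
      have := Cfsg.Agent.H27.not_isSquare_mul (h1.mpr h3) (by simp) hα
      exact this (by simpa using h)
    · intro h
      have := Cfsg.Agent.H27.isSquare_mul_of_not_isSquare (a := -1) (by rw [h1]; omega) hα
      simpa using this

end Cfsg.Agent.S0758
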