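import Cfsg.Statements.S0759
import Cfsg.Agent.H27.Orth

set_option autoImplicit false
open Cfsg

namespace Cfsg.Agent.S0759

open Matrix in
theorem exists_of_matrix {F : Type*} [Field F] (m : ℕ) {ι : Type*} [Fintype ι] [DecidableEq ι] (hι : Fintype.card ι = m) (M : Matrix ι ι F) (hM : Mᵀ * M = -1) : ∃ W : Submodule F (Fin (2 * m) → F), Module.finrank F W = m ∧ ∀ w ∈ W, ∑ i, w i ^ 2 = 0 := by
  let e : Fin (2 * m) ≃ ι ⊕ ι := Fintype.equivOfCardEq (by simp [hι, two_mul])
  let φ : (ι → F) →ₗ[F] (Fin (2 * m) → F) :=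
    { toFun := fun x => Sum.elim x (M *ᵥ x) ∘ e
      map_add' := fun x y => by
        ext i
        simp only [Function.comp_apply, Pi.add_apply, Matrix.mulVec_add]
        rcases e i with j | j <;> simp
      map_smul' := fun c x => by
        ext i
        simp only [Function.comp_apply, Pi.smul_apply, Matrix.mulVec_smul, RingHom.id_apply]
        rcases e i with j | j <;> simp }
  have hφ : Function.Injective φ := by
    intro x y h
    ext j
    simpa [φ] using congrFun h (e.symm (Sum.inl j))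
  refine ⟨LinearMap.range φ, by rw [LinearMap.finrank_range_of_inj hφ]; simp [hι], ?_⟩
  rintro _ ⟨x, rfl⟩
  have h1 : ∑ i, φ x i ^ 2 = ∑ j : ι ⊕ ι, Sum.elim x (M *ᵥ x) j ^ 2 :=
    Equiv.sum_comp e (fun j => Sum.elim x (M *ᵥ x) j ^ 2)
  have h2 : (M *ᵥ x) ⬝ᵥ (M *ᵥ x) = -(x ⬝ᵥ x) := by
    rw [Matrix.dotProduct_mulVec, ← Matrix.mulVec_transpose, Matrix.mulVec_mulVec, hM]
    simp [Matrix.neg_mulVec]
  rw [h1, Fintype.sum_sum_type]
  simp only [Sum.elim_inl, Sum.elim_inr, pow_two]
  change x ⬝ᵥ x + (M *ᵥ x) ⬝ᵥ (M *ᵥ x) = 0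
  rw [h2, add_neg_cancel]

/-- Type of the orthonormal form: over a finite field of odd order q and for m ≥ 1, the quadratic form Σ_(i<2m) x_i² on F^(2m) admits an m-dimensional subspace on which it vanishes identically if and only if it is not the case that q ≡ 3 (mod 4) and m is odd. -/
theorem result {F : Type*} [Field F] [Fintype F] (h2 : (2 : F) ≠ 0) (m : ℕ) (hm : 1 ≤ m) : (∃ W : Submodule F (Fin (2 * m) → F), Module.finrank F W = m ∧ ∀ w ∈ W, ∑ i, w i ^ 2 = 0) ↔ ¬ (Fintype.card F % 4 = 3 ∧ Odd m) := by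
  constructor
  · rintro ⟨W, hW, h0⟩ ⟨h3, hodd⟩
    let B : LinearMap.BilinForm F (Fin (2 * m) → F) := Matrix.toBilin' 1
    have hB : ∀ x y, B x y = x ⬝ᵥ y := fun x y => by simp [B, Matrix.toBilin'_apply']
    have hS : B.IsSymm := ⟨fun x y => by rw [hB, hB, dotProduct_comm]⟩
    have hnd : B.Nondegenerate := LinearMap.BilinForm.nondegenerate_toBilin'_of_det_ne_zero' _ (by simp)
    have hs : ∀ x y, B y x = 1 * (RingHom.id F) (B x y) := fun x y => by simp [hS.eq x y]
    have hε : (RingHom.id F) (1 : F) * 1 = 1 := by simp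
    have hW0 := Cfsg.Agent.H27.symm_eq_zero_of_self h2 hS W (fun v hv => by
      rw [hB, ← h0 v hv]; simp [dotProduct, pow_two])
    let r := Module.finBasisOfFinrankEq F W hW
    obtain ⟨f, hf⟩ := Cfsg.Agent.H27.exists_hyp_extend (σ := RingHom.id F) (fun _ => rfl) hε hnd.1 hs
      (fun a => ⟨B a a / 2, by simp only [RingHom.id_apply]; field_simp; ring⟩)
      (e := fun i => (r i : Fin (2 * m) → F)) (r.linearIndependent.map' W.subtype W.ker_subtype)
      (fun i j => hW0 _ (r i).2 _ (r j).2)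
    let b := basisOfLinearIndependentOfCardEqFinrank' _ (hf.linearIndependent hε hs)
      (by simp [two_mul])
    have hb : ∀ i, b i = Sum.elim (fun i => (r i : Fin (2 * m) → F)) f i := fun i => by simp [b]
    obtain ⟨t, -, ht⟩ := Cfsg.Agent.H27.gram_det_eq_sq_mul B (Pi.basisFun F _) b
    have h4 : (Matrix.of fun i j => B (b i) (b j)) = Matrix.fromBlocks 0 1 1 0 := by
      ext (i | i) (j | j)
      · simp [hb, hf.ee]
      · simp [hb, hf.ef, Matrix.one_apply]
      · simp [hb, hf.fe hs, Matrix.one_apply]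
      · simp [hb, hf.ff]
    have h5 : (Matrix.of fun i j => B (Pi.basisFun F (Fin (2 * m)) i) (Pi.basisFun F _ j)) = 1 := by
      ext i j
      simp [hB, Matrix.one_apply, Pi.single_apply, eq_comm]
    rw [h4, h5, Cfsg.Agent.H27.det_hyperbolic_gram, Fintype.card_fin, hodd.neg_one_pow] at ht
    exact FiniteField.isSquare_neg_one_iff.mp ⟨t, by simpa [pow_two] using ht⟩ h3
  · intro h
    by_cases h3 : Fintype.card F % 4 = 3
    · obtain ⟨k, rfl⟩ : Even m := by
        rw [← Nat.not_odd_iff_even]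
        exact fun ho => h ⟨h3, ho⟩
      obtain ⟨a, b, hab⟩ := Cfsg.Agent.H27.exists_mul_sq_add_mul_sq (F := F) one_ne_zero one_ne_zero (-1)
      refine exists_of_matrix (ι := Fin k ⊕ Fin k) _ (by simp)
        (Matrix.fromBlocks (a • 1) (b • 1) (b • 1) ((-a) • 1)) ?_
      rw [← Matrix.fromBlocks_one, Matrix.fromBlocks_neg]
      simp only [Matrix.fromBlocks_transpose, Matrix.transpose_smul, Matrix.transpose_one,
        Matrix.fromBlocks_multiply, Matrix.mul_smul, Matrix.mul_one, smul_smul,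
        ← add_smul]
      have e1 : a * a + b * b = -1 := by linear_combination hab
      have e2 : b * a + -a * b = 0 := by ring
      have e3 : a * b + b * -a = 0 := by ring
      have e4 : b * b + -a * -a = -1 := by linear_combination hab
      rw [e1, e2, e3, e4]
      simp
    · obtain ⟨i, hi⟩ := FiniteField.isSquare_neg_one_iff.mpr h3
      refine exists_of_matrix (ι := Fin m) _ (by simp) (i • 1) ?_
      simp [smul_smul, ← hi]

end Cfsg.Agent.S0759
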