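import Cfsg.Statements.S0760
import Cfsg.Agent.H27.Hyp

set_option autoImplicit false
open Cfsg

namespace Cfsg.Agent.S0760

theorem aux {F V : Type*} [Field F] [AddCommGroup V] [Module F V] [FiniteDimensional F V] (Q : QuadraticForm F V) (hQ : (QuadraticMap.polarBilin Q).Nondegenerate) (W₁ W₂ : Submodule F V) (h₁ : ∀ w ∈ W₁, Q w = 0) (h₂ : ∀ w ∈ W₂, Q w = 0) (hmax₁ : ∀ W : Submodule F V, W₁ ≤ W → (∀ w ∈ W, Q w = 0) → W = W₁) (hle : Module.finrank F W₁ ≤ Module.finrank F W₂) : Module.finrank F W₁ = Module.finrank F W₂ := by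
  obtain ⟨φ, hφ⟩ : ∃ φ : W₁ →ₗ[F] W₂, Function.Injective φ :=
    finrank_le_iff_exists_linearMap.mp hle
  obtain ⟨g, hg, hgφ⟩ := Cfsg.Agent.H27.witt_quad Q hQ.1 W₁ (W₂.subtype.comp φ)
    (W₂.injective_subtype.comp hφ) (fun x => by rw [h₁ x x.2]; exact h₂ _ (φ x).2)
  have := hmax₁ (W₂.map g.symm.toLinearMap) (fun x hx => by
      refine ⟨g x, ?_, by simp⟩
      rw [hgφ ⟨x, hx⟩]
      exact (φ ⟨x, hx⟩).2)
    (by
      rintro _ ⟨w, hw, rfl⟩
      rw [← hg]
      simpa using h₂ w hw)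
  rw [← this, LinearEquiv.finrank_map_eq]

/-- Witt index is well defined: if Q is a quadratic form on a finite-dimensional space V over a finite field with non-degenerate polar form, and W₁, W₂ are subspaces on which Q vanishes that are maximal with this property, then W₁ and W₂ have the same dimension, and twice this dimension is at most dim V. -/
theorem result {F V : Type*} [Field F] [Finite F] [AddCommGroup V] [Module F V] [FiniteDimensional F V] (Q : QuadraticForm F V) (hQ : (QuadraticMap.polarBilin Q).Nondegenerate) (W₁ W₂ : Submodule F V) (h₁ : ∀ w ∈ W₁, Q w = 0) (h₂ : ∀ w ∈ W₂, Q w = 0) (hmax₁ : ∀ W : Submodule F V, W₁ ≤ W → (∀ w ∈ W, Q w = 0) → W = W₁) (hmax₂ : ∀ W : Submodule F V, W₂ ≤ W → (∀ w ∈ W, Q w = 0) → W = W₂) : Module.finrank F W₁ = Module.finrank F W₂ ∧ 2 * Module.finrank F W₁ ≤ Module.finrank F V := by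
  refine ⟨?_, ?_⟩
  · rcases le_total (Module.finrank F W₁) (Module.finrank F W₂) with h | h
    · exact aux Q hQ W₁ W₂ h₁ h₂ hmax₁ h
    · exact (aux Q hQ W₂ W₁ h₂ h₁ hmax₂ h).symm
  · have h1 := LinearMap.BilinForm.finrank_orthogonal hQ W₁
    have h2 : W₁ ≤ LinearMap.BilinForm.orthogonal (QuadraticMap.polarBilin Q) W₁ := by
      intro x hx y hy
      simp [QuadraticMap.polar, h₁ x hx, h₁ y hy, h₁ _ (W₁.add_mem hy hx)]
    have h3 := Submodule.finrank_mono h2
    have h4 := Submodule.finrank_le W₁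
    omega

end Cfsg.Agent.S0760
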