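import Cfsg.Statements.S0763
import Cfsg.Agent.H27.Quad

set_option autoImplicit false
open Cfsg

namespace Cfsg.Agent.S0763

theorem li_of_polar {F V : Type*} [Field F] [AddCommGroup V] [Module F V] (h2 : (2 : F) = 0) (Q : QuadraticForm F V) {v w : V} (h : QuadraticMap.polar Q v w = 1) : LinearIndependent F ![v, w] := by
  rw [LinearIndependent.pair_iff]
  intro s t hst
  have h1 := congrArg (fun x => QuadraticMap.polar Q x w) hst
  have h3 := congrArg (fun x => QuadraticMap.polar Q v x) hst
  simp only [QuadraticMap.polar_add_left, QuadraticMap.polar_add_right, QuadraticMap.polar_smul_left,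
    QuadraticMap.polar_smul_right, Cfsg.Agent.H27.polar_self_eq, h2, h, zero_mul, smul_eq_mul,
    mul_zero, mul_one, add_zero, zero_add, QuadraticMap.polar_zero_left, QuadraticMap.polar_zero_right] at h1 h3
  exact ⟨h1, h3⟩

/-- Binary quadratic forms in characteristic two over a finite field: if Q is a quadratic form on a 2-dimensional space whose polar form is non-degenerate, then either there are vectors v, w with Q v = Q w = 0 and polar value 1 (Q is xy in these coordinates), or there are v, w and μ with Q v = 1, Q w = μ, polar value 1 and x² + x + μ without roots in F (Q is x² + xy + μy²). -/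
theorem result {F V : Type*} [Field F] [Finite F] [CharP F 2] [AddCommGroup V] [Module F V] (Q : QuadraticForm F V) (h2 : Module.finrank F V = 2) (hQ : (QuadraticMap.polarBilin Q).Nondegenerate) : (∃ v w : V, LinearIndependent F ![v, w] ∧ Q v = 0 ∧ Q w = 0 ∧ QuadraticMap.polar Q v w = 1) ∨ (∃ (v w : V) (μ : F), LinearIndependent F ![v, w] ∧ (∀ x : F, x ^ 2 + x + μ ≠ 0) ∧ Q v = 1 ∧ Q w = μ ∧ QuadraticMap.polar Q v w = 1) := by
  have hc : (2 : F) = 0 := CharP.cast_eq_zero F 2
  have hnt : Nontrivial V := Module.nontrivial_of_finrank_pos (R := F) (by omega)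
  have hpart : ∀ v : V, v ≠ 0 → ∃ w, QuadraticMap.polar Q v w ≠ 0 := fun v hv => by
    by_contra h
    push Not at h
    exact hv (hQ.1 v h)
  by_cases hiso : ∃ v : V, v ≠ 0 ∧ Q v = 0
  · obtain ⟨v, hv, hQv⟩ := hiso
    obtain ⟨w, hw⟩ := hpart v hv
    obtain ⟨z, -, hz, hvz⟩ := Cfsg.Agent.H27.exists_singular_partner (Q := Q) ⊤ Submodule.mem_top Submodule.mem_top hQv hw
    exact Or.inl ⟨v, z, li_of_polar hc Q hvz, hQv, hz, hvz⟩
  · push Not at hiso
    obtain ⟨v₀, hv₀⟩ := exists_ne (0 : V)
    obtain ⟨t, ht⟩ := Cfsg.Agent.H27.exists_sq_eq_of_two_eq_zero hc (Q v₀)⁻¹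
    have hv : Q (t • v₀) = 1 := by
      rw [Cfsg.Agent.H27.quad_smul, ← ht, inv_mul_cancel₀ (hiso v₀ hv₀)]
    set v := t • v₀
    have hv0 : v ≠ 0 := by
      intro h
      rw [h, map_zero] at hv
      exact zero_ne_one hv
    obtain ⟨w₀, hw₀⟩ := hpart v hv0
    have hvw : QuadraticMap.polar Q v ((QuadraticMap.polar Q v w₀)⁻¹ • w₀) = 1 := by
      rw [QuadraticMap.polar_smul_right, smul_eq_mul, inv_mul_cancel₀ hw₀]
    set w := (QuadraticMap.polar Q v w₀)⁻¹ • w₀
    have hli := li_of_polar hc Q hvw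
    refine Or.inr ⟨v, w, Q w, hli, fun x hx => ?_, hv, rfl, hvw⟩
    refine hiso (x • v + (1 : F) • w) (fun h => ?_) ?_
    · exact one_ne_zero (LinearIndependent.pair_iff.mp hli x 1 h).2
    · rw [Cfsg.Agent.H27.quad_pair, hv, hvw]
      linear_combination hx

end Cfsg.Agent.S0763
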