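import Cfsg.Statements.S0769
import Cfsg.Agent.H27.Count

set_option autoImplicit false
open Cfsg

namespace Cfsg.Agent.S0769

/-- Order of the Borel subgroup of GL_n(q): the invertible lower-triangular n × n matrices over a field with q elements number q^(n(n-1)/2) (q-1)^n (unitriangular part times the diagonal torus). -/
theorem result {F : Type*} [Field F] [Fintype F] {q : ℕ} (hF : Fintype.card F = q) (n : ℕ) : Nat.card {g : Matrix.GeneralLinearGroup (Fin n) F // ∀ i j : Fin n, i < j → (g : Matrix (Fin n) (Fin n) F) i j = 0} = q ^ (n * (n - 1) / 2) * (q - 1) ^ n := by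
  rw [← hF, ← H27.card_Tri n F]
  refine Nat.card_congr
    { toFun := fun g => ⟨g.1.1, g.2, fun i hi => ?_⟩
      invFun := fun M => ⟨Matrix.GeneralLinearGroup.mkOfDetNeZero (Matrix.of M.1) ?_, M.2.1⟩
      left_inv := fun g => Subtype.ext (Units.ext rfl)
      right_inv := fun M => rfl }
  · have h := Matrix.GeneralLinearGroup.det_ne_zero g.1
    rw [H27.det_of_lower g.2] at h
    exact h (Finset.prod_eq_zero (Finset.mem_univ i) hi)
  · rw [H27.det_of_lower (M := Matrix.of M.1) M.2.1]
    exact Finset.prod_ne_zero_iff.2 fun i _ => M.2.2 i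

end Cfsg.Agent.S0769
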