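import Cfsg.Statements.S0770


set_option autoImplicit false
open Cfsg

namespace Cfsg.Agent.S0770

/-- For a field with at least 3 elements, an invertible matrix normalises the subgroup of invertible diagonal matrices of GL_n if and only if it is monomial (exactly one non-zero entry in each row). -/
theorem result {F : Type*} [Field F] (hF : ∃ a : F, a ≠ 0 ∧ a ≠ 1) (n : ℕ) (g : Matrix.GeneralLinearGroup (Fin n) F) : g ∈ Subgroup.normalizer ((Units.map (Matrix.diagonalRingHom (Fin n) F).toMonoidHom).range : Subgroup (Matrix.GeneralLinearGroup (Fin n) F)) ↔ ∀ i : Fin n, ∃! j : Fin n, (g : Matrix (Fin n) (Fin n) F) i j ≠ 0 := by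
  classical
  obtain ⟨a, ha0, ha1⟩ := hF
  have hT : ∀ h : GL (Fin n) F, h ∈ (Units.map (Matrix.diagonalRingHom (Fin n) F).toMonoidHom).range
      ↔ ∃ d : Fin n → F, (h : Matrix (Fin n) (Fin n) F) = Matrix.diagonal d := by
    intro h
    constructor
    · rintro ⟨u, rfl⟩; exact ⟨u, rfl⟩
    · rintro ⟨d, hd⟩
      have h0 : ∀ i, d i ≠ 0 := by
        have := Matrix.GeneralLinearGroup.det_ne_zero h
        rw [hd, Matrix.det_diagonal] at this
        exact fun i => Finset.prod_ne_zero_iff.1 this i (Finset.mem_univ i)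
      refine ⟨⟨d, fun i => (d i)⁻¹, funext fun i => mul_inv_cancel₀ (h0 i),
        funext fun i => inv_mul_cancel₀ (h0 i)⟩, Units.ext hd.symm⟩
  have hrow : ∀ i, ∃ j, (g : Matrix (Fin n) (Fin n) F) i j ≠ 0 := by
    intro i
    by_contra h
    push Not at h
    exact Matrix.GeneralLinearGroup.det_ne_zero g (Matrix.det_eq_zero_of_row_eq_zero i h)
  rw [Subgroup.mem_normalizer_iff]
  constructor
  · intro hg i
    obtain ⟨j, hj⟩ := hrow i
    refine ⟨j, hj, fun k hk => ?_⟩
    by_contra hkj
    let d : Fin n → F := Function.update 1 j a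
    have hd : (Matrix.diagonal d).det ≠ 0 := by
      rw [Matrix.det_diagonal]
      refine Finset.prod_ne_zero_iff.2 fun l _ => ?_
      by_cases hl : l = j
      · subst hl; simpa [d] using ha0
      · simp [d, hl]
    obtain ⟨d', hd'⟩ := (hT _).1 ((hg (Matrix.GeneralLinearGroup.mkOfDetNeZero _ hd)).1
      ((hT _).2 ⟨d, rfl⟩))
    have e : (g : Matrix (Fin n) (Fin n) F) * Matrix.diagonal d = Matrix.diagonal d' * g := by
      rw [← hd', ← Units.val_mul, inv_mul_cancel_right]; rfl
    have e1 := congrFun (congrFun e i) j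
    have e2 := congrFun (congrFun e i) k
    rw [Matrix.mul_diagonal, Matrix.diagonal_mul, mul_comm] at e1 e2
    have e3 := mul_right_cancel₀ hj e1
    have e4 := mul_right_cancel₀ hk e2
    simp only [d, Function.update_self, Function.update_of_ne hkj, Pi.one_apply] at e3 e4
    exact ha1 (e3.trans e4.symm)
  · intro hg h
    choose σ hσ huniq using hg
    have hmul : ∀ d : Fin n → F, (g : Matrix (Fin n) (Fin n) F) * Matrix.diagonal d =
        Matrix.diagonal (d ∘ σ) * g := by
      intro d
      ext i j
      rw [Matrix.mul_diagonal, Matrix.diagonal_mul, mul_comm]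
      by_cases hij : (g : Matrix (Fin n) (Fin n) F) i j = 0
      · simp [hij]
      · rw [huniq i j hij]; rfl
    have hsurj : Function.Surjective σ := by
      intro j
      by_contra hj
      push Not at hj
      refine Matrix.GeneralLinearGroup.det_ne_zero g (Matrix.det_eq_zero_of_column_eq_zero j ?_)
      intro i
      by_contra hij
      exact hj i (huniq i j hij).symm
    have hinj : Function.Injective σ := Finite.injective_iff_surjective.2 hsurj
    rw [hT, hT]
    constructor
    · rintro ⟨d, hd⟩
      refine ⟨d ∘ σ, ?_⟩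
      rw [Units.val_mul, Units.val_mul, hd, hmul, mul_assoc, ← Units.val_mul, mul_inv_cancel,
        Units.val_one, mul_one]
    · rintro ⟨d, hd⟩
      refine ⟨d ∘ (Equiv.ofBijective σ ⟨hinj, hsurj⟩).symm, ?_⟩
      have e : d = (d ∘ (Equiv.ofBijective σ ⟨hinj, hsurj⟩).symm) ∘ σ := by
        funext i
        exact congrArg d (Equiv.ofBijective_symm_apply_apply σ ⟨hinj, hsurj⟩ i).symm
      have e2 : h = g⁻¹ * (g * h * g⁻¹) * g := by group
      rw [e2, Units.val_mul, Units.val_mul, hd, mul_assoc]
      conv_lhs => rw [e, ← hmul]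
      rw [← mul_assoc, ← Units.val_mul, inv_mul_cancel, Units.val_one, one_mul]

end Cfsg.Agent.S0770
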