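import Cfsg.Statements.S0771
import Cfsg.Agent.H27.Count

set_option autoImplicit false
open Cfsg

namespace Cfsg.Agent.S0771

/-- Maximal parabolic of GL_n(q): the stabiliser of the coordinate subspace spanned by the first k basis vectors has order q^(k(n-k)) · |GL_k(q)| · |GL_(n-k)(q)| (unipotent radical of order q^(k(n-k)) and Levi complement GL_k × GL_(n-k)). -/
theorem result {F : Type*} [Field F] [Fintype F] {q : ℕ} (hF : Fintype.card F = q) (n k : ℕ) (hk : k ≤ n) : Nat.card ↥(Cfsg.stabilizing (Cfsg.glToMat (Fin n) F) {v : Fin n → F | ∀ i : Fin n, k ≤ (i : ℕ) → v i = 0}) = q ^ (k * (n - k)) * (∏ i : Fin k, (q ^ k - q ^ (i : ℕ))) * ∏ i : Fin (n - k), (q ^ (n - k) - q ^ (i : ℕ)) := by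
  classical
  let x : Fin k → Fin n → F := fun i => Pi.single (Fin.castLE hk i) 1
  have hx : LinearIndependent F x :=
    H27.linearIndependent_single_comp _ (Fin.castLE_injective hk)
  have hW : H27.coordSub F n k = Submodule.span F (Set.range x) := H27.coordSub_eq_span F hk
  have hmem : ∀ g : GL (Fin n) F, (∀ i, (g : Matrix (Fin n) (Fin n) F).mulVec (x i) ∈
      H27.coordSub F n k) → g ∈ Cfsg.stabilizing (Cfsg.glToMat (Fin n) F)
        (H27.coordSub F n k : Set (Fin n → F)) := by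
    intro g hg
    exact H27.mem_stabilizing_of_span _ hW.le hg
  have hxW : ∀ i, x i ∈ H27.coordSub F n k := fun i => by
    rw [hW]; exact Submodule.subset_span ⟨i, rfl⟩
  have hli : ∀ (g : GL (Fin n) F) (y : Fin k → Fin n → F),
      (∀ i, (g : Matrix (Fin n) (Fin n) F).mulVec (x i) = y i) → LinearIndependent F y := by
    intro g y h
    exact H27.li_of_rep (Cfsg.glToMat (Fin n) F) hx h
  have h := H27.card_mul_orbit (Cfsg.glToMat (Fin n) F) x
    (Cfsg.stabilizing (Cfsg.glToMat (Fin n) F) (H27.coordSub F n k : Set (Fin n → F)))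
    (fun g hg => hmem g fun i => by rw [show g.1.mulVec (x i) = x i from hg i]; exact hxW i)
  have e1 : Nat.card {y : Fin k → Fin n → F // ∃ g : GL (Fin n) F, ∀ i,
      (Cfsg.glToMat (Fin n) F g).mulVec (x i) = y i} = ∏ i : Fin k, (q ^ n - q ^ (i : ℕ)) := by
    have := card_linearIndependent (K := F) (V := Fin n → F) (k := k) (by simpa using hk)
    simp only [Module.finrank_fintype_fun_eq_card, Fintype.card_fin, hF] at this
    rw [← this]
    refine Nat.card_congr (Equiv.subtypeEquivRight fun y => ⟨?_, fun hy => ?_⟩)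
    · rintro ⟨g, hg⟩; exact hli g y hg
    · exact H27.exists_gl_family hx hy
  have e2 : Nat.card {y : Fin k → Fin n → F // ∃ g ∈ Cfsg.stabilizing (Cfsg.glToMat (Fin n) F)
      (H27.coordSub F n k : Set (Fin n → F)), ∀ i,
      (Cfsg.glToMat (Fin n) F g).mulVec (x i) = y i} = ∏ i : Fin k, (q ^ k - q ^ (i : ℕ)) := by
    have := H27.card_li_in (H27.coordSub F n k) (k := k) (H27.finrank_coordSub F hk).ge
    rw [H27.finrank_coordSub F hk, hF] at this
    rw [← this]
    refine Nat.card_congr (Equiv.subtypeEquivRight fun y => ⟨?_, fun hy => ?_⟩)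
    · rintro ⟨g, hg, h⟩
      exact ⟨hli g y h, fun i => by rw [← h i]; exact (hg _).1 (hxW i)⟩
    · obtain ⟨g, hg⟩ := H27.exists_gl_family hx hy.1
      exact ⟨g, hmem g fun i => by rw [hg i]; exact hy.2 i, hg⟩
  rw [e1, e2, Matrix.card_GL_field, hF] at h
  have hq : 1 < q := hF ▸ Fintype.one_lt_card
  have hpos : 0 < ∏ i : Fin k, (q ^ n - q ^ (i : ℕ)) :=
    Finset.prod_pos fun i _ => Nat.sub_pos_of_lt (Nat.pow_lt_pow_right hq (by omega))
  apply Nat.eq_of_mul_eq_mul_right hpos
  refine h.trans ?_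
  obtain ⟨l, rfl⟩ := Nat.exists_eq_add_of_le hk
  rw [Nat.add_sub_cancel_left, Fin.prod_univ_add]
  have : ∏ i : Fin l, (q ^ (k + l) - q ^ ((Fin.natAdd k i : Fin (k + l)) : ℕ)) =
      q ^ (k * l) * ∏ i : Fin l, (q ^ l - q ^ (i : ℕ)) := by
    rw [pow_mul, ← Fin.prod_const l (q ^ k), ← Finset.prod_mul_distrib]
    refine Finset.prod_congr rfl fun i _ => ?_
    rw [Fin.val_natAdd, pow_add, pow_add, Nat.mul_sub]
  rw [this]
  simp only [Fin.val_castAdd]
  ring

end Cfsg.Agent.S0771
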