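import Cfsg.Statements.S0773
import Cfsg.Agent.H27.Count
import Cfsg.Agent.H27.TvSL

set_option autoImplicit false
open Cfsg

namespace Cfsg.Agent.S0773

open Matrix Module

theorem mem_iff {F : Type*} [Field F] {n : ℕ} (p : Fin n → Prop) (g : GL (Fin n) F) :
    g ∈ Cfsg.stabilizing (Cfsg.glToMat (Fin n) F) {v : Fin n → F | ∀ i, p i → v i = 0} ↔
      ∀ i j, p i → ¬ p j → (g : Matrix (Fin n) (Fin n) F) i j = 0 := by
  classical
  let W : Submodule F (Fin n → F) :=
    { carrier := {v : Fin n → F | ∀ i, p i → v i = 0}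
      add_mem' := fun {a b} ha hb i hi => by simp [ha i hi, hb i hi]
      zero_mem' := fun _ _ => rfl
      smul_mem' := fun c a ha i hi => by simp [ha i hi] }
  constructor
  · intro h i j hi hj
    have := (h (Pi.single j 1)).1 (fun l hl => Pi.single_eq_of_ne (by rintro rfl; exact hj hl) _)
      i hi
    simpa using this
  · intro h
    refine H27.mem_stabilizing_of_mapsTo _ W fun v hv i hi => ?_
    change ∑ j, (g : Matrix (Fin n) (Fin n) F) i j * v j = 0
    refine Finset.sum_eq_zero fun j _ => ?_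
    by_cases hj : p j
    · simp [hv j hj]
    · simp [h i j hi hj]

/-- inverse transpose followed by reversal of the coordinates -/
noncomputable def tau (F : Type*) [Field F] (n : ℕ) : GL (Fin n) F →* GL (Fin n) F where
  toFun g := ⟨((g⁻¹).1ᵀ).submatrix Fin.revPerm Fin.revPerm, (g.1ᵀ).submatrix Fin.revPerm Fin.revPerm,
    by
      rw [submatrix_mul_equiv, ← transpose_mul, ← Units.val_mul, mul_inv_cancel]
      simp, by
      rw [submatrix_mul_equiv, ← transpose_mul, ← Units.val_mul, inv_mul_cancel]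
      simp⟩
  map_one' := by
    apply Units.ext
    simp
  map_mul' a b := by
    apply Units.ext
    simp only [_root_.mul_inv_rev, Units.val_mul, transpose_mul, submatrix_mul_equiv]

theorem tau_tau {F : Type*} [Field F] {n : ℕ} (g : GL (Fin n) F) : tau F n (tau F n g) = g := by
  apply Units.ext
  ext i j
  change (g : Matrix (Fin n) (Fin n) F) (Fin.rev (Fin.rev i)) (Fin.rev (Fin.rev j)) = _
  rw [Fin.rev_rev, Fin.rev_rev]

theorem tau_mem {F : Type*} [Field F] {n k l : ℕ} (h : k + l = n) {g : GL (Fin n) F}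
    (hg : g ∈ Cfsg.stabilizing (Cfsg.glToMat (Fin n) F)
      {v : Fin n → F | ∀ i : Fin n, k ≤ (i : ℕ) → v i = 0}) :
    tau F n g ∈ Cfsg.stabilizing (Cfsg.glToMat (Fin n) F)
      {v : Fin n → F | ∀ i : Fin n, l ≤ (i : ℕ) → v i = 0} := by
  have := (mem_iff _ _).1 (Subgroup.inv_mem _ hg)
  refine (mem_iff _ _).2 fun i j hi hj => this (Fin.rev j) (Fin.rev i) ?_ ?_
  · rw [Fin.val_rev]; omega
  · rw [Fin.val_rev]; omega

theorem stab_eq {F V : Type*} [Field F] [AddCommGroup V] [Module F V] [FiniteDimensional F V]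
    {U W : Submodule F V} (h0 : U ≠ ⊥) (h1 : U ≠ ⊤) (h : H27.stab W ≤ H27.stab U) : U = W := by
  obtain ⟨u, hu, hu0⟩ := Submodule.exists_mem_ne_zero_of_ne_bot h0
  have hWU : W ≤ U := by
    intro z hz
    by_contra hzU
    obtain ⟨l, hl, hlu⟩ := H27.exists_dual_of_not_mem (W := Submodule.span F {z}) (u := u) (by
      intro hc
      obtain ⟨c, rfl⟩ := Submodule.mem_span_singleton.1 hc
      have hc0 : c ≠ 0 := by rintro rfl; simp at hu0
      exact hzU ((U.smul_mem_iff hc0).1 hu))
    have := H27.stab_apply (h (H27.tv_mem_stab_of_mem hz l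
      (hl z (Submodule.mem_span_singleton_self z)))) hu
    rw [H27.tv_apply, hlu, one_smul] at this
    exact hzU (by simpa using U.sub_mem this hu)
  refine le_antisymm (fun x hx => ?_) hWU
  by_contra hxW
  obtain ⟨z, -, hz⟩ := SetLike.exists_of_lt (lt_top_iff_ne_top.2 h1)
  obtain ⟨g, -, hg, hg'⟩ := H27.exists_tv_move (W := W) hx (z := z) (by
    intro hc
    obtain ⟨w, hw, y, hy, rfl⟩ := Submodule.mem_sup.1 hc
    obtain ⟨c, rfl⟩ := Submodule.mem_span_singleton.1 hy
    have hc0 : c ≠ 0 := by rintro rfl; exact hxW (by simpa using hw)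
    exact hz ((U.smul_mem_iff hc0).1 (by simpa using U.sub_mem hx (hWU hw)))) hz
  exact hg' (h hg)


/-- The stabilisers in GL_n(F), F finite, of the coordinate subspaces of dimensions k and n − k are isomorphic groups, but when 2k ≠ n (and 0 < k < n) no element of GL_n conjugates one onto the other. -/
theorem result {F : Type*} [Field F] [Finite F] (n k : ℕ) (hk0 : 0 < k) (hkn : k < n) (h2 : 2 * k ≠ n) : Nonempty (↥(Cfsg.stabilizing (Cfsg.glToMat (Fin n) F) {v : Fin n → F | ∀ i : Fin n, k ≤ (i : ℕ) → v i = 0}) ≃* ↥(Cfsg.stabilizing (Cfsg.glToMat (Fin n) F) {v : Fin n → F | ∀ i : Fin n, n - k ≤ (i : ℕ) → v i = 0})) ∧ ∀ g : Matrix.GeneralLinearGroup (Fin n) F, (Cfsg.stabilizing (Cfsg.glToMat (Fin n) F) {v : Fin n → F | ∀ i : Fin n, k ≤ (i : ℕ) → v i = 0}).map (MulAut.conj g).toMonoidHom ≠ Cfsg.stabilizing (Cfsg.glToMat (Fin n) F) {v : Fin n → F | ∀ i : Fin n, n - k ≤ (i : ℕ) → v i = 0} := by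
  have hkl : k + (n - k) = n := by omega
  refine ⟨⟨{ toFun := fun g => ⟨tau F n g, tau_mem hkl g.2⟩
             invFun := fun g => ⟨tau F n g, tau_mem (by omega) g.2⟩
             left_inv := fun g => Subtype.ext (tau_tau _)
             right_inv := fun g => Subtype.ext (tau_tau _)
             map_mul' := fun a b => Subtype.ext (map_mul _ _ _) }⟩, fun g hg => ?_⟩
  let U := (H27.coordSub F n k).map (H27.toLE (Fin n) F g).toLinearMap
  have hU : finrank F U = k := by
    rw [LinearEquiv.finrank_map_eq, H27.finrank_coordSub F hkn.le]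
  have := stab_eq (U := U) (W := H27.coordSub F n (n - k)) (by
      intro h; rw [h, finrank_bot] at hU; omega) (by
      intro h; rw [h, finrank_top, finrank_fin_fun] at hU; omega) (by
      intro x hx
      obtain ⟨y, rfl⟩ := (H27.toLE (Fin n) F).surjective x
      have hy : y ∈ Cfsg.stabilizing (Cfsg.glToMat (Fin n) F)
        {v : Fin n → F | ∀ i : Fin n, n - k ≤ (i : ℕ) → v i = 0} := hx
      rw [← hg] at hy
      obtain ⟨z, hz, rfl⟩ := hy
      refine H27.mem_stab_of_mapsTo ?_
      rintro _ ⟨v, hv, rfl⟩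
      refine ⟨H27.toLE (Fin n) F z v, (hz v).1 hv, ?_⟩
      change (H27.toLE (Fin n) F g * H27.toLE (Fin n) F z) v =
        (H27.toLE (Fin n) F (g * z * g⁻¹) * H27.toLE (Fin n) F g) v
      rw [← map_mul, ← map_mul, inv_mul_cancel_right])
  rw [this, H27.finrank_coordSub F (Nat.sub_le n k)] at hU
  omega

end Cfsg.Agent.S0773
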