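import Cfsg.Statements.S0774
import Cfsg.Agent.H27.Count
import Cfsg.Agent.H9.SpCount

set_option autoImplicit false
open Cfsg

namespace Cfsg.Agent.S0774

/-- The flag subspaces. -/
def fl (F : Type*) [Field F] (m k : ℕ) : Submodule F (Fin m ⊕ Fin m → F) where
  carrier := {v | (∀ i : Fin m, k ≤ (i : ℕ) → v (Sum.inl i) = 0) ∧ ∀ i : Fin m, v (Sum.inr i) = 0}
  add_mem' := fun {a b} ha hb => ⟨fun i hi => by simp [ha.1 i hi, hb.1 i hi],
    fun i => by simp [ha.2 i, hb.2 i]⟩
  zero_mem' := ⟨fun _ _ => rfl, fun _ => rfl⟩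
  smul_mem' := fun c a ha => ⟨fun i hi => by simp [ha.1 i hi], fun i => by simp [ha.2 i]⟩

theorem fl_le (F : Type*) [Field F] (m k : ℕ) : fl F m k ≤ Submodule.span F
    (Set.range fun i : {i : Fin m // (i : ℕ) < k} =>
      (Pi.single (Sum.inl i.1) 1 : Fin m ⊕ Fin m → F)) := by
  intro v hv
  rw [pi_eq_sum_univ' v]
  refine Submodule.sum_mem _ fun i _ => ?_
  rcases i with i | i
  · by_cases hi : (i : ℕ) < k
    · exact Submodule.smul_mem _ _ (Submodule.subset_span ⟨⟨i, hi⟩, rfl⟩)
    · rw [hv.1 i (not_lt.1 hi), zero_smul]; exact Submodule.zero_mem _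
  · rw [hv.2 i, zero_smul]; exact Submodule.zero_mem _

theorem single_mem_fl {F : Type*} [Field F] {m k : ℕ} {i : Fin m} :
    (Pi.single (Sum.inl i) 1 : Fin m ⊕ Fin m → F) ∈ fl F m k ↔ (i : ℕ) < k := by
  constructor
  · intro h
    by_contra hi
    simpa using h.1 i (not_lt.1 hi)
  · intro h
    refine ⟨fun j hj => Pi.single_eq_of_ne ?_ _, fun j => Pi.single_eq_of_ne (by simp) _⟩
    intro e
    rw [Sum.inl.inj e] at hj
    omega


/-- Borel subgroup of the symplectic group: the elements of Sp_2m(q) stabilising each of the totally isotropic coordinate subspaces ⟨e_0, ..., e_k⟩ (k < m) form a subgroup of order q^(m²) (q − 1)^m. -/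
theorem result {F : Type*} [Field F] [Fintype F] {q : ℕ} (hF : Fintype.card F = q) (m : ℕ) : Nat.card ↥(⨅ k : Fin m, Cfsg.stabilizing (Cfsg.spToMat m F) {v : Fin m ⊕ Fin m → F | (∀ i : Fin m, (k : ℕ) < (i : ℕ) → v (Sum.inl i) = 0) ∧ ∀ i : Fin m, v (Sum.inr i) = 0}) = q ^ (m ^ 2) * (q - 1) ^ m := by
  classical
  let x : Fin m → Fin m ⊕ Fin m → F := fun i => Pi.single (Sum.inl i) 1
  have hx : LinearIndependent F x := H27.linearIndependent_single_comp _ Sum.inl_injective
  let H : Subgroup (Matrix.symplecticGroup (Fin m) F) :=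
    ⨅ k : Fin m, Cfsg.stabilizing (Cfsg.spToMat m F) (fl F m (k + 1) : Set (Fin m ⊕ Fin m → F))
  change Nat.card H = _
  have hmem : ∀ g : Matrix.symplecticGroup (Fin m) F,
      (∀ i : Fin m, (Cfsg.spToMat m F g).mulVec (x i) ∈ fl F m (i + 1)) → g ∈ H := by
    intro g hg
    refine Subgroup.mem_iInf.2 fun k => H27.mem_stabilizing_of_span _ (fl_le F m _) fun i => ?_
    exact ⟨fun j hj => (hg i.1).1 j (by have := i.2; omega), (hg i.1).2⟩
  have hiso : ∀ u v : Fin m ⊕ Fin m → F, (∀ i, u (Sum.inr i) = 0) → (∀ i, v (Sum.inr i) = 0) →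
      Cfsg.sympForm m F u v = 0 := by
    intro u v hu hv
    simp [H27.sympForm_eq, hu, hv]
  have hx0 : ∀ i j, x i (Sum.inr j) = 0 := fun i j => Pi.single_eq_of_ne (by simp) _
  have h := H27.card_mul_orbit (Cfsg.spToMat m F) x H
    (fun g hg => hmem g fun i => by rw [hg i]; exact single_mem_fl.2 (Nat.lt_succ_self _))
  have e2 : Nat.card {y : Fin m → Fin m ⊕ Fin m → F // ∃ g ∈ H, ∀ i,
      (Cfsg.spToMat m F g).mulVec (x i) = y i} = Nat.card (H27.Tri m F) := by
    have key : ∀ (y : Fin m → Fin m ⊕ Fin m → F), (∃ g ∈ H, ∀ i,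
        (Cfsg.spToMat m F g).mulVec (x i) = y i) → ∀ i : Fin m, y i ∈ fl F m (i + 1) ∧
          y i (Sum.inl i) ≠ 0 := by
      rintro y ⟨g, hg, h⟩ i
      have h1 : y i ∈ fl F m (i + 1) := by
        rw [← h i]
        exact (Subgroup.mem_iInf.1 hg i _).1 (single_mem_fl.2 (Nat.lt_succ_self _))
      refine ⟨h1, fun h0 => ?_⟩
      have h2 : y i ∈ fl F m i := ⟨fun j hj => by
        rcases eq_or_lt_of_le hj with e | e
        · rw [← Fin.ext e]; exact h0
        · exact h1.1 j e, h1.2⟩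
      rcases Nat.eq_zero_or_pos i with hi | hi
      · apply (H27.li_of_rep _ hx h).ne_zero i
        funext j
        rcases j with j | j
        · exact h2.1 j (by omega)
        · exact h2.2 j
      · have := (Subgroup.mem_iInf.1 hg ⟨i - 1, by omega⟩ (x i)).2 (by
          rw [h i]
          exact ⟨fun j hj => h2.1 j (by simp only at hj; omega), h2.2⟩)
        have := single_mem_fl.1 this
        simp only at this
        omega
    refine Nat.card_congr
      { toFun := fun y => ⟨fun i j => y.1 i (Sum.inl j), fun i j hij => (key y.1 y.2 i).1.1 j hij,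
          fun i => (key y.1 y.2 i).2⟩
        invFun := fun M => ⟨fun i => Sum.elim (M.1 i) 0, ?_⟩
        left_inv := fun y => Subtype.ext (funext fun i => funext fun j => ?_)
        right_inv := fun M => rfl }
    · have hM : LinearIndependent F M.1 := by
        have : IsUnit (Matrix.of M.1).det := by
          rw [H27.det_of_lower (M := Matrix.of M.1) M.2.1, isUnit_iff_ne_zero]
          exact Finset.prod_ne_zero_iff.2 fun i _ => M.2.2 i
        exact Matrix.linearIndependent_rows_iff_isUnit.2 ((Matrix.isUnit_iff_isUnit_det _).2 this)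
      have hy : LinearIndependent F fun i => (Sum.elim (M.1 i) 0 : Fin m ⊕ Fin m → F) :=
        LinearIndependent.of_comp (LinearMap.funLeft F F Sum.inl) hM
      obtain ⟨g, hg⟩ := H27.sp_witt_family hx hy fun i j => by
        rw [hiso _ _ (hx0 i) (hx0 j), hiso _ _ (fun _ => rfl) (fun _ => rfl)]
      refine ⟨g, hmem g fun i => ?_, hg⟩
      rw [show (Cfsg.spToMat m F g).mulVec (x i) = _ from hg i]
      exact ⟨fun j hj => M.2.1 i j hj, fun _ => rfl⟩
    · rcases j with j | j
      · rfl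
      · exact ((key y.1 y.2 i).1.2 j).symm
  rw [H27.card_sp_orbit (l := 0) (zero_add m).symm hx fun i j => hiso _ _ (hx0 i) (hx0 j), e2,
    H9.card_symplecticGroup, H27.card_Tri, hF] at h
  have hq : 1 < q := hF ▸ Fintype.one_lt_card
  simp only [zero_add] at h
  have hpos : 0 < q ^ (m * (m - 1) / 2) * ∏ i ∈ Finset.range m, (q ^ (2 * (i + 1)) - 1) :=
    Nat.mul_pos (Nat.pow_pos (by omega)) (Finset.prod_pos fun i _ =>
      Nat.sub_pos_of_lt (Nat.one_lt_pow (by omega) hq))
  apply Nat.eq_of_mul_eq_mul_right hpos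
  rw [h]
  ring

end Cfsg.Agent.S0774
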