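import Cfsg.Statements.S0775
import Cfsg.Agent.H27.Count
import Cfsg.Agent.H9.SpCount

set_option autoImplicit false
open Cfsg

namespace Cfsg.Agent.S0775

/-- Maximal parabolics of the symplectic group: if W is a k-dimensional subspace of F^(2m) on which the symplectic form vanishes identically, its stabiliser in Sp_2m(q) has order q^(k(k+1)/2 + 2k(m−k)) · |Sp_(2m−2k)(q)| · |GL_k(q)|. -/
theorem result {F : Type*} [Field F] [Fintype F] {q : ℕ} (hF : Fintype.card F = q) (m k : ℕ) (hk : k ≤ m) (W : Submodule F (Fin m ⊕ Fin m → F)) (hWk : Module.finrank F W = k) (hW : ∀ u ∈ W, ∀ v ∈ W, Cfsg.sympForm m F u v = 0) : Nat.card ↥(Cfsg.stabilizing (Cfsg.spToMat m F) (W : Set (Fin m ⊕ Fin m → F))) = q ^ (k * (k + 1) / 2 + 2 * k * (m - k)) * (q ^ ((m - k) ^ 2) * ∏ i ∈ Finset.range (m - k), (q ^ (2 * (i + 1)) - 1)) * ∏ i : Fin k, (q ^ k - q ^ (i : ℕ)) := by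
  classical
  let b := Module.finBasisOfFinrankEq F W hWk
  let x : Fin k → Fin m ⊕ Fin m → F := fun i => b i
  have hx : LinearIndependent F x := b.linearIndependent.map' W.subtype W.ker_subtype
  have hxW : ∀ i, x i ∈ W := fun i => (b i).2
  have hsp : W ≤ Submodule.span F (Set.range x) := by
    intro v hv
    have : v = ∑ i, b.repr ⟨v, hv⟩ i • x i := by
      have := congrArg W.subtype (b.sum_repr ⟨v, hv⟩).symm
      rw [map_sum] at this
      exact this
    rw [this]
    exact Submodule.sum_mem _ fun i _ => Submodule.smul_mem _ _ (Submodule.subset_span ⟨i, rfl⟩)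
  have h := H27.card_mul_orbit (Cfsg.spToMat m F) x (Cfsg.stabilizing (Cfsg.spToMat m F) W)
    (fun g hg => H27.mem_stabilizing_of_span _ hsp fun i => by rw [hg i]; exact hxW i)
  obtain ⟨l, hl⟩ : ∃ l, m = l + k := ⟨m - k, by omega⟩
  have e2 : Nat.card {y : Fin k → Fin m ⊕ Fin m → F // ∃ g ∈ Cfsg.stabilizing (Cfsg.spToMat m F)
      (W : Set (Fin m ⊕ Fin m → F)), ∀ i,
      (Cfsg.spToMat m F g).mulVec (x i) = y i} = ∏ i : Fin k, (q ^ k - q ^ (i : ℕ)) := by
    have := H27.card_li_in W (k := k) hWk.ge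
    rw [hWk, hF] at this
    rw [← this]
    refine Nat.card_congr (Equiv.subtypeEquivRight fun y => ⟨?_, fun hy => ?_⟩)
    · rintro ⟨g, hg, h⟩
      exact ⟨H27.li_of_rep _ hx h, fun i => by rw [← h i]; exact (hg _).1 (hxW i)⟩
    · obtain ⟨g, hg⟩ := H27.sp_witt_family hx hy.1 fun i j => by
        rw [hW _ (hxW i) _ (hxW j), hW _ (hy.2 i) _ (hy.2 j)]
      exact ⟨g, H27.mem_stabilizing_of_span _ hsp fun i => by
        rw [show (Cfsg.spToMat m F g).mulVec (x i) = y i from hg i]; exact hy.2 i, hg⟩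
  rw [H27.card_sp_orbit hl hx fun i j => hW _ (hxW i) _ (hxW j), e2,
    H9.card_symplecticGroup, hF] at h
  have hq : 1 < q := hF ▸ Fintype.one_lt_card
  have hpos : 0 < q ^ (k * (k - 1) / 2) * ∏ i ∈ Finset.range k, (q ^ (2 * (l + i + 1)) - 1) :=
    Nat.mul_pos (Nat.pow_pos (by omega)) (Finset.prod_pos fun i _ =>
      Nat.sub_pos_of_lt (Nat.one_lt_pow (by omega) hq))
  apply Nat.eq_of_mul_eq_mul_right hpos
  rw [h]
  subst hl
  rw [Nat.add_sub_cancel, Finset.prod_range_add]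
  have : (l + k) ^ 2 = k * (k + 1) / 2 + 2 * k * l + l ^ 2 + k * (k - 1) / 2 := by
    have := H27.tri_add k
    nlinarith
  rw [this]
  simp only [pow_add]
  ring

end Cfsg.Agent.S0775
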