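import Cfsg.Statements.S0776
import Cfsg.Agent.H27.Count
import Cfsg.Agent.S0752

set_option autoImplicit false
open Cfsg

namespace Cfsg.Agent.S0776

open Matrix Module H27

theorem exists_iso {F U : Type*} [Field F] [AddCommGroup U] [Module F U] [FiniteDimensional F U]
    (B : LinearMap.BilinForm F U) (hA : B.IsAlt) (hB : ∀ u, (∀ v, B u v = 0) → u = 0) {k : ℕ}
    (hk : finrank F U = 2 * k) :
    ∃ φ : (Fin k ⊕ Fin k → F) ≃ₗ[F] U, ∀ u v, B (φ u) (φ v) = Cfsg.sympForm k F u v := by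
  obtain ⟨m, r, b, h1, h2, h3, h4⟩ := Cfsg.Agent.S0752.result B hA
  have hr : IsEmpty (Fin r) := ⟨fun j => b.ne_zero _ (hB _ (h4 j))⟩
  have hm : m = k := by
    rw [finrank_eq_card_basis b, Fintype.card_sum, Fintype.card_sum, Fintype.card_fin,
      Fintype.card_eq_zero (α := Fin r)] at hk
    omega
  subst hm
  let c := b.reindex ((Equiv.sumEmpty _ _).trans (Equiv.sumComm _ _))
  have hc1 : ∀ i, c (Sum.inl i) = b (Sum.inl (Sum.inr i)) := fun i => by simp [c]
  have hc2 : ∀ i, c (Sum.inr i) = b (Sum.inl (Sum.inl i)) := fun i => by simp [c]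
  have hφ : ∀ i, c.equivFun.symm (Pi.basisFun F _ i) = c i := fun i => by
    simp [Pi.single_apply]
  refine ⟨c.equivFun.symm, fun u v => ?_⟩
  have : B.comp c.equivFun.symm.toLinearMap c.equivFun.symm.toLinearMap = sympBilin m F := by
    refine LinearMap.BilinForm.ext_basis (Pi.basisFun F _) fun i j => ?_
    rw [LinearMap.BilinForm.comp_apply, LinearEquiv.coe_coe, hφ, hφ, sympBilin_apply,
      Pi.basisFun_apply, Pi.basisFun_apply]
    rcases i with i | i <;> rcases j with j | j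
    · rw [hc1, hc1, h3, sympForm_single_inl_right]; simp
    · rw [hc1, hc2, ← hA.neg_eq, h1, sympForm_single_inr_right]; simp [Pi.single_apply]
    · rw [hc1, hc2, h1, sympForm_single_inl_right]; simp [Pi.single_apply, eq_comm]
    · rw [hc2, hc2, h2, sympForm_single_inr_right]; simp
  rw [← sympBilin_apply, ← this]
  rfl

section
variable {F : Type*} [Field F] {m k l : ℕ}
  (e : ((Fin k ⊕ Fin k → F) × (Fin l ⊕ Fin l → F)) ≃ₗ[F] (Fin m ⊕ Fin m → F))

/-- the transported block map -/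
noncomputable def blk (A : symplecticGroup (Fin k) F × symplecticGroup (Fin l) F) :
    Matrix (Fin m ⊕ Fin m) (Fin m ⊕ Fin m) F :=
  LinearMap.toMatrix' (e.toLinearMap ∘ₗ (toLin' A.1.1).prodMap (toLin' A.2.1) ∘ₗ e.symm.toLinearMap)

theorem blk_apply (A : symplecticGroup (Fin k) F × symplecticGroup (Fin l) F)
    (x : (Fin k ⊕ Fin k → F) × (Fin l ⊕ Fin l → F)) :
    blk e A *ᵥ e x = e (A.1.1 *ᵥ x.1, A.2.1 *ᵥ x.2) := by
  rw [blk, LinearMap.toMatrix'_mulVec]
  simp only [LinearMap.comp_apply, LinearEquiv.coe_coe, LinearEquiv.symm_apply_apply]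
  rfl

/-- the block homomorphism -/
noncomputable def blkH (he : ∀ x y, Cfsg.sympForm m F (e x) (e y) =
    Cfsg.sympForm k F x.1 y.1 + Cfsg.sympForm l F x.2 y.2) :
    symplecticGroup (Fin k) F × symplecticGroup (Fin l) F →* symplecticGroup (Fin m) F where
  toFun A := ⟨blk e A, mem_sp_iff.2 fun u v => by
    obtain ⟨x, rfl⟩ := e.surjective u
    obtain ⟨y, rfl⟩ := e.surjective v
    rw [blk_apply, blk_apply, he, he, sp_sympForm, sp_sympForm]⟩
  map_one' := sp_ext fun u => by
    obtain ⟨x, rfl⟩ := e.surjective u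
    rw [blk_apply]
    simp
  map_mul' A C := sp_ext fun u => by
    obtain ⟨x, rfl⟩ := e.surjective u
    rw [sp_mul_mulVec, blk_apply, blk_apply, blk_apply, ← sp_mul_mulVec, ← sp_mul_mulVec]
    rfl

end


/-- If W ≤ F^(2m) is a 2k-dimensional subspace on which the symplectic form is non-degenerate, then the stabiliser of W in Sp_2m(F) is isomorphic to Sp_2k(F) × Sp_(2m−2k)(F). -/
theorem result {F : Type*} [Field F] (m k : ℕ) (hk : k ≤ m) (W : Submodule F (Fin m ⊕ Fin m → F)) (hWk : Module.finrank F W = 2 * k) (hW : ∀ u ∈ W, (∀ v ∈ W, Cfsg.sympForm m F u v = 0) → u = 0) : Nonempty (↥(Cfsg.stabilizing (Cfsg.spToMat m F) (W : Set (Fin m ⊕ Fin m → F))) ≃* Matrix.symplecticGroup (Fin k) F × Matrix.symplecticGroup (Fin (m - k)) F) := by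
  let B := sympBilin m F
  have hA : B.IsAlt := sympBilin_isAlt
  have hnd : (B.restrict W).Nondegenerate :=
    (hA.isRefl.domRestrict W).nondegenerate_iff_separatingLeft.2 fun u hu =>
      Subtype.ext (hW u u.2 fun v hv => by rw [← sympBilin_apply]; exact hu ⟨v, hv⟩)
  have hc : IsCompl W (B.orthogonal W) :=
    LinearMap.BilinForm.isCompl_orthogonal_of_restrict_nondegenerate hA.isRefl hnd
  have hr : finrank F (B.orthogonal W) = 2 * (m - k) := by
    rw [LinearMap.BilinForm.finrank_orthogonal sympBilin_nondegenerate, hWk,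
      finrank_fintype_fun_eq_card, Fintype.card_sum, Fintype.card_fin]
    omega
  obtain ⟨φ, hφ⟩ := exists_iso (B.restrict W) (fun u => hA u) hnd.1 hWk
  obtain ⟨ψ, hψ⟩ := exists_iso (B.restrict (B.orthogonal W)) (fun u => hA u) (by
    intro u hu
    apply Subtype.ext
    refine sympBilin_nondegenerate.1 u.1 fun v => ?_
    obtain ⟨a, ha, c, hc, rfl⟩ := Submodule.mem_sup.1 (hc.sup_eq_top ▸ Submodule.mem_top (x := v))
    rw [map_add, hA.isRefl _ _ (u.2 a ha), zero_add]
    exact hu ⟨c, hc⟩) hr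
  let e := (φ.prodCongr ψ).trans (W.prodEquivOfIsCompl _ hc)
  have he0 : ∀ x, e x = (φ x.1 : Fin m ⊕ Fin m → F) + ψ x.2 := fun x => rfl
  have he : ∀ x y, Cfsg.sympForm m F (e x) (e y) =
      Cfsg.sympForm k F x.1 y.1 + Cfsg.sympForm (m - k) F x.2 y.2 := by
    intro x y
    rw [← hφ, ← hψ, ← sympBilin_apply, he0, he0]
    have h1 : B (φ x.1) (ψ y.2) = 0 := (ψ y.2).2 _ (φ x.1).2
    have h2 : B (ψ x.2) (φ y.1) = 0 := hA.isRefl _ _ ((ψ x.2).2 _ (φ y.1).2)
    change B _ _ = B _ _ + B _ _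
    simp only [map_add, LinearMap.add_apply, h1, h2, add_zero, zero_add]
    rfl
  have heW : ∀ x, e x ∈ W ↔ x.2 = 0 := by
    intro x
    rw [he0, W.add_mem_iff_right (φ x.1).2]
    constructor
    · intro h
      have := (Submodule.disjoint_def.1 hc.disjoint) _ h (ψ x.2).2
      exact ψ.injective (by rw [map_zero]; exact Subtype.ext this)
    · intro h
      rw [h, map_zero]; exact W.zero_mem
  have hinj : Function.Injective (blkH e he) := by
    intro A C h
    have h' : ∀ x, blk e A *ᵥ e x = blk e C *ᵥ e x := fun x =>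
      congrArg (fun g : symplecticGroup (Fin m) F => g.1 *ᵥ e x) h
    simp only [blk_apply, e.injective.eq_iff, Prod.mk.injEq] at h'
    exact Prod.ext (sp_ext fun u => (h' (u, 0)).1) (sp_ext fun u => (h' (0, u)).2)
  refine ⟨(MulEquiv.subgroupCongr ?_).trans (MonoidHom.ofInjective hinj).symm⟩
  ext g
  constructor
  · intro hg
    let g' := e.symm.toLinearMap ∘ₗ toLin' g.1 ∘ₗ e.toLinearMap
    have hg' : ∀ x, e (g' x) = g.1 *ᵥ e x := fun x => e.apply_symm_apply _
    have hiso : ∀ x y, Cfsg.sympForm k F (g' x).1 (g' y).1 + Cfsg.sympForm (m - k) F (g' x).2 (g' y).2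
        = Cfsg.sympForm k F x.1 y.1 + Cfsg.sympForm (m - k) F x.2 y.2 := fun x y => by
      rw [← he, ← he, hg', hg', sp_sympForm]
    have h1 : ∀ a, (g' (a, 0)).2 = 0 := fun a => by
      rw [← heW, hg']; exact (hg _).1 ((heW _).2 rfl)
    have h2 : ∀ c, (g' (0, c)).1 = 0 := fun c => by
      refine eq_zero_of_sympForm_left fun a => ?_
      obtain ⟨y, hy⟩ := e.surjective ((g⁻¹).1 *ᵥ e (a, 0))
      have hy2 : y.2 = 0 := by
        rw [← heW, hy]; exact ((Subgroup.inv_mem _ hg) _).1 ((heW _).2 rfl)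
      have hy3 : g' y = (a, 0) := e.injective (by rw [hg', hy, sp_mulVec_inv_mulVec])
      have := hiso (0, c) y
      rwa [hy3, hy2, sympForm_zero_right, sympForm_zero_right, sympForm_zero_left, add_zero,
        add_zero] at this
    obtain ⟨A, hA'⟩ := exists_sp_of_isometry
      (LinearMap.fst F _ _ ∘ₗ g' ∘ₗ LinearMap.inl F _ _) fun u v => by
        have := hiso (u, 0) (v, 0)
        rwa [h1, sympForm_zero_left, sympForm_zero_left, add_zero, add_zero] at this
    obtain ⟨C, hC'⟩ := exists_sp_of_isometry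
      (LinearMap.snd F _ _ ∘ₗ g' ∘ₗ LinearMap.inr F _ _) fun u v => by
        have := hiso (0, u) (0, v)
        rwa [h2, sympForm_zero_left, sympForm_zero_left, zero_add, zero_add] at this
    refine ⟨(A, C), sp_ext fun u => ?_⟩
    obtain ⟨⟨a, c⟩, rfl⟩ := e.surjective u
    rw [← hg']
    refine (blk_apply e _ _).trans (congrArg e ?_)
    rw [hA', hC', show ((a, c) : _ × _) = (a, 0) + (0, c) by simp, map_add]
    refine Prod.ext ?_ ?_
    · simp [h2]
    · simp [h1]
  · rintro ⟨A, rfl⟩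
    refine mem_stabilizing_of_mapsTo _ W fun v hv => ?_
    obtain ⟨x, rfl⟩ := e.surjective v
    change blk e A *ᵥ e x ∈ W
    rw [blk_apply, heW, (heW x).1 hv, mulVec_zero]

end Cfsg.Agent.S0776
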