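import Cfsg.Statements.S0777
import Cfsg.Agent.H27.Count

set_option autoImplicit false
open Cfsg

namespace Cfsg.Agent.S0777

open Matrix Module H27

section
variable {F : Type*} [Field F] {m : ℕ}

/-- monomial matrices, by columns -/
def mono (σ : Fin m ⊕ Fin m → Fin m ⊕ Fin m) (κ : Fin m ⊕ Fin m → F) :
    Matrix (Fin m ⊕ Fin m) (Fin m ⊕ Fin m) F := Matrix.of fun x y => if x = σ y then κ y else 0

theorem mono_mem_iff (σ : Fin m ⊕ Fin m → Fin m ⊕ Fin m) (κ : Fin m ⊕ Fin m → F) :
    mono σ κ ∈ symplecticGroup (Fin m) F ↔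
      ∀ x y, κ x * J (Fin m) F (σ x) (σ y) * κ y = J (Fin m) F x y := by
  rw [SymplecticGroup.mem_iff', ← Matrix.ext_iff]
  refine forall_congr' fun x => forall_congr' fun y => ?_
  simp [mono, Matrix.mul_apply]

/-- the torus -/
def TT (F : Type*) [Field F] (m : ℕ) : Subgroup (symplecticGroup (Fin m) F) :=
  ⨅ i : Fin m ⊕ Fin m, Cfsg.stabilizing (Cfsg.spToMat m F) ((Submodule.span F
    {(Pi.single i (1 : F) : Fin m ⊕ Fin m → F)} : Submodule F (Fin m ⊕ Fin m → F)) :
      Set (Fin m ⊕ Fin m → F))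

theorem mem_TT {g : symplecticGroup (Fin m) F} : g ∈ TT F m ↔ ∃ d, g.1 = diagonal d := by
  rw [TT, Subgroup.mem_iInf]
  constructor
  · intro h
    refine ⟨fun i => g.1 i i, ?_⟩
    ext i j
    obtain ⟨c, hc⟩ := Submodule.mem_span_singleton.1
      ((h j _).1 (Submodule.mem_span_singleton_self _))
    by_cases hij : i = j
    · simp [hij]
    · have := congrFun hc i
      simp [hij] at this
      simp [hij, ← this]
  · rintro ⟨d, hd⟩ i
    refine mem_stabilizing_of_span _ (x := fun _ : Unit => Pi.single i 1) (by simp) fun _ => ?_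
    refine Submodule.mem_span_singleton.2 ⟨d i, ?_⟩
    change _ = g.1 *ᵥ _
    rw [hd]
    ext j
    by_cases hij : j = i <;> simp [hij]

theorem sp_det_ne (g : symplecticGroup (Fin m) F) : g.1.det ≠ 0 :=
  (SymplecticGroup.symplectic_det g.2).ne_zero

theorem mono_bij {g : symplecticGroup (Fin m) F} {σ : Fin m ⊕ Fin m → Fin m ⊕ Fin m}
    {κ : Fin m ⊕ Fin m → F} (h : g.1 = mono σ κ) : Function.Bijective σ := by
  refine Finite.surjective_iff_bijective.1 fun i => ?_
  by_contra hi
  push Not at hi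
  refine sp_det_ne g (det_eq_zero_of_row_eq_zero i fun j => ?_)
  simp [h, mono, (hi j).symm]

theorem mem_norm {a : F} (ha0 : a ≠ 0) (ha : a * a ≠ 1) {g : symplecticGroup (Fin m) F} :
    g ∈ Subgroup.normalizer (TT F m : Set (symplecticGroup (Fin m) F)) ↔
      ∃ σ κ, g.1 = mono σ κ := by
  have ha1 : a ≠ 1 := by rintro rfl; simp at ha
  have hi1 : a⁻¹ ≠ 1 := by rwa [Ne, inv_eq_one]
  have hia : a⁻¹ ≠ a := fun h => ha (by nth_rewrite 1 [← h]; exact inv_mul_cancel₀ ha0)
  rw [Subgroup.mem_normalizer_iff'']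
  constructor
  · intro hg
    have key : ∀ j x y, g.1 x j ≠ 0 → g.1 y j ≠ 0 → x = y := by
      intro j x y hx hy
      let i : Fin m := Sum.elim id id x
      let d : Fin m ⊕ Fin m → F := Sum.elim (Function.update 1 i a) (Function.update 1 i a⁻¹)
      have hd : mono id d ∈ symplecticGroup (Fin m) F := by
        rw [mono_mem_iff]
        have hk : ∀ u, d (Sum.inl u) * d (Sum.inr u) = 1 := fun u => by
          by_cases hu : u = i <;> simp [d, hu, ha0]
        rintro (u | u) (v | v) <;> by_cases huv : u = v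
        all_goals first
          | (subst huv; simp [J, hk, mul_comm (d (Sum.inr _))])
          | simp [J, huv]
      have hd' : mono id d = diagonal d := by
        ext u v; by_cases huv : u = v <;> simp [mono, huv]
      obtain ⟨d', hd''⟩ := mem_TT.1 ((hg ⟨_, hd⟩).1 (mem_TT.2 ⟨d, hd'⟩))
      have e : diagonal d * g.1 = g.1 * diagonal d' := by
        rw [← hd'', ← hd', ← Submonoid.coe_mul, mul_assoc, mul_inv_cancel_left]; rfl
      have e1 := congrFun (congrFun e x) j
      have e2 := congrFun (congrFun e y) j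
      rw [mul_diagonal, diagonal_mul, mul_comm] at e1 e2
      have e3 := (mul_left_cancel₀ hx e1).trans (mul_left_cancel₀ hy e2).symm
      rcases x with x | x <;> rcases y with y | y <;> by_cases hxy : y = x <;>
        simp_all [d, i]
    have hcol : ∀ j, ∃ i, g.1 i j ≠ 0 := fun j => by
      by_contra h
      push Not at h
      exact sp_det_ne g (det_eq_zero_of_column_eq_zero j h)
    choose σ hσ using hcol
    refine ⟨σ, fun j => g.1 (σ j) j, ?_⟩
    ext x y
    by_cases hxy : x = σ y
    · simp [mono, hxy]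
    · simp only [mono, of_apply, if_neg hxy]
      by_contra h
      exact hxy (key y _ _ h (hσ y))
  · rintro ⟨σ, κ, hg⟩ h
    have hmul : ∀ d : Fin m ⊕ Fin m → F, diagonal d * g.1 = g.1 * diagonal (d ∘ σ) := by
      intro d
      ext i j
      rw [mul_diagonal, diagonal_mul, mul_comm, hg]
      by_cases hij : i = σ j <;> simp [mono, hij]
    rw [mem_TT, mem_TT]
    constructor
    · rintro ⟨d, hd⟩
      refine ⟨d ∘ σ, ?_⟩
      rw [mul_assoc, Submonoid.coe_mul, Submonoid.coe_mul, hd, hmul, ← mul_assoc,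
        ← Submonoid.coe_mul, inv_mul_cancel, Submonoid.coe_one, one_mul]
    · rintro ⟨d, hd⟩
      refine ⟨d ∘ (Equiv.ofBijective σ (mono_bij hg)).symm, ?_⟩
      have e : d = (d ∘ (Equiv.ofBijective σ (mono_bij hg)).symm) ∘ σ := by
        funext i
        exact congrArg d (Equiv.ofBijective_symm_apply_apply σ (mono_bij hg) i).symm
      have e2 : h = g * (g⁻¹ * h * g) * g⁻¹ := by group
      rw [e2, Submonoid.coe_mul, Submonoid.coe_mul, hd]
      conv_lhs => rw [e, ← hmul]
      rw [mul_assoc, ← Submonoid.coe_mul, mul_inv_cancel, Submonoid.coe_one, mul_one]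

/-- the signed permutation -/
def sg (s : Fin m → Bool) (π : Equiv.Perm (Fin m)) : Fin m ⊕ Fin m → Fin m ⊕ Fin m :=
  Sum.elim (fun i => if s i then Sum.inr (π i) else Sum.inl (π i))
    (fun i => if s i then Sum.inl (π i) else Sum.inr (π i))

/-- the scalars -/
def kp (s : Fin m → Bool) (c : Fin m → Fˣ) : Fin m ⊕ Fin m → F :=
  Sum.elim (fun i => c i) (fun i => if s i then -(c i : F)⁻¹ else (c i : F)⁻¹)

theorem sg_mem (s : Fin m → Bool) (π : Equiv.Perm (Fin m)) (c : Fin m → Fˣ) :
    mono (sg s π) (kp s c) ∈ symplecticGroup (Fin m) F := by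
  rw [mono_mem_iff]
  rintro (u | u) (v | v) <;> by_cases huv : u = v <;> cases hu : s u <;> cases hv : s v <;>
    simp_all [J, sg, kp, one_apply]

theorem exists_sg {g : symplecticGroup (Fin m) F} {σ : Fin m ⊕ Fin m → Fin m ⊕ Fin m}
    {κ : Fin m ⊕ Fin m → F} (h : g.1 = mono σ κ) : ∃ s π c, σ = sg s π ∧ κ = kp s c := by
  have hb := mono_bij h
  have hm := (mono_mem_iff σ κ).1 (h ▸ g.2)
  have h1 : ∀ i, κ (Sum.inr i) * J (Fin m) F (σ (Sum.inr i)) (σ (Sum.inl i)) * κ (Sum.inl i) = 1 :=
    fun i => by rw [hm]; simp [J]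
  have h0 : ∀ i, κ (Sum.inl i) ≠ 0 := fun i hi => by simpa [hi] using h1 i
  have h2 : ∀ i, σ (Sum.inr i) = (σ (Sum.inl i)).swap := by
    intro i
    have := h1 i
    rcases h3 : σ (Sum.inr i) with u | u <;> rcases h4 : σ (Sum.inl i) with v | v <;>
      by_cases huv : u = v <;> simp_all [J]
  have hinj : Function.Injective fun i => Sum.elim id id (σ (Sum.inl i)) := by
    intro i j hij
    by_contra hne
    have e1 : σ (Sum.inl i) ≠ σ (Sum.inl j) := fun e => hne (Sum.inl.inj (hb.1 e))
    have e2 : σ (Sum.inr i) ≠ σ (Sum.inl j) := fun e => by simpa using hb.1 e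
    rw [h2] at e2
    rcases h3 : σ (Sum.inl i) with u | u <;> rcases h4 : σ (Sum.inl j) with v | v <;> simp_all
  refine ⟨fun i => (σ (Sum.inl i)).isRight,
    Equiv.ofBijective _ (Finite.injective_iff_bijective.1 hinj), fun i => Units.mk0 _ (h0 i),
    ?_, ?_⟩
  · funext x
    rcases x with i | i
    · rcases h3 : σ (Sum.inl i) with u | u <;> simp [sg, h3]
    · rw [h2]
      rcases h3 : σ (Sum.inl i) with u | u <;> simp [sg, h3]
  · funext x
    rcases x with i | i
    · rfl
    · have := h1 i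
      rw [h2] at this
      rcases h3 : σ (Sum.inl i) with u | u
      · simp only [h3, J, Sum.swap_inl, fromBlocks_apply₂₁, one_apply_eq, mul_one] at this
        simp [kp, h3, eq_inv_of_mul_eq_one_left this]
      · simp only [h3, J, Sum.swap_inr, fromBlocks_apply₁₂, Matrix.neg_apply, one_apply_eq,
          mul_neg, mul_one] at this
        simp [kp, h3, ← eq_inv_of_mul_eq_one_left this]

end


/-- Weyl group of type C_m: for q ≥ 4 the diagonal matrices of Sp_2m(q) form a torus T ≅ (C_(q−1))^m (the elements stabilising every coordinate axis), and the normaliser of T in Sp_2m(q) has order 2^m · m! · (q − 1)^m. -/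
theorem result {F : Type*} [Field F] [Fintype F] {q : ℕ} (hF : Fintype.card F = q) (hq : 4 ≤ q) (m : ℕ) : Nat.card ↥(Subgroup.normalizer (⨅ i : Fin m ⊕ Fin m, Cfsg.stabilizing (Cfsg.spToMat m F) ((Submodule.span F {(Pi.single i (1 : F) : Fin m ⊕ Fin m → F)} : Submodule F (Fin m ⊕ Fin m → F)) : Set (Fin m ⊕ Fin m → F)) : Set (Matrix.symplecticGroup (Fin m) F))) = 2 ^ m * Nat.factorial m * (q - 1) ^ m := by
  classical
  obtain ⟨a, ha0, ha⟩ : ∃ a : F, a ≠ 0 ∧ a * a ≠ 1 := by
    by_contra h
    push Not at h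
    have : (Finset.univ : Finset F) ⊆ {0, 1, -1} := fun a _ => by
      by_cases ha : a = 0
      · simp [ha]
      · rcases mul_self_eq_one_iff.1 (h a ha) with e | e <;> simp [e]
    have h2 := (Finset.card_le_card this).trans Finset.card_le_three
    rw [Finset.card_univ] at h2
    omega
  rw [Set.iInf_eq_iInter, ← Subgroup.coe_iInf]
  change Nat.card (Subgroup.normalizer (TT F m : Set (symplecticGroup (Fin m) F))) = _
  let Φ : (Fin m → Bool) × Equiv.Perm (Fin m) × (Fin m → Fˣ) →
      Subgroup.normalizer (TT F m : Set (symplecticGroup (Fin m) F)) := fun p =>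
    ⟨⟨_, sg_mem p.1 p.2.1 p.2.2⟩, (mem_norm ha0 ha).2 ⟨_, _, rfl⟩⟩
  have hΦ : Function.Bijective Φ := by
    constructor
    · rintro ⟨s, π, c⟩ ⟨s', π', c'⟩ h
      have h' : mono (sg s π) (kp s c) = mono (sg s' π') (kp s' c') :=
        congrArg (fun g => g.1.1) h
      have h1 : ∀ i, sg s π (Sum.inl i) = sg s' π' (Sum.inl i) ∧ c i = c' i := by
        intro i
        have := congrFun (congrFun h' (sg s π (Sum.inl i))) (Sum.inl i)
        simp only [mono, of_apply, if_true, kp, Sum.elim_inl] at this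
        split_ifs at this with e
        · exact ⟨e, Units.ext this⟩
        · exact absurd this (c i).ne_zero
      have h2 : ∀ i, s i = s' i ∧ π i = π' i := by
        intro i
        have := (h1 i).1
        clear h1 h' h
        cases hs : s i <;> cases hs' : s' i <;> simp_all [sg]
      exact Prod.ext (funext fun i => (h2 i).1) (Prod.ext (Equiv.ext fun i => (h2 i).2)
        (funext fun i => (h1 i).2))
    · intro g
      obtain ⟨σ, κ, h⟩ := (mem_norm ha0 ha).1 g.2
      obtain ⟨s, π, c, rfl, rfl⟩ := exists_sg h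
      exact ⟨(s, π, c), Subtype.ext (Subtype.ext h.symm)⟩
  rw [← Nat.card_congr (Equiv.ofBijective Φ hΦ), Nat.card_prod, Nat.card_prod, Nat.card_fun,
    Nat.card_fun, Nat.card_units, Nat.card_perm]
  simp [hF, mul_assoc]

end Cfsg.Agent.S0777
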