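import Cfsg.Statements.S0778
import Cfsg.Agent.H27.Count

set_option autoImplicit false
open Cfsg

namespace Cfsg.Agent.S0778

open Matrix

/-- the block diagonal embedding -/
noncomputable def blk (F : Type*) [Field F] (m : ℕ) :
    GL (Fin m) F →* Matrix.symplecticGroup (Fin m) F where
  toFun X := ⟨fromBlocks X.1 0 0 (X⁻¹).1ᵀ, SymplecticGroup.fromBlocks_mem_iff.2 (by
    simp only [transpose_zero, Matrix.mul_zero, Matrix.zero_mul, sub_zero, true_and]
    rw [← transpose_mul, ← Units.val_mul, inv_mul_cancel]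
    simp)⟩
  map_one' := by
    apply Subtype.ext
    simp
  map_mul' a b := by
    apply Subtype.ext
    simp only [_root_.mul_inv_rev, Units.val_mul, transpose_mul, Submonoid.coe_mul,
      fromBlocks_multiply, Matrix.mul_zero, Matrix.zero_mul, add_zero, zero_add]

theorem mem_iff {F : Type*} [Field F] {m : ℕ} {τ : Type} (e : τ → Fin m ⊕ Fin m)
    (g : Matrix.symplecticGroup (Fin m) F) :
    g ∈ Cfsg.stabilizing (Cfsg.spToMat m F) {v : Fin m ⊕ Fin m → F | ∀ i, v (e i) = 0} ↔
      ∀ i j, (∀ k, j ≠ e k) → g.1 (e i) j = 0 := by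
  classical
  let W : Submodule F (Fin m ⊕ Fin m → F) :=
    { carrier := {v | ∀ i, v (e i) = 0}
      add_mem' := fun {a b} ha hb i => by simp [ha i, hb i]
      zero_mem' := fun _ => rfl
      smul_mem' := fun c a ha i => by simp [ha i] }
  constructor
  · intro h i j hj
    have := (h (Pi.single j 1)).1 (fun l => Pi.single_eq_of_ne (hj l).symm _) i
    simpa using this
  · intro h
    refine H27.mem_stabilizing_of_mapsTo _ W fun v hv i => ?_
    change ∑ j, g.1 (e i) j * v j = 0
    refine Finset.sum_eq_zero fun j _ => ?_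
    by_cases hj : ∀ k, j ≠ e k
    · simp [h i j hj]
    · push Not at hj
      obtain ⟨k, rfl⟩ := hj
      simp [hv k]


/-- The elements of Sp_2m(F) stabilising both W = ⟨e_1..e_m⟩ and U = ⟨f_1..f_m⟩ form a subgroup isomorphic to GL_m(F) (block-diagonal matrices diag(X, X^(−ᵀ)) up to the sign convention of J), for m ≥ 1 or m = 0 alike. -/
theorem result {F : Type*} [Field F] (m : ℕ) : Nonempty (↥(Cfsg.stabilizing (Cfsg.spToMat m F) {v : Fin m ⊕ Fin m → F | ∀ i : Fin m, v (Sum.inr i) = 0} ⊓ Cfsg.stabilizing (Cfsg.spToMat m F) {v : Fin m ⊕ Fin m → F | ∀ i : Fin m, v (Sum.inl i) = 0}) ≃* Matrix.GeneralLinearGroup (Fin m) F) := by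
  have hinj : Function.Injective (blk F m) := fun a b h =>
    Units.ext (fromBlocks_inj.1 (congrArg Subtype.val h)).1
  refine ⟨(MulEquiv.subgroupCongr ?_).trans (MonoidHom.ofInjective hinj).symm⟩
  ext g
  rw [Subgroup.mem_inf, mem_iff Sum.inr, mem_iff Sum.inl]
  constructor
  · rintro ⟨h1, h2⟩
    have hB : g.1.toBlocks₁₂ = 0 := by ext i j; exact h2 i _ (by simp)
    have hC : g.1.toBlocks₂₁ = 0 := by ext i j; exact h1 i _ (by simp)
    have hg : g.1 = fromBlocks g.1.toBlocks₁₁ 0 0 g.1.toBlocks₂₂ := by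
      have := (fromBlocks_toBlocks g.1).symm
      rwa [hB, hC] at this
    have h := g.2
    rw [hg, SymplecticGroup.fromBlocks_mem_iff] at h
    have h3 : g.1.toBlocks₂₂ᵀ * g.1.toBlocks₁₁ = 1 := by
      have := congrArg transpose h.2.2
      simpa using this
    refine ⟨⟨g.1.toBlocks₁₁, g.1.toBlocks₂₂ᵀ, mul_eq_one_comm.1 h3, h3⟩, Subtype.ext ?_⟩
    exact hg.symm
  · rintro ⟨X, rfl⟩
    refine ⟨fun i j hj => ?_, fun i j hj => ?_⟩
    · rcases j with j | j
      · rfl
      · exact absurd rfl (hj j)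
    · rcases j with j | j
      · exact absurd rfl (hj j)
      · rfl

end Cfsg.Agent.S0778
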