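import Cfsg.Statements.S0779
import Cfsg.Agent.H10.Herm

set_option autoImplicit false
open Cfsg

namespace Cfsg.Agent.S0779

/-- Unitary transvections: let |F| = q², h the standard Hermitian form Σ x_i y_i^q and v ≠ 0 with h(v, v) = 0. The linear map x ↦ x + c h(x, v) v is an isometry of h if and only if c = 0 or c^(q−1) = −1. -/
theorem result {F : Type*} [Field F] [Fintype F] {q : ℕ} (hF : Fintype.card F = q ^ 2) (n : ℕ) (v : Fin n → F) (hv : v ≠ 0) (hv0 : Cfsg.hermForm n F q v v = 0) (c : F) : (∀ x y : Fin n → F, Cfsg.hermForm n F q ((Cfsg.unitaryTransvection n q v c).mulVec x) ((Cfsg.unitaryTransvection n q v c).mulVec y) = Cfsg.hermForm n F q x y) ↔ (c = 0 ∨ c ^ (q - 1) = -1) := by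
  have : Fact (Fintype.card F = q ^ 2) := ⟨hF⟩
  have hq := H10.two_le_of_card_sq hF
  refine (H10.isIsom_ut_iff (q := q) hv (c := c)).trans ?_
  rw [hv0, mul_zero, add_zero, H10.cj_apply]
  obtain ⟨k, rfl⟩ : ∃ k, q = k + 1 := ⟨q - 1, by omega⟩
  rw [Nat.add_sub_cancel, pow_succ, show c + c ^ k * c = c * (c ^ k + 1) by ring, mul_eq_zero,
    add_eq_zero_iff_eq_neg]

end Cfsg.Agent.S0779
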