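import Cfsg.Statements.S0783
import Cfsg.Agent.H10.Isotropic

set_option autoImplicit false
open Cfsg

namespace Cfsg.Agent.S0783

open Cfsg.Agent.H10 Matrix

/-- PGU_n(q)/PSU_n(q) is cyclic of order (n, q+1): for n ≥ 2 and |F| = q² there is a surjective homomorphism from GU_n(q) onto the cyclic group of order gcd(n, q + 1) whose kernel is generated by the determinant-one elements together with the centre. -/
theorem result {F : Type*} [Field F] [Fintype F] {q : ℕ} (hF : Fintype.card F = q ^ 2) (n : ℕ) (hn : 2 ≤ n) : ∃ φ : ↥(Cfsg.GU n F q) →* Multiplicative (ZMod (Nat.gcd n (q + 1))), Function.Surjective φ ∧ φ.ker = (Matrix.GeneralLinearGroup.det : Matrix.GeneralLinearGroup (Fin n) F →* Fˣ).ker.subgroupOf (Cfsg.GU n F q) ⊔ Subgroup.center ↥(Cfsg.GU n F q) := by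
  haveI := Fact.mk hF
  set μ := (powMonoidHom (q + 1) : Fˣ →* Fˣ).ker with hμ
  have hr : (guDet n F q).range = μ := range_guDet (by omega)
  let d : GU n F q →* μ := (guDet n F q).codRestrict μ fun g => hr ▸ ⟨g, rfl⟩
  have hd : Function.Surjective d := by
    rintro ⟨c, hc⟩
    rw [← hr] at hc
    obtain ⟨g, rfl⟩ := hc
    exact ⟨g, rfl⟩
  have hcard : Nat.card (μ ⧸ (powMonoidHom n : μ →* μ).range) =
      Nat.card (Multiplicative (ZMod (Nat.gcd n (q + 1)))) := by
    rw [← Subgroup.index_eq_card, IsCyclic.index_powMonoidHom_range, card_ker_pow_succ,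
      Nat.gcd_comm, Nat.card_congr Multiplicative.toAdd, Nat.card_zmod]
  haveI : IsCyclic (μ ⧸ (powMonoidHom n : μ →* μ).range) :=
    isCyclic_of_surjective _ (QuotientGroup.mk'_surjective _)
  let e := mulEquivOfCyclicCardEq hcard
  refine ⟨e.toMonoidHom.comp ((QuotientGroup.mk' _).comp d),
    e.surjective.comp ((QuotientGroup.mk'_surjective _).comp hd), ?_⟩
  have hker : ∀ g, g ∈ (e.toMonoidHom.comp ((QuotientGroup.mk' _).comp d)).ker ↔
      ∃ c : μ, c ^ n = d g := by
    intro g
    rw [MonoidHom.mem_ker, MonoidHom.comp_apply, MulEquiv.coe_toMonoidHom, e.map_eq_one_iff,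
      MonoidHom.comp_apply, QuotientGroup.mk'_apply, QuotientGroup.eq_one_iff]
    rfl
  have hμ' : ∀ c : Fˣ, c ∈ μ ↔ (c : F) * cj F q c = 1 := fun c => by
    rw [hμ, MonoidHom.mem_ker, powMonoidHom_apply, Units.ext_iff, Units.val_pow_eq_pow_val,
      ← mul_cj_eq_pow, Units.val_one]
  apply le_antisymm
  · intro g hg
    obtain ⟨c, hc⟩ := (hker g).1 hg
    let z : GU n F q := mkGU (((c : Fˣ) : F) • 1)
      ((isIsom_smul_one_iff (by omega)).2 ((hμ' c).1 c.2))
    have hz : z ∈ Subgroup.center (GU n F q) := (mem_center_GU_iff hn z).2 ⟨_, rfl⟩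
    have hdz : guDet n F q z = guDet n F q g := by
      have : guDet n F q g = (c : Fˣ) ^ n := (congrArg Subtype.val hc).symm
      rw [this]
      apply Units.ext
      rw [coe_guDet]
      simp [z, gm, coe_mkGU]
    have : g = g * z⁻¹ * z := by simp
    rw [this]
    refine mul_mem (Subgroup.mem_sup_left ?_) (Subgroup.mem_sup_right hz)
    change guDet n F q (g * z⁻¹) = 1
    rw [map_mul, map_inv, hdz, mul_inv_cancel]
  · refine sup_le (fun g hg => (hker g).2 ⟨1, ?_⟩) fun g hg => ?_
    · rw [one_pow]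
      exact Subtype.ext (Eq.symm hg)
    · obtain ⟨c, hc⟩ := (mem_center_GU_iff hn g).1 hg
      have e1 : c * cj F q c = 1 := (isIsom_smul_one_iff (by omega)).1 (hc ▸ gm_isIsom g)
      have hc0 : c ≠ 0 := by rintro rfl; simp at e1
      refine (hker g).2 ⟨⟨Units.mk0 c hc0, (hμ' _).2 e1⟩, Subtype.ext (Units.ext ?_)⟩
      change c ^ n = (gm g).det
      simp [hc]

end Cfsg.Agent.S0783
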