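import Cfsg.Statements.S0787
import Cfsg.Agent.H28.OmegaIndex

set_option autoImplicit false
open Cfsg

namespace Cfsg.Agent.S0787

theorem omega_le_of_sq {F : Type*} [Field F] {κ : Type} [Fintype κ] [DecidableEq κ]
    {Q : QuadraticForm F (κ → F)} (hQ : (QuadraticMap.polarBilin Q).Nondegenerate)
    (hok : H28.EichOK Q) (N : Subgroup (H28.O Q)) [N.Normal]
    (h : ∀ u v, Q u ≠ 0 → Q v ≠ 0 → (H28.refl Q u * H28.refl Q v) ^ 2 ∈ N) :
    Omega F ⇑Q ≤ N := by
  have h1 : ∀ u, Q u ≠ 0 → (QuotientGroup.mk' N (H28.refl Q u)) ∈ Subgroup.center _ := by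
    intro u hu
    have := H28.eq_top_of_refl hQ hok ((Subgroup.centralizer
      {QuotientGroup.mk' N (H28.refl Q u)}).comap (QuotientGroup.mk' N)) (fun v hv => by
        rw [Subgroup.mem_comap, Subgroup.mem_centralizer_singleton_iff, ← map_mul, ← map_mul,
          QuotientGroup.mk'_apply, QuotientGroup.mk'_apply, QuotientGroup.eq, mul_inv_rev,
          H28.refl_inv, H28.refl_inv, ← pow_two]
        exact h u v hu hv)
    rw [Subgroup.mem_center_iff]
    intro g
    obtain ⟨g, rfl⟩ := QuotientGroup.mk'_surjective N g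
    have hg : g ∈ (Subgroup.centralizer
      {QuotientGroup.mk' N (H28.refl Q u)}).comap (QuotientGroup.mk' N) := by rw [this]; trivial
    rwa [Subgroup.mem_comap, Subgroup.mem_centralizer_singleton_iff] at hg
  have h2 := H28.eq_top_of_refl hQ hok ((Subgroup.center _).comap (QuotientGroup.mk' N)) h1
  rw [Omega, commutator_def, Subgroup.commutator_le]
  intro a _ b _
  have ha : a ∈ (Subgroup.center _).comap (QuotientGroup.mk' N) := by rw [h2]; trivial
  rw [← QuotientGroup.eq_one_iff, ← QuotientGroup.mk'_apply, map_commutatorElement,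
    commutatorElement_eq_one_iff_mul_comm]
  exact (Subgroup.mem_center_iff.1 ha _).symm

/-- Existence and uniqueness of Ω: if F is finite, n ≥ 2, Q is a quadratic form on F^n with non-degenerate polar form and (|F|, n) ≠ (2, 4), then the group of isometries of determinant one has a unique subgroup of index 2. -/
theorem result {F : Type*} [Field F] [Fintype F] {n : ℕ} (hn : 2 ≤ n) (Q : QuadraticForm F (Fin n → F)) (hQ : (QuadraticMap.polarBilin Q).Nondegenerate) (h : Fintype.card F ≠ 2 ∨ n ≠ 4) : ∃! H : Subgroup ↥(Cfsg.specialIsometryGroup F ⇑Q), H.index = 2 := by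
  have hok : H28.EichOK Q := H28.eichOK_of_card hQ (by simpa using h)
  set S := Cfsg.specialIsometryGroup F ⇑Q with hS
  have hle : Omega F ⇑Q ≤ S := Abelianization.commutator_subset_ker _
  have hidx : ((Omega F ⇑Q).subgroupOf S).index = 2 := by
    have h1 := Subgroup.relIndex_mul_index hle
    by_cases h2 : (2 : F) = 0
    · have hc : ringChar F = 2 := by
        have := ringChar.spec F 2
        have h3 : ringChar F ∣ 2 := this.1 (by exact_mod_cast h2)
        rcases (Nat.dvd_prime Nat.prime_two).1 h3 with h4 | h4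
        · exact absurd h4 CharP.ringChar_ne_one
        · exact h4
      rw [H28.omega_index_even hQ hok hc (by simp; omega)] at h1
      have h3 : S.index = 1 := by rw [hS, H28.special_eq_top hQ h2, Subgroup.index_top]
      rwa [h3, mul_one] at h1
    · rw [H28.omega_index_odd hQ h2 (by simpa using hn)] at h1
      have h3 : S.index = 2 := by
        rw [hS, H28.special_eq_ker_dickson hQ hok h2, H28.index_ker_of_surjective _
          (H28.dickson_surjective hQ hok (by simp; omega)), H28.natCard_int_units]
      rw [h3] at h1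
      show (Omega F ⇑Q).relIndex S = 2
      omega
  refine ⟨(Omega F ⇑Q).subgroupOf S, hidx, fun H hH => ?_⟩
  have h1 : Omega F ⇑Q ≤ (H.map S.subtype).normalCore := by
    apply omega_le_of_sq hQ hok
    intro u v hu hv g
    have hm : g * (H28.refl Q u * H28.refl Q v) * g⁻¹ ∈ S := by
      apply (MonoidHom.normal_ker _).conj_mem
      show _ ∈ Cfsg.specialIsometryGroup F ⇑Q
      rw [H28.mem_special_iff, H28.mat_mul, Matrix.det_mul, H28.mat_refl, H28.mat_refl,
        H28.det_reflectionMatrix hu, H28.det_reflectionMatrix hv]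
      ring
    refine ⟨⟨_, hm⟩ ^ 2, Subgroup.sq_mem_of_index_two hH _, ?_⟩
    simp [pow_two, mul_assoc]
  have h2 : (Omega F ⇑Q).subgroupOf S ≤ H := by
    intro x hx
    obtain ⟨y, hy, hyx⟩ := (H.map S.subtype).normalCore_le (h1 hx)
    rwa [← Subtype.ext hyx]
  have h3 := Subgroup.relIndex_mul_index h2
  rw [hidx, hH] at h3
  exact le_antisymm (Subgroup.relIndex_eq_one.1 (by omega)) h2

end Cfsg.Agent.S0787
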