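import Cfsg.Statements.S0794
import Cfsg.Agent.H28.CartanDieu

set_option autoImplicit false
open Cfsg

namespace Cfsg.Agent.S0794

/-- For q odd, n ≥ 5 and Q with non-degenerate polar form: an isometry whose matrix is a Siegel transformation T_(u,v)(c) (u, v singular and orthogonal) is a commutator in the isometry group, so lies in Ω. -/
theorem result {F : Type*} [Field F] [Fintype F] (h2 : (2 : F) ≠ 0) {n : ℕ} (hn : 5 ≤ n) (Q : QuadraticForm F (Fin n → F)) (hQ : (QuadraticMap.polarBilin Q).Nondegenerate) (u v : Fin n → F) (hu : Q u = 0) (hv : Q v = 0) (huv : QuadraticMap.polar ⇑Q u v = 0) (c : F) (g : ↥(Cfsg.isometryGroup F ⇑Q)) (hg : ((g : Matrix.GeneralLinearGroup (Fin n) F) : Matrix (Fin n) (Fin n) F) = Cfsg.siegelMatrix ⇑Q u v c) : g ∈ commutatorSet ↥(Cfsg.isometryGroup F ⇑Q) ∧ g ∈ Cfsg.Omega F ⇑Q := by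
  have h0 : ∀ c : F, QuadraticMap.polar Q u (c • v) = 0 := fun c => by
    rw [H28.B_smul_right, huv, mul_zero]
  have hg' : g = H28.eich Q u (c • v) hu (h0 c) := by
    apply H28.O_ext_mat
    rw [H28.siegelMatrix_eq_eichMat hv] at hg
    exact hg
  have key : g ∈ commutatorSet ↥(Cfsg.isometryGroup F ⇑Q) := by
    by_cases hc : ∃ a : F, v = a • u
    · obtain ⟨a, rfl⟩ := hc
      have : g = 1 := by
        rw [hg', H28.eich_congr hu (h0 c) (w' := (c * a) • u)
          (by rw [H28.B_smul_right, H28.B_self, hu]; ring) (smul_smul c a u), H28.eich_smul_self]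
      rw [this]; exact one_mem_commutatorSet _
    push Not at hc
    obtain ⟨y, hy1, hy2⟩ := H28.exists_polar_orth_one hQ hc
    set z := y - Q y • v with hz
    have hz0 : Q z = 0 := by
      rw [hz, H28.Q_sub, H28.Q_smul, hv, H28.B_smul_right, QuadraticMap.polar_comm Q y v, hy1]; ring
    have hz1 : QuadraticMap.polar Q v z = 1 := by
      rw [hz, QuadraticMap.polar_sub_right, H28.B_smul_right, H28.B_self, hv, hy1]; ring
    have hz2 : QuadraticMap.polar Q u z = 0 := by
      rw [hz, QuadraticMap.polar_sub_right, H28.B_smul_right, huv, hy2]; ring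
    set h := H28.refl Q (v - z) * H28.refl Q (v + z) with hh
    have hu' : H28.rho Q h u = u := by
      rw [hh, H28.rho_mul, H28.rho_refl_of_orth (v := v + z), H28.rho_refl_of_orth]
      · rw [QuadraticMap.polar_comm, QuadraticMap.polar_sub_right, huv, hz2, sub_zero]
      · rw [QuadraticMap.polar_comm, QuadraticMap.polar_add_right, huv, hz2, add_zero]
    have hv' : H28.rho Q h v = -v := by
      have e1 : H28.rho Q (H28.refl Q (v + z)) v = -z := by
        have := H28.rho_refl_sub (Q := Q) (x := v) (y := -z) (by rw [QuadraticMap.map_neg, hv, hz0])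
          (by rw [sub_neg_eq_add, H28.Q_add, hv, hz0, hz1]; simp)
        rwa [sub_neg_eq_add] at this
      have e2 : H28.rho Q (H28.refl Q (v - z)) z = v := by
        have := H28.rho_refl_sub (Q := Q) (x := z) (y := v) (by rw [hv, hz0])
          (by rw [H28.Q_sub, hv, hz0, QuadraticMap.polar_comm, hz1]; simp)
        rwa [← neg_sub v z, H28.refl_neg] at this
      rw [hh, H28.rho_mul, e1, map_neg, e2]
    set d : F := -(c / 2) with hd
    refine ⟨h, H28.eich Q u (d • v) hu (h0 d), ?_⟩
    have e3 : h * H28.eich Q u (d • v) hu (h0 d) * h⁻¹ = H28.eich Q u ((c / 2) • v) hu (h0 _) := by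
      rw [H28.eich_conj]
      apply H28.O_ext
      intro x
      rw [H28.rho_eich, H28.rho_eich, hu', map_smul, hv', hd, smul_neg, neg_smul, neg_neg]
    have e4 : (H28.eich Q u (d • v) hu (h0 d))⁻¹ = H28.eich Q u ((c / 2) • v) hu (h0 _) := by
      apply inv_eq_of_mul_eq_one_right
      rw [← H28.eich_add hu (h0 d) (h0 _) (by rw [← add_smul]; exact h0 _),
        H28.eich_congr hu _ (w' := 0) (by simp) (by rw [hd, neg_smul, neg_add_cancel]),
        H28.eich_zero]
    rw [commutatorElement_def, e3, e4, hg',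
      ← H28.eich_add hu (h0 _) (h0 _) (by rw [← add_smul]; exact h0 _)]
    apply H28.eich_congr
    rw [← add_smul]; congr 1; field_simp; ring
  refine ⟨key, ?_⟩
  rw [Cfsg.Omega, commutator_eq_closure]
  exact Subgroup.subset_closure key

end Cfsg.Agent.S0794
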