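import Cfsg.Statements.S0795
import Cfsg.Agent.H11.Simple
import Cfsg.Agent.H28.Refl

set_option autoImplicit false
open Cfsg

namespace Cfsg.Agent.S0795

/-- Generation of Ω by root elements: for q odd, n ≥ 5 and Q with non-degenerate polar form on F^n, the commutator subgroup of the isometry group equals the subgroup generated by the isometries whose matrices are Siegel transformations T_(u,v)(c) with u, v singular and orthogonal. -/
theorem result {F : Type*} [Field F] [Fintype F] (h2 : (2 : F) ≠ 0) {n : ℕ} (hn : 5 ≤ n) (Q : QuadraticForm F (Fin n → F)) (hQ : (QuadraticMap.polarBilin Q).Nondegenerate) : Cfsg.Omega F ⇑Q = Subgroup.closure {g : ↥(Cfsg.isometryGroup F ⇑Q) | ∃ (u v : Fin n → F) (c : F), Q u = 0 ∧ Q v = 0 ∧ QuadraticMap.polar ⇑Q u v = 0 ∧ ((g : Matrix.GeneralLinearGroup (Fin n) F) : Matrix (Fin n) (Fin n) F) = Cfsg.siegelMatrix ⇑Q u v c} := by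
  have hnd := H11.nd_of_nondegenerate hQ
  have hd : 5 ≤ Module.finrank F (Fin n → F) := by simpa using hn
  let e := H11.isoOG Q _ (fun _ => rfl)
  have he : ∀ g x, H11.ap (e g) x = H28.rho Q g x := fun _ _ => rfl
  have hmap : (Cfsg.Omega F ⇑Q).map e.toMonoidHom = H11.EG Q := by
    rw [← hnd.omega_eq hd, Cfsg.Omega, map_commutator_eq, MonoidHom.range_eq_top.2 e.surjective]
    rfl
  have hs : ∀ (u v : Fin n → F) (c : F) (x), (Cfsg.siegelMatrix ⇑Q u v c).mulVec x
      = x + c • (QuadraticMap.polar Q u x • v - QuadraticMap.polar Q v x • u) := by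
    intro u v c x
    rw [Cfsg.siegelMatrix, Matrix.add_mulVec, Matrix.one_mulVec, Matrix.smul_mulVec,
      Matrix.sub_mulVec, H28.vecMulVec_polarVec_mulVec, H28.vecMulVec_polarVec_mulVec]
  refine Subgroup.map_injective (f := e.toMonoidHom) e.injective ?_
  rw [hmap]
  refine le_antisymm (H11.EG_le fun u v hu huv => hnd.eich_mem_of_sing hd ?_ hu huv) ?_
  · intro u v hu huv hv _
    refine ⟨e.symm (H11.eich hu huv), Subgroup.subset_closure ⟨u, v, 1, hu, hv, huv, ?_⟩,
      e.apply_symm_apply _⟩
    refine H28.mat_eq_of_rho fun x => ?_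
    rw [← he, e.apply_symm_apply, H11.ap_eich, hs, hv, QuadraticMap.polar_comm Q x,
      QuadraticMap.polar_comm Q x]
    module
  · rw [Subgroup.map_le_iff_le_comap, Subgroup.closure_le]
    rintro g ⟨u, v, c, hu, hv, huv, hg⟩
    have h1 : QuadraticMap.polar Q u (c • v) = 0 := by rw [H11.polar_smul_right', huv, mul_zero]
    have : e g = H11.eich hu h1 := H11.OG_ext fun x => by
      rw [he, H28.rho_apply, H28.mat, hg, hs, H11.ap_eich, H11.Q_smul, hv, H11.polar_smul_right',
        QuadraticMap.polar_comm Q x, QuadraticMap.polar_comm Q x]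
      module
    change e g ∈ H11.EG Q
    rw [this]
    exact H11.eich_mem_EG _ _

end Cfsg.Agent.S0795
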