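import Cfsg.Statements.S0796


set_option autoImplicit false
open Cfsg

namespace Cfsg.Agent.S0796

/-- If G is finite and acts faithfully and primitively on X, H is the stabiliser of a point, A is a normal subgroup of H whose normal closure in G is G, then for every non-trivial normal subgroup K of G the quotient G ⧸ K is isomorphic to A ⧸ B for some normal subgroup B of A. -/
theorem result {G X : Type*} [Group G] [Finite G] [MulAction G X] [FaithfulSMul G X] (hprim : MulAction.IsPreprimitive G X) (x : X) (A : Subgroup G) (hA : A ≤ MulAction.stabilizer G x) (hAn : (A.subgroupOf (MulAction.stabilizer G x)).Normal) (hgen : Subgroup.normalClosure (A : Set G) = ⊤) (K : Subgroup G) [K.Normal] (hK : K ≠ ⊥) : ∃ (B : Subgroup A) (_ : B.Normal), Nonempty (G ⧸ K ≃* A ⧸ B) := by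
  have hKG : K ⊔ MulAction.stabilizer G x = ⊤ := by
    have h1 : MulAction.IsPretransitive K X := by
      apply MulAction.IsQuasiPreprimitive.isPretransitive_of_normal
      intro h
      apply hK
      rw [eq_bot_iff]
      intro k hk
      rw [Subgroup.mem_bot]
      apply FaithfulSMul.eq_of_smul_eq_smul (α := X)
      intro y
      have hy : y ∈ MulAction.fixedPoints K X := by rw [h]; trivial
      simpa using hy ⟨k, hk⟩
    rw [eq_top_iff]
    intro g _
    obtain ⟨k, hk⟩ := h1.exists_smul_eq x (g • x)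
    have : g = k * ((k : G)⁻¹ * g) := by simp
    rw [this]
    refine Subgroup.mul_mem_sup k.2 ?_
    rw [MulAction.mem_stabilizer_iff, mul_smul, ← hk]
    simp [Subgroup.smul_def]
  have hn : (K ⊔ A).Normal := by
    rw [← Subgroup.normalizer_eq_top_iff, eq_top_iff, ← hKG, sup_le_iff]
    refine ⟨le_sup_left.trans Subgroup.le_normalizer, fun h hh => ?_⟩
    have key : ∀ h ∈ MulAction.stabilizer G x, ∀ y ∈ K ⊔ A, h * y * h⁻¹ ∈ K ⊔ A := by
      intro h hh y hy
      rw [← SetLike.mem_coe, Subgroup.normal_mul] at hy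
      obtain ⟨k, hk, a, ha, rfl⟩ := hy
      have h1 : h * a * h⁻¹ ∈ A := hAn.conj_mem ⟨a, hA ha⟩ ha ⟨h, hh⟩
      have : h * (k * a) * h⁻¹ = (h * k * h⁻¹) * (h * a * h⁻¹) := by group
      show h * (k * a) * h⁻¹ ∈ _
      rw [this]
      exact Subgroup.mul_mem_sup (Subgroup.Normal.conj_mem inferInstance k hk h) h1
    rw [Subgroup.mem_normalizer_iff]
    intro y
    refine ⟨key h hh y, fun hy => ?_⟩
    simpa [mul_assoc] using key h⁻¹ (Subgroup.inv_mem _ hh) _ hy
  have htop : K ⊔ A = ⊤ := by
    rw [eq_top_iff, ← hgen]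
    exact Subgroup.normalClosure_le_normal (fun a ha => Subgroup.mem_sup_right ha)
  have hs : Function.Surjective ((QuotientGroup.mk' K).comp A.subtype) := by
    intro y
    obtain ⟨g, rfl⟩ := QuotientGroup.mk'_surjective K y
    have hg : g ∈ K ⊔ A := by rw [htop]; trivial
    rw [← SetLike.mem_coe, Subgroup.normal_mul] at hg
    obtain ⟨k, hk, a, ha, rfl⟩ := hg
    refine ⟨⟨a, ha⟩, ?_⟩
    simp [(QuotientGroup.eq_one_iff k).2 hk]
  exact ⟨_, inferInstance, ⟨(QuotientGroup.quotientKerEquivOfSurjective _ hs).symm⟩⟩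

end Cfsg.Agent.S0796
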