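import Cfsg.Statements.S0797
import Cfsg.Agent.H28.OmegaIndex

set_option autoImplicit false
open Cfsg

namespace Cfsg.Agent.S0797

theorem card_index_two {G : Type*} [Group G] (d s : G →* ℤˣ)
    (hsurj : Function.Surjective (d.prod s)) (hker : d.ker ⊓ s.ker ≤ commutator G) :
    Nat.card {H : Subgroup G // H.index = 2} = 3 := by
  obtain ⟨a, ha⟩ := hsurj (-1, 1)
  obtain ⟨b, hb⟩ := hsurj (1, -1)
  simp only [MonoidHom.prod_apply, Prod.mk.injEq] at ha hb
  have hne : (-1 : ℤˣ) ≠ 1 := by decide
  have hidx : ∀ (f : G →* ℤˣ) (x : G), f x = -1 → f.ker.index = 2 := by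
    intro f x hx
    rw [H28.index_ker_of_surjective, H28.natCard_int_units]
    intro y
    rcases Int.units_eq_one_or y with rfl | rfl
    · exact ⟨1, map_one f⟩
    · exact ⟨x, hx⟩
  have : {H : Subgroup G | H.index = 2} = {d.ker, s.ker, (d * s).ker} := by
    ext H
    simp only [Set.mem_setOf_eq, Set.mem_insert_iff, Set.mem_singleton_iff]
    constructor
    · intro hH
      have hn : H.Normal := Subgroup.normal_of_index_eq_two hH
      have hc : commutator G ≤ H := by
        rw [commutator_def, Subgroup.commutator_le]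
        intro x _ y _
        rw [commutatorElement_def, mul_assoc, Subgroup.mul_mem_iff_of_index_two hH,
          Subgroup.mul_mem_iff_of_index_two hH, Subgroup.mul_mem_iff_of_index_two hH]
        simp
      have hk : ∀ g, d g = 1 → s g = 1 → g ∈ H := fun g h1 h2 => hc (hker ⟨h1, h2⟩)
      have k1 : ∀ g, d g = -1 → s g = 1 → (g ∈ H ↔ a ∈ H) := fun g h1 h2 => by
        rw [← Subgroup.mul_mem_iff_of_index_two hH]; apply hk <;> simp [h1, h2, ha]
      have k2 : ∀ g, d g = 1 → s g = -1 → (g ∈ H ↔ b ∈ H) := fun g h1 h2 => by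
        rw [← Subgroup.mul_mem_iff_of_index_two hH]; apply hk <;> simp [h1, h2, hb]
      have k3 : ∀ g, d g = -1 → s g = -1 → (g ∈ H ↔ (a ∈ H ↔ b ∈ H)) := fun g h1 h2 => by
        rw [← Subgroup.mul_mem_iff_of_index_two hH, ← Subgroup.mul_mem_iff_of_index_two hH]
        apply hk <;> simp [h1, h2, ha, hb]
      by_cases haH : a ∈ H <;> by_cases hbH : b ∈ H
      · exfalso
        have : H = ⊤ := by
          rw [eq_top_iff]
          intro g _
          rcases Int.units_eq_one_or (d g) with h1 | h1 <;>
          rcases Int.units_eq_one_or (s g) with h2 | h2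
          · exact hk g h1 h2
          · exact (k2 g h1 h2).2 hbH
          · exact (k1 g h1 h2).2 haH
          · exact (k3 g h1 h2).2 (by tauto)
        rw [this, Subgroup.index_top] at hH
        omega
      · right; left
        ext g
        rw [MonoidHom.mem_ker]
        rcases Int.units_eq_one_or (d g) with h1 | h1 <;>
        rcases Int.units_eq_one_or (s g) with h2 | h2
        · simp [hk g h1 h2, h2]
        · simp [k2 g h1 h2, h2, hbH, hne]
        · simp [k1 g h1 h2, h2, haH]
        · simp [k3 g h1 h2, h2, haH, hbH, hne]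
      · left
        ext g
        rw [MonoidHom.mem_ker]
        rcases Int.units_eq_one_or (d g) with h1 | h1 <;>
        rcases Int.units_eq_one_or (s g) with h2 | h2
        · simp [hk g h1 h2, h1]
        · simp [k2 g h1 h2, h1, hbH]
        · simp [k1 g h1 h2, h1, haH, hne]
        · simp [k3 g h1 h2, h1, haH, hbH, hne]
      · right; right
        ext g
        rw [MonoidHom.mem_ker, MonoidHom.mul_apply]
        rcases Int.units_eq_one_or (d g) with h1 | h1 <;>
        rcases Int.units_eq_one_or (s g) with h2 | h2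
        · simp [hk g h1 h2, h1, h2]
        · simp [k2 g h1 h2, h1, h2, hbH, hne]
        · simp [k1 g h1 h2, h1, h2, haH, hne]
        · simp [k3 g h1 h2, h1, h2, haH, hbH]
    · rintro (rfl | rfl | rfl)
      · exact hidx d a ha.1
      · exact hidx s b hb.2
      · exact hidx (d * s) a (by simp [ha])
  rw [show Nat.card {H : Subgroup G // H.index = 2} = Set.ncard {H : Subgroup G | H.index = 2} from
    Nat.card_coe_set_eq _, this, Set.ncard_eq_three]
  refine ⟨_, _, _, fun h => ?_, fun h => ?_, fun h => ?_, rfl⟩
  · have : a ∈ d.ker := by rw [h]; exact ha.2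
    exact hne (ha.1.symm.trans this)
  · have : b ∈ (d * s).ker := by rw [← h]; exact hb.1
    simp [MonoidHom.mem_ker, hb, hne] at this
  · have : a ∈ (d * s).ker := by rw [← h]; exact ha.2
    simp [MonoidHom.mem_ker, ha, hne] at this

/-- O^ε_2m(q) ≅ Ω.2² for q odd: if F is finite of odd characteristic, n ≥ 2 is even and Q has non-degenerate polar form on F^n, the isometry group of Q has exactly three subgroups of index 2. -/
theorem result {F : Type*} [Field F] [Fintype F] (h2 : (2 : F) ≠ 0) {n : ℕ} (hn : 2 ≤ n) (heven : Even n) (Q : QuadraticForm F (Fin n → F)) (hQ : (QuadraticMap.polarBilin Q).Nondegenerate) : Nat.card {H : Subgroup ↥(Cfsg.isometryGroup F ⇑Q) // H.index = 2} = 3 := by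
  have hok : H28.EichOK Q := H28.eichOK_of_two_ne_zero h2
  exact card_index_two (H28.dickson hQ hok) (H28.spinor hQ hok)
    (H28.dickson_prod_spinor_surjective hQ hok h2 (by simpa using hn))
    (H28.omega_eq hQ hok).ge

end Cfsg.Agent.S0797
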