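import Cfsg.Statements.S0798
import Cfsg.Agent.H28.NormClass2

set_option autoImplicit false
open Cfsg

namespace Cfsg.Agent.S0798

/-- For q odd, n ≥ 2 even, Q with non-degenerate polar form (n, |F|) ≠ (4, 3), and a fixed c ≠ 0: the subgroup of the isometry group generated by the reflections r_v with Q(v) ∈ c·(F^×)² has index 2. -/
theorem result {F : Type*} [Field F] [Fintype F] (h2 : (2 : F) ≠ 0) {n : ℕ} (hn : 2 ≤ n) (heven : Even n) (Q : QuadraticForm F (Fin n → F)) (hQ : (QuadraticMap.polarBilin Q).Nondegenerate) (h43 : ¬ (n = 4 ∧ Fintype.card F = 3)) (c : F) (hc : c ≠ 0) : (Subgroup.closure {g : ↥(Cfsg.isometryGroup F ⇑Q) | ∃ (v : Fin n → F) (t : F), t ≠ 0 ∧ Q v = c * t ^ 2 ∧ ((g : Matrix.GeneralLinearGroup (Fin n) F) : Matrix (Fin n) (Fin n) F) = Cfsg.reflectionMatrix ⇑Q v}).index = 2 := by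
  refine Eq.trans ?_ (H28.reflSub_index hQ h2 (by obtain ⟨k, hk⟩ := heven; simp; omega)
    (by simpa using h43) hc)
  congr 1
  apply le_antisymm
  · rw [Subgroup.closure_le]
    rintro g ⟨v, t, ht, hv, hg⟩
    have : g = H28.refl Q (t⁻¹ • v) := by
      rw [H28.refl_smul (inv_ne_zero ht)]; exact H28.O_ext_mat hg
    rw [this]
    apply H28.refl_mem_reflSub
    rw [H28.Q_smul, hv]; field_simp
  · rw [H28.reflSub, Subgroup.closure_le]
    rintro g ⟨v, hv, rfl⟩
    exact Subgroup.subset_closure ⟨v, 1, one_ne_zero, by simpa using hv, rfl⟩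

end Cfsg.Agent.S0798
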