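import Cfsg.Statements.S0800
import Cfsg.Agent.H66.SL2Order

set_option autoImplicit false
open Cfsg

namespace Cfsg.Agent.S0800

/-- Tori of SL_2(q): if g ∈ SL_2(q) has order coprime to the characteristic p, then the order of g divides q − 1 or q + 1. -/
theorem result {F : Type*} [Field F] [Fintype F] {q : ℕ} (hF : Fintype.card F = q) (p : ℕ) [Fact p.Prime] [CharP F p] (g : Matrix.SpecialLinearGroup (Fin 2) F) (hg : Nat.Coprime (orderOf g) p) : orderOf g ∣ q - 1 ∨ orderOf g ∣ q + 1 := by
  subst hF
  rw [← Nat.card_eq_fintype_card]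
  by_cases h : H66.tr2 g ^ 2 = 4
  · left
    have h1 := orderOf_dvd_of_pow_eq_one (H66.pow_two_mul_char p h)
    have h2 : orderOf g ∣ 2 := hg.dvd_of_dvd_mul_right h1
    rcases (Nat.dvd_prime Nat.prime_two).1 h2 with e | e
    · rw [e]; exact one_dvd _
    · rw [e] at hg ⊢
      have h3 : (2 : F) ≠ 0 := fun h0 => by
        have := (CharP.cast_eq_zero_iff F p 2).1 (by exact_mod_cast h0)
        rw [(Nat.prime_dvd_prime_iff_eq Fact.out Nat.prime_two).1 this] at hg
        norm_num at hg
      have := H66.odd_card_of_two_ne h3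
      rw [Nat.card_eq_fintype_card]
      omega
  · by_cases hs : H66.Split (H66.tr2 g)
    · exact Or.inl (orderOf_dvd_of_pow_eq_one (H66.pow_card_sub_one_of_split h hs))
    · exact Or.inr (orderOf_dvd_of_pow_eq_one (H66.pow_card_add_one_of_nonsplit hs))

end Cfsg.Agent.S0800
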