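import Cfsg.Statements.S0821
import Cfsg.Agent.H68.InstO
import Cfsg.Agent.H68.InstSp

set_option autoImplicit false
open Cfsg

namespace Cfsg.Agent.S0821

open Cfsg.Agent.H68 Cfsg.Agent.H68.Polar Cfsg.Agent.H27 Module in
theorem aux {F : Type*} [Field F] {m : ℕ} {U : Submodule F (Fin m ⊕ Fin m → F)}
    (hU : ∀ v v', (∀ u ∈ U, sympForm m F v u = 0) → (∀ u ∈ U, sympForm m F v' u = 0) →
      sympForm m F v v' = 0) : m ≤ finrank F U := by
  have hB := sympBilin_nondegenerate (m := m) (F := F)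
  have hs : ∀ x y, sympBilin m F x y = 0 → sympForm m F y x = 0 := fun x y h => by
    rw [sympForm_neg_comm, ← sympBilin_apply, h, neg_zero]
  have h1 : (sympBilin m F).orthogonal U ≤ U := by
    intro v hv
    rw [← LinearMap.BilinForm.orthogonal_orthogonal hB sympBilin_isAlt.isRefl U]
    intro v' hv'
    exact (sympBilin_apply _ _).trans
      (hU v' v (fun u hu => hs _ _ (hv' u hu)) (fun u hu => hs _ _ (hv u hu)))
  have h2 := Submodule.finrank_mono h1
  rw [LinearMap.BilinForm.finrank_orthogonal hB] at h2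
  simp only [finrank_fintype_fun_eq_card, Fintype.card_sum, Fintype.card_fin] at h2
  omega

open Cfsg.Agent.H68 Cfsg.Agent.H68.Polar Cfsg.Agent.H27 Module QuadraticMap in

/-- PSp_2m(q) ≇ PΩ_(2m+1)(q) for q odd and m ≥ 3 (they have the same order). -/
theorem result {F : Type*} [Field F] [Fintype F] (hodd : Odd (Fintype.card F)) (m : ℕ) (hm : 3 ≤ m) : IsEmpty (Cfsg.PSp m F ≃* Cfsg.POmega F (Cfsg.quadFormOdd m F)) := by
  refine ⟨fun β => ?_⟩
  obtain ⟨p, hp⟩ := CharP.exists F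
  have : Fact p.Prime := ⟨CharP.char_is_prime F p⟩
  have h2 := H28.two_ne_zero_of_odd_card hodd
  have hQ := H28.qOdd_nondeg m h2
  have h5 : 5 ≤ Fintype.card (Unit ⊕ (Fin m ⊕ Fin m)) := by simp; omega
  have := finite_omega ⇑(H28.qOdd m F)
  have := finite_sp (m := m) (F := F)
  let α : POmega F ⇑(H28.qOdd m F) ≃* PSp m F := β.symm
  have hfr : finrank F (Unit ⊕ (Fin m ⊕ Fin m) → F) = 2 * m + 1 := by simp; ring
  have hfr₂ : finrank F (Fin m ⊕ Fin m → F) = 2 * m := by simp; ring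
  have hne : ∃ e, e ≠ 0 ∧ H28.qOdd m F e = 0 := by
    obtain ⟨x, _, hx⟩ := H27.exists_singular_of_three_le (H28.qOdd m F) ⊤
      (by rw [finrank_top, hfr]; omega)
    exact ⟨x, hx⟩
  have hne₂ : ∃ e, e ≠ 0 ∧ (spPolar m F).Sing e :=
    ⟨Pi.single (Sum.inl ⟨0, by omega⟩) 1, by simp, trivial⟩
  have G := oGeo hQ (by rw [hfr]; omega)
  have hinj := matRho_injective (omMat_injective ⇑(H28.qOdd m F))
  have hinj₂ := matRho_injective (spMat_injective (m := m) (F := F))
  have A₁ := (oAct hQ h5).pull_fst (p := p) spAct hinj hinj₂ spGeo hne₂ α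
  have A₂ := (oAct hQ h5).pull_snd (p := p) spAct hinj hinj₂ G hne α
  obtain ⟨e, he0, he⟩ := hne
  rcases corr_or_of_H2 (p := p) A₁ A₂ G spGeo he0 he hne₂ (fun a => by simp) with
    ⟨e', hc⟩ | ⟨U, hUs, hU, -, -, hN, -, hU'⟩
  · obtain ⟨f', h'⟩ := exists_partner hc.ne' hc.sing'
    have hd := finrank_perp2 h'
    obtain ⟨d, hd1, hd0⟩ := exists_ne_zero_of_finrank (W := (spPolar m F).perp2 e' f') (by omega)
    obtain ⟨d', hd', hdd⟩ := (nondeg_perp2 h').exists_eq hd1 hd0 1
    obtain ⟨r, hr, hrf⟩ := A₂.exists_R (p := p) h' hd1.1 trivial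
    obtain ⟨s, hs, hsf⟩ := A₂.exists_R (p := p) h' hd'.1 trivial
    have hR := hc.R_eq (p := p) A₁ A₂ G spGeo
    have hcomm := A₁.R_comm (p := p) (fun a => by simp) he0 he (hR ▸ hr) (hR ▸ hs)
    have h3 := congrArg (fun g => ((matRho (H68.spMat m F)).comp (pullSnd α)) g f') hcomm
    simp only [rho_mul_apply, hrf, hsf, map_add, A₂.R_apply h'.ee h'.fe hr hrf hd'.1,
      A₂.R_apply h'.ee h'.fe hs hsf hd1.1] at h3
    rw [(spPolar m F).symm d' d, hdd] at h3
    have h4 : (2 : F) • e' = 0 := by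
      simp only [RingEquiv.refl_apply, mul_one, neg_mul, one_mul, neg_neg] at h3
      linear_combination (norm := module) h3
    exact hc.ne' ((smul_eq_zero.1 h4).resolve_left h2)
  · have h1 := aux hU'
    obtain ⟨f, h⟩ := exists_partner (P := oPolar _ hQ) he0 he
    have h3 := (A₂.card_N_ge (p := p) hUs hU (by omega)).2 fun _ => trivial
    have h4 := A₁.card_R_le' (p := p) h fun c hc => by
      have h1 : H28.qOdd m F (f + c • e) = 0 := hc
      rw [H28.Q_add, H28.Q_smul, H28.B_smul_right, show H28.qOdd m F f = 0 from h.sf, he,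
        show polar (H28.qOdd m F) f e = 1 from h.fe] at h1
      simpa using h1
    have h6 := le_trans (Nat.mul_le_mul_right _ (h3.trans (Subgroup.card_le_of_le hN))) h4
    rw [← pow_add, Nat.pow_le_pow_iff_right Finite.one_lt_card, hfr] at h6
    omega

end Cfsg.Agent.S0821
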