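import Cfsg.Statements.S0823
import Cfsg.Agent.H29.PermO
import Cfsg.Agent.S0286
import Cfsg.Agent.H28.OmegaIndex
import Cfsg.Agent.H28.StdForms

set_option autoImplicit false
open Cfsg

namespace Cfsg.Agent.S0823

open Matrix

def ix : Unit ⊕ (Fin 1 ⊕ Fin 1) → Fin 3 := Sum.elim (fun _ => 0) (Sum.elim ![1] ![2])

def P : Matrix (Fin 4) (Unit ⊕ (Fin 1 ⊕ Fin 1)) (ZMod 3) :=
  submatrix !![0, 0, 2; 0, 1, 0; 1, 1, 2; 2, 1, 2] id ix

def R : Matrix (Unit ⊕ (Fin 1 ⊕ Fin 1)) (Fin 4) (ZMod 3) :=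
  submatrix !![2, 2, 1, 0; 0, 1, 0, 0; 2, 0, 0, 0] ix id

theorem hg : ∀ i : Fin 3, -(R * P.submatrix (Equiv.swap i.castSucc i.succ) id) *
    -(R * P.submatrix (Equiv.swap i.castSucc i.succ) id) = 1 ∧ (∀ v, quadFormOdd 1 (ZMod 3)
      (-(R * P.submatrix (Equiv.swap i.castSucc i.succ) id) *ᵥ v) = quadFormOdd 1 (ZMod 3) v) ∧
      (-(R * P.submatrix (Equiv.swap i.castSucc i.succ) id)).det = 1 := by
  decide +kernel

/-- SO_3(3) ≅ S_4: the determinant-one isometries of the form x_0² + x_1y_1 over the field with 3 elements form a group isomorphic to the symmetric group on 4 letters. -/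
theorem result {F : Type*} [Field F] [Fintype F] (hF : Fintype.card F = 3) : Nonempty (↥(Cfsg.specialIsometryGroup F (Cfsg.quadFormOdd 1 F)) ≃* Equiv.Perm (Fin 4)) := by
  have h2 : (2 : ZMod 3) ≠ 0 := by decide
  have hQ := H28.qOdd_nondeg (F := ZMod 3) 1 h2
  have hok := H28.eichOK_of_two_ne_zero (Q := H28.qOdd 1 (ZMod 3)) h2
  have h1 := (specialIsometryGroup (ZMod 3) (H28.qOdd 1 (ZMod 3))).card_mul_index
  rw [H28.special_eq_ker_dickson hQ hok h2, H28.index_ker_of_surjective _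
    (H28.dickson_surjective hQ hok (by simp)), H28.natCard_int_units,
    ← H28.special_eq_ker_dickson hQ hok h2] at h1
  have h3 := h1.trans (S0286.result (ZMod.card 3) (by decide) 1)
  obtain ⟨e⟩ := H29.equiv_perm_of_rep ((H29.isoMat (quadFormOdd 1 (ZMod 3))).comp
      (specialIsometryGroup (ZMod 3) (quadFormOdd 1 (ZMod 3))).subtype)
    ((H29.isoMat_inj _).comp Subtype.val_injective) R P 0 ![0, 0, 0, 2] (by decide +kernel)
    (by decide +kernel) (by decide +kernel) (by decide +kernel) (by decide)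
    (fun i => (H29.exists_isoMat (hg i).1 (hg i).2.1).elim fun g h =>
      ⟨⟨g, Units.ext ((congrArg det h).trans (hg i).2.2)⟩, h⟩) (by decide +kernel)
    (Nat.eq_of_mul_eq_mul_right two_pos (h3.trans (by decide +kernel)))
  exact ⟨(H29.soEquiv (H29.equivZMod 3 hF) _ _ (H29.quadFormOdd_comp 1 _)).trans e⟩

end Cfsg.Agent.S0823
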