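import Cfsg.Statements.S0825
import Cfsg.Agent.H29.PermO
import Cfsg.Agent.S0287

set_option autoImplicit false
open Cfsg

namespace Cfsg.Agent.S0825

open Matrix

def ix : Fin 3 ⊕ Fin 3 → Fin 6 := Sum.elim ![0, 1, 2] ![3, 4, 5]

def P : Matrix (Fin 8) (Fin 3 ⊕ Fin 3) (ZMod 2) :=
  submatrix !![0, 0, 0, 0, 0, 0; 0, 0, 1, 0, 0, 1; 0, 1, 0, 0, 1, 1; 0, 1, 1, 1, 1, 0;
    1, 0, 0, 1, 1, 1; 1, 0, 1, 1, 0, 0; 1, 1, 0, 1, 0, 1; 1, 1, 1, 0, 1, 0] id ix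

def R : Matrix (Fin 3 ⊕ Fin 3) (Fin 8) (ZMod 2) :=
  submatrix !![0, 0, 0, 1, 1, 1, 1, 0; 1, 1, 0, 0, 0, 1, 1, 0; 0, 1, 1, 0, 1, 0, 1, 0;
    1, 1, 1, 1, 0, 0, 0, 0; 1, 1, 0, 0, 1, 1, 0, 0; 1, 0, 1, 0, 1, 0, 1, 0] ix id

theorem hg : ∀ i : Fin 7, -(R * P.submatrix (Equiv.swap i.castSucc i.succ) id) *
    -(R * P.submatrix (Equiv.swap i.castSucc i.succ) id) = 1 ∧ ∀ v, quadFormPlus 3 (ZMod 2)
      (-(R * P.submatrix (Equiv.swap i.castSucc i.succ) id) *ᵥ v) = quadFormPlus 3 (ZMod 2) v := by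
  decide +kernel

/-- O⁺_6(2) ≅ S_8: the isometry group of the hyperbolic form x_1y_1 + x_2y_2 + x_3y_3 over the field with 2 elements is isomorphic to the symmetric group on 8 letters. -/
theorem result {F : Type*} [Field F] [Fintype F] (hF : Fintype.card F = 2) : Nonempty (↥(Cfsg.isometryGroup F (Cfsg.quadFormPlus 3 F)) ≃* Equiv.Perm (Fin 8)) := by
  obtain ⟨e⟩ := H29.equiv_perm_of_rep (H29.isoMat (quadFormPlus 3 (ZMod 2))) (H29.isoMat_inj _) R P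
    ![1, 0, 0, 0, 0, 0, 0, 0] ![0, 0, 0, 0, 0, 0, 0, 1] (by decide +kernel) (by decide +kernel)
    (by decide +kernel) (by decide +kernel) (by decide)
    (fun i => H29.exists_isoMat (hg i).1 (hg i).2) (by decide +kernel)
    ((S0287.result (ZMod.card 2) 3 (by decide)).trans (by decide +kernel))
  exact ⟨(H29.isomEquiv (H29.equivZMod 2 hF) _ _ (H29.quadFormPlus_comp 3 _)).trans e⟩

end Cfsg.Agent.S0825
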