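import Cfsg.Statements.S0826
import Cfsg.Agent.H11.Deleted
import Cfsg.Agent.H3.SympBasis
import Cfsg.Agent.H27.Sp

set_option autoImplicit false
open Cfsg

namespace Cfsg.Agent.S0826

/-- S_2n ≤ Sp_(2n−2)(2) for n ≥ 3: there is an injective homomorphism from the symmetric group on 2n letters into the symplectic group of degree 2n − 2 over the field with two elements. -/
theorem result (n : ℕ) (hn : 3 ≤ n) : ∃ f : Equiv.Perm (Fin (2 * n)) →* Matrix.symplecticGroup (Fin (n - 1)) (ZMod 2), Function.Injective f := by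
  obtain ⟨m, rfl⟩ : ∃ m, n = m + 1 := ⟨n - 1, by omega⟩
  have hN : ((2 * m + 1 + 1 : ℕ) : ZMod 2) = 0 := (ZMod.natCast_eq_zero_iff _ _).2 ⟨m + 1, by ring⟩
  let s : (Fin (2 * m + 1) → ZMod 2) →ₗ[ZMod 2] ZMod 2 := ∑ i, LinearMap.proj i
  have hs : ∀ v, v ∈ LinearMap.ker s ↔ ∑ i, v i = 0 := fun v => by simp [s]
  let B : LinearMap.BilinForm (ZMod 2) (LinearMap.ker s) :=
    LinearMap.BilinForm.restrict (Matrix.toBilin' 1) _
  have hB : ∀ u v, B u v = u.1 ⬝ᵥ v.1 := fun u v => by simp [B, Matrix.toBilin'_apply']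
  have hA : B.IsAlt := fun v => by
    rw [hB, ← (hs _).1 v.2]
    exact Finset.sum_congr rfl fun i _ => (by decide : ∀ a : ZMod 2, a * a = a) _
  have m1 : ∀ i j, Pi.single i 1 - Pi.single j 1 ∈ LinearMap.ker s := fun i j => by simp [hs]
  have hn' : B.Nondegenerate := hA.isRefl.nondegenerate_iff_separatingLeft.2 fun u hu => by
    have h1 : ∀ i, u.1 i = u.1 0 := fun i => by
      simpa [hB, sub_eq_zero] using hu ⟨_, m1 i 0⟩
    have h2 := (hs _).1 u.2
    simp only [h1, Finset.sum_const, Finset.card_univ, Fintype.card_fin, nsmul_eq_mul] at h2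
    rw [eq_neg_of_add_eq_zero_left ((Nat.cast_succ _).symm.trans hN)] at h2
    exact Subtype.ext (funext fun i => (h1 i).trans (by simpa using h2))
  have hd : Module.finrank (ZMod 2) (LinearMap.ker s) = 2 * m := by
    have := s.finrank_range_add_finrank_ker
    rw [LinearMap.range_eq_top.2 fun c => ⟨Pi.single 0 c, by simp [s]⟩] at this
    simp at this; omega
  obtain ⟨e, he⟩ := H3.exists_isometry_of_isAlt B (H27.sympBilin m (ZMod 2)) hA
    H27.sympBilin_isAlt hn' H27.sympBilin_nondegenerate (by simp [hd, two_mul])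
  let r : Equiv.Perm (Fin (2 * m + 1 + 1)) → Module.End (ZMod 2) (LinearMap.ker s) := fun σ =>
    (H11.delRep (ZMod 2) _ σ).restrict fun v hv =>
      (hs _).2 (H11.dot_delRep hN σ ((hs _).1 hv) ((hs _).1 hv)).1
  have := fun σ => H27.exists_sp_of_isometry (e.toLinearMap ∘ₗ r σ ∘ₗ e.symm.toLinearMap)
    fun u v => by
      obtain ⟨u, rfl⟩ := e.surjective u
      obtain ⟨v, rfl⟩ := e.surjective v
      simp only [LinearMap.comp_apply, LinearEquiv.coe_coe, e.symm_apply_apply,
        ← H27.sympBilin_apply, he, hB]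
      exact (H11.dot_delRep hN σ ((hs _).1 u.2) ((hs _).1 v.2)).2
  choose f hf using this
  refine ⟨MonoidHom.mk' f fun σ τ => H27.sp_ext fun u => ?_,
    (injective_iff_map_eq_one _).2 fun σ h => H11.eq_one_of_delRep (F := ZMod 2) (N := 2 * m + 1) (c := 1)
      (by omega) fun i j => ?_⟩
  · rw [H27.sp_mul_mulVec, hf, hf, hf]
    simp only [LinearMap.comp_apply, LinearEquiv.coe_coe, e.symm_apply_apply]
    exact congrArg e (Subtype.ext (LinearMap.congr_fun (map_mul (H11.delRep (ZMod 2) _) σ τ) _))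
  · have := hf σ (e ⟨_, m1 i j⟩)
    rw [show f σ = 1 from h, H27.sp_one_mulVec] at this
    simp only [LinearMap.comp_apply, LinearEquiv.coe_coe, e.symm_apply_apply] at this
    rw [one_smul]
    exact (congrArg Subtype.val (e.injective this)).symm

end Cfsg.Agent.S0826
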