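import Cfsg.Statements.S0828
import Cfsg.Agent.H11.TSCount

set_option autoImplicit false
open Cfsg

namespace Cfsg.Agent.S0828

/-- The symplectic generalised quadrangle over a field with q elements: the number of 2-dimensional subspaces of F^4 on which the symplectic form vanishes is (q + 1)(q² + 1), and every non-zero vector lies in exactly q + 1 of them. -/
theorem result {F : Type*} [Field F] [Fintype F] {q : ℕ} (hF : Fintype.card F = q) : Nat.card {W : Submodule F (Fin 2 ⊕ Fin 2 → F) // Module.finrank F W = 2 ∧ ∀ u ∈ W, ∀ v ∈ W, Cfsg.sympForm 2 F u v = 0} = (q + 1) * (q ^ 2 + 1) ∧ ∀ v : Fin 2 ⊕ Fin 2 → F, v ≠ 0 → Nat.card {W : Submodule F (Fin 2 ⊕ Fin 2 → F) // Module.finrank F W = 2 ∧ v ∈ W ∧ ∀ u ∈ W, ∀ w ∈ W, Cfsg.sympForm 2 F u w = 0} = q + 1 := by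
  have hq : 2 ≤ q := hF ▸ Fintype.one_lt_card
  obtain ⟨q, rfl⟩ : ∃ r, q = r + 2 := ⟨q - 2, by omega⟩
  constructor
  · have := H11.card_ti_alt (F := F) (H9.isSesq_symp (m := 2)) H27.sympForm_self 2 (by simp)
    simp only [Finset.prod_range_succ, Finset.prod_range_zero, hF, Fintype.card_sum,
      Fintype.card_fin] at this
    rw [show (q + 2) ^ 2 - (q + 2) ^ 0 = q ^ 2 + 4 * q + 3 from Nat.sub_eq_of_eq_add (by ring),
      show (q + 2) ^ 2 - (q + 2) ^ 1 = q ^ 2 + 3 * q + 2 from Nat.sub_eq_of_eq_add (by ring),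
      show (q + 2) ^ (2 + 2 - 0) - (q + 2) ^ 0 = (q ^ 2 + 4 * q + 3) * ((q + 2) ^ 2 + 1) from
        Nat.sub_eq_of_eq_add (by ring),
      show (q + 2) ^ (2 + 2 - 1) - (q + 2) ^ 1 = (q ^ 2 + 3 * q + 2) * (q + 2 + 1) from
        Nat.sub_eq_of_eq_add (by ring)] at this
    refine mul_right_cancel₀ (by positivity) (this.trans ?_)
    ring
  · intro v hv
    have h := H11.isPolar_alt (F := F) (H9.isSesq_symp (m := 2)) H27.sympForm_self
    have hU : H11.TS (sympForm 2 F) (fun _ => True) (Submodule.span F {v}) := by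
      simpa using (h.ts_sup (U := ⊥) ⟨fun _ _ => trivial, fun u hu w _ => by
        rw [(Submodule.mem_bot F).1 hu, h.sesq.zero_left]⟩ v).2 ⟨trivial, fun w hw => by
        rw [(Submodule.mem_bot F).1 hw, h.sesq.zero_right]⟩
    have h1 := h.card_ext hU
    have h2 := H9.finrank_add_finrank_perp h.sesq (Submodule.span F {v})
    have h3 := H11.card_sub (H9.perp h.sesq (Submodule.span F {v}))
    rw [H11.card_step] at h1
    simp only [finrank_span_singleton hv, true_and, Fintype.card_sum, Fintype.card_fin, hF,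
      Submodule.span_singleton_le_iff_mem, H11.TS, implies_true] at h1 h2 h3
    rw [show Module.finrank F (H9.perp h.sesq (Submodule.span F {v})) = 3 by omega] at h3
    rw [h3, show (q + 2) ^ (1 + 1) - (q + 2) ^ 1 = q ^ 2 + 3 * q + 2 from
      Nat.sub_eq_of_eq_add (by ring)] at h1
    refine mul_right_cancel₀ (b := q ^ 2 + 3 * q + 2) (by positivity)
      (add_right_cancel (h1.trans ?_))
    ring

end Cfsg.Agent.S0828
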