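import Cfsg.Statements.S0830
import Cfsg.Agent.H11.TSCount

set_option autoImplicit false
open Cfsg

namespace Cfsg.Agent.S0830

/-- The unitary quadrangle of PSU_5(q): with |F| = q², the number of 2-dimensional subspaces of F^5 on which the Hermitian form vanishes is (q³ + 1)(q⁵ + 1). -/
theorem result {F : Type*} [Field F] [Fintype F] {q : ℕ} (hF : Fintype.card F = q ^ 2) : Nat.card {W : Submodule F (Fin 5 → F) // Module.finrank F W = 2 ∧ ∀ u ∈ W, ∀ v ∈ W, Cfsg.hermForm 5 F q u v = 0} = (q ^ 3 + 1) * (q ^ 5 + 1) := by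
  have : Fact (Fintype.card F = q ^ 2) := ⟨hF⟩
  have hq := H10.two_le_q F q
  have h := H11.card_ti_herm (F := F) (q := q) 5 2 (by simp)
  have h1 := fun k => Nat.one_le_pow k q (by omega)
  have h2 : (q ^ 2) ^ 1 < (q ^ 2) ^ 2 := Nat.pow_lt_pow_right (by nlinarith) (by omega)
  have h3 : (q ^ 2) ^ 0 < (q ^ 2) ^ 2 := Nat.pow_lt_pow_right (by nlinarith) (by omega)
  refine mul_right_cancel₀ ?_ (h.trans ?_)
  · simp only [Finset.prod_range_succ, Finset.prod_range_zero]
    exact mul_ne_zero (by omega) (by omega)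
  · simp only [Finset.prod_range_succ, Finset.prod_range_zero, H11.uIso]
    rw [if_neg (by decide), if_neg (by decide)]
    zify [h1, h2.le, h3.le]
    ring

end Cfsg.Agent.S0830
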