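import Cfsg.Statements.S0831
import Cfsg.Agent.H85.Lagr

set_option autoImplicit false
open Cfsg

namespace Cfsg.Agent.S0831



/-- The two families of maximal totally singular subspaces of the hyperbolic quadric: for the form Σ x_i y_i on F^(2m), m ≥ 1, and m-dimensional subspaces U, W, X on which it vanishes, the parities of m − dim(U ∩ W), m − dim(W ∩ X) and m − dim(U ∩ X) sum to an even number (so 'even codimension of the intersection' is an equivalence relation), and there exist two such subspaces meeting in codimension 1 (so there are exactly two classes). -/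
theorem result {F : Type*} [Field F] (m : ℕ) (hm : 1 ≤ m) : (∀ U W X : Submodule F (Fin m ⊕ Fin m → F), (Module.finrank F U = m ∧ ∀ w ∈ U, Cfsg.quadFormPlus m F w = 0) → (Module.finrank F W = m ∧ ∀ w ∈ W, Cfsg.quadFormPlus m F w = 0) → (Module.finrank F X = m ∧ ∀ w ∈ X, Cfsg.quadFormPlus m F w = 0) → Even ((m - Module.finrank F ↥(U ⊓ W)) + (m - Module.finrank F ↥(W ⊓ X)) + (m - Module.finrank F ↥(U ⊓ X)))) ∧ ∃ U W : Submodule F (Fin m ⊕ Fin m → F), (Module.finrank F U = m ∧ ∀ w ∈ U, Cfsg.quadFormPlus m F w = 0) ∧ (Module.finrank F W = m ∧ ∀ w ∈ W, Cfsg.quadFormPlus m F w = 0) ∧ Module.finrank F ↥(U ⊓ W) + 1 = m := by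
  have hQ := H67.QPlus_nondegenerate (F := F) m
  have hV : Module.finrank F (Fin m ⊕ Fin m → F) = 2 * m := by simp [two_mul]
  rw [← H67.coe_QPlus]
  refine ⟨fun U W X hU hW hX => H85.Lag.parity hQ hV hU hW hX, ?_⟩
  obtain ⟨W, hW⟩ := H85.exists_lag_plus F m
  obtain ⟨H, hHW, hH⟩ := hW.exists_hyperplane hm
  obtain ⟨W', hW', -, h, -⟩ := hW.exists_other hQ hV hHW hH
  exact ⟨W, W', hW, hW', by rw [h, hH]⟩

end Cfsg.Agent.S0831
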