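import Cfsg.Statements.S0832
import Cfsg.Agent.H85.Lagr

set_option autoImplicit false
open Cfsg

namespace Cfsg.Agent.S0832



/-- For the form Σ x_i y_i on F^(2m) over a finite field, m ≥ 1: an (m−1)-dimensional subspace on which the form vanishes is contained in exactly two m-dimensional subspaces on which it vanishes. -/
theorem result {F : Type*} [Field F] [Finite F] (m : ℕ) (hm : 1 ≤ m) (U : Submodule F (Fin m ⊕ Fin m → F)) (hU : Module.finrank F U + 1 = m ∧ ∀ u ∈ U, Cfsg.quadFormPlus m F u = 0) : Nat.card {W : Submodule F (Fin m ⊕ Fin m → F) // Module.finrank F W = m ∧ (∀ w ∈ W, Cfsg.quadFormPlus m F w = 0) ∧ U ≤ W} = 2 := by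
  have hQ := H67.QPlus_nondegenerate (F := F) m
  have hV : Module.finrank F (Fin m ⊕ Fin m → F) = 2 * m := by simp [two_mul]
  rw [← H67.coe_QPlus] at hU ⊢
  obtain ⟨E, hE⟩ := H85.exists_lag_plus F m
  obtain ⟨W, W', hW, hW', h1, h2, h3, h4⟩ := hE.card_over hQ hV hU.1 hU.2
  refine Nat.card_eq_two_iff.2 ⟨⟨W, hW.1, hW.2, h1⟩, ⟨W', hW'.1, hW'.2, h2⟩,
    fun h => h3 (congrArg Subtype.val h), Set.eq_univ_of_forall fun X => ?_⟩
  rcases h4 X.1 ⟨X.2.1, X.2.2.1⟩ X.2.2.2 with h | h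
  · exact Or.inl (Subtype.ext h)
  · exact Or.inr (Subtype.ext h)

end Cfsg.Agent.S0832
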