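import Cfsg.Statements.S0833
import Cfsg.Agent.H11.TensDisc

set_option autoImplicit false
open Cfsg

namespace Cfsg.Agent.S0833

/-- If B₁, B₂ are non-degenerate alternating forms on U (dim 2k) and W (dim 2l), then B₁ ⊗ B₂ on U ⊗ W is symmetric, non-degenerate, and vanishes identically on some subspace of dimension 2kl (half of dim U ⊗ W). -/
theorem result {F U W : Type*} [Field F] [Fintype F] [AddCommGroup U] [Module F U] [FiniteDimensional F U] [AddCommGroup W] [Module F W] [FiniteDimensional F W] (B₁ : LinearMap.BilinForm F U) (B₂ : LinearMap.BilinForm F W) (h₁ : B₁.Nondegenerate) (h₂ : B₂.Nondegenerate) (hA₁ : B₁.IsAlt) (hA₂ : B₂.IsAlt) (k l : ℕ) (hU : Module.finrank F U = 2 * k) (hW : Module.finrank F W = 2 * l) : (B₁.tmul B₂).IsSymm ∧ (B₁.tmul B₂).Nondegenerate ∧ (∃ X : Submodule F (TensorProduct F U W), Module.finrank F X = 2 * k * l ∧ ∀ x ∈ X, ∀ y ∈ X, (B₁.tmul B₂) x y = 0) := by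
  refine ⟨LinearMap.BilinForm.isSymm_iff.1 (H11.symm_tmul fun a c b d => by
    rw [← hA₁.neg_eq c a, ← hA₂.neg_eq d b]; ring),
    H11.nondeg_tmul h₁ h₂, ?_⟩
  obtain ⟨m, b, hb⟩ := H3.exists_isSympBasis B₁ hA₁ h₁
  obtain rfl : m = k := by have := hb.finrank_eq; omega
  let L := Submodule.span F (Set.range fun i => b (.inl i))
  have hL : Module.finrank F L = m :=
    (finrank_span_eq_card (b.linearIndependent.comp _ Sum.inl_injective)).trans (Fintype.card_fin _)
  have h0 : ∀ x ∈ L, ∀ y ∈ L, B₁ x y = 0 := by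
    intro x hx y hy
    induction hx, hy using Submodule.span_induction₂ with
    | mem_mem x y hx hy => obtain ⟨i, rfl⟩ := hx; obtain ⟨j, rfl⟩ := hy; exact hb.2.1 i j
    | zero_left => simp
    | zero_right => simp
    | add_left x y z _ _ _ h h' => simp [h, h']
    | add_right x y z _ _ _ h h' => simp [h, h']
    | smul_left r x y _ _ h => simp [h]
    | smul_right r x y _ _ h => simp [h]
  refine ⟨LinearMap.range (L.subtype.rTensor W), ?_, ?_⟩
  · rw [LinearMap.finrank_range_of_inj (Module.Flat.rTensor_preserves_injective_linearMap _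
      L.injective_subtype), Module.finrank_tensorProduct, hL, hW]
    ring
  · rintro _ ⟨x, rfl⟩ _ ⟨y, rfl⟩
    induction x with
    | zero => simp
    | add x x' h h' => simp only [map_add, LinearMap.add_apply, h, h', add_zero]
    | tmul a b =>
      induction y with
      | zero => simp
      | add x x' h h' => simp only [map_add, h, h', add_zero]
      | tmul c d =>
        rw [LinearMap.rTensor_tmul, LinearMap.rTensor_tmul, H11.tmul_apply,
          h0 (L.subtype a) a.2 (L.subtype c) c.2, zero_mul]

end Cfsg.Agent.S0833
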