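import Cfsg.Statements.S0835
import Cfsg.Agent.H11.TensDisc

set_option autoImplicit false
open Cfsg

namespace Cfsg.Agent.S0835

/-- Over a finite field with 2 ≠ 0: if B₁ on U (dim 2k, k ≥ 1) is non-degenerate symmetric of minus type (no totally isotropic k-subspace) and B₂ on W (dim 2l + 1) is non-degenerate symmetric, then B₁ ⊗ B₂ (dimension 2k(2l+1)) admits no totally isotropic subspace of dimension k(2l+1) (minus type). -/
theorem result {F U W : Type*} [Field F] [Fintype F] [AddCommGroup U] [Module F U] [FiniteDimensional F U] [AddCommGroup W] [Module F W] [FiniteDimensional F W] (h2 : (2 : F) ≠ 0) (B₁ : LinearMap.BilinForm F U) (B₂ : LinearMap.BilinForm F W) (h₁ : B₁.Nondegenerate) (h₂ : B₂.Nondegenerate) (hS₁ : B₁.IsSymm) (hS₂ : B₂.IsSymm) (k l : ℕ) (hk : 1 ≤ k) (hU : Module.finrank F U = 2 * k) (hW : Module.finrank F W = 2 * l + 1) (hm₁ : ¬ (∃ X : Submodule F (U), Module.finrank F X = k ∧ ∀ x ∈ X, ∀ y ∈ X, (B₁) x y = 0)) : ¬ (∃ X :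 Submodule F (TensorProduct F U W), Module.finrank F X = k * (2 * l + 1) ∧ ∀ x ∈ X, ∀ y ∈ X, (B₁.tmul B₂) x y = 0) := by
  rw [H11.plus_tmul_iff h2 h₁ h₂ hS₁ hS₂ (by rw [hU, hW]; ring)]
  rw [H11.plus_iff_disc h2 h₁ hS₁ hU (Module.finBasis F U)] at hm₁
  have hx := (LinearMap.BilinForm.nondegenerate_iff_det_ne_zero (Module.finBasis F U)).1 h₁
  have hy := (LinearMap.BilinForm.nondegenerate_iff_det_ne_zero (Module.finBasis F W)).1 h₂
  generalize (LinearMap.BilinForm.toMatrix (Module.finBasis F U) B₁).det = x at *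
  generalize (LinearMap.BilinForm.toMatrix (Module.finBasis F W) B₂).det = y at *
  rw [hU, hW]
  rintro ⟨s, hs⟩
  refine hm₁ ⟨s / ((-1) ^ (k * l) * x ^ l * y ^ k), ?_⟩
  have : ((-1 : F) ^ (k * l)) ≠ 0 := pow_ne_zero _ (by simp)
  field_simp
  linear_combination hs

end Cfsg.Agent.S0835
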