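import Cfsg.Statements.S0836

set_option autoImplicit false
open Cfsg

namespace Cfsg.Agent.S0836

open Matrix Matrix.SpecialLinearGroup
open scoped commutatorElement MatrixGroups

theorem comm_three {F : Type*} [Field F] {n : ℕ} {i j k : Fin n} (hij : i ≠ j) (hik : i ≠ k)
    (hkj : k ≠ j) (c : F) :
    ⁅(SpecialLinearGroup.transvection hik c : Matrix.SpecialLinearGroup (Fin n) F),
      (SpecialLinearGroup.transvection hkj 1 : Matrix.SpecialLinearGroup (Fin n) F)⁆ =
      SpecialLinearGroup.transvection hij c := by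
  rw [commutatorElement_def, SpecialLinearGroup.transvection_inv,
    SpecialLinearGroup.transvection_inv]
  refine Subtype.ext ?_
  simp only [Matrix.SpecialLinearGroup.coe_mul, transvection_coe, mul_add, add_mul, mul_one, one_mul,
    single_mul_single_same, single_mul_single_of_ne _ _ _ _ hik.symm,
    single_mul_single_of_ne _ _ _ _ hij.symm, single_mul_single_of_ne _ _ _ _ hkj.symm,
    zero_mul, add_zero, ← single_neg]
  simp only [mul_neg, single_mul_single_same, single_mul_single_of_ne _ _ _ _ hik.symm,
    single_mul_single_of_ne _ _ _ _ hij.symm, single_mul_single_of_ne _ _ _ _ hkj.symm,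
    neg_mul, mul_one, neg_zero, neg_neg, zero_mul]
  abel

/-- For i ≠ j and any scalar c, the elementary transvection 1 + c E_ij is a commutator ⁅g, h⁆ of two elements of SL_n(F) provided n ≥ 3, or n = 2 and F contains x ≠ 0 with x² ≠ 1. -/
theorem result {F : Type*} [Field F] (n : ℕ) (hn : 3 ≤ n ∨ (n = 2 ∧ ∃ x : F, x ≠ 0 ∧ x ^ 2 ≠ 1)) (i j : Fin n) (hij : i ≠ j) (c : F) (t : Matrix.SpecialLinearGroup (Fin n) F) (ht : (t : Matrix (Fin n) (Fin n) F) = Matrix.transvection i j c) : t ∈ commutatorSet (Matrix.SpecialLinearGroup (Fin n) F) := by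
  have ht' : t = SpecialLinearGroup.transvection hij c := Subtype.ext ht
  subst ht'
  rw [mem_commutatorSet_iff]
  rcases hn with hn | ⟨rfl, a, ha, hasq⟩
  · obtain ⟨k, hki, hkj⟩ : ∃ k : Fin n, k ≠ i ∧ k ≠ j := by
      have h : (({i, j} : Finset (Fin n))).card < (Finset.univ : Finset (Fin n)).card := by
        have := Finset.card_le_two (a := i) (b := j)
        rw [Finset.card_univ, Fintype.card_fin]; omega
      obtain ⟨k, -, hk⟩ := Finset.exists_mem_notMem_of_card_lt_card h
      simp only [Finset.mem_insert, Finset.mem_singleton, not_or] at hk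
      exact ⟨k, hk.1, hk.2⟩
    exact ⟨_, _, comm_three hij hki.symm hkj c⟩
  · fin_cases i
    · obtain rfl : j = 1 := by fin_cases j <;> tauto
      exact ⟨_, _, commutator_diag2_transvection a ha (c / (a ^ 2 - 1)) c
        (div_mul_cancel₀ c (sub_ne_zero_of_ne hasq)).symm⟩
    · obtain rfl : j = 0 := by fin_cases j <;> tauto
      have (b c' : F) (hc : c' = b * (a ^ 2 - 1)) :
          ⁅diag2 a⁻¹ (inv_ne_zero ha), SpecialLinearGroup.transvection one_ne_zero b⁆ =
          (SpecialLinearGroup.transvection one_ne_zero c' : SL(2, F)) := by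
        rw [commutatorElement_def, diag2_inv a⁻¹ (inv_ne_zero ha),
          SpecialLinearGroup.transvection_inv one_ne_zero b]
        refine Subtype.ext <| Matrix.ext fun i j ↦ ?_
        fin_cases i <;> fin_cases j <;>
        simp [hc, SpecialLinearGroup.transvection_coe, diag2_coe, inv_inv, mul_add, add_mul,
          mul_inv_cancel₀ ha, inv_mul_cancel₀ ha, mul_comm a b, mul_assoc b a a, ← pow_two,
          mul_sub_one, ← sub_eq_add_neg]
      exact ⟨_, _, this (c / (a ^ 2 - 1)) c (div_mul_cancel₀ c (sub_ne_zero_of_ne hasq)).symm⟩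

end Cfsg.Agent.S0836
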