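import Cfsg.Statements.S0837
import Cfsg.Agent.H10.UBase
import Cfsg.Agent.H9.Perp

set_option autoImplicit false
open Cfsg

namespace Cfsg.Agent.S0837

open Matrix H10 in
theorem aux {F : Type*} [Field F] [Fintype F] {q : ℕ} [Fact (Fintype.card F = q ^ 2)] {n k l : ℕ}
    (W : Submodule F (Fin n → F)) (φ : ((Fin k → F) × (Fin l → F)) ≃ₗ[F] (Fin n → F))
    (h : ∀ x y, hermForm n F q (φ x) (φ y) = hermForm k F q x.1 y.1 + hermForm l F q x.2 y.2)
    (hW : ∀ x, φ x ∈ W ↔ x.2 = 0) :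
    Nonempty (↥((stabilizing (glToMat (Fin n) F) (W : Set (Fin n → F))).subgroupOf (GU n F q)) ≃*
      ↥(GU k F q) × ↥(GU l F q)) := by
  let L : GU k F q × GU l F q → Matrix (Fin n) (Fin n) F := fun g => LinearMap.toMatrix'
    (φ.toLinearMap ∘ₗ (toLin' (gm g.1)).prodMap (toLin' (gm g.2)) ∘ₗ φ.symm.toLinearMap)
  have hL : ∀ g x, L g *ᵥ φ x = φ (gm g.1 *ᵥ x.1, gm g.2 *ᵥ x.2) := fun g x => by
    simp [L, LinearMap.toMatrix'_mulVec, Prod.map]
  have hI : ∀ g, IsIsom q (L g) := fun g u v => by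
    obtain ⟨u, rfl⟩ := φ.surjective u
    obtain ⟨v, rfl⟩ := φ.surjective v
    rw [hL, hL, h, h, gm_isIsom, gm_isIsom]
  let Ψ : GU k F q × GU l F q →* GU n F q := MonoidHom.mk' (fun g => mkGU (L g) (hI g))
    fun a b => GU_ext fun x => by
      obtain ⟨x, rfl⟩ := φ.surjective x
      change L (a * b) *ᵥ φ x = (L a * L b) *ᵥ φ x
      rw [← mulVec_mulVec, hL, hL, hL]
      simp [gm_mul]
  have hΨ : ∀ g x, gm (Ψ g) *ᵥ φ x = φ (gm g.1 *ᵥ x.1, gm g.2 *ᵥ x.2) := hL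
  have hinj : Function.Injective Ψ := fun a b e => Prod.ext
    (GU_ext fun x => congrArg Prod.fst (φ.injective ((hΨ a (x, 0)).symm.trans (e ▸ hΨ b (x, 0)))))
    (GU_ext fun x => congrArg Prod.snd (φ.injective ((hΨ a (0, x)).symm.trans (e ▸ hΨ b (0, x)))))
  refine ⟨(MulEquiv.subgroupCongr ?_).trans (MonoidHom.ofInjective hinj).symm⟩
  ext g
  constructor
  · intro hg
    replace hg : ∀ v, v ∈ W ↔ gm g *ᵥ v ∈ W := hg
    let A := LinearMap.toMatrix' (LinearMap.fst F _ _ ∘ₗ φ.symm.toLinearMap ∘ₗ toLin' (gm g) ∘ₗ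
      φ.toLinearMap ∘ₗ LinearMap.inl F _ _)
    let B := LinearMap.toMatrix' (LinearMap.snd F _ _ ∘ₗ φ.symm.toLinearMap ∘ₗ toLin' (gm g) ∘ₗ
      φ.toLinearMap ∘ₗ LinearMap.inr F _ _)
    have hA : ∀ x, φ (A *ᵥ x, 0) = gm g *ᵥ φ (x, 0) := fun x => by
      obtain ⟨y, hy⟩ := φ.surjective (gm g *ᵥ φ (x, 0))
      have := (hW y).1 (hy ▸ (hg _).1 ((hW (x, 0)).2 rfl))
      rw [show A *ᵥ x = y.1 by simp [A, LinearMap.toMatrix'_mulVec, ← hy], ← hy, ← this]
    have hA' : IsIsom q A := fun u v => by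
      have := h (A *ᵥ u, 0) (A *ᵥ v, 0)
      rw [hA, hA, gm_isIsom, h] at this
      simpa [herm_zero_left] using this.symm
    have hB : ∀ x, φ (0, B *ᵥ x) = gm g *ᵥ φ (0, x) := fun x => by
      obtain ⟨y, hy⟩ := φ.surjective (gm g *ᵥ φ (0, x))
      have : y.1 = 0 := eq_zero_of_herm_left (q := q) fun z => by
        have := h y (A *ᵥ (gm (mkGU A hA')⁻¹ *ᵥ z), 0)
        rw [hy, hA, gm_isIsom, h, mulVec_mulVec, show A * _ = 1 from gm_mul_inv (mkGU A hA')] at this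
        simpa [herm_zero_left, herm_zero_right] using this.symm
      rw [show B *ᵥ x = y.2 by simp [B, LinearMap.toMatrix'_mulVec, ← hy], ← hy, ← this]
    have hB' : IsIsom q B := fun u v => by
      have := h (0, B *ᵥ u) (0, B *ᵥ v)
      rw [hB, hB, gm_isIsom, h] at this
      simpa [herm_zero_left] using this.symm
    refine ⟨(mkGU A hA', mkGU B hB'), GU_ext fun x => ?_⟩
    obtain ⟨⟨x, y⟩, rfl⟩ := φ.surjective x
    refine (hΨ _ _).trans ?_
    change φ (A *ᵥ x, B *ᵥ y) = gm g *ᵥ _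
    rw [← Prod.fst_add_snd (A *ᵥ x, _), ← Prod.fst_add_snd (x, _), map_add, map_add, hA, hB,
      mulVec_add]
  · rintro ⟨g, rfl⟩ v
    obtain ⟨x, rfl⟩ := φ.surjective v
    change φ x ∈ W ↔ gm (Ψ g) *ᵥ φ x ∈ W
    rw [hΨ, hW, hW]
    exact ⟨fun a => by rw [a, mulVec_zero], fun a => by
      by_contra b; exact (gm_isIsom g.2).mulVec_ne_zero b a⟩


/-- If W ≤ F^n (|F| = q²) is a k-dimensional subspace on which the Hermitian form Σ x_i y_i^q is non-degenerate, then the stabiliser of W in GU_n(q) is isomorphic to GU_k(q) × GU_(n−k)(q). -/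
theorem result {F : Type*} [Field F] [Fintype F] {q : ℕ} (hF : Fintype.card F = q ^ 2) (n k : ℕ) (hk : k ≤ n) (W : Submodule F (Fin n → F)) (hWk : Module.finrank F W = k) (hW : ∀ u ∈ W, (∀ v ∈ W, Cfsg.hermForm n F q u v = 0) → u = 0) : Nonempty (↥((Cfsg.stabilizing (Cfsg.glToMat (Fin n) F) (W : Set (Fin n → F))).subgroupOf (Cfsg.GU n F q)) ≃* ↥(Cfsg.GU k F q) × ↥(Cfsg.GU (n - k) F q)) := by
  have : Fact (Fintype.card F = q ^ 2) := ⟨hF⟩
  have hf := H10.isSesq_herm (F := F) (q := q) (n := n)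
  have hn : Geo.IsNondegenerateOn (hermForm n F q) W := (H9.nondegOn_iff hf).2
    (eq_bot_iff.2 fun u hu => hW u hu.1 hu.2)
  have hc : IsCompl W (H9.perp hf W) := ⟨disjoint_iff.2 ((H9.nondegOn_iff hf).1 hn),
    codisjoint_iff.2 (H9.sup_perp_eq_top hf hn)⟩
  have hd := H9.finrank_add_finrank_perp hf W
  obtain ⟨b, hb⟩ := H10.exists_orthonormal_basis (κ := Fin k) hf hn (by simp [hWk])
  obtain ⟨c, hc'⟩ := H10.exists_orthonormal_basis (κ := Fin (n - k)) hf (H9.nondegOn_perp hf hn)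
    (by simp at hd ⊢; omega)
  have e : ∀ {m : ℕ} {U : Submodule F (Fin n → F)} (b : Module.Basis (Fin m) F U),
      (∀ i j, hermForm n F q (b i) (b j) = if i = j then 1 else 0) → ∀ x y,
      hermForm n F q (b.equivFun.symm x) (b.equivFun.symm y) = hermForm m F q x y := by
    intro m U b hb x y
    simp [H10.herm_sum_left, H10.herm_sum_right, H10.herm_smul_left, H10.herm_smul_right, hb,
      H10.herm_eq x, mul_comm]
  refine aux W ((b.equivFun.symm.prodCongr c.equivFun.symm).trans (W.prodEquivOfIsCompl _ hc))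
    (fun x y => ?_) fun x => ?_
  · change hermForm n F q (b.equivFun.symm x.1 + c.equivFun.symm x.2)
      (b.equivFun.symm y.1 + c.equivFun.symm y.2) = _
    rw [hf.add_left, hf.add_right, hf.add_right, e b hb, e c hc',
      (c.equivFun.symm x.2).2 _ (b.equivFun.symm y.1).2,
      hf.eq_zero_comm.1 ((c.equivFun.symm y.2).2 _ (b.equivFun.symm x.1).2)]
    simp
  · change (b.equivFun.symm x.1 + c.equivFun.symm x.2 : Fin n → F) ∈ W ↔ _
    rw [add_mem_cancel_left (b.equivFun.symm x.1).2]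
    refine ⟨fun a => c.equivFun.symm.map_eq_zero_iff.1 (Subtype.ext
      (hW _ a (c.equivFun.symm x.2).2)), fun a => by simp [a]⟩

end Cfsg.Agent.S0837
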