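import Cfsg.Statements.S0842
import Cfsg.Agent.H30.QuatLocal

set_option autoImplicit false
open Cfsg

namespace Cfsg.Agent.S0842



/-- Suppose a Sylow 2-subgroup S of the finite group G is generalized quaternion of order at least 16, and let D be the commutator subgroup of S, C its centralizer and N its normalizer in G. Then there is a subgroup K of odd order, contained in C and normalized by N, with K ⊔ S = N and K ⊔ (S ⊓ C) = C, and C has index 2 in N. -/
theorem result {G : Type*} [Group G] [Finite G] (S : Sylow 2 G) (n : ℕ) (e : (S : Subgroup G) ≃* QuaternionGroup (2 ^ (n + 2))) (D : Subgroup G) (hD : D = ⁅(S : Subgroup G), (S : Subgroup G)⁆) : ∃ K : Subgroup G, Odd (Nat.card K) ∧ K ≤ Subgroup.centralizer (D : Set G) ∧ Subgroup.normalizer (D : Set G) ≤ Subgroup.normalizer (K : Set G) ∧ K ⊔ (S : Subgroup G) = Subgroup.normalizer (D : Set G) ∧ K ⊔ ((S : Subgroup G) ⊓ Subgroup.centralizer (D : Set G)) = Subgroup.centralizer (D : Set G) ∧ ((Subgroup.centralizer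 (D : Set G)).subgroupOf (Subgroup.normalizer (D : Set G))).index = 2 := by
  obtain ⟨a, x, h⟩ := H30.exists_qgens e
  rw [h.commutator_eq] at hD
  subst hD
  obtain ⟨K, π, hK, hodd, hπ1, hπ2, hπ3⟩ :=
    H30.exists_retraction_of_isCyclic h.sylIn_C (H30.isCyclic_zpowers' a)
  have hKC : K ≤ Subgroup.centralizer (Subgroup.zpowers (a ^ 2) : Set G) := fun g hg => ((hK g).mp hg).1
  have hsup : K ⊔ Subgroup.zpowers a = Subgroup.centralizer (Subgroup.zpowers (a ^ 2) : Set G) := by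
    refine le_antisymm (sup_le hKC h.sylIn_C.le) fun c hc => ?_
    have h1 : c * (π ⟨c, hc⟩)⁻¹ ∈ K := by
      have h2 := h.sylIn_C.le (hπ1 ⟨c, hc⟩)
      apply (hπ3 (⟨c, hc⟩ * (⟨_, h2⟩)⁻¹)).mp
      rw [map_mul, map_inv, hπ2 ⟨_, h2⟩ (hπ1 ⟨c, hc⟩), mul_inv_cancel]
    simpa using Subgroup.mul_mem_sup h1 (hπ1 ⟨c, hc⟩)
  refine ⟨K, hodd, hKC, fun g hg => ?_, ?_, by rw [h.inf_centralizer, hsup], ?_⟩
  · apply H42.mem_normalizer_of_conj_mem
    intro k hk
    rw [hK] at hk ⊢
    exact ⟨H42.conj_mem_of_mem_normalizer (H42.normalizer_le_normalizer_centralizer _ hg) hk.1,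
      by rw [H8.orderOf_conj']; exact hk.2⟩
  · refine le_antisymm (sup_le (hKC.trans (Subgroup.centralizer_le_normalizer _)) h.le_N)
      fun g hg => ?_
    obtain ⟨s, hs, c, hc, rfl⟩ := h.exists_mul_of_mem_N hg
    rw [← hsup] at hc
    exact mul_mem (Subgroup.mem_sup_right hs) (sup_le_sup_left h.zpowers_le K hc)
  · rw [Subgroup.index_eq_two_iff']
    refine ⟨⟨x⁻¹, inv_mem (h.le_N h.hx)⟩, fun g => ?_⟩
    simp only [Subgroup.mem_subgroupOf, Subgroup.coe_mul]
    by_cases hg : (g : G) ∈ Subgroup.centralizer (Subgroup.zpowers (a ^ 2) : Set G)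
    · exact Or.inr ⟨hg, fun h1 => h.x_notMem_C
        (inv_mem_iff.mp ((mul_mem_cancel_right hg).mp h1))⟩
    · exact Or.inl ⟨(h.mem_or_of_mem_N g.2).resolve_left hg, hg⟩

end Cfsg.Agent.S0842
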