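import Cfsg.Statements.S0846
import Cfsg.Agent.H30.BrauerSuzuki

set_option autoImplicit false
open Cfsg

namespace Cfsg.Agent.S0846



/-- Suppose a Sylow 2-subgroup S of the finite group G is generalized quaternion of order at least 16. Then every Sylow 2-subgroup of the subgroup generated by the involutions of G is cyclic. -/
theorem result {G : Type*} [Group G] [Finite G] (S : Sylow 2 G) (n : ℕ) (e : (S : Subgroup G) ≃* QuaternionGroup (2 ^ (n + 2))) (Q : Sylow 2 ↥(Subgroup.closure {g : G | orderOf g = 2})) : IsCyclic Q := by
  obtain ⟨a, x, h⟩ := H30.exists_qgens e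
  have hle := h.inf_closure_le
  have hLn : (Subgroup.closure {g : G | orderOf g = 2}).Normal := ⟨fun l hl g => by
    have : Subgroup.closure {g : G | orderOf g = 2} ≤ (Subgroup.closure
        {g : G | orderOf g = 2}).comap (MulAut.conj g).toMonoidHom :=
      (Subgroup.closure_le _).mpr fun u hu =>
      Subgroup.subset_closure ((H8.orderOf_conj' g u).trans hu)
    exact this hl⟩
  generalize Subgroup.closure {g : G | orderOf g = 2} = L at *
  have h1 : IsCyclic ↥((S : Subgroup G) ⊓ L) := Subgroup.isCyclic_of_le hle
  have h2 : IsCyclic (H3.sylowInf S L) := by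
    refine isCyclic_of_injective
      ((L.subtype.comp (H3.sylowInf S L : Subgroup L).subtype).codRestrict ((S : Subgroup G) ⊓ L)
        fun y => ⟨y.2, (y : L).2⟩) fun u v huv => ?_
    exact Subtype.ext (Subtype.ext (congrArg (fun y : ↥((S : Subgroup G) ⊓ L) => (y : G)) huv))
  exact isCyclic_of_surjective _ (Sylow.equiv (H3.sylowInf S L) Q).surjective

end Cfsg.Agent.S0846
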