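import Cfsg.Statements.S0849
import Mathlib

set_option autoImplicit false
open Cfsg

namespace Cfsg.Agent.S0849

lemma ebz_mem {G : Type*} [Group G] (H : Subgroup G) (φ : H → ℂ) (x : H) :
    Cfsg.extendByZero H φ (x : G) = φ x :=
  Subtype.val_injective.extend_apply φ 0 x

lemma ebz_not_mem {G : Type*} [Group G] (H : Subgroup G) (φ : H → ℂ) {x : G} (hx : x ∉ H) :
    Cfsg.extendByZero H φ x = 0 := by
  unfold Cfsg.extendByZero
  rw [Function.extend_apply']
  · rfl
  · rintro ⟨a, rfl⟩
    exact hx a.2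

/-- Let H be a subgroup of a finite group G and S a subset of H that is mapped to itself under conjugation by H, is disjoint from its conjugate by any element outside H, and is closed under inverses. Let φ be a class function of H vanishing on H away from S, and let u, v be involutions of G. Then the sum of the induced function of φ over all products a * b with a conjugate to u and b conjugate to v equals the index of H times the sum of φ (a * b) over such pairs with a and b in H. -/
theorem result {G : Type*} [Group G] [Fintype G] (H : Subgroup G) (S : Set G) (hSH : S ⊆ H) (hHS : ∀ h ∈ H, ∀ s ∈ S, h * s * h⁻¹ ∈ S) (hTI : ∀ g : G, g ∉ H → ∀ s ∈ S, g * s * g⁻¹ ∉ S) (hinv : ∀ s ∈ S, s⁻¹ ∈ S) (φ : H → ℂ) (hφ : Cfsg.IsClassFunction H φ) (hφS : ∀ x : H, (x : G) ∉ S → φ x = 0) (u v : G) (hu : orderOf u = 2) (hv : orderOf v = 2) : ∑ᶠ p ∈ {p : G × G | IsConj u p.1 ∧ IsConj v p.2}, Cfsg.indFun H φ (p.1 * p.2) = (H.index : ℂ) * ∑ᶠ p ∈ {p : H × H | IsConj u (p.1 : G) ∧ IsConj v (p.2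 : G)}, φ (p.1 * p.2) := by
  classical
  have hA : ∀ f : G × G → ℂ, ∑ᶠ p ∈ {p : G × G | IsConj u p.1 ∧ IsConj v p.2}, f p =
      ∑ p ∈ Finset.univ.filter (fun p : G × G => IsConj u p.1 ∧ IsConj v p.2), f p := by
    intro f
    rw [← finsum_mem_coe_finset]; simp
  have hB : ∑ᶠ p ∈ {p : H × H | IsConj u (p.1 : G) ∧ IsConj v (p.2 : G)}, φ (p.1 * p.2) =
      ∑ p ∈ Finset.univ.filter (fun p : H × H => IsConj u (p.1 : G) ∧ IsConj v (p.2 : G)),
        φ (p.1 * p.2) := by
    rw [← finsum_mem_coe_finset]; simp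
  rw [hA, hB]
  set A := Finset.univ.filter (fun p : G × G => IsConj u p.1 ∧ IsConj v p.2) with hAdef
  have h1 : ∀ x : G, ∑ p ∈ A, Cfsg.extendByZero H φ (x⁻¹ * (p.1 * p.2) * x) =
      ∑ p ∈ A, Cfsg.extendByZero H φ (p.1 * p.2) := by
    intro x
    refine Finset.sum_bij' (fun p _ => (x⁻¹ * p.1 * x, x⁻¹ * p.2 * x))
      (fun p _ => (x * p.1 * x⁻¹, x * p.2 * x⁻¹)) ?_ ?_ ?_ ?_ ?_
    · intro p hp
      simp only [hAdef, Finset.mem_filter, Finset.mem_univ, true_and] at hp ⊢
      exact ⟨hp.1.trans (isConj_iff.mpr ⟨x⁻¹, by simp⟩), hp.2.trans (isConj_iff.mpr ⟨x⁻¹, by simp⟩)⟩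
    · intro p hp
      simp only [hAdef, Finset.mem_filter, Finset.mem_univ, true_and] at hp ⊢
      exact ⟨hp.1.trans (isConj_iff.mpr ⟨x, rfl⟩), hp.2.trans (isConj_iff.mpr ⟨x, rfl⟩)⟩
    · intro p _
      ext <;> simp [mul_assoc]
    · intro p _
      ext <;> simp [mul_assoc]
    · intro p _
      congr 1
      simp [mul_assoc]
  have h2 : ∑ p ∈ A, Cfsg.extendByZero H φ (p.1 * p.2) =
      ∑ p ∈ Finset.univ.filter (fun p : H × H => IsConj u (p.1 : G) ∧ IsConj v (p.2 : G)),
        φ (p.1 * p.2) := by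
    symm
    refine Finset.sum_bij_ne_zero (fun p _ _ => ((p.1 : G), (p.2 : G))) ?_ ?_ ?_ ?_
    · intro p hp _
      simpa [hAdef] using hp
    · intro p _ _ q _ _ h
      simp only [Prod.mk.injEq] at h
      exact Prod.ext (Subtype.ext h.1) (Subtype.ext h.2)
    · intro p hp hne
      simp only [hAdef, Finset.mem_filter, Finset.mem_univ, true_and] at hp
      have hH : p.1 * p.2 ∈ H := by
        by_contra hn
        exact hne (ebz_not_mem H φ hn)
      have hS : p.1 * p.2 ∈ S := by
        by_contra hn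
        apply hne
        have := ebz_mem H φ ⟨_, hH⟩
        simp only at this
        rw [this]
        exact hφS _ hn
      have ha : p.1 * p.1 = 1 := by
        obtain ⟨c, hc⟩ := isConj_iff.mp hp.1
        have : u * u = 1 := by rw [← pow_two, ← hu, pow_orderOf_eq_one]
        rw [← hc]
        calc c * u * c⁻¹ * (c * u * c⁻¹) = c * (u * u) * c⁻¹ := by group
          _ = 1 := by rw [this]; group
      have hb : p.2 * p.2 = 1 := by
        obtain ⟨c, hc⟩ := isConj_iff.mp hp.2
        have : v * v = 1 := by rw [← pow_two, ← hv, pow_orderOf_eq_one]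
        rw [← hc]
        calc c * v * c⁻¹ * (c * v * c⁻¹) = c * (v * v) * c⁻¹ := by group
          _ = 1 := by rw [this]; group
      have ha' : p.1⁻¹ = p.1 := inv_eq_of_mul_eq_one_right ha
      have hb' : p.2⁻¹ = p.2 := inv_eq_of_mul_eq_one_right hb
      have h1H : p.1 ∈ H := by
        by_contra hn
        apply hTI p.1 hn _ hS
        have : p.1 * (p.1 * p.2) * p.1⁻¹ = (p.1 * p.2)⁻¹ := by
          rw [← mul_assoc, ha, one_mul, mul_inv_rev, hb']
        rw [this]
        exact hinv _ hS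
      have h2H : p.2 ∈ H := by
        have := H.mul_mem (H.inv_mem h1H) hH
        simpa using this
      refine ⟨(⟨p.1, h1H⟩, ⟨p.2, h2H⟩), by simpa using hp, ?_, rfl⟩
      rwa [← ebz_mem H φ]
    · intro p _ _
      rw [← ebz_mem H φ]
      rfl
  simp only [Cfsg.indFun]
  rw [← Finset.mul_sum, Finset.sum_comm]
  simp only [h1]
  rw [h2, Finset.sum_const, Finset.card_univ, nsmul_eq_mul, ← mul_assoc]
  congr 1
  have hc : (Nat.card H : ℂ) ≠ 0 := by exact_mod_cast Nat.card_pos.ne'
  rw [← Nat.card_eq_fintype_card, ← H.card_mul_index]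
  field_simp
  push_cast
  ring

end Cfsg.Agent.S0849
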