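import Cfsg.Statements.S0850
import Mathlib

set_option autoImplicit false
open Cfsg

namespace Cfsg.Agent.S0850

lemma ebz_mem {G : Type*} [Group G] (H : Subgroup G) (φ : H → ℂ) (x : H) :
    Cfsg.extendByZero H φ (x : G) = φ x :=
  Subtype.val_injective.extend_apply φ 0 x

lemma ebz_not_mem {G : Type*} [Group G] (H : Subgroup G) (φ : H → ℂ) {x : G} (hx : x ∉ H) :
    Cfsg.extendByZero H φ x = 0 := by
  unfold Cfsg.extendByZero
  rw [Function.extend_apply']
  · rfl
  · rintro ⟨a, rfl⟩
    exact hx a.2

/-- An element of prime order `p` normalizing a subgroup `K` of order divisible by `p`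
centralizes a non-identity element of `K`. -/
lemma exists_fixed {G : Type*} [Group G] [Finite G] (K : Subgroup G) {p : ℕ} (hp : p.Prime)
    {x : G} (hx : x ∈ Subgroup.normalizer (K : Set G)) (hxp : orderOf x = p)
    (hK : p ∣ Nat.card K) : ∃ k ∈ K, k ≠ 1 ∧ k * x = x * k := by
  have := Fact.mk hp
  let P : Subgroup (Subgroup.normalizer (K : Set G)) := Subgroup.zpowers ⟨x, hx⟩
  have hP : IsPGroup p P := by
    apply IsPGroup.of_card (n := 1)
    rw [Nat.card_zpowers, pow_one, ← hxp]
    exact (Subgroup.orderOf_coe (⟨x, hx⟩ : Subgroup.normalizer (K : Set G))).symm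
  let _ : MulAction P K := MulAction.compHom K (K.normalizerMonoidHom.comp P.subtype)
  have h1 : (1 : K) ∈ MulAction.fixedPoints P K := by
    intro g
    exact map_one (K.normalizerMonoidHom (g : Subgroup.normalizer (K : Set G)))
  obtain ⟨k, hk, hk1⟩ := hP.exists_fixed_point_of_prime_dvd_card_of_fixed_point K hK h1
  refine ⟨k, k.2, fun h => hk1 (Subtype.ext h.symm), ?_⟩
  have := hk ⟨⟨x, hx⟩, Subgroup.mem_zpowers _⟩
  have h2 : x * k * x⁻¹ = k := congrArg Subtype.val this
  calc (k : G) * x = x * k * x⁻¹ * x := by rw [h2]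
    _ = x * k := by group

lemma part1 {G : Type*} [Group G] [Finite G] (K : Subgroup G)
    (hC : ∀ k ∈ K, k ≠ 1 → Subgroup.centralizer ({k} : Set G) ≤ K) :
    ∀ x ∈ Subgroup.normalizer (K : Set G), x ∉ K → ∀ g : G, g * x * g⁻¹ ∉ K := by
  intro x hxN hxK g hg
  have hx1 : orderOf x ≠ 1 := by
    rw [Ne, orderOf_eq_one_iff]
    rintro rfl
    exact hxK K.one_mem
  obtain ⟨p, hp, hpx⟩ := Nat.exists_prime_and_dvd hx1
  have hpos : 0 < orderOf x := orderOf_pos x
  set y := x ^ (orderOf x / p) with hy
  have hyo : orderOf y = p := orderOf_pow_orderOf_div hpos.ne' hpx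
  have hy1 : y ≠ 1 := by
    intro h
    rw [h, orderOf_one] at hyo
    exact hp.one_lt.ne hyo
  have hyK : y ∉ K := by
    intro h
    apply hxK
    apply hC y h hy1
    rw [Subgroup.mem_centralizer_singleton_iff, hy]
    exact ((Commute.refl x).pow_right _).eq
  have hgy : g * y * g⁻¹ ∈ K := by
    rw [hy, ← conj_pow]
    exact K.pow_mem hg _
  have hpK : p ∣ Nat.card K := by
    have := K.orderOf_dvd_natCard hgy
    have h2 : orderOf (g * y * g⁻¹) = orderOf y :=
      (MulAut.conj g).orderOf_eq y
    rwa [h2, hyo] at this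
  obtain ⟨k, hkK, hk1, hky⟩ := exists_fixed K hp ((Subgroup.normalizer (K : Set G)).pow_mem hxN _) hyo hpK
  apply hyK
  apply hC k hkK hk1
  rw [Subgroup.mem_centralizer_singleton_iff]
  exact hky.symm

/-- Let K be a subgroup of the finite group G that meets each conjugate by an element outside its normalizer N trivially, is properly contained in N, and contains the centralizer of each of its non-identity elements (a T.I. subgroup with Frobenius normalizer). Then no element of N outside K is conjugate in G to an element of K, and for every class function ϑ of N that vanishes on N away from K and at the identity, the function induced from ϑ to G agrees with ϑ on all of N. -/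
theorem result {G : Type*} [Group G] [Fintype G] (K : Subgroup G) (hTI : ∀ g : G, g ∉ Subgroup.normalizer (K : Set G) → ∀ k ∈ K, g * k * g⁻¹ ∈ K → k = 1) (hlt : K < Subgroup.normalizer (K : Set G)) (hC : ∀ k ∈ K, k ≠ 1 → Subgroup.centralizer ({k} : Set G) ≤ K) : (∀ x ∈ Subgroup.normalizer (K : Set G), x ∉ K → ∀ g : G, g * x * g⁻¹ ∉ K) ∧ ∀ (ϑ : Subgroup.normalizer (K : Set G) → ℂ), Cfsg.IsClassFunction (Subgroup.normalizer (K : Set G)) ϑ → (∀ x : Subgroup.normalizer (K : Set G), (x : G) ∉ K → ϑ x = 0) → ϑ 1 = 0 → ∀ x : Subgroup.normalizer (K : Set G), Cfsg.indFun (Subgroup.normalizer (K : Set G)) ϑ x = ϑ x := by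
  classical
  refine ⟨part1 K hC, ?_⟩
  have hp1 := part1 K hC
  generalize Subgroup.normalizer (K : Set G) = N at *
  intro ϑ hϑ hϑK hϑ1 x
  have hc : (Nat.card N : ℂ) ≠ 0 := by exact_mod_cast Nat.card_pos.ne'
  have key : ∀ g : G, Cfsg.extendByZero N ϑ (g⁻¹ * x * g) = if g ∈ N then ϑ x else 0 := by
    intro g
    split_ifs with hg
    · have := ebz_mem N ϑ ((⟨g, hg⟩ : N)⁻¹ * x * (⟨g, hg⟩ : N)⁻¹⁻¹)
      rw [hϑ] at this
      rw [← this]
      simp
    · by_cases h1 : g⁻¹ * x * g ∈ N
      · have := ebz_mem N ϑ ⟨_, h1⟩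
        simp only at this
        rw [this]
        by_cases h2 : g⁻¹ * x * g ∈ K
        · by_cases h3 : (x : G) ∈ K
          · have h4 : (x : G) = 1 := hTI g⁻¹ (fun h => hg (by simpa using h)) x h3 (by simpa using h2)
            have : (⟨_, h1⟩ : N) = 1 := Subtype.ext (by simp [h4])
            rw [this, hϑ1]
          · exact absurd (by simpa using h2) (hp1 x x.2 h3 g⁻¹)
        · exact hϑK _ h2
      · exact ebz_not_mem N ϑ h1
  simp only [Cfsg.indFun, key]
  rw [← Finset.sum_filter, Finset.sum_const, nsmul_eq_mul]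
  have : (Finset.univ.filter (fun g : G => g ∈ N)).card = Nat.card N := by
    rw [Nat.card_eq_fintype_card, Fintype.card_subtype]
  rw [this]
  field_simp

end Cfsg.Agent.S0850
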