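import Cfsg.Statements.S0855
import Cfsg.Agent.H30.Ramified
import Cfsg.Agent.H6.Ito

set_option autoImplicit false
open Cfsg

namespace Cfsg.Agent.S0855

open Cfsg Cfsg.Agent.H54 Cfsg.Agent.H49

theorem exists_residual {G : Type*} [Group G] [Fintype G] {p : ℕ} (hp : p.Prime) :
    ∃ N : Subgroup G, N.Normal ∧ (∃ k : ℕ, N.index = p ^ k) ∧ ¬ p ∣ ⁅N, N⁆.relIndex N := by
  have : Fact p.Prime := ⟨hp⟩
  obtain ⟨N, ⟨h1, h2⟩, hN⟩ := (wellFounded_lt (α := Subgroup G)).has_min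
    {N | N.Normal ∧ ∀ g : G, ∃ k : ℕ, g ^ p ^ k ∈ N} ⟨⊤, inferInstance, fun _ => ⟨0, trivial⟩⟩
  refine ⟨N, h1, ?_, fun hd => ?_⟩
  · refine IsPGroup.iff_card.1 fun y : G ⧸ N => ?_
    obtain ⟨g, rfl⟩ := QuotientGroup.mk_surjective y
    obtain ⟨k, hk⟩ := h2 g
    exact ⟨k, by rw [← QuotientGroup.mk_pow, QuotientGroup.eq_one_iff]; exact hk⟩
  · rw [← H52.card_dual] at hd
    obtain ⟨i, hi⟩ := exists_prime_orderOf_dvd_card p hd
    have hl := H52.linChar_lin i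
    refine hN (cfker N (linChar N i)).normalCore ⟨inferInstance, fun g => ?_⟩
      (lt_of_le_of_lt (Subgroup.normalCore_le _) (lt_of_le_of_ne (H52.cfker_le _ _) fun e => ?_))
    · obtain ⟨k, hk⟩ := h2 g
      refine ⟨k + 1, fun b => ?_⟩
      have h3 := h1.conj_mem _ hk b
      rw [H52.mem_cfker_irr hl.1, hl.2, pow_succ, pow_mul, ← conj_pow, H52.lin_map_pow hl h3,
        H52.linChar_apply_of_mem i h3, ← Units.val_pow_eq_pow_val, ← MonoidHom.pow_apply,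
        show i ^ p = 1 from hi ▸ pow_orderOf_eq_one i]
      rfl
    · rw [H52.linChar_eq_cf1_iff.1 (H52.irr_eq_cf1_of_le_cfker hl.1 e.ge), orderOf_one] at hi
      exact hp.one_lt.ne hi

/-- For a finite group G and a prime p: every irreducible character of G has degree a power of p if and only if G has an abelian normal subgroup whose order is prime to p and whose index is a power of p. -/
theorem result {G : Type*} [Group G] [Finite G] (p : ℕ) (hp : p.Prime) : (∀ χ : Cfsg.IrrCharacter G, ∃ k : ℕ, (χ : G → ℂ) 1 = (p : ℂ) ^ k) ↔ ∃ A : Subgroup G, A.Normal ∧ (∀ a ∈ A, ∀ b ∈ A, a * b = b * a) ∧ Nat.Coprime (Nat.card A) p ∧ ∃ k : ℕ, A.index = p ^ k := by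
  have := Fintype.ofFinite G
  constructor
  · intro h
    obtain ⟨N, hN, hk, hd⟩ := exists_residual (G := G) hp
    have nN := H30.normalIn_top N
    have deg : ∀ θ ∈ irrKerD N ⁅N, N⁆ ⊥, ∃ n : ℕ, θ 1 = n ∧ p ∣ n := by
      intro θ hθ
      obtain ⟨h1, -, h2⟩ := mem_irrKerD.1 hθ
      obtain ⟨n, -, hn⟩ := H52.irr_one_pos h1
      obtain ⟨χ, hχ, hd⟩ := H52.exists_irr_over le_top h1
      obtain ⟨e, -, he⟩ := H6A.exists_degree_eq_mul nN hχ h1 hd
      obtain ⟨k, hk⟩ := h ⟨χ, H52.mem_irr_top.1 hχ⟩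
      have h3 : p ^ k = e * n := by exact_mod_cast (by rw [← hn, ← he]; exact hk.symm :
        (p : ℂ) ^ k = e * n)
      obtain ⟨j, -, rfl⟩ := (Nat.dvd_prime_pow hp).1 (Dvd.intro_left e h3.symm)
      refine ⟨_, hn, dvd_pow_self p ?_⟩
      rintro rfl
      exact h2 (H52.commutator_le_cfker ⟨h1, by simpa using hn⟩)
    have hsum := H52.sum_irrKerD_sq (NormalIn.bot N) (norm_der (M := N)) der_le
    obtain ⟨z, hz⟩ := Finset.sum_induction (s := irrKerD N ⁅N, N⁆ ⊥) (fun θ => θ 1 ^ 2)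
      (fun c => ∃ z : ℕ, c = p * z)
      (by rintro _ _ ⟨a, rfl⟩ ⟨b, rfl⟩; exact ⟨a + b, by push_cast; ring⟩) ⟨0, by simp⟩
      (fun θ hθ => by
        obtain ⟨_, h1, c, rfl⟩ := deg θ hθ
        exact ⟨p * c ^ 2, by rw [h1]; push_cast; ring⟩)
    rw [hz, sup_bot_eq, Subgroup.relIndex_bot_left] at hsum
    have h4 : Nat.card N = p * z + ⁅N, N⁆.relIndex N := by
      exact_mod_cast (by rw [hsum]; ring : (Nat.card N : ℂ) = p * z + ⁅N, N⁆.relIndex N)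
    have h5 : ¬ p ∣ Nat.card N := fun e => hd ((Nat.dvd_add_right (Dvd.intro _ rfl)).1 (h4 ▸ e))
    refine ⟨N, hN, ?_, ((Nat.Prime.coprime_iff_not_dvd hp).2 h5).symm, hk⟩
    have h6 : ⁅N, N⁆ ≤ ⊥ := by
      by_contra hc
      obtain ⟨θ, hθ⟩ := H52.exists_irrKerD (NormalIn.bot N) hc
      obtain ⟨n, h1, h2⟩ := deg θ hθ
      exact h5 (h2.trans (H52.irr_degree_dvd_card (mem_irrKerD.1 hθ).1 h1))
    exact fun a ha b hb =>
      le_cent_iff.1 (commutator_eq_bot_iff.1 (le_bot_iff.1 h6)) b hb a ha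
  · rintro ⟨A, hA, hab, -, k, hk⟩ χ
    obtain ⟨n, -, hn⟩ := H52.irr_one_pos (H52.mem_irr_top.2 χ.2)
    obtain ⟨j, -, rfl⟩ := (Nat.dvd_prime_pow hp).1
      (hk ▸ H6.degree_dvd_index_of_abelian_normal A hab χ.2 hn)
    exact ⟨j, by exact_mod_cast hn⟩

end Cfsg.Agent.S0855
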