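import Cfsg.Statements.S0857
import Cfsg.Agent.H30.Ramified

set_option autoImplicit false
open Cfsg

namespace Cfsg.Agent.S0857

open Cfsg Cfsg.Agent.H54 Cfsg.Agent.H49

/-- Let L < K be normal subgroups of the finite group G with no normal subgroup of G strictly between them and with K / L abelian (the commutator subgroup of K lies in L). Let ϑ be an irreducible character of K invariant under conjugation by G. Then the restriction of ϑ to L is irreducible; or it equals e times an irreducible character of L with e ^ 2 equal to the index of L in K; or it is the sum of a family of pairwise distinct irreducible characters of L indexed by a set whose size is the index of L in K. -/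
theorem result {G : Type*} [Group G] [Fintype G] (K L : Subgroup G) [hK : K.Normal] [L.Normal] (hLK : L < K) (hchief : ∀ M : Subgroup G, M.Normal → L ≤ M → M ≤ K → M = L ∨ M = K) (hab : ⁅K, K⁆ ≤ L) (ϑ : K → ℂ) (hϑ : Cfsg.IsIrrCharacter K ϑ) (hinv : ∀ (g : G) (n : K), ϑ ⟨g * n * g⁻¹, hK.conj_mem (n : G) n.2 g⟩ = ϑ n) : Cfsg.IsIrrCharacter L (fun x : L => ϑ ⟨(x : G), hLK.le x.2⟩) ∨ (∃ (φ : L → ℂ) (e : ℕ), Cfsg.IsIrrCharacter L φ ∧ (fun x : L => ϑ ⟨(x : G), hLK.le x.2⟩) = (e : ℂ) • φ ∧ e ^ 2 = L.relIndex K) ∨ (∃ F : Finset (L → ℂ), (∀ φ ∈ F, Cfsg.IsIrrCharacter L φ) ∧ F.card = L.relIndex K ∧ (fun x : L => ϑ ⟨(x : G), hLK.le x.2⟩) = ∑ φ ∈ F, φ) := by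
  classical
  have hc : H30.Chief L K ⊤ := ⟨H30.normalIn_top L, H30.normalIn_top K, hLK,
    fun M hM => hchief M (normalIn_top_iff.1 hM)⟩
  have hθ := H52.extend_irr hϑ
  rcases hc.going_down hab hθ (fun g _ => H30.extend_invariant_iff.2 hinv g) with
    h | ⟨φ, hφ, e, h1, h2⟩ | ⟨φ, hφ, h1, h2⟩
  · exact Or.inl ((H30.res_extend_irr_iff hLK.le).1 h)
  · exact Or.inr (Or.inl ⟨_, e, H52.irr_rst hφ,
      (H30.rst_extend_of_le hLK.le ϑ).symm.trans (H30.rst_eq_smul_of_res h1), h2⟩)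
  · have hirr : ∀ ψ ∈ H52.cfclass K φ, ψ ∈ irr L := fun ψ => H52.cfclass_irr hc.normal.2 hφ
    have hinj : Set.InjOn (H52.rst L) (H52.cfclass K φ : Set (G → ℂ)) := fun a ha b hb e =>
      H52.eq_of_rst_eq (H52.irr_supp (hirr a ha)) (H52.irr_supp (hirr b hb)) e
    refine Or.inr (Or.inr ⟨(H52.cfclass K φ).image (H52.rst L), ?_, ?_, ?_⟩)
    · intro ψ hψ
      obtain ⟨a, ha, rfl⟩ := Finset.mem_image.1 hψ
      exact H52.irr_rst (hirr a ha)
    · rw [Finset.card_image_of_injOn hinj, H52.card_cfclass, h1]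
    · rw [Finset.sum_image hinj, ← H30.rst_extend_of_le hLK.le ϑ, h2,
        H52.ind_normal_eq hc.normal (H52.irr_CF hφ), h1, Subgroup.relIndex_self]
      ext x
      simp [H52.rst]

end Cfsg.Agent.S0857
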