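import Cfsg.Statements.S0859
import Cfsg.Agent.H30.Ramified

set_option autoImplicit false
open Cfsg

namespace Cfsg.Agent.S0859

open Cfsg Cfsg.Agent.H54 Cfsg.Agent.H49

open scoped commutatorElement in
theorem lin_of_quasiprimitive {G : Type*} [Group G] [Fintype G] {U M : Subgroup G} {θ : G → ℂ}
    (hM : NormalIn M U) (hs : Group.IsSolvable M)
    (hab : ∀ p : ℕ, p.Prime → ∀ P ≤ M, IsPGroup p P → ∀ a ∈ P, ∀ b ∈ P, a * b = b * a)
    (hθ : θ ∈ irr U) (hq : ∀ A, NormalIn A U → ∃ l ∈ irr A, ∃ e : ℕ, res A θ = (e : ℂ) • l) :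
    ⁅M, M⁆ ≤ cfker U θ := by
  obtain ⟨A, ⟨h1, h2, h3⟩, hA⟩ := (wellFounded_gt (α := Subgroup G)).has_min
    {A | NormalIn A U ∧ A ≤ M ∧ ⁅A, A⁆ ≤ cfker U θ} ⟨⊥, NormalIn.bot U, bot_le, by simp⟩
  rcases h2.eq_or_lt with rfl | h2
  · exact h3
  exfalso
  obtain ⟨B, hB, hc⟩ := H30.exists_chief_above h1 hM h2
  obtain ⟨p, hp, P, hP, e⟩ := hc.exists_sylow (hc.der_le_of_solvable (solvable_of_le hs hB))
  have hP' := (sylowOf_iff hp).1 hP
  obtain ⟨l, hl, n, hn⟩ := hq A h1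
  have hn0 := H30.ne_zero_of_res_eq (H52.irr_one_ne_zero hθ) hn
  have hlin : IsLin A l := H52.lin_of_commutator_le_cfker hl (by
    rw [← H52.cfker_smul hn0, ← hn]
    exact H52.le_cfker_res der_le h3)
  have key : ∀ a ∈ A, ∀ u ∈ U, ⁅a, u⁆ ∈ cfker U θ := by
    intro a ha u hu
    have h4 := conj_mem_of_norm h1.2 hu (inv_mem ha)
    have h5 := congrFun (H30.invariant_of_res_eq h1.2 (H52.irr_CF hθ) hn0 hn hu) a⁻¹
    have h6 : ⁅a, u⁆ = a * (u * a⁻¹ * u⁻¹) := by rw [commutatorElement_def]; group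
    rw [H52.mem_cfker_irr hθ, ← res_apply_of_mem θ (h6 ▸ mul_mem ha h4 : ⁅a, u⁆ ∈ A),
      ← H52.res_one A θ, hn, Pi.smul_apply, Pi.smul_apply, h6, H52.lin_map_mul hlin ha h4,
      ← cfConjg_apply u l, h5, ← H52.lin_map_mul hlin ha (inv_mem ha), mul_inv_cancel]
  have nk := H52.cfker_normal (H52.irr_CF hθ)
  refine hA B ⟨hc.nK, hB, Subgroup.commutator_le.2 fun x hx y hy => ?_⟩ hc.lt
  have hn' : P ≤ 𝒩(A) := hP'.1.trans hc.normal.2
  obtain ⟨u, hu, a, ha, rfl⟩ := (mem_sup_of_norm_right hn').1 (e ▸ hx)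
  obtain ⟨v, hv, b, hb, rfl⟩ := (mem_sup_of_norm_right hn').1 (e ▸ hy)
  have hU : P ≤ U := hP'.1.trans hc.nK.1
  have huv := hab p hp P (hP'.1.trans hB) hP'.2.1 u hu v hv
  have e2 : ⁅u * a, v * b⁆ = u * ⁅a, v * b⁆ * u⁻¹ *
      ((u * v) * ⁅b, u⁻¹⁆ * (u * v)⁻¹) * (u * v * (v * u)⁻¹) := by
    simp only [commutatorElement_def]; group
  rw [e2, ← huv, mul_inv_cancel, mul_one]
  exact mul_mem (conj_mem_of_norm nk.2 (hU hu) (key a ha _ (mul_mem (hU hv) (h1.1 hb))))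
    (conj_mem_of_norm nk.2 (mul_mem (hU hu) (hU hv)) (key b hb _ (inv_mem (hU hu))))

/-- Let G be a finite solvable group and N a normal subgroup such that for every prime p every Sylow p-subgroup of N is abelian. Suppose every irreducible character of G is induced from an irreducible character of some subgroup containing N whose restriction to N is irreducible. Then every irreducible character of G is induced from a character of degree 1 of some subgroup. -/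
theorem result {G : Type*} [Group G] [Fintype G] [Group.IsSolvable G] (N : Subgroup G) [N.Normal] (hab : ∀ (p : ℕ) [Fact p.Prime] (P : Sylow p N), ∀ a ∈ P, ∀ b ∈ P, a * b = b * a) (hrel : ∀ χ : G → ℂ, Cfsg.IsIrrCharacter G χ → ∃ (H : Subgroup G) (hNH : N ≤ H) (ψ : H → ℂ), Cfsg.IsIrrCharacter H ψ ∧ Cfsg.indFun H ψ = χ ∧ Cfsg.IsIrrCharacter N (fun n : N => ψ ⟨(n : G), hNH n.2⟩)) (χ : G → ℂ) (hχ : Cfsg.IsIrrCharacter G χ) : ∃ (U : Subgroup G) (lam : U → ℂ), Cfsg.IsCharacter U lam ∧ lam 1 = 1 ∧ Cfsg.indFun U lam = χ := by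
  obtain ⟨H, hNH, ψ, hψ, e1, e2⟩ := hrel χ hχ
  obtain ⟨U, hUH, θ, hθ, e3, hq⟩ := H30.exists_ind_quasiprimitive (H52.extend_irr hψ)
  have e4 := (H30.res_extend_irr_iff hNH).2 e2
  have nN := H30.normalIn_top N
  have hle : U ⊔ N ≤ H := sup_le hUH hNH
  have hch := H52.ind_char (le_sup_left (b := N)) (H52.irr_char hθ)
  have e5 : ind H (U ⊔ N) (ind (U ⊔ N) U θ) = extendByZero H ψ := by
    rw [H52.ind_ind le_sup_left hle, e3]
  have i1 := H52.irr_of_ind_irr hle hch (e5 ▸ H52.extend_irr hψ)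
  have i2 : res (U ⊔ N) (extendByZero H ψ) ∈ irr (U ⊔ N) :=
    H52.irr_of_res_irr le_sup_right (H52.char_res hle (H52.irr_char (H52.extend_irr hψ)))
      (by rwa [H52.res_res le_sup_right])
  have e6 : res (U ⊔ N) (extendByZero H ψ) = ind (U ⊔ N) U θ := by
    refine H52.eq_of_dot_irr_ne_zero i2 i1 ?_
    rw [H52.dot_res_left, ← e5]
    exact H52.dot_ind_self_ne_zero hle (H52.irr_one_ne_zero i1)
  have i3 : ind N (N ⊓ U) (res (N ⊓ U) θ) ∈ irr N := by
    rwa [H52.ind_res, ← H30.res_ind_isProd (isProd_sup_of_norm_right (le_top.trans nN.2))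
      (H52.irr_CF hθ), ← e6, H52.res_res le_sup_right]
  have i4 := H52.irr_of_ind_irr inf_le_left (H52.char_res inf_le_right (H52.irr_char hθ)) i3
  have h7 := lin_of_quasiprimitive (nN.inf le_top) inferInstance (fun p hp P hP hp' a ha b hb => by
    have : Fact p.Prime := ⟨hp⟩
    obtain ⟨Q, hQ⟩ := (hp'.comap_subtype (K := N)).exists_le_sylow
    exact congrArg Subtype.val (hab p Q ⟨a, (hP ha).1⟩ (hQ ha) ⟨b, (hP hb).1⟩ (hQ hb))) hθ hq
  have h8 := H52.lin_of_commutator_le_cfker i4 (H52.le_cfker_res der_le h7)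
  refine ⟨U, H52.rst U θ, H52.char_rst (H52.irr_char hθ), h8.2 ▸ (H52.res_one _ θ).symm, ?_⟩
  rw [← H52.ind_top, ← H52.ind_ind hUH le_top, e3, H52.ind_top_extend, e1]

end Cfsg.Agent.S0859
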