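import Cfsg.Statements.S0860
import Cfsg.Agent.H6.BrauerPerm

set_option autoImplicit false
open Cfsg

namespace Cfsg.Agent.S0860



/-- Let a group A act on the set of irreducible characters and on the set of conjugacy classes of a finite group G in such a way that (a • χ) evaluated on the class a • C equals χ evaluated on C, for all a, χ and C. Then every element of A fixes exactly as many irreducible characters as it fixes conjugacy classes. -/
theorem result {G : Type*} [Group G] [Finite G] {A : Type*} [Group A] [MulAction A (Cfsg.IrrCharacter G)] [MulAction A (ConjClasses G)] (hcompat : ∀ (a : A) (χ : Cfsg.IrrCharacter G) (g g' : G), ConjClasses.mk g' = a • ConjClasses.mk g → ((a • χ : Cfsg.IrrCharacter G) : G → ℂ) g' = (χ : G → ℂ) g) (a : A) : Nat.card {χ : Cfsg.IrrCharacter G // a • χ = χ} = Nat.card {C : ConjClasses G // a • C = C} := by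
  have hex : ∀ g : G, ∃ g' : G, ConjClasses.mk g' = a⁻¹ • ConjClasses.mk g := fun g =>
    ConjClasses.exists_rep _
  choose f hf using hex
  have key : ∀ χ : Cfsg.IrrCharacter G,
      (fun g => (χ : G → ℂ) (f g)) = ((a • χ : Cfsg.IrrCharacter G) : G → ℂ) := by
    intro χ
    funext g
    exact (hcompat a χ (f g) g (by rw [hf, smul_inv_smul])).symm
  have h := H6.card_fixed_irr_eq_card_fixed_classes f fun χ hχ => by
    rw [key ⟨χ, hχ⟩]
    exact (a • (⟨χ, hχ⟩ : Cfsg.IrrCharacter G)).2
  rw [← Nat.card_congr (Equiv.subtypeEquivRight (p := fun χ : Cfsg.IrrCharacter G =>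
    (fun g => (χ : G → ℂ) (f g)) = χ) fun χ => by rw [key, Subtype.ext_iff]), h]
  refine Nat.card_congr (Equiv.subtypeEquivRight fun C => ?_)
  obtain ⟨x, rfl⟩ := ConjClasses.exists_rep C
  constructor
  · intro h1
    have h2 := ConjClasses.mk_eq_mk_iff_isConj.mpr (h1 x rfl)
    rw [hf] at h2
    rw [smul_eq_iff_eq_inv_smul]
    exact h2
  · intro h1 g hg
    rw [← ConjClasses.mk_eq_mk_iff_isConj, hf, hg, eq_inv_smul_iff, h1]

end Cfsg.Agent.S0860
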