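import Cfsg.Statements.S0861
import Cfsg.Agent.H30.Ramified
import Cfsg.Agent.H6.Ito
import Cfsg.Agent.H33.Val
import Cfsg.Agent.H88.PLocal
import Cfsg.Agent.PF.P1

set_option autoImplicit false
open Cfsg

namespace Cfsg.Agent.S0861

open Cfsg Cfsg.Agent.H54 Cfsg.Agent.H49

/-- Let P be a normal abelian Sylow p-subgroup of the finite group G and suppose some element g of P has centralizer exactly P. Then the number of irreducible characters of G is at most the order of P, and if equality holds then G / P is abelian (the commutator subgroup lies in P). -/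
theorem result {G : Type*} [Group G] [Finite G] (p : ℕ) [Fact p.Prime] (P : Sylow p G) [(P : Subgroup G).Normal] (hab : ∀ a ∈ P, ∀ b ∈ P, a * b = b * a) (g : G) (hg : g ∈ P) (hC : Subgroup.centralizer ({g} : Set G) = P) : Nat.card (Cfsg.IrrCharacter G) ≤ Nat.card P ∧ (Nat.card (Cfsg.IrrCharacter G) = Nat.card P → commutator G ≤ P) := by
  classical
  have := Fintype.ofFinite G
  have hp : p.Prime := Fact.out
  obtain ⟨M, hM⟩ := H88.exists_isPModular hp
  have := hM.2.1
  have nP := H30.normalIn_top (P : Subgroup G)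
  let A : Set G := {x | x ∈ P ∧ 𝒞[x] = P}
  have hA : ∀ x ∈ A, ∀ k : ℕ, k.Coprime (orderOf x) → x ^ k ∈ A := by
    intro x hx k hk
    refine ⟨pow_mem hx.1 k, ?_⟩
    rw [← hx.2, ← cent_zpowers, ← cent_zpowers]
    congr 2
    refine le_antisymm (Subgroup.zpowers_le.2 (Subgroup.npow_mem_zpowers x k))
      (Subgroup.zpowers_le.2 ?_)
    obtain ⟨m, hm⟩ := exists_pow_eq_self_of_coprime hk
    exact ⟨m, by simpa using hm⟩
  have hne : ∀ χ ∈ irr (⊤ : Subgroup G), ∀ x ∈ A, χ x ≠ 0 := by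
    intro χ hχ x hx h0
    obtain ⟨n, -, hn⟩ := H52.irr_one_pos hχ
    have h1 := H6.degree_dvd_index_of_abelian_normal P hab (H52.mem_irr_top.1 hχ) hn
    have h2 := H33.char_mul_sub_mem hM (H52.isChar_top.1 (H52.irr_char hχ)) (Commute.one_right x)
      (by
        obtain ⟨k, hk⟩ := IsPGroup.iff_orderOf.1 P.2 ⟨x, hx.1⟩
        exact ⟨k, by rw [← hk, Subgroup.orderOf_mk]⟩)
    rw [mul_one, h0, hn, zero_sub, neg_mem_iff, H32.natCast_mem_locMax_iff hM] at h2
    exact P.not_dvd_index (h2.trans h1)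
  have hle : ∀ χ ∈ irr (⊤ : Subgroup G), (A.ncard : ℝ) ≤ ∑ x ∈ fin A, ‖χ x‖ ^ 2 := fun χ hχ =>
    PF.sum_norm2_vchar_generators (H52.irr_vchar hχ) hA (hne χ hχ)
  have hsum : ∑ χ ∈ irr (⊤ : Subgroup G), ∑ x ∈ fin A, ‖χ x‖ ^ 2 = A.ncard * Nat.card P := by
    rw [Finset.sum_comm, Finset.sum_congr rfl (g := fun _ => (Nat.card P : ℝ)) fun x hx => by
      rw [H52.sum_irr_norm_sq (Subgroup.mem_top x), top_inf_eq, (mem_fin.1 hx).2],
      H52.sum_fin_const, nsmul_eq_mul]
  have hpos : (0 : ℝ) < A.ncard := by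
    exact_mod_cast (Set.ncard_pos (Set.toFinite A)).2 ⟨g, hg, hC⟩
  have hcard : Nat.card (IrrCharacter G) = (irr (⊤ : Subgroup G)).card := by
    rw [← Nat.card_eq_finsetCard]
    exact Nat.card_congr (Equiv.subtypeEquivRight fun _ => H52.mem_irr_top.symm)
  rw [hcard]
  constructor
  · have h1 := Finset.card_nsmul_le_sum _ _ _ hle
    rw [hsum, nsmul_eq_mul, mul_comm] at h1
    exact_mod_cast le_of_mul_le_mul_left h1 hpos
  · intro h
    have h1 := (Finset.sum_eq_sum_iff_of_le hle).1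
      (by rw [hsum, Finset.sum_const, nsmul_eq_mul, h, mul_comm])
    intro y hy
    refine H52.mem_of_forall_irrKer nP fun χ hχ hk => H52.cfker_apply
      (H52.commutator_le_cfker ⟨hχ, ?_⟩ hy)
    have h2 := h1 χ hχ
    obtain ⟨n, hn0, hn⟩ := H52.irr_one_pos hχ
    rw [Finset.sum_congr rfl (g := fun _ => (n : ℝ) ^ 2) fun x hx => by
      rw [H52.cfker_apply (hk (mem_fin.1 hx).1), hn]; simp, H52.sum_fin_const, nsmul_eq_mul] at h2
    have h3 : (n : ℝ) ^ 2 = 1 := mul_left_cancel₀ hpos.ne' (by rw [← h2, mul_one])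
    have h4 : n = 1 := by
      have : n ^ 2 = 1 := by exact_mod_cast h3
      simpa using this
    rw [hn, h4, Nat.cast_one]

end Cfsg.Agent.S0861
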