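import Cfsg.Statements.S0868
import Cfsg.Agent.H30.Ramified

set_option autoImplicit false
open scoped ComplexConjugate
open Cfsg

namespace Cfsg.Agent.S0868

open Cfsg Cfsg.Agent.H54 Cfsg.Agent.H49

theorem dot_avg {G : Type*} [Group G] [Fintype G] (N : Subgroup G) [Fintype N] (f β : G → ℂ)
    (hβ : ∀ n ∈ N, ∀ g, β (n * g) = β g) :
    dot ⊤ (fun g => (Nat.card N : ℂ)⁻¹ * ∑ n : N, f (n * g)) β = dot ⊤ f β := by
  rw [H52.dot_def, H52.dot_def]
  congr 1
  simp only [mul_assoc, Finset.sum_mul]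
  rw [← Finset.mul_sum, Finset.sum_comm, Finset.sum_congr rfl (g := fun _ =>
    ∑ x ∈ fin ((⊤ : Subgroup G) : Set G), f x * conj (β x)) fun n _ => by
      rw [← H52.sum_fin_mul_left (L := ⊤) (g := (n : G)) trivial fun x : G => f x * conj (β x)]
      exact Finset.sum_congr rfl fun x _ => by rw [hβ n n.2],
    Finset.sum_const, Finset.card_univ, ← Nat.card_eq_fintype_card, nsmul_eq_mul,
    inv_mul_cancel_left₀ (H52.card_ne_zero' N)]

/-- Let N be a normal subgroup of the finite group G, χ an irreducible character of G whose restriction ϑ to N is irreducible, and ψ an irreducible character of G. Define η on G by η g = (1 / order of N) * Σ over n in N of ψ (n * g) * conj (χ (n * g)). Then: if the restriction of ψ to N has nonzero inner product with ϑ, η is an irreducible character of G; if that inner product is zero, η vanishes identically; and if ψ = χ then η is identically 1. -/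
theorem result {G : Type*} [Group G] [Fintype G] (N : Subgroup G) [N.Normal] [Fintype N] (χ : G → ℂ) (hχ : Cfsg.IsIrrCharacter G χ) (hχN : Cfsg.IsIrrCharacter N (fun n : N => χ n)) (ψ : G → ℂ) (hψ : Cfsg.IsIrrCharacter G ψ) (η : G → ℂ) (hη : η = fun g => (Nat.card N : ℂ)⁻¹ * ∑ n : N, ψ ((n : G) * g) * conj (χ ((n : G) * g))) : (Cfsg.classInner (fun n : N => ψ n) (fun n : N => χ n) ≠ 0 → Cfsg.IsIrrCharacter G η) ∧ (Cfsg.classInner (fun n : N => ψ n) (fun n : N => χ n) = 0 → η = 0) ∧ (ψ = χ → η = fun _ => 1) := by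
  have nN := H30.normalIn_top N
  have hχ' : χ ∈ irr (⊤ : Subgroup G) := H52.mem_irr_top.2 hχ
  have hψ' : ψ ∈ irr (⊤ : Subgroup G) := H52.mem_irr_top.2 hψ
  have hr : res N χ ∈ irr N := H30.res_irr_iff.2 hχN
  have hCF : η ∈ CF (⊤ : Subgroup G) := by
    refine ⟨fun x hx => absurd trivial hx, fun g _ x => ?_⟩
    rw [hη]
    dsimp only
    rw [← H52.sum_fin_subgroup N fun n => ψ (n * (g * x * g⁻¹)) * conj (χ (n * (g * x * g⁻¹))),
      ← H52.sum_fin_subgroup N fun n => ψ (n * x) * conj (χ (n * x)),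
      ← H52.sum_fin_conj_norm (nN.2 (Subgroup.mem_top g))]
    congr 1
    refine Finset.sum_congr rfl fun n _ => ?_
    rw [show g * n * g⁻¹ * (g * x * g⁻¹) = g * (n * x) * g⁻¹ by group,
      (H52.irr_CF hψ').2 g trivial, (H52.irr_CF hχ').2 g trivial]
  have h0 : ∀ β ∈ irr (⊤ : Subgroup G), ¬ N ≤ cfker ⊤ β → dot ⊤ η β = 0 := by
    intro β hβ hk
    refine H52.dot_eq_zero_of_not_le_cfker nN hβ hk le_rfl le_top fun n hn y _ => ?_
    rw [hη]
    dsimp only
    rw [← H52.sum_fin_subgroup N fun m => ψ (m * (n * y)) * conj (χ (m * (n * y))),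
      ← H52.sum_fin_subgroup N fun m => ψ (m * y) * conj (χ (m * y)),
      ← H52.sum_fin_mul_right hn fun m => ψ (m * y) * conj (χ (m * y))]
    simp only [mul_assoc]
  have h1 : ∀ β : G → ℂ, N ≤ cfker ⊤ β → dot ⊤ η β = dot ⊤ ψ (β * χ) := by
    intro β hk
    rw [hη, dot_avg N (fun x => ψ x * conj (χ x)) β fun n hn g => H52.cfker_mul (hk hn) g,
      H52.dot_def, H52.dot_def]
    congr 1
    refine Finset.sum_congr rfl fun x _ => ?_
    rw [Pi.mul_apply, map_mul]
    ring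
  have key : ∀ γ ∈ irr (⊤ : Subgroup G), N ≤ cfker ⊤ γ → ψ = γ * χ → η = γ := by
    intro γ hγ hk e
    refine H52.CF_ext_dot_irr hCF (H52.irr_CF hγ) fun β hβ => ?_
    by_cases hkβ : N ≤ cfker ⊤ β
    · have hβχ := H6A.mul_irr_of_le_cfker nN (H52.irr_char hχ') hr hβ hkβ
      rw [h1 β hkβ]
      by_cases e2 : γ = β
      · rw [← e2, ← e, H52.dot_irr_self hψ', H52.dot_irr_self hγ]
      · rw [H52.dot_irr_ne hγ hβ e2, H52.dot_irr_ne hψ' hβχ fun e3 => e2
          (H6A.eq_of_mul_eq_mul_of_le_cfker nN (H52.irr_char hχ') hr hγ hk hβ hkβ (e.symm.trans e3))]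
    · rw [h0 β hβ hkβ, H52.dot_irr_ne hγ hβ fun e2 => hkβ (e2 ▸ hk)]
  rw [← H52.dot_eq_classInner]
  refine ⟨fun h => ?_, fun h => ?_, fun h => ?_⟩
  · obtain ⟨γ, hγ, hk, e⟩ := H6A.exists_eq_mul_of_over nN (H52.irr_char hχ') hr hψ' h
    rw [key γ hγ hk e]
    exact H52.mem_irr_top.1 hγ
  · refine H52.CF_eq_zero_of_dot_irr hCF fun β hβ => ?_
    by_cases hkβ : N ≤ cfker ⊤ β
    · rw [h1 β hkβ]
      refine H52.dot_irr_ne hψ' (H6A.mul_irr_of_le_cfker nN (H52.irr_char hχ') hr hβ hkβ) fun e => ?_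
      rw [e, H52.dot_congr (φ' := β 1 • χ) (ψ' := χ) (fun x hx => by
          rw [Pi.mul_apply, H52.cfker_apply (hkβ hx)]; rfl) fun _ _ => rfl, H52.dot_smul_left,
        ← H52.dot_res_left, ← H52.dot_res_right, H52.dot_irr_self hr, mul_one] at h
      exact H52.irr_one_ne_zero hβ h
    · exact h0 β hβ hkβ
  · rw [key (cf1 ⊤) (H52.cf1_irr ⊤) (by rw [H52.cfker_cf1]; exact le_top)
      (by rw [H52.cf1_mul (H52.irr_supp hχ'), h]), H52.cf1_top]

end Cfsg.Agent.S0868
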