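import Cfsg.Statements.S0869
import Mathlib

set_option autoImplicit false
open Cfsg

namespace Cfsg.Agent.S0869



/-- Let S be a nonempty finite type and R an additive subgroup of the integer-valued functions on S that is closed under pointwise multiplication. If the constant function 1 is not in R, then there exist a point x of S and a prime p such that p divides f x for every f in R. -/
theorem result {S : Type*} [Finite S] [Nonempty S] (R : AddSubgroup (S → ℤ)) (hmul : ∀ f ∈ R, ∀ g ∈ R, f * g ∈ R) (h1 : (1 : S → ℤ) ∉ R) : ∃ (x : S) (p : ℕ), p.Prime ∧ ∀ f ∈ R, (p : ℤ) ∣ f x := by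
  classical
  by_contra hcon
  push Not at hcon
  -- for each x there is f ∈ R with f x = 1
  have hx : ∀ x : S, ∃ f ∈ R, f x = 1 := by
    intro x
    let I : AddSubgroup ℤ := R.map (Pi.evalAddMonoidHom (fun _ : S => ℤ) x)
    obtain ⟨a, ha⟩ := Int.subgroup_cyclic I
    have hdiv : ∀ f ∈ R, a ∣ f x := by
      intro f hf
      have : f x ∈ I := ⟨f, hf, rfl⟩
      rw [ha, AddSubgroup.mem_closure_singleton] at this
      obtain ⟨n, hn⟩ := this
      exact ⟨n, by rw [← hn]; simp [mul_comm]⟩
    have haI : a ∈ I := by rw [ha]; exact AddSubgroup.subset_closure rfl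
    obtain ⟨f, hf, hfa⟩ := haI
    have hunit : a.natAbs = 1 := by
      by_contra hne
      obtain ⟨p, hp, hpa⟩ := Nat.exists_prime_and_dvd hne
      obtain ⟨g, hg, hg'⟩ := hcon x p hp
      exact hg' ((Int.natCast_dvd.mpr hpa).trans (hdiv g hg))
    have hfa' : f x = a := hfa
    rcases Int.natAbs_eq_iff.mp hunit with h | h
    · exact ⟨f, hf, by rw [hfa', h]; rfl⟩
    · exact ⟨-f, R.neg_mem hf, by simp [hfa', h]⟩
  choose f hf using hx
  have key : ∀ T : Finset S, ∃ g ∈ R, ∀ x ∈ T, g x = 1 := by
    intro T
    induction T using Finset.induction_on with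
    | empty => exact ⟨0, R.zero_mem, by simp⟩
    | insert y T _ ih =>
      obtain ⟨g, hg, hgT⟩ := ih
      refine ⟨g + f y - g * f y, R.sub_mem (R.add_mem hg (hf y).1) (hmul _ hg _ (hf y).1), ?_⟩
      intro x hx
      rcases Finset.mem_insert.mp hx with rfl | hx
      · simp [(hf x).2]
      · simp [hgT x hx]
  have := Fintype.ofFinite S
  obtain ⟨g, hg, hgT⟩ := key Finset.univ
  apply h1
  have : g = 1 := funext fun x => hgT x (Finset.mem_univ x)
  rwa [← this]

end Cfsg.Agent.S0869
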