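import Cfsg.Statements.S0873
import Cfsg.Agent.H5.Linear
import Mathlib

set_option autoImplicit false
open Cfsg

namespace Cfsg.Agent.S0873

theorem result {G : Type*} [Group G] [Finite G] (p : ℕ) [Fact p.Prime] (C P : Subgroup G) [hC : C.Normal] (hP : IsPGroup p P) (hcop : Nat.Coprime (Nat.card C) p) (hCP : C ⊔ P = ⊤) (lam : C → ℂ) (hlam : Cfsg.IsCharacter C lam ∧ lam 1 = 1) (hinv : ∀ (g : G) (c : C), lam ⟨g * c * g⁻¹, hC.conj_mem (c : G) c.2 g⟩ = lam c) (hker : ∀ c : C, (c : G) ∈ Subgroup.centralizer (P : Set G) → lam c = 1) : lam = fun _ => 1 := by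
  obtain ⟨f, rfl⟩ := H5.exists_monoidHom_of_degree_one hlam.1 hlam.2
  funext c
  let S := {x : C // f x = f c}
  letI : MulAction P S :=
    { smul := fun g x => ⟨⟨g * x.1 * (g : G)⁻¹, hC.conj_mem _ x.1.2 g⟩,
        (Units.ext (hinv g x.1)).trans x.2⟩
      one_smul := fun x => Subtype.ext (Subtype.ext (by
        change ((1 : P) : G) * x.1 * ((1 : P) : G)⁻¹ = _
        simp))
      mul_smul := fun g h x => Subtype.ext (Subtype.ext (by
        change ((g * h : P) : G) * x.1 * ((g * h : P) : G)⁻¹ =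
          (g : G) * ((h : G) * x.1 * (h : G)⁻¹) * (g : G)⁻¹
        simp [mul_assoc])) }
  have hcard : Nat.card S = Nat.card f.ker := by
    refine Nat.card_congr
      { toFun := fun x => ⟨c⁻¹ * x.1, by rw [MonoidHom.mem_ker, map_mul, x.2, map_inv, inv_mul_cancel]⟩
        invFun := fun x => ⟨c * x.1, by rw [map_mul, x.2, mul_one]⟩
        left_inv := fun x => by simp
        right_inv := fun x => by simp }
  have hnd : ¬ p ∣ Nat.card S := by
    rw [hcard]
    intro h
    exact (Nat.Prime.coprime_iff_not_dvd Fact.out).mp hcop.symm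
      (h.trans (Subgroup.card_subgroup_dvd_card _))
  obtain ⟨x, hx⟩ := hP.nonempty_fixed_point_of_prime_not_dvd_card S hnd
  rw [← x.2]
  apply hker
  rw [Subgroup.mem_centralizer_iff]
  intro g hg
  have h1 : g * x.1 * g⁻¹ = x.1 := congrArg (fun y : S => (y.1 : G)) (hx ⟨g, hg⟩)
  exact mul_inv_eq_iff_eq_mul.mp h1

end Cfsg.Agent.S0873
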