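import Cfsg.Statements.S0874
import Cfsg.Agent.H31.Brauer

set_option autoImplicit false
open Cfsg

namespace Cfsg.Agent.S0874

theorem result {G : Type*} [Group G] [Fintype G] (p : ℕ) (hp : p.Prime) : ∃ (m : ℤ) (l : List ((E : Subgroup G) × ((E → ℂ) × ℤ))), ¬ (p : ℤ) ∣ m ∧ (∀ t ∈ l, Cfsg.IsElementary p t.1 ∧ Cfsg.IsCharacter t.1 t.2.1) ∧ (fun _ : G => (m : ℂ)) = (l.map fun t => (t.2.2 : ℂ) • Cfsg.indFun t.1 t.2.1).sum := by
  obtain ⟨m, hm, h⟩ := H31.exists_const_mem_span_elemInd (G := G) hp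
  have key : ∀ f ∈ Submodule.span ℤ (H31.elemInd G p),
      ∃ l : List ((E : Subgroup G) × ((E → ℂ) × ℤ)),
        (∀ t ∈ l, Cfsg.IsElementary p t.1 ∧ Cfsg.IsCharacter t.1 t.2.1) ∧
        f = (l.map fun t => (t.2.2 : ℂ) • Cfsg.indFun t.1 t.2.1).sum := by
    intro f hf
    induction hf using Submodule.span_induction with
    | zero => exact ⟨[], by simp, by simp⟩
    | add a b _ _ ha hb =>
      obtain ⟨l, hl, rfl⟩ := ha
      obtain ⟨l', hl', rfl⟩ := hb
      refine ⟨l ++ l', fun t ht => ?_, by simp⟩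
      rcases List.mem_append.mp ht with h | h
      · exact hl t h
      · exact hl' t h
    | smul k a _ ha =>
      obtain ⟨l, hl, rfl⟩ := ha
      refine ⟨l.map fun t => ⟨t.1, t.2.1, k * t.2.2⟩, fun t ht => ?_, ?_⟩
      · obtain ⟨s, hs, rfl⟩ := List.mem_map.mp ht
        exact hl s hs
      · rw [List.smul_sum, List.map_map, List.map_map]
        congr 1
        refine List.map_congr_left fun t _ => ?_
        simp only [Function.comp_apply, Int.cast_mul, mul_smul, Int.cast_smul_eq_zsmul ℂ k]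
    | mem a ha =>
      obtain ⟨E, θ, hE, hθ, rfl⟩ := ha
      exact ⟨[⟨E, θ, 1⟩], by simpa using ⟨hE, hθ⟩, by simp⟩
  obtain ⟨l, hl, h'⟩ := key _ h
  exact ⟨m, l, hm, hl, h'⟩

end Cfsg.Agent.S0874
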