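import Cfsg.Statements.S0878
import Cfsg.Agent.H31.Zass1
import Cfsg.Agent.H12.ZassNormal

set_option autoImplicit false
open Cfsg Cfsg.Agent.H12

namespace Cfsg.Agent.S0878

theorem result {G Ω : Type*} [Group G] [Finite G] [MulAction G Ω] [Fintype Ω] (hZ : Cfsg.IsZassenhausGroup G Ω) (a : Ω) (H : Subgroup G) (hHa : H ≤ MulAction.stabilizer G a) (hHcard : Nat.card H + 1 = Fintype.card Ω) (hHfix : ∀ u ∈ H, u ≠ 1 → ∀ c : Ω, u • c = c → c = a) : (∀ g : G, g ∉ MulAction.stabilizer G a → ∀ u ∈ H, g * u * g⁻¹ ∈ H → u = 1) ∧ Subgroup.normalizer (H : Set G) = MulAction.stabilizer G a := by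
  have hT := ZT.of_zass hZ
  obtain ⟨b, hb⟩ := zass_exists_ne hZ a
  obtain ⟨c, hca, hcb⟩ := zass_exists_third hT hZ.2.2.2.1 hb.symm
  obtain rfl : H = zker G a :=
    hT.eq_ker_of_card hb hHa (by rw [hHcard, Nat.card_eq_fintype_card]) hHfix
  exact ⟨fun g hg u hu hgu => H31.zt_ker_TI hT hg hu hgu,
    H31.zt_normalizer_ker hT hb hca hcb.symm⟩

end Cfsg.Agent.S0878
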