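import Cfsg.Statements.S0879
import Cfsg.Agent.H12.ZassNormal

set_option autoImplicit false
open Cfsg Cfsg.Agent.H12 MulAction

namespace Cfsg.Agent.S0879

theorem mem_normalizer_iff {G Ω : Type*} [Group G] [Finite G] [MulAction G Ω]
    (hZ : Cfsg.IsZassenhausGroup G Ω) {a b : Ω} (hab : a ≠ b) (g : G) :
    g ∈ Subgroup.normalizer ((stabilizer G a ⊓ stabilizer G b : Subgroup G) : Set G) ↔
      (g • a = a ∧ g • b = b) ∨ (g • a = b ∧ g • b = a) := by
  have hT := ZT.of_zass hZ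
  constructor
  · intro hg
    obtain ⟨y, hy1, hya, hyb⟩ := zass_exists_fix_two hT hZ.2.2.2.1 hab
    have h1 := (Subgroup.mem_normalizer_iff.mp hg y).mp ⟨hya, hyb⟩
    have hne : g * y * g⁻¹ ≠ 1 := by simpa using hy1
    have ha := hT.fix_eq hne hab h1.1 h1.2 (c := g • a) (by simp [mul_smul, hya])
    have hb := hT.fix_eq hne hab h1.1 h1.2 (c := g • b) (by simp [mul_smul, hyb])
    have hgab : g • a ≠ g • b := fun h => hab (smul_left_cancel g h)
    rcases ha with ha | ha <;> rcases hb with hb | hb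
    · exact absurd (ha.trans hb.symm) hgab
    · exact Or.inl ⟨ha, hb⟩
    · exact Or.inr ⟨ha, hb⟩
    · exact absurd (ha.trans hb.symm) hgab
  · intro hg
    apply Subgroup.mem_normalizer_fintype
    rintro n ⟨hna, hnb⟩
    have hna' : n • a = a := hna
    have hnb' : n • b = b := hnb
    have h1 : (g * n * g⁻¹) • g • a = g • a := by simp [mul_smul, hna']
    have h2 : (g * n * g⁻¹) • g • b = g • b := by simp [mul_smul, hnb']
    rcases hg with ⟨ha, hb⟩ | ⟨ha, hb⟩
    · rw [ha] at h1; rw [hb] at h2; exact ⟨h1, h2⟩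
    · rw [ha] at h1; rw [hb] at h2; exact ⟨h2, h1⟩

theorem result {G Ω : Type*} [Group G] [Finite G] [MulAction G Ω] [Fintype Ω] (hZ : Cfsg.IsZassenhausGroup G Ω) {a b : Ω} (hab : a ≠ b) : (∀ g : G, g ∉ Subgroup.normalizer ((MulAction.stabilizer G a ⊓ MulAction.stabilizer G b : Subgroup G) : Set G) → ∀ x ∈ (MulAction.stabilizer G a ⊓ MulAction.stabilizer G b : Subgroup G), g * x * g⁻¹ ∈ (MulAction.stabilizer G a ⊓ MulAction.stabilizer G b : Subgroup G) → x = 1) ∧ ((MulAction.stabilizer G a ⊓ MulAction.stabilizer G b : Subgroup G).subgroupOf (Subgroup.normalizer ((MulAction.stabilizer G a ⊓ MulAction.stabilizer G b : Subgroup G) : Set G))).index = 2 := by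
  have hT := ZT.of_zass hZ
  constructor
  · intro g hg x hx hgx
    by_contra hx1
    apply hg
    rw [mem_normalizer_iff hZ hab]
    have hxa : x • a = a := hx.1
    have hxb : x • b = b := hx.2
    have hne : g * x * g⁻¹ ≠ 1 := by simpa using hx1
    have ha := hT.fix_eq hne hab hgx.1 hgx.2 (c := g • a) (by simp [mul_smul, hxa])
    have hb := hT.fix_eq hne hab hgx.1 hgx.2 (c := g • b) (by simp [mul_smul, hxb])
    have hgab : g • a ≠ g • b := fun h => hab (smul_left_cancel g h)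
    rcases ha with ha | ha <;> rcases hb with hb | hb
    · exact absurd (ha.trans hb.symm) hgab
    · exact Or.inl ⟨ha, hb⟩
    · exact Or.inr ⟨ha, hb⟩
    · exact absurd (ha.trans hb.symm) hgab
  · obtain ⟨s, hsa, hsb⟩ := hT.two hab hab.symm
    rw [Subgroup.index_eq_two_iff]
    refine ⟨⟨s, (mem_normalizer_iff hZ hab s).mpr (Or.inr ⟨hsa, hsb⟩)⟩, ?_⟩
    rintro ⟨g, hg⟩
    simp only [Subgroup.mem_subgroupOf, Subgroup.mem_inf, mem_stabilizer_iff, Subgroup.coe_mul,
      mul_smul, hsa, hsb]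
    rcases (mem_normalizer_iff hZ hab g).mp hg with ⟨ha, hb⟩ | ⟨ha, hb⟩
    · exact Or.inr ⟨⟨ha, hb⟩, fun h => hab (h.1.symm.trans hb)⟩
    · exact Or.inl ⟨⟨hb, ha⟩, fun h => hab (h.1.symm.trans ha)⟩

end Cfsg.Agent.S0879
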