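import Cfsg.Statements.S0880
import Cfsg.Agent.H31.ZassOf
import Cfsg.Agent.H31.Zass2

set_option autoImplicit false
open Cfsg Cfsg.Agent.H12

namespace Cfsg.Agent.S0880

theorem result {G Ω : Type*} [Group G] [Finite G] [MulAction G Ω] [Fintype Ω] (hZ : Cfsg.IsZassenhausGroup G Ω) {a b : Ω} (hab : a ≠ b) [IsSimpleGroup G] (hodd : Odd (Nat.card ↥(MulAction.stabilizer G a ⊓ MulAction.stabilizer G b : Subgroup G))) (hlt : Nat.card ↥(MulAction.stabilizer G a ⊓ MulAction.stabilizer G b : Subgroup G) < Fintype.card Ω - 2) : ∃ x y : G, (∀ c : Ω, x • c ≠ c) ∧ (∀ c : Ω, y • c ≠ c) ∧ ¬ IsConj x y := by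
  exact (H31.zo_of_simple hZ hab (h := Fintype.card Ω - 1) (by omega) rfl
    hodd).exists_two_fpf_classes

end Cfsg.Agent.S0880
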