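import Cfsg.Statements.S0881
import Cfsg.Agent.H31.ZassOf
import Cfsg.Agent.H31.Zass3

set_option autoImplicit false
open Cfsg Cfsg.Agent.H12

namespace Cfsg.Agent.S0881

theorem result {G Ω : Type*} [Group G] [Fintype G] [MulAction G Ω] [Fintype Ω] (hZ : Cfsg.IsZassenhausGroup G Ω) {a b : Ω} (hab : a ≠ b) [IsSimpleGroup G] (hodd : Odd (Nat.card ↥(MulAction.stabilizer G a ⊓ MulAction.stabilizer G b : Subgroup G))) (hlt : Nat.card ↥(MulAction.stabilizer G a ⊓ MulAction.stabilizer G b : Subgroup G) < Fintype.card Ω - 2) (H : Subgroup G) (hHa : H ≤ MulAction.stabilizer G a) (hHcard : Nat.card H + 1 = Fintype.card Ω) (hHfix : ∀ u ∈ H, u ≠ 1 → ∀ c : Ω, u • c = c → c = a) (μ : MulAction.stabilizer G a → ℂ) (hμ : Cfsg.IsCharacter (MulAction.stabilizer G a) μ ∧ μ 1 = 1) (hμH : ∀ u : MulAction.stabilizer G a, (u : G) ∈ H → μ u = 1) (hμne : μ ≠ fun _ => 1) : Cfsg.IsIrrCharacter G (Cfsg.indFun (MulAction.stabilizer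 G a) μ) ∧ ∀ u ∈ H, u ≠ 1 → Cfsg.indFun (MulAction.stabilizer G a) μ u = 1 := by
  have hO := H31.zo_of_simple hZ hab hHcard.symm rfl hodd
  obtain rfl : H = zker G a :=
    hO.zt.eq_ker_of_card hab.symm hHa (by rw [hHcard, Nat.card_eq_fintype_card]) hHfix
  obtain ⟨l, rfl⟩ := H5.exists_monoidHom_of_degree_one hμ.1 hμ.2
  have hl : ∀ u : MulAction.stabilizer G a, (u : G) ∈ zker G a → l u = 1 :=
    fun u hu => Units.ext (hμH u hu)
  refine ⟨hO.isIrr_indFun_linear hl fun h => hμne (by rw [h]; rfl), fun u hu hu1 => ?_⟩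
  have := hO.indFun_ker (H5.isClassFunction_of_isCharacter hμ.1) ⟨u, hHa hu⟩ hu
    (fun h => hu1 (congrArg Subtype.val h))
  exact this.trans (hμH ⟨u, hHa hu⟩ hu)

end Cfsg.Agent.S0881
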