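import Cfsg.Statements.S0882
import Cfsg.Agent.H31.ZassOf

set_option autoImplicit false
open Cfsg Cfsg.Agent.H12

namespace Cfsg.Agent.S0882

theorem result {G Ω : Type*} [Group G] [Finite G] [MulAction G Ω] [Fintype Ω] (hZ : Cfsg.IsZassenhausGroup G Ω) {a b : Ω} (hab : a ≠ b) [IsSimpleGroup G] (h e : ℕ) (hh : Fintype.card Ω = h + 1) (he : Nat.card ↥(MulAction.stabilizer G a ⊓ MulAction.stabilizer G b : Subgroup G) = e) (hodd : Odd e) (hlt : 2 * e < h - 1) : (∀ x y : G, orderOf x = 2 → orderOf y = 2 → IsConj x y) ∧ Nat.card {x : G // orderOf x = 2} = (if Even h then e * (h + 1) else e * h) := by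
  have hO := H31.zo_of_simple hZ hab hh he hodd
  exact ⟨fun x y hx hy => hO.isConj_invol hx hy, hO.card_invol⟩

end Cfsg.Agent.S0882
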