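import Cfsg.Statements.S0883
import Cfsg.Agent.H31.ZassOf

set_option autoImplicit false
open Cfsg Cfsg.Agent.H12

namespace Cfsg.Agent.S0883

theorem result {G Ω : Type*} [Group G] [Finite G] [MulAction G Ω] [Fintype Ω] (hZ : Cfsg.IsZassenhausGroup G Ω) {a b : Ω} (hab : a ≠ b) [IsSimpleGroup G] (h e : ℕ) (hh : Fintype.card Ω = h + 1) (he : Nat.card ↥(MulAction.stabilizer G a ⊓ MulAction.stabilizer G b : Subgroup G) = e) (hodd : Odd e) (hlt : 2 * e < h - 1) (H : Subgroup G) (hHa : H ≤ MulAction.stabilizer G a) (hHcard : Nat.card H + 1 = Fintype.card Ω) (hHfix : ∀ u ∈ H, u ≠ 1 → ∀ c : Ω, u • c = c → c = a) (u : G) (hu : u ∈ H) (hu1 : u ≠ 1) (x y : G) (hx : orderOf x = 2) (hy : orderOf y = 2) (hxy : x * y = u) : orderOf u = 2 := by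
  have hO := H31.zo_of_simple hZ hab hh he hodd
  obtain rfl : H = zker G a :=
    hO.zt.eq_ker_of_card hab.symm hHa (by rw [hHcard, Nat.card_eq_fintype_card]) hHfix
  subst hxy
  exact hO.orderOf_mul_invol hx hy hu hu1

end Cfsg.Agent.S0883
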