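import Cfsg.Statements.S0893
import Cfsg.Agent.H31.ExtraChar
import Cfsg.Agent.H6.IndRep

set_option autoImplicit false
open Cfsg

namespace Cfsg.Agent.S0893

theorem result {P : Type*} [Group P] [Fintype P] (p n : ℕ) [Fact p.Prime] (hP : Cfsg.IsExtraspecial p P) (hcard : Nat.card P = p ^ (2 * n + 1)) (A : Subgroup P) (hab : ∀ a ∈ A, ∀ b ∈ A, a * b = b * a) (hA : Nat.card A = p ^ (n + 1)) (lam : A → ℂ) (hlam : Cfsg.IsCharacter A lam ∧ lam 1 = 1) (hZ : ∃ a : A, (a : P) ∈ Subgroup.center P ∧ lam a ≠ 1) : Cfsg.IsIrrCharacter P (Cfsg.indFun A lam) ∧ ∀ x : P, x ∉ Subgroup.center P → Cfsg.indFun A lam x = 0 := by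
  classical
  have hp : p.Prime := Fact.out
  haveI := Fintype.ofFinite A
  obtain ⟨a, ha, hne⟩ := hZ
  have hθ := H6.isCharacter_indFun A hlam.1
  have hidx : A.index = p ^ n := by
    have h1 := A.card_mul_index
    rw [hA, hcard, show 2 * n + 1 = (n + 1) + n by ring, pow_add p (n + 1)] at h1
    exact Nat.eq_of_mul_eq_mul_left (pow_pos hp.pos _) h1
  have hd : indFun A lam 1 = (p : ℂ) ^ n := by
    rw [H6.indFun_apply_one, hidx, hlam.2, mul_one, Nat.cast_pow]
  obtain ⟨χ, hχ, h0⟩ := H5.exists_irr_constituent hθ fun h => by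
    rw [h] at hd
    exact pow_ne_zero n (Nat.cast_ne_zero.mpr hp.ne_zero) hd.symm
  have hc := H5.isCharacter_of_isIrr hχ
  have hne' : χ a ≠ χ 1 := by
    intro h
    apply h0
    rw [H6.classInner_indFun_left _ _ (H5.isClassFunction_of_isIrr hχ)]
    have h1 : ∑ x : A, lam x * (starRingEnd ℂ) (χ x) =
        lam a * ∑ x : A, lam x * (starRingEnd ℂ) (χ x) := by
      rw [Finset.mul_sum, ← Equiv.sum_comp (Equiv.mulLeft a)]
      refine Finset.sum_congr rfl fun x _ => ?_
      rw [Equiv.coe_mulLeft, H5.map_mul_of_degree_one hlam.1 hlam.2, Subgroup.coe_mul,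
        H5.apply_mul_of_apply_eq_degree hc h, mul_assoc]
    change _ * ∑ x : A, lam x * (starRingEnd ℂ) (χ x) = 0
    rw [(mul_left_eq_self₀.mp h1.symm).resolve_left hne, mul_zero]
  have heq := H31.eq_of_constituent_of_degree_le hθ hχ h0
    (by rw [hd, H31.extraspecial_degree hp hP hcard hχ ha hne'])
  rw [heq]
  exact ⟨hχ, fun x hx => H31.extraspecial_vanish hp hP hχ ha hne' hx⟩

end Cfsg.Agent.S0893
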