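import Cfsg.Statements.S0894
import Cfsg.Agent.H31.ExtraChar

set_option autoImplicit false
open Cfsg

namespace Cfsg.Agent.S0894

theorem result {P : Type*} [Group P] [Finite P] (p n : ℕ) [Fact p.Prime] (hP : Cfsg.IsExtraspecial p P) (hcard : Nat.card P = p ^ (2 * n + 1)) : (∀ χ : Cfsg.IrrCharacter P, (χ : P → ℂ) 1 = 1 ∨ (χ : P → ℂ) 1 = (p : ℂ) ^ n) ∧ Nat.card {χ : Cfsg.IrrCharacter P // (χ : P → ℂ) 1 = (p : ℂ) ^ n} = p - 1 := by
  classical
  have hp : p.Prime := Fact.out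
  have h1 : ∀ χ : IrrCharacter P, (χ : P → ℂ) 1 = 1 ∨ (χ : P → ℂ) 1 = (p : ℂ) ^ n :=
    fun χ => H31.extraspecial_degree_or hp hP hcard χ.2
  refine ⟨h1, ?_⟩
  have hidx := H31.extraspecial_index_center hp hP hcard
  have hn : (p : ℂ) ^ n ≠ 1 := by
    intro h
    have h2 : p ^ n = 1 := by exact_mod_cast h
    rw [h2, one_pow, Subgroup.index_eq_one] at hidx
    have h3 := (commutator_eq_bot_iff_center_eq_top P).mpr hidx
    have h4 := hP.2
    rw [← hP.1.2.2, h3, Subgroup.card_bot] at h4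
    exact hp.one_lt.ne h4
  have h2 := H5.sum_degree_sq (G := P)
  rw [← Finset.sum_filter_add_sum_filter_not _ (fun χ : IrrCharacter P => (χ : P → ℂ) 1 = 1),
    Finset.sum_congr rfl fun χ hχ => by rw [(Finset.mem_filter.mp hχ).2],
    Finset.sum_congr (s₁ := Finset.univ.filter fun χ : IrrCharacter P => ¬ (χ : P → ℂ) 1 = 1)
      (s₂ := Finset.univ.filter fun χ : IrrCharacter P => (χ : P → ℂ) 1 = (p : ℂ) ^ n)
      (g := fun _ => ((p : ℂ) ^ n) ^ 2)
      (Finset.filter_congr fun χ _ => ⟨(h1 χ).resolve_left, fun h h' => hn (h.symm.trans h')⟩)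
      fun χ hχ => by rw [(Finset.mem_filter.mp hχ).2],
    Finset.sum_const, Finset.sum_const, ← Fintype.card_subtype, ← Fintype.card_subtype,
    ← Nat.card_eq_fintype_card, ← Nat.card_eq_fintype_card,
    ← Nat.card_congr (H5.linearCharEquiv P), H5.card_monoidHom_eq_index_commutator, hP.1.2.2,
    hidx, hcard, nsmul_eq_mul, nsmul_eq_mul] at h2
  have h3 : (p ^ n) ^ 2 * (1 + Nat.card {χ : IrrCharacter P // (χ : P → ℂ) 1 = (p : ℂ) ^ n}) =
      (p ^ n) ^ 2 * p := by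
    have h4 : ((p ^ n) ^ 2 * p : ℕ) = p ^ (2 * n + 1) := by ring
    rw [h4]
    apply Nat.cast_injective (R := ℂ)
    rw [← h2]
    push_cast
    ring
  have h4 := Nat.eq_of_mul_eq_mul_left (by have := hp.pos; positivity) h3
  omega

end Cfsg.Agent.S0894
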