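import Cfsg.Statements.S0896
import Cfsg.Agent.H31.Brauer
import Cfsg.Agent.H31.FrobS

set_option autoImplicit false
open scoped ComplexConjugate
open Cfsg

namespace Cfsg.Agent.S0896

theorem exists_fixed_not_dvd {E X : Type*} [Group E] [MulAction E X] [Fintype X] {p k : ℕ}
    (hp : p.Prime) (D : Subgroup E) (hD : ∀ d ∈ D, ∀ x : X, d • x = x) (hk : D.index = p ^ k)
    (f : X → ℕ) (hf : ∀ (g : E) x, f (g • x) = f x) (h : ¬ p ∣ ∑ x, f x) :
    ∃ x, (∀ g : E, g • x = x) ∧ ¬ p ∣ f x := by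
  classical
  by_contra hc
  push Not at hc
  apply h
  haveI := Fintype.ofFinite (MulAction.orbitRel.Quotient E X)
  rw [← Finset.sum_fiberwise (s := Finset.univ)
    (g := fun x : X => (Quotient.mk _ x : MulAction.orbitRel.Quotient E X))]
  refine Finset.dvd_sum fun ω _ => ?_
  obtain ⟨x, rfl⟩ := Quotient.exists_rep ω
  have h1 : ∀ y, (Quotient.mk _ y : MulAction.orbitRel.Quotient E X) = Quotient.mk _ x ↔
      y ∈ MulAction.orbit E x := fun y => Quotient.eq
  rw [Finset.sum_congr rfl (g := fun _ => f x) fun y hy => by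
    obtain ⟨g, rfl⟩ := (h1 y).mp (Finset.mem_filter.mp hy).2
    exact hf g x, Finset.sum_const, smul_eq_mul, ← Fintype.card_subtype,
    ← Nat.card_eq_fintype_card, Nat.card_congr (Equiv.subtypeEquivRight h1),
    Nat.card_congr (MulAction.orbitEquivQuotientStabilizer E x), ← Subgroup.index_eq_card]
  obtain ⟨i, -, hi⟩ := (Nat.dvd_prime_pow hp).mp
    (hk ▸ Subgroup.index_dvd_of_le (H := D) (K := MulAction.stabilizer E x)
      fun d hd => hD d hd x)
  rcases i with _ | i
  · refine (hc x fun g => ?_).mul_left _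
    exact (Subgroup.index_eq_one.mp hi ▸ Subgroup.mem_top g : g ∈ MulAction.stabilizer E x)
  · exact (hi ▸ dvd_pow_self p i.succ_ne_zero).mul_right _

theorem result {G : Type*} [Group G] [Fintype G] (p : ℕ) (hp : p.Prime) (N : Subgroup G) [hN : N.Normal] (hind : ∃ k : ℕ, N.index = p ^ k) (ϑ : N → ℂ) (hϑ : Cfsg.IsIrrCharacter N ϑ) (hinv : ∀ (g : G) (n : N), ϑ ⟨g * n * g⁻¹, hN.conj_mem (n : G) n.2 g⟩ = ϑ n) : ∃ (E : Subgroup G) (φ : ↥(E ⊓ N) → ℂ), Cfsg.IsElementary p E ∧ E ⊔ N = ⊤ ∧ Cfsg.IsIrrCharacter ↥(E ⊓ N) φ ∧ (∀ (g : G) (hg : g ∈ E) (x : ↥(E ⊓ N)), φ ⟨g * x * g⁻¹, ⟨(E.mul_mem (E.mul_mem hg x.2.1) (E.inv_mem hg)), hN.conj_mem (x : G) x.2.2 g⟩⟩ = φ x) ∧ ∃ m : ℕ, ¬ p ∣ m ∧ (Nat.card ↥(E ⊓ N) : ℂ)⁻¹ * ∑ᶠ x : ↥(E ⊓ N), ϑ ⟨(x : G), x.2.2⟩ * conj (φ x) = (m : ℂ) := by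
  classical
  haveI := Fintype.ofFinite N
  by_contra hcon
  obtain ⟨k, hk⟩ := hind
  obtain ⟨m, hm, hspan⟩ := H31.exists_const_mem_span_elemInd (G := G) hp
  set F : G → ℂ := extendByZero N fun n => ϑ n * conj (ϑ n) with hF
  have hFc : IsClassFunction G F := by
    intro g h
    by_cases hg : g ∈ N
    · rw [hF, H6.extendByZero_of_mem N _ hg, H6.extendByZero_of_mem N _ (hN.conj_mem g hg h),
        hinv h ⟨g, hg⟩]
    · rw [hF, H6.extendByZero_of_notMem N _ hg, H6.extendByZero_of_notMem N _ fun h1 => hg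
        (by simpa [mul_assoc] using hN.conj_mem _ h1 h⁻¹)]
  have hG := H5.natCard_ne_zero (G := G)
  have hNc := H5.natCard_ne_zero (G := N)
  have key : ∀ f ∈ Submodule.span ℤ (H31.elemInd G p),
      ∃ j : ℤ, (N.index : ℂ) * classInner F f = p * j := by
    intro f hf
    induction hf using Submodule.span_induction with
    | zero => exact ⟨0, by simp⟩
    | add a b _ _ ha hb =>
      obtain ⟨i, hi⟩ := ha
      obtain ⟨j, hj⟩ := hb
      exact ⟨i + j, by rw [H5.classInner_add_right, mul_add, hi, hj]; push_cast; ring⟩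
    | smul n a _ ha =>
      obtain ⟨i, hi⟩ := ha
      exact ⟨n * i, by rw [H53.ci_zsmul_right, mul_left_comm, hi]; push_cast; ring⟩
    | mem f hf =>
      obtain ⟨E, ψ, hE, hψ, rfl⟩ := hf
      haveI := Fintype.ofFinite E
      haveI := Fintype.ofFinite ↥(E ⊓ N)
      have hθD : IsCharacter ↥(E ⊓ N) fun x => ϑ ⟨(x : G), x.2.2⟩ :=
        H5.isCharacter_comp (H5.isCharacter_of_isIrr hϑ) (Subgroup.inclusion inf_le_right)
      have hψD : IsCharacter ↥(E ⊓ N) fun x => ψ ⟨(x : G), x.2.1⟩ * ϑ ⟨(x : G), x.2.2⟩ :=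
        H5.isCharacter_mul (H5.isCharacter_comp hψ (Subgroup.inclusion inf_le_left)) hθD
      choose a ha using fun φ : IrrCharacter ↥(E ⊓ N) =>
        H5.exists_nat_classInner hθD (H5.isCharacter_of_isIrr φ.2)
      choose b hb using fun φ : IrrCharacter ↥(E ⊓ N) =>
        H5.exists_nat_classInner (H5.isCharacter_of_isIrr φ.2) hψD
      have h1 : (N.index : ℂ) * classInner F (indFun E ψ) =
          ((E ⊔ N).index * ∑ φ, a φ * b φ : ℕ) := by
        push_cast
        rw [Finset.sum_congr rfl fun φ _ => by rw [← ha, ← hb],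
          ← H5.classInner_eq_sum_irr (H5.isClassFunction_of_isCharacter hθD),
          H6.classInner_indFun_right _ _ hFc]
        change _ * (_ * ∑ x : E, _) = _ * (_ * ∑ x : ↥(E ⊓ N), _)
        have h2 : ∑ x : E, F x * conj (ψ x) = ∑ x : ↥(E ⊓ N), ϑ ⟨(x : G), x.2.2⟩ *
            conj (ψ ⟨(x : G), x.2.1⟩ * ϑ ⟨(x : G), x.2.2⟩) := by
          symm
          refine Finset.sum_of_injOn (Subgroup.inclusion inf_le_left)
            (Subgroup.inclusion_injective _).injOn (fun _ _ => Finset.mem_univ _)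
            (fun x _ hx => ?_) fun x _ => ?_
          · rw [hF, H6.extendByZero_of_notMem N _ fun h =>
              hx ⟨⟨x, x.2, h⟩, Finset.mem_univ _, rfl⟩, zero_mul]
          · rw [Subgroup.coe_inclusion, hF, H6.extendByZero_of_mem N _ x.2.2, map_mul,
              mul_comm (conj _), mul_assoc]
            rfl
        have h3 : N.index * Nat.card ↥(E ⊓ N) = (E ⊔ N).index * Nat.card E := by
          rw [← Subgroup.relIndex_mul_index (le_sup_right : N ≤ E ⊔ N),
            Subgroup.relIndex_sup_right, ← (N.subgroupOf E).card_mul_index,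
            ← Subgroup.inf_subgroupOf_left, Nat.card_congr
              (Subgroup.subgroupOfEquivOfLe (inf_le_left : E ⊓ N ≤ E)).toEquiv,
            Subgroup.inf_subgroupOf_left, Subgroup.relIndex]
          ring
        have h4 : (N.index : ℂ) * Nat.card ↥(E ⊓ N) = (E ⊔ N).index * Nat.card E := by
          exact_mod_cast h3
        have h5 := H5.natCard_ne_zero (G := E)
        have h6 := H5.natCard_ne_zero (G := ↥(E ⊓ N))
        rw [h2, ← mul_assoc, ← mul_assoc]
        congr 1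
        field_simp
        rw [h4, mul_comm]
      suffices h : p ∣ (E ⊔ N).index * ∑ φ, a φ * b φ by
        obtain ⟨j, hj⟩ := h
        exact ⟨j, by rw [h1, hj]; push_cast; rfl⟩
      by_cases hEN : E ⊔ N = ⊤
      swap
      · refine Dvd.dvd.mul_right ?_ _
        obtain ⟨i, -, hi⟩ := (Nat.dvd_prime_pow hp).mp
          (hk ▸ Subgroup.index_dvd_of_le (le_sup_right : N ≤ E ⊔ N))
        rcases i with _ | i
        · exact absurd (Subgroup.index_eq_one.mp hi) hEN
        · exact hi ▸ dvd_pow_self p i.succ_ne_zero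
      refine Dvd.dvd.mul_left ?_ _
      let α : E →* MulAut ↥(E ⊓ N) := (E ⊓ N).normalizerMonoidHom.comp (Subgroup.inclusion
        (fun g hg => Subgroup.mem_normalizer_fintype fun x hx =>
          ⟨E.mul_mem (E.mul_mem hg hx.1) (E.inv_mem hg), hN.conj_mem x hx.2 g⟩))
      letI : MulAction E (IrrCharacter ↥(E ⊓ N)) :=
        { smul := fun g φ => ⟨fun x => φ.1 (α g⁻¹ x), H5.isIrrCharacter_comp_equiv φ.2 (α g⁻¹)⟩
          one_smul := fun φ => Subtype.ext (funext fun x => by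
            change φ.1 (α 1⁻¹ x) = _
            rw [inv_one, map_one, MulAut.one_apply])
          mul_smul := fun g h φ => Subtype.ext (funext fun x => by
            change φ.1 (α (g * h)⁻¹ x) = φ.1 (α h⁻¹ (α g⁻¹ x))
            rw [mul_inv_rev, map_mul, MulAut.mul_apply]) }
      have hsm : ∀ (g : E) (φ : IrrCharacter ↥(E ⊓ N)),
          (g • φ).1 = fun x => φ.1 (α g⁻¹ x) := fun _ _ => rfl
      have hθi : ∀ (g : E) (x : ↥(E ⊓ N)), ϑ ⟨(α g x : G), (α g x).2.2⟩ = ϑ ⟨x, x.2.2⟩ :=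
        fun g x => hinv g ⟨x, x.2.2⟩
      have hψi : ∀ (g : E) (x : ↥(E ⊓ N)), ψ ⟨(α g x : G), (α g x).2.1⟩ = ψ ⟨x, x.2.1⟩ :=
        fun g x => H5.isClassFunction_of_isCharacter hψ ⟨x, x.2.1⟩ g
      by_contra hnd
      obtain ⟨φ, hφ1, hφ2⟩ := exists_fixed_not_dvd hp (N.subgroupOf E) (k := k)
        (fun d hd φ => Subtype.ext (funext fun x =>
          H5.isClassFunction_of_isIrr φ.2 x (⟨d, d.2, hd⟩ : ↥(E ⊓ N))⁻¹))
        (by rw [← hk, ← Subgroup.relIndex, ← Subgroup.relIndex_sup_right, hEN,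
          Subgroup.relIndex_top_right])
        (fun φ => a φ * b φ) (fun g φ => by
          have h2 : (a (g • φ) : ℂ) = a φ := by
            rw [← ha, ← ha, hsm, ← H5.classInner_comp_equiv (α g⁻¹) _ φ.1]
            simp only [hθi]
          have h3 : (b (g • φ) : ℂ) = b φ := by
            rw [← hb, ← hb, hsm, ← H5.classInner_comp_equiv (α g⁻¹) φ.1]
            simp only [hθi, hψi]
          rw [Nat.cast_injective h2, Nat.cast_injective h3]) hnd
      refine hcon ⟨E, φ.1, hE, hEN, φ.2, fun g hg x => ?_, a φ,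
        fun h => hφ2 (h.mul_right _), ?_⟩
      · exact congrFun (congrArg Subtype.val (hφ1 (⟨g, hg⟩ : E)⁻¹)) x |>.symm ▸ (by
          rw [hsm, inv_inv]; rfl)
      · rw [finsum_eq_sum_of_fintype, ← ha]
        rfl
  obtain ⟨j, hj⟩ := key _ hspan
  have h1 : classInner F (fun _ => (m : ℂ)) * N.index = m := by
    have h2 := H5.classInner_irr_self hϑ
    change _ * ∑ n : N, _ = _ at h2
    change _ * (∑ g : G, _) * _ = _
    rw [hF, H6.sum_extendByZero_mul, ← Finset.sum_mul, ← N.card_mul_index, map_intCast]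
    have h3 : (N.index : ℂ) ≠ 0 := by exact_mod_cast N.index_ne_zero_of_finite
    push_cast
    field_simp at h2 ⊢
    rw [h2]
  rw [mul_comm, h1] at hj
  exact hm ⟨j, by exact_mod_cast hj⟩

end Cfsg.Agent.S0896
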