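import Cfsg.Statements.S0897
import Cfsg.Agent.H30.Ramified
import Cfsg.Agent.S0896
import Cfsg.Agent.H49.Hall

set_option autoImplicit false
open Cfsg

namespace Cfsg.Agent.S0897

open Cfsg Cfsg.Agent.H54 Cfsg.Agent.H49

theorem ext_of_coprime_mult {G : Type*} [Group G] [Fintype G] {p k m : ℕ} (hp : p.Prime)
    {N : Subgroup G} (hN : NormalIn N ⊤) (hk : N.relIndex ⊤ = p ^ k) {θ Θ : G → ℂ}
    (hθ : θ ∈ irr N) (hinv : ∀ g, cfConjg g θ = θ) (hΘ : IsChar ⊤ Θ) (hm : dot N Θ θ = m)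
    (hpm : ¬ p ∣ m) : ∃ χ ∈ irr (⊤ : Subgroup G), res N χ = θ := by
  by_contra hc
  push Not at hc
  obtain ⟨c, -, e⟩ := H52.char_expand hΘ
  rw [e, H52.dot_sum_left] at hm
  obtain ⟨z, hz⟩ := Finset.sum_induction (s := irr (⊤ : Subgroup G))
    (fun χ => dot N ((c χ : ℂ) • χ) θ) (fun c => ∃ z : ℕ, c = p * z)
    (by rintro _ _ ⟨a, rfl⟩ ⟨b, rfl⟩; exact ⟨a + b, by push_cast; ring⟩) ⟨0, by simp⟩
    (fun χ hχ => by
      by_cases hd : dot N χ θ = 0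
      · exact ⟨0, by rw [H52.dot_smul_left, hd]; simp⟩
      obtain ⟨e, he1, he2⟩ := H6A.exists_degree_eq_mul hN hχ hθ hd
      have h1 := H52.res_eq_smul_of_invariant hN hχ hθ hd fun g _ => hinv g
      have h2 : dot N χ θ = e :=
        mul_right_cancel₀ (H52.irr_one_ne_zero hθ) ((H30.one_of_res_eq h1).symm.trans he2)
      obtain ⟨j, -, rfl⟩ := (Nat.dvd_prime_pow hp).1 (hk ▸ he1)
      rcases j with _ | j
      · exact absurd (by rw [h1, h2]; simp) (hc χ hχ)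
      · exact ⟨c χ * p ^ j, by rw [H52.dot_smul_left, h2]; push_cast; ring⟩)
  exact hpm ⟨z, by exact_mod_cast hm.symm.trans hz⟩

/-- Let N be a normal subgroup of the finite group G with the index of N a power of the prime p, and P a Sylow p-subgroup of G such that P ⊓ N lies in the centre of P and every character of degree 1 of P ⊓ N is the restriction of a character of degree 1 of P. Then every irreducible character of N invariant under conjugation by G is the restriction of an irreducible character of G. -/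
theorem result {G : Type*} [Group G] [Fintype G] (p : ℕ) [Fact p.Prime] (N : Subgroup G) [hN : N.Normal] (hind : ∃ k : ℕ, N.index = p ^ k) (P : Sylow p G) (hcent : ∀ x ∈ (P : Subgroup G) ⊓ N, ∀ y ∈ (P : Subgroup G), x * y = y * x) (hlin : ∀ lam : ↥((P : Subgroup G) ⊓ N) → ℂ, Cfsg.IsCharacter ↥((P : Subgroup G) ⊓ N) lam → lam 1 = 1 → ∃ μ : ↥(P : Subgroup G) → ℂ, Cfsg.IsCharacter ↥(P : Subgroup G) μ ∧ μ 1 = 1 ∧ ∀ x : ↥((P : Subgroup G) ⊓ N), μ ⟨(x : G), x.2.1⟩ = lam x) (ϑ : N → ℂ) (hϑ : Cfsg.IsIrrCharacter N ϑ) (hinv : ∀ (g : G) (n : N), ϑ ⟨g * n * g⁻¹, hN.conj_mem (n : G) n.2 g⟩ = ϑ n) : ∃ χ : G → ℂ, Cfsg.IsIrrCharacter G χ ∧ ∀ n : N, χ n = ϑ n := by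
  have hp : p.Prime := Fact.out
  obtain ⟨E, φ, ⟨x, hxc, hxp, j, hj⟩, hEN, hφ, -, m, hpm, hm⟩ :=
    S0896.result p hp N hind ϑ hϑ hinv
  obtain ⟨k, hk⟩ := hind
  have nN := H30.normalIn_top N
  have hlin' : ∀ l, IsLin (P ⊓ N) l → ∃ μ, IsLin P μ ∧ ∀ y ∈ (P : Subgroup G) ⊓ N, μ y = l y := by
    intro l hl
    obtain ⟨μ, h1, h2, h3⟩ := hlin (H52.rst _ l) (H52.char_rst (H52.lin_char hl)) hl.2
    exact ⟨extendByZero P μ, H52.lin_of_char (H52.extend_char h1)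
      (by rw [H6A.extend_apply_one, h2]), fun y hy => by
        rw [H6.extendByZero_of_mem _ μ hy.1]; exact h3 ⟨y, hy⟩⟩
  obtain ⟨Q, hQ⟩ := exists_sylowOf p E
  have hQ' := (sylowOf_iff hp).1 hQ
  obtain ⟨g, -, hg⟩ := sylowOf_subJ (sylowOf_top hp P) le_top (isPi_of_isPGroup hp hQ'.2.1)
  set C := Subgroup.zpowers (x : G) with hC
  have hCE : C ≤ E := Subgroup.zpowers_le.2 x.2
  have hcardC : Nat.card C = orderOf x := by rw [Nat.card_zpowers, Subgroup.orderOf_coe]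
  have hCN : C ≤ N := by
    refine IsPi.le_of_relIndex (π := {p}ᶜ) ((isPi_compl_singleton_iff_coprime hp).2
      (hcardC ▸ hxp)) fun q hq hd => ?_
    have := hd.trans (relIndex_dvd_of_norm nN.2 le_top)
    rw [Subgroup.relIndex_top_right, hk] at this
    simpa using (Nat.prime_dvd_prime_iff_eq hq hp).1 (hq.dvd_of_dvd_pow this)
  have hcomm : ∀ a ∈ C, ∀ b ∈ E, a * b = b * a := by
    rintro _ ⟨n, rfl⟩ b hb
    have := congrArg Subtype.val (Subgroup.mem_center_iff.1 hxc ⟨b, hb⟩)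
    exact (Commute.zpow_left (show Commute (x : G) b from this.symm) n).eq
  have hprod : IsProd C Q E := isProd_of_coprime_relIndex hCE hQ'.1 (by
    have : C.relIndex E = p ^ j := by
      rw [← hj, Subgroup.relIndex]
      congr 1
      ext y
      simp only [hC, Subgroup.mem_subgroupOf, Subgroup.mem_zpowers_iff, Subtype.ext_iff,
        SubgroupClass.coe_zpow]
    rw [this]
    exact ((Nat.Prime.coprime_iff_not_dvd hp).2 hQ'.2.2).pow_left j)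
  obtain ⟨i, hi⟩ := (isPi_of_isPGroup hp hQ'.2.1).exists_card_eq_pow hp
  have dp : H52.DP C Q := H52.dp_of_isDp ⟨rfl, inf_eq_bot_of_coprime
    (by rw [hcardC, hi]; exact hxp.pow_right i),
    le_cent_iff.2 fun b hb a ha => hcomm a ha b (hQ'.1 hb)⟩
  have hdec : ∀ y ∈ E ⊓ N, ∃ a ∈ C, ∃ b ∈ Q ⊓ N, y = a * b := fun y hy => by
    obtain ⟨a, ha, b, hb, rfl⟩ := hprod.2.2 y hy.1
    exact ⟨a, ha, b, ⟨hb, (Subgroup.mul_mem_cancel_left N (hCN ha)).1 hy.2⟩, rfl⟩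
  have hcj : ∀ b ∈ Q ⊓ N, g * b * g⁻¹ ∈ (P : Subgroup G) ⊓ N := fun b hb =>
    ⟨hg (conj_mem_cj.2 hb.1), hN.conj_mem b hb.2 g⟩
  have hQN : ∀ a ∈ Q ⊓ N, ∀ b ∈ Q ⊓ N, a * b = b * a := fun a ha b hb => by
    have := hcent _ (hcj a ha) _ (hcj b hb).1
    rw [conj_mul, conj_mul] at this
    simpa using this
  have hφl : IsLin (E ⊓ N) (extendByZero _ φ) := H52.lin_of_comm (fun y hy z hz => by
    obtain ⟨a, ha, b, hb, rfl⟩ := hdec y hy
    obtain ⟨c, hc, d, hd, rfl⟩ := hdec z hz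
    have h1 : Commute a (c * d) := hcomm a ha _ hz.1
    have h2 : Commute b c := (hcomm c hc _ (hQ'.1 hb.1)).symm
    exact (h1.mul_left (h2.mul_right (hQN b hb d hd))).eq) (H52.extend_irr hφ)
  have hle : Q ⊓ N ≤ E ⊓ N := inf_le_inf_right N hQ'.1
  have hle2 : cj g⁻¹⁻¹ (Q ⊓ N) ≤ (P : Subgroup G) ⊓ N := fun y hy => by
    simpa [mul_assoc] using hcj _ (H52.mem_cj_inv.1 hy)
  obtain ⟨l₁, hl₁⟩ := H52.exists_dual_of_lin (φ := cfConjg g⁻¹ (res (Q ⊓ N) (extendByZero _ φ)))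
    ⟨H52.cfConjg_irr' (H52.lin_res hle hφl).1 g⁻¹, by
      rw [H52.cfConjg_apply_one, (H52.lin_res hle hφl).2]⟩
  obtain ⟨l₂, hl₂⟩ := H52.exists_dual_extend (fun a ha b hb => hcent a ha b hb.1) hle2 l₁
  obtain ⟨μ, hμ, hμ'⟩ := hlin' _ (H52.linChar_lin l₂)
  have hle3 : Q ≤ cj g⁻¹ P := le_cj_iff.2 (by rwa [inv_inv])
  obtain ⟨b₀, hb₀⟩ := H52.exists_dual_of_lin (H52.lin_res hle3 (φ := cfConjg g μ)
    ⟨H52.cfConjg_irr' hμ.1 g, by rw [H52.cfConjg_apply_one, hμ.2]⟩)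
  obtain ⟨a₀, ha₀⟩ := H52.exists_dual_of_lin (H52.lin_res (le_inf hCE hCN) hφl)
  have hω := H52.omega_lin dp a₀ b₀
  rw [hprod.sup_eq] at hω
  have hωφ : ∀ y ∈ E ⊓ N, omega C Q a₀ b₀ y = extendByZero _ φ y := fun y hy => by
    obtain ⟨a, ha, b, hb, rfl⟩ := hdec y hy
    have h3 : g * b * g⁻¹ ∈ cj g⁻¹⁻¹ (Q ⊓ N) := H52.mem_cj_inv.2 (by simpa [mul_assoc] using hb)
    rw [H52.omega_mul_apply dp a₀ b₀ ha hb.1, ← ha₀, ← hb₀, res_apply_of_mem _ ha,
      res_apply_of_mem _ hb.1, cfConjg_apply, hμ' _ (hcj b hb), ← res_apply_of_mem (linChar _ l₂) h3, hl₂, ← hl₁,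
      cfConjg_apply, H52.lin_map_mul hφl (le_inf hCE hCN ha) (hle hb),
      show g⁻¹ * (g * b * g⁻¹) * g⁻¹⁻¹ = b by group, res_apply_of_mem _ hb]
  have hθ := H52.extend_irr hϑ
  obtain ⟨χ, hχ, e⟩ := ext_of_coprime_mult hp nN (by rw [Subgroup.relIndex_top_right, hk]) hθ
    (H30.extend_invariant_iff.2 hinv) (H52.ind_char le_top (H52.lin_char hω)) (m := m) (by
      rw [← H52.dot_res_left, H30.res_ind_isProd (hEN ▸ isProd_sup_of_norm_right (le_top.trans nN.2))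
        (H52.irr_CF hω.1), H52.dot_ind_left inf_le_left _ (H52.irr_CF hθ), inf_comm]
      refine H52.dot_symm_of_int (n := m) ?_
      have := Fintype.ofFinite ↥(E ⊓ N)
      rw [Int.cast_natCast, ← hm, H52.dot_def, H52.sum_fin_subgroup, finsum_eq_sum_of_fintype]
      congr 1
      refine Finset.sum_congr rfl fun y _ => ?_
      rw [hωφ y y.2, H6.extendByZero_coe, H6.extendByZero_of_mem N ϑ y.2.2]) hpm
  exact ⟨χ, H52.mem_irr_top.1 hχ, fun n => by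
    rw [← res_apply_of_mem χ n.2, e, H6.extendByZero_coe]⟩

end Cfsg.Agent.S0897
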