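import Cfsg.Statements.S0898
import Cfsg.Agent.H31.FeitTh

set_option autoImplicit false
open Cfsg

namespace Cfsg.Agent.S0898

theorem result {G : Type*} [Group G] [Fintype G] (H : Subgroup G) [Fintype H] (hab : ∀ a ∈ H, ∀ b ∈ H, a * b = b * a) (hZ : H ⊓ Subgroup.center G = ⊥) (hone : ∀ g : G, g ∉ Subgroup.center G → ∀ a b : G, Subgroup.centralizer ({g} : Set G) ⊓ H.map (MulAut.conj a).toMonoidHom ≠ ⊥ → Subgroup.centralizer ({g} : Set G) ⊓ H.map (MulAut.conj b).toMonoidHom ≠ ⊥ → H.map (MulAut.conj a).toMonoidHom = H.map (MulAut.conj b).toMonoidHom) (χ : G → ℂ) (hχ : Cfsg.IsIrrCharacter G χ) (hker : ∃ h ∈ H, χ h ≠ χ 1) : (χ 1).re ^ 2 > (Nat.card H : ℝ) * (Cfsg.classInner (fun h : H => χ h) (fun _ => 1)).re ^ 2 ∧ (χ 1 ≠ 1 → (∀ M : Subgroup G, M.Normal → H ≤ M → M = ⊤) → (1 + (χ 1).re) ^ 2 > (Nat.card H : ℝ)) := by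
  have hone' : ∀ g ∉ Subgroup.center G, ∀ h ∈ H, h ≠ 1 → g * h = h * g → ∀ h' ∈ H, h' ≠ 1 →
      ∀ x : G, g * (x * h' * x⁻¹) = (x * h' * x⁻¹) * g → x ∈ Subgroup.normalizer (H : Set G) := by
    intro g hg h hh hh1 hc h' hh' hh1' x hc'
    have h1 := hone g hg 1 x
      (fun e => hh1 (Subgroup.mem_bot.mp (e ▸
        ⟨Subgroup.mem_centralizer_singleton_iff.mpr hc.symm, h, hh, by simp⟩)))
      (fun e => hh1' (by
        have : x * h' * x⁻¹ ∈ (⊥ : Subgroup G) :=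
          e ▸ ⟨Subgroup.mem_centralizer_singleton_iff.mpr hc'.symm, h', hh', rfl⟩
        simpa using this))
    refine Subgroup.mem_normalizer_fintype fun n hn => ?_
    have h2 : x * n * x⁻¹ ∈ H.map (MulAut.conj (1 : G)).toMonoidHom := h1 ▸ ⟨n, hn, rfl⟩
    obtain ⟨y, hy, e⟩ := h2
    have : y = x * n * x⁻¹ := by simpa using e
    exact this ▸ hy
  exact ⟨H31.feit_thompson_bound H hZ hone' hab hχ hker,
    fun h1 hM => H31.feit_thompson_bound' H hZ hone' hab hχ h1 hM⟩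

end Cfsg.Agent.S0898
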