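import Cfsg.Statements.S0900
import Cfsg.Agent.H30.Ramified

set_option autoImplicit false
open Cfsg

namespace Cfsg.Agent.S0900

open Cfsg Cfsg.Agent.H54 Cfsg.Agent.H49

/-- Let N be a normal subgroup of the finite group G, χ an irreducible character of G and ϑ an irreducible character of N having nonzero inner product with the restriction of χ. Consider: (a) the restriction of χ to N is e • ϑ for a natural number e with e ^ 2 equal to the index of N; (b) χ vanishes outside N and ϑ is invariant under conjugation by G; (c) ϑ is invariant and every irreducible character of G having nonzero inner product with the function induced from ϑ equals χ. Then (a) ↔ (b) and (a) ↔ (c). -/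
theorem result {G : Type*} [Group G] [Fintype G] (N : Subgroup G) [hN : N.Normal] [Fintype N] (χ : G → ℂ) (hχ : Cfsg.IsIrrCharacter G χ) (ϑ : N → ℂ) (hϑ : Cfsg.IsIrrCharacter N ϑ) (hcon : Cfsg.classInner (fun n : N => χ n) ϑ ≠ 0) : ((∃ e : ℕ, (fun n : N => χ n) = (e : ℂ) • ϑ ∧ e ^ 2 = N.index) ↔ ((∀ g : G, g ∉ N → χ g = 0) ∧ ∀ (g : G) (n : N), ϑ ⟨g * n * g⁻¹, hN.conj_mem (n : G) n.2 g⟩ = ϑ n)) ∧ ((∃ e : ℕ, (fun n : N => χ n) = (e : ℂ) • ϑ ∧ e ^ 2 = N.index) ↔ (∀ (g : G) (n : N), ϑ ⟨g * n * g⁻¹, hN.conj_mem (n : G) n.2 g⟩ = ϑ n ∧ ∀ ψ : G → ℂ, Cfsg.IsIrrCharacter G ψ → Cfsg.classInner (Cfsg.indFun N ϑ) ψ ≠ 0 → ψ = χ)) := by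
  have nN := H30.normalIn_top N
  have hχ' : χ ∈ irr (⊤ : Subgroup G) := H52.mem_irr_top.2 hχ
  have hθ := H52.extend_irr hϑ
  have hd : dot N χ (extendByZero N ϑ) ≠ 0 := by rwa [H30.dot_extend_right]
  have hinv : ∀ e : ℕ, (fun n : N => χ n) = (e : ℂ) • ϑ → ∀ (g : G) (n : N),
      ϑ ⟨g * n * g⁻¹, hN.conj_mem (n : G) n.2 g⟩ = ϑ n := fun e he =>
    H30.extend_invariant_iff.1 fun g => H30.invariant_of_res_eq nN.2 (H52.irr_CF hχ')
      (H30.ne_zero_of_res_eq (H52.irr_one_ne_zero hχ') (H30.res_eq_smul_extend_iff.2 he))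
      (H30.res_eq_smul_extend_iff.2 he) (Subgroup.mem_top g)
  have hdot : ∀ ψ : G → ℂ, dot ⊤ (ind ⊤ N (extendByZero N ϑ)) ψ = classInner (indFun N ϑ) ψ :=
    fun ψ => by rw [H52.dot_top, H52.ind_top_extend]
  rw [← Subgroup.relIndex_top_right]
  refine ⟨⟨?_, ?_⟩, ⟨?_, ?_⟩⟩
  · rintro ⟨e, he, h2⟩
    exact ⟨fun g hg => H30.vanish_of_ramified le_top hχ' hθ (H30.res_eq_smul_extend_iff.2 he) h2.ge
      g trivial hg, hinv e he⟩
  · rintro ⟨h1, h2⟩
    obtain ⟨e, he⟩ := H30.exists_res_eq_of_invariant nN hχ' hθ hd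
      fun g _ => H30.extend_invariant_iff.2 h2 g
    exact ⟨e, H30.res_eq_smul_extend_iff.1 he,
      H30.sq_eq_of_vanish le_top hχ' hθ he fun x _ hx => h1 x hx⟩
  · rintro ⟨e, he, h2⟩ g n
    refine ⟨hinv e he g n, fun ψ hψ h => ?_⟩
    rw [← hdot, H30.ind_eq_of_ramified le_top hχ' hθ (H30.res_eq_smul_extend_iff.2 he) h2,
      H52.dot_smul_left] at h
    exact (H52.eq_of_dot_irr_ne_zero hχ' (H52.mem_irr_top.2 hψ) (right_ne_zero_of_mul h)).symm
  · intro h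
    obtain ⟨e, he⟩ := H30.exists_res_eq_of_invariant nN hχ' hθ hd
      fun g _ => H30.extend_invariant_iff.2 (fun g n => (h g n).1) g
    exact ⟨e, H30.res_eq_smul_extend_iff.1 he, H30.sq_eq_of_ind_eq le_top hχ' hθ he
      (H30.eq_smul_of_unique (H52.ind_mem_CF _ _ _) hχ' fun ψ hψ hc =>
        (h 1 1).2 ψ (H52.mem_irr_top.1 hψ) (by rwa [← hdot]))⟩

end Cfsg.Agent.S0900
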