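import Cfsg.Statements.S0903
import Cfsg.Agent.H87.AlgBasic

set_option autoImplicit false
open Cfsg

namespace Cfsg.Agent.S0903

/-- Let P be a p-subgroup of the finite group G, let c centralize P and let g, h ∈ G. The number of pairs (x, y) with x conjugate to g, y conjugate to h and x * y = c is congruent modulo p to the number of such pairs in which x and y both centralize P. (This is why the Brauer map on class sums is multiplicative.) -/
theorem result {G : Type*} [Group G] [Finite G] (p : ℕ) [Fact p.Prime] (P : Subgroup G) (hP : IsPGroup p P) (c : G) (hc : c ∈ Subgroup.centralizer (P : Set G)) (g h : G) : Nat.card {xy : G × G // IsConj g xy.1 ∧ IsConj h xy.2 ∧ xy.1 * xy.2 = c} ≡ Nat.card {xy : G × G // IsConj g xy.1 ∧ IsConj h xy.2 ∧ xy.1 * xy.2 = c ∧ xy.1 ∈ Subgroup.centralizer (P : Set G) ∧ xy.2 ∈ Subgroup.centralizer (P : Set G)} [MOD p] := by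
  classical
  have := Fintype.ofFinite G
  have h1 := H87.sum_eq_sum_fixed (k := ZMod p) hP
    (fun (t : G) (xy : G × G) => (t * xy.1 * t⁻¹, t * xy.2 * t⁻¹)) (by simp)
    (fun a b x => by simp [mul_assoc])
    (Finset.univ.filter fun xy : G × G => IsConj g xy.1 ∧ IsConj h xy.2 ∧ xy.1 * xy.2 = c)
    (fun t ht xy hxy => by
      simp only [Finset.mem_filter, Finset.mem_univ, true_and] at hxy ⊢
      refine ⟨hxy.1.trans (isConj_iff.2 ⟨t, rfl⟩), hxy.2.1.trans (isConj_iff.2 ⟨t, rfl⟩), ?_⟩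
      calc t * xy.1 * t⁻¹ * (t * xy.2 * t⁻¹) = t * (xy.1 * xy.2) * t⁻¹ := by group
        _ = c := by rw [hxy.2.2, hc t ht]; group)
    (fun _ => 1) (fun _ _ _ _ => rfl)
  rw [← ZMod.natCast_eq_natCast_iff, Nat.card_eq_fintype_card, Nat.card_eq_fintype_card,
    Fintype.card_subtype, Fintype.card_subtype]
  simp only [Finset.sum_const, nsmul_eq_mul, mul_one, Finset.filter_filter] at h1
  rw [h1]
  congr 2
  ext xy
  simp only [Finset.mem_filter, Finset.mem_univ, true_and, Prod.ext_iff,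
    Subgroup.mem_centralizer_iff, SetLike.mem_coe, mul_inv_eq_iff_eq_mul]
  constructor
  · rintro ⟨⟨h1, h2, h3⟩, h4⟩
    exact ⟨h1, h2, h3, fun t ht => (h4 t ht).1, fun t ht => (h4 t ht).2⟩
  · rintro ⟨h1, h2, h3, h4, h5⟩
    exact ⟨⟨h1, h2, h3⟩, fun t ht => ⟨h4 t ht, h5 t ht⟩⟩

end Cfsg.Agent.S0903
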