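import Cfsg.Statements.S0905
import Cfsg.Agent.H32.Defect
import Cfsg.Agent.H22.Core

set_option autoImplicit false
open Cfsg

namespace Cfsg.Agent.S0905

/-- Let F be a field of characteristic p and let g be an element of the finite group G no conjugate of which centralizes O_p(G). Then the class sum of g is a nilpotent element of the group algebra F[G]. -/
theorem result {G : Type*} [Group G] [Finite G] (p : ℕ) [Fact p.Prime] (F : Type*) [Field F] [CharP F p] (g : G) (hg : ∀ x : G, IsConj g x → x ∉ Subgroup.centralizer (Cfsg.pCore p G : Set G)) : IsNilpotent (∑ᶠ x ∈ ConjClasses.carrier (ConjClasses.mk g), MonoidAlgebra.single x (1 : F) : MonoidAlgebra F G) := by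
  classical
  rw [← H32.classSum_eq_finsum]
  have hS : H87.IsComm (H87.fix F (⊤ : Subgroup G) ⊤) := H87.isComm_fix le_rfl
  have hz : H32.classSum F g ∈ H87.fix F (⊤ : Subgroup G) ⊤ :=
    H32.mem_fix_top_iff.2 (H32.classSum_mem_Zc g)
  have hQ : IsPGroup p (pCore p G) := H22.isPGroup_pCore
  have h0 : H87.Br (pCore p G) (H32.classSum F g) = 0 := H87.Br_eq_zero_iff.2 fun x hx =>
    H32.coeff_classSum_of_not_isConj fun h => hg x h hx
  rw [← mul_one (H32.classSum F g), ← H87.sum_prims hS, Finset.mul_sum]
  refine Commute.isNilpotent_sum (fun e he => ?_) (fun e e' he he' => ?_)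
  · have he' := (H87.mem_prims hS).1 he
    rcases he'.local hS hz with h | ⟨u, hu, h⟩
    · exact h
    · exfalso
      apply he'.ne_zero
      refine H87.eq_zero_of_Br_eq_zero hQ he'.idem (he'.mem.2.mono le_top) ?_ ?_
      · rw [show H87.No (pCore p G) = ⊤ from Subgroup.normalizer_eq_top _]
        exact H87.supp_top e
      · rw [← h, H87.Br_mul hQ (hz.2.mono le_top) (hu.2.mono le_top), h0, zero_mul]
  · exact H32.Zc_comm (H32.mem_fix_top_iff.1 (mul_mem hz ((H87.mem_prims hS).1 he).mem)) _

end Cfsg.Agent.S0905
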