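import Cfsg.Statements.S0930
import Cfsg.Agent.H33.DefConj
import Cfsg.Agent.S0927
import Cfsg.Agent.S0929

set_option autoImplicit false
open Cfsg

namespace Cfsg.Agent.S0930

/-- Let H be a subgroup of the finite group G and fix a maximal ideal M of the algebraic integers containing the prime p. If the block b of H with defect group D induces the block B of G with defect group P, then every element of the centre of P is conjugate in G to an element of the centre of D. -/
theorem result {G : Type*} [Group G] [Finite G] (p : ℕ) [Fact p.Prime] (M : Ideal Cfsg.AlgInt) (hM : Cfsg.IsPModular p M) (H : Subgroup G) (b : Set (Cfsg.IrrCharacter H)) (B : Set (Cfsg.IrrCharacter G)) (hind : Cfsg.IsInducedBlock M H b B) (D : Subgroup H) (hD : Cfsg.IsDefectGroup p M b D) (P : Subgroup G) (hP : Cfsg.IsDefectGroup p M B P) (x : G) (hx : x ∈ P) (hxc : ∀ w ∈ P, x * w = w * x) : ∃ g : G, g * x * g⁻¹ ∈ D.map H.subtype ∧ ∀ w ∈ D.map H.subtype, (g * x * g⁻¹) * w = w * (g *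 x * g⁻¹) := by
  classical
  have := hM.2.1
  have := Fintype.ofFinite H
  obtain ⟨y, hy, S, rfl⟩ := hP
  obtain ⟨c, hc, rfl⟩ := hx
  obtain ⟨χ, hχ⟩ := H33.block_nonempty hind.2.1
  obtain ⟨ξ, hξ⟩ := H33.block_nonempty hind.1
  have h1 := (S0927.result p M hM B hind.2.1 y hy S c hc).2
    (fun w hw => Subtype.ext (hxc w ⟨w, hw, rfl⟩)) χ hχ
  have h2 := (H32.mem_locMax_iff_of_sub_mem (hind.2.2 ξ hξ χ hχ (c * y))).not.mpr h1
  rw [H33.inducedCentralChar_eq_om] at h2
  obtain ⟨h, hfh, hξh⟩ := H33.exists_class_of_om_notMem ξ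
    (H33.isClassFunction_restrict (H5.isClassFunction_indicator_isConj _) H) (fun h => by
    split_ifs
    · exact one_mem _
    · exact zero_mem _) h2
  have h4 : IsConj ((c : G) * y) (h : G) := by
    by_contra hn
    exact hfh (by simp only [if_neg hn]; exact zero_mem _)
  obtain ⟨w, hhw, -, hw⟩ := S0929.result p M hM b hind.1 D hD h ⟨ξ, hξ, hξh⟩
  obtain ⟨z, hz⟩ := H33.exists_isPPart hM.1 w
  have hcp : ∃ k, orderOf (c : G) = p ^ k := by
    obtain ⟨k, hk⟩ := IsPGroup.iff_orderOf.mp S.isPGroup' ⟨c, hc⟩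
    exact ⟨k, by rw [Subgroup.orderOf_coe, ← hk]; exact Subgroup.orderOf_coe ⟨c, hc⟩⟩
  have h5 : IsConj (c : G) (z : G) := H33.IsPPart.isConj hM.1
    (H33.isPPart_mul (Subgroup.mem_centralizer_singleton_iff.mp c.2) hcp
      (H33.IsDefectClass.regular hM hind.2.1 hy)) (H33.isPPart_coe_iff.mpr hz)
    (h4.trans (H.subtype.map_isConj hhw))
  obtain ⟨g, hg⟩ := isConj_iff.mp h5
  refine ⟨g, ?_⟩
  rw [Subgroup.subtype_apply, hg]
  refine ⟨⟨z, (hw z hz).1, rfl⟩, ?_⟩
  rintro _ ⟨v, hv, rfl⟩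
  exact congrArg Subtype.val ((hw z hz).2 v hv)

end Cfsg.Agent.S0930
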