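import Cfsg.Statements.S0931
import Cfsg.Agent.H33.DefConj
import Cfsg.Agent.S0930
import Cfsg.Agent.S0917

set_option autoImplicit false
open Cfsg

namespace Cfsg.Agent.S0931

/-- Let H be a subgroup of the finite group G and fix a maximal ideal M of the algebraic integers containing the prime p. If the block b of H induces the block B of G, then b has defect 0 if and only if B has defect 0. -/
theorem result {G : Type*} [Group G] [Finite G] (p : ℕ) [Fact p.Prime] (M : Ideal Cfsg.AlgInt) (hM : Cfsg.IsPModular p M) (H : Subgroup G) (b : Set (Cfsg.IrrCharacter H)) (B : Set (Cfsg.IrrCharacter G)) (hind : Cfsg.IsInducedBlock M H b B) : Cfsg.blockDefect p b = 0 ↔ Cfsg.blockDefect p B = 0 := by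
  have := hM.2.1
  obtain ⟨D, hD⟩ := H33.exists_defectGroup hM hind.1
  obtain ⟨E, hE, hDE⟩ := S0917.result p M hM H b hind.1 B hind.2.1 hind D hD
  rw [← H33.defectGroup_eq_bot_iff hM hind.1 hD, ← H33.defectGroup_eq_bot_iff hM hind.2.1 hE]
  constructor
  · rintro rfl
    by_contra hE1
    have : Nontrivial E := (Subgroup.nontrivial_iff_ne_bot E).mpr hE1
    have := (H34.IsDefectGroup.isPGroup hE).center_nontrivial
    obtain ⟨⟨x, hx⟩, hx1⟩ := exists_ne (1 : Subgroup.center E)
    obtain ⟨g, hg, -⟩ := S0930.result p M hM H b B hind ⊥ hD E hE x x.2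
      (fun w hw => (congrArg Subtype.val (Subgroup.mem_center_iff.mp hx ⟨w, hw⟩)).symm)
    rw [Subgroup.map_bot, Subgroup.mem_bot, conj_eq_one_iff] at hg
    exact hx1 (Subtype.ext (Subtype.ext hg))
  · rintro rfl
    rwa [le_bot_iff, Subgroup.map_eq_bot_iff_of_injective _ H.subtype_injective] at hDE

end Cfsg.Agent.S0931
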