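import Cfsg.Statements.S0934
import Cfsg.Agent.H33.Cong

set_option autoImplicit false
open Cfsg

namespace Cfsg.Agent.S0934

/-- Let H be a subgroup of the finite group G and fix a maximal ideal M of the algebraic integers containing the prime p. If the block b of H induces the block B of G and ξ ∈ b, then there is χ ∈ B whose restriction to H has nonzero inner product with ξ. -/
theorem result {G : Type*} [Group G] [Fintype G] (p : ℕ) [Fact p.Prime] (M : Ideal Cfsg.AlgInt) (hM : Cfsg.IsPModular p M) (H : Subgroup G) [Fintype H] (b : Set (Cfsg.IrrCharacter H)) (B : Set (Cfsg.IrrCharacter G)) (hind : Cfsg.IsInducedBlock M H b B) (ξ : Cfsg.IrrCharacter H) (hξ : ξ ∈ b) : ∃ χ ∈ B, Cfsg.classInner (fun h : H => (χ : G → ℂ) h) (ξ : H → ℂ) ≠ 0 := by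
  classical
  have := hM.2.1
  obtain ⟨χ₀, hχ₀⟩ := H33.block_nonempty hind.2.1
  have h1 := H33.om_induced hind hξ hχ₀ (H33.blockCoeff_conj B)
    (H33.blockCoeff_mem_locRing hM hind.2.1)
  rw [H33.om_blockCoeff_of_mem hχ₀] at h1
  have h2 := H32.ne_zero_of_not_mem_locMax (H32.not_mem_locMax_of_sub_one_mem h1)
  by_contra hn
  push Not at hn
  apply h2
  have hH : (Nat.card H : ℂ) ≠ 0 := H5.natCard_ne_zero
  have h3 : ∀ χ ∈ B, ∑ h : H, (starRingEnd ℂ) ((χ : G → ℂ) h) * (ξ : H → ℂ) h = 0 := by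
    intro χ hχ
    have := congrArg (starRingEnd ℂ) (hn χ hχ)
    rw [H5.conj_classInner, map_zero, classInner] at this
    simpa only [mul_comm] using (mul_eq_zero.mp this).resolve_left (inv_ne_zero hH)
  rw [H33.om]
  simp only [H33.blockCoeff_eq_sum, Finset.mul_sum, Finset.sum_mul]
  rw [Finset.sum_comm, Finset.sum_eq_zero, zero_div]
  intro χ hχ
  have := h3 χ (Finset.mem_filter.mp hχ).2
  simp only [mul_assoc, ← Finset.mul_sum, this, mul_zero]

end Cfsg.Agent.S0934
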