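import Cfsg.Statements.S0937
import Cfsg.Agent.H33.Height

set_option autoImplicit false
open Cfsg

namespace Cfsg.Agent.S0937

/-- Let H be a subgroup of the finite group G and fix a maximal ideal M of the algebraic integers containing the prime p. If the block b of H induces the block B of G and χ ∈ B has height zero, then there is ξ ∈ b of height zero whose multiplicity in the restriction of χ to H is a natural number not divisible by p. -/
theorem result {G : Type*} [Group G] [Fintype G] (p : ℕ) [Fact p.Prime] (M : Ideal Cfsg.AlgInt) (hM : Cfsg.IsPModular p M) (H : Subgroup G) [Fintype H] (b : Set (Cfsg.IrrCharacter H)) (B : Set (Cfsg.IrrCharacter G)) (hind : Cfsg.IsInducedBlock M H b B) (χ : Cfsg.IrrCharacter G) (hχ : χ ∈ B) (h0 : Cfsg.blockHeight p B (χ : G → ℂ) = 0) : ∃ ξ ∈ b, Cfsg.blockHeight p b (ξ : H → ℂ) = 0 ∧ ∃ n : ℕ, Cfsg.classInner (fun h : H => (χ : G → ℂ) h) (ξ : H → ℂ) = (n : ℂ) ∧ ¬ p ∣ n := by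
  classical
  have := hM.2.1
  obtain ⟨ξ₀, hξ₀⟩ := H33.block_nonempty hind.1
  have hχc := H5.isCharacter_of_isIrr χ.2
  have h1 := H33.om_induced hind hξ₀ hχ
    (H33.cReg_isClassFunction (p := p) (H5.isClassFunction_of_isIrr χ.2))
    (H33.cReg_mem_locRing hχc)
  rw [H33.cReg_restrict] at h1
  have h2 := (H32.mem_locMax_iff_of_sub_mem h1).not.mpr
    (H33.om_cReg_notMem_of_height_zero hM hind.2.1 hχ h0 hχ)
  have hres := H5.isCharacter_restrict hχc H
  choose n hn using fun ξ : IrrCharacter H =>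
    H5.exists_nat_classInner hres (H5.isCharacter_of_isIrr ξ.2)
  have h3 : H33.om (ξ₀ : H → ℂ) (H33.cReg p fun h : H => (χ : G → ℂ) h) =
      ∑ ξ : IrrCharacter H, (n ξ : ℂ) * H33.om (ξ₀ : H → ℂ) (H33.cReg p (ξ : H → ℂ)) := by
    simp only [H33.om_eq_sum, Finset.mul_sum]
    rw [Finset.sum_comm]
    refine Finset.sum_congr rfl fun h _ => ?_
    simp only [H33.cReg]
    split_ifs
    · simp
    · rw [H5.classFunction_apply_eq_sum (H5.isClassFunction_of_isCharacter hres) h⁻¹,
        Finset.sum_mul]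
      exact Finset.sum_congr rfl fun ξ _ => by rw [hn]; ring
  by_contra hcon
  push Not at hcon
  apply h2
  rw [h3]
  refine Submodule.sum_mem _ fun ξ _ => ?_
  have hR := H33.om_mem_locRing (M := M) ξ₀
    (H33.cReg_isClassFunction (p := p) (H5.isClassFunction_of_isIrr ξ.2))
    (H33.cReg_mem_locRing (H5.isCharacter_of_isIrr ξ.2))
  by_cases h4 : H33.om (ξ₀ : H → ℂ) (H33.cReg p (ξ : H → ℂ)) ∈ H32.locMax M
  · exact H32.mul_mem_locMax_left (natCast_mem _ _) h4
  · obtain ⟨h5, h6⟩ := (H33.om_cReg_notMem_iff hM hind.1 hξ₀).mp h4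
    exact H32.mul_mem_locMax_right
      ((H32.natCast_mem_locMax_iff hM).mpr (hcon ξ h5 h6 _ (hn ξ))) hR

end Cfsg.Agent.S0937
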