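import Cfsg.Statements.S0946
import Cfsg.Agent.H33.ThreeInv

set_option autoImplicit false
open Cfsg

namespace Cfsg.Agent.S0946

/-- Let P be a Sylow 2-subgroup of the finite group G isomorphic to Z/2^m × Z/2^m with m ≥ 1. Then either P has a normal complement in G, or all involutions of G are conjugate. -/
theorem result {G : Type*} [Group G] [Finite G] (P : Sylow 2 G) (m : ℕ) (hm : 1 ≤ m) (e : (P : Subgroup G) ≃* Multiplicative (ZMod (2 ^ m) × ZMod (2 ^ m))) : (∃ N : Subgroup G, N.Normal ∧ Subgroup.IsComplement' N (P : Subgroup G)) ∨ ∀ s t : G, orderOf s = 2 → orderOf t = 2 → IsConj s t := by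
  have hab : ∀ a ∈ P, ∀ b ∈ P, a * b = b * a := fun a ha b hb =>
    congrArg Subtype.val (e.injective (by rw [map_mul, map_mul, mul_comm]) :
      (⟨a, ha⟩ * ⟨b, hb⟩ : (P : Subgroup G)) = ⟨b, hb⟩ * ⟨a, ha⟩)
  have h := H33.three_involutions P hab (H33.card_involutions_homocyclic _ m hm e)
  by_cases h1 : (Subgroup.centralizer (P : Set G)).relIndex (Subgroup.normalizer (P : Set G)) = 1
  · left
    exact ⟨_, MonoidHom.normal_ker _,
      MonoidHom.ker_transferSylow_isComplement' P (Subgroup.relIndex_eq_one.mp h1)⟩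
  · right
    have key : ∀ s : G, orderOf s = 2 → ∃ s' ∈ P, orderOf s' = 2 ∧ IsConj s s' := by
      intro s hs
      have hp : IsPGroup 2 (Subgroup.zpowers s) :=
        IsPGroup.of_card (n := 1) (by rw [Nat.card_zpowers, hs, pow_one])
      obtain ⟨Q, hQ⟩ := hp.exists_le_sylow
      obtain ⟨g, rfl⟩ := MulAction.exists_smul_eq G P Q
      have := hQ (Subgroup.mem_zpowers s)
      refine ⟨g⁻¹ * s * g⁻¹⁻¹, ?_, ?_, isConj_iff.mpr ⟨_, rfl⟩⟩
      · rw [Sylow.coe_subgroup_smul, Subgroup.mem_pointwise_smul_iff_inv_smul_mem] at this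
        have h2 : g⁻¹ * s * g⁻¹⁻¹ ∈ (P : Subgroup G) := by simpa using this
        exact h2
      · exact (SemiconjBy.orderOf_eq g⁻¹ (by simp [SemiconjBy])).symm.trans hs
    intro s t hs ht
    obtain ⟨s', hs', hs2, hss⟩ := key s hs
    obtain ⟨t', ht', ht2, htt⟩ := key t ht
    exact (hss.trans (h.2.2 h1 s' hs' t' ht' hs2 ht2)).trans htt.symm

end Cfsg.Agent.S0946
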