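import Cfsg.Statements.S0966
import Cfsg.Agent.H34.Cover
import Cfsg.Agent.H3.PResidual

set_option autoImplicit false
open Cfsg

namespace Cfsg.Agent.S0966

/-- Let N be a normal subgroup of p-power index in the finite group G and b a block of N relative to a maximal ideal M of the algebraic integers containing p. Then there is exactly one block B of G containing a character whose restriction to N has a constituent in b. -/
theorem result {G : Type*} [Group G] [Fintype G] (p : ℕ) [Fact p.Prime] (M : Ideal Cfsg.AlgInt) (hM : Cfsg.IsPModular p M) (N : Subgroup G) [N.Normal] [Fintype N] (hidx : ∃ k : ℕ, N.index = p ^ k) (b : Set (Cfsg.IrrCharacter N)) (hb : Cfsg.IsPBlock M b) : ∃! B : Set (Cfsg.IrrCharacter G), Cfsg.IsPBlock M B ∧ ∃ χ ∈ B, ∃ θ ∈ b, Cfsg.classInner (fun n : N => (χ : G → ℂ) n) (θ : N → ℂ) ≠ 0 := by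
  have := hM.2.1
  obtain ⟨B, hB, h⟩ := H34.exists_covers (M := M) N.subtype_injective (H34.IsPBlock.nonempty hb)
  refine ⟨B, ⟨hB, h⟩, fun B' ⟨hB', h'⟩ => ?_⟩
  refine H34.Covers.eq_of_supp (E := H34.NEmb.ofNormal N) hM hB' hB hb h' h fun g hg => ?_
  obtain ⟨k, hk⟩ := hidx
  have h1 := H34.regular_of_blockCoeff_not_mem hM hB' hg
  exact ⟨⟨g, H3.pResidual_le_of_index_eq_pow N hk (H3.mem_pResidual_of_coprime
    ((Nat.Prime.coprime_iff_not_dvd hM.1).mpr h1).symm)⟩, rfl⟩

end Cfsg.Agent.S0966
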