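import Cfsg.Statements.S0954
import Cfsg.Agent.H34.Cover
import Cfsg.Agent.S0966

set_option autoImplicit false
open Cfsg

namespace Cfsg.Agent.S0954

/-- Let N be a normal subgroup of the finite group G of order prime to p and of p-power index (a normal p-complement), and fix a maximal ideal M of the algebraic integers containing p. Then two irreducible characters χ, ψ of G lie in the same block if and only if some irreducible character of N has nonzero inner product with both the restriction of χ and the restriction of ψ. -/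
theorem result {G : Type*} [Group G] [Fintype G] (p : ℕ) [Fact p.Prime] (M : Ideal Cfsg.AlgInt) (hM : Cfsg.IsPModular p M) (N : Subgroup G) [N.Normal] [Fintype N] (hN : ¬ p ∣ Nat.card N) (hidx : ∃ k : ℕ, N.index = p ^ k) (χ ψ : Cfsg.IrrCharacter G) : Cfsg.SameBlock M (χ : G → ℂ) (ψ : G → ℂ) ↔ ∃ θ : Cfsg.IrrCharacter N, Cfsg.classInner (fun n : N => (χ : G → ℂ) n) (θ : N → ℂ) ≠ 0 ∧ Cfsg.classInner (fun n : N => (ψ : G → ℂ) n) (θ : N → ℂ) ≠ 0 := by
  have := hM.2.1
  constructor
  · intro h
    obtain ⟨θ, hθ⟩ := H34.exists_under N.subtype χ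
    have h1 := H34.Covers.subset_overSet (E := H34.NEmb.ofNormal N) hM (H34.isPBlock_blockOf χ)
      (H34.IsPBlock.closed (H34.isPBlock_blockOf θ))
      ⟨χ, H34.mem_blockOf_self χ, θ, H34.mem_blockOf_self θ, hθ⟩ h
    rw [H34.blockOf_eq_singleton_of_not_dvd hM hN] at h1
    obtain ⟨_, rfl, h2⟩ := h1
    exact ⟨_, hθ, h2⟩
  · rintro ⟨θ, h1, h2⟩
    have h3 := (S0966.result p M hM N hidx _ (H34.isPBlock_blockOf θ)).unique
      ⟨H34.isPBlock_blockOf χ, χ, H34.mem_blockOf_self χ, θ, H34.mem_blockOf_self θ, h1⟩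
      ⟨H34.isPBlock_blockOf ψ, ψ, H34.mem_blockOf_self ψ, θ, H34.mem_blockOf_self θ, h2⟩
    have h4 : ψ ∈ blockOf M (χ : G → ℂ) := h3 ▸ H34.mem_blockOf_self ψ
    exact h4

end Cfsg.Agent.S0954
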