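import Cfsg.Statements.S0956
import Cfsg.Agent.H34.Robinson2
import Cfsg.Agent.H34.Root

set_option autoImplicit false
open Cfsg

namespace Cfsg.Agent.S0956

open H87 H34

theorem dvd_sum_of_invariant {S X : Type*} [Group S] [Finite S] [MulAction S X] [Fintype X]
    (g : X → ℕ) (hg : ∀ (s : S) x, g (s • x) = g x) (m : ℕ)
    (h : ∀ x, m ∣ (MulAction.stabilizer S x).index * g x) : m ∣ ∑ x, g x := by
  classical
  rw [← Finset.sum_fiberwise (s := Finset.univ)
    (g := (Quotient.mk (MulAction.orbitRel S X)))]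
  refine Finset.dvd_sum fun q _ => ?_
  obtain ⟨x, rfl⟩ := Quotient.exists_rep q
  have h1 : ∀ y, Quotient.mk (MulAction.orbitRel S X) y = Quotient.mk _ x ↔
      y ∈ MulAction.orbit S x := fun y => Quotient.eq
  rw [Finset.sum_congr rfl (g := fun _ => g x), Finset.sum_const, smul_eq_mul]
  · have := h x
    rw [MulAction.index_stabilizer, ← Nat.card_coe_set_eq, Nat.card_eq_fintype_card,
      Fintype.card_subtype] at this
    simp only [h1]
    exact this
  · intro y hy
    obtain ⟨s, rfl⟩ := (h1 y).mp (Finset.mem_filter.mp hy).2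
    exact hg s x

theorem dvd_cnt {G : Type*} [Group G] [Finite G] {p : ℕ} [Fact p.Prime] {D S : Subgroup G}
    [hDn : D.Normal] (hS : IsPGroup p S) (hDS : D ≤ S) {y z : G} (hy : SylIn p D (Cg y))
    (hz : SylIn p D (Cg z)) (h : ∀ x, IsConj y x → S ⊓ cjS x S ≠ D) :
    D.relIndex S * p ∣ cnt S y z := by
  classical
  have := Fintype.ofFinite G
  have hcj : ∀ x, cjS x D = D := fun x =>
    mem_No_iff_cjS.mp (by rw [No, Subgroup.normalizer_eq_top]; trivial)
  have key : ∀ {y x : G}, SylIn p D (Cg y) → IsConj y x → SylIn p D (Cg x) := by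
    intro y x hy h
    obtain ⟨c, rfl⟩ := isConj_iff.mp h
    rw [← cjS_Cg, ← hcj c]
    exact hy.cj c
  let _ : MulAction S G := MulAction.compHom G ((MulAut.conj (G := G)).comp S.subtype)
  have hsm : ∀ (s : S) (x : G), s • x = s * x * (s : G)⁻¹ := fun _ _ => rfl
  rw [cnt_eq_sum_card]
  refine dvd_sum_of_invariant (S := S) _ (fun s x => ?_) _ fun x => ?_
  · have h1 : IsConj y (s • x) ↔ IsConj y x :=
      ⟨fun h => h.trans (isConj_iff.mpr ⟨(s : G), rfl⟩ : IsConj x (s • x)).symm,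
        fun h => h.trans (isConj_iff.mpr ⟨(s : G), rfl⟩)⟩
    refine if_congr h1 (Finset.card_equiv (MulAut.conj (s : G)).symm.toEquiv fun w => ?_) rfl
    simp only [Finset.mem_filter, Finset.mem_univ, true_and, hsm, MulEquiv.toEquiv_eq_coe,
      EquivLike.coe_coe, MulAut.conj_symm_apply]
    refine and_congr ⟨fun h => h.trans (isConj_iff.mpr ⟨(s : G)⁻¹, by simp⟩),
      fun h => h.trans (isConj_iff.mpr ⟨s, by simp [mul_assoc]⟩)⟩ ?_
    have : (s : G)⁻¹ * w * s * x⁻¹ = (s : G)⁻¹ * (w * ((s : G) * x * (s : G)⁻¹)⁻¹) * s := by group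
    rw [this, S.mul_mem_cancel_right s.2, S.mul_mem_cancel_left (S.inv_mem s.2)]
  · split_ifs with hx
    · have h1 : MulAction.stabilizer S x = D.subgroupOf S := by
        have h2 : S ⊓ Cg x = D := (key hy hx).max _ (le_inf hDS (key hy hx).le) inf_le_right
          (hS.to_le inf_le_left)
        ext s
        rw [MulAction.mem_stabilizer_iff, hsm, Subgroup.mem_subgroupOf, ← h2, Subgroup.mem_inf,
          Subgroup.mem_centralizer_singleton_iff, mul_inv_eq_iff_eq_mul]
        exact ⟨fun h => ⟨s.2, h⟩, fun h => h.2⟩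
      rw [h1]
      refine Nat.mul_dvd_mul_left _ ?_
      refine dvd_card_of_no_fixed (P := S ⊓ cjS x⁻¹ S) (hS.to_le inf_le_left)
        (fun u w => u * w * u⁻¹) (by simp) (fun _ _ _ => by group) _ (fun u hu w hw => ?_)
        fun w hw => ?_
      · rw [Finset.mem_filter] at hw ⊢
        refine ⟨Finset.mem_univ _, hw.2.1.trans (isConj_iff.mpr ⟨u, rfl⟩), ?_⟩
        have h2 := mem_cjS.mp hu.2
        have : u * w * u⁻¹ * x⁻¹ = u * (w * x⁻¹) * (x⁻¹⁻¹ * u * x⁻¹)⁻¹ := by group
        rw [this]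
        exact S.mul_mem (S.mul_mem hu.1 hw.2.2) (S.inv_mem h2)
      · by_contra! hfix
        have h2 := key hz (Finset.mem_filter.mp hw).2.1
        have h3 : S ⊓ cjS x⁻¹ S = D := h2.max _ (le_inf hDS (by
          rw [← hcj x⁻¹]; exact cjS_mono _ hDS)) (fun u hu =>
            Subgroup.mem_centralizer_singleton_iff.mpr (mul_inv_eq_iff_eq_mul.mp (hfix u hu)))
          (hS.to_le inf_le_left)
        refine h x hx ?_
        rw [← hcj x, ← h3, cjS_inf, cjS_cjS_inv, inf_comm]
    · simp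

theorem normal_case {G : Type*} [Group G] [Finite G] {p : ℕ} [Fact p.Prime] {M : Ideal AlgInt}
    (hM : IsPModular p M) {B : Set (IrrCharacter G)} (hB : IsPBlock M B) {D S : Subgroup G}
    [hDn : D.Normal] (hD : IsDefectGroup p M B D) (hS : SylIn p S ⊤) :
    ∃ x, ¬ p ∣ orderOf x ∧ SylIn p D (Cg x) ∧ S ⊓ cjS x S = D := by
  classical
  have := hM.2.1
  by_contra hne
  have hDp := IsDefectGroup.isPGroup hD
  have hDS : D ≤ S := hS.normal_le hDp le_top (by rw [No, Subgroup.normalizer_eq_top])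
  have hcj : ∀ x, cjS x D = D := fun x =>
    mem_No_iff_cjS.mp (by rw [No, Subgroup.normalizer_eq_top]; trivial)
  let ι := {C : ConjClasses G // ∃ x, ConjClasses.mk x = C ∧ ¬ p ∣ orderOf x ∧ SylIn p D (Cg x)}
  have := Fintype.ofFinite ι
  choose r h1 h2 h3 using fun i : ι => i.2
  have h4 := card_blocks_eq_rank hM hS (K := fun i : ι => i.1) Subtype.val_injective r h1 h3
    (fun g hg hg' => ⟨⟨_, g, rfl, hg, hg'⟩, rfl⟩) hDp
  have h5 : (Matrix.of fun i j : ι => ((cnt S (r i) (r j) / D.relIndex S : ℕ) : ZMod p)) = 0 := by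
    ext i j
    rw [Matrix.of_apply, Matrix.zero_apply, ZMod.natCast_eq_zero_iff]
    refine Nat.dvd_div_of_mul_dvd (dvd_cnt hS.pgp hDS (h3 i) (h3 j) fun x hx he => hne ?_)
    obtain ⟨c, rfl⟩ := isConj_iff.mp hx
    refine ⟨_, ?_, ?_, he⟩
    · rw [show orderOf (c * r i * c⁻¹) = _ from MulEquiv.orderOf_eq (MulAut.conj c) _]; exact h2 i
    · rw [← cjS_Cg, ← hcj c]; exact (h3 i).cj c
  rw [h5, Matrix.rank_zero] at h4
  have : Nonempty {B : Set (IrrCharacter G) // IsPBlock M B ∧ IsDefectGroup p M B D} :=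
    ⟨⟨B, hB, hD⟩⟩
  exact Nat.card_pos.ne' h4

/-- Let D be a defect group of a block of the finite group G (relative to a maximal ideal M of the algebraic integers containing the prime p) and P a Sylow p-subgroup containing D. Then there is an element x of order prime to p such that D is a Sylow p-subgroup of the centralizer of x and D = P ∩ x P x⁻¹. -/
theorem result {G : Type*} [Group G] [Finite G] (p : ℕ) [Fact p.Prime] (M : Ideal Cfsg.AlgInt) (hM : Cfsg.IsPModular p M) (B : Set (Cfsg.IrrCharacter G)) (hB : Cfsg.IsPBlock M B) (D : Subgroup G) (hD : Cfsg.IsDefectGroup p M B D) (P : Sylow p G) (hDP : D ≤ P) : ∃ x : G, ¬ p ∣ orderOf x ∧ (∃ S : Sylow p (Subgroup.centralizer ({x} : Set G)), (S : Subgroup (Subgroup.centralizer ({x} : Set G))).map (Subgroup.centralizer ({x} : Set G)).subtype = D) ∧ (P : Subgroup G) ⊓ (P : Subgroup G).map (MulAut.conj x).toMonoidHom = D := by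
  have := hM.2.1
  have hDp := IsDefectGroup.isPGroup hD
  obtain ⟨c, hc, hcB⟩ := exists_indBlk_No hM hB hD
  have hn : (D.subgroupOf (No D)).Normal := normal_subgroupOf_of_le_No le_rfl
  obtain ⟨S, hS, hPS⟩ := exists_sylIn (p := p) (R := (P : Subgroup G).subgroupOf (No D)) (K := ⊤)
    P.isPGroup'.comap_subtype le_top
  obtain ⟨x, h1, h2, h3⟩ := normal_case hM hcB.1 hc hS
  have h4 := SylIn.map h2 (No D).subtype
  rw [Subgroup.subgroupOf_map_subtype, inf_eq_left.mpr Subgroup.le_normalizer] at h4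
  have h5 : (Cg x).map (No D).subtype = Cg (x : G) ⊓ No D := by
    refine le_antisymm (le_inf (map_Cg_le _ x) (Subgroup.map_subtype_le _)) fun g hg =>
      ⟨⟨g, hg.2⟩, Subgroup.mem_centralizer_singleton_iff.mpr
        (Subtype.ext (Subgroup.mem_centralizer_singleton_iff.mp hg.1)), rfl⟩
  rw [h5] at h4
  have h6 := sylIn_of_No h4
  obtain ⟨Q, hQ⟩ := sylIn_iff.mp h6
  refine ⟨x, by rwa [Subgroup.orderOf_coe], ⟨Q, hQ.symm⟩, ?_⟩
  have h7 : D ≤ (P : Subgroup G) ⊓ cjS x P := le_inf hDP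
    ((mem_No_iff_cjS.mp x.2).ge.trans (cjS_mono _ hDP))
  by_contra hne
  refine (lt_inf_No (P.isPGroup'.to_le inf_le_left) (lt_of_le_of_ne h7 (Ne.symm hne))).not_ge
    fun g hg => ?_
  have h8 : (⟨g, hg.2⟩ : No D) ∈ S ⊓ cjS x S :=
    ⟨hPS hg.1.1, mem_cjS.mpr (hPS (mem_cjS (G := G).mp hg.1.2))⟩
  rw [h3] at h8
  exact h8

end Cfsg.Agent.S0956
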