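import Cfsg.Statements.S0957
import Mathlib.GroupTheory.GroupAction.Quotient
import Mathlib.Tactic

set_option autoImplicit false
open Cfsg

namespace Cfsg.Agent.S0957

/-- If a finite group acts on a finite set and `n` divides the index of every point stabilizer,
then `n` divides the size of the set. -/
theorem dvd_card_of_dvd_index_stabilizer {P X : Type*} [Group P] [Finite X] [MulAction P X]
    (n : ℕ) (h : ∀ x : X, n ∣ (MulAction.stabilizer P x).index) : n ∣ Nat.card X := by
  classical
  have := Fintype.ofFinite X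
  have := Fintype.ofFinite (MulAction.orbitRel.Quotient P X)
  rw [Nat.card_congr (MulAction.selfEquivSigmaOrbits P X), Nat.card_sigma]
  refine Finset.dvd_sum fun q _ => ?_
  have h1 := MulAction.index_stabilizer P q.out
  have h2 := h q.out
  rw [h1] at h2
  rwa [Nat.card_coe_set_eq]

/-- Let P be a Sylow p-subgroup of the finite group G, let g, h ∈ G and let p ^ d be the order of a Sylow p-subgroup of the centralizer of g. Then the number of pairs (y, z) with y conjugate to g, z conjugate to h and z * y⁻¹ ∈ P is divisible by the order of P divided by p ^ d. -/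
theorem result {G : Type*} [Group G] [Finite G] (p : ℕ) [Fact p.Prime] (P : Sylow p G) (g h : G) (S : Sylow p (Subgroup.centralizer ({g} : Set G))) : Nat.card P / Nat.card S ∣ Nat.card {yz : G × G // IsConj g yz.1 ∧ IsConj h yz.2 ∧ yz.2 * yz.1⁻¹ ∈ (P : Subgroup G)} := by
  classical
  let X := {yz : G × G // IsConj g yz.1 ∧ IsConj h yz.2 ∧ yz.2 * yz.1⁻¹ ∈ (P : Subgroup G)}
  let act : MulAction (P : Subgroup G) X :=
    { smul := fun u x => ⟨((u : G) * x.1.1 * (u : G)⁻¹, (u : G) * x.1.2 * (u : G)⁻¹),
        x.2.1.trans (isConj_iff.mpr ⟨u, rfl⟩), x.2.2.1.trans (isConj_iff.mpr ⟨u, rfl⟩), by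
          have : (u : G) * x.1.2 * (u : G)⁻¹ * ((u : G) * x.1.1 * (u : G)⁻¹)⁻¹
              = u * (x.1.2 * x.1.1⁻¹) * (u : G)⁻¹ := by group
          rw [this]
          exact (P : Subgroup G).mul_mem ((P : Subgroup G).mul_mem u.2 x.2.2.2)
            ((P : Subgroup G).inv_mem u.2)⟩
      one_smul := fun x => Subtype.ext (by
        change ((((1 : (P : Subgroup G)) : G) * x.1.1 * ((1 : (P : Subgroup G)) : G)⁻¹,
          ((1 : (P : Subgroup G)) : G) * x.1.2 * ((1 : (P : Subgroup G)) : G)⁻¹) : G × G) = x.1
        simp)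
      mul_smul := fun u v x => Subtype.ext (by
        change ((((u * v : (P : Subgroup G)) : G) * x.1.1 * ((u * v : (P : Subgroup G)) : G)⁻¹,
          ((u * v : (P : Subgroup G)) : G) * x.1.2 * ((u * v : (P : Subgroup G)) : G)⁻¹) : G × G)
          = ((u : G) * ((v : G) * x.1.1 * (v : G)⁻¹) * (u : G)⁻¹,
            (u : G) * ((v : G) * x.1.2 * (v : G)⁻¹) * (u : G)⁻¹)
        simp [mul_assoc]) }
  refine dvd_card_of_dvd_index_stabilizer (P := (P : Subgroup G)) _ fun x => ?_
  set T := MulAction.stabilizer (P : Subgroup G) x with hT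
  obtain ⟨c, hc⟩ := isConj_iff.mp x.2.1
  -- the stabilizer embeds into the centralizer of g
  let f : T →* Subgroup.centralizer ({g} : Set G) :=
    { toFun := fun t => ⟨c⁻¹ * (t : G) * c, by
        have ht : ((t : (P : Subgroup G)) : G) * x.1.1 * ((t : (P : Subgroup G)) : G)⁻¹ = x.1.1 :=
          congrArg (fun y : X => y.1.1) t.2
        rw [Subgroup.mem_centralizer_singleton_iff]
        rw [← hc] at ht
        have : ((t : (P : Subgroup G)) : G) * (c * g * c⁻¹) = c * g * c⁻¹ * (t : (P : Subgroup G)) := by
          rw [← ht]; rw [ht]; exact (mul_inv_eq_iff_eq_mul.mp ht)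
        calc c⁻¹ * (t : G) * c * g = c⁻¹ * (((t : (P : Subgroup G)) : G) * (c * g * c⁻¹)) * c := by group
          _ = g * (c⁻¹ * (t : G) * c) := by rw [this]; group⟩
      map_one' := by ext; simp
      map_mul' := fun a b => by ext; simp [mul_assoc] }
  have hf : Function.Injective f := by
    intro a b hab
    have := congrArg Subtype.val hab
    simp only [f, MonoidHom.coe_mk, OneHom.coe_mk, mul_left_inj, mul_right_inj] at this
    exact Subtype.ext (Subtype.ext this)
  have hTp : IsPGroup p T := P.isPGroup'.to_subgroup T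
  obtain ⟨a, ha⟩ := IsPGroup.iff_card.mp P.isPGroup'
  obtain ⟨t, ht⟩ := IsPGroup.iff_card.mp hTp
  have hd : p ^ t ∣ Nat.card (Subgroup.centralizer ({g} : Set G)) := by
    rw [← ht]; exact Subgroup.card_dvd_of_injective f hf
  have hS : Nat.card S = p ^ (Nat.card (Subgroup.centralizer ({g} : Set G))).factorization p :=
    Sylow.card_eq_multiplicity S
  have hle : t ≤ (Nat.card (Subgroup.centralizer ({g} : Set G))).factorization p :=
    ((Fact.out : p.Prime).pow_dvd_iff_le_factorization Nat.card_pos.ne').mp hd
  set d := (Nat.card (Subgroup.centralizer ({g} : Set G))).factorization p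
  have hidx : T.index * p ^ t = p ^ a := by rw [← ht, ← ha]; exact T.index_mul_card
  have hp : 0 < p := (Fact.out : p.Prime).pos
  have hPa : Nat.card P = p ^ a := ha
  rw [hPa, hS]
  by_cases hda : d ≤ a
  · have hta : t ≤ a := hle.trans hda
    have : T.index = p ^ (a - t) := by
      have h3 : p ^ a = p ^ (a - t) * p ^ t := by rw [← pow_add, Nat.sub_add_cancel hta]
      rw [h3] at hidx
      exact Nat.eq_of_mul_eq_mul_right (pow_pos hp t) hidx
    rw [this, Nat.pow_div hda hp]
    exact pow_dvd_pow p (by omega)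
  · exfalso
    have h1 : p ^ d ∣ Nat.card G :=
      (Nat.ordProj_dvd _ p).trans (Subgroup.card_subgroup_dvd_card _)
    have h2 : Nat.card P = p ^ (Nat.card G).factorization p := Sylow.card_eq_multiplicity P
    have h3 := ((Fact.out : p.Prime).pow_dvd_iff_le_factorization Nat.card_pos.ne').mp h1
    rw [hPa] at h2
    have := Nat.pow_right_injective (Fact.out : p.Prime).two_le h2
    omega

end Cfsg.Agent.S0957
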