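import Cfsg.Statements.S0968
import Cfsg.Agent.H34.CenBlock
import Cfsg.Agent.S0133

set_option autoImplicit false
open Cfsg

namespace Cfsg.Agent.S0968

/-- Let P be a p-subgroup of the finite group G with P ⊔ C_G(P) = G, and let B be a block with defect group P relative to a maximal ideal M of the algebraic integers containing p. Then there is exactly one θ ∈ B with θ x = θ 1 for all x ∈ P; for this θ the exponent of p in θ(1) equals the exponent of p in the index of P; and the number of members of B equals the number of conjugacy classes of P. -/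
theorem result {G : Type*} [Group G] [Finite G] (p : ℕ) [Fact p.Prime] (M : Ideal Cfsg.AlgInt) (hM : Cfsg.IsPModular p M) (P : Subgroup G) (hP : IsPGroup p P) (hG : P ⊔ Subgroup.centralizer (P : Set G) = ⊤) (B : Set (Cfsg.IrrCharacter G)) (hB : Cfsg.IsPBlock M B) (hD : Cfsg.IsDefectGroup p M B P) : (∃! θ : Cfsg.IrrCharacter G, θ ∈ B ∧ ∀ x ∈ P, (θ : G → ℂ) x = (θ : G → ℂ) 1) ∧ (∀ θ ∈ B, (∀ x ∈ P, (θ : G → ℂ) x = (θ : G → ℂ) 1) → (Cfsg.charDegree (θ : G → ℂ)).factorization p = P.index.factorization p) ∧ Nat.card B = Nat.card (ConjClasses P) := by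
  have := hM.2.1
  obtain ⟨θ, h1, h2, h3, h4⟩ := H34.exists_canon hM hG hB hD
  have hBe : B = Set.range (h2.irr hM) := by rw [H34.IsPBlock.eq_blockOf hB h1, h2.blockOf_eq hM]
  have key : ∀ ψ ∈ B, (∀ x ∈ P, (ψ : G → ℂ) x = (ψ : G → ℂ) 1) →
      ψ = h2.irr hM ⟨fun _ => 1, H5.isIrrCharacter_one⟩ := by
    intro ψ hψ h
    rw [hBe] at hψ
    obtain ⟨ζ, rfl⟩ := hψ
    congr 1
    refine Subtype.ext (H5.eq_one_of_forall_eq_degree ζ.2 fun u => ?_)
    have := h u u.2
    rw [h2.irr_coe, h2.irr_one] at this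
    exact mul_right_cancel₀ (H5.degree_ne_zero θ.2) this
  have huniq : ∀ ψ ∈ B, (∀ x ∈ P, (ψ : G → ℂ) x = (ψ : G → ℂ) 1) → ψ = θ :=
    fun ψ hψ h => (key ψ hψ h).trans (key θ h1 h3).symm
  refine ⟨⟨θ, ⟨h1, h3⟩, fun ψ h => huniq ψ h.1 h.2⟩, fun ψ hψ h => by rw [huniq ψ hψ h, h4], ?_⟩
  rw [hBe, ← S0133.result, Nat.card_range_of_injective (h2.irr_injective hM)]

end Cfsg.Agent.S0968
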