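import Cfsg.Statements.S0969
import Cfsg.Agent.H34.CenBlock

set_option autoImplicit false
open Cfsg

namespace Cfsg.Agent.S0969

/-- Let D be a central p-subgroup of the finite group G and χ an irreducible character with the exponent of p in χ(1) equal to the exponent of p in the index of D; fix a maximal ideal M of the algebraic integers containing p. Then D is a defect group of the block of χ, and χ g = 0 whenever the p-part of g does not lie in D. -/
theorem result {G : Type*} [Group G] [Finite G] (p : ℕ) [Fact p.Prime] (M : Ideal Cfsg.AlgInt) (hM : Cfsg.IsPModular p M) (D : Subgroup G) (hD : IsPGroup p D) (hDZ : D ≤ Subgroup.center G) (χ : Cfsg.IrrCharacter G) (hdeg : (Cfsg.charDegree (χ : G → ℂ)).factorization p = D.index.factorization p) : Cfsg.IsDefectGroup p M (Cfsg.blockOf M (χ : G → ℂ)) D ∧ ∀ g x : G, Cfsg.IsPPart p g x → x ∉ D → (χ : G → ℂ) g = 0 := by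
  have := hM.2.1
  have := Fintype.ofFinite G
  have hG : D ⊔ H87.Ce D = ⊤ := by
    refine top_le_iff.mp (le_sup_of_le_right fun g _ => H87.mem_Ce.mpr fun q hq => ?_)
    exact (Subgroup.mem_center_iff.mp (hDZ hq) g).symm
  have h : H34.Canon p D χ :=
    ⟨hG, hD, hdeg.ge, fun u hu => H5.norm_apply_of_mem_center χ.2 (hDZ hu)⟩
  refine ⟨H34.isDefectGroup_of_normal_of_card hM (H34.isPBlock_blockOf χ)
    (H34.normal_of_sup_Ce hG) ?_, fun g x hx hxD =>
      (h.norm_eq_one_and_vanish hM).2 g (by rwa [H34.pp_eq hx])⟩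
  obtain ⟨k, hk⟩ := IsPGroup.iff_card.mp hD
  have h1 := H33.factorization_index_add_card (p := p) D
  rw [hk, hM.1.factorization_pow, Finsupp.single_eq_same] at h1
  rw [hk, H34.blockDefect_eq, h.minExp_eq hM, hdeg]
  congr 1
  omega

end Cfsg.Agent.S0969
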