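import Cfsg.Statements.S0972
import Cfsg.Agent.H34.Reynolds

set_option autoImplicit false
open Cfsg

namespace Cfsg.Agent.S0972

/-- Let B be a block of the finite group G (relative to a maximal ideal M of the algebraic integers containing the prime p) with a defect group P that is normal in G. Then P is commutative if and only if every member of B has height zero. -/
theorem result {G : Type*} [Group G] [Finite G] (p : ℕ) [Fact p.Prime] (M : Ideal Cfsg.AlgInt) (hM : Cfsg.IsPModular p M) (B : Set (Cfsg.IrrCharacter G)) (hB : Cfsg.IsPBlock M B) (P : Subgroup G) [P.Normal] (hP : Cfsg.IsDefectGroup p M B P) : (∀ a ∈ P, ∀ c ∈ P, a * c = c * a) ↔ ∀ χ ∈ B, Cfsg.blockHeight p B (χ : G → ℂ) = 0 := by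
  have := hM.2.1
  obtain ⟨h1, h2⟩ := H34.heights_of_normal_defect hM hB inferInstance hP
  constructor
  · intro h χ hχ
    obtain ⟨ζ, hζ⟩ := h1 χ hχ
    rw [hζ, H34.charDegree_eq_of_cast (n := 1) (by
      rw [H5.degree_eq_one_of_comm (fun a c => Subtype.ext (h a a.2 c c.2)) ζ.2, Nat.cast_one])]
    simp
  · intro h a ha c hc
    refine congrArg Subtype.val (H34.comm_of_forall_degree_eq_one (G := P) (fun ζ => ?_)
      ⟨a, ha⟩ ⟨c, hc⟩)
    obtain ⟨χ, h3, h4⟩ := h2 ζ
    rw [h χ h3] at h4
    obtain ⟨k, hk⟩ := IsPGroup.iff_card.mp (H34.IsDefectGroup.isPGroup hP)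
    have h5 := H34.irr_degree_dvd_card ζ
    rw [hk, Nat.dvd_prime_pow hM.1] at h5
    obtain ⟨j, -, hj⟩ := h5
    rw [hj, hM.1.factorization_pow, Finsupp.single_eq_same] at h4
    rw [← H34.irr_degree_cast, hj, ← h4, pow_zero, Nat.cast_one]

end Cfsg.Agent.S0972
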