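import Cfsg.Statements.S0986
import Mathlib.GroupTheory.Nilpotent

set_option autoImplicit false
open Cfsg

namespace Cfsg.Agent.S0986

/-- normalizers grow inside an ambient finite `p`-subgroup -/
theorem lt_inf_normalizer {G : Type*} [Group G] [Finite G] {p : ℕ} [Fact p.Prime]
    {D R : Subgroup G} (hR : IsPGroup p R) (h : D < R) :
    D < R ⊓ Subgroup.normalizer (D : Set G) := by
  have := hR.isNilpotent
  have hnc : NormalizerCondition R := Group.normalizerCondition_of_isNilpotent
  have h1 : D.subgroupOf R < ⊤ := by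
    rw [lt_top_iff_ne_top, Ne, Subgroup.subgroupOf_eq_top]
    exact h.not_ge
  have h2 := hnc _ h1
  rw [← Subgroup.subgroupOf_normalizer_eq h.le] at h2
  refine lt_of_le_of_ne (le_inf h.le Subgroup.le_normalizer) ?_
  intro he
  apply h2.not_ge
  intro x hx
  rw [Subgroup.mem_subgroupOf] at hx ⊢
  rw [he]
  exact ⟨x.2, hx⟩

theorem card_lt_of_lt {G : Type*} [Group G] [Finite G] {A B : Subgroup G} (h : A < B) :
    Nat.card A < Nat.card B := by
  refine lt_of_le_of_ne (Subgroup.card_le_of_le h.le) ?_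
  intro he
  exact h.ne (Subgroup.eq_of_le_of_card_ge h.le he.ge)

/-- Let P and Q be distinct Sylow p-subgroups of a finite group G chosen so that the order of P ∩ Q is as large as possible among intersections of two distinct Sylow p-subgroups, and let N be the normalizer of P ∩ Q. Then N has more than one Sylow p-subgroup, any two distinct Sylow p-subgroups of N intersect exactly in P ∩ Q, and each Sylow p-subgroup of N lies in exactly one Sylow p-subgroup of G. -/
theorem result {G : Type*} [Group G] [Finite G] (p : ℕ) [Fact p.Prime] (P Q : Sylow p G) (hPQ : P ≠ Q) (hmax : ∀ P' Q' : Sylow p G, P' ≠ Q' → Nat.card ↥((P' : Subgroup G) ⊓ (Q' : Subgroup G)) ≤ Nat.card ↥((P : Subgroup G) ⊓ (Q : Subgroup G))) : 1 < Nat.card (Sylow p ↥(Subgroup.normalizer (((P : Subgroup G) ⊓ (Q : Subgroup G) : Subgroup G) : Set G))) ∧ (∀ S T : Sylow p ↥(Subgroup.normalizer (((P : Subgroup G) ⊓ (Q : Subgroup G) : Subgroup G) : Set G)), S ≠ T → (S : Subgroup _) ⊓ (T : Subgroup _) = ((P : Subgroup G) ⊓ (Q : Subgroup G)).subgroupOf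 (Subgroup.normalizer (((P : Subgroup G) ⊓ (Q : Subgroup G) : Subgroup G) : Set G))) ∧ ∀ S : Sylow p ↥(Subgroup.normalizer (((P : Subgroup G) ⊓ (Q : Subgroup G) : Subgroup G) : Set G)), ∃! T : Sylow p G, (S : Subgroup _).map (Subgroup.normalizer (((P : Subgroup G) ⊓ (Q : Subgroup G) : Subgroup G) : Set G)).subtype ≤ (T : Subgroup G) := by
  set D : Subgroup G := (P : Subgroup G) ⊓ (Q : Subgroup G) with hD
  set N : Subgroup G := Subgroup.normalizer (D : Set G) with hN
  -- uniqueness of a Sylow overgroup of a subgroup properly containing `D`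
  have hA : ∀ (S : Subgroup G), D < S → ∀ A B : Sylow p G, S ≤ A → S ≤ B → A = B := by
    intro S hS A B hA hB
    by_contra hne
    have h1 := hmax A B hne
    have h2 := card_lt_of_lt (lt_of_lt_of_le hS (le_inf hA hB))
    omega
  have hDP : D < P := by
    refine lt_of_le_of_ne inf_le_left ?_
    intro he
    apply hPQ
    have : (P : Subgroup G) ≤ Q := by rw [← he]; exact inf_le_right
    exact Sylow.ext (P.is_maximal' Q.isPGroup' this).symm
  have hDQ : D < Q := by
    refine lt_of_le_of_ne inf_le_right ?_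
    intro he
    apply hPQ
    have : (Q : Subgroup G) ≤ P := by rw [← he]; exact inf_le_left
    exact Sylow.ext (Q.is_maximal' P.isPGroup' this)
  have hP' := lt_inf_normalizer P.isPGroup' hDP
  have hQ' := lt_inf_normalizer Q.isPGroup' hDQ
  have hDN : D ≤ N := Subgroup.le_normalizer
  have hDp : IsPGroup p D := P.isPGroup'.to_inf_left
  have hDnorm : (D.subgroupOf N).Normal := Subgroup.normal_in_normalizer
  have hDS : ∀ S : Sylow p N, D.subgroupOf N ≤ S := fun S =>
    IsPGroup.le_sylow_of_normal (N := D.subgroupOf N) hDp.comap_subtype S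
  have hDS' : ∀ S : Sylow p N, D ≤ (S : Subgroup N).map N.subtype := by
    intro S x hx
    exact ⟨⟨x, hDN hx⟩, hDS S hx, rfl⟩
  -- Sylow subgroups of `N` properly contain `D`
  have hlt : ∀ S : Sylow p N, D < (S : Subgroup N).map N.subtype := by
    intro S
    refine lt_of_le_of_ne (hDS' S) ?_
    intro he
    obtain ⟨S0, hS0⟩ := (P.isPGroup'.comap_subtype (K := N)).exists_le_sylow
    have h1 : Nat.card S0 = Nat.card S := Nat.card_congr (Sylow.equiv S0 S).toEquiv
    have h2 : Nat.card ((S : Subgroup N).map N.subtype) = Nat.card S :=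
      Subgroup.card_map_of_injective N.subtype_injective
    have h3 : Nat.card ((S0 : Subgroup N).map N.subtype) = Nat.card S0 :=
      Subgroup.card_map_of_injective N.subtype_injective
    have h4 : (P : Subgroup G) ⊓ N ≤ (S0 : Subgroup N).map N.subtype := by
      intro x hx
      exact ⟨⟨x, hx.2⟩, hS0 hx.1, rfl⟩
    have h5 := card_lt_of_lt (lt_of_lt_of_le hP' h4)
    rw [← he] at h2
    omega
  refine ⟨?_, ?_, ?_⟩
  · rw [Finite.one_lt_card_iff_nontrivial]
    by_contra hnt
    rw [not_nontrivial_iff_subsingleton] at hnt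
    obtain ⟨S0, hS0⟩ := (P.isPGroup'.comap_subtype (K := N)).exists_le_sylow
    obtain ⟨S1, hS1⟩ := (Q.isPGroup'.comap_subtype (K := N)).exists_le_sylow
    have e : S1 = S0 := Subsingleton.elim _ _
    subst e
    obtain ⟨T, hT⟩ := (S1.isPGroup'.map N.subtype).exists_le_sylow
    have h1 : P = T := hA _ hP' P T inf_le_left fun x hx => hT ⟨⟨x, hx.2⟩, hS0 hx.1, rfl⟩
    have h2 : Q = T := hA _ hQ' Q T inf_le_left fun x hx => hT ⟨⟨x, hx.2⟩, hS1 hx.1, rfl⟩
    exact hPQ (h1.trans h2.symm)
  · intro S T hST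
    refine le_antisymm ?_ (le_inf (hDS S) (hDS T))
    by_contra hle
    apply hST
    obtain ⟨A, hA'⟩ := (S.isPGroup'.map N.subtype).exists_le_sylow
    obtain ⟨B, hB'⟩ := (T.isPGroup'.map N.subtype).exists_le_sylow
    have h1 : D < ((S : Subgroup N) ⊓ T).map N.subtype := by
      refine lt_of_le_of_ne ?_ ?_
      · intro x hx
        exact ⟨⟨x, hDN hx⟩, ⟨hDS S hx, hDS T hx⟩, rfl⟩
      · intro he
        apply hle
        intro x hx
        rw [Subgroup.mem_subgroupOf, he]
        exact ⟨x, hx, rfl⟩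
    have h2 : A = B := hA _ h1 A B ((Subgroup.map_mono inf_le_left).trans hA')
      ((Subgroup.map_mono inf_le_right).trans hB')
    subst h2
    have h3 := S.is_maximal' (A.isPGroup'.comap_subtype (K := N))
      (fun x hx => hA' ⟨x, hx, rfl⟩)
    have h4 := T.is_maximal' (A.isPGroup'.comap_subtype (K := N))
      (fun x hx => hB' ⟨x, hx, rfl⟩)
    exact Sylow.ext (h3.symm.trans h4)
  · intro S
    obtain ⟨A, hA'⟩ := (S.isPGroup'.map N.subtype).exists_le_sylow
    exact ⟨A, hA', fun B hB => hA _ (hlt S) B A hB hA'⟩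

end Cfsg.Agent.S0986
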