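import Cfsg.Statements.S0987
import Mathlib.GroupTheory.Transfer

set_option autoImplicit false
open Cfsg

namespace Cfsg.Agent.S0987

/-- If the order is `p * m` with all prime divisors of `m` larger than `p`, there is a normal
subgroup of order `m`. -/
theorem exists_normal {G : Type*} [Group G] [Finite G] (p m : ℕ) (hp : p.Prime)
    (hG : Nat.card G = p * m) (hm : ∀ s : ℕ, s.Prime → s ∣ m → p < s) :
    ∃ K : Subgroup G, K.Normal ∧ Nat.card K = m := by
  have := Fact.mk hp
  have hmin : (Nat.card G).minFac = p := by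
    have h1 : Nat.card G ≠ 1 := by
      rw [hG]; intro h; exact hp.one_lt.ne' (Nat.eq_one_of_mul_eq_one_right h)
    have h2 := Nat.minFac_prime h1
    have h3 : (Nat.card G).minFac ∣ p * m := hG ▸ Nat.minFac_dvd _
    have h4 : (Nat.card G).minFac ≤ p := Nat.minFac_le_of_dvd hp.two_le (hG ▸ dvd_mul_right _ _)
    rcases (Nat.Prime.dvd_mul h2).mp h3 with h | h
    · exact (Nat.prime_dvd_prime_iff_eq h2 hp).mp h
    · exact absurd (hm _ h2 h) (by omega)
  obtain ⟨P⟩ := (inferInstance : Nonempty (Sylow p G))
  have hpm : ¬ p ∣ m := fun h => lt_irrefl _ (hm p hp h)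
  have hm0 : m ≠ 0 := by rintro rfl; exact hpm (dvd_zero _)
  have hP : Nat.card P = p := by
    rw [P.card_eq_multiplicity, hG, Nat.factorization_mul hp.ne_zero hm0]
    simp [hp.factorization, Nat.factorization_eq_zero_of_not_dvd hpm]
  have hc : IsCyclic P := isCyclic_of_prime_card hP
  have h := IsCyclic.isComplement' hmin hc
  refine ⟨(MonoidHom.transferSylow P (hc.normalizer_le_centralizer hmin)).ker, inferInstance, ?_⟩
  have h2 := h.card_mul_card
  rw [hP, hG, mul_comm] at h2
  exact Nat.eq_of_mul_eq_mul_left hp.pos h2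

/-- If a finite group has order pqr for primes p < q < r, then its Sylow r-subgroups are normal. -/
theorem result {G : Type*} [Group G] [Finite G] (p q r : ℕ) (hp : p.Prime) (hq : q.Prime) [Fact r.Prime] (hpq : p < q) (hqr : q < r) (hG : Nat.card G = p * q * r) (R : Sylow r G) : (R : Subgroup G).Normal := by
  have hr : r.Prime := Fact.out
  obtain ⟨K, hK, hKc⟩ := exists_normal p (q * r) hp (by rw [hG, mul_assoc]) (by
    intro s hs hd
    rcases (Nat.Prime.dvd_mul hs).mp hd with h | h
    · rw [(Nat.prime_dvd_prime_iff_eq hs hq).mp h]; exact hpq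
    · rw [(Nat.prime_dvd_prime_iff_eq hs hr).mp h]; omega)
  obtain ⟨L, hL, hLc⟩ := exists_normal q r hq hKc (by
    intro s hs hd
    rw [(Nat.prime_dvd_prime_iff_eq hs hr).mp hd]; exact hqr)
  have hLp : IsPGroup r L := IsPGroup.of_card (n := 1) (by rw [hLc, pow_one])
  have hLi : ¬ r ∣ L.index := by
    have h := L.card_mul_index
    rw [hLc, hKc, mul_comm q r] at h
    rw [Nat.eq_of_mul_eq_mul_left hr.pos h]
    intro hd
    exact absurd (Nat.le_of_dvd hq.pos hd) (by omega)
  have hch : L.Characteristic := Sylow.characteristic_of_normal (hLp.toSylow hLi) hL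
  have hn : (L.map K.subtype).Normal := ConjAct.normal_of_characteristic_of_normal
  have hle : L.map K.subtype ≤ R := IsPGroup.le_sylow_of_normal (hLp.map _) R
  have hRc : Nat.card R = r := by
    have h1 : ¬ r ∣ p * q := by
      intro hd
      rcases (Nat.Prime.dvd_mul hr).mp hd with h | h
      · exact absurd (Nat.le_of_dvd hp.pos h) (by omega)
      · exact absurd (Nat.le_of_dvd hq.pos h) (by omega)
    rw [R.card_eq_multiplicity, hG, Nat.factorization_mul (mul_pos hp.pos hq.pos).ne' hr.ne_zero]
    simp [hr.factorization, Nat.factorization_eq_zero_of_not_dvd h1]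
  have : L.map K.subtype = R := Subgroup.eq_of_le_of_card_ge hle (by
    rw [hRc, Subgroup.card_map_of_injective K.subtype_injective, hLc])
  rw [← this]
  exact hn

end Cfsg.Agent.S0987
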