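import Cfsg.Statements.S0988
import Cfsg.Agent.H35.Simple
import Cfsg.Agent.S0073
import Cfsg.Agent.S0144

set_option autoImplicit false
open Cfsg

namespace Cfsg.Agent.S0988

theorem aux {G : Type*} [Group G] [Finite G] [IsSimpleGroup G] (r : ℕ) (hr : r.Prime)
    (hr2 : r ≠ 2) (hr3 : r ≠ 3) (hG : Nat.card G = r * 12) : Nat.card G = 60 := by
  have := Fact.mk hr
  have hm : ¬ r ∣ 12 := by
    intro h
    have h1 : r ∣ 2 ^ 2 * 3 := h
    rcases (Nat.Prime.dvd_mul hr).mp h1 with h | h
    · exact hr2 ((Nat.prime_dvd_prime_iff_eq hr Nat.prime_two).mp (hr.dvd_of_dvd_pow h))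
    · exact hr3 ((Nat.prime_dvd_prime_iff_eq hr Nat.prime_three).mp h)
  obtain ⟨n, e, -, h1, h2, h3, h4, h5⟩ := H35.simple_prime_sylow hG hm (by norm_num)
  have hn : n ≤ 12 := Nat.le_of_dvd (by norm_num) (dvd_of_mul_right_dvd h5)
  have he : e ≤ 12 := Nat.le_of_dvd (by norm_num) (dvd_of_mul_left_dvd h5)
  have hrn : r ≤ n := by
    by_contra hc
    rw [Nat.mod_eq_of_lt (by omega)] at h1
    exact h2 h1
  have key : ∀ r : Fin 13, ∀ n : Fin 13, ∀ e : Fin 13,
      (n.1 % r.1 = 1 ∧ n.1 ≠ 1 ∧ e.1 ≠ 1 ∧ e.1 ∣ r.1 - 1 ∧ n.1 * e.1 ∣ 12 ∧ r.1 ≠ 2 ∧ r.1 ≠ 3) →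
        r.1 = 5 := by
    decide +kernel
  have := key ⟨r, by omega⟩ ⟨n, by omega⟩ ⟨e, by omega⟩ ⟨h1, h2, h3, h4, h5, hr2, hr3⟩
  simp only at this
  rw [hG, this]

/-- If a finite simple group has order p^2 * q * r with p, q and r prime, then its order is 60. -/
theorem result {G : Type*} [Group G] [Finite G] [IsSimpleGroup G] (p q r : ℕ) (hp : p.Prime) (hq : q.Prime) (hr : r.Prime) (hG : Nat.card G = p ^ 2 * q * r) : Nat.card G = 60 := by
  have hns : ¬ Group.IsSolvable G := by
    intro h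
    have hc := IsSimpleGroup.comm_iff_isSolvable.mpr h
    have : IsMulCommutative G := ⟨⟨hc⟩⟩
    have hpr := Group.is_simple_iff_prime_card.mp (inferInstance : IsSimpleGroup G)
    rw [hG] at hpr
    exact Nat.not_prime_mul (fun h => hq.one_lt.ne' (Nat.eq_one_of_mul_eq_one_left h)) hr.one_lt.ne' hpr
  have hpq : p ≠ q := by
    rintro rfl
    exact hns (S0144.result p r 3 1 hp hr (by rw [hG]; ring))
  have hpr : p ≠ r := by
    rintro rfl
    exact hns (S0144.result p q 3 1 hp hq (by rw [hG]; ring))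
  have hqr : q ≠ r := by
    rintro rfl
    exact hns (S0144.result p q 2 2 hp hq (by rw [hG]; ring))
  have hna : ∃ x y : G, x * y ≠ y * x := by
    by_contra h
    push Not at h
    exact hns (IsSimpleGroup.comm_iff_isSolvable.mp h)
  have hfac : ∀ s : ℕ, s.Prime → (Nat.card G).factorization s =
      (if p = s then 2 else 0) + (if q = s then 1 else 0) + (if r = s then 1 else 0) := by
    intro s _
    rw [hG, Nat.factorization_mul (mul_pos (pow_pos hp.pos 2) hq.pos).ne' hr.ne_zero,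
      Nat.factorization_mul (pow_pos hp.pos 2).ne' hq.ne_zero, Nat.factorization_pow,
      hp.factorization, hq.factorization, hr.factorization]
    simp [Finsupp.single_apply]
  have h0 : Nat.card G ≠ 0 := Nat.card_pos.ne'
  rcases S0073.result hna with h | h
  · exfalso
    have h1 : Nat.card G ≠ 1 := Finite.one_lt_card.ne'
    have h2 := Nat.minFac_prime h1
    rw [h2.pow_dvd_iff_le_factorization h0, hfac _ h2] at h
    split_ifs at h <;> omega
  · have h4 : 2 ^ 2 ∣ Nat.card G := Dvd.dvd.trans (by norm_num) h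
    have h3 : 3 ^ 1 ∣ Nat.card G := Dvd.dvd.trans (by norm_num) h
    rw [Nat.prime_two.pow_dvd_iff_le_factorization h0, hfac _ Nat.prime_two] at h4
    rw [Nat.prime_three.pow_dvd_iff_le_factorization h0, hfac _ Nat.prime_three] at h3
    have hp2 : p = 2 := by split_ifs at h4 <;> omega
    subst hp2
    by_cases hq3 : q = 3
    · subst hq3
      exact aux r hr hpr.symm hqr.symm (by rw [hG]; ring)
    · have hr3 : r = 3 := by split_ifs at h3 <;> omega
      subst hr3
      exact aux q hq hpq.symm hq3 (by rw [hG]; ring)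

end Cfsg.Agent.S0988
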