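import Cfsg.Statements.S0989
import Cfsg.Agent.H35.PrimeOrder
import Mathlib.GroupTheory.Perm.Centralizer
import Mathlib.NumberTheory.Padics.PadicVal.Basic

set_option autoImplicit false
open Cfsg

namespace Cfsg.Agent.S0989

theorem cycleType_eq {α : Type*} [Fintype α] [DecidableEq α] {p : ℕ} (hp : p.Prime)
    (hα : Fintype.card α < 2 * p) {x : Equiv.Perm α} (hx : orderOf x = p) :
    x.cycleType = {p} := by
  have hc : x.IsCycle := Equiv.Perm.isCycle_of_prime_order' (hx ▸ hp) (hx ▸ hα)
  rw [hc.cycleType, ← hc.orderOf, hx]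

theorem card_centralizer {α : Type*} [Fintype α] [DecidableEq α] {p : ℕ} (hp : p.Prime)
    (hα : Fintype.card α = p ∨ Fintype.card α = p + 1) {x : Equiv.Perm α} (hx : orderOf x = p) :
    Nat.card (Subgroup.centralizer ({x} : Set (Equiv.Perm α))) = p := by
  have h2 := hp.two_le
  have := cycleType_eq hp (by omega) hx
  rw [Equiv.Perm.nat_card_centralizer, this]
  rcases hα with h | h <;> simp [h]

theorem not_sq_dvd {α : Type*} [Fintype α] [DecidableEq α] {p : ℕ} (hp : p.Prime)
    (hα : Fintype.card α < 2 * p) : ¬ p ^ 2 ∣ Nat.card (Equiv.Perm α) := by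
  have := Fact.mk hp
  rw [Nat.card_eq_fintype_card, Fintype.card_perm]
  intro h
  rw [hp.pow_dvd_factorial_iff (b := Fintype.card α + 2)
    (lt_of_le_of_lt (Nat.log_le_self _ _) (by omega))] at h
  have h1 : ∑ i ∈ Finset.Ico 1 (Fintype.card α + 2), Fintype.card α / p ^ i ≤ 1 := by
    rw [Finset.sum_eq_single 1]
    · rw [pow_one]
      exact Nat.le_of_lt_succ ((Nat.div_lt_iff_lt_mul hp.pos).mpr hα)
    · intro i hi hi1
      rw [Finset.mem_Ico] at hi
      refine Nat.div_eq_of_lt (lt_of_lt_of_le hα ?_)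
      calc 2 * p ≤ p ^ 2 := by have := hp.two_le; nlinarith
        _ ≤ p ^ i := Nat.pow_le_pow_right hp.pos (by omega)
    · intro h
      exact absurd (Finset.mem_Ico.mpr ⟨le_rfl, by omega⟩) h
  omega

/-- In the symmetric group on p or p + 1 letters, p a prime, the normalizer of a Sylow p-subgroup has order p * (p - 1). -/
theorem result {α : Type*} [Fintype α] [DecidableEq α] (p : ℕ) [Fact p.Prime] (hα : Fintype.card α = p ∨ Fintype.card α = p + 1) (P : Sylow p (Equiv.Perm α)) : Nat.card ↥(Subgroup.normalizer ((P : Subgroup (Equiv.Perm α)) : Set (Equiv.Perm α))) = p * (p - 1) := by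
  have hp : p.Prime := Fact.out
  have h2 := hp.two_le
  have hlt : Fintype.card α < 2 * p := by omega
  have hsq := not_sq_dvd hp hlt
  have hd : p ∣ Nat.card (Equiv.Perm α) := by
    rw [Nat.card_eq_fintype_card, Fintype.card_perm]
    exact Nat.dvd_factorial hp.pos (by omega)
  have hP : Nat.card (P : Subgroup (Equiv.Perm α)) = p := by
    have h1 : (Nat.card (Equiv.Perm α)).factorization p = 1 := by
      have a := (hp.dvd_iff_one_le_factorization Nat.card_pos.ne').mp hd
      have b := mt (hp.pow_dvd_iff_le_factorization Nat.card_pos.ne').mpr hsq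
      omega
    have := P.card_eq_multiplicity
    rw [h1, pow_one] at this
    exact this
  obtain ⟨x, hx, hPx⟩ := H35.exists_zpowers_eq_of_card hp hP
  rw [hPx, H35.card_normalizer_zpowers, card_centralizer hp hα hx, mul_comm]
  congr 1
  have h : {y | y ∈ Subgroup.zpowers x ∧ IsConj x y} =
      ((Subgroup.zpowers x : Subgroup (Equiv.Perm α)) : Set (Equiv.Perm α)) \ {1} := by
    ext y
    simp only [Set.mem_ofPred_eq, Set.mem_sdiff, SetLike.mem_coe, Set.mem_singleton_iff]
    constructor
    · rintro ⟨h1, h2⟩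
      refine ⟨h1, ?_⟩
      rintro rfl
      rw [isConj_one_left] at h2
      rw [h2, orderOf_one] at hx
      omega
    · rintro ⟨h1, h2⟩
      refine ⟨h1, ?_⟩
      rw [Equiv.Perm.isConj_iff_cycleType_eq, cycleType_eq hp hlt hx,
        cycleType_eq hp hlt (H35.orderOf_eq_of_mem_zpowers hp hx h1 h2)]
  change Nat.card {y | y ∈ Subgroup.zpowers x ∧ IsConj x y} = _
  rw [h, Nat.card_coe_set_eq, Set.ncard_sdiff_singleton_of_mem (one_mem _),
    ← Nat.card_coe_set_eq, ← hx, ← Nat.card_zpowers]
  rfl

end Cfsg.Agent.S0989
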