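import Cfsg.Statements.S0995
import Cfsg.Agent.H35.PrimeOrder

set_option autoImplicit false
open Cfsg

namespace Cfsg.Agent.S0995

/-- Let G be a finite perfect group containing an element z of prime order p whose centralizer is the cyclic group it generates. Let t be the number of conjugacy classes of elements of order p. Then t divides p - 1, the number of Sylow p-subgroups has the form 1 + n * p, and |G| * t = (p - 1) * p * (1 + n * p). -/
theorem result {G : Type*} [Group G] [Finite G] (hperf : commutator G = ⊤) (p : ℕ) [Fact p.Prime] (z : G) (hz : orderOf z = p) (hC : Subgroup.centralizer ({z} : Set G) = Subgroup.zpowers z) : ∃ n t : ℕ, t = Nat.card {c : ConjClasses G // ∃ g : G, ConjClasses.mk g = c ∧ orderOf g = p} ∧ t ∣ p - 1 ∧ Nat.card (Sylow p G) = 1 + n * p ∧ Nat.card G * t = (p - 1) * p * (1 + n * p) := by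
  have hp : p.Prime := Fact.out
  have hsq := H35.not_sq_dvd_of_centralizer_eq hz hC
  have h1 := H35.card_classes_mul_relIndex hz hsq
  obtain ⟨P, hP⟩ := H35.exists_sylow_eq_zpowers hz hsq
  have h2 := H35.card_normalizer_zpowers z
  rw [← H35.relIndex_eq_card_conj] at h2
  have h3 : Nat.card (Subgroup.centralizer ({z} : Set G)) = p := by
    rw [hC, Nat.card_zpowers, hz]
  have h4 := P.card_eq_index_normalizer
  have h5 := (Subgroup.normalizer (P : Set G)).card_mul_index
  have h6 : (P : Set G) = ((Subgroup.zpowers z : Subgroup G) : Set G) := by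
    rw [← hP]; rfl
  have h7 := card_sylow_modEq_one p G
  have h8 : Nat.card (Sylow p G) = 1 + (Nat.card (Sylow p G) / p) * p := by
    have := Nat.mod_add_div' (Nat.card (Sylow p G)) p
    rw [h7, Nat.mod_eq_of_lt hp.one_lt] at this
    exact this.symm
  refine ⟨Nat.card (Sylow p G) / p, _, rfl, Dvd.intro _ h1, h8, ?_⟩
  rw [← h8, ← h1, ← h5, ← h4, h6, h2, h3]
  ring

end Cfsg.Agent.S0995
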