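import Cfsg.Statements.S1002
import Cfsg.Agent.H36.More

set_option autoImplicit false
open Cfsg

namespace Cfsg.Agent.S1002

open MulAction Subgroup H36

theorem card_le_of_disjoint {G : Type*} [Finite G] (f : G → ℕ) (a b c d : ℕ) (hab : a ≠ b)
    (hac : a ≠ c) (had : a ≠ d) (hbc : b ≠ c) (hbd : b ≠ d) (hcd : c ≠ d) :
    Nat.card {g // f g = a} + Nat.card {g // f g = b} + Nat.card {g // f g = c} +
      Nat.card {g // f g = d} ≤ Nat.card G := by
  rw [← Nat.card_sum, ← Nat.card_sum, ← Nat.card_sum]
  refine Nat.card_le_card_of_injective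
    (Sum.elim (Sum.elim (Sum.elim Subtype.val Subtype.val) Subtype.val) Subtype.val) ?_
  rintro (((⟨x, hx⟩ | ⟨x, hx⟩) | ⟨x, hx⟩) | ⟨x, hx⟩) (((⟨y, hy⟩ | ⟨y, hy⟩) | ⟨y, hy⟩) | ⟨y, hy⟩) h <;>
    simp only [Sum.elim_inl, Sum.elim_inr] at h <;> subst h <;> first | rfl | omega


/-- No finite simple group has order 1004913 = 3^3 * 7 * 13 * 409. -/
theorem result {G : Type*} [Group G] [Finite G] [IsSimpleGroup G] : Nat.card G ≠ 1004913 := by
  intro hG
  have h409 : Fact (Nat.Prime 409) := ⟨by norm_num⟩
  have h13 : Fact (Nat.Prime 13) := ⟨by norm_num⟩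
  have h7 : Fact (Nat.Prime 7) := ⟨by norm_num⟩
  have hperf : commutator G = ⊤ := commutator_eq_top_of_simple (by rw [hG]; norm_num)
  obtain ⟨P⟩ : Nonempty (Sylow 409 G) := inferInstance
  obtain ⟨Q⟩ : Nonempty (Sylow 13 G) := inferInstance
  obtain ⟨R⟩ : Nonempty (Sylow 7 G) := inferInstance
  have hP := card_sylow_eq_prime P (m := 2457) hG (by norm_num)
  have hQ := card_sylow_eq_prime Q (m := 77301) hG (by norm_num)
  have hR := card_sylow_eq_prime R (m := 143559) hG (by norm_num)
  have nP : Nat.card (Sylow 409 G) = 819 := by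
    have h1 := card_sylow_dvd P (m := 2457) (by rw [hP, hG])
    have h2 := card_sylow_mod (p := 409) (G := G)
    have h3 := card_sylow_ne_one P (by rw [hP]; norm_num) (by rw [hP, hG]; norm_num)
    have h4 := Nat.le_of_dvd (by norm_num) h1
    obtain ⟨k, hk⟩ : ∃ k, Nat.card (Sylow 409 G) = 409 * k + 1 := ⟨_, by
      rw [← h2]; exact (Nat.div_add_mod _ _).symm⟩
    rw [hk] at h1 h3 h4 ⊢
    have : k ≤ 6 := by omega
    interval_cases k <;> simp_all
  have nQ : Nat.card (Sylow 13 G) = 25767 := by
    have h1 := card_sylow_dvd Q (m := 77301) (by rw [hQ, hG])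
    have h2 := card_sylow_mod (p := 13) (G := G)
    have h3 := card_sylow_ne_one Q (by rw [hQ]; norm_num) (by rw [hQ, hG]; norm_num)
    have h4 : 409 ≤ Nat.card (Sylow 13 G) := by
      rw [Q.card_eq_index_normalizer] at h3 ⊢
      exact prime_le_index (ne_top_of_index h3) h409.out (by rw [hG]; norm_num)
    obtain ⟨k, hk⟩ := h1
    have h5 : k ≤ 189 := by nlinarith
    generalize Nat.card (Sylow 13 G) = n at *
    have h6 : n = 77301 / k := by
      rw [hk, Nat.mul_div_cancel]
      rcases k with _ | k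
      · simp at hk
      · omega
    subst h6
    clear h3 h4
    revert k
    decide +kernel
  have nR : Nat.card (Sylow 7 G) = 47853 := by
    have h1 := card_sylow_dvd R (m := 143559) (by rw [hR, hG])
    have h2 := card_sylow_mod (p := 7) (G := G)
    have h3 := card_sylow_ne_one R (by rw [hR]; norm_num) (by rw [hR, hG]; norm_num)
    have h4 : 409 ≤ Nat.card (Sylow 7 G) := by
      rw [R.card_eq_index_normalizer] at h3 ⊢
      exact prime_le_index (ne_top_of_index h3) h409.out (by rw [hG]; norm_num)
    obtain ⟨k, hk⟩ := h1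
    have h5 : k ≤ 351 := by nlinarith
    generalize Nat.card (Sylow 7 G) = n at *
    have h6 : n = 143559 / k := by
      rw [hk, Nat.mul_div_cancel]
      rcases k with _ | k
      · simp at hk
      · omega
    subst h6
    clear h3 h4
    revert k
    decide +kernel
  have cP := card_orderOf_eq_prime P hP
  have cQ := card_orderOf_eq_prime Q hQ
  have cR := card_orderOf_eq_prime R hR
  have hN : Nat.card (normalizer (P : Set G)) = 1227 := by
    have := card_sylow_mul_card_normalizer P
    rw [nP, hG] at this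
    omega
  obtain ⟨e, c, he, he1, hC, hNe⟩ := exists_card_normalizer_eq hperf P hP
  have hc : c = 1 := by
    rw [hN] at hNe
    have h1 : e * c = 3 := by linarith
    have h2 : e ∣ 3 := Dvd.intro _ h1
    rcases (Nat.dvd_prime Nat.prime_three).1 h2 with h | h
    · exact absurd h he1
    · rw [h] at h1; omega
  obtain ⟨y, hy, hy3⟩ := exists_orderOf_eq_of_dvd (normalizer (P : Set G)) Nat.prime_three
    (by rw [hN]; norm_num)
  have hyC : y ∉ centralizer (P : Set G) := fun h => by
    have := (centralizer (P : Set G)).orderOf_dvd_natCard h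
    rw [hy3, hC, hc] at this
    norm_num at this
  have f1 := card_fixedBy_sylow_mul_le P hP hy hyC
  have f2 := card_fixedBy_mul_card_isConj P y
  rw [P.stabilizer_eq_normalizer, nP] at f2
  rw [nP] at f1
  have f3 := le_card_conj_inter_normalizer hP hy hyC
  rw [P.coe_coe] at f3
  have f4 : Nat.card {g : G // IsConj y g} ≤ Nat.card {g : G // orderOf g = 3} :=
    card_subtype_mono fun g hg => (orderOf_eq_of_isConj hg).trans hy3
  have f5 := card_le_of_disjoint (orderOf : G → ℕ) 409 13 7 3 (by norm_num) (by norm_num)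
    (by norm_num) (by norm_num) (by norm_num) (by norm_num)
  rw [cP, cQ, cR, nP, nQ, nR, hG] at f5
  have f6 : Nat.card (fixedBy (Sylow 409 G) y) ≤ 3 := by omega
  have f7 : Nat.card {g : G // IsConj y g} ≤ 74439 := by omega
  have f8 := Nat.mul_le_mul f6 f7
  omega

end Cfsg.Agent.S1002
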