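import Cfsg.Statements.S1010
import Cfsg.Agent.H36.Closed

set_option autoImplicit false
open Cfsg

namespace Cfsg.Agent.S1010

open MulAction Subgroup H36
open scoped commutatorElement

universe u

theorem main {G : Type u} [Group G] [Finite G] [Fact (Nat.Prime 5)]
    (ih : ∀ (H : Type u) [Group H] [Finite H], Nat.card H < Nat.card G →
      Nat.card (Sylow 5 H) ≠ 21) : Nat.card (Sylow 5 G) ≠ 21 := by
  intro h21
  have h7 : Fact (Nat.Prime 7) := ⟨by norm_num⟩
  obtain ⟨P⟩ : Nonempty (Sylow 5 G) := inferInstance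
  -- (A) faithful
  have hA : ∀ K : Subgroup G, K.Normal → (∀ Q : Sylow 5 G, K ≤ normalizer (Q : Set G)) →
      K = ⊥ := by
    intro K hK h
    by_contra hne
    refine ih (G ⧸ K) ?_ ((card_sylow_quotient K h).trans h21)
    have h1 := K.card_mul_index
    have h2 : 1 < Nat.card K := (one_lt_card_iff_ne_bot K).2 hne
    have h3 : 0 < K.index := Nat.pos_of_ne_zero index_ne_zero_of_finite
    rw [← index_eq_card]
    nlinarith
  have hF : FaithfulSMul G (Sylow 5 G) := by
    have h1 := hA (toPermHom G (Sylow 5 G)).ker inferInstance fun Q g hg =>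
      Sylow.smul_eq_iff_mem_normalizer.1
        (congrArg (fun σ : Equiv.Perm (Sylow 5 G) => σ Q) (MonoidHom.mem_ker.1 hg))
    have hi := (MonoidHom.ker_eq_bot_iff _).1 h1
    exact ⟨fun {x y} hxy => hi (Equiv.ext hxy)⟩
  -- (B)
  have hB : ∀ K : Subgroup G, K.Normal → ¬ 5 ∣ K.index → K = ⊤ := by
    intro K hK h
    by_contra hne
    refine ih K ?_ ((card_sylow_eq_of_forall_le K (sylow_le_of_normal K h)).trans h21)
    have h1 := K.card_mul_index
    have h2 : 1 < K.index := one_lt_index_of_ne_top hne
    have h3 : 0 < Nat.card K := Nat.card_pos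
    nlinarith
  -- (C)
  have hP : Nat.card (P : Subgroup G) = 5 := by
    have hab := mul_comm_of_card_lt_sq (X := Sylow 5 G) P.isPGroup' (by rw [h21]; norm_num)
    have h1 : Nat.card (P : Subgroup G) ≠ 1 := by
      intro h
      have : Subsingleton (Sylow 5 G) := ⟨fun Q R => Sylow.ext (by
        rw [card_eq_one.1 ((card_sylow_congr P Q).trans h),
          card_eq_one.1 ((card_sylow_congr P R).trans h)])⟩
      rw [Nat.card_of_subsingleton P] at h21
      exact absurd h21 (by norm_num)
    have h2 := card_lt_card_sylow P hab h1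
      (hA _ iInf_sylow_normal fun Q => (iInf_le _ Q).trans le_normalizer)
    obtain ⟨k, hk⟩ := P.isPGroup'.exists_card_eq
    rw [hk] at h1 h2 ⊢
    rw [h21] at h2
    have h3 : k < 2 := (Nat.pow_lt_pow_iff_right (by norm_num : 1 < 5)).1 (by omega)
    interval_cases k <;> simp_all
  have no7 : ∀ (Q : Sylow 5 G) (r : G), orderOf r = 7 → r ∉ normalizer (Q : Set G) := by
    intro Q r hr hn
    have hQ := (card_sylow_congr P Q).trans hP
    have hc := mem_centralizer_of_coprime hQ hn (by rw [hr]; norm_num)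
    have h1 := card_fixedBy_sylow_mod Q hQ hc
    have h2 := card_modEq_card_fixedBy_prime (X := Sylow 5 G) h7.out r hr
    have h3 := card_fixedBy_lt (X := Sylow 5 G) (ne_one_of_orderOf_prime h7.out hr)
    rw [h21] at h2 h3
    unfold Nat.ModEq at h2
    omega
  -- (D)
  have hD : ¬ normalizer (P : Set G) ≤ centralizer (P : Set G) := by
    intro hNC
    have hK := MonoidHom.ker_transferSylow_isComplement' P hNC
    set K := (MonoidHom.transferSylow P hNC).ker
    have hKi : K.index = 5 := hK.symm.index_eq_card.trans hP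
    have hn7 : ¬ 7 ∣ Nat.card (normalizer (P : Set G)) := fun h => by
      obtain ⟨r, hr, hr7⟩ := exists_orderOf_eq_of_dvd _ h7.out h
      exact no7 P r hr7 hr
    obtain ⟨R⟩ : Nonempty (Sylow 7 G) := inferInstance
    have hR : Nat.card (R : Subgroup G) = 7 := by
      refine card_sylow_eq_prime R (m := 3 * Nat.card (normalizer (P : Set G))) ?_ ?_
      · rw [← card_sylow_mul_card_normalizer P, h21]; ring
      · exact h7.out.not_dvd_mul (by norm_num) hn7
    have hRK : (R : Subgroup G) ≤ K := sylow_le_of_normal K (by rw [hKi]; norm_num) R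
    have hfr := R.normalizer_sup_eq_top' hRK
    have h5 : 5 ∣ Nat.card (normalizer (R : Set G)) := by
      have h1 := relIndex_sup_right (normalizer (R : Set G)) K
      rw [hfr, relIndex_top_right, hKi] at h1
      rw [h1]
      exact relIndex_dvd_card _ _
    obtain ⟨y, hy, hy5⟩ := exists_orderOf_eq_of_dvd _ (by norm_num) h5
    have hyc := mem_centralizer_of_coprime hR hy (by rw [hy5]; norm_num)
    obtain ⟨Q, hQ⟩ := exists_sylow_eq_zpowers P hP hy5
    obtain ⟨r, hr, hr7, -⟩ := exists_generator_prime hR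
    refine no7 Q r hr7 (centralizer_le_normalizer _ ?_)
    rw [← Q.coe_coe, ← hQ, centralizer_zpowers, mem_centralizer_singleton_iff]
    exact hyc r hr
  -- perfect
  have hG : commutator G = ⊤ := by
    refine hB _ inferInstance fun h5 => hD fun n hn x hx => ?_
    have h1 : n * x * n⁻¹ * x⁻¹ ∈ (P : Subgroup G) :=
      mul_mem ((mem_normalizer_iff.1 hn x).1 hx) (inv_mem hx)
    have h2 : n * x * n⁻¹ * x⁻¹ ∈ commutator G :=
      commutator_mem_commutator (mem_top n) (mem_top x)
    by_contra hne
    have h3 : n * x * n⁻¹ * x⁻¹ ≠ 1 := by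
      intro h
      rw [mul_inv_eq_one, mul_inv_eq_iff_eq_mul] at h
      exact hne h.symm
    have h4 : (P : Subgroup G) ≤ commutator G := by
      rw [← zpowers_eq_of_mem_prime hP h1 h3, zpowers_le]
      exact h2
    exact P.not_dvd_index (h5.trans (index_dvd_of_le h4))
  refine commutator_ne_top_five P hP (by rw [h21]; norm_num) (fun t ht ht2 Q hQ => ?_) hG
  have h1 := card_fixedBy_sylow_mod P hP ht
  have h2 := card_modEq_four (X := Sylow 5 G) hG (t := t) (by rw [← ht2, pow_orderOf_eq_one])
  have h3 := card_fixedBy_lt (X := Sylow 5 G) (ne_one_of_orderOf_prime Nat.prime_two ht2)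
  rw [h21] at h2 h3
  unfold Nat.ModEq at h2
  have h4 : Nat.card (fixedBy (Sylow 5 G) t) = 1 := by omega
  have hs := (Nat.card_eq_one_iff_unique.1 h4).1
  exact congrArg Subtype.val (hs.elim ⟨Q, hQ⟩
    ⟨P, Sylow.smul_eq_iff_mem_normalizer.2 (centralizer_le_normalizer _ ht)⟩)

theorem aux (n : ℕ) : ∀ (G : Type u) [Group G] [Finite G], Nat.card G = n →
    Nat.card (Sylow 5 G) ≠ 21 := by
  have : Fact (Nat.Prime 5) := ⟨by norm_num⟩
  induction n using Nat.strong_induction_on with
  | _ n ih =>
    intro G _ _ hn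
    exact main fun H _ _ hH => ih _ (hn ▸ hH) H rfl


/-- No finite group has exactly twenty-one Sylow 5-subgroups. -/
theorem result {G : Type*} [Group G] [Finite G] : Nat.card (Sylow 5 G) ≠ 21 := by
  exact aux _ G rfl

end Cfsg.Agent.S1010
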