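import Cfsg.Statements.S1013
import Cfsg.Agent.H36.More

set_option autoImplicit false
open Cfsg

namespace Cfsg.Agent.S1013

open MulAction Subgroup H36

theorem card_sylow_of_transitive {G : Type*} [Group G] [Finite G] {X : Type*} [Finite X]
    [MulAction G X] [FaithfulSMul G X] [IsPretransitive G X] {p : ℕ} [Fact p.Prime]
    (hX : Nat.card X = p) (a : X) :
    Nat.card G = p * Nat.card (stabilizer G a) ∧ ¬ p ∣ Nat.card (stabilizer G a) := by
  have hp : p.Prime := Fact.out
  have h1 := (stabilizer G a).index_mul_card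
  rw [index_stabilizer_of_transitive, hX] at h1
  refine ⟨h1.symm, fun h => ?_⟩
  have h2 := card_dvd_factorial (G := G) (X := X)
  rw [← h1, hX, ← Nat.mul_factorial_pred hp.ne_zero] at h2
  have h3 := hp.dvd_factorial.1 (h.trans (Nat.dvd_of_mul_dvd_mul_left hp.pos h2))
  have := hp.pos
  omega

/-- A transitive group of prime degree with self-normalizing Sylow subgroup has order `p`. -/
theorem card_eq_of_self_normalizing {G : Type*} [Group G] [Finite G] {X : Type*} [Finite X]
    [MulAction G X] [FaithfulSMul G X] [IsPretransitive G X] {p : ℕ} [Fact p.Prime]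
    (hX : Nat.card X = p) (P : Sylow p G) (hN : Nat.card (normalizer (P : Set G)) = p) :
    Nat.card G = p := by
  have hp : p.Prime := Fact.out
  have hne : Nonempty X := (Nat.card_ne_zero.1 (hX ▸ hp.ne_zero)).1
  obtain ⟨a⟩ := hne
  have hP := card_sylow_eq_prime P (card_sylow_of_transitive hX a).1
    (card_sylow_of_transitive hX a).2
  have h1 := card_orderOf_eq_prime P hP
  have h2 := card_sylow_mul_card_normalizer P
  have h3 := card_subtype_add_compl (fun g : G => orderOf g = p)
  have key : ∀ b : X, ∀ g : G, ¬ orderOf g = p → g ∈ stabilizer G b := by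
    intro b
    obtain ⟨h4, h5⟩ := card_sylow_of_transitive (G := G) hX b
    refine of_card_subtype_le (p := fun g => g ∈ stabilizer G b) (fun g hg h => ?_) ?_
    · exact h5 (h ▸ (stabilizer G b).orderOf_dvd_natCard hg)
    · change _ ≤ Nat.card (stabilizer G b)
      rw [hN, h4, mul_comm] at h2
      have h6 := Nat.eq_of_mul_eq_mul_left hp.pos h2
      rw [h1, h6, h4, Nat.mul_sub, mul_one, mul_comm] at h3
      have h7 : Nat.card (stabilizer G b) ≤ p * Nat.card (stabilizer G b) :=
        Nat.le_mul_of_pos_left _ hp.pos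
      omega
  obtain ⟨h4, h5⟩ := card_sylow_of_transitive (G := G) hX a
  have : stabilizer G a = ⊥ := by
    rw [eq_bot_iff]
    intro g hg
    have h6 : ¬ orderOf g = p := fun h => h5 (h ▸ (stabilizer G a).orderOf_dvd_natCard hg)
    exact eq_of_smul_eq_smul fun b : X => by rw [one_smul]; exact key b g h6
  rw [h4, this, card_bot, mul_one]


/-- Let G be a transitive permutation group of prime degree p having more than one Sylow p-subgroup, and suppose a Sylow p-subgroup P has prime index in its normalizer. Then G is simple. -/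
theorem result {α : Type*} [Fintype α] [DecidableEq α] {p : ℕ} [Fact p.Prime] (hα : Fintype.card α = p) (G : Subgroup (Equiv.Perm α)) [MulAction.IsPretransitive ↥G α] (P : Sylow p ↥G) (hn : 1 < Nat.card (Sylow p ↥G)) (ht : (((P : Subgroup ↥G).subgroupOf (Subgroup.normalizer ((P : Subgroup ↥G) : Set ↥G))).index).Prime) : IsSimpleGroup ↥G := by
  have hp : p.Prime := Fact.out
  rw [← Nat.card_eq_fintype_card] at hα
  have hne : Nonempty α := (Nat.card_ne_zero.1 (hα ▸ hp.ne_zero)).1
  obtain ⟨a⟩ := hne
  have hP := card_sylow_eq_prime P (card_sylow_of_transitive hα a).1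
    (card_sylow_of_transitive hα a).2
  have hprim : IsPreprimitive G α := IsPreprimitive.of_prime_card (hα ▸ hp)
  have hnt : Nontrivial G := by
    rw [← Finite.one_lt_card_iff_nontrivial]
    exact hp.one_lt.trans_le (hP.symm.le.trans (card_le_card_group _))
  refine ⟨fun K hK => ?_⟩
  by_contra hcon
  rw [not_or] at hcon
  obtain ⟨hbot, htop⟩ := hcon
  have htr : IsPretransitive K α := by
    refine IsQuasiPreprimitive.isPretransitive_of_normal fun h => hbot ?_
    rw [eq_bot_iff]
    intro k hk
    refine eq_of_smul_eq_smul fun b : α => ?_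
    rw [one_smul]
    exact (Set.eq_univ_iff_forall.1 h b) ⟨k, hk⟩
  have hPK : (P : Subgroup G) ≤ K := by
    refine sylow_le_of_normal K (fun h => ?_) P
    have h1 := (card_sylow_of_transitive (G := K) hα a).1
    have h2 := card_sylow_of_transitive (G := G) hα a
    have h3 := K.card_mul_index
    rw [h1, h2.1, mul_assoc] at h3
    exact h2.2 (Nat.eq_of_mul_eq_mul_left hp.pos h3 ▸ Dvd.dvd.mul_left h _)
  have hfr := P.normalizer_sup_eq_top' hPK
  set N := normalizer ((P : Subgroup G) : Set G) with hN
  have h1 := relIndex_mul_relIndex (P : Subgroup G) (K ⊓ N) N (le_inf hPK le_normalizer)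
    inf_le_right
  rcases (Nat.dvd_prime ht).1 (Dvd.intro _ h1) with h2 | h2
  · have h3 : K ⊓ N = P := le_antisymm (relIndex_eq_one.1 h2) (le_inf hPK le_normalizer)
    have h4 := card_sylow_subgroup P hPK
    rw [← P.coe_coe, ← hN, h3, ← card_sylow_mul_card_normalizer (P.subtype hPK), hP] at h4
    have h5 := card_eq_of_self_normalizing hα (P.subtype hPK)
      (Nat.eq_of_mul_eq_mul_left Nat.card_pos h4).symm
    have h6 : (P : Subgroup G) = K := eq_of_le_of_card_ge hPK (by rw [h5, hP])
    have h7 : (P : Subgroup G).Normal := h6 ▸ hK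
    have := P.unique_of_normal h7
    rw [Nat.card_unique] at hn
    exact lt_irrefl _ hn
  · have h3 : (K ⊓ N).relIndex N = 1 := by
      refine Nat.eq_of_mul_eq_mul_left ht.pos ?_
      rw [mul_one]
      rw [h2] at h1
      exact h1
    have h4 : N ≤ K := (relIndex_eq_one.1 h3).trans inf_le_left
    exact htop (by rw [← hfr]; exact (sup_eq_right.2 h4).symm)

end Cfsg.Agent.S1013
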