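import Cfsg.Statements.S1014
import Cfsg.Agent.H36.More

set_option autoImplicit false
open Cfsg

namespace Cfsg.Agent.S1014

open MulAction Subgroup H36


/-- No finite simple group has order 1104 = 2^4 * 3 * 23. -/
theorem result {G : Type*} [Group G] [Finite G] [IsSimpleGroup G] : Nat.card G ≠ 1104 := by
  intro hG
  have h23 : Fact (Nat.Prime 23) := ⟨by norm_num⟩
  have hperf : commutator G = ⊤ := commutator_eq_top_of_simple (by rw [hG]; norm_num)
  obtain ⟨P⟩ : Nonempty (Sylow 23 G) := inferInstance
  have hP := card_sylow_eq_prime P (m := 48) hG (by norm_num)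
  have nP : Nat.card (Sylow 23 G) = 24 := by
    have h1 := card_sylow_dvd P (m := 48) (by rw [hP, hG])
    have h2 := card_sylow_mod (p := 23) (G := G)
    have h3 := card_sylow_ne_one P (by rw [hP]; norm_num) (by rw [hP, hG]; norm_num)
    have h4 := Nat.le_of_dvd (by norm_num) h1
    generalize Nat.card (Sylow 23 G) = n at *
    interval_cases n <;> simp_all
  have hN : Nat.card (normalizer (P : Set G)) = 46 := by
    have := card_sylow_mul_card_normalizer P
    rw [nP, hG] at this
    omega
  obtain ⟨e, c, he, he1, hC, hNe⟩ := exists_card_normalizer_eq hperf P hP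
  have hc : c = 1 := by
    rw [hN] at hNe
    have h1 : e * c = 2 := by linarith
    have h2 : e ∣ 2 := Dvd.intro _ h1
    rcases (Nat.dvd_prime Nat.prime_two).1 h2 with h | h
    · exact absurd h he1
    · rw [h] at h1; omega
  obtain ⟨t, ht, ht2⟩ := exists_orderOf_eq_of_dvd (normalizer (P : Set G)) Nat.prime_two
    (by rw [hN]; norm_num)
  have htC : t ∉ centralizer (P : Set G) := fun h => by
    have := (centralizer (P : Set G)).orderOf_dvd_natCard h
    rw [ht2, hC, hc] at this
    norm_num at this
  have f1 := card_fixedBy_sylow_mul_le P hP ht htC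
  have f2 := card_modEq_four (X := Sylow 23 G) hperf (t := t) (by rw [← ht2, pow_orderOf_eq_one])
  have f3 := card_fixedBy_pos (Sylow.smul_eq_iff_mem_normalizer.2 ht)
  rw [nP] at f1 f2
  unfold Nat.ModEq at f2
  omega

end Cfsg.Agent.S1014
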