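import Cfsg.Statements.S1015
import Cfsg.Agent.H36.More

set_option autoImplicit false
open Cfsg

namespace Cfsg.Agent.S1015

open MulAction Subgroup H36


/-- No finite simple group has order 1200 = 2^4 * 3 * 5^2. -/
theorem result {G : Type*} [Group G] [Finite G] [IsSimpleGroup G] : Nat.card G ≠ 1200 := by
  intro hG
  have h5 : Fact (Nat.Prime 5) := ⟨by norm_num⟩
  obtain ⟨P⟩ : Nonempty (Sylow 5 G) := inferInstance
  have hP := card_sylow_eq P (k := 2) (m := 48) hG (by norm_num)
  have h1 := card_sylow_dvd P (m := 48) (by rw [hP, hG]; norm_num)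
  have h2 := card_sylow_mod (p := 5) (G := G)
  have h3 := card_lt_card_sylow_of_simple P (mul_comm_of_card_prime_sq hP)
    (by rw [hP]; norm_num) (by rw [hP, hG]; norm_num)
  have h4 := Nat.le_of_dvd (by norm_num) h1
  rw [hP] at h3
  generalize Nat.card (Sylow 5 G) = n at *
  interval_cases n <;> simp_all

end Cfsg.Agent.S1015
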