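import Cfsg.Statements.S1016
import Cfsg.Agent.H36.Central

set_option autoImplicit false
open Cfsg

namespace Cfsg.Agent.S1016

open MulAction Subgroup H36


/-- No finite simple group has order 1440 = 2^5 * 3^2 * 5. -/
theorem result {G : Type*} [Group G] [Finite G] [IsSimpleGroup G] : Nat.card G ≠ 1440 := by
  intro hG
  have h5 : Fact (Nat.Prime 5) := ⟨by norm_num⟩
  have hperf : commutator G = ⊤ := commutator_eq_top_of_simple (by rw [hG]; norm_num)
  obtain ⟨P⟩ : Nonempty (Sylow 5 G) := inferInstance
  have hP := card_sylow_eq_prime P (m := 288) hG (by norm_num)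
  have h1 := card_sylow_dvd P (m := 288) (by rw [hP, hG])
  have h2 := card_sylow_mod (p := 5) (G := G)
  have h3 := card_sylow_ne_one P (by rw [hP]; norm_num) (by rw [hP, hG]; norm_num)
  have hF := faithful_sylow h3
  obtain ⟨e, c, he, he1, hC, hNe⟩ := exists_card_normalizer_eq hperf P hP
  have hN := card_sylow_mul_card_normalizer P
  have he' : e = 2 ∨ e = 4 := by
    have := Nat.le_of_dvd (by norm_num) he
    interval_cases e <;> simp_all
  have hn : ∀ n ∈ Nat.divisors 288, n % 5 = 1 → n ≠ 1 → n = 6 ∨ n = 16 ∨ n = 36 ∨ n = 96 := by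
    decide +kernel
  rw [hNe, hG] at hN
  rcases hn _ (Nat.mem_divisors.2 ⟨h1, by norm_num⟩) h2 h3 with nP | nP | nP | nP
  · have := card_dvd_factorial (G := G) (X := Sylow 5 G)
    rw [hG, nP] at this
    norm_num [Nat.factorial] at this
  · rw [nP] at hN
    have hc : c = 9 := by rcases he' with rfl | rfl <;> omega
    obtain ⟨T, hTC, hT⟩ := exists_subgroup_le_card (centralizer (P : Set G)) 3 2 Nat.prime_three
      (by rw [hC, hc]; norm_num)
    have : Fact (Nat.Prime 3) := ⟨Nat.prime_three⟩
    have := card_dvd_of_card_fixedBy (X := Sylow 5 G) T 1 fun h hh hh1 => by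
      have a1 := card_fixedBy_sylow_mod P hP (hTC hh)
      have a2 := card_modEq_card_fixedBy (X := Sylow 5 G) (p := 3) (n := 2) h (by
        rw [← hT]; exact orderOf_dvd_iff_pow_eq_one.1 (T.orderOf_dvd_natCard hh))
      have a3 := card_fixedBy_lt (X := Sylow 5 G) hh1
      rw [nP] at a2 a3
      unfold Nat.ModEq at a2
      omega
    rw [hT, nP] at this
    norm_num at this
  · rw [nP] at hN
    have hc : c = 4 ∨ c = 2 := by rcases he' with rfl | rfl <;> omega
    obtain ⟨t, ht, ht2⟩ := exists_orderOf_eq_of_dvd (centralizer (P : Set G)) Nat.prime_two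
      (by rw [hC]; omega)
    have ht1 := ne_one_of_orderOf_prime Nat.prime_two ht2
    have a1 := card_fixedBy_sylow_mod P hP ht
    have a2 := card_modEq_four (X := Sylow 5 G) hperf (t := t) (by rw [← ht2, pow_orderOf_eq_one])
    have a3 := card_fixedBy_lt (X := Sylow 5 G) ht1
    rw [nP] at a2 a3
    unfold Nat.ModEq at a2
    have a4 : Nat.card (fixedBy (Sylow 5 G) t) = 16 := by omega
    have a5 := card_conj_inter_lt P hP hC ht1 (by rw [ht2]; norm_num) (by rw [a4, nP]; norm_num)
    have a6 := card_fixedBy_sylow_mul_card_normalizer P t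
    have a7 : Nat.card (normalizer (P : Set G)) = 40 := by rw [hNe]; omega
    rw [a4, a7] at a6
    have a8 := card_subgroup_dvd_card (centralizer ({t} : Set G))
    rw [hG] at a8
    have a9 := Nat.le_of_dvd (by norm_num) (Nat.dvd_gcd a8 (Dvd.intro _ a6.symm))
    norm_num at a9
    have := Nat.mul_le_mul a9 (show _ ≤ 3 from by omega : Nat.card {g : G // IsConj t g ∧
      g ∈ normalizer (P : Set G)} ≤ 3)
    omega
  · rw [nP] at hN
    rcases he' with rfl | rfl <;> omega

end Cfsg.Agent.S1016
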