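import Cfsg.Statements.S1017
import Cfsg.Agent.H36.Central

set_option autoImplicit false
open Cfsg

namespace Cfsg.Agent.S1017

open MulAction Subgroup H36


/-- No finite simple group has order 2016 = 2^5 * 3^2 * 7. -/
theorem result {G : Type*} [Group G] [Finite G] [IsSimpleGroup G] : Nat.card G ≠ 2016 := by
  intro hG
  have h7 : Fact (Nat.Prime 7) := ⟨by norm_num⟩
  have hperf : commutator G = ⊤ := commutator_eq_top_of_simple (by rw [hG]; norm_num)
  obtain ⟨P⟩ : Nonempty (Sylow 7 G) := inferInstance
  have hP := card_sylow_eq_prime P (m := 288) hG (by norm_num)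
  have h1 := card_sylow_dvd P (m := 288) (by rw [hP, hG])
  have h2 := card_sylow_mod (p := 7) (G := G)
  have h3 := card_sylow_ne_one P (by rw [hP]; norm_num) (by rw [hP, hG]; norm_num)
  have hF := faithful_sylow h3
  obtain ⟨e, c, he, he1, hC, hNe⟩ := exists_card_normalizer_eq hperf P hP
  have hN := card_sylow_mul_card_normalizer P
  have he' : e = 2 ∨ e = 3 ∨ e = 6 := by
    have := Nat.le_of_dvd (by norm_num) he
    interval_cases e <;> simp_all
  have hn : ∀ n ∈ Nat.divisors 288, n % 7 = 1 → n ≠ 1 → n = 8 ∨ n = 36 ∨ n = 288 := by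
    decide +kernel
  rw [hNe, hG] at hN
  have hn' := hn _ (Nat.mem_divisors.2 ⟨h1, by norm_num⟩) h2 h3
  have hc2 : 2 ∣ c := by
    rcases hn' with nP | nP | nP <;> rw [nP] at hN <;> rcases he' with rfl | rfl | rfl <;> omega
  obtain ⟨t, ht, ht2⟩ := exists_orderOf_eq_of_dvd (centralizer (P : Set G)) Nat.prime_two
    (by rw [hC]; omega)
  have ht1 := ne_one_of_orderOf_prime Nat.prime_two ht2
  have htt : t ^ 2 = 1 := by rw [← ht2, pow_orderOf_eq_one]
  have a1 := card_fixedBy_sylow_mod P hP ht
  have a2 := card_modEq_four (X := Sylow 7 G) hperf htt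
  have a3 := card_fixedBy_lt (X := Sylow 7 G) ht1
  unfold Nat.ModEq at a2
  rcases hn' with nP | nP | nP
  · rw [nP] at a2 a3
    omega
  · rw [nP] at hN a2 a3
    have hc : c = 4 := by rcases he' with rfl | rfl | rfl <;> omega
    have a4 : Nat.card (fixedBy (Sylow 7 G) t) = 8 := by omega
    have a5 := card_conj_inter_lt P hP hC ht1 (by rw [ht2]; norm_num) (by rw [a4, nP]; norm_num)
    have a6 := card_fixedBy_sylow_mul_card_normalizer P t
    have a7 : Nat.card (normalizer (P : Set G)) = 56 := by rw [hNe]; omega
    rw [a4, a7] at a6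
    have a8 := (centralizer ({t} : Set G)).card_mul_index
    rw [hG] at a8
    have a9 : (centralizer ({t} : Set G)).index = 9 := by
      generalize Nat.card {g : G // IsConj t g ∧ g ∈ normalizer (P : Set G)} = m at *
      generalize (centralizer ({t} : Set G)).index = i at *
      generalize Nat.card (centralizer ({t} : Set G)) = k at *
      subst hc
      interval_cases m
      · omega
      · obtain rfl : k = 448 := by omega
        omega
      · obtain rfl : k = 224 := by omega
        omega
      · omega
    have hF' := faithful_quotient_of_simple (centralizer_ne_top hperf ht1)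
    rw [index_eq_card] at a9
    obtain ⟨x, hx, hx7, -⟩ := exists_generator_prime hP
    have b1 := card_modEq_card_fixedBy_prime (X := G ⧸ centralizer ({t} : Set G)) h7.out x hx7
    have b2 := card_fixedBy_lt (X := G ⧸ centralizer ({t} : Set G))
      (ne_one_of_orderOf_prime h7.out hx7)
    have b3 := card_modEq_four (X := G ⧸ centralizer ({t} : Set G)) hperf htt
    have b4 := card_fixedBy_lt (X := G ⧸ centralizer ({t} : Set G)) ht1
    have hxt : Commute x t := ht x hx
    have b5 := card_fixedBy_modEq_of_commute (X := G ⧸ centralizer ({t} : Set G)) h7.out hx7 hxt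
    have b6 := card_fixedBy_modEq_of_commute (X := G ⧸ centralizer ({t} : Set G)) Nat.prime_two
      ht2 hxt.symm
    have b7 : Nat.card (fixedBy (G ⧸ centralizer ({t} : Set G)) x ∩
        fixedBy (G ⧸ centralizer ({t} : Set G)) t : Set _) ≤
        Nat.card (fixedBy (G ⧸ centralizer ({t} : Set G)) x) :=
      Nat.card_mono (Set.toFinite _) Set.inter_subset_left
    rw [Set.inter_comm] at b5
    rw [a9] at b1 b2 b3 b4
    unfold Nat.ModEq at b1 b3 b5 b6
    have c1 : Nat.card (fixedBy (G ⧸ centralizer ({t} : Set G)) x) = 2 := by omega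
    have c2 : Nat.card (fixedBy (G ⧸ centralizer ({t} : Set G)) t) = 1 ∨
      Nat.card (fixedBy (G ⧸ centralizer ({t} : Set G)) t) = 5 := by omega
    rw [c1] at b6 b7
    generalize Nat.card (fixedBy (G ⧸ centralizer ({t} : Set G)) x ∩
        fixedBy (G ⧸ centralizer ({t} : Set G)) t : Set _) = k at *
    interval_cases k <;> omega
  · rw [nP] at hN
    rcases he' with rfl | rfl | rfl <;> omega

end Cfsg.Agent.S1017
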