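import Cfsg.Statements.S1022
import Cfsg.Agent.H35.Stanton

set_option autoImplicit false
open Cfsg

namespace Cfsg.Agent.S1022

open Subgroup Finset H35

theorem no_cyc {G : Type*} [Group G] [Finite G] [Fact (Nat.Prime 19)] (S : Setup G 19)
    (hZ : center G = ⊥) (hV : Nat.card S.V = 4) (he : S.V.index = 6)
    (hn : Nat.card (Sylow 19 G) = 1008) (h16 : 2 ^ 4 ∣ Nat.card G) (w : S.V) (hw : w * w ≠ 1) :
    False := by
  classical
  have := Fact.mk Nat.prime_two
  have hw4 : w ^ 4 = 1 := hV ▸ pow_card_eq_one'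
  have ho : orderOf w = 4 := orderOf_eq_prime_pow (p := 2) (n := 1) (by simpa [sq] using hw) hw4
  have uq : ∀ u : S.V, u * u = 1 → u ≠ 1 → u = w * w := fun u hu h1 => by
    obtain ⟨k, hk, rfl⟩ := mem_image.mp (mem_zpowers_iff_mem_range_orderOf.mp
      ((eq_top_of_card_eq (zpowers w) (by rw [Nat.card_zpowers, ho, hV])).ge (mem_top u)))
    rw [ho, mem_range] at hk
    rw [← pow_add, ← orderOf_dvd_iff_pow_eq_one, ho] at hu
    obtain rfl | rfl : k = 0 ∨ k = 2 := by omega
    exacts [absurd (pow_zero w) h1, sq w]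
  have hww : w * w * (w * w) = 1 := by rw [← hw4]; simp [pow_succ, mul_assoc]
  set v : G := (((w * w : S.V) : S.K) : G) with hv
  set N := normalizer ((zpowers S.x : Subgroup G) : Set G) with hN
  set C := centralizer ({v} : Set G) with hC
  have h1 : N ≤ C := fun n hn => by
    obtain ⟨i, k, rfl⟩ := S.exists_decomp hn
    refine mul_mem (mem_centralizer_singleton_iff.mpr (S.commute_xp i _))
      (mem_centralizer_singleton_iff.mpr (mul_inv_eq_iff_eq_mul.mp ?_))
    exact congrArg (fun u : S.V => ((u : S.K) : G)) (uq (MulAut.conjNormal k (w * w))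
      (by rw [← map_mul, hww, map_one]) (by rwa [Ne, MulEquiv.map_eq_one_iff]))
  obtain ⟨P, hP⟩ := exists_sylow_eq_zpowers S.hx S.hsq
  have h2 := H85.card_sylow_of_le P (hP.le.trans (le_normalizer.trans h1))
  rw [show ((P : Sylow 19 G) : Set G) = ((P : Subgroup G) : Set G) from rfl, hP, ← hN] at h2
  have h3 := relIndex_mul_index h1
  rw [← S.card_sylow, hn] at h3
  have h4 : N.relIndex C % 19 = 1 := h2 ▸ card_sylow_modEq_one 19 C
  have h5 := (Nat.mem_divisors (m := 1008)).mpr ⟨⟨_, h3.symm⟩, by norm_num⟩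
  simp only [Nat.divisors_ofNat, Finset.mem_insert, Finset.mem_singleton] at h5
  obtain h6 | h6 : N.relIndex C = 1 ∨ N.relIndex C = 1008 := by omega
  swap
  · rw [h6] at h3
    refine hw (Subtype.ext (Subtype.ext (mem_bot.mp (hZ ▸ mem_center_iff.mpr fun g => ?_))))
    exact mem_centralizer_singleton_iff.mp ((index_eq_one.mp (by omega) : C = ⊤).ge (mem_top g))
  rw [relIndex_eq_one] at h6
  have ho' : orderOf ((w : S.K) : G) = 2 ^ 2 := by rw [orderOf_coe, orderOf_coe, ho]; rfl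
  obtain ⟨Q, hQ⟩ := (IsPGroup.of_card ((Nat.card_zpowers _).trans ho')).exists_le_sylow
  have := Q.2.isNilpotent
  obtain ⟨g, hg, hg'⟩ := SetLike.exists_of_lt (Group.normalizerCondition_of_isNilpotent
    (C.subgroupOf Q) (lt_top_iff_ne_top.mpr fun e => by
      have := (Q.pow_dvd_card_of_pow_dvd_card h16).trans
        (card_dvd_of_le ((subgroupOf_eq_top.mp e).trans h6))
      rw [S.card_normalizer, S.card_K, hV, he] at this
      omega))
  have h7 := h6 ((mem_normalizer_iff.mp hg ⟨_, hQ (mem_zpowers _)⟩).mp (h1 (S.K_mem w)))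
  set y : G := (g : G) * (w : S.K) * (g : G)⁻¹ with hy
  have h8 : y ^ 4 = 1 := by rw [hy, conj_pow, ← Subgroup.coe_pow, ← Subgroup.coe_pow, hw4]; simp
  have h9 : Commute S.x (y ^ 6) := by
    obtain ⟨i, k, e⟩ := S.exists_decomp (n := y) h7
    by_cases hk : k ∈ S.V
    · exact (e ▸ (S.xp_one ▸ S.xp_comm 1 i).mul_right (S.commute_x ⟨k, hk⟩)).pow_right 6
    · obtain ⟨j, e'⟩ := S.exists_conj_xp_mul_K hk i
      have a1 := S.commute_xp j ⟨_, he ▸ S.V.pow_index_mem k⟩
      rw [e, e', conj_pow, ← Subgroup.coe_pow, a1.eq, mul_inv_cancel_right]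
      exact S.commute_x ⟨_, he ▸ S.V.pow_index_mem k⟩
  rw [show y ^ 6 = y * y by rw [pow_add y 4 2, h8, one_mul, sq]] at h9
  have a0 : y * y * (y * y) = 1 := by rw [← h8]; simp [pow_succ, mul_assoc]
  obtain ⟨u, hu⟩ := S.exists_eq_of_regular h9 fun e => by
    have := e.trans (orderOf_dvd_of_pow_eq_one ((sq _).trans a0))
    omega
  have a1 : y * y = g * v * (g : G)⁻¹ := by simp [hy, hv]
  rw [uq u (Subtype.ext (Subtype.ext (by simpa [hu] using a0))) fun e => hw (Subtype.ext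
    (Subtype.ext (show v = 1 by simpa [e, a1] using hu))), a1] at hu
  exact hg' (mem_centralizer_singleton_iff.mpr (mul_inv_eq_iff_eq_mul.mp hu))


/-- No finite simple group has order 459648 = 2^7 * 3^3 * 7 * 19. -/
theorem result {G : Type*} [Group G] [Finite G] [IsSimpleGroup G] : Nat.card G ≠ 459648 := by
  classical
  intro h
  have : Fact (Nat.Prime 19) := ⟨by norm_num⟩
  obtain ⟨S, B, φ, hB, hφ, hG, hZ, h1, h2, h3, h4, h5⟩ :=
    simple_setup 19 24192 h (by norm_num) (by norm_num)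
  have h6 := (Nat.mem_divisors (m := 18)).mpr ⟨h4, by norm_num⟩
  have h7 := (Nat.mem_divisors (m := 24192)).mpr ⟨⟨_, h5.symm.trans (mul_comm _ _)⟩, by norm_num⟩
  simp only [Nat.divisors_ofNat, Finset.mem_insert, Finset.mem_singleton] at h6 h7
  replace h7 : Nat.card (Sylow 19 G) = 96 ∨ Nat.card (Sylow 19 G) = 1008 := by omega
  replace h6 : Nat.card (Sylow 19 G) = 96 ∧ S.V.index ∣ 18 ∨ Nat.card (Sylow 19 G) = 1008 ∧
      (S.V.index = 2 ∨ S.V.index = 3 ∨ S.V.index = 6) := by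
    refine h7.imp (⟨·, h4⟩) fun e => ⟨e, ?_⟩
    rw [e] at h5
    generalize S.V.index = e at *
    rcases h6 with rfl | rfl | rfl | rfl | rfl | rfl <;> omega
  have hV : Nat.card S.V ≠ 1 := fun e => by
    have := Nat.le_of_dvd (by norm_num) h4
    rw [e, one_mul] at h5
    rcases h7 with h7 | h7 <;> rw [h7] at h5 <;> omega
  have := Finite.one_lt_card_iff_nontrivial.mp (lt_of_le_of_ne Nat.card_pos hV.symm)
  obtain ⟨v, hv⟩ := exists_ne (1 : S.V)
  set T := B.X.erase (triv G)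
  have hX : ∀ χ ∈ T, B.δ χ * (charDegree (χ : G → ℂ) : ℤ) = 96 ∨ Nat.card (Sylow 19 G) = 1008 ∧
      (B.δ χ * (charDegree (χ : G → ℂ) : ℤ) = -56 ∨ B.δ χ * (charDegree (χ : G → ℂ) : ℤ) = -189) :=
    fun χ hχ => by
      obtain ⟨a1, a2, a3, a4⟩ := B.numX hG hχ
      have a5 := sq_degree_le {χ}
      rw [sum_singleton, h] at a5
      have a6 : charDegree (χ : G → ℂ) < 678 := by nlinarith
      have a7 := mt (fun e : B.δ χ = -1 ∧ _ => simple_faithful (mem_erase.mp hχ).1 _
        (B.apply_eq_of_pred (mem_erase.mp hχ).2 e.1 e.2 v)) fun e => hv (Subtype.ext (Subtype.ext e))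
      rcases h6 with ⟨e, h6⟩ | ⟨e, h6⟩
      · have a8 := (Nat.mem_divisors (m := 1728)).mpr
          ⟨a2.trans (e ▸ Nat.mul_dvd_mul_right h6 96), by norm_num⟩
        simp only [Nat.divisors_ofNat, Finset.mem_insert, Finset.mem_singleton] at a8
        rcases a3 with a3 | a3 <;> rw [a3] at a4 a7 ⊢ <;> omega
      · have a8 := (Nat.mem_divisors (m := 6048)).mpr
          ⟨a2.trans (e ▸ Nat.mul_dvd_mul_right (show _ ∣ 6 by
            rcases h6 with h6 | h6 | h6 <;> rw [h6] <;> norm_num) 1008), by norm_num⟩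
        simp only [Nat.divisors_ofNat, Finset.mem_insert, Finset.mem_singleton] at a8
        rcases a3 with a3 | a3 <;> rw [a3] at a4 a7 ⊢ <;> omega
  have key : ∀ U ⊆ T, ∃ a b c : ℕ, a + b + c = U.card ∧
      ∑ χ ∈ U, B.δ χ * (charDegree (χ : G → ℂ) : ℤ) = 96 * a - 56 * b - 189 * c ∧
      (Nat.card (Sylow 19 G) = 96 → b = 0 ∧ c = 0) ∧
      (b ≠ 0 → ∃ χ ∈ T, B.δ χ * (charDegree (χ : G → ℂ) : ℤ) = -56) := fun U hU => by
    induction U using Finset.induction_on with
    | empty => exact ⟨0, 0, 0, by simp⟩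
    | insert χ U hχ ih =>
      obtain ⟨a, b, c, a1, a2, a3, a4⟩ := ih ((subset_insert _ _).trans hU)
      have hT := hU (mem_insert_self _ _)
      rw [card_insert_of_notMem hχ, sum_insert hχ, a2]
      rcases hX χ hT with e | ⟨e', e | e⟩
      · exact ⟨a + 1, b, c, by omega, by rw [e]; push_cast; ring, a3, a4⟩
      · exact ⟨a, b + 1, c, by omega, by rw [e]; push_cast; ring, by omega, fun _ => ⟨χ, hT, e⟩⟩
      · exact ⟨a, b, c + 1, by omega, by rw [e]; push_cast; ring, by omega, a4⟩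
  obtain ⟨a, b, c, a1, a2, a3, a4⟩ := key T subset_rfl
  have a5 := B.degree_eq' hB hφ
  obtain ⟨b1, b2, b3, -⟩ := B.numY hB hG hφ
  rw [B.card_erase hB] at a1
  rw [a2] at a5
  have b4 := Nat.pos_of_ne_zero (S.V.index_ne_zero_of_finite)
  rcases h6 with ⟨e, h6⟩ | ⟨e, h6⟩
  · have a8 := (Nat.mem_divisors (m := 1728)).mpr
      ⟨b2.trans (e ▸ Nat.mul_dvd_mul_right h6 96), by norm_num⟩
    simp only [Nat.divisors_ofNat, Finset.mem_insert, Finset.mem_singleton] at a8
    have := a3 e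
    rcases b3 with b3 | b3 <;> rw [b3] at a5 <;> omega
  have a8 := (Nat.mem_divisors (m := S.V.index * 1008)).mpr ⟨e ▸ b2, by omega⟩
  obtain ⟨he, hb⟩ : S.V.index = 6 ∧ b ≠ 0 := by
    rcases h6 with h6 | h6 | h6 <;> rw [h6] at a8 a1 <;>
      simp only [Nat.reduceMul, Nat.divisors_ofNat, Finset.mem_insert, Finset.mem_singleton] at a8 <;>
      rcases b3 with b3 | b3 <;> rw [b3] at a5 <;> omega
  have hV4 : Nat.card S.V = 4 := by rw [he, e] at h5; omega
  obtain ⟨χ, hχ, c1⟩ := a4 hb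
  obtain ⟨c2, c3⟩ : B.δ χ = -1 ∧ charDegree (χ : G → ℂ) = 56 := by
    rcases B.δ_sign χ (mem_erase.mp hχ).2 with c2 | c2 <;> rw [c2] at c1 ⊢ <;> omega
  by_cases hw : ∃ w : S.V, w * w ≠ 1
  · exact hw.elim (no_cyc S hZ hV4 he e (by rw [h]; norm_num))
  push Not at hw
  have hc := H5.isCharacter_of_isIrr χ.2
  obtain ⟨τ, t1, t2⟩ := B.exists_tauX (mem_erase.mp hχ).2
  have t3 : ∀ u ∈ univ.erase (1 : S.V), (χ : G → ℂ) (u : S.K) = -20 := fun u hu => by
    obtain ⟨k, k1, k2, j, rfl⟩ := (exists_invol_val hc (v := ((u : S.K) : G)) (by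
      rw [← Subgroup.coe_mul, ← Subgroup.coe_mul, hw]; rfl)).imp fun _ h =>
        h.imp_right (·.imp_right (· (hG ▸ mem_top _)))
    obtain ⟨l, -, l2, -⟩ := exists_invol_val t1 (hw u)
    have t4 := t2 u
    rw [k2, l2, c2, c3] at t4
    have t5 : (38 - 4 * j : ℤ) = 19 * (charDegree τ - 2 * l - 2) + 38 := by
      exact_mod_cast (by push_cast at t4 ⊢; linear_combination t4 :
        ((38 - 4 * j : ℤ) : ℂ) = (19 * (charDegree τ - 2 * l - 2) + 38 : ℤ))
    obtain rfl | rfl : j = 0 ∨ j = 19 := by omega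
    · exact absurd (Subtype.ext (Subtype.ext (simple_faithful (mem_erase.mp hχ).1 _
        (by rw [k2, cast_degree hc]; simp)))) (ne_of_mem_erase hu)
    · rw [k2, c3]; norm_num
  obtain ⟨k, hk⟩ := H5.exists_nat_classInner
    (H5.isCharacter_comp hc (S.K.subtype.comp S.V.subtype)) H5.isCharacter_one
  simp only [classInner, map_one, mul_one, MonoidHom.comp_apply, subtype_apply] at hk
  rw [← add_sum_erase _ _ (mem_univ 1), sum_congr rfl t3, sum_const, card_erase_of_mem (mem_univ _),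
    card_univ, ← Nat.card_eq_fintype_card, hV4, OneMemClass.coe_one, OneMemClass.coe_one,
    cast_degree hc, c3] at hk
  have : (k + 1 : ℕ) = (0 : ℂ) := by push_cast at hk ⊢; simp at hk; linear_combination -hk
  exact absurd (Nat.cast_eq_zero.mp this) k.succ_ne_zero

end Cfsg.Agent.S1022
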