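import Cfsg.Statements.S1026
import Cfsg.Agent.H38.Mat

set_option autoImplicit false
open Cfsg

namespace Cfsg.Agent.S1026

open Cfsg.Agent.H37 Cfsg.Agent.H38

theorem exists_list (D : Cfsg.Lie.ChevalleyDatum) [Chev D] : ∃ L : List (Fin D.nroots),
    L.map Fin.val = D.posRoots ∧ L.Nodup ∧ ∀ r, r ∈ L ↔ r ∈ {r | (rs D).Pos r} := by
  have h1 : ∀ r ∈ D.posRoots, r < D.nroots := fun r hr => (Chev.mem_posRoots.1 hr).2
  have h2 : (D.posRoots.pmap Fin.mk h1).map Fin.val = D.posRoots := by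
    simp [List.map_pmap]
  refine ⟨D.posRoots.pmap Fin.mk h1, h2, List.Nodup.of_map Fin.val ?_, fun r => ?_⟩
  · rw [h2]; exact List.nodup_range.filter _
  · rw [← List.mem_map_of_injective Fin.val_injective, h2, Chev.mem_posRoots, Set.mem_ofPred_eq, rs_pos_iff]
    simp [r.2]


/-- Every element of `U` has a unique expression `∏_{r ∈ Φ⁺} x_r(t_r)`, the product over the positive roots in increasing index order (the coefficient family `t`, supported on the positive roots, exists and is unique); and conversely every such ordered product is the matrix of an element of `U`. -/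
theorem result {F : Type*} [Field F] (D : Cfsg.Lie.ChevalleyDatum) (hD : D ∈ [Cfsg.Lie.chevG2, Cfsg.Lie.chevB2, Cfsg.Lie.chevD4, Cfsg.Lie.chevF4, Cfsg.Lie.chevE6, Cfsg.Lie.chevE7, Cfsg.Lie.chevE8]) :
    (∀ g : GL D.Idx F, g ∈ D.posUnipotent F →
      ∃! t : ℕ → F, (∀ r, ¬ D.IsPosRoot r → t r = 0) ∧
        (g : Matrix D.Idx D.Idx F) = D.wordMat F (D.posRoots.map fun r => (r, t r))) ∧
    (∀ t : ℕ → F, ∃ g : GL D.Idx F, g ∈ D.posUnipotent F ∧
      (g : Matrix D.Idx D.Idx F) = D.wordMat F (D.posRoots.map fun r => (r, t r))) := by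
  obtain ⟨inst⟩ := nonempty_chev hD
  obtain ⟨L, hL, hnd, hmem⟩ := exists_list D
  have key : ∀ t : ℕ → F, D.wordMat F (D.posRoots.map fun r => (r, t r)) =
      ((mg hD F).prodL L fun r => t r : GL D.Idx F) := by
    intro t
    rw [mg_prodL, ← hL, List.map_map]; rfl
  rw [← mg_U hD]
  simp only [key, Units.val_inj]
  constructor
  · intro g hg
    obtain ⟨t, rfl⟩ := (mg hD F).exists_prodL (rs D).cl_pos hmem hnd hg
    refine ⟨fun r => if h : D.IsPosRoot r then t ⟨r, h.1⟩ else 0, ⟨fun r hr => dif_neg hr, ?_⟩, ?_⟩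
    · exact (mg hD F).prodL_congr fun r hr =>
        (dif_pos (t := fun h : D.IsPosRoot r => t ⟨r, h.1⟩) ((rs_pos_iff' r).1 ((hmem r).1 hr))).symm
    · rintro t' ⟨h0, e⟩
      have := (mg hD F).prodL_inj (mg_faithful hD F).sep (rs D).cl_pos (fun r => (hmem r).1) hnd e
      funext r
      split_ifs with h
      · exact (this ⟨r, h.1⟩ ((hmem _).2 ((rs_pos_iff' _).2 h))).symm
      · exact h0 r h
  · intro t
    exact ⟨_, (mg hD F).prodL_mem (fun r => (hmem r).1) _, rfl⟩

end Cfsg.Agent.S1026
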