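import Cfsg.Statements.S1036
import Cfsg.Agent.H38.Mat

set_option autoImplicit false
open Cfsg

namespace Cfsg.Agent.S1036

open Cfsg.Agent.H37 Cfsg.Agent.H38


/-- `H` normalises `U` and `U ∩ H = 1`; thus `B = UH` is the semidirect product of `U` by `H`. -/
theorem result {F : Type*} [Field F] (D : Cfsg.Lie.ChevalleyDatum) (hD : D ∈ [Cfsg.Lie.chevG2, Cfsg.Lie.chevB2, Cfsg.Lie.chevD4, Cfsg.Lie.chevF4, Cfsg.Lie.chevE6, Cfsg.Lie.chevE7, Cfsg.Lie.chevE8]) :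
    D.diagonalSubgroup F ≤ Subgroup.normalizer (D.posUnipotent F : Set (GL D.Idx F)) ∧
      D.posUnipotent F ⊓ D.diagonalSubgroup F = ⊥ := by
  obtain ⟨inst⟩ := nonempty_chev hD
  rw [← mg_H hD, ← mg_U hD]
  exact ⟨(mg hD F).H_le_normalizer _, (mg_faithful hD F).U_inf_H⟩

end Cfsg.Agent.S1036
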