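import Cfsg.Statements.S1039
import Cfsg.Agent.H39.St

set_option autoImplicit false
open Cfsg

namespace Cfsg.Agent.S1039

open Cfsg.Lie H38 H39 in
theorem key (F : Type*) [Field F] {D : ChevalleyDatum} (hD : H37.IsChev D) (M : CoxeterMatrix (Fin D.rank))
    (hM : coxM D = M) :
    ∃ φ : ↥(D.monomialSubgroup F) →* M.Group, Function.Surjective φ ∧
      φ.ker = (D.diagonalSubgroup F).subgroupOf (D.monomialSubgroup F) ∧
      ∀ (i : Fin D.rank) (g : ↥(D.monomialSubgroup F)),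
        ((g : GL D.Idx F) : Matrix D.Idx D.Idx F) = D.nMat F (D.simple i) 1 → φ g = M.simple i := by
  obtain ⟨inst⟩ := H37.nonempty_chev hD
  obtain rfl : (RD hD).M = M := hM
  have hF := mg_faithful hD F
  have hex : ∀ g : D.monomialSubgroup F, ∃ w : (RD hD).W, (mg hD F).Rep g w := fun g => by
    obtain ⟨w, hw⟩ := (mg hD F).mem_N_iff.1 (by rw [mg_N]; exact g.2)
    exact ⟨⟨w, rs_W hD ▸ hw.mem_W⟩, hw⟩
  choose ψ hψ using hex
  let φ : D.monomialSubgroup F →* (RD hD).W := MonoidHom.mk' ψ fun a b =>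
    Subtype.ext (hF.rep_unique (hψ _) ((hψ a).mul (hψ b)))
  have hφ : ∀ (g : D.monomialSubgroup F) (w : (RD hD).W), (mg hD F).Rep g w → φ g = w := fun g w h =>
    Subtype.ext (hF.rep_unique (hψ _) h)
  refine ⟨(RD hD).equivW.symm.toMonoidHom.comp φ, (RD hD).equivW.symm.surjective.comp fun w => ?_, ?_, ?_⟩
  · obtain ⟨g, hg⟩ := (mg hD F).exists_rep (w := w) (by rw [rs_W hD]; exact w.2)
    exact ⟨⟨g, by rw [← mg_N hD]; exact hg.mem_N⟩, hφ _ _ hg⟩
  · ext g
    rw [MonoidHom.mem_ker, Subgroup.mem_subgroupOf, ← mg_H hD]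
    simp only [MonoidHom.comp_apply, MulEquiv.coe_toMonoidHom, map_eq_one_iff _ (MulEquiv.injective _)]
    refine ⟨fun h => ?_, fun h => hφ g 1 ((mg hD F).rep_of_mem_H h)⟩
    have := hψ g
    rw [show ψ g = 1 from h] at this
    exact this.mem_H
  · intro i g hg
    simp only [MonoidHom.comp_apply, MulEquiv.coe_toMonoidHom]
    rw [MulEquiv.symm_apply_eq, RootData.equivW_simple]
    apply hφ
    rw [(eq_mg_ns hD F).1 hg]
    have : (RD hD).σ i = (rs D).σ i := Equiv.ext fun s => Fin.ext (RD_s_refl hD i s)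
    simpa only [this] using (mg hD F).rep_ns i


/-- `N/H ≅ W`: there is a surjective homomorphism from `N` onto the Coxeter group of the type (Mathlib's Coxeter matrix G₂, B₂, F₄, E₆, E₇, E₈, nodes numbered as the fundamental roots) with kernel `H`, mapping each `n_{p_i}` to the `i`-th simple reflection. -/
theorem result {F : Type*} [Field F]
    (p : Cfsg.Lie.ChevalleyDatum × (Σ n : ℕ, CoxeterMatrix (Fin n)))
    (hp : p ∈ [(Cfsg.Lie.chevG2, ⟨2, CoxeterMatrix.G₂⟩), (Cfsg.Lie.chevB2, ⟨2, CoxeterMatrix.B 2⟩), (Cfsg.Lie.chevD4, ⟨4, Cfsg.Lie.coxeterD4⟩), (Cfsg.Lie.chevF4, ⟨4, CoxeterMatrix.F₄⟩),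
      (Cfsg.Lie.chevE6, ⟨6, CoxeterMatrix.E₆⟩), (Cfsg.Lie.chevE7, ⟨7, CoxeterMatrix.E₇⟩), (Cfsg.Lie.chevE8, ⟨8, CoxeterMatrix.E₈⟩)]) :
    ∃ φ : ↥(p.1.monomialSubgroup F) →* p.2.2.Group, Function.Surjective φ ∧
      φ.ker = (p.1.diagonalSubgroup F).subgroupOf (p.1.monomialSubgroup F) ∧
      ∀ (i : Fin p.2.1) (g : ↥(p.1.monomialSubgroup F)),
        ((g : GL p.1.Idx F) : Matrix p.1.Idx p.1.Idx F) = p.1.nMat F (p.1.simple i) 1 → φ g = p.2.2.simple i := by
  simp only [List.mem_cons, List.not_mem_nil, or_false] at hp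
  rcases hp with rfl | rfl | rfl | rfl | rfl | rfl | rfl
  · exact key F (by simp) _ H39.coxM_G2
  · exact key F (by simp) _ H39.coxM_B2
  · exact key F (by simp) _ H39.coxM_D4
  · exact key F (by simp) _ H39.coxM_F4
  · exact key F (by simp) _ H39.coxM_E6
  · exact key F (by simp) _ H39.coxM_E7
  · exact key F (by simp) _ H39.coxM_E8

end Cfsg.Agent.S1039
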