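import Cfsg.Statements.S1044
import Cfsg.Agent.H38.Mat

set_option autoImplicit false
open Cfsg

namespace Cfsg.Agent.S1044

open Cfsg.Agent.H37 Cfsg.Agent.H38


/-- For a fundamental root `p` the set `B ∪ B n_p B` is (the carrier of) a subgroup of the general linear group. -/
theorem result {F : Type*} [Field F] (D : Cfsg.Lie.ChevalleyDatum) (hD : D ∈ [Cfsg.Lie.chevG2, Cfsg.Lie.chevB2, Cfsg.Lie.chevD4, Cfsg.Lie.chevF4, Cfsg.Lie.chevE6, Cfsg.Lie.chevE7, Cfsg.Lie.chevE8]) (i : ℕ) (hi : i < D.rank) (n : GL D.Idx F)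
    (hn : (n : Matrix D.Idx D.Idx F) = D.nMat F (D.simple i) 1) :
    ∃ P : Subgroup (GL D.Idx F), (P : Set (GL D.Idx F)) =
      (D.borelSubgroup F : Set (GL D.Idx F)) ∪ DoubleCoset.doubleCoset n (D.borelSubgroup F : Set (GL D.Idx F)) (D.borelSubgroup F) := by
  obtain ⟨inst⟩ := nonempty_chev hD
  obtain rfl := (eq_mg_ns hD F (i := ⟨i, hi⟩)).1 hn
  set j : Fin D.rank := ⟨i, hi⟩
  rw [← mg_B hD]
  refine ⟨(mg hD F).PJ {j}, Set.ext fun g => ⟨fun hg => ?_, ?_⟩⟩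
  · obtain ⟨b, hb, n, w, hn, hw, b', hb', rfl⟩ := (mg hD F).mem_PJ_iff.1 hg
    have : w = 1 ∨ w = (rs D).σ j := by
      by_cases h : (rs D).Pos (w ((rs D).sp j))
      · exact Or.inl ((rs D).eq_one_of_pos hw (by rintro _ rfl; exact h))
      · right
        have := (rs D).eq_one_of_pos (mul_mem hw ((rs D).σ_mem_WJ (i := j) rfl)) (by
          rintro _ rfl
          rwa [Equiv.Perm.mul_apply, RS.σ_sp, (rs D).W_neg hn.mem_W, RS.pos_neg_iff])
        rw [eq_inv_of_mul_eq_one_left this, RS.σ_inv]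
    rcases this with rfl | rfl
    · exact Or.inl (mul_mem (mul_mem hb ((mg hD F).H_le_B hn.mem_H)) hb')
    · exact Or.inr (DoubleCoset.mem_doubleCoset.2 ⟨_, mul_mem hb ((mg hD F).H_le_B
        (hn.mul_inv_mem_H ((mg hD F).rep_ns j))), b', hb', by group⟩)
  · rintro (hg | hg)
    · exact (mg hD F).B_le_PJ _ hg
    · obtain ⟨b, hb, b', hb', rfl⟩ := DoubleCoset.mem_doubleCoset.1 hg
      exact mul_mem (mul_mem ((mg hD F).B_le_PJ _ hb) ((mg hD F).ns_mem_PJ rfl)) ((mg hD F).B_le_PJ _ hb')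

end Cfsg.Agent.S1044
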