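import Cfsg.Statements.S1045
import Cfsg.Agent.H38.Mat

set_option autoImplicit false
open Cfsg

namespace Cfsg.Agent.S1045

open Cfsg.Agent.H37 Cfsg.Agent.H38


/-- For a fundamental root `p`, the subgroup `U_p` generated by the `X_s`, `s` positive and `s ≠ p`, is normalised by `X_p` and `X_{-p}`, and `U = U_p ⊔ X_p`. -/
theorem result {F : Type*} [Field F] (D : Cfsg.Lie.ChevalleyDatum) (hD : D ∈ [Cfsg.Lie.chevG2, Cfsg.Lie.chevB2, Cfsg.Lie.chevD4, Cfsg.Lie.chevF4, Cfsg.Lie.chevE6, Cfsg.Lie.chevE7, Cfsg.Lie.chevE8]) (i : ℕ) (hi : i < D.rank) :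
    D.rootSubgroup F (D.simple i) ⊔ D.rootSubgroup F (D.neg (D.simple i)) ≤
        Subgroup.normalizer (Subgroup.closure {g : GL D.Idx F | ∃ (s : ℕ) (t : F), D.IsPosRoot s ∧ s ≠ D.simple i ∧
          (g : Matrix D.Idx D.Idx F) = D.x F s t} : Set (GL D.Idx F)) ∧
      Subgroup.closure {g : GL D.Idx F | ∃ (s : ℕ) (t : F), D.IsPosRoot s ∧ s ≠ D.simple i ∧
          (g : Matrix D.Idx D.Idx F) = D.x F s t} ⊔ D.rootSubgroup F (D.simple i) = D.posUnipotent F := by
  obtain ⟨inst⟩ := nonempty_chev hD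
  have := mg_US hD F (fun r => D.IsPosRoot r ∧ r ≠ D.simple i) fun r h => h.1.1
  simp only [and_assoc] at this
  have e : {r : Fin D.nroots | D.IsPosRoot r ∧ (r : ℕ) ≠ D.simple i} =
      {r | (rs D).Pos r ∧ r ≠ (rs D).sp ⟨i, hi⟩} := by
    ext r; exact and_congr (rs_pos_iff' r).symm (not_congr (Fin.ext_iff (b := (rs D).sp ⟨i, hi⟩)).symm)
  rw [this, e, ← mg_U hD, show D.simple i = (rs D).sp ⟨i, hi⟩ from rfl, ← rs_neg_val,
    mg_rootSubgroup hD, mg_rootSubgroup hD, ← RG0.US_union, ← RG0.US_union]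
  set j : Fin D.rank := ⟨i, hi⟩
  constructor
  · refine (mg hD F).US_le_normalizer ?_
    have key : ∀ r s k, (r = (rs D).sp j ∨ r = (rs D).neg ((rs D).sp j)) → (rs D).Pos s →
        s ≠ (rs D).sp j → (rs D).Comb r s k → (rs D).Pos k ∧ k ≠ (rs D).sp j := by
      rintro r s k hr hs hne ⟨a, b, ha, hb, e⟩
      have : ¬ ∀ m, m ≠ j → (rs D).cf s m = 0 := fun h => by
        rcases (rs D).reduced s j h with h | h
        · exact hne h
        · exact (rs D).not_pos_neg_sp j (h ▸ hs)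
      push Not at this
      obtain ⟨m, hm, hm'⟩ := this
      have h1 : (rs D).cf r m = 0 := by
        rcases hr with rfl | rfl <;> simp [(rs D).cf_neg, (rs D).cf_sp, hm]
      have h2 : 0 < (rs D).cf k m := by
        rw [e]; simpa [h1] using mul_pos hb (lt_of_le_of_ne (hs m) hm'.symm)
      refine ⟨(rs D).pos_of_coeff h2, ?_⟩
      rintro rfl
      simp [(rs D).cf_sp, hm] at h2
    rintro r hr s hs
    refine ⟨?_, fun k hk => key r s k hr hs.1 hs.2 hk⟩
    rcases hr with rfl | rfl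
    · exact (rs D).ne_neg_of_pos ((rs D).pos_sp j) hs.1
    · rw [(rs D).neg_neg]; exact hs.2
  · rw [RG.U]
    congr 1
    ext r
    simp only [Set.mem_union, Set.mem_ofPred_eq, Set.mem_singleton_iff]
    refine ⟨fun h => h.elim And.left fun e => e ▸ (rs D).pos_sp j, fun h => ?_⟩
    by_cases e : r = (rs D).sp j
    · exact Or.inr e
    · exact Or.inl ⟨h, e⟩

end Cfsg.Agent.S1045
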