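import Cfsg.Statements.S1046
import Cfsg.Agent.H38.Mat

set_option autoImplicit false
open Cfsg

namespace Cfsg.Agent.S1046

open Cfsg.Agent.H37 Cfsg.Agent.H38


/-- Two elements of `H` conjugate in the Chevalley group are conjugate by an element of `N`. -/
theorem result {F : Type*} [Field F] (D : Cfsg.Lie.ChevalleyDatum) (hD : D ∈ [Cfsg.Lie.chevG2, Cfsg.Lie.chevB2, Cfsg.Lie.chevD4, Cfsg.Lie.chevF4, Cfsg.Lie.chevE6, Cfsg.Lie.chevE7, Cfsg.Lie.chevE8]) (h₁ h₂ g : GL D.Idx F) (h1 : h₁ ∈ D.diagonalSubgroup F) (h2 : h₂ ∈ D.diagonalSubgroup F)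
    (hg : g ∈ D.group F) (hc : g * h₁ * g⁻¹ = h₂) :
    ∃ n ∈ D.monomialSubgroup F, n * h₁ * n⁻¹ = h₂ := by
  obtain ⟨inst⟩ := nonempty_chev hD
  rw [← mg_H hD] at h1 h2
  rw [← mg_grp hD] at hg
  rw [← mg_N hD]
  obtain ⟨u, hu, n, w, hn, u', hu', rfl⟩ := (mg hD F).exists_bruhat' hg
  refine ⟨n, hn.mem_N, ?_⟩
  have e : u * (n * h₁) * (h₁⁻¹ * u' * h₁⁻¹⁻¹) = (h₂ * u * h₂⁻¹) * (h₂ * n) * u' := by
    rw [← hc]; group
  have := ((mg_faithful hD F).bruhat_unique (hn.mul_H h1) (hn.H_mul h2) hu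
    ((mg hD F).H_conj_mem_US h2 hu) ((mg hD F).H_conj_mem_US (inv_mem h1) hu') hu' e).2.2.1
  rw [this]; group

end Cfsg.Agent.S1046
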