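import Cfsg.Statements.S1047
import Cfsg.Agent.H38.Mat

set_option autoImplicit false
open Cfsg

namespace Cfsg.Agent.S1047

open Cfsg.Agent.H37 Cfsg.Agent.H38


/-- `P_J = ⟨H, X_r : r ∈ Φ⁺ ∪ Φ_J⟩`. -/
theorem result {F : Type*} [Field F] (D : Cfsg.Lie.ChevalleyDatum) (hD : D ∈ [Cfsg.Lie.chevG2, Cfsg.Lie.chevB2, Cfsg.Lie.chevD4, Cfsg.Lie.chevF4, Cfsg.Lie.chevE6, Cfsg.Lie.chevE7, Cfsg.Lie.chevE8]) (J : Set ℕ) :
    D.parabolicSubgroup F J = D.diagonalSubgroup F ⊔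
      Subgroup.closure {g : GL D.Idx F | ∃ (r : ℕ) (t : F), (D.IsPosRoot r ∨ D.InRootSub J r) ∧ (g : Matrix D.Idx D.Idx F) = D.x F r t} := by
  obtain ⟨inst⟩ := nonempty_chev hD
  rw [mg_US hD F (fun r => D.IsPosRoot r ∨ D.InRootSub J r) fun r h => h.elim And.left And.left,
    mg_PJ hD, ← mg_H hD]
  refine le_antisymm (sup_le (sup_le ?_ le_sup_left) ((Subgroup.closure_le _).2 ?_))
    (sup_le ((mg hD F).H_le_B.trans ((mg hD F).B_le_PJ _)) (RG0.US_le _ |>.2 ?_))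
  · exact le_sup_of_le_right ((mg hD F).US_mono fun r hr => Or.inl ((rs_pos_iff' r).1 hr))
  · rintro _ ⟨j, hj, rfl⟩
    refine Subgroup.mem_sup_right ((mg hD F).n_mem_US (Or.inl ((rs_pos_iff' _).1 ((rs D).pos_sp j)))
      (Or.inr ((rs_supp_iff J _).1 fun k hk => ?_)) 1)
    have : k ≠ j := by rintro rfl; exact hk hj
    simp [(rs D).cf_neg, (rs D).cf_sp, this]
  · rintro r (hr | hr) t
    · exact (mg hD F).B_le_PJ _ ((mg hD F).x_mem_B ((rs_pos_iff' r).2 hr) t)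
    · exact (mg hD F).x_mem_PJ ((rs_supp_iff J r).2 hr) t

end Cfsg.Agent.S1047
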