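import Cfsg.Statements.S1048
import Cfsg.Agent.H38.MatLevi

set_option autoImplicit false
open Cfsg

namespace Cfsg.Agent.S1048

open Cfsg.Agent.H37 Cfsg.Agent.H38


/-- `U_J ⊴ P_J`, `P_J = U_J L_J` and `U_J ∩ L_J = 1` (Levi decomposition of the standard parabolic subgroup). -/
theorem result {F : Type*} [Field F] (D : Cfsg.Lie.ChevalleyDatum) (hD : D ∈ [Cfsg.Lie.chevG2, Cfsg.Lie.chevB2, Cfsg.Lie.chevD4, Cfsg.Lie.chevF4, Cfsg.Lie.chevE6, Cfsg.Lie.chevE7, Cfsg.Lie.chevE8]) (J : Set ℕ) :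
    D.parabolicSubgroup F J ≤ Subgroup.normalizer (D.unipotentRadical F J : Set (GL D.Idx F)) ∧
      D.unipotentRadical F J ⊔ D.leviSubgroup F J = D.parabolicSubgroup F J ∧
      D.unipotentRadical F J ⊓ D.leviSubgroup F J = ⊥ := by
  obtain ⟨inst⟩ := nonempty_chev hD
  rw [mg_UJ' hD, mg_LJ' hD, mg_PJ hD]
  exact ⟨(mg hD F).PJ_le_normalizer _, (mg hD F).UJ_sup_LJ _, mg_UJ_inf_LJ hD F _⟩

end Cfsg.Agent.S1048
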