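import Cfsg.Statements.S1051
import Cfsg.Agent.H38.Mat
import Cfsg.Agent.H38.Struct

set_option autoImplicit false
open Cfsg

namespace Cfsg.Agent.S1051

open Cfsg.Agent.H37 Cfsg.Agent.H38


/-- `⋂_g g B g⁻¹ = 1`: the normal core of `B` in the Chevalley group is trivial. -/
theorem result {F : Type*} [Field F] (D : Cfsg.Lie.ChevalleyDatum) (hD : D ∈ [Cfsg.Lie.chevG2, Cfsg.Lie.chevB2, Cfsg.Lie.chevD4, Cfsg.Lie.chevF4, Cfsg.Lie.chevE6, Cfsg.Lie.chevE7, Cfsg.Lie.chevE8]) : ((D.borelSubgroup F).subgroupOf (D.group F)).normalCore = ⊥ := by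
  obtain ⟨inst⟩ := nonempty_chev hD
  rw [← mg_B hD, ← mg_grp hD]
  exact (mg_faithful hD F).normalCore_B fun h hh e => mg_adj hD F hh e

end Cfsg.Agent.S1051
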