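import Cfsg.Statements.S1075
import Cfsg.Agent.H38.Wd
import Cfsg.Agent.H90.Stein
import Cfsg.Agent.H56.Fields
import Cfsg.Agent.H9.SLBasic
import Cfsg.Agent.H9.Transport
import Cfsg.Agent.S1069

set_option autoImplicit false
open Cfsg

namespace Cfsg.Agent.S1075

open Cfsg.Lie Cfsg.Agent.H37 Cfsg.Agent.H40 Cfsg.Agent.H38 Cfsg.Agent.H90 Cfsg.Agent.H56

theorem st_of_gen {F G : Type*} [Field F] [CharP F 2] [Group G] {ω : F} (hω : ∀ t : F, t ≠ 0 → ∃ k : ℕ, t = ω ^ k)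
    {x : F → G} {h w : G} (h0 : x 0 = 1) (h1 : ∀ t, h * x t * h⁻¹ = x (ω * t)) (h2 : ∀ t, x (1 + t) = x 1 * x t)
    (h3 : w⁻¹ = w) (h4 : w * h * w⁻¹ = h⁻¹) (h5 : x 1 * (w * x 1 * w⁻¹) * x 1 = w) : St x fun t => w * x t * w⁻¹ := by
  have key (t : F) (ht : t ≠ 0) : ∃ g : G, (∀ u, g * x u * g⁻¹ = x (t * u)) ∧ w * g * w⁻¹ = g⁻¹ := by
    obtain ⟨k, rfl⟩ := hω t ht
    refine ⟨h ^ k, fun u => ?_, by rw [← conj_pow, h4, inv_pow]⟩
    clear ht
    induction k with
    | zero => simp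
    | succ k ih => rw [pow_succ', pow_succ', mul_assoc ω, ← h1, ← ih]; group
  have hadd (s t : F) : x (s + t) = x s * x t := by
    by_cases hs : s = 0
    · rw [hs, h0, zero_add, one_mul]
    obtain ⟨g, e, -⟩ := key s hs
    have := e (1 + s⁻¹ * t)
    rw [h2, mul_add, mul_one, mul_inv_cancel_left₀ hs] at this
    rw [← this, ← conj_mul, e, e, mul_one, mul_inv_cancel_left₀ hs]
  have hw (t : F) (ht : t ≠ 0) : ∃ g : G, (∀ u, g * x u * g⁻¹ = x (t ^ 2 * u)) ∧ w * g * w⁻¹ = g⁻¹ ∧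
      stw x (fun t => w * x t * w⁻¹) t = w * g⁻¹ := by
    obtain ⟨g, e, e'⟩ := key t ht
    refine ⟨g * g, fun u => by rw [pow_two, mul_assoc t, ← e, ← e]; group, by rw [← conj_mul, e', _root_.mul_inv_rev], ?_⟩
    have h6 : x t⁻¹ = g⁻¹ * x 1 * g := by rw [← mul_inv_cancel₀ ht, ← e]; group
    have h7 : w * g⁻¹ * w⁻¹ = g := by rw [← conj_inv, e', inv_inv]
    rw [stw, CharTwo.neg_eq, h6, ← mul_one t, ← e, ← conj_mul, ← conj_mul, e', h7]
    calc _ = g * (x 1 * (w * x 1 * w⁻¹) * x 1) * g⁻¹ := by group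
      _ = w * g⁻¹ * w⁻¹ * w * g⁻¹ := by rw [h5, h7]
      _ = _ := by group
  refine ⟨hadd, fun s t => by rw [hadd, conj_mul], fun t ht u => ?_, fun t ht u => ?_⟩
  · obtain ⟨g, e, -, e'⟩ := hw t ht
    rw [e', CharTwo.neg_eq, show x u = x (t ^ 2 * (u / t ^ 2)) by rw [mul_div_cancel₀ _ (pow_ne_zero 2 ht)], ← e]
    group
  · obtain ⟨g, e, e', e''⟩ := hw t ht
    have h7 : w * g⁻¹ * w⁻¹ = g := by rw [← conj_inv, e', inv_inv]
    rw [e'', CharTwo.neg_eq, mul_comm u, ← e]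
    calc _ = w * g⁻¹ * w⁻¹ * x u * w := by simp only [h3, mul_assoc]
      _ = g * x u * (w * g * w⁻¹) * w * g⁻¹ := by rw [h7]; group
      _ = _ := by rw [e']; group

theorem st_comp {F L G : Type*} [Field F] [Field L] [Group G] {x y : F → G} (h : St x y) (σ : L ≃+* F) :
    St (fun t => x (σ t)) fun t => y (σ t) :=
  ⟨fun s t => by rw [map_add, h.x_add], fun s t => by rw [map_add, h.y_add],
    fun t ht u => by simpa [stw] using h.wx (σ t) (by simpa using ht) (σ u),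
    fun t ht u => by simpa [stw] using h.wy (σ t) (by simpa using ht) (σ u)⟩

/-- the generating words of the small Ree group -/
def gw (a : Bool × ℤ × ℤ × ℤ) : List (ℕ × PE) :=
  let w : List (ℕ × PE) := [(7, .pow (.cst a.2.1) 1), (6, .cst a.2.1),
    (8, .add (.pow (.cst a.2.1) 2) (.pow (.cst a.2.2.1) 1)), (9, .add (.pow (.cst a.2.1) 3) (.pow (.cst a.2.2.2) 1)),
    (10, .cst a.2.2.1), (11, .cst a.2.2.2)]
  bif a.1 then w.map fun e => (11 - e.1, .neg e.2) else w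

/-- products of generators -/
noncomputable def E (l : List (Bool × ℤ × ℤ × ℤ)) : twistedG2 (ZMod 3) 1 := ⟨Wg isChev_G2 [] (l.flatMap gw), by
  induction l with
  | nil => exact one_mem _
  | cons a l ih =>
    rw [List.flatMap_cons, ← Wg_mul]
    obtain ⟨_ | _, t, u, v⟩ := a
    · exact mul_mem (gword_mem_gen isChev_G2 ⟨t, u, v, Or.inl rfl⟩) ih
    · exact mul_mem (gword_mem_gen isChev_G2 ⟨t, u, v, Or.inr rfl⟩) ih⟩

/-- a Sylow 2-subgroup -/
def xl (t : TF F8) : List (Bool × ℤ × ℤ × ℤ) :=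
  [[], [(false, 0, 0, 1), (false, 0, 1, 0), (true, 0, 2, 0), (false, 0, 0, 2)],
    [(false, 0, 1, 0), (true, 0, 0, 2), (false, 0, 0, 2), (false, 0, 2, 0), (true, 0, 0, 2)],
    [(false, 1, 2, 2), (true, 0, 0, 2), (true, 0, 2, 0)],
    [(false, 0, 0, 1), (false, 0, 2, 0), (true, 0, 1, 0), (false, 0, 0, 2)], [(false, 2, 2, 0), (true, 2, 0, 1)],
    [(false, 0, 0, 2), (true, 2, 1, 1)], [(false, 0, 1, 0), (true, 2, 2, 1), (false, 0, 1, 0), (true, 0, 0, 1)]].getD
    (Fin.val t) []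

theorem st : ∃ y, St (fun t => E (xl t)) y := by
  have : CharP (TF F8) 2 := charP_of_card_eq_prime_pow (f := 3) (TF.card F8)
  refine ⟨_, st_of_gen (ω := TF.mk F8 2) (h := E [(true, 0, 0, 2), (false, 0, 1, 0), (true, 0, 2, 0)])
    (w := E [(false, 2, 1, 1), (true, 0, 0, 2)])
    (fun t ht => let ⟨k, e⟩ := (by decide +kernel : ∀ t : TF F8, t ≠ 0 → ∃ k : Fin 7, t = TF.mk F8 2 ^ k.1) t ht; ⟨k, e⟩)
    rfl (fun t => ?_) (fun t => ?_) ?_ ?_ ?_⟩ <;> refine Subtype.ext ?_ <;>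
    simp only [E, Subgroup.coe_mul, Subgroup.coe_inv, Wg_mul, Wg_inv] <;> refine Wg_eq _ _ (p := 3) rfl ?_
  · revert t; decide +kernel
  · revert t; decide +kernel
  all_goals decide +kernel

theorem E_ne : E (xl 1) ≠ 1 := fun e => by
  let z := Wg isChev_G2 ([] : List (ZMod 3)) (gw (false, 0, 0, 1))
  have h1 : E [(true, 0, 0, 1), (false, 0, 0, 2)] * E (xl 1) * (E [(true, 0, 0, 1), (false, 0, 0, 2)])⁻¹ *
      (E [(true, 0, 2, 0), (false, 0, 2, 0)] * E (xl 1) * (E [(true, 0, 2, 0), (false, 0, 2, 0)])⁻¹) = z := by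
    simp only [z, E, Subgroup.coe_inv, Wg_mul, Wg_inv]
    exact Wg_eq _ _ (p := 3) rfl (by decide +kernel)
  have h2 : Wg isChev_G2 [] [(5, .one)] * z * (Wg isChev_G2 [] [(5, .one)])⁻¹ * z⁻¹ = Wg isChev_G2 [] [(10, .one)] := by
    simp only [z, Wg_mul, Wg_inv]
    exact Wg_eq _ _ (p := 3) rfl (by decide +kernel)
  rw [← h1, e] at h2
  exact Wd_one_ne isChev_G2 ([] : List (ZMod 3)) (r := 10) (by decide) (Subtype.ext (h2.symm.trans (by simp)))

/-- The derived group of the small Ree group `²G₂(3)` has index three and is `PSL₂(8)`. -/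
theorem exists_inj {L : Type*} [Field L] [Fintype L] (hL : Fintype.card L = 8) :
    ∃ φ : Matrix.ProjectiveSpecialLinearGroup (Fin 2) L →* twistedG2 (ZMod 3) 1, Function.Injective φ ∧
      commutator (twistedG2 (ZMod 3) 1) = φ.range ∧ φ.range.index = 3 := by
  obtain ⟨y, h⟩ := st
  let σ : L ≃+* TF F8 := FiniteField.ringEquivOfCardEq (hL.trans (TF.card F8).symm)
  obtain ⟨φ, h1, -⟩ := (st_comp h σ).exists_hom_finite
  let e := H9.quotCenterEquivOfBot (show Subgroup.center (Matrix.SpecialLinearGroup (Fin 2) L) = ⊥ by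
    rw [← Subgroup.card_eq_one, H9.card_center_sl, hL]; simp)
  have : IsSimpleGroup (Matrix.ProjectiveSpecialLinearGroup (Fin 2) L) :=
    Matrix.ProjectiveSpecialLinearGroup.rank_two_simple (by simp [hL])
  have hφ : Function.Injective (φ.comp e.toMonoidHom) := (MonoidHom.ker_eq_bot_iff _).1
    ((MonoidHom.normal_ker _).eq_bot_or_eq_top.resolve_right fun e' => E_ne (by
      rw [← map_one σ, ← h1, ← e.apply_symm_apply (xu 1)]
      exact e'.ge (Subgroup.mem_top _)))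
  have h2 : Nat.card (twistedG2 (ZMod 3) 1) = 1512 := S1069.result (m := 0) (ZMod.card 3)
  have h3 : Nat.card (Matrix.ProjectiveSpecialLinearGroup (Fin 2) L) = 504 := by
    simpa [hL] using H9.gcd_mul_card_psl_two (F := L)
  have : Finite (twistedG2 (ZMod 3) 1) := Nat.finite_of_card_ne_zero (by rw [h2]; norm_num)
  exact ⟨_, hφ, commutator_eq_range hφ Nat.prime_three (by rw [h2, h3]) (by rw [h3]; norm_num) (by rw [h2]; decide)⟩

/-- The derived subgroup of ²G₂(3) (θ = identity over the field with three elements) has order 504 = 1512/3 and is isomorphic to PSL₂ over the field with eight elements. -/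
theorem result {L : Type*} [Field L] [Fintype L] (hL : Fintype.card L = 8) :
    Nat.card ↥(commutator ↥(Cfsg.Lie.twistedG2 (ZMod 3) 1)) = 504 ∧
      Nonempty (↥(commutator ↥(Cfsg.Lie.twistedG2 (ZMod 3) 1)) ≃* Matrix.ProjectiveSpecialLinearGroup (Fin 2) L) := by
  obtain ⟨φ, hφ, h, -⟩ := exists_inj hL
  have e := (MulEquiv.subgroupCongr h).trans (MonoidHom.ofInjective hφ).symm
  exact ⟨by simpa [hL, Nat.card_congr e.toEquiv] using H9.gcd_mul_card_psl_two (F := L), ⟨e⟩⟩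

end Cfsg.Agent.S1075
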