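import Cfsg.Statements.S1081
import Cfsg.Agent.H39.Descend
import Cfsg.Agent.H39.EmbData

set_option autoImplicit false
open Cfsg

namespace Cfsg.Agent.S1081

open Cfsg.Lie H37 H38 H39 in
theorem key {F : Type*} [Field F] {D : ChevalleyDatum} [Chev D] (hD : IsChev D)
    (h2 : D = chevG2 ∨ D = chevB2 → ∃ a : F, a ≠ 0 ∧ a ≠ 1) {φ : ℕ → ℕ} {ε : ℕ → ℤ} (h : Emb D D φ ε)
    (ρ : List ℕ) (hρ : ∀ i, i < D.rank → φ (D.simple i) = D.simple (ρ.getD i 0) ∧ ε (D.simple i) = 1) :
    ∃ α : ↥(D.group F) ≃* ↥(D.group F), ∀ (g : ↥(D.group F)) (i : ℕ) (t : F), i < D.rank →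
      (((g : GL D.Idx F) : Matrix D.Idx D.Idx F) = D.x F (D.simple i) t →
        ((α g : GL D.Idx F) : Matrix D.Idx D.Idx F) = D.x F (D.simple (ρ.getD i 0)) t) ∧
      (((g : GL D.Idx F) : Matrix D.Idx D.Idx F) = D.x F (D.neg (D.simple i)) t →
        ((α g : GL D.Idx F) : Matrix D.Idx D.Idx F) = D.x F (D.neg (D.simple (ρ.getD i 0))) t) := by
  have hsurj : Function.Surjective (embHom (st F hD) h) := by
    rw [← MonoidHom.range_eq_top]
    refine closure_pres _ fun r hr t => ?_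
    have : Function.Injective fun s : Fin D.nroots => (⟨φ s, h.lt s s.2⟩ : Fin D.nroots) :=
      fun a b e => Fin.ext (h.inj _ a.2 _ b.2 (congrArg Fin.val e))
    obtain ⟨s, hs⟩ := Finite.surjective_of_injective this ⟨r, hr⟩
    refine ⟨D.stGen F s (ε s * t), ?_⟩
    rw [embHom_x _ _ s.2, ← mul_assoc, h.sq_cast, one_mul, show φ s = r from congrArg Fin.val hs]
    rfl
  have hs := (stProj_surjective (F := F) hD).comp hsurj
  have := nontrivial_group hD F
  obtain ⟨α, hα⟩ := exists_equiv_of_surjective hD h2 ((stProj hD F).comp (embHom (st F hD) h)) hs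
    (center_le_ker_of_surjective _ hs (center_group_eq_bot hD))
  have hx : ∀ (g : D.group F) (r : ℕ) (t : F), r < D.nroots →
      ((g : GL D.Idx F) : Matrix D.Idx D.Idx F) = D.x F r t →
      ((α g : GL D.Idx F) : Matrix D.Idx D.Idx F) = D.x F (φ r) (ε r * t) := by
    intro g r t hr e
    have : g = stProj hD F (D.stGen F r t) := Subtype.ext (Units.ext (by rw [e, stProj_x hD _ _ hr]))
    rw [this, hα, MonoidHom.comp_apply, embHom_x _ _ hr, st_x, stProj_x hD _ _ (h.lt r hr)]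
  refine ⟨α, fun g i t hi => ⟨fun e => ?_, fun e => ?_⟩⟩
  · simpa [hρ i hi] using hx g _ t (Chev.simple_lt i hi) e
  · simpa [hρ i hi, h.neg _ (Chev.simple_lt i hi), h.ε_neg _ (Chev.simple_lt i hi)] using
      hx g _ t (Chev.neg_lt (Chev.simple_lt i hi)) e


/-- Graph automorphisms: for E₆ with ρ = (p₁ p₆)(p₃ p₅) and for D₄ with ρ the 3-cycle on the outer nodes there is a group automorphism sending `x_p(t) ↦ x_{ρ(p)}(t)` and `x_{-p}(t) ↦ x_{-ρ(p)}(t)` for every fundamental root `p`. -/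
theorem result {F : Type*} [Field F] (p : Cfsg.Lie.ChevalleyDatum × List ℕ)
    (hp : p ∈ [(Cfsg.Lie.chevE6, [5, 1, 4, 3, 2, 0]), (Cfsg.Lie.chevD4, [2, 1, 3, 0]), (Cfsg.Lie.chevD4, [3, 1, 0, 2])]) :
    ∃ α : ↥(p.1.group F) ≃* ↥(p.1.group F), ∀ (g : ↥(p.1.group F)) (i : ℕ) (t : F), i < p.1.rank →
      (((g : GL p.1.Idx F) : Matrix p.1.Idx p.1.Idx F) = p.1.x F (p.1.simple i) t →
        ((α g : GL p.1.Idx F) : Matrix p.1.Idx p.1.Idx F) = p.1.x F (p.1.simple (p.2.getD i 0)) t) ∧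
      (((g : GL p.1.Idx F) : Matrix p.1.Idx p.1.Idx F) = p.1.x F (p.1.neg (p.1.simple i)) t →
        ((α g : GL p.1.Idx F) : Matrix p.1.Idx p.1.Idx F) = p.1.x F (p.1.neg (p.1.simple (p.2.getD i 0))) t) := by
  simp only [List.mem_cons, List.not_mem_nil, or_false] at hp
  rcases hp with rfl | rfl | rfl
  · have hD : H37.IsChev Cfsg.Lie.chevE6 := by simp
    obtain ⟨inst⟩ := H37.nonempty_chev hD
    exact key hD (by rintro (h | h) <;> exact absurd (congrArg (·.rank) h) (by decide)) H39.embE6g _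
      (by decide +kernel)
  · have hD : H37.IsChev Cfsg.Lie.chevD4 := by simp
    obtain ⟨inst⟩ := H37.nonempty_chev hD
    exact key hD (by rintro (h | h) <;> exact absurd (congrArg (·.rank) h) (by decide)) H39.embD4g _
      (by decide +kernel)
  · have hD : H37.IsChev Cfsg.Lie.chevD4 := by simp
    obtain ⟨inst⟩ := H37.nonempty_chev hD
    exact key hD (by rintro (h | h) <;> exact absurd (congrArg (·.rank) h) (by decide)) H39.embD4g2 _
      (by decide +kernel)

end Cfsg.Agent.S1081
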