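import Cfsg.Statements.S1094
import Cfsg.Agent.H39.Weyl
import Cfsg.Agent.H39.ChevRootData

set_option autoImplicit false
open Cfsg

namespace Cfsg.Agent.S1094

open Cfsg.Lie H39

/-- the Coxeter element on root indices -/
def cox (C : Cert) (l : ℕ) (r : ℕ) : ℕ := (List.range l).foldr (fun i r => C.s i r) r

/-- iteration -/
def iter (f : ℕ → ℕ) (n r : ℕ) : ℕ := Nat.rec r (fun _ x => f x) n

theorem prod_val {D : ChevalleyDatum} (hD : D ∈ stdList) (L : List (Fin D.rank)) (r : Fin D.nroots) :
    ((L.map (RD hD).σ).prod r : ℕ) = (L.map Fin.val).foldr (fun i r => (certOf D).s i r) r := by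
  induction L with
  | nil => rfl
  | cons a L ih =>
    simp only [List.map_cons, List.prod_cons, Equiv.Perm.mul_apply, RootData.σ_apply, RD_s_val,
      List.foldr_cons, ← ih]
    exact (certOK_of_mem hD).reflectRoot_eq a.2 (Fin.is_lt _)

theorem order_eq {D : ChevalleyDatum} (hD : D ∈ stdList) (h : ℕ) (h0 : 0 < h)
    (h1 : allLT D.nroots (fun r => Nat.beq (iter (cox (certOf D) D.rank) h r) r) = true)
    (h2 : ∀ p ∈ h.primeFactors, iter (cox (certOf D) D.rank) (h / p) 0 ≠ 0) (h3 : 0 < D.nroots) :
    orderOf ((List.finRange D.rank).map (coxM D).simple).prod = h := by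
  change orderOf ((List.finRange D.rank).map (RD hD).M.simple).prod = h
  have e : (RD hD).ρ₀ ((List.finRange D.rank).map (RD hD).M.simple).prod =
      ((List.finRange D.rank).map (RD hD).σ).prod := by
    rw [map_list_prod, List.map_map]
    exact congrArg List.prod (List.map_congr_left fun i _ => (RD hD).ρ₀_simple i)
  rw [← orderOf_injective (RD hD).ρ₀ (RD hD).ρ₀_injective, e]
  have key : ∀ (n : ℕ) (r : Fin D.nroots),
      ((((List.finRange D.rank).map (RD hD).σ).prod ^ n) r : ℕ) = iter (cox (certOf D) D.rank) n r := by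
    intro n r
    induction n with
    | zero => rfl
    | succ n ih =>
      rw [pow_succ', Equiv.Perm.mul_apply, prod_val, ih, List.map_coe_finRange_eq_range]
      rfl
  refine orderOf_eq_of_pow_and_pow_div_prime h0 ?_ ?_
  · ext r
    rw [key]
    simpa using (allLT_iff _ _).1 h1 r r.2
  · intro p hp hd e
    apply h2 p (Nat.mem_primeFactors.2 ⟨hp, hd, h0.ne'⟩)
    rw [← key (h / p) ⟨0, h3⟩, e]
    rfl

theorem mem (D : ChevalleyDatum) (h : D ∈ stdList := by simp) : D ∈ stdList := h


/-- The Coxeter element `s₁ s₂ ⋯ s_l` of the Coxeter group of type B₂, G₂, D₄, F₄, E₆, E₇, E₈ has order `h = 2N/l` = 4, 6, 6, 12, 12, 18, 30. -/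
theorem result (p : (Σ n : ℕ, CoxeterMatrix (Fin n)) × ℕ)
    (hp : p ∈ [(⟨2, CoxeterMatrix.B 2⟩, 4), (⟨2, CoxeterMatrix.G₂⟩, 6), (⟨4, Cfsg.Lie.coxeterD4⟩, 6), (⟨4, CoxeterMatrix.F₄⟩, 12),
      (⟨6, CoxeterMatrix.E₆⟩, 12), (⟨7, CoxeterMatrix.E₇⟩, 18), (⟨8, CoxeterMatrix.E₈⟩, 30)]) :
    orderOf ((List.finRange p.1.1).map p.1.2.simple).prod = p.2 := by
  simp only [List.mem_cons, List.not_mem_nil, or_false] at hp
  rcases hp with rfl | rfl | rfl | rfl | rfl | rfl | rfl
  · have := order_eq (mem chevB2) 4 (by norm_num) (by decide +kernel) (by decide +kernel) (by decide +kernel)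
    rw [coxM_B2] at this
    exact this
  · have := order_eq (mem chevG2) 6 (by norm_num) (by decide +kernel) (by decide +kernel) (by decide +kernel)
    rw [coxM_G2] at this
    exact this
  · have := order_eq (mem chevD4) 6 (by norm_num) (by decide +kernel) (by decide +kernel) (by decide +kernel)
    rw [coxM_D4] at this
    exact this
  · have := order_eq (mem chevF4) 12 (by norm_num) (by decide +kernel) (by decide +kernel) (by decide +kernel)
    rw [coxM_F4] at this
    exact this
  · have := order_eq (mem chevE6) 12 (by norm_num) (by decide +kernel) (by decide +kernel) (by decide +kernel)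
    rw [coxM_E6] at this
    exact this
  · have := order_eq (mem chevE7) 18 (by norm_num) (by decide +kernel) (by decide +kernel) (by decide +kernel)
    rw [coxM_E7] at this
    exact this
  · have := order_eq (mem chevE8) 30 (by norm_num) (by decide +kernel) (by decide +kernel) (by decide +kernel)
    rw [coxM_E8] at this
    exact this

end Cfsg.Agent.S1094
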