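import Cfsg.Statements.S1096
import Cfsg.Agent.H37.Main

set_option autoImplicit false
open Cfsg

namespace Cfsg.Agent.S1096

/-- `n_p h_{p_j}(t) n_p⁻¹ = h_{w_p(p_j)}(t)` for fundamental `p`, `p_j` and `t ≠ 0`, stated as `n_p h_{p_j}(t) = h_{w_p(p_j)}(t) n_p`. -/
theorem result {F : Type*} [Field F] (D : Cfsg.Lie.ChevalleyDatum) (hD : D ∈ [Cfsg.Lie.chevG2, Cfsg.Lie.chevB2, Cfsg.Lie.chevD4, Cfsg.Lie.chevF4, Cfsg.Lie.chevE6, Cfsg.Lie.chevE7, Cfsg.Lie.chevE8]) (i j : ℕ) (hi : i < D.rank) (hj : j < D.rank) (t : F) (ht : t ≠ 0) :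
    D.nMat F (D.simple i) 1 * D.hMat F (D.simple j) t = D.hMat F (D.reflectRoot i (D.simple j)) t * D.nMat F (D.simple i) 1 := by
  obtain ⟨T, C⟩ := H37.exists_checked hD
  let _ := C.chev
  have hp := C.simple_lt hi
  have hq := C.simple_lt hj
  have hr := H37.Chev.refl_lt hp hq
  rw [H37.Chev.reflectRoot_eq hi, C.hMat_eq_diagR hq ht, C.hMat_eq_diagR hr ht, C.nMat_eq_nMono hp one_ne_zero,
    H37.nMono, H37.diagR, H37.diagR, H37.mono_mul (w' := id) _ _ _ _ _ fun _ h => h,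
    H37.mono_mul _ _ _ _ _ fun s hs => H37.Chev.refl_lt hp hs]
  refine H37.mono_congr (fun a ha b hb => by simp [ha, hb]) (fun _ _ => rfl) fun s hs => ?_
  rw [H37.Chev.pairing_refl_refl hp hq hs, mul_comm]; rfl

end Cfsg.Agent.S1096
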