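import Cfsg.Statements.S1098
import Cfsg.Agent.H40.AutB2
import Cfsg.Agent.H40.AutF4
import Cfsg.Agent.S1054
import Cfsg.Agent.S1056

set_option autoImplicit false
open Cfsg

namespace Cfsg.Agent.S1098

/-- Graph automorphisms in characteristic 2 (K perfect): for B₂ (a short, b long) `x_a(t) ↦ x_b(t²)`, `x_b(t) ↦ x_a(t)`, and for F₄ (p₁, p₂ short, p₃, p₄ long) `x_{p₁}(t) ↦ x_{p₄}(t²)`, `x_{p₂}(t) ↦ x_{p₃}(t²)`, `x_{p₃}(t) ↦ x_{p₂}(t)`, `x_{p₄}(t) ↦ x_{p₁}(t)`, likewise on the negatives, extend to an automorphism of the group. -/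
theorem result {K : Type*} [Field K] [CharP K 2] (hperf : ∀ x : K, ∃ y : K, y ^ 2 = x)
    (p : Cfsg.Lie.ChevalleyDatum × List (ℕ × ℕ))
    (hp : p ∈ [(Cfsg.Lie.chevB2, [(1, 2), (0, 1)]), (Cfsg.Lie.chevF4, [(3, 2), (2, 2), (1, 1), (0, 1)])]) :
    ∃ α : ↥(p.1.group K) ≃* ↥(p.1.group K), ∀ (g : ↥(p.1.group K)) (i : ℕ) (t : K), i < p.1.rank →
      (((g : GL p.1.Idx K) : Matrix p.1.Idx p.1.Idx K) = p.1.x K (p.1.simple i) t →
        ((α g : GL p.1.Idx K) : Matrix p.1.Idx p.1.Idx K) = p.1.x K (p.1.simple (p.2.getD i (0, 1)).1) (t ^ (p.2.getD i (0, 1)).2)) ∧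
      (((g : GL p.1.Idx K) : Matrix p.1.Idx p.1.Idx K) = p.1.x K (p.1.neg (p.1.simple i)) t →
        ((α g : GL p.1.Idx K) : Matrix p.1.Idx p.1.Idx K) = p.1.x K (p.1.neg (p.1.simple (p.2.getD i (0, 1)).1)) (t ^ (p.2.getD i (0, 1)).2)) := by
  classical
  simp only [List.mem_cons, List.not_mem_nil, or_false] at hp
  rcases hp with rfl | rfl
  · obtain ⟨a, ha⟩ := Infinite.exists_notMem_finset ({0, 1} : Finset (AlgebraicClosure K))
    obtain ⟨α, hα⟩ := H40.exists_aut_B2 hperf (S1056.result ⟨a, by simpa using ha⟩).1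
    have key : ∀ i < 2, (Lie.chevB2.simple i < 8 ∧ H40.tauB2 (Lie.chevB2.simple i) =
        Lie.chevB2.simple ([(1, 2), (0, 1)].getD i (0, 1)).1 ∧
        H40.lamB2 (Lie.chevB2.simple i) = ([(1, 2), (0, 1)].getD i (0, 1)).2) ∧
        (Lie.chevB2.neg (Lie.chevB2.simple i) < 8 ∧ H40.tauB2 (Lie.chevB2.neg (Lie.chevB2.simple i)) =
        Lie.chevB2.neg (Lie.chevB2.simple ([(1, 2), (0, 1)].getD i (0, 1)).1) ∧
        H40.lamB2 (Lie.chevB2.neg (Lie.chevB2.simple i)) = ([(1, 2), (0, 1)].getD i (0, 1)).2) := by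
      decide +kernel
    refine ⟨α, fun g i t hi => ?_⟩
    obtain ⟨⟨h1, h2, h3⟩, h4, h5, h6⟩ := key i hi
    exact ⟨fun h => by rw [hα g _ t h1 h, h2, h3], fun h => by rw [hα g _ t h4 h, h5, h6]⟩
  · obtain ⟨α, hα⟩ := H40.exists_aut_F4 hperf (S1054.result Lie.chevF4 (by simp)).1
    have key : ∀ i < 4, (Lie.chevF4.simple i < 48 ∧ H40.tauF4 (Lie.chevF4.simple i) =
        Lie.chevF4.simple ([(3, 2), (2, 2), (1, 1), (0, 1)].getD i (0, 1)).1 ∧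
        H40.lamF4 (Lie.chevF4.simple i) = ([(3, 2), (2, 2), (1, 1), (0, 1)].getD i (0, 1)).2) ∧
        (Lie.chevF4.neg (Lie.chevF4.simple i) < 48 ∧ H40.tauF4 (Lie.chevF4.neg (Lie.chevF4.simple i)) =
        Lie.chevF4.neg (Lie.chevF4.simple ([(3, 2), (2, 2), (1, 1), (0, 1)].getD i (0, 1)).1) ∧
        H40.lamF4 (Lie.chevF4.neg (Lie.chevF4.simple i)) = ([(3, 2), (2, 2), (1, 1), (0, 1)].getD i (0, 1)).2) := by
      decide +kernel
    refine ⟨α, fun g i t hi => ?_⟩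
    obtain ⟨⟨h1, h2, h3⟩, h4, h5, h6⟩ := key i hi
    exact ⟨fun h => by rw [hα g _ t h1 h, h2, h3], fun h => by rw [hα g _ t h4 h, h5, h6]⟩

end Cfsg.Agent.S1098
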