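import Cfsg.Statements.S1100
import Cfsg.Agent.H38.Mat

set_option autoImplicit false
open Cfsg

namespace Cfsg.Agent.S1100

open Cfsg.Agent.H37 Cfsg.Agent.H38

theorem Um_eq {F : Type*} [Field F] {D : Cfsg.Lie.ChevalleyDatum} [Chev D] (hD : IsChev D)
    {n : GL D.Idx F} {w : Equiv.Perm (Fin D.nroots)} (hn : (mg hD F).Rep n w) :
    Subgroup.closure {x : GL D.Idx F | ∃ (r : ℕ) (t : F), D.IsPosRoot r ∧
      (D.rootSubgroup F r).map (MulAut.conj n).toMonoidHom ≤ D.negUnipotent F ∧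
      (x : Matrix D.Idx D.Idx F) = D.x F r t} = (mg hD F).Um w := by
  have := mg_US hD F (fun r => D.IsPosRoot r ∧
    (D.rootSubgroup F r).map (MulAut.conj n).toMonoidHom ≤ D.negUnipotent F) fun r h => h.1.1
  simp only [and_assoc] at this
  rw [this, RG.Um]
  congr 1
  ext r
  refine and_congr (rs_pos_iff' r).symm ?_
  rw [mg_rootSubgroup hD, ← mg_V hD,
    hn.acts.map_US hn.mem_W (T := {w r}) (fun s => by simp), RG0.US_le]
  constructor
  · intro h hp
    exact one_ne_zero ((mg_faithful hD F).eq_zero_of_x_eq_one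
      ((mg_faithful hD F).eq_one_of_mem_B_V ((mg hD F).x_mem_B hp 1) (h _ rfl 1)))
  · rintro h _ rfl t
    exact (mg hD F).x_mem_V h t


/-- Canonical form `g = b n_w u` (`b ∈ B`, `u ∈ U_w⁻ = ⟨X_r : r > 0, n_w X_r n_w⁻¹ ≤ V⟩`): such a decomposition exists for every element of the group; the coset `n_w H` is determined by `g`; and for a fixed representative `n_w` the factors `b`, `u` are unique. -/
theorem result {F : Type*} [Field F] (D : Cfsg.Lie.ChevalleyDatum) (hD : D ∈ [Cfsg.Lie.chevG2, Cfsg.Lie.chevB2, Cfsg.Lie.chevD4, Cfsg.Lie.chevF4, Cfsg.Lie.chevE6, Cfsg.Lie.chevE7, Cfsg.Lie.chevE8]) :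
    (∀ g ∈ D.group F, ∃ b ∈ D.borelSubgroup F, ∃ n ∈ D.monomialSubgroup F,
      ∃ u ∈ Subgroup.closure {x : GL D.Idx F | ∃ (r : ℕ) (t : F), D.IsPosRoot r ∧
            (D.rootSubgroup F r).map (MulAut.conj n).toMonoidHom ≤ D.negUnipotent F ∧ (x : Matrix D.Idx D.Idx F) = D.x F r t},
        g = b * n * u) ∧
    (∀ (b b' n n' u u' : GL D.Idx F), b ∈ D.borelSubgroup F → b' ∈ D.borelSubgroup F →
      n ∈ D.monomialSubgroup F → n' ∈ D.monomialSubgroup F →
      u ∈ Subgroup.closure {x : GL D.Idx F | ∃ (r : ℕ) (t : F), D.IsPosRoot r ∧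
            (D.rootSubgroup F r).map (MulAut.conj n).toMonoidHom ≤ D.negUnipotent F ∧ (x : Matrix D.Idx D.Idx F) = D.x F r t} →
      u' ∈ Subgroup.closure {x : GL D.Idx F | ∃ (r : ℕ) (t : F), D.IsPosRoot r ∧
            (D.rootSubgroup F r).map (MulAut.conj n').toMonoidHom ≤ D.negUnipotent F ∧ (x : Matrix D.Idx D.Idx F) = D.x F r t} →
      b * n * u = b' * n' * u' → n⁻¹ * n' ∈ D.diagonalSubgroup F ∧ (n = n' → b = b' ∧ u = u')) := by
  obtain ⟨inst⟩ := nonempty_chev hD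
  rw [← mg_grp hD, ← mg_B hD, ← mg_N hD, ← mg_H hD]
  constructor
  · intro g hg
    obtain ⟨b, hb, n, w, hn, u, hu, e⟩ := (mg hD F).exists_bruhat hg
    exact ⟨b, hb, n, hn.mem_N, u, by rwa [Um_eq hD hn], e⟩
  · intro b b' n n' u u' hb hb' hn hn' hu hu' e
    obtain ⟨w, hw⟩ := (mg hD F).mem_N_iff.1 hn
    obtain ⟨w', hw'⟩ := (mg hD F).mem_N_iff.1 hn'
    rw [Um_eq hD hw] at hu
    rw [Um_eq hD hw'] at hu'
    obtain rfl := (mg_faithful hD F).weyl_unique' hw hw' hb hb' ((mg hD F).U_le_B ((mg hD F).Um_le _ hu))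
      ((mg hD F).U_le_B ((mg hD F).Um_le _ hu')) e
    refine ⟨hw.inv_mul_mem_H hw', ?_⟩
    rintro rfl
    exact (mg_faithful hD F).bruhat_unique_fixed hw hb hb' hu hu' e

end Cfsg.Agent.S1100
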