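import Cfsg.Statements.S1111
import Cfsg.Agent.H40.F4b
import Cfsg.Agent.H40.Dih
-- import your own Cfsg.Agent.* helpers here

set_option autoImplicit false
open Cfsg

namespace Cfsg.Agent.S1111

open H40

/-- `N¹/H¹ ≅ W¹`: a surjective homomorphism from `N¹ = G¹ ∩ N` onto the dihedral group of order 16 with kernel `H¹`. -/
theorem result {K : Type*} [Field K] [Fintype K] {m : ℕ} (hK : Fintype.card K = 2 ^ (2 * m + 1)) :
    ∃ φ : ↥(Cfsg.Lie.chevF4.monomialSubgroup K ⊓ Cfsg.Lie.twistedF4 K (2 ^ m)) →* DihedralGroup 8, Function.Surjective φ ∧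
      φ.ker = (Cfsg.Lie.chevF4.diagonalSubgroup K ⊓ Cfsg.Lie.twistedF4 K (2 ^ m)).subgroupOf (Cfsg.Lie.chevF4.monomialSubgroup K ⊓ Cfsg.Lie.twistedF4 K (2 ^ m)) := by
  let θ := mkTh Nat.prime_two hK
  have h8 : ((TF θ).mt.w ((TF θ).mt.n 0) * (TF θ).mt.w ((TF θ).mt.n 1)) ^ 8 = 1 := by
    ext r
    simp only [pow_succ, pow_zero, one_mul, Equiv.Perm.mul_apply, TwD.mt_w_n, Equiv.Perm.one_apply]
    revert r
    decide +kernel
  obtain ⟨ψ, hψ, -⟩ := exists_dihedral_hom ((TF θ).mt.w_sq 0) ((TF θ).mt.w_sq 1) h8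
  refine (TF θ).weyl_stmt (by decide) (by decide) tabF4 enumF4 (Fix_F4 θ) ψ (hψ.trans ?_)
    (by rw [DihedralGroup.nat_card]; decide) (by decide)
  unfold Tw.W1
  congr 1
  ext x
  simp [Fin.exists_fin_two, eq_comm]

end Cfsg.Agent.S1111
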