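import Cfsg.Statements.S1112
import Cfsg.Agent.H40.F4b
-- import your own Cfsg.Agent.* helpers here

set_option autoImplicit false
open Cfsg

namespace Cfsg.Agent.S1112

open H40

/-- ²F₄(2^(2m+1)) (m ≥ 1) equals its derived subgroup. -/
theorem result {K : Type*} [Field K] [Fintype K] {m : ℕ} (hK : Fintype.card K = 2 ^ (2 * m + 1)) (hm : 1 ≤ m) : commutator ↥(Cfsg.Lie.twistedF4 K (2 ^ m)) = ⊤ := by
  classical
  let θ := mkTh Nat.prime_two hK
  rw [← Fix_F4 θ]
  refine perfect_F4 θ ?_
  by_contra h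
  push Not at h
  have h1 : (Finset.univ : Finset K) ⊆ {0, 1} := fun k _ => by simpa [or_iff_not_imp_left] using h k
  have h2 := (Finset.card_le_card h1).trans Finset.card_le_two
  have h3 : 2 ^ 2 ≤ 2 ^ (2 * m + 1) := Nat.pow_le_pow_right (by norm_num) (by omega)
  rw [Finset.card_univ, hK] at h2
  omega

end Cfsg.Agent.S1112
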