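import Cfsg.Statements.S1115
import Cfsg.Agent.H40.Ree3
-- import your own Cfsg.Agent.* helpers here

set_option autoImplicit false
open Cfsg

namespace Cfsg.Agent.S1115

open H40

/-- `N¹/H¹ ≅ W¹`: a surjective homomorphism from `N¹ = G¹ ∩ N` onto the group of order 2 with kernel `H¹`. -/
theorem result {K : Type*} [Field K] [Fintype K] {m : ℕ} (hK : Fintype.card K = 3 ^ (2 * m + 1)) :
    ∃ φ : ↥(Cfsg.Lie.chevG2.monomialSubgroup K ⊓ Cfsg.Lie.twistedG2 K (3 ^ m)) →* Multiplicative (ZMod 2), Function.Surjective φ ∧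
      φ.ker = (Cfsg.Lie.chevG2.diagonalSubgroup K ⊓ Cfsg.Lie.twistedG2 K (3 ^ m)).subgroupOf (Cfsg.Lie.chevG2.monomialSubgroup K ⊓ Cfsg.Lie.twistedG2 K (3 ^ m)) := by
  let θ := mkTh Nat.prime_three hK
  have hsq := (TG θ).mt.w_sq 0
  let ψ : Multiplicative (ZMod 2) →* Equiv.Perm (Fin Lie.chevG2.nroots) :=
    MonoidHom.mk' (fun a => if a = 1 then 1 else (TG θ).mt.w ((TG θ).mt.n 0)) fun a b => by
      have h : ∀ a b : Multiplicative (ZMod 2), (a * b = 1 ↔ (a = 1 ↔ b = 1)) := by decide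
      by_cases ha : a = 1 <;> by_cases hb : b = 1 <;> simp [ha, hb, h, hsq]
  refine (TG θ).weyl_stmt (by decide) (by decide) tabG2 enumG2 (Fix_G2 θ hK) ψ (le_antisymm ?_ ?_) (by simp [polN])
    (by decide)
  · rintro _ ⟨a, rfl⟩
    show (if a = 1 then 1 else _) ∈ _
    split_ifs
    · exact one_mem _
    · exact Subgroup.subset_closure ⟨0, rfl⟩
  · refine (Subgroup.closure_le _).2 ?_
    rintro _ ⟨j, rfl⟩
    refine ⟨Multiplicative.ofAdd 1, ?_⟩
    rw [Subsingleton.elim j 0]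
    show (if Multiplicative.ofAdd (1 : ZMod 2) = 1 then 1 else (TG θ).mt.w ((TG θ).mt.n 0)) = _
    rw [if_neg (by decide)]

end Cfsg.Agent.S1115
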