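import Cfsg.Statements.S1118
import Cfsg.Agent.H41.RankOne2

set_option autoImplicit false
open Cfsg

namespace Cfsg.Agent.S1118

/-- In the rank-one set-up (`G` finite and doubly transitive on `Ω`, `t` an involution moving `a`, `Q` normal in `G_a` with `G_a = Q D`, `Q ⊓ D = 1` for the two-point stabiliser `D = G_a ⊓ G_{t • a}`, `|Q|` even, `|D|` odd), the normaliser of a subset of `Q` containing a non-identity element lies in `G_a`; consequently `N_G(Q) = N_G(G_a) = G_a`. -/
theorem result {G Ω : Type*} [Group G] [Finite G] [MulAction G Ω] {a : Ω} {t : G} {Q : Subgroup G}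
    (hS : Cfsg.IsRankOneSetup G Ω a t Q) :
    (∀ X : Set G, X ⊆ (Q : Set G) → (∃ x ∈ X, x ≠ 1) → Subgroup.normalizer X ≤ MulAction.stabilizer G a) ∧
      Subgroup.normalizer (Q : Set G) = MulAction.stabilizer G a ∧
      Subgroup.normalizer (MulAction.stabilizer G a : Set G) = MulAction.stabilizer G a := by
  have key : ∀ X : Set G, X ⊆ (Q : Set G) → (∃ x ∈ X, x ≠ 1) →
      Subgroup.normalizer X ≤ MulAction.stabilizer G a := by
    rintro X hX ⟨x, hx, hx1⟩ g hg
    have h1 : g * x * g⁻¹ ∈ X := (Subgroup.mem_set_normalizer_iff.1 hg x).1 hx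
    exact H41.R1.eq_a_of_fix hS (hX h1) (H41.conj_ne_one hx1)
      (by rw [mul_smul, mul_smul, inv_smul_smul, H41.R1.Q_fix hS (hX hx)])
  obtain ⟨s, hs, hs1, hs2⟩ := H41.R1.exists_invol_Q hS
  refine ⟨key, le_antisymm (key _ le_rfl ⟨s, hs, hs1⟩) (H41.R1.le_normalizer_Q hS),
    le_antisymm ?_ Subgroup.le_normalizer⟩
  intro g hg
  have h1 : g * s * g⁻¹ ∈ MulAction.stabilizer G a :=
    (Subgroup.mem_normalizer_iff.1 hg s).1 (hS.le hs)
  exact H41.R1.invol_fix_unique hS (H41.conj_ne_one hs1) (H41.conj_invol hs2)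
    (by rw [mul_smul, mul_smul, inv_smul_smul, H41.R1.Q_fix hS hs]) h1

end Cfsg.Agent.S1118
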