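import Cfsg.Statements.S1122
import Cfsg.Agent.H41.RankOne2

set_option autoImplicit false
open Cfsg

namespace Cfsg.Agent.S1122

/-- In the rank-one set-up (`G` finite and doubly transitive on `Ω`, `t` an involution moving `a`, `Q` normal in `G_a` with `G_a = Q D`, `Q ⊓ D = 1` for the two-point stabiliser `D = G_a ⊓ G_{t • a}`, `|Q|` even, `|D|` odd), with `K` the set of elements of `D` inverted by `t`: `|K|` is the number of involutions of `G_a`, and for each involution `s` of `G_a` the `K`-conjugates of `s` are all the involutions of `G_a`. -/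
theorem result {G Ω : Type*} [Group G] [Finite G] [MulAction G Ω] {a : Ω} {t : G} {Q : Subgroup G}
    (hS : Cfsg.IsRankOneSetup G Ω a t Q) :
    Nat.card (Cfsg.invertedBy (MulAction.stabilizer G a ⊓ MulAction.stabilizer G (t • a)) t) = Nat.card (Cfsg.involutionsIn (MulAction.stabilizer G a : Set G)) ∧
      ∀ s ∈ Cfsg.involutionsIn (MulAction.stabilizer G a : Set G), ∀ s' ∈ Cfsg.involutionsIn (MulAction.stabilizer G a : Set G),
        ∃ k ∈ Cfsg.invertedBy (MulAction.stabilizer G a ⊓ MulAction.stabilizer G (t • a)) t, k⁻¹ * s * k = s' := by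
  have key : ∀ s ∈ Cfsg.involutionsIn (MulAction.stabilizer G a : Set G),
      ∀ s' ∈ Cfsg.involutionsIn (MulAction.stabilizer G a : Set G),
        ∃ k ∈ Cfsg.invertedBy (MulAction.stabilizer G a ⊓ MulAction.stabilizer G (t • a)) t,
          k⁻¹ * s * k = s' := by
    intro s hs s' hs'
    rw [H41.R1.mem_I] at hs hs'
    obtain ⟨k, h1, h2, h3, h4⟩ := H41.R1.K_trans hS hs.1 hs.2.1 hs.2.2 hs'.1 hs'.2.1 hs'.2.2
    exact ⟨k, (H41.R1.mem_K hS).2 ⟨h1, h2, h3⟩, h4⟩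
  refine ⟨?_, key⟩
  obtain ⟨s, hs, hs1, hs2⟩ := H41.R1.exists_invol_Q hS
  have hsa := H41.R1.Q_fix hS hs
  refine Nat.card_congr (Equiv.ofBijective (fun k => ⟨(k : G)⁻¹ * s * k, ?_⟩) ⟨?_, ?_⟩)
  · obtain ⟨h1, h2, h3⟩ := (H41.R1.mem_K hS).1 k.2
    exact H41.R1.mem_I.2 ⟨H41.R1.mul_fix (H41.R1.mul_fix (H41.R1.inv_fix h1) hsa) h1,
      H41.conj_ne_one' hs1, H41.conj_invol' hs2⟩
  · intro k k' h
    obtain ⟨h1, h2, h3⟩ := (H41.R1.mem_K hS).1 k.2
    obtain ⟨h1', h2', h3'⟩ := (H41.R1.mem_K hS).1 k'.2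
    exact Subtype.ext (H41.R1.K_conj_inj hS hsa hs1 hs2 h2 h3 h3' (congrArg Subtype.val h))
  · intro s'
    obtain ⟨k, hk, h⟩ := key s (H41.R1.mem_I.2 ⟨hsa, hs1, hs2⟩) s' s'.2
    exact ⟨⟨k, hk⟩, Subtype.ext h⟩

end Cfsg.Agent.S1122
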