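import Cfsg.Statements.S1125
import Cfsg.Agent.H41.RankOne2

set_option autoImplicit false
open Cfsg

namespace Cfsg.Agent.S1125

/-- In the rank-one set-up (`G` finite and doubly transitive on `Ω`, `t` an involution moving `a`, `Q` normal in `G_a` with `G_a = Q D`, `Q ⊓ D = 1` for the two-point stabiliser `D = G_a ⊓ G_{t • a}`, `|Q|` even, `|D|` odd), let `X ⊆ D` fix at least three points of `Ω`. Then `C_G(X)` is doubly transitive on the fixed-point set of `X`, `|C_Q(X)|` is even, and `C_{G_a}(X) = C_Q(X) C_D(X)`. -/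
theorem result {G Ω : Type*} [Group G] [Finite G] [MulAction G Ω] {a : Ω} {t : G} {Q : Subgroup G}
    (hS : Cfsg.IsRankOneSetup G Ω a t Q)
    (X : Set G) (hX : X ⊆ ((MulAction.stabilizer G a ⊓ MulAction.stabilizer G (t • a)) : Set G))
    (h3 : ∃ b c d : Ω, b ≠ c ∧ b ≠ d ∧ c ≠ d ∧ ∀ x ∈ X, x • b = b ∧ x • c = c ∧ x • d = d) :
    (∀ b₁ b₂ c₁ c₂ : Ω, (∀ x ∈ X, x • b₁ = b₁ ∧ x • b₂ = b₂ ∧ x • c₁ = c₁ ∧ x • c₂ = c₂) →
        b₁ ≠ b₂ → c₁ ≠ c₂ → ∃ g ∈ Subgroup.centralizer X, g • b₁ = c₁ ∧ g • b₂ = c₂) ∧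
      Even (Nat.card ↥(Subgroup.centralizer X ⊓ Q)) ∧
      (Subgroup.centralizer X ⊓ Q) ⊔ (Subgroup.centralizer X ⊓ (MulAction.stabilizer G a ⊓ MulAction.stabilizer G (t • a))) = Subgroup.centralizer X ⊓ MulAction.stabilizer G a := by
  have hXa : ∀ x ∈ X, x • a = a := fun x hx => (hX hx).1
  have hXt : ∀ x ∈ X, x • t • a = t • a := fun x hx => (hX hx).2
  refine ⟨fun b₁ b₂ c₁ c₂ h hb hc => H41.R1.cent_two_trans hS X h3 h hb hc, ?_, ?_⟩
  · obtain ⟨s, hs1, hs2, hs3, hs4⟩ := H41.R1.cent_invol hS X h3 hXa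
    have h1 : orderOf s = 2 := by
      have : Fact (Nat.Prime 2) := ⟨Nat.prime_two⟩
      exact orderOf_eq_prime (by rw [pow_two, hs4]) hs3
    rw [even_iff_two_dvd, ← h1]
    exact Subgroup.orderOf_dvd_natCard _ (show s ∈ Subgroup.centralizer X ⊓ Q from ⟨hs1, hs2⟩)
  · apply le_antisymm
    · exact sup_le (inf_le_inf_left _ hS.le) (inf_le_inf_left _ inf_le_left)
    · rintro h ⟨hh1, hh2⟩
      have hh2' : h • a = a := hh2
      obtain ⟨q, hq1, hq2, hq3, hq4⟩ := H41.R1.cent_trans hS X (b := a) (c := t • a)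
        (d := h • t • a) (H41.R1.ta_ne hS) (H41.R1.smul_ne_a hh2' (H41.R1.ta_ne hS))
        (fun x hx => ⟨hXa x hx, hXt x hx, by
          rw [← mul_smul, (Subgroup.mem_centralizer_iff.1 hh1) x hx, mul_smul, hXt x hx]⟩)
      have e : h = q * (q⁻¹ * h) := by group
      rw [e]
      refine mul_mem (Subgroup.mem_sup_left ⟨hq1, hq4 rfl⟩) (Subgroup.mem_sup_right
        ⟨Subgroup.mul_mem _ (Subgroup.inv_mem _ hq1) hh1, H41.R1.mul_fix (H41.R1.inv_fix hq2) hh2', ?_⟩)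
      show (q⁻¹ * h) • t • a = t • a
      rw [mul_smul, ← hq3, inv_smul_smul]

end Cfsg.Agent.S1125
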