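import Cfsg.Statements.S1128
import Cfsg.Agent.H41.RankOne2

set_option autoImplicit false
open Cfsg

namespace Cfsg.Agent.S1128

/-- In the rank-one set-up (`G` finite and doubly transitive on `Ω`, `t` an involution moving `a`, `Q` normal in `G_a` with `G_a = Q D`, `Q ⊓ D = 1` for the two-point stabiliser `D = G_a ⊓ G_{t • a}`, `|Q|` even, `|D|` odd), with the action faithful and `G` containing two distinct commuting involutions: every non-identity element of `D` inverted by `t` acts fixed-point-freely on `Q`. -/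
theorem result {G Ω : Type*} [Group G] [Finite G] [MulAction G Ω] [FaithfulSMul G Ω] {a : Ω} {t : G} {Q : Subgroup G}
    (hS : Cfsg.IsRankOneSetup G Ω a t Q)
    (h2 : ∃ x y : G, x ≠ 1 ∧ y ≠ 1 ∧ x ≠ y ∧ x * x = 1 ∧ y * y = 1 ∧ x * y = y * x)
    (x : G) (hx : x ∈ Cfsg.invertedBy (MulAction.stabilizer G a ⊓ MulAction.stabilizer G (t • a)) t) (hx1 : x ≠ 1) :
    Q ⊓ Subgroup.centralizer {x} = ⊥ := by
  obtain ⟨hx1', hx2, hx3⟩ := (H41.R1.mem_K hS).1 hx
  rw [eq_bot_iff]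
  rintro q ⟨hq, hqx⟩
  rw [Subgroup.mem_bot]
  by_contra hq1
  have hqx' : q * x = x * q := Subgroup.mem_centralizer_singleton_iff.1 hqx
  obtain ⟨s, hs1, hs2, hs3, hs4⟩ := H41.R1.cent_invol hS {x} ⟨a, t • a, q • t • a,
    (H41.R1.ta_ne hS).symm, (H41.R1.smul_ne_a (H41.R1.Q_fix hS hq) (H41.R1.ta_ne hS)).symm,
    fun h => hq1 (H41.R1.Q_eq_one hS hq h.symm), by
      rintro y rfl
      exact ⟨hx1', hx2, by rw [← mul_smul, ← hqx', mul_smul, hx2]⟩⟩ (by rintro y rfl; exact hx1')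
  exact hx1 (H41.R1.K_eq_one_of_commute hS (H41.R1.Q_fix hS hs2) hs3 hs4 hx2 hx3
    (Subgroup.mem_centralizer_singleton_iff.1 hs1).symm)

end Cfsg.Agent.S1128
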