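import Cfsg.Statements.S1142
import Cfsg.Agent.H41.FH
import Cfsg.Agent.H12.BNExchange

set_option autoImplicit false
open Cfsg

namespace Cfsg.Agent.S1142

open Cfsg.Agent.H12 Cfsg.Agent.H41 Matrix Finset
open Cfsg.Agent.H41.FH (alt_zero alt_succ alt_succ' alt_even alt_odd alt_odd')

section aux
variable {G : Type*} [Group G] {P : BNPair G}

open Classical in
/-- the matrix of a Bruhat cell -/
noncomputable def T (w : Weyl P) : Matrix (G ⧸ P.B) (G ⧸ P.B) ℂ :=
  fun x y => if Cell P w (x.out⁻¹ * y.out) then 1 else 0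

theorem cell_out {w : Weyl P} (g h : G) :
    Cell P w ((g : G ⧸ P.B).out⁻¹ * (h : G ⧸ P.B).out) ↔ Cell P w (g⁻¹ * h) := by
  obtain ⟨b, hb⟩ := QuotientGroup.mk_out_eq_mul P.B g
  obtain ⟨c, hc⟩ := QuotientGroup.mk_out_eq_mul P.B h
  rw [hb, hc]
  constructor
  · intro e
    have := (e.mul_left b.2).mul_right (P.B.inv_mem c.2)
    convert this using 1
    group
  · intro e
    have := (e.mul_left (P.B.inv_mem b.2)).mul_right c.2
    convert this using 1
    group

open Classical in
theorem T_mk (w : Weyl P) (g h : G) :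
    T w (g : G ⧸ P.B) (h : G ⧸ P.B) = if Cell P w (g⁻¹ * h) then 1 else 0 := by
  simp only [T, cell_out]

variable [Fintype (G ⧸ P.B)] [DecidableEq (G ⧸ P.B)]

theorem T_one : T (1 : Weyl P) = 1 := by
  classical
  ext x y
  obtain ⟨g, rfl⟩ := QuotientGroup.mk_surjective x
  obtain ⟨h, rfl⟩ := QuotientGroup.mk_surjective y
  rw [T_mk, Matrix.one_apply]
  exact if_congr (cell_one_iff.trans QuotientGroup.eq.symm) rfl rfl

theorem T_trace {w : Weyl P} (hw : w ≠ 1) : (T w).trace = 0 := by
  refine sum_eq_zero fun x _ => ?_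
  rw [diag_apply, T, if_neg]
  intro e
  rw [inv_mul_cancel] at e
  exact hw (e.unique (cell_one_iff.2 P.B.one_mem))

theorem T_mul {s : P.S} {w : Weyl P} (h : Pos s w) : T (refl P s) * T w = T (refl P s * w) := by
  ext x y
  obtain ⟨g, rfl⟩ := QuotientGroup.mk_surjective x
  obtain ⟨k, rfl⟩ := QuotientGroup.mk_surjective y
  have hs : Cell P (refl P s) (s : G)⁻¹ := by simpa [refl_inv] using (cell_refl s).inv
  rw [Matrix.mul_apply, T_mk]
  split_ifs with e
  · obtain ⟨n, rfl⟩ := QuotientGroup.mk_surjective w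
    have e0 : Cell P (refl P s * QuotientGroup.mk n) (s * n) := by
      rw [H12.refl, ← QuotientGroup.mk_mul]; exact cell_self _
    obtain ⟨b₁, hb₁, b₂, hb₂, e1⟩ := e0.exists_eq e
    have c2 : Cell P (QuotientGroup.mk n) ((g * b₁ * s)⁻¹ * k) := by
      rw [show (g * b₁ * s)⁻¹ * k = (s : G)⁻¹ * b₁⁻¹ * (g⁻¹ * k) by group, e1,
        show (s : G)⁻¹ * b₁⁻¹ * (b₁ * (s * n) * b₂) = n * b₂ by group]
      exact (cell_self n).mul_right hb₂
    rw [sum_eq_single ((g * b₁ * s : G) : G ⧸ P.B)]
    · rw [T_mk, T_mk, if_pos c2, if_pos, one_mul]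
      rw [show g⁻¹ * (g * b₁ * s) = b₁ * s by group]
      exact (cell_refl s).mul_left hb₁
    · intro z _ hz
      obtain ⟨z, rfl⟩ := QuotientGroup.mk_surjective z
      rw [T_mk, T_mk]
      split_ifs with h1 h2
      · exfalso
        rcases (hs.mul_right (P.B.inv_mem hb₁)).refl_mul h1 with h3 | h3
        · rw [refl_mul_self, cell_one_iff] at h3
          refine hz (QuotientGroup.eq.2 ?_).symm
          convert h3 using 1
          group
        · have h4 := h _ _ h3 h2
          rw [show (s : G)⁻¹ * b₁⁻¹ * (g⁻¹ * z) * (z⁻¹ * k) = (g * b₁ * s)⁻¹ * k by group] at h4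
          exact refl_ne_one s (by simpa using h4.unique c2)
      all_goals simp
    · simp
  · refine sum_eq_zero fun z _ => ?_
    obtain ⟨z, rfl⟩ := QuotientGroup.mk_surjective z
    rw [T_mk, T_mk]
    split_ifs with h1 h2
    · exact absurd (by simpa [mul_assoc] using h _ _ h1 h2) e
    all_goals simp

theorem T_quad (s : P.S) : ∃ p : ℕ, 2 ≤ p ∧
    T (refl P s) * T (refl P s) = ((p : ℂ) - 1) • T (refl P s) + (p : ℂ) • 1 ∧
    T (refl P s) *ᵥ (fun _ => (1 : ℂ)) = (p : ℂ) • fun _ => (1 : ℂ) := by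
  classical
  let Q : G → Prop := fun g => Cell P 1 g ∨ Cell P (refl P s) g
  have Qmul : ∀ {a b}, Q a → Q b → Q (a * b) := by
    rintro a b (ha | ha) (hb | hb)
    · exact Or.inl (hb.mul_left (cell_one_iff.1 ha))
    · exact Or.inr (hb.mul_left (cell_one_iff.1 ha))
    · exact Or.inr (ha.mul_right (cell_one_iff.1 hb))
    · simpa only [refl_mul_self] using ha.refl_mul hb
  have Qinv : ∀ {a}, Q a → Q a⁻¹ := by
    rintro a (ha | ha)
    · exact Or.inl (by simpa using ha.inv)
    · exact Or.inr (by simpa [refl_inv] using ha.inv)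
  have hJ : ∀ g h : G, (1 + T (refl P s)) (g : G ⧸ P.B) (h : G ⧸ P.B) =
      if Q (g⁻¹ * h) then 1 else 0 := fun g h => by
    rw [← T_one, Matrix.add_apply, T_mk, T_mk]
    by_cases h1 : Cell P 1 (g⁻¹ * h) <;> by_cases h2 : Cell P (refl P s) (g⁻¹ * h)
    · exact absurd (h2.unique h1) (refl_ne_one s)
    all_goals simp [Q, h1, h2]
  have out : ∀ g : G, Q (g : G ⧸ P.B).out ↔ Q g := fun g => by
    obtain ⟨b, hb⟩ := QuotientGroup.mk_out_eq_mul P.B g
    have qb : Q b := Or.inl (cell_one_iff.2 b.2)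
    rw [hb]
    exact ⟨fun e => by simpa using Qmul e (Qinv qb), fun e => Qmul e qb⟩
  set c := (univ.filter fun z : G ⧸ P.B => Q z.out).card with hc
  have row : ∀ x, ∑ z, (1 + T (refl P s)) x z = c := fun x => by
    obtain ⟨g, rfl⟩ := QuotientGroup.mk_surjective x
    rw [hc, card_filter, Nat.cast_sum]
    refine (Fintype.sum_equiv (MulAction.toPerm g) _ _ fun z => ?_).symm
    obtain ⟨z, rfl⟩ := QuotientGroup.mk_surjective z
    rw [MulAction.toPerm_apply, MulAction.Quotient.smul_mk, smul_eq_mul, hJ]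
    simp [out]
  have sq : (1 + T (refl P s)) * (1 + T (refl P s)) = (c : ℂ) • (1 + T (refl P s)) := by
    ext x y
    rw [Matrix.mul_apply, Matrix.smul_apply, ← row x, smul_eq_mul, sum_mul]
    refine sum_congr rfl fun z _ => ?_
    obtain ⟨g, rfl⟩ := QuotientGroup.mk_surjective x
    obtain ⟨h, rfl⟩ := QuotientGroup.mk_surjective y
    obtain ⟨z, rfl⟩ := QuotientGroup.mk_surjective z
    rw [hJ, hJ, hJ]
    by_cases h1 : Q (g⁻¹ * z)
    · have : Q (z⁻¹ * h) ↔ Q (g⁻¹ * h) :=
        ⟨fun e => by simpa [mul_assoc] using Qmul h1 e,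
          fun e => by simpa [mul_assoc] using Qmul (Qinv h1) e⟩
      simp only [this]
    · simp [h1]
  have c3 : 2 < c := by
    obtain ⟨b, hb, hb'⟩ := exists_conj_notMem s
    have sB := notMem_B s
    refine two_lt_card_iff.2 ⟨((1 : G) : G ⧸ P.B), ((s : G) : G ⧸ P.B), ((b * s : G) : G ⧸ P.B), ?_, ?_,
      ?_, fun e => ?_, fun e => ?_, fun e => ?_⟩
    · simpa only [mem_filter, mem_univ, true_and, out] using Or.inl (cell_one_iff.2 P.B.one_mem)
    · simpa only [mem_filter, mem_univ, true_and, out] using Or.inr (cell_refl s)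
    · simpa only [mem_filter, mem_univ, true_and, out] using Or.inr ((cell_refl s).mul_left hb)
    · exact sB (by simpa using QuotientGroup.eq.1 e)
    · exact sB ((P.B.mul_mem_cancel_left hb).1 (by simpa using QuotientGroup.eq.1 e))
    · have := P.B.mul_mem (P.sq_mem s s.2) (QuotientGroup.eq.1 e)
      exact hb' (by convert this using 1; group)
  obtain ⟨p, hp⟩ := Nat.exists_eq_succ_of_ne_zero (show c ≠ 0 by omega)
  have hp' : (c : ℂ) = p + 1 := by rw [hp]; push_cast; ring
  refine ⟨p, by omega, ?_, ?_⟩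
  · rw [hp', add_mul, mul_add, mul_add, one_mul, one_mul, mul_one] at sq
    rw [eq_sub_of_add_eq' (eq_sub_of_add_eq' sq)]
    module
  · ext x
    have := row x
    simp only [Matrix.add_apply, sum_add_distrib, Matrix.one_apply, sum_ite_eq, mem_univ, if_true,
      hp'] at this
    simp only [mulVec, dotProduct, mul_one, Pi.smul_apply, smul_eq_mul]
    linear_combination this

end aux

theorem alt_mulVec {X : Type*} [Fintype X] [DecidableEq X] {R S : Matrix X X ℂ} {p q : ℂ}
    {v : X → ℂ} (hR : R *ᵥ v = p • v) (hS : S *ᵥ v = q • v) (k : ℕ) :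
    FH.alt R S k *ᵥ v = FH.alt p q k • v := by
  induction k generalizing R S p q with
  | zero => simp
  | succ k ih => rw [alt_succ, alt_succ, ← mulVec_mulVec, ih hS hR, mulVec_smul, hR, smul_smul, mul_comm]

theorem alt_swap {W : Type*} [Group W] {a b : W} (ha : a * a = 1) (hb : b * b = 1) (k : ℕ) :
    FH.alt a b k = (a * b) ^ k * FH.alt b a k := by
  have e : ∀ i : ℕ, (a * b) ^ i * (b * a) ^ i = 1 := fun i => by
    rw [show b * a = (a * b)⁻¹ by
      rw [_root_.mul_inv_rev, inv_eq_of_mul_eq_one_right ha, inv_eq_of_mul_eq_one_right hb], inv_pow,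
      mul_inv_cancel]
  rcases Nat.even_or_odd' k with ⟨i, rfl | rfl⟩
  · rw [alt_even, alt_even, two_mul, pow_add, mul_assoc, e, mul_one]
  · rw [alt_odd', alt_odd', show 2 * i + 1 = i + 1 + i by ring, pow_add, mul_assoc,
      ← mul_assoc ((a * b) ^ i), e, one_mul, pow_succ, mul_assoc, mul_assoc, hb, mul_one]

theorem ord_comm {W : Type*} [Group W] (a b : W) : orderOf (a * b) = orderOf (b * a) :=
  SemiconjBy.orderOf_eq b (mul_assoc _ _ _).symm

theorem pos_alt {G : Type*} [Group G] {P : BNPair G} (r s : P.S) (k : ℕ)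
    (hk : k < orderOf (refl P r * refl P s)) : Pos r (FH.alt (refl P s) (refl P r) k) := by
  induction k with
  | zero => exact pos_one r
  | succ k ih =>
    by_contra hc
    have e : ∃ t : P.S, FH.alt (refl P s) (refl P r) (k + 1) =
        FH.alt (refl P s) (refl P r) k * refl P t := by
      rw [alt_succ']
      split_ifs
      exacts [⟨s, rfl⟩, ⟨r, rfl⟩]
    obtain ⟨t, e⟩ := e
    rw [e] at hc
    have := (ih (by omega)).exchange hc
    rw [← e, ← alt_succ, alt_swap (refl_mul_self r) (refl_mul_self s), mul_eq_right] at this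
    exact pow_ne_one_of_lt_orderOf (by omega) hk this

theorem alt_T {G : Type*} [Group G] {P : BNPair G} [Fintype (G ⧸ P.B)] [DecidableEq (G ⧸ P.B)]
    (k : ℕ) (r s : P.S) (hk : k ≤ orderOf (refl P r * refl P s)) :
    FH.alt (T (refl P r)) (T (refl P s)) k = T (FH.alt (refl P r) (refl P s) k) := by
  induction k generalizing r s with
  | zero => simp [T_one]
  | succ k ih =>
    rw [alt_succ, alt_succ, ih s r (by rw [ord_comm]; omega),
      T_mul (pos_alt r s k hk)]

theorem alt_ne_one {G : Type*} [Group G] {P : BNPair G} (r s : P.S) (k : ℕ)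
    (hk : k < orderOf (refl P r * refl P s)) : FH.alt (refl P r) (refl P s) (k + 1) ≠ 1 := fun e => by
  have := (pos_alt r s k hk).not_pos
  rw [← alt_succ, e] at this
  exact this (pos_one r)

theorem card_dihedral {W : Type*} [Group W] {a b : W} (ha : a * a = 1) (hb : b * b = 1)
    (a1 : a ≠ 1) (b1 : b ≠ 1)
    (gen : ∀ C : W → Prop, C 1 → (∀ w, C w → C (a * w)) → (∀ w, C w → C (b * w)) → ∀ w, C w) :
    Nat.card W = 2 * orderOf (a * b) := by
  have ai : a⁻¹ = a := inv_eq_of_mul_eq_one_right ha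
  have bi : b⁻¹ = b := inv_eq_of_mul_eq_one_right hb
  have inv : ∀ z ∈ Subgroup.zpowers (a * b), a * z * a = z⁻¹ := by
    rintro _ ⟨k, rfl⟩
    have : a * (a * b) * a⁻¹ = (a * b)⁻¹ := by
      rw [_root_.mul_inv_rev, ai, bi, ← mul_assoc, ha, one_mul]
    simp only
    rw [← _root_.inv_zpow, ← this, conj_zpow, ai]
  have na : a ∉ Subgroup.zpowers (a * b) := by
    rintro ⟨k, hk⟩
    simp only at hk
    have c : Commute a (a * b) := by
      nth_rewrite 1 [← hk]
      exact (Commute.refl _).zpow_left k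
    have e2 : (a * b) ^ (2 : ℤ) = 1 := by
      rw [zpow_two, mul_assoc, ← mul_assoc b, ← mul_left_cancel (a := a)
        (show a * (a * b) = a * (b * a) by rw [c.eq, mul_assoc]), mul_assoc, hb, mul_one, ha]
    rcases Int.even_or_odd' k with ⟨i, rfl | rfl⟩
    · rw [_root_.zpow_mul, e2, _root_.one_zpow] at hk
      exact a1 hk.symm
    · rw [_root_.zpow_add_one, _root_.zpow_mul, e2, _root_.one_zpow, one_mul] at hk
      exact b1 (by simpa using hk)
  have cov : ∀ w, w ∈ Subgroup.zpowers (a * b) ∨ w * a ∈ Subgroup.zpowers (a * b) := by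
    refine gen _ (Or.inl (one_mem _)) ?_ ?_
    · rintro w (h | h)
      · exact Or.inr (by rw [inv w h]; exact inv_mem h)
      · refine Or.inl ?_
        have := inv_mem h
        rwa [← inv _ h, mul_assoc, mul_assoc, ha, mul_one] at this
    · rintro w (h | h)
      · refine Or.inr ?_
        have := mul_mem (inv_mem (Subgroup.mem_zpowers (a * b))) (inv_mem h)
        rwa [← inv _ h, _root_.mul_inv_rev, ai, bi,
          show b * a * (a * w * a) = b * (a * a) * w * a by group, ha, mul_one] at this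
      · refine Or.inl ?_
        have := mul_mem (inv_mem (Subgroup.mem_zpowers (a * b))) (inv_mem h)
        rwa [← inv _ h, _root_.mul_inv_rev, ai, bi,
          show b * a * (a * (w * a) * a) = b * (a * a) * w * (a * a) by group, ha, mul_one,
          mul_one] at this
  have idx : (Subgroup.zpowers (a * b)).index = 2 := by
    refine Subgroup.index_eq_two_iff.2 ⟨a, fun w => ?_⟩
    rcases cov w with h | h
    · exact Or.inr ⟨h, fun h' => na ((Subgroup.mul_mem_cancel_left _ h).1 h')⟩
    · exact Or.inl ⟨h, fun h' => na ((Subgroup.mul_mem_cancel_left _ h').1 h)⟩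
  rw [← Subgroup.index_mul_card (Subgroup.zpowers (a * b)), idx, Nat.card_zpowers]


/-- Feit–Higman: if a finite group has a (B,N)-pair of rank 2, its Weyl group `N/(B ⊓ N)` has order 4, 6, 8, 12 or 16. -/
theorem result {G : Type*} [Group G] [Finite G] (P : Cfsg.BNPair G)
    (h2 : P.rank = 2) :
    ((P.B ⊓ P.N).subgroupOf P.N).index ∈ ({4, 6, 8, 12, 16} : Set ℕ) := by
  classical
  have := Fintype.ofFinite (G ⧸ P.B)
  obtain ⟨r, s, hrs, hu⟩ := Nat.card_eq_two_iff.1 h2
  have hc : Nat.card (Weyl P) = 2 * orderOf (refl P r * refl P s) := by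
    refine card_dihedral (refl_mul_self r) (refl_mul_self s) (refl_ne_one r) (refl_ne_one s)
      fun C h1 hr hs w => ?_
    obtain ⟨l, rfl⟩ := weyl_gen w
    induction l with
    | nil => exact h1
    | cons t l ih =>
      rw [wp_cons]
      have : t ∈ ({r, s} : Set P.S) := hu ▸ Set.mem_univ t
      rcases this with rfl | rfl
      exacts [hr _ ih, hs _ ih]
  set m := orderOf (refl P r * refl P s) with hm
  have hm' : orderOf (refl P s * refl P r) = m :=
    ord_comm _ _
  have m0 : 0 < m := orderOf_pos _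
  have m1 : m ≠ 1 := fun e => hrs (refl_injective (by
    rw [← refl_inv r]
    exact inv_eq_of_mul_eq_one_right (orderOf_eq_one_iff.1 e)))
  obtain ⟨p, hp, qR, vR⟩ := T_quad r
  obtain ⟨q, hq, qS, vS⟩ := T_quad s
  have br : FH.alt (T (refl P r)) (T (refl P s)) m = FH.alt (T (refl P s)) (T (refl P r)) m := by
    rw [alt_T m r s le_rfl, alt_T m s r hm'.ge, alt_swap (refl_mul_self r) (refl_mul_self s),
      pow_orderOf_eq_one, one_mul]
  have H : FH.Hyp (T (refl P r)) (T (refl P s)) p q m := by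
    refine ⟨qR, qS, br, ?_, fun k hk => ⟨?_, ?_⟩, m0, Nat.cast_ne_zero.2 (by omega),
      Nat.cast_ne_zero.2 (by omega)⟩
    · have e := alt_mulVec vR vS m
      rw [br, alt_mulVec vS vR m] at e
      simpa using (congrFun e ((1 : G) : G ⧸ P.B)).symm
    · rw [alt_T _ r s hk]
      exact T_trace (alt_ne_one r s k hk)
    · rw [alt_T _ s r (by omega)]
      exact T_trace (alt_ne_one s r k (by omega))
  have := H.main hp hq (by omega)
  rw [Subgroup.index_eq_card]
  change Nat.card (Weyl P) ∈ _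
  rw [hc]
  simp only [Set.mem_insert_iff, Set.mem_singleton_iff]
  omega

end Cfsg.Agent.S1142
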