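import Cfsg.Statements.S1151
import Cfsg.Agent.H40.Ree4
-- import your own Cfsg.Agent.* helpers here

set_option autoImplicit false
open Cfsg

namespace Cfsg.Agent.S1151

open H40

/-- In the small Ree group ²G₂(q), q = 3^(2m+1), realised as G¹ inside the Chevalley group G₂ over the field with q elements (θ the 3^m-th power map), with H¹ = G¹ ∩ H and U¹ = G¹ ∩ U the intersections with the ambient diagonal and positive unipotent subgroups: `H¹` has exactly `(q - 1)/2` elements of odd order, and each non-identity one centralises no non-identity element of `U¹`. -/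
theorem result {K : Type*} [Field K] [Fintype K] {m : ℕ} (hK : Fintype.card K = 3 ^ (2 * m + 1)) :
    2 * Nat.card {h : ↥(Cfsg.Lie.chevG2.diagonalSubgroup K ⊓ Cfsg.Lie.twistedG2 K (3 ^ m)) // Odd (orderOf h)} = 3 ^ (2 * m + 1) - 1 ∧
      ∀ h ∈ (Cfsg.Lie.chevG2.diagonalSubgroup K ⊓ Cfsg.Lie.twistedG2 K (3 ^ m)), h ≠ 1 → Odd (orderOf h) →
        (Cfsg.Lie.chevG2.posUnipotent K ⊓ Cfsg.Lie.twistedG2 K (3 ^ m)) ⊓ Subgroup.centralizer {h} = ⊥ := by
  let θ := mkTh Nat.prime_three hK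
  rw [← range_rh' θ hK]
  constructor
  · obtain ⟨s, hs, h2⟩ : ∃ s, Odd s ∧ 3 ^ (2 * m + 1) - 1 = 2 * s := by
      have : 3 ^ (2 * m + 1) % 4 = 3 := by rw [pow_succ, pow_mul, Nat.mul_mod, Nat.pow_mod]; simp
      exact ⟨2 * (3 ^ (2 * m + 1) / 4) + 1, ⟨_, rfl⟩, by omega⟩
    have hc : Nat.card Kˣ = 2 * s := by rw [Nat.card_units, Nat.card_eq_fintype_card, hK, h2]
    have h3 : Nat.card (powMonoidHom s : Kˣ →* Kˣ).ker = s := by
      rw [IsCyclic.card_powMonoidHom_ker, hc, Nat.gcd_mul_left_left]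
    rw [h2]
    congr 1
    refine (Nat.card_congr (Equiv.subtypeEquiv (MonoidHom.ofInjective (rh_injective θ)).toEquiv
      fun k => ?_)).symm.trans h3
    rw [MonoidHom.mem_ker, powMonoidHom_apply, ← orderOf_dvd_iff_pow_eq_one]
    erw [MulEquiv.orderOf_eq]
    refine ⟨fun h => hs.of_dvd_nat h, fun h => ?_⟩
    exact (Nat.coprime_two_right.2 h).dvd_of_dvd_mul_left (hc ▸ orderOf_dvd_natCard k)
  · rintro _ ⟨k, rfl⟩ h1 h2
    refine (Subgroup.eq_bot_iff_forall _).2 fun x hx => ?_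
    obtain ⟨t, u, v, rfl⟩ := (mem_U1_G2 θ hK).1 hx.1
    by_contra h3
    have h4 := Subgroup.mem_centralizer_singleton_iff.1 hx.2
    rw [rh_mul_ru, mul_left_inj] at h4
    have h5 := orderOf_dvd_of_pow_eq_one (sq_eq_one_of_fix θ h4.symm h3)
    rw [orderOf_injective _ (rh_injective θ)] at h2
    rw [orderOf_eq_one_iff.1 (((Nat.dvd_prime Nat.prime_two).1 h5).resolve_right fun h => by rw [h] at h2; exact absurd h2 (by decide)),
      map_one] at h1
    exact h1 rfl

end Cfsg.Agent.S1151
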