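import Cfsg.Statements.S1168
import Cfsg.Agent.H41.FieldAut

set_option autoImplicit false
open Cfsg

namespace Cfsg.Agent.S1168

/-- For a finite field `F` of characteristic 2: if `q : F → F` is quadratic over the prime field, i.e. `(x, y) ↦ q (x + y) + q x + q y` is additive in each variable, then `q x = Σ c_{σ,τ} σ(x) τ(x)` for some coefficients indexed by pairs of field automorphisms. -/
theorem result {F : Type*} [Field F] [Fintype F] [CharP F 2]
    (q : F → F)
    (hq : ∀ x y z : F, q (x + y + z) + q (x + y) + q (x + z) + q (y + z) + q x + q y + q z = 0) :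
    ∃ (s : Finset ((F ≃+* F) × (F ≃+* F))) (c : (F ≃+* F) × (F ≃+* F) → F),
      ∀ x : F, q x = ∑ p ∈ s, c p * (p.1 x * p.2 x) := by
  have hz : ∀ a : ZMod 2, a = 0 ∨ a = 1 := by decide
  have := H41.finite_ringEquiv F
  have := Fintype.ofFinite (F ≃+* F)
  have : Fact (Nat.Prime 2) := ⟨Nat.prime_two⟩
  let _ : Algebra (ZMod 2) F := ZMod.algebra F 2
  have h2 : (2 : F) = 0 := CharP.cast_eq_zero F 2
  have h0 : q 0 = 0 := by
    have := hq 0 0 0
    simp only [add_zero] at this
    linear_combination this - 3 * q 0 * h2
  let Q : QuadraticMap (ZMod 2) F F := QuadraticMap.ofPolar q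
    (fun a x => by rcases hz a with rfl | rfl <;> simp [h0])
    (fun x x' y => by
      simp only [QuadraticMap.polar]
      linear_combination hq x x' y - (q (x + x') + q (x + y) + q (x' + y)) * h2)
    (fun a x y => by rcases hz a with rfl | rfl <;> simp [h0, QuadraticMap.polar])
  obtain ⟨B, hB⟩ := LinearMap.BilinMap.toQuadraticMap_surjective Q
  obtain ⟨c, hc⟩ := H41.exists_eq_sum_biadd (F := F)
    { toFun := fun x => (B x).toAddMonoidHom
      map_zero' := by ext; simp
      map_add' := fun x y => by ext; simp }
  refine ⟨Finset.univ, c, fun x => ?_⟩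
  rw [← hc x x]
  have := DFunLike.congr_fun hB x
  exact this.symm

end Cfsg.Agent.S1168
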