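import Cfsg.Statements.S1176
import Cfsg.Agent.H42.Isolated

set_option autoImplicit false
open Cfsg

namespace Cfsg.Agent.S1176

/-- Let x₀ be an involution of the finite group G and D its conjugacy class. Assume (a) for each x ∈ D the subgroup W(x) generated by the members of D commuting with x is a 2-group of nilpotency class at most 2, and (b) the product of two distinct commuting members of D again lies in D. Then for all x, y ∈ D, if xy has even order greater than 2, its order is 4. -/
theorem result {G : Type*} [Group G] [Finite G] (x₀ : G) (hx₀ : orderOf x₀ = 2) (ha : ∀ x : G, IsConj x₀ x → IsPGroup 2 ↥(Subgroup.closure {y : G | IsConj x₀ y ∧ Commute y x}) ∧ ⁅⁅Subgroup.closure {y : G | IsConj x₀ y ∧ Commute y x}, Subgroup.closure {y : G | IsConj x₀ y ∧ Commute y x}⁆, Subgroup.closure {y : G | IsConj x₀ y ∧ Commute y x}⁆ = ⊥) (hb : ∀ x y : G, IsConj x₀ x → IsConj x₀ y → x ≠ y → Commute x y → IsConj x₀ (x * y)) (x y : G) (hx : IsConj x₀ x) (hy : IsConj x₀ y) (heven : Even (orderOf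 (x * y))) (hgt : 2 < orderOf (x * y)) : orderOf (x * y) = 4 := by
  have inv2 : ∀ u : G, IsConj x₀ u → u * u = 1 := by
    intro u hu
    obtain ⟨g, rfl⟩ := isConj_iff.mp hu
    exact H42.conj_mul_self (H42.mul_self_of_orderOf_two hx₀) g
  have hx2 := inv2 x hx
  have hy2 := inv2 y hy
  obtain ⟨m, hm⟩ := heven
  have hm0 : m ≠ 0 := by omega
  obtain ⟨h1, h2, h3, h4⟩ := H42.half_pow_facts hx2 hy2 hm0 (by omega)
  have h5 : IsConj x₀ (x * (x * y) ^ m) := by
    rcases Nat.even_or_odd' m with ⟨j, rfl | rfl⟩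
    · exact hx.trans (isConj_iff.mpr ⟨_, (H42.mul_pow_even_isConj hx2 hy2 j).symm⟩)
    · exact hy.trans (isConj_iff.mpr ⟨_, (H42.mul_pow_odd_isConj hx2 hy2 j).symm⟩)
  have h6 := hb x _ hx h5 (fun e => h1 (by simpa using e)) ((Commute.refl x).mul_right h3)
  rw [← mul_assoc, hx2, one_mul] at h6
  have h7 := (ha _ h6).2
  set W := Subgroup.closure {u : G | IsConj x₀ u ∧ Commute u ((x * y) ^ m)}
  have hxW : x ∈ W := Subgroup.subset_closure ⟨hx, h3⟩
  have hyW : y ∈ W := Subgroup.subset_closure ⟨hy, h4⟩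
  have h8 := Subgroup.commutator_mem_commutator (Subgroup.commutator_mem_commutator hxW hyW) hxW
  rw [h7, Subgroup.mem_bot, commutatorElement_eq_one_iff_commute, commutatorElement_def,
    H42.inv_eq_self_of_mul_self hx2, H42.inv_eq_self_of_mul_self hy2] at h8
  have h9 := H42.conj_mul_pow hx2 hy2 2
  have e : (x * y) ^ 2 = x * y * x * y := by rw [sq]; group
  rw [← e] at h8
  rw [← h8.eq, mul_inv_cancel_right] at h9
  have h10 : (x * y) ^ 4 = 1 := by
    rw [show 4 = 2 + 2 from rfl, pow_add]
    nth_rewrite 2 [h9]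
    exact mul_inv_cancel _
  have h11 := orderOf_dvd_of_pow_eq_one h10
  have h12 := Nat.le_of_dvd (by norm_num) h11
  omega

end Cfsg.Agent.S1176
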