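import Cfsg.Statements.S1177
import Cfsg.Agent.H42.SylIn

set_option autoImplicit false
open Cfsg

namespace Cfsg.Agent.S1177

/-- Let A be a nontrivial elementary abelian 2-subgroup of a finite group G which is a T.I. set (each conjugate of A meets A trivially or equals A) and which does not commute elementwise with any conjugate of A other than A itself. Then for every a ∈ A, a ≠ 1, every conjugate of A contained in C_G(a) is equal to A (A is weakly closed in C_G(a)). -/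
theorem result {G : Type*} [Group G] [Finite G] (A : Subgroup G) (hA : Cfsg.IsElementaryAbelian 2 A) (hA1 : A ≠ ⊥) (hTI : ∀ g : G, A.map (MulAut.conj g).toMonoidHom ⊓ A = ⊥ ∨ A.map (MulAut.conj g).toMonoidHom = A) (hb : ∀ g : G, (∀ a ∈ A, ∀ b ∈ A.map (MulAut.conj g).toMonoidHom, a * b = b * a) → A.map (MulAut.conj g).toMonoidHom = A) (a : G) (ha : a ∈ A) (ha1 : a ≠ 1) (g : G) (hg : A.map (MulAut.conj g).toMonoidHom ≤ Subgroup.centralizer ({a} : Set G)) : A.map (MulAut.conj g).toMonoidHom = A := by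
  by_contra hne
  apply hne
  apply hb
  set B := A.map (MulAut.conj g).toMonoidHom with hB
  have hAB : B ⊓ A = ⊥ := (hTI g).resolve_right hne
  have hcomm : ∀ u ∈ A, ∀ v ∈ A, u * v = v * u := fun u hu v hv =>
    congrArg Subtype.val (hA.1.is_comm.comm (⟨u, hu⟩ : A) ⟨v, hv⟩)
  have normA : ∀ t : G, ∀ u ∈ A, u ≠ 1 → t * u = u * t → H42.cj t A = A := by
    intro t u hu hu1 h
    refine (hTI t).resolve_left (fun e => hu1 ?_)
    have : u ∈ H42.cj t A ⊓ A := ⟨H42.mem_cj.mpr (by rwa [mul_assoc, ← h, inv_mul_cancel_left]), hu⟩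
    rwa [e] at this
  have normB : ∀ t : G, ∀ u ∈ B, u ≠ 1 → t * u = u * t → H42.cj t B = B := by
    rintro t _ ⟨u, hu, rfl⟩ hu1 h
    have h1 := normA (g⁻¹ * t * g) u hu (fun e => hu1 (by simp [e])) (by
      have h' : t * (g * u * g⁻¹) = g * u * g⁻¹ * t := h
      calc g⁻¹ * t * g * u = g⁻¹ * (t * (g * u * g⁻¹)) * g := by group
        _ = u * (g⁻¹ * t * g) := by rw [h']; group)
    have h2 := congrArg (H42.cj g) h1
    rw [H42.cj_cj] at h2
    rw [hB, H42.cj_cj, show t * g = g * (g⁻¹ * t * g) by group]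
    exact h2
  have hBA : ∀ b ∈ B, ∀ u ∈ A, b * u * b⁻¹ ∈ A := by
    intro b hb u hu
    have := normA b a ha ha1 (Subgroup.mem_centralizer_singleton_iff.mp (hg hb))
    exact this ▸ H42.conj_mem_cj hu
  have key : ∀ b ∈ B, b ≠ 1 → ∀ c ∈ A, c * b = b * c → ∀ b' ∈ B, c * b' = b' * c := by
    intro b hb hb1 c hc h b' hb'
    have h1 : c * b' * c⁻¹ ∈ B := normB c b hb hb1 h ▸ H42.conj_mem_cj hb'
    have h2 : c * b' * c⁻¹ * b'⁻¹ ∈ B ⊓ A := by
      refine ⟨B.mul_mem h1 (B.inv_mem hb'), ?_⟩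
      have := A.mul_mem hc (hBA b' hb' _ (A.inv_mem hc))
      simpa [mul_assoc] using this
    rw [hAB, Subgroup.mem_bot] at h2
    calc c * b' = (c * b' * c⁻¹ * b'⁻¹) * (b' * c) := by group
      _ = b' * c := by rw [h2, one_mul]
  intro x hx b₀ hb₀
  by_contra hxb
  let A₀ : Subgroup G := A ⊓ Subgroup.centralizer (B : Set G)
  have hB2 : ∀ b ∈ B, b * b = 1 := by
    rintro _ ⟨u, hu, rfl⟩
    rw [← map_mul, ← sq, hA.2 u hu, map_one]
  have hmem : ∀ b ∈ B, x * (b * x * b⁻¹) ∈ A₀ := by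
    intro b hb
    have h1 : x * (b * x * b⁻¹) ∈ A := A.mul_mem hx (hBA b hb x hx)
    refine ⟨h1, ?_⟩
    by_cases hb1 : b = 1
    · rw [hb1, one_mul, inv_one, mul_one, ← sq, hA.2 x hx]
      exact Subgroup.one_mem _
    · refine Subgroup.mem_centralizer_iff.mpr (fun b' hb' => (key b hb hb1 _ h1 ?_ b' hb').symm)
      have hbi : b⁻¹ = b := inv_eq_of_mul_eq_one_right (hB2 b hb)
      rw [hcomm _ hx _ (hBA b hb x hx)]
      nth_rewrite 2 [← hcomm _ hx _ (hBA b hb x hx)]
      rw [hbi]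
      calc b * x * b * x * b = b * (x * (b * x * b)) := by group
        _ = _ := rfl
  let f : B → A₀ := fun b => ⟨x * (b * x * (b : G)⁻¹), hmem b b.2⟩
  have hf : Function.Injective f := by
    intro b b' h
    have h1 : (b : G) * x * (b : G)⁻¹ = b' * x * (b' : G)⁻¹ :=
      mul_left_cancel (congrArg Subtype.val h)
    by_contra hbb
    apply hxb
    refine key ((b' : G)⁻¹ * b) (B.mul_mem (B.inv_mem b'.2) b.2) (fun e => hbb ?_) x hx ?_ b₀ hb₀
    · exact Subtype.ext (inv_mul_eq_one.mp e).symm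
    · calc x * ((b' : G)⁻¹ * b) = (b' : G)⁻¹ * (b' * x * (b' : G)⁻¹) * b := by group
        _ = (b' : G)⁻¹ * b * x := by rw [← h1]; group
  have h1 : Nat.card B ≤ Nat.card A₀ := Nat.card_le_card_of_injective f hf
  rw [H42.card_cj] at h1
  have h2 : A₀ = A := Subgroup.eq_of_le_of_card_ge inf_le_left h1
  have h3 : x ∈ A₀ := h2 ▸ hx
  exact hxb (Subgroup.mem_centralizer_iff.mp h3.2 b₀ hb₀).symm

end Cfsg.Agent.S1177
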