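import Cfsg.Statements.S1178
import Cfsg.Agent.H42.SylIn

set_option autoImplicit false
open Cfsg

namespace Cfsg.Agent.S1178

/-- Let A be a subgroup of a Sylow 2-subgroup S of the finite group G which is weakly closed in S. If a conjugate g A g⁻¹ commutes elementwise with A, then g A g⁻¹ = A. -/
theorem result {G : Type*} [Group G] [Finite G] (S : Sylow 2 G) (A : Subgroup G) (hW : Cfsg.IsWeaklyClosed A (S : Subgroup G)) (g : G) (hc : ∀ a ∈ A, ∀ b ∈ A.map (MulAut.conj g).toMonoidHom, a * b = b * a) : A.map (MulAut.conj g).toMonoidHom = A := by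
  have : Fact (Nat.Prime 2) := ⟨Nat.prime_two⟩
  have hA : IsPGroup 2 A := S.2.to_le hW.1
  have hle : H42.cj g A ≤ Subgroup.normalizer (A : Set G) := by
    refine le_trans ?_ (Subgroup.centralizer_le_normalizer _)
    intro b hb
    exact Subgroup.mem_centralizer_iff.mpr (fun a ha => hc a ha b hb)
  have hp : IsPGroup 2 (A ⊔ H42.cj g A : Subgroup G) :=
    IsPGroup.to_sup_of_normal_left' hA (H42.isPGroup_cj g hA) hle
  obtain ⟨h, hh⟩ := H42.exists_conj_sylow S hp
  have h0 := H42.cj_le_iff.mpr hh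
  have h1 : H42.cj h A = A := hW.2 h ((H42.cj_mono h le_sup_left).trans h0)
  have h2 : H42.cj (h * g) A = A := hW.2 (h * g) (by
    have := (H42.cj_mono h le_sup_right).trans h0
    rwa [H42.cj_cj] at this)
  rw [← H42.cj_cj] at h2
  exact H42.cj_inj.mp (h2.trans h1.symm)

end Cfsg.Agent.S1178
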