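import Cfsg.Statements.S1181
import Cfsg.Agent.H42.Isolated
import Mathlib.GroupTheory.QuotientGroup.Basic

set_option autoImplicit false
open Cfsg

namespace Cfsg.Agent.S1181

/-- Let z be an isolated involution of the finite group G and N a normal subgroup with z ∉ N. Then the centralizer of zN in G/N is the image of C_G(z), and zN is an isolated involution of G/N. -/
theorem result {G : Type*} [Group G] [Finite G] (z : G) (hz : Cfsg.IsIsolatedInvolution z) (N : Subgroup G) [N.Normal] (hzN : z ∉ N) : Subgroup.centralizer ({(QuotientGroup.mk z : G ⧸ N)} : Set (G ⧸ N)) = (Subgroup.centralizer ({z} : Set G)).map (QuotientGroup.mk' N) ∧ Cfsg.IsIsolatedInvolution (QuotientGroup.mk z : G ⧸ N) := by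
  have hz2 := H42.mul_self_of_orderOf_two hz.1
  refine ⟨?_, ?_, ?_⟩
  · ext x
    obtain ⟨g, rfl⟩ := QuotientGroup.mk_surjective x
    rw [Subgroup.mem_centralizer_singleton_iff]
    constructor
    · intro h
      obtain ⟨j, hj, -⟩ := H42.isolated_exists_pow_conj hz (isConj_iff.mpr ⟨g, rfl⟩)
      have hN : g * z * g⁻¹ * z ∈ N := by
        rw [← QuotientGroup.eq_one_iff]
        simp only [QuotientGroup.mk_mul, QuotientGroup.mk_inv]
        rw [h, mul_inv_cancel_right, ← QuotientGroup.mk_mul, hz2, QuotientGroup.mk_one]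
      refine ⟨((g * z * g⁻¹ * z) ^ j)⁻¹ * g, ?_, ?_⟩
      · rw [SetLike.mem_coe, Subgroup.mem_centralizer_singleton_iff]
        set k := (g * z * g⁻¹ * z) ^ j
        calc k⁻¹ * g * z = k⁻¹ * (g * z * g⁻¹) * g := by group
          _ = k⁻¹ * (k * z * k⁻¹) * g := by rw [hj]
          _ = z * (k⁻¹ * g) := by group
      · have : (((g * z * g⁻¹ * z) ^ j : G) : G ⧸ N) = 1 :=
          (QuotientGroup.eq_one_iff _).mpr (N.pow_mem hN j)
        rw [QuotientGroup.mk'_apply, QuotientGroup.mk_mul, QuotientGroup.mk_inv, this, inv_one,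
          one_mul]
    · rintro ⟨c, hc, hcg⟩
      rw [SetLike.mem_coe, Subgroup.mem_centralizer_singleton_iff] at hc
      rw [← hcg, QuotientGroup.mk'_apply, ← QuotientGroup.mk_mul, hc, QuotientGroup.mk_mul]
  · apply orderOf_eq_prime
    · rw [sq, ← QuotientGroup.mk_mul, hz2, QuotientGroup.mk_one]
    · rwa [Ne, QuotientGroup.eq_one_iff]
  · intro x hc
    obtain ⟨g, rfl⟩ := QuotientGroup.mk_surjective x
    have hodd := H42.isolated_odd hz (isConj_iff.mpr ⟨g, rfl⟩)
    have hz2' : (z : G ⧸ N) * z = 1 := by rw [← QuotientGroup.mk_mul, hz2, QuotientGroup.mk_one]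
    have hodd' : Odd (orderOf ((z : G ⧸ N) * ((g : G ⧸ N) * z * (g : G ⧸ N)⁻¹))) :=
      hodd.of_dvd_nat (orderOf_map_dvd (QuotientGroup.mk' N) _)
    have := H42.eq_one_of_sq_of_odd hodd' (by
      rw [hc.mul_pow, sq, sq, hz2', H42.conj_mul_self hz2', one_mul])
    rw [eq_inv_of_mul_eq_one_right this, H42.inv_eq_self_of_mul_self hz2']

end Cfsg.Agent.S1181
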