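import Cfsg.Statements.S1182
import Cfsg.Agent.H42.Isolated

set_option autoImplicit false
open Cfsg

namespace Cfsg.Agent.S1182

/-- Let z be an isolated involution of the finite group G and H a subgroup normalized by z. If x, y ∈ H both commute with z and y = h x h⁻¹ for some h ∈ H, then y = c x c⁻¹ for some c ∈ H commuting with z. -/
theorem result {G : Type*} [Group G] [Finite G] (z : G) (hz : Cfsg.IsIsolatedInvolution z) (H : Subgroup G) (hzH : z ∈ Subgroup.normalizer (H : Set G)) (x y : G) (hx : x ∈ H) (hy : y ∈ H) (hxz : Commute x z) (hyz : Commute y z) (h : G) (hh : h ∈ H) (hconj : h * x * h⁻¹ = y) : ∃ c ∈ H, Commute c z ∧ c * x * c⁻¹ = y := by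
  have hz2 := H42.mul_self_of_orderOf_two hz.1
  obtain ⟨j, hj, -⟩ := H42.isolated_exists_pow_conj hz (isConj_iff.mpr ⟨h⁻¹, rfl⟩)
  have h1 : h⁻¹ * z * h⁻¹⁻¹ * z ∈ H := by
    have := (Subgroup.mem_normalizer_iff.mp hzH h).mp hh
    rw [H42.inv_eq_self_of_mul_self hz2] at this
    simpa [mul_assoc] using H.mul_mem (H.inv_mem hh) this
  have h2 : Commute (h⁻¹ * z * h⁻¹⁻¹ * z) x := by
    refine Commute.mul_left ?_ hxz.symm
    have := hyz.symm.map (MulAut.conj h⁻¹)
    rw [← hconj] at this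
    simpa [mul_assoc] using this
  set k := (h⁻¹ * z * h⁻¹⁻¹ * z) ^ j with hk
  have h3 : Commute k x := h2.pow_left j
  refine ⟨h * k, H.mul_mem hh (H.pow_mem h1 j), ?_, ?_⟩
  · have : h * k * z * (h * k)⁻¹ = z := by
      calc h * k * z * (h * k)⁻¹ = h * (k * z * k⁻¹) * h⁻¹ := by group
        _ = z := by rw [hj]; group
    exact mul_inv_eq_iff_eq_mul.mp this
  · calc h * k * x * (h * k)⁻¹ = h * (k * x * k⁻¹) * h⁻¹ := by group
      _ = y := by rw [h3.eq, mul_inv_cancel_right, hconj]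

end Cfsg.Agent.S1182
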