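import Cfsg.Statements.S1183
import Cfsg.Agent.H42.Isolated
import Cfsg.Agent.H42.Fusion
import Cfsg.Agent.S1182
import Cfsg.Agent.S1185

set_option autoImplicit false
open Cfsg

namespace Cfsg.Agent.S1183

/-- Let z be an isolated involution of the finite group G and C = C_G(z). Then the subgroup of G generated by its elements of odd order is all of G if and only if the subgroup of C generated by its elements of odd order is all of C. -/
theorem result {G : Type*} [Group G] [Finite G] (z : G) (hz : Cfsg.IsIsolatedInvolution z) : Cfsg.pResidual 2 G = ⊤ ↔ Cfsg.pResidual 2 ↥(Subgroup.centralizer ({z} : Set G)) = ⊤ := by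
  have : Fact (Nat.Prime 2) := ⟨Nat.prime_two⟩
  set C := Subgroup.centralizer ({z} : Set G) with hC
  constructor
  · intro h
    by_contra hne
    obtain ⟨M, hM, hM2⟩ := H3.pResidual_ne_top_iff.mp hne
    have hcard : Nat.card (C ⧸ M) = 2 := hM2
    have : IsCyclic (C ⧸ M) := isCyclic_of_prime_card hcard
    have hidx : ¬ 2 ∣ C.index := by
      have hp : IsPGroup 2 (Subgroup.zpowers z) :=
        IsPGroup.of_card (n := 1) (by rw [Nat.card_zpowers, hz.1]; rfl)
      obtain ⟨S, hS⟩ := hp.exists_le_sylow
      have hzS : z ∈ (S : Subgroup G) := hS (Subgroup.mem_zpowers z)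
      have hSC : (S : Subgroup G) ≤ C := by
        intro s hs
        rw [hC, Subgroup.mem_centralizer_singleton_iff]
        obtain ⟨c, hc, e⟩ : ∃ k ∈ (S : Subgroup G), k = z * (s * z * s⁻¹) :=
          ⟨_, mul_mem hzS (mul_mem (mul_mem hs hzS) (inv_mem hs)), rfl⟩
        have hodd := H42.isolated_odd hz (isConj_iff.mpr ⟨s, rfl⟩)
        rw [← e] at hodd
        obtain ⟨k, hk⟩ := IsPGroup.iff_orderOf.mp S.2 ⟨c, hc⟩
        rw [← Subgroup.orderOf_coe] at hk
        have hk0 : k = 0 := by
          by_contra hk0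
          have : 2 ∣ orderOf c := by
            have := dvd_pow_self 2 hk0
            rwa [← hk] at this
          exact (Nat.not_even_iff_odd.mpr hodd) (even_iff_two_dvd.mpr this)
        rw [hk0, pow_zero, orderOf_eq_one_iff] at hk
        have hc1 : c = 1 := hk
        rw [hc1] at e
        have := eq_inv_of_mul_eq_one_right e.symm
        rw [H42.inv_eq_self_of_mul_self (H42.mul_self_of_orderOf_two hz.1)] at this
        exact mul_inv_eq_iff_eq_mul.mp this
      exact fun hd => S.not_dvd_index (hd.trans (Subgroup.index_dvd_of_le hSC))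
    let : CommGroup (C ⧸ M) := IsCyclic.commGroup
    have key : ∀ x : C, QuotientGroup.mk' M x = 1 := by
      intro x
      refine H42.map_eq_one_of_mem_pResidual (p := 2) (IsPGroup.of_card (n := 1) hcard) C hidx
        (QuotientGroup.mk' M) ?_ x (h ▸ Subgroup.mem_top _)
      intro a g hg
      obtain ⟨c, -, hc, e⟩ := S1182.result z hz ⊤ (by rw [Subgroup.normalizer_eq_top]; trivial) a (g * a * g⁻¹) trivial trivial
        (Subgroup.mem_centralizer_singleton_iff.mp a.2)
        (Subgroup.mem_centralizer_singleton_iff.mp hg) g trivial rfl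
      have hcC : c ∈ C := Subgroup.mem_centralizer_singleton_iff.mpr hc
      have : (⟨g * a * g⁻¹, hg⟩ : C) = ⟨c, hcC⟩ * a * ⟨c, hcC⟩⁻¹ := Subtype.ext e.symm
      rw [this, map_mul, map_mul, map_inv, mul_inv_cancel_comm]
    have : M = ⊤ := by
      rw [eq_top_iff]
      intro x _
      exact (QuotientGroup.eq_one_iff x).mp (key x)
    rw [this, Subgroup.index_top] at hM2
    omega
  · intro h
    rw [eq_top_iff]
    intro g _
    obtain ⟨k, ⟨⟨h1, -⟩, h2⟩, -⟩ := S1185.result z hz g
    have h3 : g⁻¹ * k ∈ pResidual 2 G :=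
      H3.map_subtype_pResidual_le C ⟨⟨_, h2⟩, h ▸ Subgroup.mem_top _, rfl⟩
    have h4 : k ∈ pResidual 2 G := H3.mem_pResidual_of_coprime (Nat.coprime_two_right.mpr h1)
    simpa using mul_mem h4 (inv_mem h3)

end Cfsg.Agent.S1183
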