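import Cfsg.Statements.S1184
import Cfsg.Agent.H42.Isolated

set_option autoImplicit false
open Cfsg

namespace Cfsg.Agent.S1184

/-- Let z be an isolated involution of the finite group G. If s and t are distinct conjugates of z, then st does not commute with z. -/
theorem result {G : Type*} [Group G] [Finite G] (z : G) (hz : Cfsg.IsIsolatedInvolution z) (g h : G) (hne : g * z * g⁻¹ ≠ h * z * h⁻¹) : ¬ Commute (g * z * g⁻¹ * (h * z * h⁻¹)) z := by
  intro hc
  have hz2 := H42.mul_self_of_orderOf_two hz.1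
  have hs := H42.isolated_conj hz g
  have hs2 := H42.conj_mul_self hz2 g
  have ht2 := H42.conj_mul_self hz2 h
  have c1 : IsConj z (g * z * g⁻¹) := isConj_iff.mpr ⟨g, rfl⟩
  have c2 : IsConj z (h * z * h⁻¹) := isConj_iff.mpr ⟨h, rfl⟩
  have hodd := H42.isolated_odd hs (c1.symm.trans c2)
  obtain ⟨m, hm⟩ := H42.isolated_odd hz c1
  set s := g * z * g⁻¹
  set t := h * z * h⁻¹
  have e1 : s * (s * t) * s⁻¹ = (s * t)⁻¹ := by simpa using H42.conj_mul_pow hs2 ht2 1
  have e2 : (z * s) * (s * t) * (z * s)⁻¹ = (s * t)⁻¹ := by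
    calc (z * s) * (s * t) * (z * s)⁻¹ = z * (s * (s * t) * s⁻¹) * z⁻¹ := by group
      _ = (s * t)⁻¹ := by rw [e1, ← hc.inv_left.eq, mul_inv_cancel_right]
  have e3 : Commute ((z * s) ^ 2) (s * t) := by
    have e4 : (z * s) * (s * t)⁻¹ * (z * s)⁻¹ = s * t := by
      have := congrArg (·⁻¹) e2
      simpa only [mul_inv_rev, inv_inv, mul_assoc] using this
    have : (z * s) ^ 2 * (s * t) * ((z * s) ^ 2)⁻¹ = s * t := by
      calc (z * s) ^ 2 * (s * t) * ((z * s) ^ 2)⁻¹
          = (z * s) * ((z * s) * (s * t) * (z * s)⁻¹) * (z * s)⁻¹ := by rw [sq]; group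
        _ = s * t := by rw [e2, e4]
    exact mul_inv_eq_iff_eq_mul.mp this
  have e5 := H42.commute_of_sq_commute ⟨m, hm⟩ e3
  rw [e5.eq, mul_inv_cancel_right] at e2
  have e6 := H42.eq_one_of_sq_of_odd hodd (by rw [sq]; nth_rewrite 2 [e2]; exact mul_inv_cancel _)
  apply hne
  rw [eq_inv_of_mul_eq_one_left e6, H42.inv_eq_self_of_mul_self ht2]

end Cfsg.Agent.S1184
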