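import Cfsg.Statements.S1186
import Cfsg.Agent.H42.Isolated

set_option autoImplicit false
open Cfsg

namespace Cfsg.Agent.S1186

/-- Let z be an isolated involution of the finite group G, C = C_G(z), K the set of elements of odd order inverted by z, and s an involution of C. Then |G| = |C| · |C_K(sz)| · |C_K(s)|. -/
theorem result {G : Type*} [Group G] [Finite G] (z : G) (hz : Cfsg.IsIsolatedInvolution z) (s : G) (hs : orderOf s = 2) (hsz : Commute s z) : Nat.card G = Nat.card (Subgroup.centralizer ({z} : Set G)) * Nat.card {k : G // Odd (orderOf k) ∧ z * k * z⁻¹ = k⁻¹ ∧ Commute k (s * z)} * Nat.card {k : G // Odd (orderOf k) ∧ z * k * z⁻¹ = k⁻¹ ∧ Commute k s} := by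
  have hz2 := H42.mul_self_of_orderOf_two hz.1
  have hs2 := H42.mul_self_of_orderOf_two hs
  set C := Subgroup.centralizer ({z} : Set G) with hC
  have hq : ∀ g h : G, (g : G ⧸ C) = h ↔ g * z * g⁻¹ = h * z * h⁻¹ := by
    intro g k
    rw [QuotientGroup.eq, hC, Subgroup.mem_centralizer_singleton_iff, eq_comm (a := g * z * g⁻¹)]
    constructor
    · intro h
      calc k * z * k⁻¹ = g * (g⁻¹ * k * z) * k⁻¹ := by group
        _ = g * z * g⁻¹ := by rw [h]; group
    · intro h
      calc g⁻¹ * k * z = g⁻¹ * (k * z * k⁻¹) * k := by group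
        _ = z * (g⁻¹ * k) := by rw [h]; group
  let f : {k : G // Odd (orderOf k) ∧ z * k * z⁻¹ = k⁻¹ ∧ Commute k (s * z)} ×
      {k : G // Odd (orderOf k) ∧ z * k * z⁻¹ = k⁻¹ ∧ Commute k s} → G ⧸ C :=
    fun p => ((p.2 * p.1 : G) : G ⧸ C)
  have hsz2 : s * z * (s * z) = 1 := by
    rw [mul_assoc, ← mul_assoc z s, ← hsz.eq, mul_assoc, hz2, mul_one, hs2]
  have aux : ∀ a b : G, Commute a (s * z) → Commute b s → ∀ m : ℕ, Odd m →
      orderOf (z * (a * z * a⁻¹)) ∣ m →
      (s * (b * a * z * (b * a)⁻¹)) ^ m = s * (b * z * b⁻¹) := by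
    intro a b ha hb m hm hd
    have e1 : s * (b * a * z * (b * a)⁻¹) = b * ((s * z) * (z * (a * z * a⁻¹))) * b⁻¹ := by
      rw [mul_assoc s z, ← mul_assoc z z, hz2, one_mul, ← mul_assoc b s, hb.eq]; group
    have e2 : Commute (s * z) (z * (a * z * a⁻¹)) := by
      have h1 : Commute (s * z) z := hsz.mul_left (Commute.refl z)
      exact h1.mul_right ((ha.symm.mul_right h1).mul_right ha.symm.inv_right)
    obtain ⟨j, rfl⟩ := hm
    rw [e1, conj_pow, e2.mul_pow, orderOf_dvd_iff_pow_eq_one.mp hd, mul_one, pow_succ, pow_mul, sq,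
      hsz2, one_pow, one_mul, ← mul_assoc b s, hb.eq]
    group
  have hf : Function.Bijective f := by
    constructor
    · rintro ⟨⟨a, ha1, ha2, ha3⟩, ⟨b, hb1, hb2, hb3⟩⟩ ⟨⟨a', ha1', ha2', ha3'⟩, ⟨b', hb1', hb2', hb3'⟩⟩ h
      have h1 := (hq _ _).mp h
      simp only at h1
      have o1 := H42.isolated_odd hz (isConj_iff.mpr ⟨a, rfl⟩)
      have o2 := H42.isolated_odd hz (isConj_iff.mpr ⟨a', rfl⟩)
      have e1 := aux a b ha3 hb3 _ (o1.mul o2) (dvd_mul_right _ _)
      have e2 := aux a' b' ha3' hb3' _ (o1.mul o2) (dvd_mul_left _ _)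
      rw [h1, e2] at e1
      have hb : b' = b := H42.eq_of_conj_eq_of_inverted hb1' hb1 hb2' hb2 (mul_left_cancel e1)
      subst hb
      have ha : a = a' := by
        refine H42.eq_of_conj_eq_of_inverted ha1 ha1' ha2 ha2' ?_
        calc a * z * a⁻¹ = b'⁻¹ * (b' * a * z * (b' * a)⁻¹) * b' := by group
          _ = a' * z * a'⁻¹ := by rw [h1]; group
      subst ha
      rfl
    · intro x
      obtain ⟨g, rfl⟩ := QuotientGroup.mk_surjective x
      have c1 : IsConj z (g * z * g⁻¹) := isConj_iff.mpr ⟨g, rfl⟩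
      have hd := H42.isolated_conj hz g
      have hd2 := H42.conj_mul_self hz2 g
      set d := g * z * g⁻¹ with hddef
      obtain ⟨d₀, c0, hd0, hd0'⟩ : ∃ d₀ : G, IsConj z d₀ ∧ Commute d₀ s ∧ Commute d (s * d₀) := by
        rcases Nat.even_or_odd (orderOf (s * d)) with ⟨m, hm⟩ | hodd
        · have hm0 : m ≠ 0 := by have := orderOf_pos (s * d); omega
          obtain ⟨h1, h2, h3, h4⟩ := H42.half_pow_facts hs2 hd2 hm0 (by omega)
          rcases Nat.even_or_odd' m with ⟨j, rfl | rfl⟩
          · exfalso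
            have e : (s * d) ^ (2 * j) = (d * s) ^ (2 * j) := by
              rw [← H42.inv_eq_self_of_mul_self h2, ← inv_pow, mul_inv_rev,
                H42.inv_eq_self_of_mul_self hs2, H42.inv_eq_self_of_mul_self hd2]
            have h5 : IsConj d (d * (s * d) ^ (2 * j)) := by
              rw [e]
              exact isConj_iff.mpr ⟨_, (H42.mul_pow_even_isConj hd2 hs2 j).symm⟩
            have := H42.isolated_eq_of_isConj hd h5 ((Commute.refl d).mul_right h4)
            exact h1 (by simpa using this)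
          · refine ⟨s * (s * d) ^ (2 * j + 1), c1.trans (isConj_iff.mpr
              ⟨_, (H42.mul_pow_odd_isConj hs2 hd2 j).symm⟩), (Commute.refl s).mul_left h3.symm, ?_⟩
            rw [← mul_assoc, hs2, one_mul]
            exact h4
        · obtain ⟨j, hj⟩ := H42.exists_pow_conj_of_odd hd2 hs2 hodd
          have : s = z :=
            H42.isolated_eq_of_isConj hz (c1.trans (isConj_iff.mpr ⟨_, hj⟩)) hsz.symm
          refine ⟨z, IsConj.refl z, hsz.symm, ?_⟩
          rw [this, hz2]
          exact Commute.one_right _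
      obtain ⟨j, hj, hb1, hb2⟩ := H42.isolated_exists_pow_conj hz c0
      have hb3 : Commute ((d₀ * z) ^ j) s := (hd0.mul_left hsz.symm).pow_left j
      set b := (d₀ * z) ^ j
      have c2 : IsConj z (b⁻¹ * d * b) := c1.trans (isConj_iff.mpr ⟨b⁻¹, by simp⟩)
      obtain ⟨i, hi, ha1, ha2⟩ := H42.isolated_exists_pow_conj hz c2
      have ha3 : Commute ((b⁻¹ * d * b * z) ^ i) (s * z) := by
        refine (Commute.mul_left ?_ (hsz.symm.mul_right (Commute.refl z))).pow_left i
        have := hd0'.map (MulAut.conj b⁻¹)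
        have e : s * z = b⁻¹ * (s * d₀) * b := by
          rw [← hj, ← mul_assoc b⁻¹ s, hb3.inv_left.eq]; group
        rw [e]
        simpa using this
      refine ⟨⟨⟨_, ha1, ha2, ha3⟩, ⟨b, hb1, hb2, hb3⟩⟩, (hq _ _).mpr ?_⟩
      set a := (b⁻¹ * d * b * z) ^ i
      calc b * a * z * (b * a)⁻¹ = b * (a * z * a⁻¹) * b⁻¹ := by group
        _ = d := by rw [hi]; group
  rw [mul_assoc, ← Nat.card_prod, Nat.card_eq_of_bijective f hf, ← Subgroup.index_eq_card,
    Subgroup.card_mul_index]

end Cfsg.Agent.S1186
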