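import Cfsg.Statements.S1187
import Cfsg.Agent.H42.ZStar
import Cfsg.Agent.H42.SylIn
import Cfsg.Agent.S0025

set_option autoImplicit false
open Cfsg

namespace Cfsg.Agent.S1187

/-- Let z be an isolated involution of the finite group G and p a prime. If Q is a p-subgroup normalized by z that is maximal among p-subgroups normalized by z, then Q is a Sylow p-subgroup of G. -/
theorem result {G : Type*} [Group G] [Finite G] (z : G) (hz : Cfsg.IsIsolatedInvolution z) {p : ℕ} [Fact p.Prime] (Q : Subgroup G) (hQ : IsPGroup p Q) (hzQ : z ∈ Subgroup.normalizer (Q : Set G)) (hmax : ∀ R : Subgroup G, IsPGroup p R → z ∈ Subgroup.normalizer (R : Set G) → Q ≤ R → R = Q) : ∃ P : Sylow p G, (P : Subgroup G) = Q := by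
  obtain ⟨P, hP⟩ := hQ.exists_le_sylow
  by_cases hp : p = 2
  · subst hp
    have hz2 : IsPGroup 2 (Subgroup.zpowers z) :=
      IsPGroup.of_card (n := 1) (by rw [Nat.card_zpowers, hz.1]; rfl)
    have h1 : IsPGroup 2 (Q ⊔ Subgroup.zpowers z : Subgroup G) :=
      IsPGroup.to_sup_of_normal_left' hQ hz2 (Subgroup.zpowers_le_of_mem hzQ)
    have hzm : z ∈ Q ⊔ Subgroup.zpowers z :=
      (le_sup_right : _ ≤ Q ⊔ Subgroup.zpowers z) (Subgroup.mem_zpowers z)
    have h2 := hmax _ h1 (Subgroup.le_normalizer hzm) le_sup_left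
    rw [h2] at hzm
    exact ⟨P, hmax _ P.2 (Subgroup.le_normalizer (hP hzm)) hP⟩
  · obtain ⟨N, hN, hodd, h⟩ := H42.zstar hz
    let L : Subgroup G := (P : Subgroup G) ⊔ N
    have hzL : Subgroup.zpowers z ≤ Subgroup.normalizer (L : Set G) := by
      rw [Subgroup.zpowers_le]
      apply H42.mem_normalizer_of_conj_mem
      intro x hx
      have : z * x * z⁻¹ = (z * x * z⁻¹ * x⁻¹) * x := by group
      rw [this]
      exact mul_mem ((le_sup_right : N ≤ L) (h x)) hx
    have hcop : (Nat.card (Subgroup.zpowers z)).Coprime (Nat.card L) := by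
      rw [Nat.card_zpowers, hz.1, Nat.coprime_two_left, ← H42.card_mul_relIndex (le_sup_right : N ≤ L),
        Subgroup.relIndex_sup_right]
      refine hodd.mul (Odd.of_dvd_nat ?_ (Subgroup.relIndex_dvd_card _ _))
      obtain ⟨k, hk⟩ := IsPGroup.iff_card.mp P.2
      rw [hk]
      exact ((Fact.out : p.Prime).odd_of_ne_two hp).pow
    obtain ⟨P', hP', hP''⟩ := S0025.result (Subgroup.zpowers z) L hzL hcop
      (Or.inl (Group.isSolvable_of_comm (fun a b => mul_comm' a b))) p Q (hP.trans le_sup_left) hQ (Subgroup.zpowers_le_of_mem hzQ)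
    have h3 := hmax _ (P'.2.map _) (hP'' (Subgroup.mem_zpowers z)) hP'
    refine ⟨P, (Subgroup.eq_of_le_of_card_ge hP ?_).symm⟩
    rw [← h3, Subgroup.card_map_of_injective L.subtype_injective,
      Nat.card_congr (Sylow.equiv P' (P.subtype le_sup_left)).toEquiv, Sylow.coe_subtype,
      Nat.card_congr (Subgroup.subgroupOfEquivOfLe le_sup_left).toEquiv]

end Cfsg.Agent.S1187
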