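import Cfsg.Statements.S1224
import Cfsg.Agent.H43.SE

set_option autoImplicit false
open Cfsg

namespace Cfsg.Agent.S1224

open Cfsg.Agent.H43

/-- Let H be a strongly embedded subgroup of the finite group G and x ≠ y two cosets in G/H. Then the number of involutions i of G with i • x = y equals the number of involutions lying in H. -/
theorem result {G : Type*} [Group G] [Finite G] (H : Subgroup G) (hH : Cfsg.IsStronglyEmbedded H) (x y : G ⧸ H) (hxy : x ≠ y) : Nat.card {i : G // orderOf i = 2 ∧ i • x = y} = Nat.card {t : G // orderOf t = 2 ∧ t ∈ H} := by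
  have hU := se_uniq hH
  obtain ⟨s, hs, hsx⟩ := se_exists_inv hH x
  obtain ⟨b, rfl⟩ := QuotientGroup.mk_surjective y
  have key : ∀ i : G, orderOf i = 2 → i • x = (b : G ⧸ H) →
      orderOf (b⁻¹ * (i * s * i) * b) = 2 ∧ b⁻¹ * (i * s * i) * b ∈ H := by
    intro i hi hix
    have hi2 := mul_self_of_orderOf hi
    refine ⟨?_, ?_⟩
    · rw [orderOf_conj', ← hs]
      have := orderOf_conj i s
      rwa [inv_eq_of_orderOf hi] at this
    · rw [← smul_mk_eq_iff, ← hix, mul_smul, mul_smul, ← mul_smul i i, hi2, one_smul, hsx]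
  refine Nat.card_eq_of_bijective
    (fun i => ⟨b⁻¹ * (i.1 * s * i.1) * b, key i.1 i.2.1 i.2.2⟩) ⟨?_, ?_⟩
  · rintro ⟨i, hi, hix⟩ ⟨j, hj, hjx⟩ h
    have h1 : i * s * i = j * s * j := by simpa using h
    exact Subtype.ext (hU.swap_unique hs (mul_self_of_orderOf hi) (mul_self_of_orderOf hj) hxy hsx
      hix hjx h1)
  · rintro ⟨t, ht, htH⟩
    obtain ⟨i, hi, h1, h2, -⟩ := hU.exists_swap' hs (t := b * t * b⁻¹) (by rw [orderOf_conj, ht])
      hxy hsx (by rw [smul_mk_eq_iff]; simpa [mul_assoc] using htH)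
    refine ⟨⟨i, hi, h2⟩, Subtype.ext ?_⟩
    simp [h1, mul_assoc]

end Cfsg.Agent.S1224
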