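import Cfsg.Statements.S1228
import Cfsg.Agent.H43.Elem

set_option autoImplicit false
open Cfsg

namespace Cfsg.Agent.S1228

open Cfsg.Agent.H43

/-- Let G be a finite group with a Sylow 2-subgroup T that is neither cyclic nor normal, such that the centralizer of every involution is an elementary abelian 2-group; put H = N_G(T), let u be an involution outside H and D = H ∩ uHu⁻¹. Then N_G(D) = D ⊔ ⟨u⟩, and a coset gH is fixed by every element of D exactly when gH = H or gH = uH. -/
theorem result {G : Type*} [Group G] [Finite G] (T : Sylow 2 G) (hnc : ¬ IsCyclic (T : Subgroup G)) (hnn : ¬ (T : Subgroup G).Normal) (hC : ∀ t : G, orderOf t = 2 → IsMulCommutative (Subgroup.centralizer ({t} : Set G)) ∧ ∀ c ∈ Subgroup.centralizer ({t} : Set G), c ^ 2 = 1) (u : G) (hu : orderOf u = 2) (huH : u ∉ Subgroup.normalizer ((T : Subgroup G) : Set G)) : Subgroup.normalizer ((Subgroup.normalizer ((T : Subgroup G) : Set G) ⊓ (Subgroup.normalizer ((T : Subgroup G) : Set G)).map (MulAut.conj u).toMonoidHom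 : Subgroup G) : Set G) = (Subgroup.normalizer ((T : Subgroup G) : Set G) ⊓ (Subgroup.normalizer ((T : Subgroup G) : Set G)).map (MulAut.conj u).toMonoidHom) ⊔ Subgroup.zpowers u ∧ ∀ g : G, ((∀ d ∈ Subgroup.normalizer ((T : Subgroup G) : Set G) ⊓ (Subgroup.normalizer ((T : Subgroup G) : Set G)).map (MulAut.conj u).toMonoidHom, d • (QuotientGroup.mk g : G ⧸ Subgroup.normalizer ((T : Subgroup G) : Set G)) = QuotientGroup.mk g) ↔ (QuotientGroup.mk g : G ⧸ Subgroup.normalizer ((T : Subgroup G) : Set G)) = QuotientGroup.mk 1 ∨ (QuotientGroup.mk g : G ⧸ Subgroup.normalizer ((T : Subgroup G) : Set G)) = QuotientGroup.mk u) := by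
  have hE := elem_set T hnc hC hnn
  set H := Subgroup.normalizer ((T : Subgroup G) : Set G) with hH
  set D := H ⊓ H.map (MulAut.conj u).toMonoidHom with hD
  have hxy := one_ne_mk huH
  have hu2 := mul_self_of_orderOf hu
  have hux := smul_one_eq_mk (H := H) u
  have huy : u • (u : G ⧸ H) = ((1 : G) : G ⧸ H) := by rw [← hux, ← mul_smul, hu2, one_smul]
  have hfix : ∀ c : G ⧸ H, (∀ d ∈ D, d • c = c) ↔ (c = ((1 : G) : G ⧸ H) ∨ c = (u : G ⧸ H)) := by
    intro c
    constructor
    · intro h
      by_contra hc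
      push Not at hc
      obtain ⟨d, hd, h1, h2⟩ := hE.exists_ne_one hxy
      exact hd (hE.three hxy hc.1.symm hc.2.symm h1 h2 (h d (mem_inf_conj_iff.2 ⟨h1, h2⟩)))
    · rintro (rfl | rfl) d hd
      · exact (mem_inf_conj_iff.1 hd).1
      · exact (mem_inf_conj_iff.1 hd).2
  refine ⟨le_antisymm ?_ (sup_le Subgroup.le_normalizer ?_), fun g => hfix g⟩
  · intro n hn
    have key : ∀ c : G ⧸ H, (∀ d ∈ D, d • c = c) → (∀ d ∈ D, d • n • c = n • c) := by
      intro c hc d hd
      have := hc _ (inv_conj_mem_of_mem_normalizer hn hd)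
      rw [mul_smul, mul_smul, inv_smul_eq_iff] at this
      exact this
    have h1 := (hfix _).1 (key _ ((hfix _).2 (Or.inl rfl)))
    have h2 := (hfix _).1 (key _ ((hfix _).2 (Or.inr rfl)))
    have hne : n • ((1 : G) : G ⧸ H) ≠ n • (u : G ⧸ H) := fun h => hxy (MulAction.injective n h)
    rcases h1 with h1 | h1
    · rcases h2 with h2 | h2
      · exact absurd (h1.trans h2.symm) hne
      · exact Subgroup.mem_sup_left (mem_inf_conj_iff.2 ⟨h1, h2⟩)
    · rcases h2 with h2 | h2
      · have : n * u ∈ D := mem_inf_conj_iff.2 ⟨by rw [mul_smul, hux, h2],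
          by rw [mul_smul, huy, h1]⟩
        have h3 := Subgroup.mul_mem_sup this (Subgroup.mem_zpowers u)
        rwa [mul_assoc, hu2, mul_one] at h3
      · exact absurd (h1.trans h2.symm) hne
  · rw [Subgroup.zpowers_le]
    apply mem_normalizer_of_conj_mem
    intro d hd
    rw [inv_eq_of_orderOf hu, hE.inverts hxy hu2 hux (mem_inf_conj_iff.1 hd).1
      (mem_inf_conj_iff.1 hd).2]
    exact D.inv_mem hd

end Cfsg.Agent.S1228
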