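import Cfsg.Statements.S1231
import Cfsg.Agent.H42.SylIn
import Cfsg.Agent.H50.Omega

set_option autoImplicit false
open Cfsg

namespace Cfsg.Agent.S1231

open Cfsg.Agent.H42 Cfsg.Agent.H50

theorem rank_cj {G : Type*} [Group G] {p k : ℕ} (g : G) (X : Subgroup G) :
    PRankLE p k (cj g X) ↔ PRankLE p k X :=
  pRankLE_map_iff (MulAut.conj g).injective


/-- Let H be a subgroup of the finite group G, p a prime, k ≥ 1, and P a Sylow p-subgroup of H whose p-rank is at least k. Then N_G(X) ≤ H for every subgroup X of P of p-rank at least k if and only if H ∩ gHg⁻¹ has p-rank less than k for every g ∉ H. -/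
theorem result {G : Type*} [Group G] [Finite G] {p : ℕ} [Fact p.Prime] (k : ℕ) (hk : 1 ≤ k) (H : Subgroup G) (P : Sylow p ↥H) (hP : ¬ Cfsg.PRankLE p (k - 1) ↥(P : Subgroup ↥H)) : (∀ X : Subgroup G, X ≤ (P : Subgroup ↥H).map H.subtype → ¬ Cfsg.PRankLE p (k - 1) ↥X → Subgroup.normalizer (X : Set G) ≤ H) ↔ (∀ g : G, g ∉ H → Cfsg.PRankLE p (k - 1) ↥(H ⊓ H.map (MulAut.conj g).toMonoidHom)) := by
  have hS : SylIn p ((P : Subgroup H).map H.subtype) H := by
    refine ⟨Subgroup.map_subtype_le _, P.isPGroup'.map _, ?_⟩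
    have h := P.not_dvd_index
    have e : ((P : Subgroup H).map H.subtype).relIndex H = (P : Subgroup H).index := by
      rw [Subgroup.relIndex, Subgroup.subgroupOf,
        Subgroup.comap_map_eq_self_of_injective H.subtype_injective]
    rwa [e]
  constructor
  · intro h g hg
    have A : ∀ X : Subgroup G, X ≤ H → IsPGroup p X → ¬ PRankLE p (k - 1) X →
        Subgroup.normalizer (X : Set G) ≤ H := by
      intro X hX hXp hr n hn
      obtain ⟨a, ha, hc⟩ := hS.exists_conj hXp hX
      have h1 := h (cj a X) (cj_le_iff.2 hc) (by rwa [rank_cj])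
      rw [← cj_normalizer] at h1
      have h2 := h1 (conj_mem_cj hn)
      have : n = a⁻¹ * (a * n * a⁻¹) * a := by group
      rw [this]
      exact H.mul_mem (H.mul_mem (H.inv_mem ha) h2) ha
    by_contra hD
    rw [pRankLE_iff] at hD
    push Not at hD
    obtain ⟨E, hED, hE, hc⟩ := hD
    obtain ⟨R, hR, hER⟩ := exists_sylIn (pgroup_of_exp hE.2) hED
    have hRr : ¬ PRankLE p (k - 1) R := not_pRankLE_of_elem hER hE hc
    have hRH : R ≤ H := hR.le.trans inf_le_left
    have hRg : cj g⁻¹ R ≤ H := by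
      have : R ≤ cj g H := hR.le.trans inf_le_right
      have h2 := cj_mono g⁻¹ this
      rwa [cj_inv_cj] at h2
    have hN1 := A R hRH hR.isP hRr
    have hN2 : Subgroup.normalizer (R : Set G) ≤ cj g H := by
      have := A _ hRg (isPGroup_cj _ hR.isP) (by rwa [rank_cj])
      rw [← cj_normalizer] at this
      have h2 := cj_mono g this
      rwa [cj_cj_inv] at h2
    obtain ⟨T, hT, hRT⟩ := exists_sylIn hR.isP (le_top : R ≤ ⊤)
    have hTR : T = R := by
      by_contra hne
      have hlt : R < T := lt_of_le_of_ne hRT (Ne.symm hne)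
      have h1 := lt_inf_normalizer hT.isP hlt
      have h2 := hR.eq_of_le (R := T ⊓ Subgroup.normalizer (R : Set G))
        (hT.isP.to_le inf_le_left) (inf_le_right.trans (le_inf hN1 hN2)) h1.le
      exact h1.ne h2.symm
    subst hTR
    have hTH : SylIn p T H := hT.of_le hRH le_top
    obtain ⟨a, ha, hc2⟩ := hTH.exists_conj (isPGroup_cj g⁻¹ hT.isP) hRg
    have hn : a * g⁻¹ ∈ Subgroup.normalizer (T : Set G) := by
      refine mem_normalizer_of_conj_mem fun x hx => ?_
      have := hc2 _ (conj_mem_cj (g := g⁻¹) hx)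
      have e : a * g⁻¹ * x * (a * g⁻¹)⁻¹ = a * (g⁻¹ * x * g⁻¹⁻¹) * a⁻¹ := by group
      rwa [e]
    apply hg
    have : g = (a * g⁻¹)⁻¹ * a := by group
    rw [this]
    exact H.mul_mem (H.inv_mem (hN1 hn)) ha
  · intro h X hX hr n hn
    by_contra hnH
    apply hr
    refine pRankLE_mono (h n hnH) (le_inf (hX.trans hS.le) ?_)
    have := cj_mono n (hX.trans hS.le)
    rwa [cj_eq_iff_mem_normalizer.2 hn] at this

end Cfsg.Agent.S1231
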