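import Cfsg.Statements.S1236
import Cfsg.Agent.H43.Dih
import Cfsg.Agent.H42.QD2

set_option autoImplicit false
open Cfsg

namespace Cfsg.Agent.S1236

open Cfsg.Agent.H42 Cfsg.Agent.H43 Subgroup


/-- Let R be a finite group, t a central involution of R such that R ⧸ ⟨t⟩ is dihedral (of order ≥ 4) or quasi-dihedral, and A ≤ R an elementary abelian subgroup of order 8 containing t. Then C_R(A) = A. -/
theorem result {R : Type*} [Group R] [Finite R] (t : R) (ht : orderOf t = 2) (htz : t ∈ Subgroup.center R) [(Subgroup.zpowers t).Normal] (hq : (∃ m : ℕ, 2 ≤ m ∧ Nonempty (R ⧸ Subgroup.zpowers t ≃* DihedralGroup m)) ∨ Cfsg.IsQuasiDihedral (R ⧸ Subgroup.zpowers t)) (A : Subgroup R) (hA : Cfsg.IsElementaryAbelian 2 A) (hA8 : Nat.card A = 8) (htA : t ∈ A) : Subgroup.centralizer (A : Set R) = A := by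
  set Z := Subgroup.zpowers t with hZ
  let π := QuotientGroup.mk' Z
  have hZA : Z ≤ A := zpowers_le_of_mem htA
  have hK : IsKleinFour (A.map π) := by
    refine isKleinFour_of_card ?_ ?_
    · have h1 : Nat.card (A.map π) = Z.relIndex A := by
        rw [← relIndex_ker, QuotientGroup.ker_mk']
      have h2 := card_mul_relIndex hZA
      rw [hZ, Nat.card_zpowers, ht, hA8] at h2
      rw [h1, hZ]; omega
    · rintro _ ⟨a, ha, rfl⟩
      rw [← map_mul, ← sq, hA.2 a ha, map_one]
  have hC : ⊤ ⊓ centralizer (A.map π : Set (R ⧸ Z)) = A.map π := by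
    rcases hq with ⟨m, -, ⟨e⟩⟩ | hq
    · obtain ⟨x, y, h, -⟩ := Dih.of_equiv (topEquiv.trans e)
      exact h.klein_centralizer hK le_top
    · obtain ⟨k, x, y, h⟩ := QD.of_isQuasiDihedral_top hq
      exact h.klein_centralizer hK le_top
  refine le_antisymm (fun c hc => ?_) (fun a ha => mem_centralizer_iff.2 fun b hb =>
    congrArg Subtype.val (hA.1.is_comm.comm ⟨b, hb⟩ ⟨a, ha⟩))
  have : π c ∈ A.map π := by
    rw [← hC]
    refine ⟨mem_top _, mem_centralizer_iff.2 ?_⟩
    rintro _ ⟨a, ha, rfl⟩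
    rw [← map_mul, ← map_mul, mem_centralizer_iff.1 hc a ha]
  have h2 : c ∈ (A.map π).comap π := this
  rwa [comap_map_eq, QuotientGroup.ker_mk', sup_eq_left.2 hZA] at h2

end Cfsg.Agent.S1236
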