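import Cfsg.Statements.S1242
import Cfsg.Agent.H43.Basic

set_option autoImplicit false
open Cfsg

namespace Cfsg.Agent.S1242

open Cfsg.Agent.H43
open scoped IsMulCommutative

theorem pResidual_normal (p : ℕ) (G : Type*) [Group G] : (Cfsg.pResidual p G).Normal := by
  constructor
  intro n hn g
  induction hn using Subgroup.closure_induction with
  | mem z hz =>
    apply Subgroup.subset_closure
    change Nat.Coprime (orderOf (g * z * g⁻¹)) p
    rw [orderOf_conj]; exact hz
  | one => simp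
  | mul _ _ _ _ IHa IHb => simpa [mul_assoc] using Subgroup.mul_mem _ IHa IHb
  | inv _ _ IH => simpa [mul_assoc] using Subgroup.inv_mem _ IH

theorem exists_pow_mem_pResidual {G : Type*} [Group G] [Finite G] (p : ℕ) [Fact p.Prime] (x : G) :
    ∃ k, x ^ p ^ k ∈ Cfsg.pResidual p G := by
  obtain ⟨k, m, hm, h⟩ := Nat.exists_eq_pow_mul_and_not_dvd (orderOf_pos x).ne' p
    (Fact.out : p.Prime).ne_one
  refine ⟨k, Subgroup.subset_closure ?_⟩
  have h1 : (x ^ p ^ k) ^ m = 1 := by rw [← pow_mul, ← h, pow_orderOf_eq_one]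
  exact Nat.Coprime.coprime_dvd_left (orderOf_dvd_of_pow_eq_one h1)
    ((Nat.Prime.coprime_iff_not_dvd Fact.out).2 hm).symm

/-- Let G be a finite group, p a prime and H a subgroup of index prime to p such that any two elements of H of p-power order that are conjugate in G are conjugate in H. Then (O^p(G)·G') ∩ H = O^p(H)·H', where O^p denotes the subgroup generated by the elements of order prime to p. -/
theorem result {G : Type*} [Group G] [Finite G] {p : ℕ} [Fact p.Prime] (H : Subgroup G) (hidx : Nat.Coprime p H.index) (hfus : ∀ g ∈ H, (∃ k : ℕ, orderOf g = p ^ k) → ∀ a : G, a * g * a⁻¹ ∈ H → ∃ h ∈ H, h * g * h⁻¹ = a * g * a⁻¹) : (Cfsg.pResidual p G ⊔ commutator G) ⊓ H = (Cfsg.pResidual p ↥H ⊔ commutator ↥H).map H.subtype := by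
  have := pResidual_normal p H
  set K : Subgroup H := Cfsg.pResidual p ↥H ⊔ commutator ↥H with hK
  have hcomm : IsMulCommutative (H ⧸ K) := by
    rw [Subgroup.Normal.quotient_commutative_iff_commutator_le]
    exact le_sup_right
  have hpK : ∀ y : H ⧸ K, ∃ k, y ^ p ^ k = 1 := by
    intro y
    obtain ⟨y, rfl⟩ := QuotientGroup.mk_surjective y
    obtain ⟨k, hk⟩ := exists_pow_mem_pResidual p y
    refine ⟨k, ?_⟩
    rw [← QuotientGroup.mk_pow, QuotientGroup.eq_one_iff]
    exact Subgroup.mem_sup_left hk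
  apply le_antisymm
  · rintro x ⟨hx, hxH⟩
    have hV : Cfsg.pResidual p G ⊔ commutator G ≤
        (MonoidHom.transfer (QuotientGroup.mk' K)).ker := by
      refine sup_le ?_ (Abelianization.commutator_subset_ker _)
      rw [Cfsg.pResidual, Subgroup.closure_le]
      intro y hy
      obtain ⟨k, hk⟩ := hpK (MonoidHom.transfer (QuotientGroup.mk' K) y)
      refine eq_one_of_pow_coprime (Nat.Coprime.pow_right k hy) ?_ hk
      rw [← map_pow, pow_orderOf_eq_one, map_one]
    obtain ⟨k, m, hm, h⟩ := Nat.exists_eq_pow_mul_and_not_dvd (orderOf_pos x).ne' p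
      (Fact.out : p.Prime).ne_one
    have hxm : x ^ m ∈ H := H.pow_mem hxH m
    have hord : ∀ j : ℕ, ∃ i, orderOf ((x ^ m) ^ j) = p ^ i := by
      intro j
      have h1 : ((x ^ m) ^ j) ^ (p ^ k) = 1 := by
        rw [← pow_mul, mul_comm, pow_mul, ← pow_mul x, mul_comm m, ← h, pow_orderOf_eq_one, one_pow]
      obtain ⟨i, -, hi⟩ := (Nat.dvd_prime_pow Fact.out).1 (orderOf_dvd_of_pow_eq_one h1)
      exact ⟨i, hi⟩
    have h1 := transfer_eq_pow' (QuotientGroup.mk' K) (x ^ m) hxm (by
      intro j a ha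
      obtain ⟨b, hb, hb2⟩ := hfus _ (H.pow_mem hxm j) (hord j) a⁻¹ (by simpa using ha)
      have : (⟨_, ha⟩ : H) = ⟨b, hb⟩ * (⟨x ^ m, hxm⟩ : H) ^ j * (⟨b, hb⟩ : H)⁻¹ := by
        apply Subtype.ext
        simp only [Subgroup.coe_mul, Subgroup.coe_pow, Subgroup.coe_inv]
        rw [hb2, inv_inv]
      rw [this, map_mul, map_mul, map_inv, mul_inv_cancel_comm, map_pow])
    have h2 : MonoidHom.transfer (QuotientGroup.mk' K) (x ^ m) = 1 := by
      rw [map_pow, (MonoidHom.mem_ker).1 (hV hx), one_pow]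
    obtain ⟨i, hi⟩ := hpK (QuotientGroup.mk' K ⟨x ^ m, hxm⟩)
    have h4 := eq_one_of_pow_coprime (Nat.Coprime.pow_left i hidx) hi (h1.symm.trans h2)
    obtain ⟨j, hj⟩ := hpK (QuotientGroup.mk' K ⟨x, hxH⟩)
    have h5 : QuotientGroup.mk' K ⟨x, hxH⟩ ^ m = 1 := by
      rw [← map_pow]; exact h4
    have h6 := eq_one_of_pow_coprime (Nat.Coprime.pow_left j
      ((Nat.Prime.coprime_iff_not_dvd Fact.out).2 hm)) hj h5
    exact ⟨⟨x, hxH⟩, (QuotientGroup.eq_one_iff _).1 h6, rfl⟩
  · refine le_inf ?_ (Subgroup.map_subtype_le _)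
    rw [hK, Subgroup.map_sup]
    apply sup_le_sup
    · rw [Cfsg.pResidual, MonoidHom.map_closure, Subgroup.closure_le]
      rintro _ ⟨y, hy, rfl⟩
      apply Subgroup.subset_closure
      change Nat.Coprime (orderOf (y : G)) p
      rw [Subgroup.orderOf_coe]; exact hy
    · rw [Subgroup.map_subtype_commutator]
      exact Subgroup.commutator_mono le_top le_top

end Cfsg.Agent.S1242
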