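import Cfsg.Statements.S1244
import Cfsg.Agent.H42.Index2
import Cfsg.Agent.H43.Basic
import Cfsg.Agent.H50.Omega
import Cfsg.Agent.H3.PResidual

set_option autoImplicit false
open Cfsg

namespace Cfsg.Agent.S1244

open Cfsg.Agent.H42 Cfsg.Agent.H50 Subgroup


/-- Let G be a finite group with no subgroup of index 2 whose Sylow 2-subgroup S is commutative, and let R ≤ S be a subgroup whose 2-rank is exactly one less than the 2-rank r of S. Then every involution of S is conjugate, by an element of N_G(S), to an element of R. -/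
theorem result {G : Type*} [Group G] [Finite G] (hG : ∀ H : Subgroup G, H.index ≠ 2) (S : Sylow 2 G) (hS : IsMulCommutative (S : Subgroup G)) (r : ℕ) (hr1 : 1 ≤ r) (hSr : Cfsg.PRankLE 2 r (S : Subgroup G) ∧ ¬ Cfsg.PRankLE 2 (r - 1) (S : Subgroup G)) (R : Subgroup G) (hRS : R ≤ S) (hRr : Cfsg.PRankLE 2 (r - 1) R ∧ (r = 1 ∨ ¬ Cfsg.PRankLE 2 (r - 2) R)) (t : G) (ht : orderOf t = 2) (htS : t ∈ S) : ∃ n ∈ Subgroup.normalizer ((S : Subgroup G) : Set G), n * t * n⁻¹ ∈ R := by
  by_contra hne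
  push Not at hne
  have htt : t * t = 1 := H43.mul_self_of_orderOf ht
  have hfus : ∀ a : G, a⁻¹ * t * a ∈ (S : Subgroup G) → a⁻¹ * t * a ∉ R := by
    intro a ha hR
    obtain ⟨n, hn, e⟩ := S.conj_eq_normalizer_conj_of_mem t a htS ha
    apply hne n⁻¹ (inv_mem hn)
    rwa [inv_inv, ← e]
  have htR : t ∉ R := by simpa using hfus 1 (by rw [inv_one, one_mul, mul_one]; exact htS)
  -- the involutions of `S`
  have hΩ := elem_omega_of_abelian (p := 2) hS
  have hΩc : Nat.card (omegaOne 2 (S : Subgroup G)) ≤ 2 ^ r :=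
    pRankLE_iff.1 hSr.1 _ (omega_le _) hΩ
  have htΩ : t ∈ omegaOne 2 (S : Subgroup G) := mem_omega htS (by rw [sq, htt])
  obtain ⟨E, hER, hE, hEc⟩ : ∃ E : Subgroup G, E ≤ R ∧ IsElementaryAbelian 2 E ∧
      2 ^ (r - 1) ≤ Nat.card E := by
    rcases hRr.2 with h | h
    · exact ⟨⊥, bot_le, elem_bot, by simp [h]⟩
    · rw [pRankLE_iff] at h
      push Not at h
      obtain ⟨E, h1, h2, h3⟩ := h
      refine ⟨E, h1, h2, ?_⟩
      rcases Nat.lt_or_ge r 2 with hr | hr
      · have : r - 1 = 0 := by omega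
        rw [this]; exact Nat.card_pos
      · have h4 := Nat.le_of_dvd Nat.card_pos (pow_dvd_card_of_lt (pgroup_of_exp h2.2) h3)
        rwa [show r - 2 + 1 = r - 1 by omega] at h4
  have hEΩ : E ≤ omegaOne 2 (S : Subgroup G) := le_omega_of_exp (hER.trans hRS) hE.2
  have htn : t ∈ normalizer (E : Set G) := by
    refine mem_normalizer_of_conj_mem fun x hx => ?_
    rw [mul_comm_of_abelian hS htS (hRS (hER hx)), mul_inv_cancel_right]
    exact hx
  have hsup : E ⊔ zpowers t = omegaOne 2 (S : Subgroup G) := by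
    refine eq_of_le_of_card_ge (sup_le hEΩ (zpowers_le_of_mem htΩ)) ?_
    rw [card_sup_zpowers htn (by rw [htt]; exact one_mem _) (fun h => htR (hER h))]
    calc _ ≤ 2 ^ r := hΩc
      _ = 2 * 2 ^ (r - 1) := by rw [← pow_succ']; congr 1; omega
      _ ≤ _ := by omega
  have hcong : ∀ u ∈ (S : Subgroup G), u * u = 1 → u ∉ R → u * t⁻¹ ∈ R := by
    intro u hu huu huR
    have : u ∈ E ⊔ zpowers t := by rw [hsup]; exact mem_omega hu (by rw [sq, huu])
    rcases (mem_sup_zpowers htn (by rw [htt]; exact one_mem _)).1 this with h | h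
    · exact absurd (hER h) huR
    · exact hER h
  -- transfer
  have hres : pResidual 2 G = ⊤ := by
    by_contra h
    obtain ⟨M, -, hM⟩ := H3.pResidual_ne_top_iff.1 h
    exact hG M hM
  let _ : CommGroup (S : Subgroup G) :=
    { (inferInstance : Group (S : Subgroup G)) with mul_comm := fun a b => hS.is_comm.comm a b }
  let R' : Subgroup (S : Subgroup G) := R.subgroupOf S
  let φ : (S : Subgroup G) →* (S : Subgroup G) ⧸ R' := QuotientGroup.mk' R'
  have hQ : IsPGroup 2 ((S : Subgroup G) ⧸ R') := S.2.to_quotient R'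
  have h1 := H3.eq_one_of_pResidual_eq_top hres (MonoidHom.transfer φ) hQ t
  have hφt : φ ⟨t, htS⟩ ^ 2 = 1 := by
    rw [← map_pow]
    have : (⟨t, htS⟩ : (S : Subgroup G)) ^ 2 = 1 := Subtype.ext (by simp [sq, htt])
    rw [this, map_one]
  rw [H43.transfer_eq_pow' φ t htS] at h1
  · have h2 := H43.eq_one_of_pow_coprime
      ((Nat.Prime.coprime_iff_not_dvd Nat.prime_two).2 S.not_dvd_index) hφt h1
    exact htR (mem_subgroupOf.1 ((QuotientGroup.eq_one_iff _).1 h2))
  · intro k a h
    obtain ⟨j, rfl | rfl⟩ := Nat.even_or_odd' k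
    · have e : t ^ (2 * j) = 1 := by rw [pow_mul, sq, htt, one_pow]
      rw [pow_mul (φ _), hφt, one_pow]
      have : (⟨_, h⟩ : (S : Subgroup G)) = 1 := Subtype.ext (by simp [e])
      rw [this, map_one]
    · have e : t ^ (2 * j + 1) = t := by rw [pow_succ, pow_mul, sq, htt, one_pow, one_mul]
      rw [pow_succ (φ _), pow_mul (φ _), hφt, one_pow, one_mul]
      have h' : a⁻¹ * t * a ∈ (S : Subgroup G) := by rwa [e] at h
      have h3 := hcong _ h' (by
        calc a⁻¹ * t * a * (a⁻¹ * t * a) = a⁻¹ * (t * t) * a := by group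
          _ = 1 := by rw [htt]; group) (hfus a h')
      symm
      apply QuotientGroup.eq.2
      rw [mem_subgroupOf]
      simp only [Subgroup.coe_mul, Subgroup.coe_inv, e]
      rwa [mul_comm_of_abelian hS (inv_mem htS) h']

end Cfsg.Agent.S1244
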