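import Cfsg.Statements.S1246
import Cfsg.Agent.H71.CharP
import Cfsg.Agent.H59.Fit

set_option autoImplicit false
open Cfsg

namespace Cfsg.Agent.S1246

open Subgroup

theorem isPGroup_gfitting_iff {G : Type*} [Group G] [Finite G] {p : ℕ} [Fact p.Prime]
    (H : Subgroup G) : IsPGroup p (generalizedFittingSubgroup H) ↔ H72.CharPIn p H := by
  rw [H71.charPIn_iff_gfitting]
  constructor
  · intro h
    exact le_antisymm (H44.le_pCore H44.gfitting_normal h)
      (H44.pCore_le_fitting.trans le_sup_right)
  · intro h; rw [h]; exact H44.pCore_isPGroup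

/-- Let V ≤ U be p-subgroups of the finite group G. If the generalized Fitting subgroup of C_G(V) is a p-group, then so is that of C_G(U). -/
theorem result {G : Type*} [Group G] [Finite G] {p : ℕ} [Fact p.Prime] (U V : Subgroup G) (hVU : V ≤ U) (hU : IsPGroup p U) (hV : IsPGroup p ↥(Cfsg.generalizedFittingSubgroup ↥(Subgroup.centralizer (V : Set G)))) : IsPGroup p ↥(Cfsg.generalizedFittingSubgroup ↥(Subgroup.centralizer (U : Set G))) := by
  rw [isPGroup_gfitting_iff] at hV ⊢
  have hsn : H44.SN U V := H59.sn_of_le_nilpotent hU.isNilpotent hVU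
  clear hVU
  have key : ∀ {W : Subgroup G}, H44.SN U W → ∀ hW : H72.CharPIn p (centralizer (W : Set G)),
      H72.CharPIn p (centralizer (U : Set G)) := by
    intro W hW
    induction hW with
    | refl => exact fun h => h
    | step K L hKL hL hn ih =>
      intro h
      apply ih
      have hLp : IsPGroup p L := hU.to_le hL.le
      have h1 := H71.charPIn_normalizer_of_centralizer' (hLp.to_le hKL) h
      have h2 := H71.charPIn_inf_centralizer h1 hLp hn
      rwa [inf_eq_right.2 ((H21.centralizer_anti hKL).trans (centralizer_le_normalizer _))] at h2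
  exact key hsn hV

end Cfsg.Agent.S1246
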