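import Cfsg.Statements.S1247
import Cfsg.Agent.H59.Bender

set_option autoImplicit false
open Cfsg

namespace Cfsg.Agent.S1247

open Subgroup H44 H59

theorem mem_of_coprime_of_sup {G : Type*} [Group G] [Finite G] {p : ℕ} {C U : Subgroup G}
    (hn : U ≤ normalizer (C : Set G)) (hU : IsPGroup p U) {y : G} (hy : y ∈ C ⊔ U)
    (hc : Nat.Coprime (orderOf y) p) : y ∈ C := by
  obtain ⟨c, hcC, u, hu, rfl⟩ := (H21.mem_sup_of_le_normalizer hn).1 hy
  have key : ∀ n : ℕ, (c * u) ^ n * (u ^ n)⁻¹ ∈ C := by
    intro n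
    induction n with
    | zero => simp
    | succ n ih =>
      have : (c * u) ^ (n + 1) * (u ^ (n + 1))⁻¹ = c * (u * ((c * u) ^ n * (u ^ n)⁻¹) * u⁻¹) := by
        rw [pow_succ', pow_succ']; group
      rw [this]
      exact C.mul_mem hcC (H21.conj_mem_of_mem_normalizer (hn hu) ih)
  obtain ⟨k, hk⟩ := hU ⟨u, hu⟩
  have hk' : u ^ p ^ k = 1 := congrArg Subtype.val hk
  have h1 := key (p ^ k)
  rw [hk', inv_one, mul_one] at h1
  exact (zpowers_le.2 h1) (mem_zpowers_pow_iff.2 (Nat.Coprime.pow_left k hc.symm))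

/-- Let G be a non-abelian finite simple group, A a maximal subgroup, F = F*(A) its generalized Fitting subgroup (viewed in G), and S ≤ F a subgroup subnormal in F with C_F(S) ≤ S. Let B be any subgroup of G containing S. Then (a) for every prime q not dividing |F(A)|, O_q(B) ∩ A = 1; and (b) for every prime p dividing |F(A)|, O_p(B) commutes elementwise with the subgroup of F generated by its elements of order prime to p. -/
theorem result {G : Type*} [Group G] [Finite G] [IsSimpleGroup G] (hna : ¬ IsMulCommutative G) (A : Subgroup G) (hA : IsCoatom A) (S : Subgroup G) (hSF : S ≤ (Cfsg.generalizedFittingSubgroup ↥A).map A.subtype) (hSsn : (S.subgroupOf ((Cfsg.generalizedFittingSubgroup ↥A).map A.subtype)).IsSubnormal) (hSC : (Cfsg.generalizedFittingSubgroup ↥A).map A.subtype ⊓ Subgroup.centralizer (S : Set G) ≤ S) (B : Subgroup G) (hSB : S ≤ B) : (∀ q : ℕ, q.Prime → ¬ q ∣ Nat.card (Cfsg.fittingSubgroup ↥A) → (Cfsg.pCore q ↥B).map B.subtype ⊓ A = ⊥) ∧ (∀ p : ℕ, p.Prime → p ∣ Nat.card (Cfsg.fittingSubgroup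 ↥A) → ∀ x ∈ (Cfsg.pCore p ↥B).map B.subtype, ∀ y ∈ (Cfsg.pResidual p ↥(Cfsg.generalizedFittingSubgroup ↥A)).map ((Cfsg.generalizedFittingSubgroup ↥A).subtype) , x * (A.subtype y) = (A.subtype y) * x) := by
  change S ≤ FSof A at hSF
  change FSof A ⊓ centralizer (S : Set G) ≤ S at hSC
  have hsn : SN A S := (sn_FSof A).trans (sn_iff.2 ⟨hSF, hSsn⟩)
  have hE : Eof A ≤ S := Eof_le_iff.2 fun K hK => (hK.le_or_commutator_eq_bot hsn).elim id
    fun h => le_trans (le_inf (hK.le_Eof.trans (Eof_le_FSof A))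
      (commutator_eq_bot_iff_le_centralizer.1 h)) hSC
  have hSp : ∀ (p : ℕ) [Fact p.Prime],
      Op p A ⊓ centralizer ((S ⊓ Op p A : Subgroup G) : Set G) ≤ S ⊓ Op p A := by
    intro p _
    refine le_inf (le_trans (le_inf (inf_le_left.trans ((Op_le_Fof A).trans (Fof_le_FSof A))) ?_)
      hSC) inf_le_left
    rw [le_centralizer_iff]
    have h1 : S = (Eof A ⊔ Fof A) ⊓ S := by rw [← FSof_eq, inf_eq_right.2 hSF]
    rw [sup_inf_eq_of_le_normalizer ((Fof_le A).trans (le_normalizer_Eof A)) hE] at h1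
    refine h1.le.trans (sup_le ?_ (le_of_le_Fof inf_le_left fun q _ => ?_))
    · exact commutator_eq_bot_iff_le_centralizer.1 (commutator_eq_bot_mono (commutator_Eof_Fof A)
        le_rfl (inf_le_left.trans (Op_le_Fof A)))
    · by_cases hq : q = p
      · subst hq
        exact le_centralizer_iff.1 (inf_le_right.trans (H21.centralizer_anti
          (inf_le_inf_right _ inf_le_right)))
      · exact commutator_eq_bot_iff_le_centralizer.mp
          (commutator_eq_bot_mono (commutator_Op_Op hq A) inf_le_right inf_le_left)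
  have hZ : ∀ (p : ℕ) [Fact p.Prime], Zp p A ≤ S ⊓ Op p A := fun p _ =>
    Zp_le_of_Sp inf_le_right (hSp p)
  have hCZ : ∀ (p : ℕ) [Fact p.Prime], Op p A ≠ ⊥ → centralizer (Zp p A : Set G) ≤ A := by
    intro p _ hp
    have := pr_of_isCoatom hA ⊤ _ (center_ne_bot_of_isPGroup (pCoreOf_isPGroup A) hp)
      (le_inf (Zp_le p A) le_top) (le_normalizer_Zp p A)
    exact (centralizer_le_normalizer _).trans (by simpa using this)
  have hEc : ∀ (q : ℕ) [Fact q.Prime], ⁅Eof A, Op q B ⊓ A⁆ = ⊥ := by
    intro q _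
    have hR : IsPGroup q ↥(Op q B ⊓ A) := (pCoreOf_isPGroup B).to_le inf_le_left
    exact commutator_Eof_eq_bot_of_solvable inf_le_right
      (H21.le_normalizer_inf ((hE.trans hSB).trans (le_normalizer_pCoreOf B))
        ((H44.Eof_le A).trans le_normalizer)) (haveI := hR.isNilpotent; inferInstance)
  have hAxB : ∀ (p q : ℕ) [Fact p.Prime] [Fact q.Prime], q ≠ p →
      Op q B ⊓ A ≤ centralizer (Op p A : Set G) := by
    intro p q _ _ hp
    have hR : IsPGroup q ↥(Op q B ⊓ A) := (pCoreOf_isPGroup B).to_le inf_le_left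
    have h4 : S ⊓ Op p A ≤ centralizer ((Op q B ⊓ A : Subgroup G) : Set G) :=
      commutator_eq_bot_iff_le_centralizer'.mp
        (commutator_Op_inf hp inf_le_right (inf_le_left.trans hSB))
    exact (S0028.result p (S ⊓ Op p A) (Op q B ⊓ A) (Op p A)
      ((pCoreOf_isPGroup A).to_le inf_le_right) (coprime_of_isPGroup_of_ne hp hR)
      (pCoreOf_isPGroup A) h4
      (inf_le_right.trans le_normalizer) (inf_le_right.trans (le_normalizer_pCoreOf A))
      ((hSp p).trans h4))
  constructor
  · intro q hq' hq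
    have : Fact q.Prime := ⟨hq'⟩
    rw [← Op_ne_bot_iff, not_not] at hq
    have hR : IsPGroup q ↥(Op q B ⊓ A) := (pCoreOf_isPGroup B).to_le inf_le_left
    have h1 : Fof A ≤ centralizer ((Op q B ⊓ A : Subgroup G) : Set G) := by
      refine H59.Fof_le fun p _ => ?_
      by_cases hp : q = p
      · subst hp; rw [hq]; exact bot_le
      exact le_centralizer_iff.mp (hAxB p q hp)
    have h3 : Op q B ⊓ A ≤ Fof A := by
      refine le_trans (le_inf inf_le_right ?_) (inf_centralizer_FSof_le_Fof A)
      rw [FSof_eq]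
      exact le_centralizer_iff.mp (sup_le (commutator_eq_bot_iff_le_centralizer.mp (hEc q)) h1)
    exact le_bot_iff.mp (hq ▸ le_Op_of_le_Fof h3 hR)
  · intro p hp' hp
    have : Fact p.Prime := ⟨hp'⟩
    rw [← Op_ne_bot_iff] at hp
    have hZB : Zp p A ≤ normalizer (Op p B : Set G) :=
      ((hZ p).trans (inf_le_left.trans hSB)).trans (le_normalizer_pCoreOf B)
    have hCP : Op p B ⊓ centralizer (Zp p A : Set G) ≤ Op p B ⊓ A := inf_le_inf_left _ (hCZ p hp)
    have hq : ∀ (q : ℕ) [Fact q.Prime], p ≠ q → Op q A ≤ centralizer (Op p B : Set G) := by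
      intro q _ hne
      by_cases hq : Op q A = ⊥
      · rw [hq]; exact bot_le
      have h4 : S ⊓ Op q A ≤ centralizer (Op p B : Set G) := by
        refine S0028.result p (Zp p A) (S ⊓ Op q A) (Op p B) (Zp_isPGroup p A)
          (coprime_of_isPGroup_of_ne hne.symm ((pCoreOf_isPGroup A).to_le inf_le_right))
          (pCoreOf_isPGroup B) ?_ hZB ((inf_le_left.trans hSB).trans (le_normalizer_pCoreOf B)) ?_
        · exact commutator_eq_bot_iff_le_centralizer.mp
            (commutator_eq_bot_mono (commutator_Op_Op hne A) inf_le_left inf_le_right)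
        · exact hCP.trans (commutator_eq_bot_iff_le_centralizer.mp
            (commutator_Op_inf hne inf_le_right (inf_le_left.trans hSB)))
      have h5 : Op p B ≤ A :=
        ((le_centralizer_iff.mp h4).trans (H21.centralizer_anti (hZ q))).trans (hCZ q hq)
      have h6 := hAxB q p hne
      rw [inf_eq_left.2 h5] at h6
      exact le_centralizer_iff.mp h6
    have hEP : Eof A ≤ centralizer (Op p B : Set G) := by
      refine AxB_perfect (Zp_isPGroup p A) (Eof_perfect A) (pCoreOf_isPGroup B) ?_ hZB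
        ((hE.trans hSB).trans (le_normalizer_pCoreOf B)) ?_
      · exact commutator_eq_bot_iff_le_centralizer'.1 (commutator_eq_bot_mono
          (commutator_Eof_Fof A) le_rfl (inf_le_left.trans (Op_le_Fof A)))
      · exact hCP.trans (commutator_eq_bot_iff_le_centralizer'.1 (hEc p))
    have hC : Eof A ⊔ (Fof A ⊓ Opp p A) ≤ centralizer (Op p B : Set G) := by
      refine sup_le hEP (le_of_le_Fof inf_le_left fun q _ => ?_)
      by_cases h : p = q
      · subst h
        rw [eq_bot_of_le_of_le' (pCoreOf_isPGroup A) (pPrimeCoreOf_coprime A) inf_le_right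
          (inf_le_left.trans inf_le_right)]
        exact bot_le
      · exact inf_le_right.trans (hq q h)
    intro x hx y hy
    have h1 : ((pResidual p (generalizedFittingSubgroup A)).map
        (generalizedFittingSubgroup A).subtype).map A.subtype ≤ Eof A ⊔ (Fof A ⊓ Opp p A) := by
      rw [pResidual, MonoidHom.map_closure, MonoidHom.map_closure, closure_le]
      rintro _ ⟨_, ⟨w, hw, rfl⟩, rfl⟩
      refine mem_of_coprime_of_sup (U := Op p A) (p := p) ((pCoreOf_le A).trans
        (H21.le_normalizer_sup (le_normalizer_Eof A) (H21.le_normalizer_inf (le_normalizer_Fof A)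
          (le_normalizer_pPrimeCoreOf A)))) (pCoreOf_isPGroup A) ?_ ?_
      · have h2 : FSof A ≤ (Eof A ⊔ Fof A ⊓ Opp p A) ⊔ Op p A := by
          rw [FSof_eq]
          refine sup_le (le_sup_left.trans le_sup_left) ((Fof_le_Op_sup (p := p) A).trans ?_)
          exact sup_le le_sup_right (le_sup_right.trans le_sup_left)
        exact h2 ⟨_, w.2, rfl⟩
      · simp only [coe_subtype, orderOf_coe]; exact hw
    exact hC (h1 ⟨y, hy, rfl⟩) x hx

end Cfsg.Agent.S1247
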