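import Cfsg.Statements.S1253
import Cfsg.Agent.H42.SylIn
import Cfsg.Agent.H43.Basic
import Cfsg.Agent.S1187
import Cfsg.Agent.S1180

set_option autoImplicit false
open Cfsg

namespace Cfsg.Agent.S1253

open Cfsg.Agent.H42 Subgroup

/-- For a subgroup `P` of odd order normalized by an involution `z`, the index of the centralizer
is the number of inverted elements. -/
theorem relIndex_eq_card_inverted {G : Type*} [Group G] [Finite G] {z : G} (hz : z * z = 1)
    {P : Subgroup G} (hP : Odd (Nat.card P)) (hzP : z ∈ normalizer (P : Set G)) :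
    (P ⊓ centralizer ({z} : Set G)).relIndex P =
      Nat.card {x : G // x ∈ P ∧ z * x * z⁻¹ = x⁻¹} := by
  have hzi : z⁻¹ = z := inv_eq_of_mul_eq_one_right hz
  rw [inf_relIndex_left, relIndex, index]
  let f : P → {x : G // x ∈ P ∧ z * x * z⁻¹ = x⁻¹} := fun g =>
    ⟨g * (z * (g : G)⁻¹ * z⁻¹), mul_mem g.2 (conj_mem_of_mem_normalizer hzP (inv_mem g.2)), by
      calc z * (g * (z * (g : G)⁻¹ * z⁻¹)) * z⁻¹ = z * g * z * (g : G)⁻¹ * (z * z)⁻¹ := by group
        _ = z * g * z⁻¹ * (g : G)⁻¹ := by rw [hz, hzi]; group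
        _ = _ := by group⟩
  have hf : ∀ a b : P, f a = f b ↔
      (QuotientGroup.leftRel ((centralizer ({z} : Set G)).subgroupOf P)) a b := by
    intro a b
    rw [QuotientGroup.leftRel_apply, mem_subgroupOf, H43.mem_centralizer_singleton, Subtype.ext_iff]
    simp only [f, Subgroup.coe_mul, Subgroup.coe_inv]
    constructor
    · intro h
      calc z * ((a : G)⁻¹ * b) = (a : G)⁻¹ * (a * (z * (a : G)⁻¹ * z⁻¹)) * z * b := by group
        _ = (a : G)⁻¹ * (b * (z * (b : G)⁻¹ * z⁻¹)) * z * b := by rw [h]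
        _ = _ := by group
    · intro h
      calc (a : G) * (z * (a : G)⁻¹ * z⁻¹) = a * (z * ((a : G)⁻¹ * b)) * (b : G)⁻¹ * z⁻¹ := by group
        _ = a * ((a : G)⁻¹ * b * z) * (b : G)⁻¹ * z⁻¹ := by rw [h]
        _ = _ := by group
  refine Nat.card_congr (Equiv.ofBijective
    (Quotient.lift f (fun a b h => (hf a b).2 h)) ⟨?_, ?_⟩)
  · intro a b
    induction a using Quotient.inductionOn
    induction b using Quotient.inductionOn
    intro h
    exact Quotient.sound ((hf _ _).1 h)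
  · rintro ⟨x, hx, hxz⟩
    have hodd : Odd (orderOf x) := hP.of_dvd_nat (Subgroup.orderOf_dvd_natCard P hx)
    obtain ⟨k, hk⟩ := hodd
    refine ⟨Quotient.mk _ ⟨x ^ (k + 1), pow_mem hx _⟩, Subtype.ext ?_⟩
    change x ^ (k + 1) * (z * (x ^ (k + 1))⁻¹ * z⁻¹) = x
    have e : z * (x ^ (k + 1))⁻¹ * z⁻¹ = x ^ (k + 1) := by
      rw [← inv_pow, ← conj_pow, ← conj_inv, hxz, inv_inv]
    rw [e, ← pow_add, show k + 1 + (k + 1) = orderOf x + 1 by omega, pow_succ, pow_orderOf_eq_one,
      one_mul]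


/-- Let z be an isolated involution of the finite group G with centralizer C, p an odd prime and P a Sylow p-subgroup of G normalized by z. Then P ∩ C has p-power-free index in C (it is a Sylow p-subgroup of C), and |P : C_P(z)| equals the number of elements x ∈ P with z x z⁻¹ = x⁻¹. -/
theorem result {G : Type*} [Group G] [Finite G] (z : G) (hz : Cfsg.IsIsolatedInvolution z) {p : ℕ} [Fact p.Prime] (hp : p ≠ 2) (P : Sylow p G) (hzP : z ∈ Subgroup.normalizer ((P : Subgroup G) : Set G)) : ¬ p ∣ ((P : Subgroup G) ⊓ Subgroup.centralizer ({z} : Set G)).relIndex (Subgroup.centralizer ({z} : Set G)) ∧ ((P : Subgroup G) ⊓ Subgroup.centralizer ({z} : Set G)).relIndex (P : Subgroup G) = Nat.card {x : G // x ∈ P ∧ z * x * z⁻¹ = x⁻¹} := by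
  have hzz : z * z = 1 := H43.mul_self_of_orderOf hz.1
  constructor
  · set C := centralizer ({z} : Set G) with hC
    obtain ⟨Q, hQ, -⟩ := exists_sylIn (IsPGroup.of_bot (p := p) (G := G)) (bot_le : ⊥ ≤ C)
    have hzQ : z ∈ normalizer (Q : Set G) := by
      refine mem_normalizer_of_conj_mem fun x hx => ?_
      rw [H43.mem_centralizer_singleton.1 (hQ.le hx), mul_inv_cancel_right]
      exact hx
    obtain ⟨R, hQR, hR⟩ := Finite.exists_le_maximal
      (p := fun R : Subgroup G => IsPGroup p R ∧ z ∈ normalizer (R : Set G)) ⟨hQ.isP, hzQ⟩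
    obtain ⟨P₁, hP₁⟩ := S1187.result z hz R hR.1.1 hR.1.2
      (fun T h1 h2 h3 => le_antisymm (hR.2 ⟨h1, h2⟩ h3) h3)
    obtain ⟨g, hg⟩ := MulAction.exists_smul_eq G P P₁
    have hg' : cj g (P : Subgroup G) = R := by rw [← hP₁, ← hg, H43.coe_sylow_smul]
    have h1 : g * z * g⁻¹ ∈ normalizer (R : Set G) := by
      rw [← hg', ← cj_normalizer]; exact conj_mem_cj hzP
    obtain ⟨h, hh, e⟩ := S1180.result z hz _ hR.1.2 g h1
    have hc : g⁻¹ * h ∈ C := by
      rw [hC, H43.mem_centralizer_singleton]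
      calc z * (g⁻¹ * h) = g⁻¹ * (g * z * g⁻¹) * h := by group
        _ = g⁻¹ * (h * z * h⁻¹) * h := by rw [e]
        _ = _ := by group
    have h2 : SylIn p (R ⊓ C) C :=
      hQ.of_le_of_isPGroup (le_inf hQR hQ.le) inf_le_right (hR.1.1.to_le inf_le_left)
    have h3 := h2.cj (g⁻¹ * h)
    rw [cj_inf, cj_of_mem hc, ← cj_cj, cj_eq_iff_mem_normalizer.2 hh, ← hg', cj_inv_cj] at h3
    exact h3.ndvd
  · refine relIndex_eq_card_inverted hzz ?_ hzP
    obtain ⟨k, hk⟩ := IsPGroup.iff_card.mp P.2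
    rw [hk]
    exact ((Fact.out : p.Prime).odd_of_ne_two hp).pow

end Cfsg.Agent.S1253
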