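import Cfsg.Statements.S1254
import Cfsg.Agent.H43.Dih
import Cfsg.Agent.H3.Frobenius

set_option autoImplicit false
open Cfsg

namespace Cfsg.Agent.S1254

open Cfsg.Agent.H42 Cfsg.Agent.H43 Subgroup


/-- Let X be a finite group whose Sylow 2-subgroup S is dihedral (of order at least 4). Then X has a normal 2-complement if and only if, for every Klein four-subgroup U ≤ S, the normalizer N_X(U) is generated by C_X(U) and N_S(U). -/
theorem result {X : Type*} [Group X] [Finite X] (S : Sylow 2 X) (m : ℕ) (hm : 2 ≤ m) (eS : (S : Subgroup X) ≃* DihedralGroup m) : Cfsg.HasNormalPComplement 2 X ↔ ∀ U : Subgroup X, U ≤ S → IsKleinFour U → Subgroup.normalizer (U : Set X) = Subgroup.centralizer (U : Set X) ⊔ ((S : Subgroup X) ⊓ Subgroup.normalizer (U : Set X)) := by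
  obtain ⟨x, y, h, -⟩ := Dih.of_equiv eS
  constructor
  · intro hX U hU hK
    refine le_antisymm (fun n hn => ?_) (sup_le (centralizer_le_normalizer _) inf_le_right)
    obtain ⟨u, hu, hc⟩ := H3.exists_mem_sylow_conj_eq (H3.hasNormalPComplement_iff_frobenius.1 hX)
      S n
    have h1 : ∀ a ∈ U, u * a * u⁻¹ = n * a * n⁻¹ := fun a ha =>
      hc a (hU ha) (hU (H42.conj_mem_of_mem_normalizer hn ha))
    have h2 : n = u * (u⁻¹ * n) := by group
    rw [h2]
    refine mul_mem (mem_sup_right ⟨hu, H42.mem_normalizer_of_conj_mem fun a ha => ?_⟩)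
      (mem_sup_left (mem_centralizer_iff.2 fun a ha => ?_))
    · rw [h1 a ha]; exact H42.conj_mem_of_mem_normalizer hn ha
    · calc a * (u⁻¹ * n) = u⁻¹ * (u * a * u⁻¹) * n := by group
        _ = _ := by rw [h1 a ha]; group
  · intro hU
    rw [H3.hasNormalPComplement_iff_frobenius_sylow S]
    intro Q hQ g hg ho
    by_cases hK : IsKleinFour Q
    · have hg' := hg
      rw [hU Q hQ hK, sup_comm] at hg'
      obtain ⟨s, hs, c, hc, e⟩ := exists_mul_of_mem_sup
        (inf_le_right.trans (normalizer_le_normalizer_centralizer Q)) hg'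
      have key : ∀ k : ℕ, ∀ a ∈ Q, g ^ k * a * (g ^ k)⁻¹ = s ^ k * a * (s ^ k)⁻¹ := by
        intro k
        induction k with
        | zero => simp
        | succ k ih =>
          intro a ha
          have h1 : g * a * g⁻¹ = s * a * s⁻¹ := by
            calc g * a * g⁻¹ = s * (c * a) * c⁻¹ * s⁻¹ := by rw [e]; group
              _ = _ := by rw [← mem_centralizer_iff.1 hc a ha]; group
          calc g ^ (k + 1) * a * (g ^ (k + 1))⁻¹ = g ^ k * (g * a * g⁻¹) * (g ^ k)⁻¹ := by
                rw [pow_succ]; group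
            _ = s ^ k * (s * a * s⁻¹) * (s ^ k)⁻¹ := by
                rw [ih _ (H42.conj_mem_of_mem_normalizer hg ha), h1]
            _ = _ := by rw [pow_succ]; group
      obtain ⟨j, hj⟩ := S.2 ⟨s, hs.1⟩
      have hj' : s ^ 2 ^ j = 1 := congrArg Subtype.val hj
      have h3 : g ^ 2 ^ j ∈ centralizer (Q : Set X) := mem_centralizer_iff.2 fun a ha => by
        have := key (2 ^ j) a ha
        rw [hj', one_mul, inv_one, mul_one, mul_inv_eq_iff_eq_mul] at this
        exact this.symm
      exact zpowers_le_of_mem h3 (mem_zpowers_pow_iff.2 (ho.pow_right j).symm)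
    · exact mem_centralizer_iff.2 fun a ha =>
        (h.comm_of_odd S.2 hQ hK hg (Nat.coprime_two_right.1 ho) ha).symm

end Cfsg.Agent.S1254
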