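import Cfsg.Statements.S1255
import Cfsg.Agent.H43.Dih
import Cfsg.Agent.S0111

set_option autoImplicit false
open Cfsg

namespace Cfsg.Agent.S1255

open Cfsg.Agent.H42 Cfsg.Agent.H43 Subgroup


/-- Let X be a finite group whose Sylow 2-subgroup S is dihedral of order 2m ≥ 4. Then X has no subgroup of index 2 and no isolated involution if and only if either all involutions of X are conjugate, or for every Klein four-subgroup U ≤ S the index |N_X(U) : C_X(U)| equals 3 when |S| = 4 and equals 6 when |S| > 4. -/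
theorem result {X : Type*} [Group X] [Finite X] (S : Sylow 2 X) (m : ℕ) (hm : 2 ≤ m) (eS : (S : Subgroup X) ≃* DihedralGroup m) : ((∀ H : Subgroup X, H.index ≠ 2) ∧ (∀ z : X, ¬ Cfsg.IsIsolatedInvolution z)) ↔ ((∀ a b : X, orderOf a = 2 → orderOf b = 2 → IsConj a b) ∨ (∀ U : Subgroup X, U ≤ S → IsKleinFour U → (Subgroup.centralizer (U : Set X)).relIndex (Subgroup.normalizer (U : Set X)) = (if Nat.card S = 4 then 3 else 6))) := by
  obtain ⟨x, y, h, hm'⟩ := Dih.of_equiv eS
  have hx1 : x ≠ 1 := by rintro rfl; rw [orderOf_one] at hm'; omega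
  obtain ⟨z, hz, hzz, hz1⟩ := h.exists_inv S.2 hx1
  have hzS := h.A_le hz
  have hy1 : y ≠ 1 := fun e => h.y_notMem (e ▸ one_mem _)
  have toS : ∀ a : X, orderOf a = 2 → ∃ s ∈ (S : Subgroup X), IsConj a s ∧ orderOf s = 2 := by
    intro a ha
    obtain ⟨s, hs, h1, h2⟩ := exists_isConj_mem_sylow S (k := 1) ha
    exact ⟨s, hs, h1, h2.trans ha⟩
  have red : (∀ s ∈ (S : Subgroup X), s ∉ zpowers x → IsConj s z) →
      ∀ a b : X, orderOf a = 2 → orderOf b = 2 → IsConj a b := by
    intro H
    have : ∀ a : X, orderOf a = 2 → IsConj a z := by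
      intro a ha
      obtain ⟨s, hs, h1, h2⟩ := toS a ha
      refine h1.trans ?_
      by_cases hA : s ∈ zpowers x
      · rw [eq_of_inv_of_mem_zpowers hA hz (mul_self_of_orderOf h2) hzz (ne_one_of_orderOf h2) hz1]
      · exact H s hs hA
    exact fun a b ha hb => (this a ha).trans (this b hb).symm
  constructor
  · rintro ⟨h2, -⟩
    refine Or.inl (red fun s hs hA => ?_)
    have hs2 := orderOf_two (h.out_sq hs hA) (fun e => hA (e ▸ one_mem _))
    rcases S0111.result S _ h.A_le h.relIndex s hs2 hs hA with ⟨M, -, hM, -⟩ | ⟨g, hg⟩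
    · exact absurd hM (h2 M)
    · have h3 : orderOf (g * s * g⁻¹) = 2 := by rw [orderOf_conj, hs2]
      exact isConj_iff.2 ⟨g, eq_of_inv_of_mem_zpowers hg hz (mul_self_of_orderOf h3) hzz
        (ne_one_of_orderOf h3) hz1⟩
  · intro H
    have hall : ∀ a b : X, orderOf a = 2 → orderOf b = 2 → IsConj a b := by
      rcases H with H | H
      · exact H
      refine red fun s hs hA => ?_
      have hK := h.isKleinFour_sup_out hz hzz hz1 hs hA
      refine klein_isConj_of_relIndex hK ?_ (mem_sup_right (mem_zpowers s))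
        (mem_sup_left (mem_zpowers z)) (fun e => hA (e ▸ one_mem _)) hz1
      rw [H _ (sup_le (zpowers_le_of_mem hzS) (zpowers_le_of_mem hs)) hK]
      rintro ⟨k, hk⟩
      have : 3 ∣ 2 ^ k := by rw [← hk]; split_ifs <;> norm_num
      have := Nat.prime_three.dvd_of_dvd_pow this
      omega
    have hz2 := orderOf_two hzz hz1
    have hy2 := orderOf_two h.yy hy1
    constructor
    · intro K hK
      have hN : K.Normal := normal_of_index_eq_two hK
      have conj : ∀ a b : X, orderOf a = 2 → orderOf b = 2 → a ∈ K → b ∈ K := by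
        intro a b ha hb haK
        obtain ⟨g, rfl⟩ := isConj_iff.1 (hall a b ha hb)
        exact hN.conj_mem a haK g
      have out2 : ∀ a ∈ zpowers x, orderOf (a * y) = 2 := fun a ha =>
        orderOf_two (h.out_sq (mul_mem (h.A_le ha) h.hy) (h.mul_y_notMem ha))
          (fun e => h.mul_y_notMem ha (e ▸ one_mem _))
      have hyK : y ∈ K := by
        by_contra hyK
        have hzK : z ∉ K := fun hh => hyK (conj z y hz2 hy2 hh)
        exact hyK (conj _ y (out2 z hz) hy2 ((mul_mem_iff_of_index_two hK).2 (by tauto)))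
      have hxK : x ∈ K := (mul_mem_cancel_right hyK).1 (conj y _ hy2 (out2 x (mem_zpowers x)) hyK)
      have hSK : (S : Subgroup X) ≤ K := h.le_of_mem hxK h.hy h.y_notMem hyK
      have := index_dvd_of_le hSK
      rw [hK] at this
      exact S.not_dvd_index this
    · intro w hw
      obtain ⟨g, hg⟩ := isConj_iff.1 (hall w z hw.1 hz2)
      obtain ⟨k, hk⟩ := isConj_iff.1 (hall w (g⁻¹ * y * g) hw.1 (by rw [orderOf_conj', hy2]))
      have hc : Commute w (k * w * k⁻¹) := by
        rw [hk]
        have e : w = g⁻¹ * z * g := by rw [← hg]; group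
        rw [e]
        change _ = _
        calc g⁻¹ * z * g * (g⁻¹ * y * g) = g⁻¹ * (z * y) * g := by group
          _ = _ := by rw [← h.comm_of_inv hz hzz h.hy]; group
      have h4 := hw.2 k hc
      rw [hk] at h4
      apply h.y_notMem
      have : y = z := by rw [← hg, ← h4]; group
      rwa [this]

end Cfsg.Agent.S1255
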