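import Cfsg.Statements.S1256
import Cfsg.Agent.H43.Dih

set_option autoImplicit false
open Cfsg

namespace Cfsg.Agent.S1256

open Cfsg.Agent.H42 Cfsg.Agent.H43 Subgroup


/-- Let X be a finite group whose Sylow 2-subgroup S is dihedral of order 2m ≥ 4. If |S| = 4, any two Klein four-subgroups of X are conjugate; if |S| > 4, there are Klein four-subgroups U₁, U₂ of X that are not conjugate, and every Klein four-subgroup of X is conjugate to U₁ or to U₂. -/
theorem result {X : Type*} [Group X] [Finite X] (S : Sylow 2 X) (m : ℕ) (hm : 2 ≤ m) (eS : (S : Subgroup X) ≃* DihedralGroup m) : (Nat.card S = 4 → ∀ U V : Subgroup X, IsKleinFour U → IsKleinFour V → (∃ x : X, U.map (MulAut.conj x).toMonoidHom = V)) ∧ (4 < Nat.card S → ∃ U₁ U₂ : Subgroup X, IsKleinFour U₁ ∧ IsKleinFour U₂ ∧ ¬ (∃ x : X, U₁.map (MulAut.conj x).toMonoidHom = U₂) ∧ ∀ V : Subgroup X, IsKleinFour V → (∃ x : X, V.map (MulAut.conj x).toMonoidHom = U₁) ∨ (∃ x : X, V.map (MulAut.conj x).toMonoidHom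 = U₂)) := by
  obtain ⟨x, y, h, hm'⟩ := Dih.of_equiv eS
  have toS : ∀ V : Subgroup X, IsKleinFour V → ∃ g : X, cj g V ≤ S := by
    intro V hV
    obtain ⟨g, hg⟩ := exists_conj_sylow S
      (IsPGroup.of_card (G := V) (n := 2) (by rw [hV.card_four]; rfl))
    exact ⟨g, cj_le_iff.2 hg⟩
  have hcard : Nat.card S = Nat.card (S : Subgroup X) := rfl
  constructor
  · intro h4 U V hU hV
    obtain ⟨a, ha⟩ := toS U hU
    obtain ⟨b, hb⟩ := toS V hV
    have e1 := eq_of_le_of_card_ge ha (by rw [card_cj, hU.card_four, ← hcard, h4])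
    have e2 := eq_of_le_of_card_ge hb (by rw [card_cj, hV.card_four, ← hcard, h4])
    refine ⟨b⁻¹ * a, ?_⟩
    change cj _ _ = _
    rw [← cj_cj, e1, ← e2, cj_inv_cj]
  · intro h4
    have hx1 : x ≠ 1 := by rintro rfl; rw [orderOf_one] at hm'; omega
    obtain ⟨z, hz, hzz, hz1⟩ := h.exists_inv S.2 hx1
    have hzS := h.A_le hz
    have hxy := h.mul_y_notMem (mem_zpowers x)
    have hxyS := mul_mem h.hx h.hy
    have hK1 := h.isKleinFour_sup_out hz hzz hz1 h.hy h.y_notMem
    have hK2 := h.isKleinFour_sup_out hz hzz hz1 hxyS hxy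
    have hL1 := sup_le (zpowers_le_of_mem hzS) (zpowers_le_of_mem h.hy)
    have hL2 := sup_le (zpowers_le_of_mem hzS) (zpowers_le_of_mem hxyS)
    refine ⟨_, _, hK1, hK2, ?_, ?_⟩
    · rintro ⟨g, hg⟩
      have := h.mul_inv_mem_sq _ _ rfl hL1
        (fun e => by rw [hcard, ← e, hK1.card_four] at h4; omega) ⟨_, le_rfl, hK1⟩ g
        (hg.le.trans hL2) y (mem_sup_right (mem_zpowers y)) h.y_notMem (x * y)
        (hg.ge (mem_sup_right (mem_zpowers _))) hxy
      apply h.x_notMem_sq S.2 hx1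
      simpa using inv_mem this
    · intro V hV
      obtain ⟨g, hg⟩ := toS V hV
      have hV' := isKleinFour_cj hV g
      obtain ⟨t, ht, htA, -⟩ := h.klein hV' hg
      obtain ⟨i, rfl⟩ := h.form (hg ht) htA
      have key : ∀ j : ℤ, cj (x ^ j * g) V ≤ S ∧ x ^ (2 * j + i) * y ∈ cj (x ^ j * g) V := by
        intro j
        have hj : x ^ j ∈ zpowers x := zpow_mem (mem_zpowers x) j
        rw [← cj_cj]
        refine ⟨(cj_mono _ hg).trans (cj_of_mem (h.A_le hj)).le, ?_⟩
        have := conj_mem_cj (g := x ^ j) ht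
        rw [h.conj_out (hg ht) htA hj] at this
        have e : x ^ (2 * j + i) * y = x ^ j * x ^ j * (x ^ i * y) := by group
        rwa [e]
      rcases Int.even_or_odd' i with ⟨k, rfl | rfl⟩
      · obtain ⟨h1, h2⟩ := key (-k)
        rw [show 2 * -k + 2 * k = 0 by ring, zpow_zero, one_mul] at h2
        exact Or.inl ⟨_, h.klein_eq (isKleinFour_cj hV _) h1 hK1 hL1 h2
          (mem_sup_right (mem_zpowers y)) h.y_notMem⟩
      · obtain ⟨h1, h2⟩ := key (-k)
        rw [show 2 * -k + (2 * k + 1) = 1 by ring, zpow_one] at h2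
        exact Or.inr ⟨_, h.klein_eq (isKleinFour_cj hV _) h1 hK2 hL2 h2
          (mem_sup_right (mem_zpowers _)) hxy⟩

end Cfsg.Agent.S1256
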