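import Cfsg.Statements.S1258
import Cfsg.Agent.H44.Subnormal

set_option autoImplicit false
open Cfsg

namespace Cfsg.Agent.S1258

open Cfsg.Agent.H44

/-- If the central quotient of a finite group X is non-abelian simple, then X = X' Z(X) and the commutator subgroup X' is quasisimple. -/
theorem result {X : Type*} [Group X] [Finite X] (hs : IsSimpleGroup (X ⧸ Subgroup.center X)) (hna : ¬ IsMulCommutative (X ⧸ Subgroup.center X)) : commutator X ⊔ Subgroup.center X = ⊤ ∧ Cfsg.IsQuasisimple ↥(commutator X) := by
  have h1 : commutator X ⊔ Subgroup.center X = ⊤ := by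
    have hn : ((commutator X).map (QuotientGroup.mk' (Subgroup.center X))).Normal :=
      Subgroup.Normal.map inferInstance _ (QuotientGroup.mk'_surjective _)
    rcases hn.eq_bot_or_eq_top with h | h
    · exfalso
      apply hna
      rw [Subgroup.map_eq_bot_iff, QuotientGroup.ker_mk'] at h
      exact Subgroup.Normal.quotient_commutative_iff_commutator_le.2 h
    · have := congrArg (Subgroup.comap (QuotientGroup.mk' (Subgroup.center X))) h
      rwa [Subgroup.comap_map_eq, QuotientGroup.ker_mk', Subgroup.comap_top] at this
  refine ⟨h1, qs_iff.1 ⟨?_, ?_, fun N hle hn => ?_⟩⟩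
  · have h3 := commutator_sup_of_centralizes (N := commutator X) (Z := Subgroup.center X)
      (Subgroup.commutator_center_left _) (Subgroup.commutator_center_left _)
    rw [h1] at h3
    exact h3.symm
  · intro h
    apply hna
    exact Subgroup.Normal.quotient_commutative_iff_commutator_le.2 (h ▸ bot_le)
  · have hN : N.Normal := by
      rw [← Subgroup.normalizer_eq_top_iff, eq_top_iff, ← h1]
      exact sup_le hn (Subgroup.center_le_normalizer _)
    rcases (hN.map (QuotientGroup.mk' (Subgroup.center X))
      (QuotientGroup.mk'_surjective _)).eq_bot_or_eq_top with h | h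
    · right
      rw [Subgroup.map_eq_bot_iff, QuotientGroup.ker_mk'] at h
      exact h.trans (Subgroup.center_le_centralizer _)
    · left
      have h2 : N ⊔ Subgroup.center X = ⊤ := by
        have := congrArg (Subgroup.comap (QuotientGroup.mk' (Subgroup.center X))) h
        rwa [Subgroup.comap_map_eq, QuotientGroup.ker_mk', Subgroup.comap_top] at this
      have h3 := commutator_sup_of_centralizes (N := N) (Z := Subgroup.center X)
        (Subgroup.commutator_center_left _) (Subgroup.commutator_center_left _)
      rw [h2] at h3
      exact le_antisymm hle (le_trans h3.le N.commutator_le_self)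

end Cfsg.Agent.S1258
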