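import Cfsg.Statements.S1267
import Cfsg.Agent.H44.FixComp

set_option autoImplicit false
open Cfsg

namespace Cfsg.Agent.S1267

open Cfsg.Agent.H44

/-- Let G be finite and P ≤ O_p(G). Then E(N_G(P)) = E(G). -/
theorem result {G : Type*} [Group G] [Finite G] (p : ℕ) [Fact p.Prime] (P : Subgroup G) (hP : P ≤ Cfsg.pCore p G) : (Cfsg.layer ↥(Subgroup.normalizer ((P : Subgroup G) : Set G))).map (Subgroup.normalizer ((P : Subgroup G) : Set G)).subtype = Cfsg.layer G := by
  have hPp : IsPGroup p P := (pCore_isPGroup (p := p) (G := G)).to_le hP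
  have hE : layer G ≤ Subgroup.centralizer (fittingSubgroup G : Set G) := by
    rw [← Eof_top, ← Fof_top]
    exact Subgroup.commutator_eq_bot_iff_le_centralizer.1 (commutator_Eof_Fof ⊤)
  have hN : ∀ {X : Subgroup G}, X ≤ Subgroup.centralizer (pCore p G : Set G) →
      X ≤ Subgroup.normalizer (P : Set G) := fun h =>
    h.trans ((Subgroup.centralizer_le hP).trans (Subgroup.centralizer_le_normalizer _))
  have hEN : layer G ≤ Subgroup.normalizer (P : Set G) :=
    hN (hE.trans (Subgroup.centralizer_le pCore_le_fitting))
  apply le_antisymm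
  · change Eof _ ≤ _
    rw [Eof_le_iff]
    intro K hK
    haveI : (layer G).Normal := haveI := layer_characteristic (G := G); inferInstance
    refine (hK.le_or_commutator_eq_bot (SN.of_normal hEN)).resolve_right fun h => ?_
    have h1 : K ≤ Subgroup.centralizer (pCore p G : Set G) := by
      refine hK.le_Eof.trans ?_
      rw [Eof_normalizer hPp]
      have := commutator_Eof_centralizer_Opof (H := ⊤) hPp Subgroup.le_normalizer_of_normal
      rwa [top_inf_eq, Opof_top, Subgroup.commutator_eq_bot_iff_le_centralizer] at this
    have h2 : K ≤ Subgroup.centralizer (fittingSubgroup G : Set G) := by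
      rw [Subgroup.le_centralizer_iff, fitting_eq_iSup_pCore]
      refine iSup_le fun q => ?_
      haveI := Fact.mk (Nat.prime_of_mem_primeFactors q.2)
      by_cases hq : (q : ℕ) = p
      · rw [hq]; exact Subgroup.le_centralizer_iff.1 h1
      · have h3 : pCore q G ≤ pPrimeCore p G :=
          le_pPrimeCore inferInstance (coprime_of_isPGroup_of_ne hq pCore_isPGroup)
        have h4 : pCore q G ≤ Subgroup.normalizer (P : Set G) := hN (h3.trans
          (commutator_eq_bot_iff_le_centralizer'.1 commutator_pCore_pPrimeCore))
        haveI : Group.IsNilpotent (pCore q G) := IsPGroup.isNilpotent (p := q) pCore_isPGroup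
        exact commutator_eq_bot_iff_le_centralizer'.1
          (hK.commutator_eq_bot_of_sn_of_solvable (SN.of_normal h4) inferInstance)
    have h5 : K ≤ fittingSubgroup G :=
      (le_centralizer_sup (Subgroup.commutator_eq_bot_iff_le_centralizer.1 h) h2).trans
        centralizer_gfitting_le_fitting
    haveI := fitting_isNilpotent (G := G)
    exact hK.qs.not_le_solvable inferInstance h5
  · rw [← Eof_top] at hEN ⊢
    exact Eof_le_Eof_of_le le_top hEN

end Cfsg.Agent.S1267
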