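import Cfsg.Statements.S1271
import Cfsg.Agent.H44.BalImage

set_option autoImplicit false
open Cfsg

namespace Cfsg.Agent.S1271

open Cfsg.Agent.H44

/-- Let G be finite with O_{p'}(G) = 1. Suppose that for every component L of G and every subgroup H ≥ L in which L is normal, the quotient H / C_H(L) is balanced for the prime p. Then G is balanced for p. -/
theorem result {G : Type*} [Group G] [Finite G] (p : ℕ) [Fact p.Prime] (hO : Cfsg.pPrimeCore p G = ⊥) (h : ∀ L : Subgroup G, Cfsg.IsComponent L → ∀ H : Subgroup G, L ≤ H → (L.subgroupOf H).Normal → ∀ [((Subgroup.centralizer (L : Set G)).subgroupOf H).Normal], Cfsg.IsBalancedFor p (↥H ⧸ (Subgroup.centralizer (L : Set G)).subgroupOf H)) : Cfsg.IsBalancedFor p G := by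
  intro x hx
  rw [hO, le_bot_iff]
  have hxp := isPGroup_zpowers_of_orderOf hx
  set Y := Oppof p (Subgroup.centralizer ({x} : Set G)) with hY
  change Y = ⊥
  refine eq_bot_of_centralizes_comps hO (pPrimeCoreOf_coprime _) ?_ fun L hL => ?_
  · have := Oppof_centralizer_le_centralizer_pCore hxp
    rwa [centralizer_zpowers_eq] at this
  by_cases hne : ⁅L, Subgroup.zpowers x⁆ = L
  swap
  · exact commutator_Oppof_centralizer_of_ne hO hL hx hne
  have hxn : Subgroup.zpowers x ≤ Subgroup.normalizer (L : Set G) := by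
    rw [← hne]; exact Subgroup.le_normalizer_iff_commutator_le_left.2
      (Subgroup.commutator_mono (by rw [hne]) le_rfl)
  have hYn : Y ≤ Subgroup.normalizer (L : Set G) := by
    have := Oppof_centralizer_le_normalizer_comp hO hxp hL
    rwa [centralizer_zpowers_eq] at this
  set M := Y ⊔ Subgroup.zpowers x with hM
  have hN : L ⊔ M ≤ Subgroup.normalizer (L : Set G) := sup_le Subgroup.le_normalizer (sup_le hYn hxn)
  have hxM : x ∈ L ⊔ M := Subgroup.mem_sup_right (Subgroup.mem_sup_right (Subgroup.mem_zpowers x))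
  haveI hn : ((Subgroup.centralizer (L : Set G)).subgroupOf (L ⊔ M)).Normal := by
    constructor
    intro c hc g
    exact (Subgroup.mem_normalizer_iff.1 (normalizer_le_normalizer_centralizer L (hN g.2)) _).1 hc
  have hb := h L (comp_top_iff.1 hL) (L ⊔ M) le_sup_left
    ((Subgroup.normal_subgroupOf_iff_le_normalizer le_sup_left).2 hN)
  set f := QuotientGroup.mk' ((Subgroup.centralizer (L : Set G)).subgroupOf (L ⊔ M)) with hf
  have hker : ∀ l : ↥(L ⊔ M), (l : G) ∈ L → f l = 1 → (l : G) ∈ Subgroup.centralizer (L : Set G) :=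
    fun l _ hl => (QuotientGroup.eq_one_iff l).1 hl
  have hMx : M ≤ Subgroup.centralizer ({x} : Set G) := sup_le (Oppof_le _)
    ((Subgroup.zpowers_le).2 (Subgroup.mem_centralizer_singleton_iff.2 rfl))
  have h1 := map_Oppof_centralizer_le_of_comp hO hL f hN le_sup_left le_sup_right ⟨x, hxM⟩ hxp hMx
    hker
  rw [Subgroup.subgroupOf_self, ← MonoidHom.range_eq_map,
    MonoidHom.range_eq_top.2 (QuotientGroup.mk'_surjective _), top_inf_eq,
    inf_eq_left.2 (le_sup_left : Y ≤ M)] at h1
  have hfx : orderOf (f ⟨x, hxM⟩) = p := by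
    refine orderOf_eq_prime ?_ fun h1 => ?_
    · rw [← map_pow, ← map_one f]
      congr 1
      exact Subtype.ext (by simp [← hx])
    · have : x ∈ Subgroup.centralizer (L : Set G) := 
        (QuotientGroup.eq_one_iff (⟨x, hxM⟩ : ↥(L ⊔ M))).1 h1
      exact hL.qs.ne_bot (hne ▸ commutator_eq_bot_iff_le_centralizer'.2
        ((Subgroup.zpowers_le).2 this))
  exact commutator_eq_bot_of_map_le hO hL f hN le_sup_left (le_sup_left.trans le_sup_right) hker
    pPrimeCore_coprime Subgroup.le_normalizer_of_normal (h1.trans (hb _ hfx))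

end Cfsg.Agent.S1271
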