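import Cfsg.Statements.S1272
import Cfsg.Agent.H44.PLayer

set_option autoImplicit false
open Cfsg

namespace Cfsg.Agent.S1272

open Cfsg.Agent.H44

/-- Let X be finite and Q = X / O_{p'}(X). For every component Kbar of Q there is a unique p-component K of X whose image in Q is Kbar; and the image of the p-layer L_{p'}(X) in Q is E(Q). -/
theorem result {X : Type*} [Group X] [Finite X] (p : ℕ) [Fact p.Prime] : (∀ Kbar : Subgroup (X ⧸ Cfsg.pPrimeCore p X), Cfsg.IsComponent Kbar → ∃! K : Subgroup X, Cfsg.IsPComponent p K ∧ K.map (QuotientGroup.mk' (Cfsg.pPrimeCore p X)) = Kbar) ∧ (Cfsg.pLayer p X).map (QuotientGroup.mk' (Cfsg.pPrimeCore p X)) = Cfsg.layer (X ⧸ Cfsg.pPrimeCore p X) := by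
  refine ⟨fun L hL => ?_, map_pLayer_mk⟩
  obtain ⟨h1, h2⟩ := exists_pcomp_map_eq (comp_top_iff.2 hL)
  refine ⟨_, ⟨pcomp_top_iff.1 h1, h2⟩, ?_⟩
  rintro K ⟨hK, rfl⟩
  have := (pcomp_top_iff.2 hK).pGen_sup_Oppof
  rw [Oppof_top] at this
  rw [Subgroup.comap_map_eq, QuotientGroup.ker_mk', this]

end Cfsg.Agent.S1272
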