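import Cfsg.Statements.S1277
import Cfsg.Agent.H44.PLayer

set_option autoImplicit false
open Cfsg

namespace Cfsg.Agent.S1277

open Cfsg.Agent.H44

/-- For a finite group X with core O(X): the image of E(X) in X / O(X) is all of E(X / O(X)) if and only if every 2-component of X is a component, i.e. L_{2'}(X) ≤ E(X). -/
theorem result {X : Type*} [Group X] [Finite X] : (Cfsg.layer X).map (QuotientGroup.mk' (Cfsg.oddCore X)) = Cfsg.layer (X ⧸ Cfsg.oddCore X) ↔ Cfsg.pLayer 2 X ≤ Cfsg.layer X := by
  rw [← map_pLayer_mk]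
  constructor
  · intro h
    have h1 := Subgroup.map_le_iff_le_comap.1 h.ge
    rw [Subgroup.comap_map_eq, QuotientGroup.ker_mk', ← Lof_top] at h1
    have h2 : pGen 2 (layer X ⊔ oddCore X) ≤ layer X :=
      pGen_le_of_le_sup (SN.of_normal le_sup_left) le_rfl Subgroup.le_normalizer_of_normal
        pPrimeCore_coprime
    rw [← Lof_top, ← pGen_Lof]
    exact (pGen_mono h1).trans h2
  · intro h
    apply le_antisymm _ (Subgroup.map_mono h)
    have := Eof_le_Lof_sup_Oppof (p := 2) (⊤ : Subgroup X)
    rw [Eof_top, Lof_top, Oppof_top] at this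
    rw [Subgroup.map_le_iff_le_comap, Subgroup.comap_map_eq, QuotientGroup.ker_mk']
    exact this

end Cfsg.Agent.S1277
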