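import Cfsg.Statements.S1279
import Cfsg.Agent.H45.Basic
import Cfsg.Agent.H48.Coprime

set_option autoImplicit false
open Cfsg

namespace Cfsg.Agent.S1279
open Cfsg.Agent.H49 Subgroup

/-- Let A be a noncyclic elementary abelian p-subgroup of the finite group G such that C_G(a) is solvable for every non-identity a ∈ A. Then a ↦ O_{p'}(C_G(a)) is a solvable A-signalizer functor on G. -/
theorem result {G : Type*} [Group G] [Finite G] (p : ℕ) [Fact p.Prime] (A : Subgroup G) (hA : Cfsg.IsElementaryAbelian p A) (hA2 : p ^ 2 ≤ Nat.card ↥A) (hsolv : ∀ a ∈ A, a ≠ 1 → Group.IsSolvable ↥(Subgroup.centralizer ({a} : Set G))) : Cfsg.IsSolvableSignalizerFunctor p A (fun a => Cfsg.centralizerPPrimeCore p a) := by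
  have hp : p.Prime := Fact.out
  have e : ∀ a : G, Cfsg.centralizerPPrimeCore p a = piCoreOf {p}ᶜ 𝒞[a] := fun a =>
    pPrimeCore_map_subtype hp _
  simp only [e]
  refine H45.SF.isSolvableSignalizerFunctor ⟨hp, hA, fun a _ _ => piCoreOf_le _ _,
    fun a _ _ => piCoreOf_pi _ _, fun a ha _ => (H45.elem_le_cent1 hA ha).trans
      (le_norm_piCoreOf _ _), fun a ha h1 b hb hb1 => ?_,
    fun a ha h1 => solvable_of_le (hsolv a ha h1) (piCoreOf_le _ _)⟩
  have hz : zpowers a ≤ A := by simpa using ha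
  have h := H48.pcore_cent_le hp (hsolv b hb hb1) (hz.trans (H45.elem_le_cent1 hA hb))
    (((H45.elem_pi hp hA).of_le hz).isPGroup hp)
  refine le_trans ?_ h
  rw [cent_zpowers]
  refine le_piCoreOf (le_inf inf_le_right (inf_le_left.trans (piCoreOf_le _ _)))
    ?_ ((piCoreOf_pi _ _).inf_left _)
  exact norm_inf (inf_le_right.trans (le_norm_piCoreOf _ _)) (norm_of_le inf_le_left)

end Cfsg.Agent.S1279
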