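import Cfsg.Statements.S1286
import Cfsg.Agent.H44.PGen

set_option autoImplicit false
open Cfsg

namespace Cfsg.Agent.S1286

open Cfsg.Agent.H44

abbrev X := Equiv.Perm (Fin 5)

def a : X := Equiv.swap 0 1
def b : X := Equiv.swap 2 3
def x : X := Equiv.swap 2 3 * Equiv.swap 3 4
def y : X := Equiv.swap 0 1 * Equiv.swap 1 4

def A : Subgroup X where
  carrier := {g | g = 1 ∨ g = a ∨ g = b ∨ g = a * b}
  one_mem' := Or.inl rfl
  mul_mem' := by
    rintro _ _ (rfl | rfl | rfl | rfl) (rfl | rfl | rfl | rfl) <;>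
      simp only [Set.mem_setOf_eq] <;> decide +kernel
  inv_mem' := by
    rintro _ (rfl | rfl | rfl | rfl) <;> simp only [Set.mem_setOf_eq] <;> decide +kernel

theorem mem_A {g : X} : g ∈ A ↔ g = 1 ∨ g = a ∨ g = b ∨ g = a * b := Iff.rfl

theorem mem_zp {t g : X} (ht : orderOf t = 3) :
    g ∈ Subgroup.zpowers t ↔ g = 1 ∨ g = t ∨ g = t ^ 2 := by
  rw [mem_zpowers_iff_mem_range_orderOf, ht]
  have : Finset.range 3 = {0, 1, 2} := rfl
  simp [this, eq_comm]

theorem ox : orderOf x = 3 :=
  haveI : Fact (Nat.Prime 3) := ⟨Nat.prime_three⟩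
  orderOf_eq_prime (by decide +kernel) (by decide +kernel)

theorem oy : orderOf y = 3 :=
  haveI : Fact (Nat.Prime 3) := ⟨Nat.prime_three⟩
  orderOf_eq_prime (by decide +kernel) (by decide +kernel)

def θ (g : X) : Subgroup X :=
  if g = a then Subgroup.zpowers x else if g = b then Subgroup.zpowers y else ⊥

theorem θa : θ a = Subgroup.zpowers x := if_pos rfl
theorem θb : θ b = Subgroup.zpowers y := (if_neg (by decide +kernel)).trans (if_pos rfl)
theorem θab : θ (a * b) = ⊥ := (if_neg (by decide +kernel)).trans (if_neg (by decide +kernel))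


/-- There exist a finite group X, an elementary abelian subgroup A of order 4 and a solvable A-signalizer functor θ on X for the prime 2 which is not complete. -/
theorem result : ∃ (X : Type) (_ : Group X) (_ : Finite X) (A : Subgroup X) (θ : X → Subgroup X), Cfsg.IsElementaryAbelian 2 A ∧ Nat.card ↥A = 4 ∧ Cfsg.IsSolvableSignalizerFunctor 2 A θ ∧ ¬ Cfsg.IsCompleteSignalizerFunctor 2 A θ := by
  refine ⟨X, inferInstance, inferInstance, A, θ, ⟨⟨⟨?_⟩⟩, ?_⟩, ?_, ⟨⟨?_, ?_, ?_, ?_⟩, ?_⟩, ?_⟩
  · rintro ⟨_, rfl | rfl | rfl | rfl⟩ ⟨_, rfl | rfl | rfl | rfl⟩ <;> apply Subtype.ext <;>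
      simp only [Subgroup.coe_mul] <;> decide +kernel
  · rintro _ (rfl | rfl | rfl | rfl) <;> decide +kernel
  · have : (A : Set X) = ({1, a, b, a * b} : Finset X) := by
      ext g; simp [mem_A]
    change Nat.card (A : Set X) = 4
    rw [this, Nat.card_coe_set_eq, Set.ncard_coe_finset]
    decide +kernel
  · rintro _ (rfl | rfl | rfl | rfl) h
    · exact absurd rfl h
    · rw [θa, Subgroup.zpowers_le, Subgroup.mem_centralizer_singleton_iff]; decide +kernel
    · rw [θb, Subgroup.zpowers_le, Subgroup.mem_centralizer_singleton_iff]; decide +kernel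
    · rw [θab]; exact bot_le
  · rintro _ (rfl | rfl | rfl | rfl) h
    · exact absurd rfl h
    · rw [θa, Nat.card_zpowers, ox]; decide
    · rw [θb, Nat.card_zpowers, oy]; decide
    · rw [θab, Subgroup.card_bot]; decide
  · rintro _ (rfl | rfl | rfl | rfl) h
    · exact absurd rfl h
    · simp only [θa, mem_zp ox]
      rintro _ (rfl | rfl | rfl | rfl) _ (rfl | rfl | rfl) <;> decide +kernel
    · simp only [θb, mem_zp oy]
      rintro _ (rfl | rfl | rfl | rfl) _ (rfl | rfl | rfl) <;> decide +kernel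
    · simp [θab]
  · rintro _ (rfl | rfl | rfl | rfl) h _ (rfl | rfl | rfl | rfl) h' <;>
      first
      | exact absurd rfl h
      | exact absurd rfl h'
      | exact inf_le_left
      | (rw [θab]; exact inf_le_left.trans bot_le)
      | (rintro g ⟨h1, h2⟩
         simp only [θa, θb, θab, SetLike.mem_coe, mem_zp ox, mem_zp oy, Subgroup.mem_bot,
          Subgroup.mem_centralizer_singleton_iff, Subgroup.mem_toSubmonoid] at h1 h2 ⊢
         rcases h1 with rfl | rfl | rfl <;> revert h2 <;> decide +kernel)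
  · rintro _ (rfl | rfl | rfl | rfl) h
    · exact absurd rfl h
    · rw [θa]; infer_instance
    · rw [θb]; infer_instance
    · rw [θab]; infer_instance
  · rintro ⟨-, Y, -, hY, h⟩
    have hx : x ∈ Y := ((h a (Or.inr (Or.inl rfl)) (by decide +kernel)).ge
      (θa ▸ Subgroup.mem_zpowers x)).1
    have hy : y ∈ Y := ((h b (Or.inr (Or.inr (Or.inl rfl))) (by decide +kernel)).ge
      (θb ▸ Subgroup.mem_zpowers y)).1
    haveI : Fact (Nat.Prime 2) := ⟨Nat.prime_two⟩
    have ho : orderOf (y * (x * y * x⁻¹)) = 2 :=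
      orderOf_eq_prime (by decide +kernel) (by decide +kernel)
    exact hY (ho ▸ Subgroup.orderOf_dvd_natCard Y
      (Y.mul_mem hy (Y.mul_mem (Y.mul_mem hx hy) (Y.inv_mem hx))))

end Cfsg.Agent.S1286
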