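import Cfsg.Statements.S1300
import Cfsg.Agent.H59.Delta
import Cfsg.Agent.H44.FixComp

set_option autoImplicit false
open Cfsg

namespace Cfsg.Agent.S1300

open Cfsg.Agent.H44

/-- For a finite group G, balance in the sense of commuting involutions is the same as 1-balance for the prime 2. -/
theorem result {G : Type*} [Group G] [Finite G] : Cfsg.IsBalanced G ↔ Cfsg.IsKBalanced 2 1 G := by
  haveI : Fact (Nat.Prime 2) := ⟨Nat.prime_two⟩
  constructor
  · intro h A hA hc b hb hab
    have hA1 : A ≠ ⊥ := H59.ne_bot_of_pow_le le_rfl hc.ge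
    obtain ⟨a, ha, ha1⟩ := H59.exists_mem_ne_one hA1
    have := h a b (orderOf_eq_prime (hA.2 a ha) ha1) hb (hab a ha)
    exact (inf_le_inf_right _ (H59.delta_le ha ha1)).trans (this.le.trans inf_le_left)
  · intro h
    have key : ∀ x y : G, orderOf x = 2 → orderOf y = 2 → x * y = y * x →
        centralizerPPrimeCore 2 x ⊓ Subgroup.centralizer {y} ≤
          centralizerPPrimeCore 2 y ⊓ Subgroup.centralizer {x} := by
      intro x y hx hy hxy
      refine le_inf ?_ (inf_le_left.trans (H59.cppc_le x))
      have hx2 : x ^ 2 = 1 := hx ▸ pow_orderOf_eq_one x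
      have hA : IsElementaryAbelian 2 (Subgroup.zpowers x) := by
        refine ⟨inferInstance, ?_⟩
        rintro _ ⟨k, rfl⟩
        simp only
        rw [← zpow_natCast, ← zpow_mul, mul_comm, zpow_mul, zpow_natCast, hx2, one_zpow]
      refine le_trans (inf_le_inf_right _ (H59.le_delta fun b hb hb1 => ?_))
        (h (Subgroup.zpowers x) hA (by rw [Nat.card_zpowers, hx]; rfl) y hy ?_)
      · have : b = x := by
          obtain ⟨k, rfl⟩ := (mem_powers_iff_mem_zpowers (x := x)).2 hb
          rcases Nat.even_or_odd' k with ⟨m, rfl | rfl⟩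
          · exact absurd (by simp [pow_mul, hx2]) hb1
          · simp [pow_succ, pow_mul, hx2]
        rw [this]
      · rintro _ ⟨k, rfl⟩
        exact (Commute.zpow_left (show Commute x y from hxy) k)
    exact fun x y hx hy hxy => le_antisymm (key x y hx hy hxy) (key y x hy hx hxy.symm)

end Cfsg.Agent.S1300
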