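import Cfsg.Statements.S1299
import Cfsg.Agent.H45.NormFam

set_option autoImplicit false
open Cfsg

namespace Cfsg.Agent.S1299
open Cfsg.Agent.H49 Subgroup

/-- Let G be finite and k-balanced for the prime p (k ≥ 1), A an elementary abelian p-subgroup of order at least p^(k+2) such that O_{p'}(C_G(a)) is solvable for every non-identity a ∈ A. For a ∈ A put θ a = the subgroup generated by the Δ_G(D) ∩ C_G(a) over the subgroups D ≤ A of order p^k. Then θ is an A-signalizer functor. -/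
theorem result {G : Type*} [Group G] [Finite G] (p k : ℕ) [Fact p.Prime] (hk : 1 ≤ k) (hbal : Cfsg.IsKBalanced p k G) (A : Subgroup G) (hA : Cfsg.IsElementaryAbelian p A) (hAk : p ^ (k + 2) ≤ Nat.card ↥A) (hsolv : ∀ a ∈ A, a ≠ 1 → Group.IsSolvable ↥(Cfsg.centralizerPPrimeCore p a)) : Cfsg.IsSignalizerFunctor p A (fun a => ⨆ D : {D : Subgroup G // D ≤ A ∧ Nat.card ↥D = p ^ k}, Cfsg.signalizerDelta p (D : Subgroup G) ⊓ Subgroup.centralizer {a}) := by
  have hp : p.Prime := Fact.out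
  have e : ∀ a : G, Cfsg.centralizerPPrimeCore p a = piCoreOf {p}ᶜ 𝒞[a] := fun a =>
    pPrimeCore_map_subtype hp _
  have hb : ∀ D ≤ A, Nat.card D = p ^ k → ∀ b ∈ A, b ≠ 1 →
      Cfsg.signalizerDelta p D ⊓ 𝒞[b] ≤ piCoreOf {p}ᶜ 𝒞[b] := fun D hD hc b hb h1 => by
    rw [← e]
    exact hbal D (H45.elem_of_le hA hD) hc b (orderOf_eq_prime (hA.2 b hb) h1)
      fun a ha => mem_cent1.1 (H45.elem_le_cent1 hA hb (hD ha))
  have hn : ∀ D Y : Subgroup G, Y ≤ 𝒞(D) → Y ≤ 𝒩(Cfsg.signalizerDelta p D) := fun D Y hY =>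
    H45.norm_iInf fun d => by
      rw [e]
      exact (hY.trans (cent_le_cent1 d.2.1)).trans (le_norm_piCoreOf _ _)
  have hA' : ∀ D ≤ A, ∀ a ∈ A, A ≤ 𝒩(Cfsg.signalizerDelta p D ⊓ 𝒞[a]) := fun D hD a ha =>
    norm_inf (hn D A ((H45.elem_le_cent hA).trans (cent_anti hD))) (H45.elem_norm_cent1 hA ha)
  refine ⟨fun a _ _ => iSup_le fun _ => inf_le_right, fun a ha h1 => ?_, fun a ha _ => ?_,
    fun a ha h1 b hb' hb1 => ?_⟩
  · exact (isPi_compl_singleton hp).1 ((piCoreOf_pi _ 𝒞[a]).of_le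
      (iSup_le fun D => hb D.1 D.2.1 D.2.2 a ha h1))
  · exact le_norm_iff.1 (H45.norm_iSup fun D => hA' D.1 D.2.1 a ha)
  · have hz : zpowers b ≤ A := by simpa using hb'
    have h := H45.normal_family hp hA hAk hz (piCoreOf {p}ᶜ 𝒞[a]) (piCoreOf_pi _ _)
      (e a ▸ hsolv a ha h1) ((H45.elem_le_cent1 hA ha).trans (le_norm_piCoreOf _ _))
      (fun D => Cfsg.signalizerDelta p D.1 ⊓ 𝒞[a]) (fun D => hb D.1 D.2.1 D.2.2 a ha h1)
      (fun D => hA' D.1 D.2.1 a ha)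
      (fun D => norm_inf (hn _ _ inf_le_right) (norm_of_le (inf_le_left.trans (piCoreOf_le _ _))))
      (fun D F => le_inf (le_iInf fun f => by
        rw [e]
        exact (inf_le_inf inf_le_left (cent_le_cent1 f.2.1)).trans
          (hb D.1 D.2.1 D.2.2 f.1 (F.2.1 f.2.1) f.2.2)) (inf_le_left.trans inf_le_right))
    rw [cent_zpowers] at h
    exact h.trans (iSup_mono fun D => inf_le_inf_right _ inf_le_left)

end Cfsg.Agent.S1299
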