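import Cfsg.Statements.S1303
import Cfsg.Agent.H44.PGen
import Cfsg.Agent.H22.PConstrained

set_option autoImplicit false
open Cfsg

namespace Cfsg.Agent.S1303

open Cfsg.Agent.H44

abbrev X := Matrix.SpecialLinearGroup (Fin 2) (ZMod 3)

def mI : X := ⟨!![0, 2; 1, 0], by decide⟩
def mJ : X := ⟨!![1, 1; 1, 2], by decide⟩
def mW : X := ⟨!![1, 1; 0, 1], by decide⟩

theorem h1 : ∀ x y : X, x ^ 4 = 1 → y ^ 4 = 1 → (x * y) ^ 4 = 1 := by decide +kernel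
theorem h2 : ∀ x : X, mI * x = x * mI → mJ * x = x * mJ → x ^ 4 = 1 := by decide +kernel
theorem h3 : ∀ t : X, t ^ 2 = 1 → ∀ g : X, g * t = t * g := by decide +kernel
theorem h4 : mI ^ 4 = 1 ∧ mJ ^ 4 = 1 ∧ mW ^ 3 = 1 ∧ mW ≠ 1 := by decide +kernel

def Q0 : Subgroup X where
  carrier := {x | x ^ 4 = 1}
  one_mem' := one_pow 4
  mul_mem' := fun {x y} => h1 x y
  inv_mem' := fun {x} (hx : x ^ 4 = 1) => show x⁻¹ ^ 4 = 1 by rw [inv_pow, hx, inv_one]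


/-- The group X = SL(2, 3): it is 2-constrained, O_{2'}(X) = 1, its centre A = Z(X) contains every involution of X = C_X(A), and X has a subgroup of order 3 (normalized by A) not contained in O_{2'}(X). -/
theorem result : Cfsg.IsPConstrained 2 (Matrix.SpecialLinearGroup (Fin 2) (ZMod 3)) ∧ Cfsg.pPrimeCore 2 (Matrix.SpecialLinearGroup (Fin 2) (ZMod 3)) = ⊥ ∧ (∀ t : Matrix.SpecialLinearGroup (Fin 2) (ZMod 3), orderOf t = 2 → t ∈ Subgroup.center (Matrix.SpecialLinearGroup (Fin 2) (ZMod 3))) ∧ ∃ Q : Subgroup (Matrix.SpecialLinearGroup (Fin 2) (ZMod 3)), Nat.card ↥Q = 3 ∧ ¬ (Q ≤ Cfsg.pPrimeCore 2 (Matrix.SpecialLinearGroup (Fin 2) (ZMod 3))) := by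
  haveI : Fact (Nat.Prime 2) := ⟨Nat.prime_two⟩
  haveI : Fact (Nat.Prime 3) := ⟨Nat.prime_three⟩
  have hQ : Q0 ≤ pCore 2 X :=
    le_pCore ⟨fun x (hx : x ^ 4 = 1) g => show (g * x * g⁻¹) ^ 4 = 1 by
      rw [conj_pow, hx, mul_one, mul_inv_cancel]⟩ fun x => ⟨2, Subtype.ext x.2⟩
  have hC : Subgroup.centralizer (pCore 2 X : Set X) ≤ pCore 2 X := fun x hx =>
    hQ (h2 x (hx _ (hQ h4.1)) (hx _ (hQ h4.2.1)))
  have hO : pPrimeCore 2 X = ⊥ := eq_bot_of_isPGroup_of_coprime (pCore_isPGroup.to_le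
    ((commutator_eq_bot_iff_le_centralizer'.1 commutator_pCore_pPrimeCore).trans hC))
    pPrimeCore_coprime
  refine ⟨(H22.isPConstrained_iff_of_pPrimeCore_eq_bot hO).2 hC, hO, fun t ht =>
    Subgroup.mem_center_iff.2 (h3 t (orderOf_dvd_iff_pow_eq_one.1 ht.dvd)), Subgroup.zpowers mW, ?_, ?_⟩
  · rw [Nat.card_zpowers, orderOf_eq_prime h4.2.2.1 h4.2.2.2]
  · rw [hO, le_bot_iff, Subgroup.zpowers_eq_bot]
    exact h4.2.2.2

end Cfsg.Agent.S1303
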