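import Cfsg.Statements.S1305
import Cfsg.Agent.H44.RankAmb
import Cfsg.Agent.H46.Pump
import Cfsg.Agent.H46.LBalance

set_option autoImplicit false
open Cfsg

namespace Cfsg.Agent.S1305

open Cfsg.Agent.H44

/-- Let G be a finite group of component type with the B-property and no nontrivial normal subgroup of odd order. Let a be an involution and K a component of C_G(a) such that (a) |K| is maximal among the orders of components of centralizers of involutions of G, (b) subject to (a) the 2-rank of the centralizer of K in C_G(a) is as large as possible, and (c) K has 2-rank at least 2. If B is an elementary abelian 2-subgroup of that centralizer of the largest possible order, then K is a component of C_G(b) for every non-identity b ∈ B. -/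
theorem result {G : Type*} [Group G] [Finite G] (hO : Cfsg.oddCore G = ⊥) (hB : Cfsg.HasBProperty G) (hct : Cfsg.IsComponentType G) (a : G) (ha : orderOf a = 2) (K : Subgroup G) (hKa : K ≤ Subgroup.centralizer ({a} : Set G)) (hK : Cfsg.IsComponent (K.subgroupOf (Subgroup.centralizer ({a} : Set G)))) (hmax : ∀ y : G, orderOf y = 2 → ∀ K' : Subgroup G, K' ≤ Subgroup.centralizer ({y} : Set G) → Cfsg.IsComponent (K'.subgroupOf (Subgroup.centralizer ({y} : Set G))) → Nat.card ↥K' ≤ Nat.card ↥K ∧ (Nat.card ↥K' = Nat.card ↥K → ∀ k : ℕ, Cfsg.PRankLE 2 k ↥(Subgroup.centralizer ({a} : Set G) ⊓ Subgroup.centralizer (K : Set G)) → Cfsg.PRankLE 2 k ↥(Subgroup.centralizer ({y} : Set G) ⊓ Subgroup.centralizer (K' : Set G)))) (hrk : ¬ Cfsg.PRankLE 2 1 ↥K) (B : Subgroup G) (hBle : B ≤ Subgroup.centralizer ({a} : Set G) ⊓ Subgroup.centralizer (K : Set G)) (hBel : Cfsg.IsElementaryAbelian 2 B) (hBmax : ∀ B' : Subgroup G, B' ≤ Subgroup.centralizer ({a} : Set G) ⊓ Subgroup.centralizer (K : Set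 G) → Cfsg.IsElementaryAbelian 2 B' → Nat.card ↥B' ≤ Nat.card ↥B) (b : G) (hb : b ∈ B) (hb1 : b ≠ 1) : K ≤ Subgroup.centralizer ({b} : Set G) ∧ Cfsg.IsComponent (K.subgroupOf (Subgroup.centralizer ({b} : Set G))) := by
  haveI : Fact (Nat.Prime 2) := ⟨Nat.prime_two⟩
  have hKc : Comp _ K := comp_iff.2 ⟨hKa, hK⟩
  have hbo : orderOf b = 2 := orderOf_eq_prime (hBel.2 b hb) hb1
  have ha2 : a ^ 2 = 1 := ha ▸ pow_orderOf_eq_one a
  have hBa : B ≤ Subgroup.centralizer ({a} : Set G) := hBle.trans inf_le_left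
  have hBK : B ≤ Subgroup.centralizer (K : Set G) := hBle.trans inf_le_right
  have haB : a ∈ B := by
    have h1 : B ⊔ Subgroup.zpowers a ≤
        Subgroup.centralizer ({a} : Set G) ⊓ Subgroup.centralizer (K : Set G) :=
      sup_le hBle ((Subgroup.zpowers_le).2 ⟨Subgroup.mem_centralizer_singleton_iff.2 rfl,
        fun k hk => Subgroup.mem_centralizer_singleton_iff.1 (hKa hk)⟩)
    rw [Subgroup.eq_of_le_of_card_ge le_sup_left (hBmax _ h1 (H21.isElementaryAbelian_sup hBel
      (H21.isElementaryAbelian_zpowers ha2) (by rwa [centralizer_zpowers_eq])))]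
    exact Subgroup.mem_sup_right (Subgroup.mem_zpowers a)
  have hBb : B ≤ Subgroup.centralizer ({b} : Set G) := le_centralizer_singleton_of_comm hBel.1 hb
  have hKb : K ≤ Subgroup.centralizer ({b} : Set G) := fun k hk =>
    Subgroup.mem_centralizer_singleton_iff.2 (hBK hb k hk)
  obtain ⟨A, hAK, hA, hA4⟩ := not_pRankLE_iff_amb.1 hrk
  have hKe : ¬ (Nat.card K).Coprime 2 := fun h => by
    have := eq_bot_of_isPGroup_of_coprime (H46.isPGroup_of_isElementaryAbelian hA)
      (coprime_of_le hAK h)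
    rw [this, Subgroup.card_bot] at hA4
    omega
  have hKp : PComp 2 (Subgroup.centralizer ({b} : Set G) ⊓ Subgroup.centralizer ({a} : Set G)) K :=
    (hKc.mono (le_inf hKb hKa) inf_le_right).pcomp hKe
  have han : a ∈ Subgroup.normalizer (Subgroup.centralizer ({b} : Set G) : Set G) :=
    Subgroup.le_normalizer (hBb haB)
  have hLE : Lof 2 (Subgroup.centralizer ({b} : Set G)) ≤
      Eof (Subgroup.centralizer ({b} : Set G)) := by
    have h1 := hB b hbo
    rw [hO, Subgroup.map_commutator, le_bot_iff] at h1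
    exact Lof_le_iff.2 fun L hL => (hL.comp_iff_commutator.2
      (commutator_eq_bot_mono h1 hL.le_Lof le_rfl)).le_Eof
  have hKE : K ≤ Eof (Subgroup.centralizer ({b} : Set G)) :=
    (H46.pcomp_inf_centralizer_le_Lof (isPGroup_zpowers_of_orderOf ha)
      ((Subgroup.zpowers_le).2 han) (by rwa [centralizer_zpowers_eq])).trans hLE
  obtain ⟨D, hD, h⟩ := H46.pump_trichotomy ha han hKp hKE
  obtain ⟨hle, hrank⟩ := hmax b hbo D hD.le (comp_iff.1 hD).2
  rcases h with h | h | ⟨hne, hKe, -⟩
  · exact comp_iff.1 (h ▸ hD)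
  · exact absurd (Subgroup.eq_of_le_of_card_ge h.1.le hle) h.1.ne
  exfalso
  have hD' : Comp _ (cj a D) := hD.conj han
  have hc : ⁅D, cj a D⁆ = ⊥ := hD.commutator_eq_bot_of_ne hD' hne.symm
  obtain ⟨π, hπ, -, -, hπE, -⟩ := H46.exists_diagonal hD.qs ha hc
  rw [hπE] at hKe
  have hinj : Function.Injective π := by
    have h1 : Function.Bijective π.rangeRestrict :=
      (Nat.bijective_iff_surjective_and_card _).2 ⟨π.rangeRestrict_surjective, le_antisymm
        (hKe ▸ hle) (Nat.card_le_card_of_surjective _ π.rangeRestrict_surjective)⟩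
    exact fun x y h => h1.1 (Subtype.ext h)
  have hcard : Nat.card D = Nat.card K := by
    rw [hKe]; exact Nat.card_congr (MonoidHom.ofInjective hinj).toEquiv
  obtain ⟨k, hk⟩ := IsPGroup.iff_card.1 (H46.isPGroup_of_isElementaryAbelian hBel)
  have hr := pRankLE_iff_amb.1 (hrank hcard k
    (pRankLE_iff_amb.2 fun B' h1 h2 => hk ▸ hBmax B' h1 h2))
  have hKD : K ≤ D ⊔ cj a D := by
    rw [hKe]; rintro _ ⟨l, rfl⟩
    rw [hπ]; exact Subgroup.mul_mem_sup l.2 (conj_mem_cj l.2)
  have hcomm : ∀ β ∈ B, β * a = a * β := fun β hβ =>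
    Subgroup.mem_centralizer_singleton_iff.1 (hBa hβ)
  set B₀ := B ⊓ Subgroup.normalizer (D : Set G) with hB₀
  have h1 : B ≤ B₀ ⊔ Subgroup.zpowers a := by
    intro β hβ
    have hβD : Comp _ (cj β D) := hD.conj (Subgroup.le_normalizer (hBb hβ))
    by_cases e1 : cj β D = D
    · exact Subgroup.mem_sup_left ⟨hβ, mem_normalizer_iff_cj.2 e1⟩
    by_cases e2 : cj β D = cj a D
    · have : a⁻¹ * β ∈ B₀ := ⟨B.mul_mem (B.inv_mem haB) hβ, cj_eq_cj_iff.1 e2⟩
      rw [← mul_inv_cancel_left a β]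
      exact Subgroup.mul_mem _ (Subgroup.mem_sup_right (Subgroup.mem_zpowers a))
        (Subgroup.mem_sup_left this)
    exfalso
    have h2 : K ≤ Subgroup.centralizer (cj β D : Set G) := hKD.trans (sup_le
      (commutator_eq_bot_iff_le_centralizer'.1 (hβD.commutator_eq_bot_of_ne hD e1))
      (commutator_eq_bot_iff_le_centralizer'.1 (hβD.commutator_eq_bot_of_ne hD' e2)))
    have h3 : ∀ γ ∈ B, cj γ K = K := fun γ hγ =>
      mem_normalizer_iff_cj.1 (Subgroup.centralizer_le_normalizer _ (hBK hγ))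
    have h4 : K ≤ Subgroup.centralizer (D : Set G) := by
      rw [← cj_centralizer, ← h3 β hβ] at h2
      exact (Subgroup.map_le_map_iff_of_injective (MulAut.conj β).injective).1 h2
    have h5 : K ≤ Subgroup.centralizer (cj a D : Set G) := by
      rw [← cj_centralizer, ← h3 a haB]
      exact Subgroup.map_mono h4
    exact hKc.qs.not_le_centralizer ((le_centralizer_sup h4 h5).trans
      (Subgroup.centralizer_le hKD))
  have h2 : B₀ ≤ Subgroup.centralizer (D : Set G) := by
    rintro β ⟨hβ, hβn⟩ l hl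
    have hl' : β * l * β⁻¹ ∈ D := (Subgroup.mem_normalizer_iff.1 hβn l).1 hl
    have h3 : π ⟨l, hl⟩ * β = β * π ⟨l, hl⟩ := hBK hβ _ (hKe ▸ ⟨_, rfl⟩)
    have h4 : π ⟨_, hl'⟩ = π ⟨l, hl⟩ := by
      rw [← mul_inv_eq_iff_eq_mul.2 h3.symm, hπ, hπ]
      calc β * l * β⁻¹ * (a * (β * l * β⁻¹) * a⁻¹)
          = β * l * β⁻¹ * (a * β) * l * (a * β)⁻¹ := by group
        _ = _ := by rw [← hcomm β hβ]; group
    have h5 : β * l * β⁻¹ = l := congrArg Subtype.val (hinj h4)
    exact (mul_inv_eq_iff_eq_mul.1 h5).symm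
  have h3 : B₀ ≤ Subgroup.centralizer (cj a D : Set G) := by
    intro β hβ
    rw [← cj_centralizer, mem_cj, mul_assoc, hcomm β hβ.1, inv_mul_cancel_left]
    exact h2 hβ
  set E := cj a ((A.comap π).map D.subtype) with hE
  have hEel : IsElementaryAbelian 2 E := H21.isElementaryAbelian_map
    (H21.isElementaryAbelian_map (H21.isElementaryAbelian_comap_of_injective hA π hinj) _) _
  have hED : E ≤ cj a D := Subgroup.map_mono (Subgroup.map_subtype_le _)
  have hEc : Nat.card E = Nat.card A := by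
    rw [hE, card_cj, Subgroup.card_subtype, ← Subgroup.card_map_of_injective hinj,
      Subgroup.map_comap_eq_self (hKe ▸ hAK)]
  have hdisj : B₀ ⊓ E = ⊥ := by
    rw [eq_bot_iff]
    rintro e ⟨he1, he2⟩
    have h4 : a⁻¹ * e * a = e := by rw [mul_assoc, hcomm e he1.1, inv_mul_cancel_left]
    have h5 : e ∈ D := h4 ▸ mem_cj.1 (hED he2)
    have h6 : π ⟨e, h5⟩ = π 1 := by
      rw [map_one, hπ, ← hcomm e he1.1, mul_inv_cancel_right, ← pow_two]
      exact hBel.2 e he1.1
    exact congrArg Subtype.val (hinj h6)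
  have hB0E : B₀ ≤ Subgroup.centralizer (E : Set G) := h3.trans (Subgroup.centralizer_le hED)
  have h7 := hr (B₀ ⊔ E) (sup_le (le_inf (inf_le_left.trans hBb) h2) (hED.trans (le_inf hD'.le
    (commutator_eq_bot_iff_le_centralizer'.1 hc))))
    (H21.isElementaryAbelian_sup (H21.isElementaryAbelian_of_le hBel inf_le_left) hEel hB0E)
  have h8 := H21.card_sup_mul_card_inf' (hB0E.trans (Subgroup.centralizer_le_normalizer _))
  rw [hdisj, Subgroup.card_bot, mul_one, hEc] at h8
  have h9 := H21.card_sup_mul_card_inf' (X := B₀) (Y := Subgroup.zpowers a)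
    ((inf_le_left.trans (hBa.trans (centralizer_zpowers_eq a).ge)).trans
      (Subgroup.centralizer_le_normalizer _))
  rw [Nat.card_zpowers, ha] at h9
  have h10 := Subgroup.card_le_of_le h1
  have h11 : 0 < Nat.card ↥(B₀ ⊓ Subgroup.zpowers a) := Nat.card_pos
  have h12 : 0 < Nat.card B₀ := Nat.card_pos
  have h13 := Nat.mul_le_mul_left (Nat.card B₀) hA4
  have h14 := Nat.le_mul_of_pos_right (Nat.card ↥(B₀ ⊔ Subgroup.zpowers a)) h11
  rw [h9] at h14
  rw [← h8] at h13
  rw [← hk] at h7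
  omega

end Cfsg.Agent.S1305
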