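import Cfsg.Statements.S1307
import Cfsg.Agent.H44.RankAmb
import Cfsg.Agent.H59.LBal
import Cfsg.Agent.S0016
import Cfsg.Agent.S0215

set_option autoImplicit false
open Cfsg

namespace Cfsg.Agent.S1307

open Cfsg.Agent.H44

/-- Let G be finite, x an involution and L ≤ C_G(x) a component of C_G(x) of even order and 2-rank 1, such that L is a component of C_G(y) for every involution y ∈ C_G(L). Then some involution of L is a classical involution of G. -/
theorem result {G : Type*} [Group G] [Finite G] (x : G) (hx : orderOf x = 2) (L : Subgroup G) (hLx : L ≤ Subgroup.centralizer ({x} : Set G)) (hL : Cfsg.IsComponent (L.subgroupOf (Subgroup.centralizer ({x} : Set G)))) (heven : Even (Nat.card ↥L)) (hrk : Cfsg.PRankLE 2 1 ↥L) (hne : ∀ y : G, orderOf y = 2 → y ∈ Subgroup.centralizer (L : Set G) → L ≤ Subgroup.centralizer ({y} : Set G) ∧ Cfsg.IsComponent (L.subgroupOf (Subgroup.centralizer ({y} : Set G)))) : ∃ t ∈ L, Cfsg.IsClassicalInvolution t := by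
  haveI : Fact (Nat.Prime 2) := ⟨Nat.prime_two⟩
  have hq : QS L := (comp_iff.2 ⟨hLx, hL⟩).qs
  let S : Sylow 2 L := default
  have huniq : ∀ a b : L, a ∈ S → b ∈ S → orderOf a = 2 → orderOf b = 2 → a = b := by
    have hS1 : Nontrivial S := (Subgroup.nontrivial_iff_ne_bot _).2
      (S.ne_bot_of_dvd_card (even_iff_two_dvd.1 heven))
    haveI := S.isPGroup'.center_nontrivial
    obtain ⟨z, hz⟩ := exists_prime_orderOf_dvd_card' (G := Subgroup.center S) 2 (by
      obtain ⟨n, hn0, hn⟩ := (S.isPGroup'.to_subgroup (Subgroup.center S)).nontrivial_iff_card.1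
        inferInstance
      rw [hn]; exact dvd_pow_self 2 hn0.ne')
    have hz' : orderOf ((z : S) : L) = 2 := by rw [Subgroup.orderOf_coe, Subgroup.orderOf_coe, hz]
    have key : ∀ a : L, a ∈ S → orderOf a = 2 → a = ((z : S) : L) := by
      intro a ha ho
      by_contra hne
      have hc : a * ((z : S) : L) = ((z : S) : L) * a :=
        congrArg Subtype.val (Subgroup.mem_center_iff.1 z.2 ⟨a, ha⟩)
      have hA := H21.isElementaryAbelian_sup
        (H21.isElementaryAbelian_zpowers (ho ▸ pow_orderOf_eq_one a))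
        (H21.isElementaryAbelian_zpowers (hz' ▸ pow_orderOf_eq_one _))
        (by rw [centralizer_zpowers_eq, Subgroup.zpowers_le]
            exact Subgroup.mem_centralizer_singleton_iff.2 hc)
      have h1 := hrk _ hA.1 hA.2
      have e1 : Subgroup.zpowers a = Subgroup.zpowers a ⊔ Subgroup.zpowers ((z : S) : L) :=
        Subgroup.eq_of_le_of_card_ge le_sup_left (by rw [Nat.card_zpowers, ho]; exact h1)
      have h2 : ((z : S) : L) ∈ Subgroup.zpowers a :=
        e1 ▸ Subgroup.mem_sup_right (Subgroup.mem_zpowers _)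
      obtain ⟨k, hk⟩ := (mem_powers_iff_mem_zpowers (x := a)).2 h2
      have ha2 : a ^ 2 = 1 := ho ▸ pow_orderOf_eq_one a
      rcases Nat.even_or_odd' k with ⟨m, rfl | rfl⟩
      · simp only [pow_mul, ha2, one_pow] at hk
        rw [← hk, orderOf_one] at hz'
        omega
      · simp only [pow_succ, pow_mul, ha2, one_pow, one_mul] at hk
        exact hne hk
    intro a b ha hb h1 h2
    rw [key a ha h1, key b hb h2]
  obtain ⟨u, hu⟩ := exists_prime_orderOf_dvd_card' (G := S) 2 (by
    rw [S.card_eq_multiplicity]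
    exact dvd_pow_self 2 ((Nat.prime_two.factorization_pos_of_dvd Nat.card_pos.ne'
      (even_iff_two_dvd.1 heven)).ne'))
  have hu' : orderOf (u : L) = 2 := by rw [Subgroup.orderOf_coe, hu]
  obtain ⟨N, hN, hNo, hNc⟩ := S0215.result S (u : L) hu' u.2 fun g hg =>
    huniq _ _ hg u.2 (by rw [orderOf_conj', hu']) hu'
  have hNZ : N.map L.subtype ≤ Subgroup.centralizer (L : Set G) := by
    refine (hq.sn (sn_map_subtype hN.isSubnormal)).resolve_left fun e => ?_
    rw [← e, Subgroup.card_subtype] at heven
    exact (Nat.not_even_iff_odd.2 hNo) heven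
  have ht : ((u : L) : G) ∈ Subgroup.centralizer (L : Set G) :=
    H59.mem_centralizer_of_commutator_mem hq (Subgroup.le_normalizer (u : L).2)
      fun l hl => hNZ ⟨_, hNc ⟨l, hl⟩, rfl⟩
  have hto : orderOf ((u : L) : G) = 2 := by rw [Subgroup.orderOf_coe, hu']
  obtain ⟨h1, h2⟩ := hne _ hto ht
  refine ⟨_, (u : L).2, hto, L, h1, (u : L).2, h2.1, S, ?_⟩
  have hnc : ¬ IsCyclic S := by
    intro hc
    have hm : (Nat.card L).minFac = 2 := (Nat.minFac_eq_two_iff _).2 (even_iff_two_dvd.1 heven)
    have h3 := (IsCyclic.isComplement' hm hc).symm.index_eq_card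
    haveI : Group.IsPerfect L := Subgroup.isPerfect_iff.2 hq.perfect
    have h4 : (MonoidHom.transferSylow S (hc.normalizer_le_centralizer hm)).ker = ⊤ := by
      rw [eq_top_iff, ← Group.IsPerfect.commutator_eq_top (G := L), commutator_def,
        Subgroup.commutator_le]
      intro a _ b _
      haveI := hc.isMulCommutative
      rw [MonoidHom.mem_ker, map_commutatorElement, commutatorElement_eq_one_iff_mul_comm]
      exact mul_comm' _ _
    rw [h4, Subgroup.index_top] at h3
    have := orderOf_dvd_natCard u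
    rw [hu, ← h3] at this
    omega
  have key : ∀ H : Subgroup S, Nat.card H = 2 → H = Subgroup.zpowers u := by
    intro H hH
    obtain ⟨a, ha⟩ := exists_prime_orderOf_dvd_card' (G := H) 2 hH.symm.dvd
    have : (a : S) = u := Subtype.ext (huniq _ _ (a : S).2 u.2
      (by rw [Subgroup.orderOf_coe, Subgroup.orderOf_coe, ha]) hu')
    exact (Subgroup.eq_of_le_of_card_ge ((Subgroup.zpowers_le).2 (this ▸ a.2))
      (by rw [hH, Nat.card_zpowers, hu])).symm
  rcases S0016.result 2 S.isPGroup' (fun H K hH hK => by rw [key H hH, key K hK]) with h | ⟨-, n, ⟨e⟩⟩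
  · exact absurd h hnc
  · rcases n with _ | n
    · haveI : IsCyclic (QuaternionGroup (2 ^ 0)) := QuaternionGroup.quaternionGroup_one_isCyclic
      exact absurd (isCyclic_of_injective e.toMonoidHom e.injective) hnc
    · exact ⟨n, ⟨e⟩⟩

end Cfsg.Agent.S1307
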