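import Cfsg.Statements.S1316
import Cfsg.Agent.H44.Layer

set_option autoImplicit false
open Cfsg

namespace Cfsg.Agent.S1316

open Cfsg.Agent.H44

/-- For a finite group X, E(X) equals the intersection of the derived series of F*(X) (its last term). -/
theorem result {X : Type*} [Group X] [Finite X] : (⨅ n : ℕ, (derivedSeries ↥(Cfsg.generalizedFittingSubgroup X) n).map (Cfsg.generalizedFittingSubgroup X).subtype) = Cfsg.layer X := by
  set F := Cfsg.generalizedFittingSubgroup X with hF
  have hE : ⁅layer X, layer X⁆ = layer X := by
    have := Eof_perfect (⊤ : Subgroup X); rwa [Eof_top] at this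
  apply le_antisymm
  · -- F / E is solvable
    have hs : Group.IsSolvable ↥(F.map (QuotientGroup.mk' (layer X))) := by
      have : F.map (QuotientGroup.mk' (layer X)) =
          (fittingSubgroup X).map (QuotientGroup.mk' (layer X)) := by
        rw [hF, generalizedFittingSubgroup, Subgroup.map_sup,
          (Subgroup.map_eq_bot_iff _).2 (by rw [QuotientGroup.ker_mk']), bot_sup_eq]
      rw [this]
      haveI := fitting_isNilpotent (G := X)
      exact Group.isSolvable_of_surjective (MonoidHom.subgroupMap_surjective _ _)
    obtain ⟨n, hn⟩ := hs.solvable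
    refine iInf_le_of_le n ?_
    have h1 := map_derivedSeries_le_derivedSeries ((QuotientGroup.mk' (layer X)).subgroupMap F) n
    rw [hn, le_bot_iff, Subgroup.map_eq_bot_iff] at h1
    rintro _ ⟨x, hx, rfl⟩
    have := congrArg Subtype.val (MonoidHom.mem_ker.1 (h1 hx))
    exact (QuotientGroup.eq_one_iff _).1 this
  · refine le_iInf fun n => ?_
    induction n with
    | zero =>
      rw [derivedSeries_zero, ← MonoidHom.range_eq_map, Subgroup.range_subtype]
      exact le_sup_left
    | succ n ih =>
      rw [derivedSeries_succ, Subgroup.map_commutator, ← hE]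
      exact Subgroup.commutator_mono ih ih

end Cfsg.Agent.S1316
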