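import Cfsg.Statements.S1318
import Cfsg.Agent.H44.Layer

set_option autoImplicit false
open Cfsg

namespace Cfsg.Agent.S1318

open Cfsg.Agent.H44

/-- Let X be finite and S ≤ F*(X) a subgroup subnormal in F*(X). Then F(S) = F(X) ∩ S (inside X) and S = F(S)E(S). -/
theorem result {X : Type*} [Group X] [Finite X] (S : Subgroup X) (hS : S ≤ Cfsg.generalizedFittingSubgroup X) (hsn : (S.subgroupOf (Cfsg.generalizedFittingSubgroup X)).IsSubnormal) : (Cfsg.fittingSubgroup ↥S).map S.subtype = Cfsg.fittingSubgroup X ⊓ S ∧ Cfsg.fittingSubgroup ↥S ⊔ Cfsg.layer ↥S = ⊤ := by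
  have h1 : SN (FSof ⊤) S := by rw [FSof_top]; exact sn_iff.2 ⟨hS, hsn⟩
  constructor
  · have := Fof_eq_inf_of_sn ((sn_FSof ⊤).trans h1)
    rwa [Fof_top] at this
  · apply Subgroup.map_injective S.subtype_injective
    rw [sup_comm, ← MonoidHom.range_eq_map, Subgroup.range_subtype]
    exact FSof_eq_self_of_sn h1

end Cfsg.Agent.S1318
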