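import Cfsg.Statements.S1319
import Cfsg.Agent.H44.Components

set_option autoImplicit false
open Cfsg

namespace Cfsg.Agent.S1319

open Subgroup H44

/-- Let A be a subnormal subgroup of the finite group X with E(A) = A. Then A ≤ E(X) and A is normal in E(X). -/
theorem result {X : Type*} [Group X] [Finite X] (A : Subgroup X) (hsn : A.IsSubnormal) (hA : Cfsg.layer ↥A = ⊤) : A ≤ Cfsg.layer X ∧ (A.subgroupOf (Cfsg.layer X)).Normal := by
  have hE : Eof A = A := by
    rw [Eof, hA, ← MonoidHom.range_eq_map, range_subtype]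
  have hs : SN ⊤ A := sn_top_iff.2 hsn
  have hle : A ≤ Cfsg.layer X := by
    rw [← Eof_top, ← hE]; exact Eof_le_Eof_of_sn hs
  refine ⟨hle, normal_subgroupOf_of_le_normalizer ?_⟩
  have h1 : A = ⨆ K : {K : Subgroup X // Comp A K}, (K : Subgroup X) := by
    refine le_antisymm ?_ (iSup_le fun K => K.2.le)
    refine hE.ge.trans (Eof_le_iff.2 fun K hK => ?_)
    exact le_iSup (fun K : {K : Subgroup X // Comp A K} => (K : Subgroup X)) ⟨K, hK⟩
  rw [← Eof_top, h1]
  refine le_trans (le_iInf fun K => ?_) (iInf_normalizer_le_normalizer_iSup _)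
  exact (Comp.of_sn hs K.2).Eof_le_normalizer

end Cfsg.Agent.S1319
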