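import Cfsg.Statements.S1320
import Cfsg.Agent.H44.Components

set_option autoImplicit false
open Cfsg

namespace Cfsg.Agent.S1320

open Subgroup H44

/-- Let B be a normal subgroup of the finite group A. Then F*(A) ∩ B = F*(B). -/
theorem result {A : Type*} [Group A] [Finite A] (B : Subgroup A) [B.Normal] : Cfsg.generalizedFittingSubgroup A ⊓ B = (Cfsg.generalizedFittingSubgroup ↥B).map B.subtype := by
  have hB : SN ⊤ B := SN.of_normal le_top
  refine le_antisymm ?_ (le_inf (FSof_top (G := A) ▸ FSof_le_FSof_of_sn hB) (FSof_le B))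
  -- the product of the components not in `B`
  let E₁ : Subgroup A := Eof (centralizer (B : Set A))
  have hCB : SN ⊤ (centralizer (B : Set A)) := SN.of_normal le_top
  have hE₁ : E₁ ≤ Eof ⊤ := Eof_le_Eof_of_sn hCB
  have hE : Eof (⊤ : Subgroup A) ≤ Eof B ⊔ E₁ := by
    rw [Eof_le_iff]
    intro K hK
    rcases hK.le_or_commutator_eq_bot hB with h | h
    · exact (hK.mono h le_top).le_Eof.trans le_sup_left
    · exact (hK.mono (commutator_eq_bot_iff_le_centralizer.1 h) le_top).le_Eof.trans le_sup_right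
  have hEBn : (Eof B).Normal := by
    rw [← normalizer_eq_top_iff, eq_top_iff]
    exact le_normalizer_of_normal.trans (normalizer_le_normalizer_Eof B)
  have hFn : (Fof (⊤ : Subgroup A)).Normal := by rw [Fof_top]; infer_instance
  rintro x ⟨hx, hxB⟩
  have hx' : x ∈ Eof B ⊔ (E₁ ⊔ Fof ⊤) := by
    have : x ∈ Eof (⊤ : Subgroup A) ⊔ Fof ⊤ := by rw [← FSof_eq, FSof_top]; exact hx
    rw [← sup_assoc]
    exact (sup_le_sup_right hE _) this
  obtain ⟨e, he, y, hy, rfl⟩ := mem_sup_of_normal_left.1 hx'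
  obtain ⟨e₁, he₁, f, hf, rfl⟩ := mem_sup_of_normal_right.1 hy
  have hyB : e₁ * f ∈ B := by
    have := B.mul_mem (B.inv_mem (Eof_le B he)) hxB
    simpa using this
  have hfC : f ∈ centralizer (E₁ : Set A) :=
    (commutator_eq_bot_iff_le_centralizer'.1
      (commutator_eq_bot_mono (commutator_Eof_Fof ⊤) hE₁ le_rfl)) hf
  have hyC : e₁ * f ∈ centralizer (E₁ : Set A) :=
    (le_centralizer_iff.1 (Eof_le (centralizer (B : Set A)))) hyB
  have he₁C : e₁ ∈ centralizer (E₁ : Set A) := by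
    have := mul_mem hyC (inv_mem hfC)
    simpa using this
  have hZ : E₁ ⊓ centralizer (E₁ : Set A) ≤ Fof ⊤ := by
    refine le_Fof_of_sn ((hCB.trans (sn_Eof _)).trans (sn_inf_centralizer le_normalizer)) ?_
    have := isMulCommutative_inf_centralizer E₁
    exact isNilpotent_of_commutator_eq_bot (commutator_self_eq_bot_iff.2 this)
  have hyF : e₁ * f ∈ Fof B := by
    rw [Fof_eq_inf_of_sn hB]
    exact ⟨mul_mem (hZ ⟨he₁, he₁C⟩) hf, hyB⟩
  change e * (e₁ * f) ∈ FSof B
  rw [FSof_eq]
  exact mul_mem_sup he hyF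

end Cfsg.Agent.S1320
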