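import Cfsg.Statements.S1321
import Cfsg.Agent.H44.Components

set_option autoImplicit false
open Cfsg

namespace Cfsg.Agent.S1321

open Subgroup H44

/-- Let X be finite and U ≤ X. Then E(X) is generated by C_{E(X)}(U) together with ⁅E(X), U⁆ (indeed it is their product, ⁅E(X), U⁆ being normal in E(X)). -/
theorem result {X : Type*} [Group X] [Finite X] (U : Subgroup X) : Cfsg.layer X = (Cfsg.layer X ⊓ Subgroup.centralizer (U : Set X)) ⊔ ⁅Cfsg.layer X, U⁆ ∧ ⁅Cfsg.layer X, U⁆ ≤ Cfsg.layer X := by
  have hle : ⁅Cfsg.layer X, U⁆ ≤ Cfsg.layer X := commutator_le_left _ _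
  refine ⟨le_antisymm ?_ (sup_le inf_le_left hle), hle⟩
  rw [← Eof_top] at hle ⊢
  rw [Eof_le_iff]
  intro K hK
  rcases hK.le_or_commutator_eq_bot_of_le_normalizer (U := ⁅Eof ⊤, U⁆) le_top
    (hK.le_Eof.trans (normalizer_commutator_ge_left _ _)) with h | h
  · exact h.trans le_sup_right
  · refine le_trans (le_inf hK.le_Eof ?_) le_sup_left
    rw [← commutator_eq_bot_iff_le_centralizer']
    apply commutator_eq_bot_of_perfect hK.perfect
    rw [commutator_comm] at h
    refine commutator_eq_bot_mono h ?_ le_rfl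
    rw [commutator_comm]
    exact commutator_mono hK.le_Eof le_rfl

end Cfsg.Agent.S1321
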