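import Cfsg.Statements.S1326
import Cfsg.Agent.H44.Components

set_option autoImplicit false
open Cfsg

namespace Cfsg.Agent.S1326

open Subgroup H44

/-- For a finite group X: the Fitting subgroup contains its centralizer if and only if the layer of X is trivial. -/
theorem result {X : Type*} [Group X] [Finite X] : Subgroup.centralizer (Cfsg.fittingSubgroup X : Set X) ≤ Cfsg.fittingSubgroup X ↔ Cfsg.layer X = ⊥ := by
  constructor
  · intro h
    rw [← Eof_top, Eof_eq_bot_iff]
    intro K hK
    have h1 := commutator_eq_bot_iff_le_centralizer.1 hK.commutator_Fof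
    rw [Fof_top] at h1
    have h2 := Fof_isSolvable (⊤ : Subgroup X)
    rw [Fof_top] at h2
    exact hK.qs.not_le_solvable h2 (h1.trans h)
  · intro h
    have := inf_centralizer_Fof_le_of_Eof_eq_bot (X := (⊤ : Subgroup X)) (by rw [Eof_top, h])
    rwa [Fof_top, top_inf_eq] at this

end Cfsg.Agent.S1326
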