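import Cfsg.Statements.S1328
import Cfsg.Agent.H46.Unbal

set_option autoImplicit false
open Cfsg

namespace Cfsg.Agent.S1328

/-- Let G be finite, H ≤ G with O(H) = 1, t an involution of G normalizing H, and Y a nontrivial subgroup of O(C_H(t)). Then some component E of H is normalized by t and by Y and centralized by neither t nor Y. -/
theorem result {G : Type*} [Group G] [Finite G] (H : Subgroup G) (hO : Cfsg.oddCore ↥H = ⊥) (t : G) (ht : orderOf t = 2) (htH : t ∈ Subgroup.normalizer (H : Set G)) (Y : Subgroup G) (hY1 : Y ≠ ⊥) (hY : Y ≤ (Cfsg.oddCore ↥(H ⊓ Subgroup.centralizer ({t} : Set G))).map (H ⊓ Subgroup.centralizer ({t} : Set G)).subtype) : ∃ E : Subgroup ↥H, Cfsg.IsComponent E ∧ (E.map H.subtype).map (MulAut.conj t).toMonoidHom = E.map H.subtype ∧ Y ≤ Subgroup.normalizer ((E.map H.subtype : Subgroup G) : Set G) ∧ ¬ (t ∈ Subgroup.centralizer ((E.map H.subtype : Subgroup G) : Set G)) ∧ ¬ (Y ≤ Subgroup.centralizer ((E.map H.subtype : Subgroup G) : Set G))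 := by
  obtain ⟨L, hL, h1, h2, h3⟩ := H46.exists_comp_unbalanced (p := 2) (H44.Oppof_eq_bot_iff.2 hO) ht htH
    hY hY1
  have h4 := H46.map_subtype_subgroupOf hL.le
  refine ⟨L.subgroupOf H, (H44.comp_iff.1 hL).2, ?_⟩
  rw [h4]
  refine ⟨H44.mem_normalizer_iff_cj.1 ?_, h2, fun h => ?_, fun h => ?_⟩
  · rw [← h1]
    exact Subgroup.normalizer_commutator_ge_right L _ (Subgroup.mem_zpowers t)
  · refine hL.qs.ne_bot ?_
    rw [← h1, H44.commutator_eq_bot_iff_le_centralizer']
    exact Subgroup.zpowers_le_of_mem h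
  · exact h3 (H44.commutator_eq_bot_iff_le_centralizer'.2 h)

end Cfsg.Agent.S1328
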