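import Cfsg.Statements.S1331
import Cfsg.Agent.H46.Generation

set_option autoImplicit false
open Cfsg

namespace Cfsg.Agent.S1331

/-- Let θ be a solvable A-signalizer functor on the finite group G for the prime p, A elementary abelian of rank at least 3, X a member of the family of θ, and B ≤ A with |B| ≥ p². Then X is generated by the subgroups X ∩ ⋂_{d ∈ D, d ≠ 1} θ d, D ranging over the subgroups of index p in B. -/
theorem result {G : Type*} [Group G] [Finite G] (p : ℕ) [Fact p.Prime] (A : Subgroup G) (hA : Cfsg.IsElementaryAbelian p A) (hA3 : p ^ 3 ≤ Nat.card ↥A) (θ : G → Subgroup G) (hθ : Cfsg.IsSolvableSignalizerFunctor p A θ) (X : Subgroup G) (hX : X ∈ Cfsg.signalizerFamily p A θ) (B : Subgroup G) (hB : B ≤ A) (hB2 : p ^ 2 ≤ Nat.card ↥B) : X = ⨆ D : {D : Subgroup G // D ≤ B ∧ D.relIndex B = p}, X ⊓ Cfsg.signalizerInf (D : Subgroup G) θ := by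
  refine le_antisymm ?_ (iSup_le fun D => inf_le_left)
  obtain ⟨-, hXp, hXA, hXθ⟩ := hX
  have hBe : Cfsg.IsElementaryAbelian p B :=
    ⟨IsMulCommutative.of_setLike_mul_comm fun a ha b hb =>
      haveI := hA.1; setLike_mul_comm (hB ha) (hB hb), fun b hb => hA.2 b (hB hb)⟩
  have hB1 : B ≠ ⊥ := by
    rintro rfl
    rw [Subgroup.card_bot] at hB2
    have := Nat.one_lt_pow two_ne_zero (Fact.out : p.Prime).one_lt
    omega
  refine H46.le_of_forall_hyperplane hBe hB1 hXp
    (Subgroup.le_normalizer_iff.2 fun b hb x hx => hXA b (hB hb) x hx) fun D hD hd => ?_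
  refine le_trans ?_ (le_iSup (fun D : {D : Subgroup G // D ≤ B ∧ D.relIndex B = p} =>
    X ⊓ Cfsg.signalizerInf (D : Subgroup G) θ) ⟨D, hD, hd⟩)
  refine le_inf inf_le_left (le_iInf ?_)
  rintro ⟨d, hd, hd1⟩
  refine le_trans (inf_le_inf_left _ (Subgroup.centralizer_le ?_)) (hXθ d (hB (hD hd)) hd1)
  simpa using hd

end Cfsg.Agent.S1331
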