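import Cfsg.Statements.S1335
import Cfsg.Agent.H46.Generation

set_option autoImplicit false
open Cfsg

namespace Cfsg.Agent.S1335

open Subgroup

/-- Let H be a subgroup of the finite group G, p a prime, k ≥ 1, P a Sylow p-subgroup of H of p-rank at least k, and suppose N_G(X) ≤ H for every subgroup X ≤ P of p-rank at least k. Then P is a Sylow p-subgroup of G. -/
theorem result {G : Type*} [Group G] [Finite G] {p : ℕ} [Fact p.Prime] (k : ℕ) (hk : 1 ≤ k) (H : Subgroup G) (P : Sylow p ↥H) (hP : ¬ Cfsg.PRankLE p (k - 1) ↥(P : Subgroup ↥H)) (hΓ : (∀ X : Subgroup G, X ≤ (P : Subgroup ↥H).map H.subtype → ¬ Cfsg.PRankLE p (k - 1) ↥X → Subgroup.normalizer (X : Set G) ≤ H)) : ∃ Q : Sylow p G, (Q : Subgroup G) = (P : Subgroup ↥H).map H.subtype := by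
  let Q : Subgroup G := (P : Subgroup ↥H).map H.subtype
  have hQ : IsPGroup p Q := P.isPGroup'.map _
  have hrk : ¬ Cfsg.PRankLE p (k - 1) ↥Q := by
    intro h
    apply hP
    intro A hA hAp
    let e : ↥(P : Subgroup ↥H) ≃* ↥Q := (P : Subgroup ↥H).equivMapOfInjective _ H.subtype_injective
    have := h (A.map e.toMonoidHom) inferInstance (by
      rintro _ ⟨a, ha, rfl⟩
      rw [← map_pow, hAp a ha, map_one])
    rwa [card_map_of_injective e.injective] at this
  have hN := hΓ Q le_rfl hrk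
  obtain ⟨S, hS⟩ := H46.exists_sylow_eq_of_normalizer (X := ⊤) hQ le_top (by
    intro T hT hQT hTN
    have hTH : T ≤ H := hTN.trans (inf_le_right.trans hN)
    have : T.subgroupOf H = P := P.is_maximal' hT.comap_subtype (map_le_iff_le_comap.1 hQT)
    change T = (P : Subgroup ↥H).map H.subtype
    rw [← this, subgroupOf_map_subtype, inf_eq_left.2 hTH])
  refine ⟨S.mapSurjective (f := (⊤ : Subgroup G).subtype) (fun g => ⟨⟨g, mem_top g⟩, rfl⟩), ?_⟩

  exact hS

end Cfsg.Agent.S1335
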