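import Cfsg.Statements.S1336
import Cfsg.Agent.H72.Conj
import Cfsg.Agent.H4.Basic
import Cfsg.Agent.H21.Quad

set_option autoImplicit false
open Cfsg

namespace Cfsg.Agent.S1336

open Subgroup H72

/-- The vertices of the graph. -/
def V {G : Type*} [Group G] (p : ℕ) (A : Subgroup G) : Prop :=
  Cfsg.IsElementaryAbelian p A ∧ p ^ 1 ≤ Nat.card ↥A

/-- The edges of the graph. -/
def R {G : Type*} [Group G] (p : ℕ) (A B : Subgroup G) : Prop :=
  Cfsg.IsElementaryAbelian p A ∧ p ^ 1 ≤ Nat.card ↥A ∧ Cfsg.IsElementaryAbelian p B ∧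
    p ^ 1 ≤ Nat.card ↥B ∧ ∀ a ∈ A, ∀ b ∈ B, a * b = b * a

section
variable {G : Type*} [Group G] {p : ℕ}

theorem V_cj {A : Subgroup G} (h : V p A) (g : G) : V p (cj g A) :=
  ⟨H21.isElementaryAbelian_map h.1 _, by rw [card_cj]; exact h.2⟩

theorem R_symm {A B : Subgroup G} (h : R p A B) : R p B A :=
  ⟨h.2.2.1, h.2.2.2.1, h.1, h.2.1, fun b hb a ha => (h.2.2.2.2 a ha b hb).symm⟩

theorem R_cj {A B : Subgroup G} (h : R p A B) (g : G) : R p (cj g A) (cj g B) := by
  refine ⟨(V_cj ⟨h.1, h.2.1⟩ g).1, (V_cj ⟨h.1, h.2.1⟩ g).2, (V_cj ⟨h.2.2.1, h.2.2.2.1⟩ g).1,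
    (V_cj ⟨h.2.2.1, h.2.2.2.1⟩ g).2, ?_⟩
  rintro _ ⟨a, ha, rfl⟩ _ ⟨b, hb, rfl⟩
  rw [← map_mul, ← map_mul, h.2.2.2.2 a ha b hb]

theorem conn_symm {A B : Subgroup G} (h : Relation.ReflTransGen (R p) A B) :
    Relation.ReflTransGen (R p) B A := by
  induction h with
  | refl => exact .refl
  | tail _ h ih => exact .head (R_symm h) ih

theorem conn_cj {A B : Subgroup G} (h : Relation.ReflTransGen (R p) A B) (g : G) :
    Relation.ReflTransGen (R p) (cj g A) (cj g B) := by
  induction h with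
  | refl => exact .refl
  | tail _ h ih => exact ih.tail (R_cj h g)

theorem V_zpowers {x : G} (hx : orderOf x = p) : V p (zpowers x) :=
  ⟨H21.isElementaryAbelian_zpowers (hx ▸ pow_orderOf_eq_one x), by
    rw [Nat.card_zpowers, hx, pow_one]⟩

theorem V.ne_bot [Fact p.Prime] {A : Subgroup G} (h : V p A) : A ≠ ⊥ := by
  rintro rfl
  have h1 := h.2
  rw [card_bot, pow_one] at h1
  exact absurd h1 (not_le.2 (Fact.out : p.Prime).one_lt)

/-- Two vertices inside one `p`-subgroup are connected. -/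
theorem conn_of_le [Finite G] [Fact p.Prime] {P A B : Subgroup G} (hP : IsPGroup p P)
    (hA : V p A) (hB : V p B) (hAP : A ≤ P) (hBP : B ≤ P) : Relation.ReflTransGen (R p) A B := by
  have : Nontrivial P := (nontrivial_iff_ne_bot P).2 fun h => hA.ne_bot (le_bot_iff.1 (h ▸ hAP))
  have := hP.center_nontrivial
  have hZ : IsPGroup p (center P) := hP.to_subgroup _
  obtain ⟨n, hn, hcard⟩ := hZ.nontrivial_iff_card.1 this
  obtain ⟨z, hz⟩ := exists_prime_orderOf_dvd_card' (G := center P) p
    (by rw [hcard]; exact dvd_pow_self p hn.ne')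
  have hz' : orderOf ((z : P) : G) = p := by rw [orderOf_coe, orderOf_coe, hz]
  have hV := V_zpowers hz'
  have key : ∀ C : Subgroup G, V p C → C ≤ P → R p C (zpowers ((z : P) : G)) := by
    intro C hC hCP
    refine ⟨hC.1, hC.2, hV.1, hV.2, ?_⟩
    rintro c hc _ ⟨k, rfl⟩
    have := congrArg Subtype.val (mem_center_iff.1 z.2 ⟨c, hCP hc⟩)
    exact (Commute.zpow_right this k).eq
  exact (Relation.ReflTransGen.single (key A hA hAP)).tail (R_symm (key B hB hBP))

end

/-- Let G be finite and p prime. Then G has a proper subgroup H with p ∣ |H| and p ∤ |H ∩ gHg⁻¹| for every g ∉ H (a strongly p-embedded subgroup) if and only if G is not 1-connected for p. -/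
theorem result {G : Type*} [Group G] [Finite G] (p : ℕ) [Fact p.Prime] : (∃ H : Subgroup G, H ≠ ⊤ ∧ p ∣ Nat.card ↥H ∧ ∀ g : G, g ∉ H → ¬ p ∣ Nat.card ↥(H ⊓ H.map (MulAut.conj g).toMonoidHom)) ↔ ¬ Cfsg.IsKConnected p 1 G := by
  constructor
  · rintro ⟨H, hH, hp, hemb⟩ hconn
    obtain ⟨x, hx⟩ := exists_prime_orderOf_dvd_card' (G := H) p hp
    have hx' : orderOf (x : G) = p := by rw [orderOf_coe, hx]
    obtain ⟨g, hg⟩ : ∃ g, g ∉ H := by
      by_contra h
      push Not at h
      exact hH (eq_top_iff.2 fun g _ => h g)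
    have hV := V_zpowers hx'
    have hdvd : ∀ A : Subgroup G, V p A → p ∣ Nat.card A := by
      intro A hA
      obtain ⟨n, hn, hc⟩ := (H21.IsElementaryAbelian.isPGroup hA.1).nontrivial_iff_card.1
        ((nontrivial_iff_ne_bot A).2 hA.ne_bot)
      rw [hc]; exact dvd_pow_self p hn.ne'
    have key : ∀ B : Subgroup G, Relation.ReflTransGen (R p) (zpowers (x : G)) B → B ≤ H := by
      intro B hB
      induction hB with
      | refl => exact zpowers_le_of_mem x.2
      | @tail A B _ hAB ih =>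
        intro b hb
        by_contra hbH
        apply hemb b hbH
        refine (hdvd A ⟨hAB.1, hAB.2.1⟩).trans (card_dvd_of_le (le_inf ih ?_))
        intro a ha
        have : a = b * a * b⁻¹ := by rw [← hAB.2.2.2.2 a ha b hb]; group
        rw [this]
        exact conj_mem_cj (ih ha)
    have h1 := key _ (hconn _ _ hV.1 hV.2 (V_cj hV g).1 (V_cj hV g).2)
    apply hemb g hg
    exact (hdvd _ (V_cj hV g)).trans
      (card_dvd_of_le (le_inf h1 (cj_mono g (zpowers_le_of_mem x.2))))
  · intro hconn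
    unfold Cfsg.IsKConnected at hconn
    push Not at hconn
    obtain ⟨E, E', hE1, hE2, hE'1, hE'2, hne⟩ := hconn
    have hE : V p E := ⟨hE1, hE2⟩
    have hE' : V p E' := ⟨hE'1, hE'2⟩
    change ¬ Relation.ReflTransGen (R p) E E' at hne
    let H : Subgroup G :=
      { carrier := {g | Relation.ReflTransGen (R p) (cj g E) E}
        one_mem' := by
          change Relation.ReflTransGen (R p) (cj 1 E) E
          rw [cj_one]
        mul_mem' := fun {a b} ha hb => by
          change Relation.ReflTransGen (R p) (cj (a * b) E) E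
          rw [cj_mul]
          exact (conn_cj hb a).trans ha
        inv_mem' := fun {a} ha => by
          change Relation.ReflTransGen (R p) (cj a⁻¹ E) E
          have := conn_cj ha a⁻¹
          rw [cj_inv_cj] at this
          exact conn_symm this }
    have hH : ∀ g, g ∈ H ↔ Relation.ReflTransGen (R p) (cj g E) E := fun g => Iff.rfl
    obtain ⟨P, hEP⟩ := (H21.IsElementaryAbelian.isPGroup hE.1).exists_le_sylow
    have hPH : (P : Subgroup G) ≤ H := fun y hy =>
      conn_of_le P.isPGroup' (V_cj hE y) hE (cj_le_of_mem hy hEP) hEP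
    -- every vertex inside `H` is connected to `E`
    have key : ∀ A : Subgroup G, V p A → A ≤ H → Relation.ReflTransGen (R p) A E := by
      intro A hA hAH
      obtain ⟨h, hh, hconj⟩ := (H4.IsSylowIn.of_sylow_le P hPH).exists_conj
        (H21.IsElementaryAbelian.isPGroup hA.1) hAH
      have h1 : cj h A ≤ P := by
        rintro _ ⟨a, ha, rfl⟩
        exact hconj a ha
      have h2 := conn_cj (conn_of_le P.isPGroup' (V_cj hA h) hE h1 hEP) h⁻¹
      rw [cj_inv_cj] at h2
      exact h2.trans ((hH _).1 (H.inv_mem hh))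
    refine ⟨H, ?_, ?_, ?_⟩
    · intro h
      exact hne (conn_symm (key E' hE' (h ▸ le_top)))
    · obtain ⟨n, hn, hc⟩ := (H21.IsElementaryAbelian.isPGroup hE.1).nontrivial_iff_card.1
        ((nontrivial_iff_ne_bot E).2 hE.ne_bot)
      refine dvd_trans ?_ (card_dvd_of_le (hEP.trans hPH))
      rw [hc]; exact dvd_pow_self p hn.ne'
    · intro g hg hd
      obtain ⟨x, hx⟩ := exists_prime_orderOf_dvd_card' p hd
      have hx' : orderOf (x : G) = p := by rw [orderOf_coe, hx]
      have hV := V_zpowers hx'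
      have h1 := key _ hV (zpowers_le_of_mem x.2.1)
      have h2 := key _ (V_cj hV g⁻¹) ((le_cj_iff g).1 (zpowers_le_of_mem x.2.2))
      have h3 := conn_cj h2 g
      rw [cj_cj_inv] at h3
      exact hg ((hH g).2 ((conn_symm h3).trans h1))

end Cfsg.Agent.S1336
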