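import Cfsg.Statements.S1338
import Cfsg.Agent.S1337
import Cfsg.Agent.S0122

set_option autoImplicit false
open Cfsg

namespace Cfsg.Agent.S1338

open Subgroup
open scoped commutatorElement

section
variable {P : Type*} [Group P]

theorem comm_three {N : Subgroup P} (hN : Cfsg.IsElementaryAbelian 3 N) {x v : P}
    (hx : x ∈ normalizer (N : Set P)) (hx3 : x ^ 3 = 1) (hv : v ∈ N) : ⁅⁅⁅v, x⁆, x⁆, x⁆ = 1 := by
  have := hN.1
  let _ : CommGroup N := { (inferInstance : Group N) with mul_comm := mul_comm' }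
  have h1 := H21.conj_mem_of_mem_normalizer hx hv
  have h2 := H21.conj_mem_of_mem_normalizer hx h1
  let b0 : N := ⟨v, hv⟩
  let b1 : N := ⟨_, h1⟩
  let b2 : N := ⟨_, h2⟩
  have key : (b0 * b1⁻¹ * (b1 * b2⁻¹)⁻¹) * (b1 * b2⁻¹ * (b2 * b0⁻¹)⁻¹)⁻¹ = (b1 ^ 3)⁻¹ * b2 ^ 3 := by
    apply Additive.ofMul.injective
    simp only [ofMul_mul, ofMul_inv, ofMul_pow]
    abel
  have e1 : b1 ^ 3 = 1 := Subtype.ext (hN.2 _ h1)
  have e2 : b2 ^ 3 = 1 := Subtype.ext (hN.2 _ h2)
  rw [e1, e2, inv_one, mul_one] at key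
  have key' := congrArg Subtype.val key
  have h3 : v = x * (x * (x * v * x⁻¹) * x⁻¹) * x⁻¹ := by
    calc v = x ^ 3 * v * (x ^ 3)⁻¹ := by rw [hx3]; group
      _ = _ := by simp only [pow_succ, pow_zero]; group
  have h4 : ⁅⁅⁅v, x⁆, x⁆, x⁆ = (v * (x * v * x⁻¹)⁻¹ *
      ((x * v * x⁻¹) * (x * (x * v * x⁻¹) * x⁻¹)⁻¹)⁻¹) *
      ((x * v * x⁻¹) * (x * (x * v * x⁻¹) * x⁻¹)⁻¹ *
        ((x * (x * v * x⁻¹) * x⁻¹) * (x * (x * (x * v * x⁻¹) * x⁻¹) * x⁻¹)⁻¹)⁻¹)⁻¹ := by
    simp only [commutatorElement_def]; group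
  rw [h4, ← h3]
  exact key'

theorem card_le_cube [Finite P] {N : Subgroup P} (hN : Cfsg.IsElementaryAbelian 3 N) {x : P}
    (hx : x ∈ normalizer (N : Set P)) (hx3 : x ^ 3 = 1) :
    Nat.card N ≤ Nat.card ↥(N ⊓ centralizer ((zpowers x : Subgroup P) : Set P)) ^ 3 := by
  have := hN.1
  have hx0 : zpowers x ≤ normalizer (N : Set P) := zpowers_le_of_mem hx
  have l1 : ⁅N, zpowers x⁆ ≤ N := H21.commutator_le_of_le_normalizer hx0
  have n1 : zpowers x ≤ normalizer ((⁅N, zpowers x⁆ : Subgroup P) : Set P) :=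
    normalizer_commutator_ge_right _ _
  have l2 : ⁅⁅N, zpowers x⁆, zpowers x⁆ ≤ ⁅N, zpowers x⁆ := H21.commutator_le_of_le_normalizer n1
  have c1 := (H21.isElementaryAbelian_of_le hN l1).1
  have e0 := H21.card_centralizer_mul_card_commutator hx
  have e1 := H21.card_centralizer_mul_card_commutator (n1 (mem_zpowers x))
  have l3 : ⁅⁅N, zpowers x⁆, zpowers x⁆ ≤ N ⊓ centralizer ((zpowers x : Subgroup P) : Set P) := by
    refine le_inf (l2.trans l1) ?_
    intro w hw
    obtain ⟨u, hu, rfl⟩ := (H21.mem_commutator_zpowers (n1 (mem_zpowers x))).1 hw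
    obtain ⟨v, hv, rfl⟩ := (H21.mem_commutator_zpowers hx).1 hu
    rw [H21.mem_centralizer_zpowers, ← commutatorElement_eq_one_iff_mul_comm]
    exact comm_three hN hx hx3 hv
  have b1 := card_le_of_le l3
  have b2 := card_le_of_le (inf_le_inf_right (centralizer ((zpowers x : Subgroup P) : Set P)) l1)
  rw [← e0, ← e1, pow_succ', pow_two]
  exact Nat.mul_le_mul_left _ (Nat.mul_le_mul b2 b1)

end

/-- A finite 3-group of 3-rank at least 4 is 2-connected for the prime 3: its commuting graph on elementary abelian subgroups of order ≥ 9 is connected. -/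
theorem result {P : Type*} [Group P] [Finite P] (hP : IsPGroup 3 P) (hrk : ¬ Cfsg.PRankLE 3 3 P) : Cfsg.IsKConnected 3 2 P := by
  have h3 : Fact (Nat.Prime 3) := ⟨Nat.prime_three⟩
  obtain ⟨A, hA, hAc⟩ : ∃ A : Subgroup P, Cfsg.IsElementaryAbelian 3 A ∧ 3 ^ 3 < Nat.card A := by
    unfold Cfsg.PRankLE at hrk
    push Not at hrk
    obtain ⟨A, h1, h2, h3⟩ := hrk
    exact ⟨A, ⟨h1, h2⟩, h3⟩
  have hrk2 : ¬ Cfsg.PRankLE 3 2 P := fun h => by
    have := h A hA.1 hA.2
    omega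
  obtain ⟨U, -, -, -, hU⟩ := S1337.result 3 hP hrk2
  obtain ⟨E, hEA, hEc⟩ := Sylow.exists_subgroup_le_card_pow_prime_of_le_card Nat.prime_three hP
    (S1337.pow_succ_le_card (hP.to_subgroup A) hAc)
  obtain ⟨N, hNn, hN, hNc⟩ := S0122.result (by norm_num) hP E
    (H21.isElementaryAbelian_of_le hA hEA) hEc
  have key : ∀ X : Subgroup P, Cfsg.IsElementaryAbelian 3 X → 3 ^ 2 ≤ Nat.card X →
      ¬ Cfsg.PRankLE 3 2 ↥(centralizer (X : Set P)) := by
    intro X hX hX2 hr
    have hXc := hX.1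
    have hXX : X ≤ centralizer (X : Set P) := le_centralizer X
    have hle : ∀ Y : Subgroup P, Cfsg.IsElementaryAbelian 3 Y → Y ≤ centralizer (X : Set P) →
        Nat.card Y ≤ 3 ^ 2 := by
      intro Y hY hYX
      by_contra h
      exact (S1337.not_pRankLE_iff _).2 ⟨Y, hYX, hY, not_le.1 h⟩ hr
    have hsub : ∀ Y : Subgroup P, Cfsg.IsElementaryAbelian 3 Y → Y ≤ centralizer (X : Set P) →
        Y ≤ X := by
      intro Y hY hYX
      have h1 := hle _ (H21.isElementaryAbelian_sup hY hX hYX) (sup_le hYX hXX)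
      exact le_sup_left.trans (H21.eq_of_le_of_card_le le_sup_right (h1.trans hX2)).ge
    have hN1 : N ≠ ⊥ := by
      rintro rfl
      rw [card_bot] at hNc
      omega
    obtain ⟨z, hzN, hzc, hzo⟩ := H3.exists_mem_center_orderOf_eq hP N hN1
    have hzX : zpowers z ≤ X := hsub _ (H21.isElementaryAbelian_zpowers (hzo ▸ pow_orderOf_eq_one z))
      (zpowers_le_of_mem (center_le_centralizer _ hzc))
    have hlt : zpowers z < X := lt_of_le_of_ne hzX fun h => by
      rw [← h, Nat.card_zpowers, hzo] at hX2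
      omega
    obtain ⟨x, hxX, hxz⟩ := SetLike.exists_of_lt hlt
    have hXeq : zpowers z ⊔ zpowers x = X := by
      apply H21.eq_of_le_of_card_le (sup_le hzX (zpowers_le_of_mem hxX))
      refine (hle X hX hXX).trans (S1337.pow_succ_le_card (hP.to_subgroup _) ?_)
      rw [pow_one, ← hzo, ← Nat.card_zpowers]
      exact H21.card_lt_of_lt (lt_of_le_of_ne le_sup_left fun h =>
        hxz (h ▸ mem_sup_right (mem_zpowers x)))
    have h1 := card_le_cube hN (le_normalizer_of_normal (K := ⊤) (mem_top x)) (hX.2 x hxX)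
    have h2 : N ⊓ centralizer ((zpowers x : Subgroup P) : Set P) ≤ centralizer (X : Set P) := by
      rw [← hXeq, H21.centralizer_sup]
      refine le_inf ?_ inf_le_right
      intro g _
      rw [H21.mem_centralizer_zpowers]
      exact mem_center_iff.1 hzc g
    have h4 := hsub _ (H21.isElementaryAbelian_of_le hN inf_le_left) h2
    have h5 : 3 ^ 2 ≤ Nat.card ↥(N ⊓ centralizer ((zpowers x : Subgroup P) : Set P)) := by
      apply S1337.pow_succ_le_card (hP.to_subgroup _)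
      by_contra h
      have := Nat.pow_le_pow_left (not_lt.1 h) 3
      omega
    have h6 := H21.eq_of_le_of_card_le h4 ((hle X hX hXX).trans h5)
    have hNc' := hN.1
    have h7 := hle N hN (H21.le_centralizer_of_le_comm le_rfl (h6.ge.trans inf_le_left))
    omega
  intro E E' hE hE2 hE' hE'2
  have h1 := (hU E hE hE2).2 (key E hE hE2)
  have h2 := (hU E' hE' hE'2).2 (key E' hE' hE'2)
  refine h1.trans ?_
  clear h1 hE' hE'2
  induction h2 using Relation.ReflTransGen.head_induction_on with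
  | refl => exact .refl
  | head h _ ih =>
    exact ih.tail ⟨h.2.2.1, h.2.2.2.1, h.1, h.2.1, fun b hb a ha => (h.2.2.2.2 a ha b hb).symm⟩

end Cfsg.Agent.S1338
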