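import Cfsg.Statements.S1343
import Cfsg.Agent.H46.ExtLayer

set_option autoImplicit false
open Cfsg

namespace Cfsg.Agent.S1343

/-- Let X be finite. Then L*_{2'}(X) = L_{2'}(X) ⊔ F for some subgroup F of odd order normalized by a Sylow 2-subgroup of X. -/
theorem result {X : Type*} [Group X] [Finite X] : ∃ F : Subgroup X, Odd (Nat.card ↥F) ∧ (∃ S : Sylow 2 X, (S : Subgroup X) ≤ Subgroup.normalizer (F : Set X)) ∧ Cfsg.extendedTwoLayer X = Cfsg.pLayer 2 X ⊔ F := by
  have : (pLayer 2 X).Normal := H44.pLayer_normal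
  obtain ⟨S⟩ : Nonempty (Sylow 2 X) := inferInstance
  have hT := H92.sylow_inf_normal S (pLayer 2 X ⊔ pPrimePCore 2 X)
  set T := (S : Subgroup X) ⊓ (pLayer 2 X ⊔ pPrimePCore 2 X) with hTdef
  refine ⟨oddCore X ⊔ H44.Oppof 2 (Subgroup.centralizer (T : Set X)), ?_, ⟨S, ?_⟩, ?_⟩
  · rw [← H44.coprime_two_iff_odd]
    exact H44.coprime_sup_of_le_normalizer (le_top.trans (Subgroup.normalizer_eq_top _).ge)
      H44.pPrimeCore_coprime (H44.pPrimeCoreOf_coprime _)
  · refine H92.le_normalizer_sup (le_top.trans (Subgroup.normalizer_eq_top _).ge)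
      (le_trans ?_ (H46.normalizer_le_normalizer_Oppof_centralizer T))
    exact H92.le_normalizer_inf Subgroup.le_normalizer
      (le_top.trans (Subgroup.normalizer_eq_top _).ge)
  · rw [H46.extendedTwoLayer_eq hT, sup_assoc]

end Cfsg.Agent.S1343
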