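import Cfsg.Statements.S1344
import Cfsg.Agent.H46.ExtLayer

set_option autoImplicit false
open Cfsg

namespace Cfsg.Agent.S1344

/-- Let K be a 2-component of the finite group X. Then K ≤ L*_{2'}(X) and K is normal in L*_{2'}(X). -/
theorem result {X : Type*} [Group X] [Finite X] (K : Subgroup X) (hK : Cfsg.IsPComponent 2 K) : K ≤ Cfsg.extendedTwoLayer X ∧ (K.subgroupOf (Cfsg.extendedTwoLayer X)).Normal := by
  have hK' : H44.PComp 2 ⊤ K := H44.pcomp_top_iff.2 hK
  obtain ⟨T, hT⟩ := H92.exists_sylIn 2 (pLayer 2 X ⊔ pPrimePCore 2 X)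
  have hKL : K ≤ pLayer 2 X := H44.Lof_top (p := 2) (G := X) ▸ hK'.le_Lof
  have hle : K ≤ extendedTwoLayer X := hKL.trans (le_sup_left.trans le_sup_left)
  refine ⟨hle, (Subgroup.normal_subgroupOf_iff_le_normalizer hle).2 ?_⟩
  rw [H46.extendedTwoLayer_eq hT]
  refine sup_le (sup_le ?_ ?_) ?_
  · exact H44.Lof_top (p := 2) (G := X) ▸ hK'.Lof_le_normalizer
  · have := hK'.Oppof_le_normalizer
    rwa [H44.Oppof_top] at this
  · have hP := H46.sylIn_inf_pcomp hK' hT (by rw [H44.Lof_top]; exact le_sup_left) le_top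
    intro c hc
    refine H46.mem_normalizer_pcomp_of_centralizes hK' hP (Subgroup.le_normalizer (Subgroup.mem_top c)) ?_
    exact Subgroup.centralizer_le (SetLike.coe_subset_coe.2 inf_le_left) (H44.Oppof_le _ hc)

end Cfsg.Agent.S1344
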