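import Cfsg.Statements.S1346
import Cfsg.Agent.H40.CoreBal
-- import your own Cfsg.Agent.* helpers here

set_option autoImplicit false
open Cfsg

namespace Cfsg.Agent.S1346

open Subgroup Cfsg.Agent.H44 in
theorem core_balance_amb {G : Type*} [Group G] [Finite G] {Y R : Subgroup G} (hR : IsPGroup 2 R)
    (hRY : R ≤ Y) :
    Oppof 2 (Y ⊓ centralizer (R : Set G)) ≤ (extendedTwoLayer Y).map Y.subtype := by
  have h1 := Subgroup.map_mono (f := Y.subtype)
    (H40.core_balance (R := R.subgroupOf Y) hR.comap_subtype)
  rwa [map_Oppof_inj _ Y.subtype_injective, H46.map_subtype_centralizer_subgroupOf hRY] at h1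

/-- Let G be a finite group all of whose 2-local subgroups have known non-abelian composition factors, and x, y commuting involutions. Then the extended 2-layer of L*_{2'}(C_G(x)) ∩ C_G(y) (as a group) is contained in L*_{2'}(C_G(y)). -/
theorem result {G : Type*} [Group G] [Finite G] (hK : ∀ T : Subgroup G, IsPGroup 2 ↥T → T ≠ ⊥ → Cfsg.IsCompositionKGroup ↥(Subgroup.normalizer (T : Set G))) (x y : G) (hx : orderOf x = 2) (hy : orderOf y = 2) (hxy : x * y = y * x) : (Cfsg.extendedTwoLayer ↥((Cfsg.extendedTwoLayer ↥(Subgroup.centralizer ({x} : Set G))).map (Subgroup.centralizer ({x} : Set G)).subtype ⊓ Subgroup.centralizer ({y} : Set G))).map ((Cfsg.extendedTwoLayer ↥(Subgroup.centralizer ({x} : Set G))).map (Subgroup.centralizer ({x} : Set G)).subtype ⊓ Subgroup.centralizer ({y} : Set G)).subtype ≤ (Cfsg.extendedTwoLayer ↥(Subgroup.centralizer ({y} : Set G))).map (Subgroup.centralizer ({y} : Set G)).subtype := by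
  open Subgroup Cfsg.Agent.H44 in
  set X := centralizer ({x} : Set G) with hX
  set Y := centralizer ({y} : Set G) with hY
  set H := (extendedTwoLayer X).map X.subtype ⊓ Y with hH
  have hR : IsPGroup 2 (zpowers x) := IsPGroup.of_card (n := 1) (by rw [Nat.card_zpowers, hx, pow_one])
  have hRY : zpowers x ≤ Y := zpowers_le.2 (mem_centralizer_singleton_iff.2 hxy)
  have hXR : centralizer ((zpowers x : Subgroup G) : Set G) = X := by
    rw [zpowers_eq_closure, centralizer_closure]
  have hn := H46.extendedTwoLayer_normal (G := X)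
  have hsn : SN (Y ⊓ centralizer ((zpowers x : Subgroup G) : Set G)) H := by
    rw [hXR, inf_comm]
    exact (sn_map_subtype hn.isSubnormal).inf_right Y
  obtain ⟨T, hT⟩ := H92.exists_sylIn 2 (pLayer 2 H ⊔ pPrimePCore 2 H)
  rw [H46.extendedTwoLayer_eq hT, Subgroup.map_sup, Subgroup.map_sup]
  refine sup_le (sup_le ?_ ?_) ?_
  · exact ((Lof_le_Lof_of_sn hsn).trans (H46.Lof_inf_centralizer_le hR
      (hRY.trans le_normalizer))).trans (Subgroup.map_mono (le_sup_left.trans le_sup_left))
  · exact (Oppof_le_Oppof_of_sn hsn).trans (core_balance_amb hR hRY)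
  · have hTH : T.map H.subtype ≤ H := map_subtype_le _
    have e : T = (T.map H.subtype).subgroupOf H :=
      (comap_map_eq_self_of_injective H.subtype_injective T).symm
    rw [map_Oppof_inj _ H.subtype_injective, e, H46.map_subtype_centralizer_subgroupOf hTH]
    have h2 := hsn.inf_right (centralizer ((T.map H.subtype : Subgroup G) : Set G))
    rw [inf_assoc, ← H21.centralizer_sup] at h2
    refine (Oppof_le_Oppof_of_sn h2).trans (core_balance_amb ?_ (sup_le hRY (hTH.trans inf_le_right)))
    exact isPGroup_sup_of_le_normalizer ((hTH.trans (hsn.le.trans inf_le_right)).trans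
      (centralizer_le_normalizer _)) hR (hT.pgroup.map _)

end Cfsg.Agent.S1346
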