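import Cfsg.Statements.S1348
import Cfsg.Agent.H68.BlkSL

set_option autoImplicit false
open Cfsg

namespace Cfsg.Agent.S1348

/-- Let F be a finite field of odd order, n ≥ 7 odd, and t ∈ SL(n, F) the diagonal matrix with entries −1, …, −1, 1. Then E(C(t)) is a standard subgroup of SL(n, F). -/
theorem result {F : Type*} [Field F] [Fintype F] [DecidableEq F] (hF : Odd (Fintype.card F)) (n : ℕ) (hn : 7 ≤ n) (hodd : Odd n) (t : Matrix.SpecialLinearGroup (Fin n) F) (ht : (t : Matrix (Fin n) (Fin n) F) = Matrix.diagonal (fun i : Fin n => if (i : ℕ) + 1 = n then (1 : F) else -1)) : Cfsg.IsStandardSubgroup ((Cfsg.layer ↥(Subgroup.centralizer ({t} : Set (Matrix.SpecialLinearGroup (Fin n) F)))).map (Subgroup.centralizer ({t} : Set (Matrix.SpecialLinearGroup (Fin n) F))).subtype) := by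
  obtain ⟨m, rfl⟩ : ∃ m, n = m + 1 := ⟨n - 1, by omega⟩
  have h2 : (2 : F) ≠ 0 := by
    intro h
    have : CharP F 2 := CharTwo.of_one_ne_zero_of_two_eq_zero one_ne_zero h
    obtain ⟨k, -, hk⟩ := FiniteField.card F 2
    rw [hk] at hF
    exact (Nat.not_even_iff_odd.2 hF) (Nat.even_pow.2 ⟨even_two, k.ne_zero⟩)
  have hme : Even m := by
    obtain ⟨k, hk⟩ := hodd
    exact ⟨k, by omega⟩
  have hm : 2 ≤ m := by omega
  have h0 : (0 : Fin (m + 1)) ≠ Fin.last m := by rw [Ne, Fin.ext_iff]; simp; omega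
  have hn1 : (-1 : F) ≠ 1 := fun h => h2 (by linear_combination -h)
  have ht' : t.1 = H68.tdiag m F := ht
  set C := Subgroup.centralizer ({t} : Set (Matrix.SpecialLinearGroup (Fin (m + 1)) F))
  have hC : ∀ g, g ∈ C ↔ g.1 * H68.Elast m F = H68.Elast m F * g.1 := fun g => by
    rw [← H68.comm_tdiag_iff h2, ← ht', Subgroup.mem_centralizer_singleton_iff, eq_comm]
    exact Subtype.ext_iff
  set L := H68.Lb m F
  have hL : H44.QS L := H68.qs_Lb (Or.inl (by omega))
  have hle : L ≤ C := fun x hx => (hC x).2 (hx.1.trans hx.2.symm)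
  have hinv : ∀ g : Matrix.SpecialLinearGroup (Fin (m + 1)) F, g.1 * (g⁻¹).1 = 1 := fun g => by
    rw [← Matrix.SpecialLinearGroup.coe_mul, mul_inv_cancel]; rfl
  have hN : C ≤ Subgroup.normalizer (L : Set _) := by
    refine (Subgroup.normal_subgroupOf_iff_le_normalizer hle).1 ⟨fun x hx g => ?_⟩
    exact H68.conj_mem_Lb ((hC g).1 g.2) (hinv g) hx rfl
  have hcomm : ⁅C, C⁆ ≤ L := by
    rw [Subgroup.commutator_le]
    intro g hg h hh
    have hs : ∀ x ∈ C, ∃ c : F, x.1 * H68.Elast m F = c • H68.Elast m F ∧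
        (x⁻¹).1 * H68.Elast m F = c⁻¹ • H68.Elast m F ∧ c ≠ 0 := by
      intro x hx
      have e1 := H68.mul_Elast_of_comm ((hC x).1 hx)
      have e2 := H68.mul_Elast_of_comm ((hC _).1 (C.inv_mem hx))
      have e3 : x.1 * (x⁻¹).1 * H68.Elast m F = H68.Elast m F := by rw [hinv, one_mul]
      rw [mul_assoc, e2, mul_smul_comm, e1, smul_smul] at e3
      have e4 := congrFun (congrFun e3 (Fin.last m)) (Fin.last m)
      simp only [Matrix.smul_apply, H68.Elast_apply, and_self, if_true, smul_eq_mul, mul_one] at e4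
      exact ⟨_, e1, by rw [e2, eq_inv_of_mul_eq_one_left e4], right_ne_zero_of_mul_eq_one e4⟩
    obtain ⟨a, ha, ha', ha0⟩ := hs g hg
    obtain ⟨b, hb, hb', hb0⟩ := hs h hh
    have e : (g * h * g⁻¹ * h⁻¹).1 * H68.Elast m F = H68.Elast m F := by
      simp only [Matrix.SpecialLinearGroup.coe_mul, mul_assoc, hb',
        mul_smul_comm, ha', hb, ha, smul_smul]
      rw [show b⁻¹ * (a⁻¹ * (b * a)) = 1 by field_simp, one_smul]
    exact ⟨e, ((hC _).1 (C.mul_mem (C.mul_mem (C.mul_mem hg hh) (C.inv_mem hg))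
      (C.inv_mem hh))).symm.trans e⟩
  have hE : H44.Eof C = L := by
    refine le_antisymm (H44.Eof_le_iff.2 fun K hK => ?_)
      (H44.Comp.le_Eof ⟨H44.SN.of_le_normalizer hle hN, hL⟩)
    rw [← hK.perfect]
    exact (Subgroup.commutator_mono hK.le hK.le).trans hcomm
  change IsStandardSubgroup (H44.Eof C)
  rw [hE]
  set Z := Subgroup.centralizer (L : Set (Matrix.SpecialLinearGroup (Fin (m + 1)) F))
  have hZ : ∀ x ∈ Z, ∃ a b : F,
      x.1 = Matrix.diagonal (fun i => if i = Fin.last m then b else a) := fun x hx =>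
    H68.cent_Lb hm fun y hy => congrArg Subtype.val (hx y hy)
  have htZ : t ∈ Z := fun y hy => (hle hy t rfl).symm
  have ht2 : orderOf t = 2 := by
    refine orderOf_eq_prime (Subtype.ext ?_) fun e => ?_
    · rw [sq, Matrix.SpecialLinearGroup.coe_mul, ht', H68.tdiag_mul_self]; rfl
    · have := congrFun (congrFun ht' 0) 0
      have hm0 : m ≠ 0 := by omega
      rw [e] at this
      exact hn1 (by simpa [H68.tdiag, hm0.symm] using this.symm)
  have huniq : ∀ x ∈ Z, orderOf x = 2 → x = t := by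
    intro x hx hx2
    obtain ⟨a, b, e⟩ := hZ x hx
    have hd := x.2
    rw [e, Matrix.det_diagonal, Fin.prod_univ_castSucc] at hd
    simp only [(Fin.castSucc_lt_last _).ne, if_false, if_true, Finset.prod_const, Finset.card_univ,
      Fintype.card_fin] at hd
    have hsq : x.1 * x.1 = 1 := by
      rw [← Matrix.SpecialLinearGroup.coe_mul, ← sq, ← hx2, pow_orderOf_eq_one]; rfl
    have ha : a * a = 1 := by
      have := congrFun (congrFun hsq 0) 0
      rw [e, Matrix.diagonal_mul_diagonal] at this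
      simpa [h0] using this
    have hb : b = 1 := by
      obtain ⟨k, hk⟩ := hme
      rwa [hk, pow_add, ← mul_pow, ha, one_pow, one_mul] at hd
    rcases mul_self_eq_one_iff.1 ha with ha | ha
    · have : x = 1 := Subtype.ext (by rw [e, ha, hb]; simp)
      simp [this] at hx2
    · refine Subtype.ext ?_
      rw [e, ht', H68.tdiag, ha, hb]
      congr 1; funext i
      simp [Fin.ext_iff]
  have hfix : ∀ g : Matrix.SpecialLinearGroup (Fin (m + 1)) F, g * t * g⁻¹ ∈ Z →
      g ∈ Subgroup.normalizer (L : Set _) := by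
    intro g hg
    have := huniq _ hg (by rw [← MulAut.conj_apply, MulEquiv.orderOf_eq, ht2])
    refine hN (Subgroup.mem_centralizer_singleton_iff.2 ?_)
    rw [← mul_inv_eq_iff_eq_mul, this]
  refine ⟨H44.qs_iff.1 hL, ⟨?_, fun g hg => ?_⟩, fun g _ hc => ?_,
    le_antisymm (H44.normalizer_le_normalizer_centralizer L) fun g hg => ?_⟩
  · exact even_iff_two_dvd.2 (ht2 ▸ Subgroup.orderOf_dvd_natCard _ htZ)
  · by_contra hev
    have : Fact (Nat.Prime 2) := ⟨Nat.prime_two⟩
    obtain ⟨⟨x, hx, y, hy, e⟩, hx2⟩ := exists_prime_orderOf_dvd_card' 2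
      (even_iff_two_dvd.1 (Nat.not_odd_iff_even.1 hev))
    rw [← Subgroup.orderOf_coe] at hx2
    have hy2 : orderOf y = 2 := by
      rw [← hx2]; change _ = orderOf x; rw [← e]; exact (MulEquiv.orderOf_eq _ _).symm
    rw [huniq y hy hy2] at e
    exact hg (H44.normalizer_le_normalizer_centralizer L (hfix g (by rw [← e] at hx; exact hx)))
  · have h1 : L.map (MulAut.conj g).toMonoidHom ≤ Z :=
      H44.commutator_eq_bot_iff_le_centralizer'.1 hc
    refine (hL.map_inj (MulAut.conj g).toMonoidHom (MulAut.conj g).injective).commutator_ne_bot ?_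
    rw [Subgroup.commutator_eq_bot_iff_le_centralizer]
    intro x hx y hy
    obtain ⟨a, b, e⟩ := hZ x (h1 hx)
    obtain ⟨c, d, e'⟩ := hZ y (h1 hy)
    refine Subtype.ext ?_
    rw [Matrix.SpecialLinearGroup.coe_mul, Matrix.SpecialLinearGroup.coe_mul, e, e',
      Matrix.diagonal_mul_diagonal, Matrix.diagonal_mul_diagonal]
    simp only [mul_comm]
  · exact hfix g ((Subgroup.mem_normalizer_iff.1 hg t).1 htZ)

end Cfsg.Agent.S1348
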