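import Cfsg.Statements.S1355
import Cfsg.Agent.H47.Rows
import Cfsg.Agent.BG.L15_2
import Cfsg.Agent.BG.L15_5

set_option autoImplicit false
open Cfsg
open Subgroup Cfsg.Agent.H49 Cfsg.Agent.BG

namespace Cfsg.Agent.S1355

/-- Let G be a minimal simple group of odd order and M a maximal subgroup. Then the largest normal nilpotent Hall subgroup M_F of M is nontrivial and contained in M_σ, M_σ is contained in the derived subgroup M', M' is proper in M, and the image of M' in M/M_F is nilpotent. -/
theorem result {G : Type*} [Group G] [Finite G] (hG : Cfsg.IsMinSimpleOddOrder G)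
    (M : Subgroup G) (hM : IsCoatom M) :
    Cfsg.fittingHallOf M ≠ ⊥ ∧ Cfsg.fittingHallOf M ≤ Cfsg.sigmaCore M ∧ Cfsg.sigmaCore M ≤ ⁅M, M⁆ ∧ ⁅M, M⁆ < M ∧
      Group.IsNilpotent ↥((commutator ↥M).map (QuotientGroup.mk' (Cfsg.fittingHall ↥M))) := by
  obtain ⟨h1, h2, h3, h4⟩ := Fcore_chain hG hM
  refine ⟨h1, h2, h3, h4, ?_⟩
  have hn : M ≤ 𝒩(fittingHallOf M) := le_normalizer.trans (Fcore_norm M)
  have h5 := (Fitting_structure hG hM).2.2.1.2
  have hk : (cosetOn hn).ker = fittingHall M := by
    rw [ker_cosetOn hn]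
    exact comap_map_eq_self_of_injective M.subtype_injective _
  have e : (commutator M).map (cosetOn hn) = quo ⁅M, M⁆ (fittingHallOf M) := by
    rw [map_cosetOn hn, map_subtype_commutator]
  let f : M ⧸ fittingHall M →* Quo (fittingHallOf M) :=
    QuotientGroup.lift _ (cosetOn hn) fun x hx => by rwa [← hk] at hx
  have hf : Function.Injective f := by
    rw [injective_iff_map_eq_one]
    intro x hx
    obtain ⟨y, rfl⟩ := QuotientGroup.mk_surjective x
    rw [QuotientGroup.eq_one_iff, ← hk]
    exact hx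
  rw [← nilpotent_map_iff hf, map_map]
  have : f.comp (QuotientGroup.mk' (fittingHall M)) = cosetOn hn := by
    ext x; rfl
  rwa [this, e]

end Cfsg.Agent.S1355
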