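import Cfsg.Statements.S1357
import Cfsg.Agent.BG.L15_7
import Cfsg.Agent.BG.T16_0

set_option autoImplicit false
open Cfsg

namespace Cfsg.Agent.S1357

open Subgroup Cfsg.Agent.H49 Cfsg.Agent.BG

/-- Let G be a minimal simple group of odd order and M a maximal subgroup with standard factorisation M = K U M_σ. If M_F ≠ M_σ then U = 1, the Fitting subgroup F(M) meets its conjugates by elements outside its normalizer trivially, and K has prime order. -/
theorem result {G : Type*} [Group G] [Finite G] (hG : Cfsg.IsMinSimpleOddOrder G)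
    (M : Subgroup G) (hM : IsCoatom M) (K U : Subgroup G) (hKU : Cfsg.IsSigmaDecomposition M K U) (hne : Cfsg.fittingHallOf M ≠ Cfsg.sigmaCore M) :
    U = ⊥ ∧ Cfsg.IsTISubset (Cfsg.fittingOf M : Set G) ∧ (Nat.card K).Prime := by
  have hK := (isSigmaDecomposition_iff hG hM).1 hKU
  obtain ⟨⟨hP, -⟩, ⟨hp, -⟩, -⟩ := Fcore_structure hG hM hK.1 hne rfl rfl
  refine ⟨(trivg_kappa_compl hG hM hK).2 hP, ?_, hp⟩
  refine (isTISubset_iff_TISub hG hM ⟨fittingOf_le M, le_norm_fittingOf M⟩
    (ne_bot_mono (Fcore_le_Fitting M) (Fcore_chain hG hM).1)).2 fun g hg => ?_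
  by_contra h
  exact hne (nonTI_Fitting_structure hG hM hg rfl rfl h).1.2

end Cfsg.Agent.S1357
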