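import Cfsg.Statements.S1358
import Cfsg.Agent.H47.Rows

set_option autoImplicit false
open Cfsg
open Subgroup Cfsg.Agent.H49 Cfsg.Agent.BG

namespace Cfsg.Agent.S1358

/-- Let G be a minimal simple group of odd order and M a maximal subgroup with standard factorisation M = K U M_σ. Then for every prime p, every Sylow p-subgroup of U is abelian and has no elementary abelian subgroup of order p ^ 3. -/
theorem result {G : Type*} [Group G] [Finite G] (hG : Cfsg.IsMinSimpleOddOrder G)
    (M : Subgroup G) (hM : IsCoatom M) (K U : Subgroup G) (hKU : Cfsg.IsSigmaDecomposition M K U) :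
    ∀ (p : ℕ), p.Prime → ∀ P : Sylow p U, IsMulCommutative (P : Subgroup U) ∧ Cfsg.PRankLE p 2 (P : Subgroup U) := by
  intro p hp P
  have hU := (H47.compl_of_dec hG hM hKU).2.1
  have hP := sylowOf_map hp P
  have hs : IsPi (sigma M)ᶜ ((P : Subgroup U).map U.subtype) :=
    (hU.pi.mono (Set.compl_subset_compl.2 Set.subset_union_left)).of_le hP.le
  have hab := sigma'_nil_abelian hG hM (hP.le.trans hU.le) hs hP.pi.nilpotent
  refine ⟨⟨⟨fun a b => Subtype.ext (Subtype.ext ?_)⟩⟩, ?_⟩
  · exact H50.mul_comm_of_abelian hab ⟨a, a.2, rfl⟩ ⟨b, b.2, rfl⟩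
  · rw [← H50.pRankLE_map_iff U.subtype_injective, ← pRank_le_iff hp]
    by_contra h
    have h3 : 3 ≤ pRank p ((P : Subgroup U).map U.subtype) := by omega
    have ha : p ∈ alpha M := mem_alpha_iff.2 ⟨hp, h3.trans (pRank_mono hp (hP.le.trans hU.le))⟩
    exact hs p hp ((pRank_pos_iff hp).1 (by omega)) (alpha_sub_sigma hG hM ha)

end Cfsg.Agent.S1358
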