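import Cfsg.Statements.S1363
import Cfsg.Agent.BG.L14_12
import Cfsg.Agent.BG.T16_0

set_option autoImplicit false
open Cfsg

namespace Cfsg.Agent.S1363

open Subgroup _root_.Cfsg.Agent.H49 Cfsg.Agent.BG

/-- Let G be a minimal simple group of odd order and M a maximal subgroup with standard factorisation M = K U M_σ and K ≠ 1. Then U is abelian and the normalizer of U in G is not contained in M. -/
theorem result {G : Type*} [Group G] [Finite G] (hG : Cfsg.IsMinSimpleOddOrder G)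
    (M : Subgroup G) (hM : IsCoatom M) (K U : Subgroup G) (hKU : Cfsg.IsSigmaDecomposition M K U) (hK1 : K ≠ ⊥) :
    IsMulCommutative U ∧ ¬ Subgroup.normalizer (U : Set G) ≤ M := by
  have hK := (isSigmaDecomposition_iff hG hM).1 hKU
  have hP := (typeP_iff_kappa hG hM hK.1).1 hK1
  refine ⟨(kappa_compl_context hG hM hK).2.2.2.2.2 hK1, fun h => ?_⟩
  by_cases hU1 : U = ⊥
  · subst hU1
    exact hM.1 (top_le_iff.1 (norm_bot.ge.trans h))
  have hP2 : TypeP2 M := ⟨hP, fun h => hU1 ((trivg_kappa_compl hG hM hK).2 ⟨hP, h⟩)⟩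
  obtain ⟨r, hr, hd⟩ := exists_prime_dvd_card hU1
  obtain ⟨R, hR⟩ := exists_sylowOf r U
  obtain ⟨L, hL, hKL⟩ := H48.exists_coatom_ge (H48.ms_cent_ne_top hG hK1)
  obtain ⟨H, hH, hRH⟩ := H48.exists_coatom_ge (H48.ms_norm_ne_top hG (hR.ne_bot hr rfl hd)
    (ne_top_anti (hR.le.trans hK.2.1.le) hM.1))
  exact (P2type_signalizer hG hK hP2 hL hKL hr hR hH hRH).2.2.2.1 (inf_le_right.trans h)

end Cfsg.Agent.S1363
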