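import Cfsg.Statements.S1372
import Cfsg.Agent.BG.L15_7
import Cfsg.Agent.BG.L14_1
import Cfsg.Agent.BG.T16_0

set_option autoImplicit false
open Cfsg

namespace Cfsg.Agent.S1372

open Subgroup Cfsg.Agent.H49 Cfsg.Agent.BG

/-- Let G be a minimal simple group of odd order and M a maximal subgroup with standard factorisation M = K U M_σ, K ≠ 1 and U ≠ 1. Then K has prime order, and the Fitting subgroup F(M) contains M_σ and is a TI-subset of G. -/
theorem result {G : Type*} [Group G] [Finite G] (hG : Cfsg.IsMinSimpleOddOrder G)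
    (M : Subgroup G) (hM : IsCoatom M) (K U : Subgroup G) (hKU : Cfsg.IsSigmaDecomposition M K U) (hK1 : K ≠ ⊥) (hU1 : U ≠ ⊥) :
    (Nat.card K).Prime ∧ Cfsg.IsTISubset (Cfsg.fittingOf M : Set G) ∧ Cfsg.sigmaCore M ≤ Cfsg.fittingOf M := by
  have hK := (isSigmaDecomposition_iff hG hM).1 hKU
  have hP : TypeP M := (typeP_iff_kappa hG hM hK.1).1 hK1
  have hn1 : ¬ TypeP1 M := fun h => hU1 ((trivg_kappa_compl hG hM hK).2 h)
  have hP2 : TypeP2 M := ⟨hP, fun h => hn1 ⟨hP, h⟩⟩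
  obtain ⟨-, hp, hnil, -⟩ := (Ptype_structure hG hP hK.1).2.2.2.2.2 hP2
  refine ⟨hp, ?_, le_fittingOf (sigmaCore_le M) (sigmaCore_norm M) hnil⟩
  refine (isTISubset_iff_TISub hG hM ⟨fittingOf_le M, le_norm_fittingOf M⟩
    (ne_bot_mono (Fcore_le_Fitting M) (Fcore_chain hG hM).1)).2 fun g hg => ?_
  by_contra h
  rcases (nonTI_Fitting_structure hG hM hg rfl rfl h).1.1 with h | h
  · exact hK1 ((trivg_kappa hG hM hK.1).2 h)
  · exact hn1 h

end Cfsg.Agent.S1372
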