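import Cfsg.Statements.S1373
import Cfsg.Agent.H47.Rows

set_option autoImplicit false
open Cfsg
open Subgroup Cfsg.Agent.H49 Cfsg.Agent.BG

namespace Cfsg.Agent.S1373

/-- Let G be a minimal simple group of odd order and M a maximal subgroup with standard factorisation M = K U M_σ, K ≠ 1 and U = 1. Then M_σ ∩ C_G(K) has prime order. -/
theorem result {G : Type*} [Group G] [Finite G] (hG : Cfsg.IsMinSimpleOddOrder G)
    (M : Subgroup G) (hM : IsCoatom M) (K U : Subgroup G) (hKU : Cfsg.IsSigmaDecomposition M K U) (hK1 : K ≠ ⊥) (hU : U = ⊥) :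
    (Nat.card ↥(Cfsg.sigmaCore M ⊓ Subgroup.centralizer (K : Set G))).Prime := by
  have hP := H47.typeP_of_dec hG hM hKU hK1
  obtain ⟨L, -, -, -, -, -, -, -, h2, -⟩ := Ptype_embedding hG hP hKU.hall
  exact (h2.resolve_left fun h =>
    h.1.2 ((trivg_kappa_compl hG hM (H47.compl_of_dec hG hM hKU)).1 hU).2).2

end Cfsg.Agent.S1373
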