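import Cfsg.Statements.S1374
import Cfsg.Agent.H47.Rows

set_option autoImplicit false
open Cfsg
open Subgroup Cfsg.Agent.H49 Cfsg.Agent.BG

namespace Cfsg.Agent.S1374

/-- Let G be a minimal simple group of odd order, M a maximal subgroup and x a non-identity element of M_σ. Then C_M(x) has order coprime to its index in C_G(x), and C_G(x) has a normal subgroup R complementing C_M(x) such that for every conjugate gMg⁻¹ containing x there is exactly one r ∈ R with rMr⁻¹ = gMg⁻¹. -/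
theorem result {G : Type*} [Group G] [Finite G] (hG : Cfsg.IsMinSimpleOddOrder G)
    (M : Subgroup G) (hM : IsCoatom M) (x : G) (hx : x ∈ Cfsg.sigmaCore M) (hx1 : x ≠ 1) :
    (Nat.card ↥(M ⊓ Subgroup.centralizer ({x} : Set G))).Coprime ((M ⊓ Subgroup.centralizer ({x} : Set G)).relIndex (Subgroup.centralizer ({x} : Set G))) ∧
      ∃ R : Subgroup G, Subgroup.centralizer ({x} : Set G) ≤ Subgroup.normalizer (R : Set G) ∧ Cfsg.IsComplIn (M ⊓ Subgroup.centralizer ({x} : Set G)) R (Subgroup.centralizer ({x} : Set G)) ∧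
        ∀ g : G, x ∈ M.map (MulAut.conj g).toMonoidHom → ∃! r : G, r ∈ R ∧ M.map (MulAut.conj r).toMonoidHom = M.map (MulAut.conj g).toMonoidHom := by
  have hx' : M ∈ sigmaMax x := ⟨hM, hx⟩
  obtain ⟨h1, h2, h3, h4⟩ := FT_signalizer_trans hG ⟨hx1, M, hx'⟩
  have hS : IsSdp (sigR x) (M ⊓ 𝒞[x]) 𝒞[x] := by
    by_cases h : (sigmaMax x).Nontrivial
    · obtain ⟨N, hN, -, -, -, -, h5⟩ := FT_signalizer_context hG hx1 h
      have := (h5 M hx').1
      rwa [inf_assoc, inf_eq_right.2 hN.2.1] at this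
    · have e : sigR x = ⊥ := by
        unfold sigR
        rw [dif_neg fun h' => h h'.1]
      rw [e, inf_eq_right.2 ((cent1_le_iff_not_nontrivial hG hx1 hx').2 h)]
      exact ⟨bot_sup_eq _, bot_inf_eq _, le_norm_bot _⟩
  refine ⟨?_, sigR x, h3.2, isComplIn_symm hS.isComplIn, fun g hg => ?_⟩
  · rw [hS.relIndex_right, ← hS.relIndex_left]
    exact h4.2.symm
  · have hg' : cj g M ∈ sigmaMax x := by
      refine ⟨isCoatom_cj.2 hM, (Msigma_Hall hG (isCoatom_cj.2 hM)).mem_of_normal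
        (sigmaCore_norm _) hg ?_⟩
      rw [sigma_cj]
      exact (sigmaCore_isPi M).elt hx
    obtain ⟨r, hr, e⟩ := h1 M hx' _ hg'
    refine ⟨r, ⟨hr, e⟩, fun s ⟨hs, e'⟩ => ?_⟩
    have h5 : r⁻¹ * s ∈ M := by
      rw [← H48.ms_norm_eq hG hM (H48.ms_coatom_ne_bot hG hM) le_rfl le_normalizer,
        mem_norm_iff_cj, cj_mul, show cj s M = cj r M from e'.trans e.symm, cj_inv_cj]
    have h6 : r⁻¹ * s ∈ sigR x ⊓ (M ⊓ 𝒞[x]) :=
      mem_inf.2 ⟨mul_mem (inv_mem hr) hs, h5, h3.1 (mul_mem (inv_mem hr) hs)⟩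
    rw [hS.2.1] at h6
    exact (inv_mul_eq_one.1 h6).symm

end Cfsg.Agent.S1374
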