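import Cfsg.Statements.S1375
import Cfsg.Agent.H47.Rows
import Cfsg.Agent.BG.L15_0

set_option autoImplicit false
open Cfsg
open Subgroup Cfsg.Agent.H49 Cfsg.Agent.BG

namespace Cfsg.Agent.S1375

/-- Let G be a minimal simple group of odd order, M a maximal subgroup, x ≠ 1 in M_σ with C_G(x) not contained in M. Then exactly one maximal subgroup N contains C_G(x); for it N_σ = N_F, C_{N_σ}(x) is a normal subgroup of C_G(x) complementing C_M(x), M ∩ N is a complement to N_σ in N, and for every standard factorisation N = K' U' N_σ one has U' ≠ 1 and x ∈ A(N) with x ∉ N_σ. -/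
theorem result {G : Type*} [Group G] [Finite G] (hG : Cfsg.IsMinSimpleOddOrder G)
    (M : Subgroup G) (hM : IsCoatom M) (x : G) (hx : x ∈ Cfsg.sigmaCore M) (hx1 : x ≠ 1) (hxM : ¬ Subgroup.centralizer ({x} : Set G) ≤ M) :
    ∃ N : Subgroup G, (IsCoatom N ∧ Subgroup.centralizer ({x} : Set G) ≤ N) ∧ (∀ L : Subgroup G, IsCoatom L → Subgroup.centralizer ({x} : Set G) ≤ L → L = N) ∧
        Cfsg.sigmaCore N = Cfsg.fittingHallOf N ∧
        Subgroup.centralizer ({x} : Set G) ≤ Subgroup.normalizer ((Cfsg.sigmaCore N ⊓ Subgroup.centralizer ({x} : Set G) : Subgroup G) : Set G) ∧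
        Cfsg.IsComplIn (M ⊓ Subgroup.centralizer ({x} : Set G)) (Cfsg.sigmaCore N ⊓ Subgroup.centralizer ({x} : Set G)) (Subgroup.centralizer ({x} : Set G)) ∧
        Cfsg.IsComplIn (M ⊓ N) (Cfsg.sigmaCore N) N ∧
        ∀ K' U' : Subgroup G, Cfsg.IsSigmaDecomposition N K' U' → U' ≠ ⊥ ∧ x ∈ Cfsg.sigmaA N U' ∧ x ∉ Cfsg.sigmaCore N := by
  have hx' : M ∈ sigmaMax x := ⟨hM, hx⟩
  have h : (sigmaMax x).Nontrivial :=
    by_contra fun h => hxM ((cent1_le_iff_not_nontrivial hG hx1 hx').2 h)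
  obtain ⟨N, hN, e, h1, h2, h3, h5⟩ := FT_signalizer_context hG hx1 h
  obtain ⟨hS, -, -, h6⟩ := h5 M hx'
  rw [inf_assoc, inf_eq_right.2 hN.2.1, e] at hS
  refine ⟨N, ⟨hN.1, hN.2.1⟩, hN.2.2,
    ((Fcore_eq_Msigma hG hN.1).2 (notP1type_Msigma_nil hG h3)).symm, hS.norm,
    isComplIn_symm hS.isComplIn, (isComplIn_sigma_iff hG hN.1).2 h6, fun K' U' hd => ?_⟩
  have hc := H47.compl_of_dec hG hN.1 hd
  have hxN : x ∈ N := hN.2.1 (self_mem_cent1 x)
  refine ⟨fun e' => ?_, ⟨⟨hxN, ?_⟩, ?_⟩, fun h' => hx1 ?_⟩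
  · have := (trivg_kappa_compl hG hN.1 hc).1 e'
    rcases h3 with h3 | h3
    · exact (typeP_iff_not_typeF hN.1).1 this.1 h3
    · exact h3.2 this.2
  · obtain ⟨y, hy, hy1⟩ := ne_bot_iff_exists.1 h1
    rw [e] at hy
    exact ⟨y, hy.1, hy1, (mem_cent1.1 hy.2).symm⟩
  · obtain ⟨-, s2, hpi⟩ := kappa_compl_sdp hG hN.1 hc
    rw [sup_comm]
    exact (s2.hall_left hpi hd.hall.pi.compl_compl).mem_of_normal s2.norm hxN
      fun p hp hd hk => kappa_not_tau2 hG hk (h2 p hp hd)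
  · exact IsPiElt.eq_one ((sigmaCore_isPi N).elt h') fun p hp hd => (h2 p hp hd).2.1

end Cfsg.Agent.S1375
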