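import Cfsg.Statements.S1376
import Cfsg.Agent.BG.L15_9
import Cfsg.Agent.BG.L15_2
import Cfsg.Agent.BG.T16_0
import Cfsg.Agent.H20.FrobBridge
import Cfsg.Agent.H49.Quot

set_option autoImplicit false
open Cfsg

namespace Cfsg.Agent.S1376

open Subgroup Cfsg.Agent.H49 Cfsg.Agent.BG

/-- Let G be a minimal simple group of odd order, M a maximal subgroup, x ≠ 1 in M_σ with C_G(x) not contained in M, and N a maximal subgroup containing C_G(x) with κ(N) nonempty. Then κ(M) is empty, M has a cyclic Frobenius complement (M is a Frobenius group), and M_F is not a TI-subset of G. -/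
theorem result {G : Type*} [Group G] [Finite G] (hG : Cfsg.IsMinSimpleOddOrder G)
    (M : Subgroup G) (hM : IsCoatom M) (x : G) (hx : x ∈ Cfsg.sigmaCore M) (hx1 : x ≠ 1) (hxM : ¬ Subgroup.centralizer ({x} : Set G) ≤ M)
    (N : Subgroup G) (hN : IsCoatom N) (hxN : Subgroup.centralizer ({x} : Set G) ≤ N) (hkN : (Cfsg.kappa N).Nonempty) :
    Cfsg.kappa M = ∅ ∧ (∃ E : Subgroup ↥M, Cfsg.IsFrobeniusComplement E ∧ IsCyclic E) ∧ ¬ Cfsg.IsTISubset (Cfsg.fittingHallOf M : Set G) := by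
  obtain ⟨hF, -, hTI, E, hE, hc, hfr⟩ := nonFtype_signalizer_base hG hM hx hx1 hxM hN hxN
    (fun h => Set.not_nonempty_empty (h.2 ▸ hkN))
  refine ⟨hF.2, ⟨E.subgroupOf M, H20.isFrobeniusComplement_of_isFrob hfr, ?_⟩, fun h => hTI ?_⟩
  · exact (subgroupOfEquivOfLe hE.le).isCyclic.2 hc
  · exact (isTISubset_iff_TISub hG hM ⟨Fcore_le M, le_normalizer.trans (Fcore_norm M)⟩
      (Fcore_chain hG hM).1).1 h

end Cfsg.Agent.S1376
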