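import Cfsg.Statements.S1378
import Cfsg.Agent.BG.L13_9

set_option autoImplicit false
open Cfsg

namespace Cfsg.Agent.S1378

open Cfsg.Agent.H49 Cfsg.Agent.BG

/-- Let G be a minimal simple group of odd order. Then every prime dividing the order of G belongs to σ(M) for some maximal subgroup M, and if σ(M) and σ(N) have a prime in common for maximal subgroups M, N then N is conjugate to M; so the sets σ(M_i) over representatives of the conjugacy classes of maximal subgroups partition the prime divisors of #G. -/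
theorem result {G : Type*} [Group G] [Finite G] (hG : Cfsg.IsMinSimpleOddOrder G) :
    (∀ p : ℕ, p.Prime → p ∣ Nat.card G → ∃ M : Subgroup G, IsCoatom M ∧ p ∈ Cfsg.sigma M) ∧
      ∀ M N : Subgroup G, IsCoatom M → IsCoatom N → (Cfsg.sigma M ∩ Cfsg.sigma N).Nonempty → ∃ g : G, N = M.map (MulAut.conj g).toMonoidHom := by
  refine ⟨fun p hp hd => ?_, fun M N hM hN ⟨p, h1, h2⟩ => ?_⟩
  · obtain ⟨P, hP⟩ := exists_sylowOf p (⊤ : Subgroup G)
    have hP1 : P ≠ ⊥ := hP.ne_bot hp rfl (by rwa [Subgroup.card_top])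
    obtain ⟨M, hM, hN⟩ := H48.exists_coatom_ge
      (H48.ms_norm_ne_top hG hP1 (H48.ms_ne_top_of_nil hG hP.pi.nilpotent))
    have hPM : P ≤ M := Subgroup.le_normalizer.trans hN
    exact ⟨M, hM, mem_sigma_iff.2 ⟨hp, (hP.pi.dvd_card hP1).trans (Subgroup.card_dvd_of_le hPM), P,
      hP.sub hPM le_top, hN⟩⟩
  · by_contra hc
    exact Set.disjoint_left.1 (sigma_partition hG hM hN fun g hg => hc ⟨g, hg⟩) h1 h2

end Cfsg.Agent.S1378
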