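import Cfsg.Statements.S1386

set_option autoImplicit false
open Cfsg

namespace Cfsg.Agent.S1386

theorem mem_sup_comm {G : Type*} [Group G] {A B : Subgroup G}
    (h : ∀ a ∈ A, ∀ b ∈ B, a * b = b * a) {x : G} (hx : x ∈ A ⊔ B) :
    ∃ a ∈ A, ∃ b ∈ B, x = a * b := by
  have hn : B ≤ Subgroup.normalizer (A : Set G) := by
    refine le_trans ?_ (Subgroup.centralizer_le_normalizer _)
    intro b hb
    rw [Subgroup.mem_centralizer_iff]
    intro a ha
    exact h a ha b hb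
  have := Subgroup.coe_mul_of_right_le_normalizer_left A B hn
  have hx' : x ∈ ((A ⊔ B : Subgroup G) : Set G) := hx
  rw [this] at hx'
  obtain ⟨a, ha, b, hb, rfl⟩ := hx'
  exact ⟨a, ha, b, hb, rfl⟩

theorem coprime_of_cyclic {G : Type*} [Group G] [Finite G] {A B : Subgroup G}
    (h : ∀ a ∈ A, ∀ b ∈ B, a * b = b * a) (hd : A ⊓ B = ⊥) (hc : IsCyclic ↥(A ⊔ B)) :
    (Nat.card A).Coprime (Nat.card B) := by
  have hcomm : ∀ (a : A) (b : B), Commute (Subgroup.inclusion (le_sup_left : A ≤ A ⊔ B) a)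
      (Subgroup.inclusion (le_sup_right : B ≤ A ⊔ B) b) := by
    intro a b
    apply Subtype.ext
    exact h a a.2 b b.2
  let f : A × B →* ↥(A ⊔ B) := MonoidHom.noncommCoprod _ _ hcomm
  have hf : Function.Injective f := by
    rw [injective_iff_map_eq_one]
    rintro ⟨a, b⟩ hab
    have h1 : (a : G) * b = 1 := congrArg Subtype.val hab
    have h2 : (a : G) ∈ A ⊓ B := by
      refine ⟨a.2, ?_⟩
      rw [eq_inv_of_mul_eq_one_left h1]
      exact B.inv_mem b.2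
    rw [hd, Subgroup.mem_bot] at h2
    have h3 : (b : G) = 1 := by simpa [h2] using h1
    ext <;> simp [h2, h3]
  have := isCyclic_of_injective f hf
  exact coprime_card_of_isCyclic_prod A B

/-- Let G be a finite group, W₁, W₂ subgroups forming a self-normalizing cyclic pair, S a subgroup with W₂ ≤ S and W₁ a complement to S' in S, and (W₁, U, W₂') type-P data for S. Then W₂' = W₂ (that is, C_{S'}(W₁) = W₂). -/
theorem result {G : Type*} [Group G] [Finite G] (W₁ W₂ S U W₂' : Subgroup G) (hW : Cfsg.IsSelfNormalizingCyclic W₁ W₂)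
    (hSW : Cfsg.IsComplIn ⁅S, S⁆ W₁ S) (hW₂S : W₂ ≤ S) (hP : Cfsg.IsTypePWith S W₁ U W₂') :
    W₂' = W₂ := by
  obtain ⟨h1, h2, h12, hcomm, hcyc, hN⟩ := hW
  obtain ⟨-, h2', h12', hcomm', hcyc', hN'⟩ := hP.selfNormalizing
  obtain ⟨hS'S, hW₁S, hdisj, hprod⟩ := hSW
  obtain ⟨x, hx, hx1⟩ : ∃ x ∈ W₁, x ≠ 1 := by
    by_contra hcon
    push Not at hcon
    exact h1 ((Subgroup.eq_bot_iff_forall _).2 hcon)
  -- W₂ ≤ S'
  have hW2S' : W₂ ≤ ⁅S, S⁆ := by
    intro y hy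
    obtain ⟨s, hs, w, hw, hyw⟩ := hprod y (hW₂S hy)
    have hcop := coprime_of_cyclic hcomm h12 hcyc
    have hc : Commute y w := (hcomm w hw y hy).symm
    have hs' : s = y * w⁻¹ := by rw [hyw]; group
    have hyn : y ^ Nat.card W₂ = 1 := by
      have := pow_card_eq_one' (G := W₂) (x := ⟨y, hy⟩)
      exact congrArg Subtype.val this
    have hsn : s ^ Nat.card W₂ = (w ^ Nat.card W₂)⁻¹ := by
      rw [hs', (hc.inv_right).mul_pow, hyn, one_mul, inv_pow]
    have hw1 : w ^ Nat.card W₂ ∈ ⁅S, S⁆ ⊓ W₁ := by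
      refine ⟨?_, W₁.pow_mem hw _⟩
      rw [← inv_inv (w ^ Nat.card W₂), ← hsn]
      exact Subgroup.inv_mem _ (Subgroup.pow_mem _ hs _)
    rw [hdisj, Subgroup.mem_bot] at hw1
    have ho1 : orderOf w ∣ Nat.card W₂ := orderOf_dvd_of_pow_eq_one hw1
    have ho2 : orderOf w ∣ Nat.card W₁ := Subgroup.orderOf_dvd_natCard W₁ hw
    have : orderOf w = 1 := Nat.eq_one_of_dvd_coprimes hcop ho2 ho1
    rw [orderOf_eq_one_iff] at this
    rw [hyw, this, mul_one]
    exact hs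
  have hle : W₂ ≤ W₂' := by
    rw [← hP.W₂_centralizer x hx hx1]
    refine le_inf hW2S' ?_
    intro y hy
    rw [Subgroup.mem_centralizer_singleton_iff]
    exact (hcomm x hx y hy).symm
  obtain ⟨y, hy, hy1⟩ : ∃ y ∈ W₂, y ≠ 1 := by
    by_contra hcon
    push Not at hcon
    exact h2 ((Subgroup.eq_bot_iff_forall _).2 hcon)
  have key : ∀ B : Subgroup G, W₁ ⊓ B = ⊥ → y ∈ B →
      ({x * y} : Set G) ⊆ (↑(W₁ ⊔ B) : Set G) \ (↑W₁ ∪ ↑B) := by
    intro B hB hyB z hz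
    rw [Set.mem_singleton_iff] at hz
    subst hz
    refine ⟨Subgroup.mul_mem_sup hx hyB, ?_⟩
    rintro (h | h)
    · have : y ∈ W₁ ⊓ B := ⟨by simpa using W₁.mul_mem (W₁.inv_mem hx) h, hyB⟩
      rw [hB, Subgroup.mem_bot] at this
      exact hy1 this
    · have : x ∈ W₁ ⊓ B := ⟨hx, by simpa using B.mul_mem h (B.inv_mem hyB)⟩
      rw [hB, Subgroup.mem_bot] at this
      exact hx1 this
  have e1 := hN _ (key W₂ h12 hy) (Set.singleton_nonempty _)
  have e2 := hN' _ (key W₂' h12' (hle hy)) (Set.singleton_nonempty _)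
  refine le_antisymm ?_ hle
  intro z hz
  have hz' : z ∈ W₁ ⊔ W₂ := by
    rw [← e1, e2]
    exact Subgroup.mem_sup_right hz
  obtain ⟨a, ha, b, hb, rfl⟩ := mem_sup_comm hcomm hz'
  have : a ∈ W₁ ⊓ W₂' := ⟨ha, by simpa using W₂'.mul_mem hz (W₂'.inv_mem (hle hb))⟩
  rw [h12', Subgroup.mem_bot] at this
  simpa [this] using hb

end Cfsg.Agent.S1386
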