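import Cfsg.Statements.S1396
import Cfsg.Agent.BG.L7_6

set_option autoImplicit false
open Cfsg

namespace Cfsg.Agent.S1396

/-- Let G be a minimal simple group of odd order, p a prime dividing the order of G and A an abelian p-subgroup. Suppose either (1) A consists exactly of the elements x of C_G(A) with x^p = 1, and every proper subgroup of G has p-length at most one, or (2) A is normal and self-centralizing in some Sylow p-subgroup of G and has rank at least 2. Then A satisfies the transitivity hypothesis. -/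
theorem result {G : Type*} [Group G] [Finite G] (hG : Cfsg.IsMinSimpleOddOrder G)
    (p : ℕ) [Fact p.Prime] (hp : p ∣ Nat.card G) (A : Subgroup G) (hAp : IsPGroup p A) (hAc : IsMulCommutative A)
    (h : (∀ x ∈ Subgroup.centralizer (A : Set G), x ^ p = 1 ↔ x ∈ A) ∧ (∀ H : Subgroup G, H ≠ ⊤ → Cfsg.PLengthLE p 1 H) ∨
      ∃ P : Sylow p G, Cfsg.IsSCN (P : Subgroup G) A ∧ ¬ Cfsg.PRankLE p 1 A) :
    Cfsg.TransitivityHypothesis A := by
  have hp' : p.Prime := Fact.out
  rcases h with ⟨h, hpl⟩ | ⟨P, hA, hr⟩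
  · have hAA := H49.abelian_iff.1 hAc
    refine BG.plength_1_normed_constrained hG hp' ?_
      ⟨le_top, ⟨hAc, fun x hx => (h x (hAA hx)).2 hx⟩, fun B _ hB hAB => le_antisymm (fun x hx =>
        (h x (H49.le_cent_of_abelian hB.1 le_rfl hAB hx)).1 (hB.2 x hx)) hAB⟩ hpl
    rintro rfl
    obtain ⟨x, hx⟩ := exists_prime_orderOf_dvd_card' p hp
    have h1 := (h x (H49.le_cent_bot ⊤ (Subgroup.mem_top x))).1 (hx ▸ pow_orderOf_eq_one x)
    rw [Subgroup.mem_bot] at h1
    rw [h1, orderOf_one] at hx
    exact hp'.one_lt.ne hx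
  · exact H48.th_of_scn hG hp' (H49.sylowOf_top hp' P) hA hr

end Cfsg.Agent.S1396
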