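import Cfsg.Statements.S1397
import Cfsg.Agent.H48.Sec8a

set_option autoImplicit false
open Cfsg

namespace Cfsg.Agent.S1397

/-- Let G be a minimal simple group of odd order, M a maximal subgroup, p a prime and A₀ an elementary abelian p-subgroup of F(M) of order at least p ^ 3 that is maximal among elementary abelian p-subgroups of F(M). (a) If F(M) is not a p-group, then F(M) ∩ C_G(A₀) lies in exactly one maximal subgroup of G. (b) If F(M) is a p-group and P is a Sylow p-subgroup of M, then p does not divide the index of P in G, and every normal self-centralizing subgroup A of P containing an elementary abelian subgroup of order p ^ 3 is contained in F(M) and lies in exactly one maximal subgroup of G. -/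
theorem result {G : Type*} [Group G] [Finite G] (hG : Cfsg.IsMinSimpleOddOrder G)
    (M : Subgroup G) (hM : IsCoatom M) (p : ℕ) [Fact p.Prime] (A₀ : Subgroup G)
    (hA₀ : A₀ ≤ Cfsg.fittingOf M) (hA₀e : Cfsg.IsElementaryAbelian p A₀) (hA₀3 : p ^ 3 ≤ Nat.card A₀)
    (hA₀max : ∀ B : Subgroup G, B ≤ Cfsg.fittingOf M → Cfsg.IsElementaryAbelian p B → A₀ ≤ B → B = A₀) :
    (¬ IsPGroup p ↥(Cfsg.fittingOf M) → Cfsg.InUniqueMaximal (Cfsg.fittingOf M ⊓ Subgroup.centralizer (A₀ : Set G))) ∧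
      (IsPGroup p ↥(Cfsg.fittingOf M) → ∀ P : Sylow p M,
        ¬ p ∣ ((P : Subgroup M).map M.subtype).index ∧
        ∀ A : Subgroup G, Cfsg.IsSCN ((P : Subgroup M).map M.subtype) A → ¬ Cfsg.PRankLE p 2 ↥A →
          A ≤ Cfsg.fittingOf M ∧ Cfsg.InUniqueMaximal A) := by
  have hp : p.Prime := Fact.out
  have hr : ¬ PRankLE p 2 A₀ := H48.not_pRankLE_of_elem le_rfl hA₀e
    ((Nat.pow_lt_pow_right hp.one_lt (by norm_num)).trans_le hA₀3)
  refine ⟨fun hF => H48.uniq_iff.2 ⟨M, H48.nonp_fit_uniq hG hp hM hF hA₀ hA₀e hr⟩, fun hF P => ?_⟩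
  have h1 := (H48.scn_fit_uniq (A := ⊥) hG hp hM hF (H49.sylowOf_map hp P)).2.1
  refine ⟨?_, fun A hA hr => ?_⟩
  · have h3 := h1.2.2 p hp rfl
    rwa [Subgroup.relIndex_top_right] at h3
  · have h2 := (H48.scn_fit_uniq hG hp hM hF (H49.sylowOf_map hp P)).2.2 hA hr
    exact ⟨h2.1, H48.uniq_iff.2 ⟨M, h2.2⟩⟩

end Cfsg.Agent.S1397
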