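import Cfsg.Statements.S1403
import Cfsg.Agent.H48.Sec9b

set_option autoImplicit false
open Cfsg

namespace Cfsg.Agent.S1403

/-- Let G be a minimal simple group of odd order and K a proper subgroup having an elementary abelian subgroup of order p ^ 2 for some prime p. If K, or its centralizer C_G(K), has an elementary abelian subgroup of order q ^ 3 for some prime q, then K lies in exactly one maximal subgroup of G. -/
theorem result {G : Type*} [Group G] [Finite G] (hG : Cfsg.IsMinSimpleOddOrder G)
    (K : Subgroup G) (hK : K ≠ ⊤) (hK2 : ¬ Cfsg.RankLE 1 K)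
    (hK3 : ¬ Cfsg.RankLE 2 K ∨ ¬ Cfsg.RankLE 2 (Subgroup.centralizer (K : Set G))) :
    Cfsg.InUniqueMaximal K := by
  rcases hK3 with h | h
  · exact H48.rank3_uniq hG hK (H49.lt_rank_iff.2 h)
  · exact H48.cent_rank3_uniq hG (H49.lt_rank_iff.2 hK2) (H49.lt_rank_iff.2 h)

end Cfsg.Agent.S1403
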