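import Cfsg.Statements.S1405
import Cfsg.Agent.BG.L10_2

set_option autoImplicit false
open Cfsg

namespace Cfsg.Agent.S1405

open Subgroup Cfsg.Agent.H49 in

/-- Let G be a minimal simple group of odd order and M a maximal subgroup, α(M) the set of primes p with M of p-rank at least 3, and M_α = O_{α(M)}(M). Then M_α is a Hall α(M)-subgroup of M and of G, M_α ≤ M_σ, the quotient M/M_α has no elementary abelian subgroup of order p ^ 3 for any prime p, and the image of M' in M/M_α is nilpotent. -/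
theorem result {G : Type*} [Group G] [Finite G] (hG : Cfsg.IsMinSimpleOddOrder G)
    (M : Subgroup G) (hM : IsCoatom M) :
    Cfsg.IsPiHallOf (Cfsg.alpha M) (Cfsg.alphaCore M) M ∧ Cfsg.IsPiHall (Cfsg.alpha M) (Cfsg.alphaCore M) ∧
      Cfsg.alphaCore M ≤ Cfsg.sigmaCore M ∧ Cfsg.RankLE 2 (↥M ⧸ Cfsg.piCore (Cfsg.alpha M) ↥M) ∧
      Group.IsNilpotent ↥((commutator ↥M).map (QuotientGroup.mk' (Cfsg.piCore (Cfsg.alpha M) ↥M))) := by
  have hn := BG.alphaCore_norm M
  have e : (alphaCore M).subgroupOf M = piCore (alpha M) M := piCoreOf_subgroupOf_self _ M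
  have := normal_subgroupOf hn
  let φ : (M ⧸ piCore (alpha M) M) ≃* quo M (alphaCore M) :=
    (QuotientGroup.quotientMulEquivOfEq e.symm).trans (quoEquiv hn)
  have hφ : ∀ x : M, ((φ (QuotientGroup.mk x) : quo M (alphaCore M)) : Quo (alphaCore M)) =
      cosetOn hn x := fun x => rfl
  refine ⟨BG.Malpha_Hall hG hM, hall_top_iff.1 (BG.Malpha_Hall_G hG hM),
    BG.Malpha_sub_Msigma hG hM, fun p hp => ?_, ?_⟩
  · exact H50.pRankLE_of_equiv φ.symm (rank_le_iff.1 (BG.Malpha_quo_rank2 hG hM) p hp)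
  · have h1 := BG.Malpha_quo_nil hG hM
    rw [← map_subtype_commutator, ← map_cosetOn hn] at h1
    have h2 : cosetOn hn = ((quo M (alphaCore M)).subtype.comp φ.toMonoidHom).comp
        (QuotientGroup.mk' _) := MonoidHom.ext fun x => (hφ x).symm
    rw [h2, ← map_map] at h1
    exact (nilpotent_map_iff (f := (quo M (alphaCore M)).subtype.comp φ.toMonoidHom)
      (fun a b hab => φ.injective (Subtype.ext hab))).1 h1

end Cfsg.Agent.S1405
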