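import Cfsg.Statements.S1407
import Mathlib
import Cfsg.Agent.BG.L10_4
import Cfsg.Agent.H50.PGroup

set_option autoImplicit false
open Cfsg

namespace Cfsg.Agent.S1407

open H49 in
theorem center_eq {G : Type*} [Group G] (M : Subgroup G) (P : Subgroup M) :
    ((Subgroup.center P).map P.subtype).map M.subtype = centerOf (P.map M.subtype) := by
  rw [H50.map_subtype_center, Subgroup.map_inf _ _ _ M.subtype_injective, H50.map_subtype_cent,
    ← inf_assoc, inf_eq_left.2 (Subgroup.map_subtype_le P)]

/-- Let G be a minimal simple group of odd order, M a maximal subgroup with M_α ≠ 1, p a prime dividing the order of M but not in σ(M), and P a Sylow p-subgroup of M. Then there is an element x of order p in the centre of P such that M_α ∩ C_G(x) has all Sylow subgroups cyclic and M is not the unique maximal subgroup of G containing C_G(x). -/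
theorem result {G : Type*} [Group G] [Finite G] (hG : Cfsg.IsMinSimpleOddOrder G)
    (M : Subgroup G) (hM : IsCoatom M) (hMα : Cfsg.alphaCore M ≠ ⊥) (p : ℕ) [Fact p.Prime] (hpM : p ∣ Nat.card M) (hp : p ∉ Cfsg.sigma M) (P : Sylow p M) :
    ∃ x : G, x ∈ ((Subgroup.center ↥(P : Subgroup M)).map (P : Subgroup M).subtype).map M.subtype ∧ orderOf x = p ∧
        IsZGroup ↥(Cfsg.alphaCore M ⊓ Subgroup.centralizer ({x} : Set G)) ∧
        ¬ (Subgroup.centralizer ({x} : Set G) ≤ M ∧ ∀ L : Subgroup G, IsCoatom L → Subgroup.centralizer ({x} : Set G) ≤ L → L = M) := by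
  have _ := hMα
  have hp' : p.Prime := Fact.out
  have hP := H49.sylowOf_map hp' P
  obtain ⟨x, hx, hxp, hU, hZ⟩ := BG.cent1_sigma'_Zgroup hG hM hp' hp hP
    (H49.Cfsg.IsPiHallOf.ne_bot hP hp' rfl hpM)
  exact ⟨x, by rw [center_eq]; exact hx, hxp, hZ, fun h => hU ⟨hM, h.1, h.2⟩⟩

end Cfsg.Agent.S1407
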