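import Cfsg.Statements.S1408
import Mathlib
import Cfsg.Agent.BG.L10_4

set_option autoImplicit false
open Cfsg

namespace Cfsg.Agent.S1408


/-- Let G be a minimal simple group of odd order, M a maximal subgroup, and p a prime not in σ(M) such that M has p-rank exactly 2. Then p is not an ideal prime for G, and every elementary abelian subgroup of M of order p ^ 2 is maximal among elementary abelian p-subgroups of G. -/
theorem result {G : Type*} [Group G] [Finite G] (hG : Cfsg.IsMinSimpleOddOrder G)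
    (M : Subgroup G) (hM : IsCoatom M) (p : ℕ) [Fact p.Prime] (hp : p ∉ Cfsg.sigma M) (hr2 : Cfsg.PRankLE p 2 M) (hr1 : ¬ Cfsg.PRankLE p 1 M) :
    ¬ Cfsg.IsIdealPrime p G ∧ ∀ A : Subgroup G, A ≤ M → Cfsg.IsElementaryAbelian p A → Nat.card A = p ^ 2 →
        ∀ B : Subgroup G, Cfsg.IsElementaryAbelian p B → A ≤ B → B = A := by
  have hp' : p.Prime := Fact.out
  have hr : H49.pRank p M = 2 :=
    le_antisymm ((H49.pRank_le_iff hp').2 hr2) ((H49.lt_pRank_iff hp').2 hr1)
  exact ⟨BG.sigma'_rank2_beta' hG hM hp' hp hr, fun A hA hAe hAc B hB hAB =>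
    (BG.sigma'_rank2_max hG hM hp' hp hr ⟨hA, hAe, hAc⟩).2.2 B le_top hB hAB⟩

end Cfsg.Agent.S1408
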