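import Cfsg.Statements.S1414
import Mathlib
import Cfsg.Agent.BG.L10_8

set_option autoImplicit false
open Cfsg

namespace Cfsg.Agent.S1414

open H49

/-- Let G be a minimal simple group of odd order, M a maximal subgroup, β(M) the set of ideal primes in α(M), and M_β = O_{β(M)}(M). Then M_β is a Hall β(M)-subgroup of M and of G; M' and M_σ each have a nilpotent Hall β(M)'-subgroup; and for each prime p dividing the order of M with p ∉ β(M), both M' and M_σ have normal p-complements and every prime dividing the index of O_{p'}(M) in M is at most p. -/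
theorem result {G : Type*} [Group G] [Finite G] (hG : Cfsg.IsMinSimpleOddOrder G)
    (M : Subgroup G) (hM : IsCoatom M) :
    Cfsg.IsPiHallOf (Cfsg.beta M) (Cfsg.piCoreOf (Cfsg.beta M) M) M ∧ Cfsg.IsPiHall (Cfsg.beta M) (Cfsg.piCoreOf (Cfsg.beta M) M) ∧
      (∃ H : Subgroup G, Cfsg.IsPiHallOf {q | q.Prime ∧ q ∉ Cfsg.beta M} H ⁅M, M⁆ ∧ Group.IsNilpotent H) ∧
      (∃ H : Subgroup G, Cfsg.IsPiHallOf {q | q.Prime ∧ q ∉ Cfsg.beta M} H (Cfsg.sigmaCore M) ∧ Group.IsNilpotent H) ∧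
      ∀ p : ℕ, p.Prime → p ∣ Nat.card M → p ∉ Cfsg.beta M →
        Cfsg.HasNormalPComplement p ↥⁅M, M⁆ ∧ Cfsg.HasNormalPComplement p ↥(Cfsg.sigmaCore M) ∧
        ∀ q : ℕ, q.Prime → q ∣ (Cfsg.pPrimeCore p ↥M).index → q ≤ p := by
  have solM := H48.ms_sol hG hM.1
  have key : ∀ K : Subgroup G, K ≤ ⁅M, M⁆ → ∃ H : Subgroup G,
      Cfsg.IsPiHallOf {q | q.Prime ∧ q ∉ Cfsg.beta M} H K ∧ Group.IsNilpotent H := by
    intro K hK
    obtain ⟨X, hX⟩ := exists_hall (solvable_of_le solM (hK.trans der_le)) (Cfsg.beta M)ᶜ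
    exact ⟨X, hX.congr fun p hp _ => ⟨fun h => ⟨hp, h⟩, fun h => h.2⟩,
      BG.beta'_der1_nil hG hM hX.pi (hX.le.trans hK)⟩
  refine ⟨BG.Mbeta_Hall hG hM, hall_top_iff.1 (BG.Mbeta_Hall_G hG hM), key _ le_rfl,
    key _ (BG.Msigma_der1 hG hM), fun p hp _ hb => ?_⟩
  obtain ⟨h1, h2, h3⟩ := BG.beta_max_pdiv hG hM hp hb
  refine ⟨(hasNormalPComplement_iff hp).2 h1, (hasNormalPComplement_iff hp).2 h2,
    fun q hq hd => h3 q hq ?_⟩
  rw [← pPrimeCore_map_subtype hp, relIndex_map_subtype_self]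
  exact hd

end Cfsg.Agent.S1414
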