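import Cfsg.Statements.S1434
import Cfsg.Agent.H47.Rows

set_option autoImplicit false
open Cfsg
open Subgroup Cfsg.Agent.H49 Cfsg.Agent.BG

namespace Cfsg.Agent.S1434

/-- Let G be a minimal simple group of odd order, M a maximal subgroup with standard factorisation M = K U M_σ, K ≠ 1, K* = M_σ ∩ C_G(K), and M* a maximal subgroup with K = M*_σ ∩ C_G(K*) and K* a Hall κ(M*)-subgroup of M*. Then κ(M) = τ₁(M); K* is a Hall σ(M)-subgroup of M*; for non-identity x ∈ K and y ∈ K*, C_M(x), C_{M*}(y) and C_G(xy) all equal K K*; the set Ẑ of elements of K K* outside K ∪ K* meets no gMg⁻¹ with g ∉ M; and with k = #K, k* = #K*, the union of the conjugates of Ẑ has k·k*·(number of elements) = (k k* − k − k* + 1)·#G and more than #G / 2 elements. -/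
theorem result {G : Type*} [Group G] [Finite G] (hG : Cfsg.IsMinSimpleOddOrder G)
    (M : Subgroup G) (hM : IsCoatom M) (K U : Subgroup G) (hKU : Cfsg.IsSigmaDecomposition M K U) (hK1 : K ≠ ⊥) (Mstar : Subgroup G) (hMstar : IsCoatom Mstar)
    (hKst : K = Cfsg.sigmaCore Mstar ⊓ Subgroup.centralizer ((Cfsg.sigmaCore M ⊓ Subgroup.centralizer (K : Set G)) : Set G))
    (hKstH : Cfsg.IsPiHallOf (Cfsg.kappa Mstar) (Cfsg.sigmaCore M ⊓ Subgroup.centralizer (K : Set G)) Mstar) :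
    Cfsg.kappa M = Cfsg.tau1 M ∧ Cfsg.IsPiHallOf (Cfsg.sigma M) (Cfsg.sigmaCore M ⊓ Subgroup.centralizer (K : Set G)) Mstar ∧
      (∀ x ∈ K, x ≠ 1 → ∀ y ∈ (Cfsg.sigmaCore M ⊓ Subgroup.centralizer (K : Set G)), y ≠ 1 →
        M ⊓ Subgroup.centralizer ({x} : Set G) = K ⊔ (Cfsg.sigmaCore M ⊓ Subgroup.centralizer (K : Set G)) ∧ Mstar ⊓ Subgroup.centralizer ({y} : Set G) = K ⊔ (Cfsg.sigmaCore M ⊓ Subgroup.centralizer (K : Set G)) ∧
        Subgroup.centralizer ({x * y} : Set G) = K ⊔ (Cfsg.sigmaCore M ⊓ Subgroup.centralizer (K : Set G))) ∧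
      (∀ g : G, g ∉ M → ∀ z ∈ ((↑(K ⊔ (Cfsg.sigmaCore M ⊓ Subgroup.centralizer (K : Set G))) : Set G) \ ((K : Set G) ∪ ↑(Cfsg.sigmaCore M ⊓ Subgroup.centralizer (K : Set G)))), z ∉ M.map (MulAut.conj g).toMonoidHom) ∧
      Nat.card K * Nat.card ↥(Cfsg.sigmaCore M ⊓ Subgroup.centralizer (K : Set G)) * Set.ncard {a : G | ∃ g : G, ∃ z ∈ ((↑(K ⊔ (Cfsg.sigmaCore M ⊓ Subgroup.centralizer (K : Set G))) : Set G) \ ((K : Set G) ∪ ↑(Cfsg.sigmaCore M ⊓ Subgroup.centralizer (K : Set G)))), a = g * z * g⁻¹} =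
        (Nat.card K * Nat.card ↥(Cfsg.sigmaCore M ⊓ Subgroup.centralizer (K : Set G)) - Nat.card K - Nat.card ↥(Cfsg.sigmaCore M ⊓ Subgroup.centralizer (K : Set G)) + 1) * Nat.card G ∧
      Nat.card G < 2 * Set.ncard {a : G | ∃ g : G, ∃ z ∈ ((↑(K ⊔ (Cfsg.sigmaCore M ⊓ Subgroup.centralizer (K : Set G))) : Set G) \ ((K : Set G) ∪ ↑(Cfsg.sigmaCore M ⊓ Subgroup.centralizer (K : Set G)))), a = g * z * g⁻¹} := by
  have hP := H47.typeP_of_dec hG hM hKU hK1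
  have hK := hKU.hall
  obtain ⟨L, -, -, h1, ⟨-, h2⟩, ⟨-, h3⟩, ⟨-, -, h4, h5, h6⟩, ⟨h7, h8, h9⟩, -⟩ :=
    Ptype_embedding hG hP hK
  obtain rfl := H47.partner_eq hG hP hK hMstar hKst hKstH h1
  have e : ∀ A : Set G, {a : G | ∃ g : G, ∃ z ∈ A, a = g * z * g⁻¹} = clSupp A ⊤ := fun A =>
    Set.ext fun a => H47.mem_clSupp_top.symm
  rw [e]
  refine ⟨h3, h2, fun x hx hx1 y hy hy1 => ⟨h4 x hx hx1, h5 y hy hy1, h6 x hx hx1 y hy hy1⟩,
    h8, ?_, h9⟩
  have hd := H47.kStar_dp hG hP hK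
  have c1 := H47.ncard_clSupp_eq h7 (H47.zHat_conj_mem hG hP hK)
  have c2 := H47.ncard_zHat hd
  have c3 := (K ⊔ kStar M K).card_mul_index
  have c4 : 0 < (zHat K (kStar M K)).ncard :=
    (Set.ncard_pos (Set.toFinite _)).2 (H47.zHat_nonempty hG hP hK)
  change Nat.card K * Nat.card (kStar M K) * (clSupp (zHat K (kStar M K)) ⊤).ncard =
    (Nat.card K * Nat.card (kStar M K) - Nat.card K - Nat.card (kStar M K) + 1) * Nat.card G
  have c5 : Nat.card K * Nat.card (kStar M K) - Nat.card K - Nat.card (kStar M K) + 1 =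
      (zHat K (kStar M K)).ncard := by omega
  rw [c5, c1, hd.card, ← c3]
  ring

end Cfsg.Agent.S1434
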