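import Cfsg.Statements.S1435
import Cfsg.Agent.BG.L14_12
import Cfsg.Agent.BG.T16_0

set_option autoImplicit false
open Cfsg

namespace Cfsg.Agent.S1435

open Subgroup _root_.Cfsg.Agent.H49 Cfsg.Agent.BG

/-- Let G be a minimal simple group of odd order, M a maximal subgroup with standard factorisation M = K U M_σ, K ≠ 1, U ≠ 1, K* = M_σ ∩ C_G(K), M* a maximal subgroup with K = M*_σ ∩ C_G(K*) and K* a Hall κ(M*)-subgroup of M*, r a prime dividing the order of U, R a Sylow r-subgroup of U, and H a maximal subgroup containing N_G(R). Then κ(H) is empty, U ≤ H_σ, M ∩ H = U ⊔ K, H ∩ N_G(U) ⊄ M, K ≤ F(H ∩ M*), and H ∩ M* is a complement to H_σ in H. -/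
theorem result {G : Type*} [Group G] [Finite G] (hG : Cfsg.IsMinSimpleOddOrder G)
    (M : Subgroup G) (hM : IsCoatom M) (K U : Subgroup G) (hKU : Cfsg.IsSigmaDecomposition M K U) (hK1 : K ≠ ⊥) (hU1 : U ≠ ⊥) (Mstar : Subgroup G) (hMstar : IsCoatom Mstar)
    (hKst : K = Cfsg.sigmaCore Mstar ⊓ Subgroup.centralizer ((Cfsg.sigmaCore M ⊓ Subgroup.centralizer (K : Set G)) : Set G))
    (hKstH : Cfsg.IsPiHallOf (Cfsg.kappa Mstar) (Cfsg.sigmaCore M ⊓ Subgroup.centralizer (K : Set G)) Mstar)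
    (r : ℕ) [Fact r.Prime] (hr : r ∣ Nat.card U) (R : Sylow r U) (H : Subgroup G) (hH : IsCoatom H)
    (hNR : Subgroup.normalizer (((R : Subgroup U).map U.subtype : Subgroup G) : Set G) ≤ H) :
    Cfsg.kappa H = ∅ ∧ U ≤ Cfsg.sigmaCore H ∧ M ⊓ H = U ⊔ K ∧ ¬ H ⊓ Subgroup.normalizer (U : Set G) ≤ M ∧
      K ≤ Cfsg.fittingOf (H ⊓ Mstar) ∧ Cfsg.IsComplIn (H ⊓ Mstar) (Cfsg.sigmaCore H) H := by
  have hK := (isSigmaDecomposition_iff hG hM).1 hKU
  have hP := (typeP_iff_kappa hG hM hK.1).1 hK1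
  have hP2 : TypeP2 M := ⟨hP, fun h => hU1 ((trivg_kappa_compl hG hM hK).2 ⟨hP, h⟩)⟩
  obtain ⟨-, ⟨hKs, -⟩, -, -, -, hg⟩ := Ptype_structure hG hP hK.1
  have hu := (Ptype_structure hG ((typeP_iff_kappa hG hMstar hKstH).1 hKs) hKstH).2.1.2 K hKst.le
    (hg hP2).2.1
  obtain ⟨h1, h2, h3, h4, h5, h6⟩ := P2type_signalizer hG hK hP2 hMstar hu.2.1 Fact.out
    (sylowOf_map Fact.out R) hH hNR
  exact ⟨h1.2, h2, h3.symm, h4, h5, (isComplIn_sigma_iff hG hH).2 h6⟩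

end Cfsg.Agent.S1435
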