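import Cfsg.Statements.S1441
import Cfsg.Agent.H50.Stable

set_option autoImplicit false
open Cfsg

namespace Cfsg.Agent.S1441

open Subgroup Cfsg.Agent.H49 Cfsg.Agent.H50


/-- Let G be a finite group, H a solvable subgroup and A a subgroup normalizing H. Suppose there is a chain H = H₀ ≥ H₁ ≥ ⋯ ≥ H_n = 1 of subgroups normal in H and normalized by A such that A acts trivially on each factor H_{i-1}/H_i (that is, [H_{i-1}, A] ≤ H_i). Then every prime dividing the index of C_A(H) in A divides the order of H. -/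
theorem result {G : Type*} [Group G] [Finite G] (H A : Subgroup G) (hH : Group.IsSolvable H) (hA : (A ≤ Subgroup.normalizer (H : Set G)))
    (n : ℕ) (c : Fin (n + 1) → Subgroup G) (hc0 : c 0 = H) (hcn : c (Fin.last n) = ⊥) (hanti : Antitone c)
    (hcN : ∀ i, H ≤ Subgroup.normalizer ((c i : Subgroup G) : Set G)) (hcA : ∀ i, A ≤ Subgroup.normalizer ((c i : Subgroup G) : Set G))
    (htriv : ∀ i : Fin n, ⁅c i.castSucc, A⁆ ≤ c i.succ) :
    ∀ p : ℕ, p.Prime → p ∣ (A ⊓ Subgroup.centralizer (H : Set G)).relIndex A → p ∣ Nat.card H := by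
  intro p hp hd
  by_contra hnd
  haveI := Fact.mk hp
  refine not_dvd_relIndex_of_sylow hp (fun P hPA hP => ?_) hd
  have hcop : (Nat.card P).Coprime (Nat.card H) :=
    (coprime_card_of_pgroup hP ((Nat.Prime.coprime_iff_not_dvd hp).2 hnd).symm).symm
  have hle : ∀ i, c i ≤ H := fun i => hc0 ▸ hanti (Fin.zero_le i)
  have key : ∀ i, P ≤ 𝒞(c i) := by
    intro i
    induction i using Fin.reverseInduction with
    | last => rw [hcn]; exact le_cent_bot P
    | cast i ih =>
      exact cent_of_stable (hPA.trans (hcA _)) (coprime_of_le hcop le_rfl (hle _))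
        (Or.inr (solvable_of_le (hle _) hH)) ih ((commutator_mono le_rfl hPA).trans (htriv i))
  rw [← hc0]; exact key 0

end Cfsg.Agent.S1441
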