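import Cfsg.Statements.S1451
import Cfsg.Agent.BG.L4_20

set_option autoImplicit false
open Cfsg

namespace Cfsg.Agent.S1451

open Subgroup Cfsg.Agent.H49 Cfsg.Agent.H50


/-- Let G be a solvable group of odd order such that G, or its Fitting subgroup, has no elementary abelian subgroup of order q ^ 3 for any prime q. Then G' is nilpotent; for every Sylow subgroup S of G, every characteristic subgroup T of S with T ≤ [S, S] is normal in G; and for every prime p, G has a characteristic subgroup that is a Hall subgroup for the set of primes greater than p. -/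
theorem result {G : Type*} [Group G] [Finite G] [Group.IsSolvable G] (hodd : Odd (Nat.card G)) (hr : Cfsg.RankLE 2 G ∨ Cfsg.RankLE 2 (Cfsg.fittingSubgroup G)) :
    Group.IsNilpotent ↥(commutator G) ∧
      (∀ (q : ℕ) [Fact q.Prime] (S : Sylow q G) (T : Subgroup ↥(S : Subgroup G)), T.Characteristic → T.map (S : Subgroup G).subtype ≤ ⁅(S : Subgroup G), (S : Subgroup G)⁆ →
        (T.map (S : Subgroup G).subtype).Normal) ∧
      ∀ p : ℕ, ∃ N : Subgroup G, N.Characteristic ∧ Cfsg.IsPiHall {q | q.Prime ∧ p < q} N := by
  have hs : Group.IsSolvable (⊤ : Subgroup G) := inferInstance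
  have ho : Odd (Nat.card (⊤ : Subgroup G)) := by rwa [card_top]
  have hr' : RankLE 2 (fittingOf (⊤ : Subgroup G)) := by
    rw [fittingOf_top]
    rcases hr with hr | hr
    · exact fun p hp => pRankLE_sub (hr p hp) _
    · exact hr
  refine ⟨H49.nilpotent_of_le (fittingOf_nil ⊤) (BG.l4_20a hs ho hr'), ?_, ?_⟩
  · intro q hq S T hT hTS
    rw [normal_iff_top_le_norm]
    exact BG.l4_20b hs ho hr' hq.out (sylowOf_top hq.out S)
      (inf_le_right.trans (norm_le_norm_of_char T)) hTS
  · intro p
    have h := BG.l4_20c hs ho hr' (p + 1)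
    refine ⟨piCoreOf {q | p + 1 ≤ q} ⊤, ?_, hall_top_iff.1 (h.congr fun q hq _ => ?_)⟩
    · rw [characteristic_iff_map_eq]
      intro φ
      rw [map_piCoreOf_of_injective φ.injective, map_top_of_surjective _ φ.surjective]
    · exact ⟨fun h => ⟨hq, h⟩, fun h => h.2⟩

end Cfsg.Agent.S1451
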