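import Cfsg.Statements.S1454
import Cfsg.Agent.BG.L4_16
import Cfsg.Agent.BG.L5_6

set_option autoImplicit false
open Cfsg

namespace Cfsg.Agent.S1454

open Subgroup Cfsg.Agent.H49 Cfsg.Agent.H50

open scoped commutatorElement

/-- Let G be a finite group, p an odd prime, R a narrow p-subgroup and A a solvable subgroup of odd order normalizing R with A ∩ C_G(R) = 1. Then [A, A] ≤ O_p(A) and the index of O_p(A) in A is coprime to p; if R has an elementary abelian subgroup of order p ^ 3 then the order of every element of A of order coprime to p divides p − 1; and if the order of A is a prime not dividing p(p − 1), then 2·#A divides p + 1, and if in addition [R, A] = R and R is non-abelian then #R = p ^ 3. -/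
theorem result {G : Type*} [Group G] [Finite G] (p : ℕ) [Fact p.Prime] (hp : p ≠ 2) (R A : Subgroup G) (hR : IsPGroup p R) (hRn : Cfsg.IsNarrow p R)
    (hA : (A ≤ Subgroup.normalizer (R : Set G))) (hAs : Group.IsSolvable A) (hAodd : Odd (Nat.card A)) (hfaith : A ⊓ Subgroup.centralizer (R : Set G) = ⊥) :
    (commutator ↥A ≤ Cfsg.pCore p ↥A ∧ ((Cfsg.pCore p ↥A).index).Coprime p) ∧
      (¬ Cfsg.PRankLE p 2 R → ∀ a ∈ A, (orderOf a).Coprime p → orderOf a ∣ p - 1) ∧
      ((Nat.card A).Prime → ¬ Nat.card A ∣ p * (p - 1) →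
        2 * Nat.card A ∣ p + 1 ∧ (⁅R, A⁆ = R → ¬ IsMulCommutative R → Nat.card R = p ^ 3)) := by
  have hpp : p.Prime := Fact.out
  obtain ⟨h1, h2⟩ := BG.l5_5 hp hR hRn hA hAodd
  have h0 : ∀ x ∈ A, x ∈ 𝒞(R) → x = 1 := fun x hx hc => mem_bot.1 (hfaith ▸ ⟨hx, hc⟩)
  have hd : ⁅A, A⁆ ≤ piCoreOf {p} A := le_piCoreOf der_le norm_der (isPi_of_isPGroup hpp
    (BG.pgroup_of_forall_coprime fun x hx hc => h0 x (der_le hx) (h1 x hx hc)))
  have hb : ¬ PRankLE p 2 R → ∀ a ∈ A, (orderOf a).Coprime p → orderOf a ∣ p - 1 :=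
    fun hr a ha hc => orderOf_dvd_of_pow_eq_one (h0 _ (pow_mem ha _) (h2 hr a ha hc))
  refine ⟨⟨?_, ?_⟩, hb, fun hq hnd => ?_⟩
  · rw [← map_subtype_le_iff, map_subtype_commutator', pCore_map_subtype hpp]
    exact hd
  · rw [← relIndex_map_subtype_self, pCore_map_subtype hpp]
    exact (isPiNat_compl_singleton_iff_coprime hpp).1 (BG.sylowOf_pcore_of_der_le hd).index
  have hqp : Nat.card A ≠ p := fun e => hnd (e ▸ dvd_mul_right _ _)
  have hcop : (Nat.card A).Coprime p := (Nat.coprime_primes hq hpp).2 hqp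
  have hnd' : ¬ Nat.card A ∣ p - 1 := fun h => hnd (h.mul_left _)
  obtain ⟨a, ha, hoa⟩ := exists_zpowers_eq_of_card_prime hq rfl
  have haA : a ∈ A := ha ▸ mem_zpowers a
  have hr : PRankLE p 2 R := by
    by_contra hr
    exact hnd' (hoa ▸ hb hr a haA (hoa ▸ hcop))
  constructor
  · refine ((BG.l4_13 hp hR hr hA hq hqp (by rw [hfaith, relIndex_bot_left])).2.2
      (fun e => hAodd.not_two_dvd_nat (e ▸ dvd_rfl))).resolve_right
      fun h => hnd' ((dvd_mul_left _ _).trans h)
  intro hRA hn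
  obtain ⟨-, h3, -, h4, h5, -⟩ := (BG.l4_16 hp hR (by rintro rfl; exact hn inferInstance) hr hA hcop
    hAodd hRA).2.resolve_left hn
  rw [← h3]
  by_contra hne
  have hlt : omegaOne p R < R := lt_of_le_of_ne (omega_le R) fun e => hne (by rw [e])
  -- the subgroup `Ω₁(R) Φ(R)` has index `p`
  have hV : omegaOne p R ⊔ frattiniOf R ≤ R := sup_le (omega_le R) (frattiniOf_le R)
  have hNV : 𝒩(R) ≤ 𝒩(omegaOne p R ⊔ frattiniOf R) :=
    norm_sup (norm_le_norm_omega R) (norm_le_norm_frattiniOf R)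
  have hRV : R ≤ 𝒩(omegaOne p R ⊔ frattiniOf R) := le_normalizer.trans hNV
  have hVR : ¬ R ≤ omegaOne p R ⊔ frattiniOf R := by
    intro h
    have : (omegaOne p R).subgroupOf R ⊔ frattini R = ⊤ := by
      apply map_injective (subtype_injective R)
      rw [Subgroup.map_sup, map_subgroupOf_eq_of_le (omega_le R), map_subtype_top]
      exact le_antisymm hV h
    exact hlt.not_ge (subgroupOf_eq_top.1 (frattini_nongenerating this))
  obtain ⟨g, hg⟩ := exists_eq_zpowers_of_cyclic h5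
  have hgR : g ∈ R := (hg ▸ mem_zpowers g : g ∈ R ⊓ 𝒞(omegaOne p R)).1
  have hi : (omegaOne p R ⊔ frattiniOf R).relIndex R = p := by
    refine relIndex_eq_p_of_le hR ?_ hVR
    have h6 : R ≤ zpowers g ⊔ (omegaOne p R ⊔ frattiniOf R) :=
      h4.ge.trans (sup_le (le_sup_of_le_right le_sup_left) (hg ▸ le_sup_left))
    rw [← card_quo hRV]
    refine (card_le_of_le ((quo_le_quo_iff' hRV (zpowers_le.2 (hRV hgR))).2 h6)).trans ?_
    rw [quo_zpowers ⟨g, hRV hgR⟩, Nat.card_zpowers]
    refine orderOf_le_of_pow_eq_one hpp.pos ?_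
    rw [← map_pow, coset_eq_one_iff]
    exact mem_sup_right (pow_mem_frattiniOf hR hgR)
  have h7 := pow_trivial_on_prime_section hRV hi (hA haA) (hNV (hA haA))
  have h8 : A ≤ zpowers (a ^ (p - 1)) := by
    rw [← ha, zpowers_le, mem_zpowers_pow_iff, hoa]
    exact ((Nat.Prime.coprime_iff_not_dvd hq).2 hnd').symm
  exact hVR (hRA.ge.trans ((commutator_mono le_rfl h8).trans (commutator_zpowers_le hRV
    (pow_mem (hA haA) _) (pow_mem (hNV (hA haA)) _) h7)))

end Cfsg.Agent.S1454
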