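import Cfsg.Statements.S1463
import Cfsg.Agent.H51.GL2Odd

set_option autoImplicit false
open scoped MatrixGroups
open Cfsg

namespace Cfsg.Agent.S1463

/-- Let F be a field of odd characteristic p and H a finite subgroup of odd order of GL(2, F) that leaves no 1-dimensional subspace of F² invariant. Then p does not divide the order of H. -/
theorem result {F : Type*} [Field F] (p : ℕ) [Fact p.Prime] [CharP F p] (hp : p ≠ 2)
    (H : Subgroup (GL (Fin 2) F)) [Finite H] (hodd : Odd (Nat.card H))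
    (hirr : ∀ v : Fin 2 → F, v ≠ 0 → ∃ g ∈ H, (g : Matrix (Fin 2) (Fin 2) F).mulVec v ∉ Submodule.span F {v}) :
    ¬ p ∣ Nat.card H := by
  intro hdvd
  let ρ : H →* Matrix (Fin 2) (Fin 2) F := (Units.coeHom _).comp H.subtype
  have hρ : Function.Injective ρ := Units.val_injective.comp Subtype.val_injective
  have hD : IsPGroup p (commutator H) := H51.gl_le_two_isPGroup_commutator hodd le_rfl ρ hρ p
  obtain ⟨g, hg⟩ := exists_prime_orderOf_dvd_card' p hdvd
  have hgP : IsPGroup p (Subgroup.zpowers g) := IsPGroup.of_card (n := 1) (by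
    rw [Nat.card_zpowers, hg, pow_one])
  obtain ⟨P, hP⟩ := hgP.exists_le_sylow
  have hgm : g ∈ (P : Subgroup H) := hP (Subgroup.mem_zpowers g)
  have hDP : commutator H ≤ P := by
    obtain ⟨Q, hQ⟩ := hD.exists_le_sylow
    obtain ⟨x, rfl⟩ := MulAction.exists_smul_eq H P Q
    intro y hy
    have := hQ ((inferInstance : (commutator H).Normal).conj_mem y hy x)
    rw [Sylow.coe_subgroup_smul, Subgroup.mem_pointwise_smul_iff_inv_smul_mem] at this
    simpa [mul_assoc] using this
  have hPn : (P : Subgroup H).Normal := Subgroup.Normal.of_commutator_le _ hDP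
  have hg1 : g ≠ 1 := by
    rintro rfl
    exact (Fact.out : p.Prime).ne_one (by simpa using hg.symm)
  have hgp : ρ g ^ p = 1 := by rw [← map_pow, ← hg, pow_orderOf_eq_one, map_one]
  have hroot : ∀ c : F, c ^ p = 1 → c = 1 := fun c hc => by
    have h2 : (c - 1) ^ p = 0 := by rw [sub_pow_char, hc, one_pow, sub_self]
    exact sub_eq_zero.mp (pow_eq_zero_iff (Fact.out : p.Prime).ne_zero |>.mp h2)
  have hns : ∀ c : F, ρ g ≠ c • (1 : Matrix (Fin 2) (Fin 2) F) := by
    intro c hc
    have h1 := hgp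
    rw [hc, smul_pow, one_pow] at h1
    have h2 : c ^ p = 1 := by simpa using congrFun (congrFun h1 0) 0
    rw [hroot c h2, one_smul] at hc
    exact hg1 (hρ (by rw [hc, map_one]))
  have hN : (ρ g - 1) ^ p = 0 := by
    rw [sub_pow_char_of_commute _ (Commute.one_right _), hgp, one_pow, sub_self]
  have hdet : (ρ g - 1).det = 0 := by
    have := congrArg Matrix.det hN
    rw [Matrix.det_pow, Matrix.det_zero] at this
    exact pow_eq_zero_iff (Fact.out : p.Prime).ne_zero |>.mp this
  obtain ⟨v, hv0, hv⟩ := Matrix.exists_mulVec_eq_zero_iff.mpr hdet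
  rw [Matrix.sub_mulVec, Matrix.one_mulVec, sub_eq_zero] at hv
  obtain ⟨h, hh, hnot⟩ := hirr v hv0
  apply hnot
  set h' : H := ⟨h, hh⟩ with hh'
  change (ρ h').mulVec v ∈ _
  have hc : h'⁻¹ * g * h'⁻¹⁻¹ ∈ (P : Subgroup H) := hPn.conj_mem g hgm h'⁻¹
  rw [inv_inv] at hc
  obtain ⟨α, β, hαβ⟩ := H51.exists_eq_of_commute_nonscalar (ρ g) (ρ (h'⁻¹ * g * h')) hns
    (by rw [← map_mul, H51.gl2_pgroup_comm hodd ρ hρ p P.isPGroup' hgm hc, map_mul])
  have h1 : (ρ (h'⁻¹ * g * h')).mulVec v = (α + β) • v := by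
    rw [hαβ, Matrix.add_mulVec, Matrix.smul_mulVec, Matrix.smul_mulVec, Matrix.one_mulVec, hv, add_smul]
  have h2 : ∀ k : ℕ, (ρ (h'⁻¹ * g * h') ^ k).mulVec v = (α + β) ^ k • v := by
    intro k
    induction k with
    | zero => simp
    | succ k ih => rw [pow_succ, ← Matrix.mulVec_mulVec, h1, Matrix.mulVec_smul, ih, smul_smul, pow_succ']
  have h3 : ρ (h'⁻¹ * g * h') ^ p = 1 := by
    have : h'⁻¹ * g * h' = h'⁻¹ * g * h'⁻¹⁻¹ := by rw [inv_inv]
    rw [← map_pow, this, conj_pow, ← hg, pow_orderOf_eq_one]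
    simp
  have h4 : (α + β) ^ p = 1 := by
    have := h2 p
    rw [h3, Matrix.one_mulVec] at this
    have h5 : ((α + β) ^ p - 1) • v = 0 := by rw [sub_smul, ← this, one_smul, sub_self]
    exact sub_eq_zero.mp ((smul_eq_zero.mp h5).resolve_right hv0)
  rw [hroot _ h4, one_smul] at h1
  have h5 : (ρ g).mulVec ((ρ h').mulVec v) = (ρ h').mulVec v := by
    conv_rhs => rw [← h1]
    rw [Matrix.mulVec_mulVec, Matrix.mulVec_mulVec, ← map_mul, ← map_mul]
    congr 2
    group
  generalize (ρ h').mulVec v = w at h5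
  generalize ρ g = a at hv h5 hns
  rw [Submodule.mem_span_singleton]
  have e0 := congrFun hv 0
  have e1 := congrFun hv 1
  have f0 := congrFun h5 0
  have f1 := congrFun h5 1
  simp only [Matrix.mulVec, dotProduct, Fin.sum_univ_two] at e0 e1 f0 f1
  have hD : v 0 * w 1 - v 1 * w 0 = 0 := by
    by_contra hD
    apply hns 1
    ext i j
    fin_cases i <;> fin_cases j <;> simp <;> apply mul_left_cancel₀ hD
    · linear_combination w 1 * e0 - v 1 * f0
    · linear_combination v 0 * f0 - w 0 * e0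
    · linear_combination w 1 * e1 - v 1 * f1
    · linear_combination v 0 * f1 - w 0 * e1
  by_cases v0 : v 0 = 0
  · have v1 : v 1 ≠ 0 := by
      intro v1
      apply hv0
      ext i
      fin_cases i <;> simp [v0, v1]
    refine ⟨w 1 / v 1, ?_⟩
    ext i
    fin_cases i <;> simp
    · rw [v0] at hD ⊢
      apply mul_left_cancel₀ v1
      linear_combination hD
    · field_simp
  · refine ⟨w 0 / v 0, ?_⟩
    ext i
    fin_cases i <;> simp
    · field_simp
    · field_simp
      linear_combination -hD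

end Cfsg.Agent.S1463
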