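import Cfsg.Statements.S1465
import Cfsg.Agent.H51.PStable

set_option autoImplicit false
open Cfsg

namespace Cfsg.Agent.S1465

/-- Let p be an odd prime, G a solvable group of odd order, P a normal p-subgroup of G, and X the subgroup generated by a family of abelian p-subgroups of G each normalized by P. Then the image of X in G/C_G(P) lies in O_p(G/C_G(P)); and if O_{p'}(G) = 1 and O_p(G) ∩ C_G(P) ≤ P then X ≤ O_p(G). -/
theorem result {G : Type*} [Group G] [Finite G] [Group.IsSolvable G] (hodd : Odd (Nat.card G)) (p : ℕ) [Fact p.Prime] (hp : p ≠ 2) (P : Subgroup G) [P.Normal] (hP : IsPGroup p P)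
    (S : Set (Subgroup G)) (hS : ∀ B ∈ S, IsMulCommutative B ∧ IsPGroup p B ∧ P ≤ Subgroup.normalizer (B : Set G)) :
    (sSup S).map (QuotientGroup.mk' (Subgroup.centralizer (P : Set G))) ≤ Cfsg.pCore p (G ⧸ Subgroup.centralizer (P : Set G)) ∧
      (Cfsg.pPrimeCore p G = ⊥ → Cfsg.pCore p G ⊓ Subgroup.centralizer (P : Set G) ≤ P → sSup S ≤ Cfsg.pCore p G) := by
  refine ⟨?_, fun hO hC => sSup_le fun B hB =>
    H51.abelian_le_pCore_of_constrained hodd hO P hP hC (hS B hB).1 (hS B hB).2.2⟩
  rw [Subgroup.map_le_iff_le_comap]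
  refine sSup_le fun B hB => ?_
  rw [← Subgroup.map_le_iff_le_comap]
  exact H51.quadratic_map_le_pCore hodd P hP _ (QuotientGroup.mk'_surjective _)
    (by rw [QuotientGroup.ker_mk']) (H51.quadratic_of_abelian (hS B hB).1 (hS B hB).2.2)

end Cfsg.Agent.S1465
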