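import Cfsg.Statements.S1466
import Cfsg.Agent.H51.Puig

set_option autoImplicit false
open Cfsg

namespace Cfsg.Agent.S1466

/-- Let p be a prime and R a nontrivial finite p-group. Then for every i > 0, Z(R) ≤ C_R(L_i(R)) ≤ L_i(R); likewise Z(R) ≤ C_R(L_*(R)) ≤ L_*(R) and Z(R) ≤ C_R(L(R)) ≤ L(R); and L(R) ≠ 1, L_*(R) ≠ 1. -/
theorem result {R : Type*} [Group R] [Finite R] (p : ℕ) [Fact p.Prime] (hR : IsPGroup p R) [Nontrivial R] :
    (∀ i : ℕ, 0 < i → Subgroup.center R ≤ Subgroup.centralizer ((Cfsg.puigSeq R i : Subgroup R) : Set R) ∧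
        Subgroup.centralizer ((Cfsg.puigSeq R i : Subgroup R) : Set R) ≤ Cfsg.puigSeq R i) ∧
      (Subgroup.center R ≤ Subgroup.centralizer ((Cfsg.puigLower R : Subgroup R) : Set R) ∧ Subgroup.centralizer ((Cfsg.puigLower R : Subgroup R) : Set R) ≤ Cfsg.puigLower R) ∧
      (Subgroup.center R ≤ Subgroup.centralizer ((Cfsg.puigSubgroup R : Subgroup R) : Set R) ∧ Subgroup.centralizer ((Cfsg.puigSubgroup R : Subgroup R) : Set R) ≤ Cfsg.puigSubgroup R) ∧
      Cfsg.puigSubgroup R ≠ ⊥ ∧ Cfsg.puigLower R ≠ ⊥ := by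
  have hn : Group.IsNilpotent (⊤ : Subgroup R) := (hR.to_subgroup ⊤).isNilpotent
  have h1 := H51.cent_puigLowerOf_le hn
  have h2 := H51.cent_puigOf_le hn
  rw [top_inf_eq, H51.puigLowerOf_top] at h1
  rw [top_inf_eq, H51.puigOf_top] at h2
  have hZ : Subgroup.center R ≠ ⊥ := by
    have := hR.center_nontrivial
    exact (Subgroup.nontrivial_iff_ne_bot _).mp this
  refine ⟨fun i hi => ⟨Subgroup.center_le_centralizer _, ?_⟩, ⟨Subgroup.center_le_centralizer _, h1⟩,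
    ⟨Subgroup.center_le_centralizer _, h2⟩,
    H49.ne_bot_mono ((Subgroup.center_le_centralizer _).trans h2) hZ,
    H49.ne_bot_mono ((Subgroup.center_le_centralizer _).trans h1) hZ⟩
  have h3 := H51.cent_puigSeqOf_le hn hi
  rwa [top_inf_eq, H51.puigSeqOf_top] at h3

end Cfsg.Agent.S1466
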