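import Cfsg.Statements.S1471
import Cfsg.Agent.H51.AppCField

set_option autoImplicit false
open Cfsg

namespace Cfsg.Agent.S1471

theorem norm_iff (p q : ℕ) [Fact p.Prime] [Fact q.Prime] (a : GaloisField p q) :
    Algebra.norm (ZMod p) a = 1 ↔ a ^ (∑ i ∈ Finset.range q, p ^ i) = 1 := by
  have hp : p.Prime := Fact.out
  have hq : q.Prime := Fact.out
  rw [← (algebraMap (ZMod p) (GaloisField p q)).injective.eq_iff,
    FiniteField.algebraMap_norm_eq_pow, map_one, GaloisField.card p q hq.ne_zero, Nat.card_zmod,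
    Nat.geomSum_eq hp.two_le]


/-- Let p and q be odd primes with (p^q − 1)/(p − 1) coprime to p − 1. Then there are at least two elements a of the field with p ^ q elements such that both a and 2 − a have norm 1 to the prime field. -/
theorem result (p q : ℕ) [Fact p.Prime] [Fact q.Prime] (hp : p ≠ 2) (hq : q ≠ 2) (hA : Nat.Coprime ((p ^ q - 1) / (p - 1)) (p - 1)) :
    2 ≤ Set.ncard {a : GaloisField p q | Algebra.norm (ZMod p) a = 1 ∧ Algebra.norm (ZMod p) (2 - a) = 1} := by
  have hq' : q.Prime := Fact.out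
  have := Fintype.ofFinite (GaloisField p q)
  obtain ⟨a, ha, h1, h2⟩ := H51.appC2 (F := GaloisField p q) hp hq' hq
    (by rw [← Nat.card_eq_fintype_card, GaloisField.card p q hq'.ne_zero])
  refine (Set.one_lt_ncard (Set.toFinite _)).mpr ⟨a, ?_, 1, ?_, ha⟩
  · exact ⟨(norm_iff p q _).mpr h1, (norm_iff p q _).mpr h2⟩
  · refine ⟨map_one _, ?_⟩
    rw [show (2 - 1 : GaloisField p q) = 1 by norm_num, map_one]

end Cfsg.Agent.S1471
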