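import Cfsg.Statements.S1474
import Cfsg.Agent.H51.CN2

set_option autoImplicit false
open Cfsg

namespace Cfsg.Agent.S1474

/-- Let G be a finite group in which every non-identity element has nilpotent centralizer, not itself nilpotent, and having a nontrivial normal Sylow p-subgroup for some prime p. Let H be the largest normal nilpotent Hall subgroup of G. Then H is a nontrivial proper normal subgroup with a complement E that is a Frobenius complement in G (no non-identity element of E centralizes a non-identity element of H), and G/H is nilpotent. -/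
theorem result {G : Type*} [Group G] [Finite G] (hCN : Cfsg.IsCNGroup G) (hnn : ¬ Group.IsNilpotent G) (p : ℕ) [Fact p.Prime] (P : Sylow p G)
    (hP1 : (P : Subgroup G) ≠ ⊥) (hPn : (P : Subgroup G).Normal) :
    Cfsg.fittingHall G ≠ ⊥ ∧ Cfsg.fittingHall G ≠ ⊤ ∧
      (∃ E : Subgroup G, Subgroup.IsComplement' (Cfsg.fittingHall G) E ∧ Cfsg.IsFrobeniusComplement E ∧
        ∀ e ∈ E, e ≠ 1 → Cfsg.fittingHall G ⊓ Subgroup.centralizer ({e} : Set G) = ⊥) ∧
      Group.IsNilpotent (G ⧸ Cfsg.fittingHall G) := by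
  have hp : p.Prime := Fact.out
  have hn : ¬ Group.IsNilpotent (⊤ : Subgroup G) := fun h =>
    hnn (Group.nilpotent_of_mulEquiv Subgroup.topEquiv)
  have hS := H49.sylowOf_top hp P
  have h1 : fittingHallOf (⊤ : Subgroup G) ≠ ⊥ := H49.ne_bot_mono
    (H51.fcore_max (H49.Cfsg.IsPiHallOf.isHallOf hS) (H49.normal_iff_top_le_norm.mp hPn) (H49.Cfsg.IsPiHallOf.pi hS).nilpotent) hP1
  obtain ⟨E, hE, hEn⟩ := H51.cn_frobenius hCN hn h1
  obtain ⟨-, hc, hF⟩ := H51.isFrobeniusComplement_of_isFrob_top hE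
  have hnil := H51.fcore_nil (⊤ : Subgroup G)
  rw [H51.fcore_top] at h1 hE hc hnil
  refine ⟨h1, fun h => hn (h ▸ hnil), ⟨E, hc, hF, hE.2.2.2⟩, ?_⟩
  exact Group.nilpotent_of_mulEquiv hc.symm.QuotientMulEquiv.symm

end Cfsg.Agent.S1474
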