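import Cfsg.Statements.S1475
import Cfsg.Agent.H51.CN

set_option autoImplicit false
open Cfsg

namespace Cfsg.Agent.S1475

open H49 Subgroup in
theorem aux (n : ℕ) : ∀ (G : Type*) [Group G] [Finite G] [Group.IsSolvable G],
    (∀ g : G, IsPrimePow (orderOf g) ∨ g = 1) → Nat.card G = n →
      (Nat.card G).primeFactors.card ≤ 2 := by
  induction n using Nat.strong_induction_on with
  | _ n ih =>
    intro G _ _ _ h hn
    have key : ∀ x y : G, (orderOf x).Prime → (orderOf y).Prime → x * y = y * x →
        orderOf x = orderOf y := by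
      intro x y hx hy hc
      by_contra hne
      have hcop := (Nat.coprime_primes hx hy).mpr hne
      have ho := Commute.orderOf_mul_eq_mul_orderOf_of_coprime hc hcop
      rcases h (x * y) with h1 | h1
      · rw [ho] at h1
        rcases (hcop.isPrimePow_dvd_mul h1).mp dvd_rfl with h2 | h2
        · exact hy.one_lt.ne'
            (Nat.eq_one_of_dvd_one ((Nat.mul_dvd_mul_iff_left hx.pos).mp (by simpa using h2)))
        · exact hx.one_lt.ne'
            (Nat.eq_one_of_dvd_one ((Nat.mul_dvd_mul_iff_right hy.pos).mp (by simpa using h2)))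
      · rw [h1, orderOf_one] at ho
        exact hx.one_lt.ne' (Nat.eq_one_of_mul_eq_one_right ho.symm)
    by_cases h1 : (⊤ : Subgroup G) = ⊥
    · rw [← card_top, h1]; simp
    obtain ⟨p, hp, hN⟩ := H51.exists_pcore_ne_bot inferInstance h1
    set N := piCoreOf {p} (⊤ : Subgroup G) with hNdef
    have hNp : IsPi {p} N := piCoreOf_pi _ _
    have : N.Normal := normal_iff_top_le_norm.mpr (le_norm_piCoreOf _ _)
    obtain ⟨k, hk⟩ := hNp.exists_card_eq_pow hp
    have hsub : (Nat.card G).primeFactors ⊆ insert p N.index.primeFactors := by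
      intro r hr
      obtain ⟨hr, hd, -⟩ := Nat.mem_primeFactors.mp hr
      rw [← N.card_mul_index, hr.dvd_mul] at hd
      rcases hd with hd | hd
      · exact Finset.mem_insert.mpr (Or.inl (hNp r hr hd))
      · exact Finset.mem_insert_of_mem (Nat.mem_primeFactors.mpr ⟨hr, hd, index_ne_zero_of_finite⟩)
    refine (Finset.card_le_card hsub).trans ?_
    by_cases hpi : p ∣ N.index
    · rw [Finset.insert_eq_of_mem (Nat.mem_primeFactors.mpr ⟨hp, hpi, index_ne_zero_of_finite⟩)]
      refine ih _ ?_ (G ⧸ N) (fun g => ?_) rfl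
      · rw [← hn, ← N.card_mul_index]
        exact lt_mul_of_one_lt_left (Nat.pos_of_ne_zero index_ne_zero_of_finite)
          ((one_lt_card_iff_ne_bot N).mpr hN)
      · obtain ⟨g, rfl⟩ := QuotientGroup.mk'_surjective N g
        rcases h g with h2 | rfl
        · by_cases h3 : orderOf (QuotientGroup.mk' N g) = 1
          · exact Or.inr (orderOf_eq_one_iff.mp h3)
          · exact Or.inl (h2.dvd (orderOf_map_dvd _ _) h3)
        · exact Or.inr (map_one _)
    refine (Finset.card_insert_le _ _).trans (Nat.succ_le_succ ?_)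
    have hNh : IsPiHallOf {p} N ⊤ :=
      hall_mk le_top hNp (by rwa [relIndex_top_right, isPiNat_compl_singleton hp])
    obtain ⟨K, hK⟩ := exists_compl_of_coprime le_top le_normalizer_of_normal hNh.coprime
    have hKp := (hNh.compl_of_isComplIn hK.isComplIn).pi
    have hr : Semiregular N K := by
      intro a₀ ha₀ ha₀1
      by_contra hne
      obtain ⟨a, ha, hap⟩ := H51.exists_prime_pow ha₀1
      obtain ⟨x, hx, hxo⟩ := exists_orderOf_eq_of_dvd_card hp ((hNp.inf_left _).dvd_card hne)
      have := key x a (hxo ▸ hp) hap (mem_cent1.mp (H51.cent1_le_of_mem_zpowers ha hx.2))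
      exact hKp _ hap (orderOf_dvd_natCard K (zpowers_le.mpr ha₀ ha)) (by rw [← this, hxo]; rfl)
    rw [← relIndex_top_right, hK.relIndex_left]
    by_cases hK1 : K = ⊥
    · simp [hK1]
    have hF := center_ne_bot_of_nilpotent (fittingOf_nil K) (fittingOf_ne_bot inferInstance hK1)
    have hFK : fittingOf K ⊓ 𝒞(fittingOf K) ≤ K := inf_le_left.trans (fittingOf_le K)
    have hc : IsCyclic ↥(fittingOf K ⊓ 𝒞(fittingOf K)) := H2.isCyclic_of_fpf_of_comm
      (abelian_iff.mpr (inf_le_right.trans (cent_anti inf_le_left))) hN le_normalizer_of_normal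
      fun a ha => hr a (hFK ha)
    obtain ⟨q, hq, hd⟩ := exists_prime_dvd_card hF
    obtain ⟨y, hy, hyo⟩ := exists_orderOf_eq_of_dvd_card hq hd
    have hyn : K ≤ 𝒩(zpowers y) := H83.norm_of_cyclic hc (zpowers_le.mpr hy)
      (norm_inf (le_norm_fittingOf K) (norm_cent (le_norm_fittingOf K)))
    refine Finset.card_le_one_iff_subset_singleton.mpr ⟨q, fun r hr' => ?_⟩
    obtain ⟨hr', hd', -⟩ := Nat.mem_primeFactors.mp hr'
    obtain ⟨x, hx, hxo⟩ := exists_orderOf_eq_of_dvd_card hr' hd'
    have := key x y (hxo ▸ hr') (hyo ▸ hq) (H2.commute_of_fpf hN le_normalizer_of_normal hr hx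
      (hFK hy) (hxo ▸ hr') (hyo ▸ hq) (hyn hx))
    rw [Finset.mem_singleton, ← hxo, this, hyo]


/-- Let G be a finite solvable group such that the order of every element is a prime power (1 included). Then at most two distinct primes divide the order of G. -/
theorem result {G : Type*} [Group G] [Finite G] [Group.IsSolvable G] (h : ∀ g : G, IsPrimePow (orderOf g) ∨ g = 1) :
    (Nat.card G).primeFactors.card ≤ 2 := by
  exact aux _ G h rfl

end Cfsg.Agent.S1475
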