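import Cfsg.Statements.S1478
import Cfsg.Agent.H51.CN3

set_option autoImplicit false
open Cfsg

namespace Cfsg.Agent.S1478

/-- Let G be a minimal simple group of odd order in which every non-identity element has nilpotent centralizer. Then no subgroup of G is a three-step group with respect to any prime. -/
theorem result {G : Type*} [Group G] [Finite G] (hG : Cfsg.IsMinSimpleOddOrder G) (hCN : Cfsg.IsCNGroup G) :
    ∀ (H : Subgroup G) (p : ℕ), ¬ Cfsg.IsThreeStepGroup p ↥H := by
  intro H p
  by_cases hH : H = ⊤
  · subst hH
    rintro ⟨h1, A, -, -, -, -, -, h2, -⟩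
    have := hG.2.1
    have : IsSimpleGroup (⊤ : Subgroup G) := Subgroup.topEquiv.isSimpleGroup
    have hn : (pCore p (⊤ : Subgroup G)).Normal := Subgroup.sSup_normal _ fun _ h => h.1
    exact h2 (by rw [hn.eq_bot_or_eq_top.resolve_left h1, top_sup_eq])
  · apply H51.not_three_step_of_der_nil
    rw [← H49.nilpotent_map_iff H.subtype_injective, Subgroup.map_commutator, H49.map_subtype_top]
    exact H51.der_nil_of_ne_top hG hCN hH

end Cfsg.Agent.S1478
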