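import Cfsg.Statements.S1483
import Cfsg.Agent.H51.CN3

set_option autoImplicit false
open Cfsg

namespace Cfsg.Agent.S1483

/-- Let G be a minimal simple group of odd order in which every non-identity element has nilpotent centralizer. Then any two nilpotent subgroups each contained in no larger nilpotent subgroup are either conjugate or of coprime orders; and for primes p, q, r: if some elements x, y ≠ 1 of p-power and q-power order commute, and some elements y', z ≠ 1 of q-power and r-power order commute, then some elements of p-power and r-power order, both ≠ 1, commute. -/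
theorem result {G : Type*} [Group G] [Finite G] (hG : Cfsg.IsMinSimpleOddOrder G) (hCN : Cfsg.IsCNGroup G) :
    (∀ H₁ H₂ : Subgroup G, (Group.IsNilpotent ↥H₁ ∧ ∀ L : Subgroup G, Group.IsNilpotent L → H₁ ≤ L → L = H₁) → (Group.IsNilpotent ↥H₂ ∧ ∀ L : Subgroup G, Group.IsNilpotent L → H₂ ≤ L → L = H₂) → (∃ g : G, H₂ = H₁.map (MulAut.conj g).toMonoidHom) ∨ (Nat.card H₁).Coprime (Nat.card H₂)) ∧
      ∀ (p q r : ℕ), p.Prime → q.Prime → r.Prime → ∀ (x y y' z : G), x ≠ 1 → y ≠ 1 → y' ≠ 1 → z ≠ 1 →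
        IsPGroup p (Subgroup.zpowers x) → IsPGroup q (Subgroup.zpowers y) → IsPGroup q (Subgroup.zpowers y') → IsPGroup r (Subgroup.zpowers z) →
        x * y = y * x → y' * z = z * y' →
        ∃ x' z' : G, x' ≠ 1 ∧ z' ≠ 1 ∧ IsPGroup p (Subgroup.zpowers x') ∧ IsPGroup r (Subgroup.zpowers z') ∧ x' * z' = z' * x' := by
  refine ⟨fun H₁ H₂ h₁ h₂ => H51.MaxNil.conj_or_coprime hG hCN h₁ h₂, ?_⟩
  intro p q r hp hq hr x y y' z hx hy hy' hz px py py' pz c1 c2
  by_cases hpq : p = q
  · exact ⟨y', z, hy', hz, hpq ▸ py', pz, c2⟩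
  by_cases hqr : q = r
  · exact ⟨x, y, hx, hy, px, hqr ▸ py, c1⟩
  by_cases hpr : p = r
  · exact ⟨x, x, hx, hx, px, hpr ▸ px, rfl⟩
  replace px := H49.isPi_of_isPGroup hp px
  replace py := H49.isPi_of_isPGroup hq py
  replace py' := H49.isPi_of_isPGroup hq py'
  replace pz := H49.isPi_of_isPGroup hr pz
  obtain ⟨Q, hQ, hle⟩ := H49.exists_sylowOf_ge py le_top
  have hQp : H49.IsPi {q} Q := hQ.2.1
  obtain ⟨g, -, hg⟩ := H49.sylowOf_subJ hQ le_top py'
  rw [H49.cj_zpowers, Subgroup.zpowers_le] at hg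
  have pz' := pz.cj g
  rw [H49.cj_zpowers] at pz'
  have h1 := H51.cn_cent hCN hQp.nilpotent hg (by simpa using hy') (Y := Subgroup.zpowers (g * z * g⁻¹))
    (Subgroup.zpowers_le.mpr (H49.mem_cent1.mpr (by simp only [conj_mul, c2])))
    (pz'.coprime (hQp.compl_singleton_of_ne hqr))
  have h2 := H49.nilpotent_cent (hCN y hy) (Subgroup.zpowers_le.mpr (H49.mem_cent1.mpr c1))
    (h1.trans (H49.cent_le_cent1 (Subgroup.zpowers_le.mp hle))) px
    (pz'.compl_singleton_of_ne (Ne.symm hpr))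
  rw [H49.cent_zpowers, Subgroup.zpowers_le, H49.mem_cent1] at h2
  exact ⟨x, _, hx, by simpa using hz, px.isPGroup hp, pz'.isPGroup hr, h2⟩

end Cfsg.Agent.S1483
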