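import Cfsg.Statements.S1484
import Cfsg.Agent.H51.CN3

set_option autoImplicit false
open Cfsg

namespace Cfsg.Agent.S1484

/-- Let G be a minimal simple group of odd order in which every non-identity element has nilpotent centralizer, and M₁, …, M_k maximal subgroups, pairwise non-conjugate, such that every maximal subgroup is conjugate to some M_i. Let H_i be the largest normal nilpotent Hall subgroup of M_i. Then the orders of the H_i are pairwise coprime, their product is the order of G, and every element of G is conjugate to an element of some H_i. -/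
theorem result {G : Type*} [Group G] [Finite G] (hG : Cfsg.IsMinSimpleOddOrder G) (hCN : Cfsg.IsCNGroup G) (k : ℕ) (Mrep : Fin k → Subgroup G) (hmax : ∀ i, IsCoatom (Mrep i))
    (hnc : ∀ i j, i ≠ j → ∀ g : G, Mrep j ≠ (Mrep i).map (MulAut.conj g).toMonoidHom) (hall : ∀ M : Subgroup G, IsCoatom M → ∃ i, ∃ g : G, M = (Mrep i).map (MulAut.conj g).toMonoidHom) :
    (∀ i j, i ≠ j → (Nat.card (Cfsg.fittingHallOf (Mrep i))).Coprime (Nat.card (Cfsg.fittingHallOf (Mrep j)))) ∧
      ∏ i, Nat.card (Cfsg.fittingHallOf (Mrep i)) = Nat.card G ∧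
      ∀ x : G, ∃ i, ∃ g : G, g * x * g⁻¹ ∈ Cfsg.fittingHallOf (Mrep i) := by
  classical
  choose K hK hKM using fun i => H51.exists_maxNil_of_coatom hG hCN (hmax i)
  have hF : ∀ i, fittingHallOf (Mrep i) = K i := fun i => hKM i ▸ (hK i).fcore_norm hCN
  simp only [hF]
  have hcop : ∀ i j, i ≠ j → (Nat.card (K i)).Coprime (Nat.card (K j)) := by
    intro i j hij
    refine ((hK i).conj_or_coprime hG hCN (hK j)).resolve_left ?_
    rintro ⟨g, hg⟩
    exact hnc i j hij g (by rw [← hKM, ← hKM, hg, ← H49.cj_normalizer]; rfl)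
  have hcov : ∀ A : Subgroup G, Group.IsNilpotent A → ∃ i g, A ≤ H49.cj g (K i) := by
    intro A hA
    obtain ⟨L, hL, hle⟩ := H51.exists_maxNil_ge hA
    obtain ⟨i, g, e⟩ := hall _ (hL.coatom_norm hG hCN)
    refine ⟨i, g, hle.trans (le_of_eq ?_)⟩
    rw [← hL.fcore_norm hCN, ← ((hK i).cj g).fcore_norm hCN, e, ← H49.cj_normalizer, hKM]
    rfl
  refine ⟨hcop, Nat.dvd_antisymm ?_ ?_, fun x => ?_⟩
  · exact Fintype.prod_dvd_of_isRelPrime
      (fun i j hij => Nat.coprime_iff_isRelPrime.mp (hcop i j hij))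
      fun i => Subgroup.card_subgroup_dvd_card _
  · rw [Nat.dvd_iff_prime_pow_dvd_dvd]
    intro p n hp hd
    have := Fact.mk hp
    obtain ⟨A, hA⟩ := Sylow.exists_subgroup_card_pow_prime p hd
    obtain ⟨i, g, hle⟩ := hcov A (IsPGroup.of_card hA).isNilpotent
    have := Subgroup.card_dvd_of_le hle
    rw [hA, H49.card_cj] at this
    exact this.trans (Finset.dvd_prod_of_mem (fun i => Nat.card (K i)) (Finset.mem_univ i))
  · obtain ⟨i, g, hle⟩ := hcov (Subgroup.zpowers x) (H49.nilpotent_of_abelian inferInstance)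
    exact ⟨i, g⁻¹, by simpa using H49.mem_cj.mp (Subgroup.zpowers_le.mp hle)⟩

end Cfsg.Agent.S1484
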