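import Cfsg.Statements.S1487
import Cfsg.Agent.H6.Clifford
import Cfsg.Agent.H5.Linear

set_option autoImplicit false
open Cfsg

namespace Cfsg.Agent.S1487

/-- Let A ≤ H be normal subgroups of the finite group G and θ an irreducible character of H. Then θ takes the value θ 1 on all of A if and only if the function induced from θ to G takes its value at 1 on all of A. -/
theorem result {G : Type*} [Group G] [Fintype G] (A H : Subgroup G) [A.Normal] [H.Normal] (hAH : A ≤ H) (θ : H → ℂ) (hθ : Cfsg.IsIrrCharacter H θ) : (∀ a : H, (a : G) ∈ A → θ a = θ 1) ↔ (∀ a : G, a ∈ A → Cfsg.indFun H θ a = Cfsg.indFun H θ 1) := by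
  classical
  have hH : H.Normal := inferInstance
  have hA : A.Normal := inferInstance
  constructor
  · intro h a ha
    have h1 := H6.indFun_normal_coe H hH θ ⟨a, hAH ha⟩
    have h2 := H6.indFun_normal_coe H hH θ 1
    simp only [OneMemClass.coe_one] at h1 h2
    rw [h1, h2]
    congr 1
    refine Finset.sum_congr rfl fun x _ => ?_
    rw [h _ (hA.conj_mem a ha x), h ⟨x * 1 * x⁻¹, _⟩ (by simp)]
  · intro h a ha
    have hc := H5.isCharacter_restrict (H6.isCharacter_indFun H (H5.isCharacter_of_isIrr hθ)) H
    refine H5.apply_eq_degree_of_constituent hc hθ ?_ (h a ha)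
    rw [← H6.classInner_indFun_right H θ (H6.indFun_isClassFunction H θ)]
    intro h0
    have := H6.card_mul_classInner_indFun_normal_self H hθ
    rw [h0, mul_zero] at this
    exact H6.card_ne_zero_complex _ this.symm

end Cfsg.Agent.S1487
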