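import Cfsg.Statements.S1493
import Cfsg.Agent.H7.Galois
import Cfsg.Agent.H7.AutC

set_option autoImplicit false
open Cfsg

namespace Cfsg.Agent.S1493

/-- Let G be a finite group of order a * b with a and b coprime, let k be coprime to a, and let χ be a character of G. Then there is a character χ' of G such that χ'(g) = χ(g ^ k) whenever the order of g divides a and χ'(g) = χ(g) whenever the order of g is coprime to a; moreover χ' is irreducible if χ is. -/
theorem result {G : Type*} [Group G] [Finite G] (a b k : ℕ) (hab : Nat.card G = a * b) (hcop : Nat.Coprime a b) (hk : Nat.Coprime k a) (χ : G → ℂ) (hχ : Cfsg.IsCharacter G χ) : ∃ χ' : G → ℂ, Cfsg.IsCharacter G χ' ∧ (Cfsg.IsIrrCharacter G χ → Cfsg.IsIrrCharacter G χ') ∧ (∀ g : G, orderOf g ∣ a → χ' g = χ (g ^ k)) ∧ (∀ g : G, Nat.Coprime (orderOf g) a → χ' g = χ g) := by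
  have hG : a * b ≠ 0 := hab ▸ Nat.card_pos.ne'
  obtain ⟨τ, h1, h2⟩ := H7.exists_ringEquiv_pow_fix (left_ne_zero_of_mul hG)
    (right_ne_zero_of_mul hG) hcop hk
  refine ⟨fun g => τ (χ g), H7.isCharacter_ringEquiv τ hχ, H7.isIrrCharacter_ringEquiv τ,
    fun g hg => ?_, fun g hg => ?_⟩
  · exact H7.ringHom_apply_character τ.toRingHom h1 hχ (orderOf_dvd_iff_pow_eq_one.1 hg)
  · have h3 : orderOf g ∣ b := hg.dvd_of_dvd_mul_left (hab ▸ orderOf_dvd_natCard g)
    have := H7.ringHom_apply_character τ.toRingHom (m := 1) (n := b)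
      (fun z hz => by rw [pow_one]; exact h2 z hz) hχ (orderOf_dvd_iff_pow_eq_one.1 h3)
    rwa [pow_one] at this

end Cfsg.Agent.S1493
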