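import Cfsg.Statements.S1497
import Cfsg.Agent.H52.Dade1

set_option autoImplicit false
open Cfsg

namespace Cfsg.Agent.S1497

/-- Let A be a nonempty subset of the finite group G not containing 1 and L a subgroup. Then A is a TI-subset whose normaliser is L if and only if the Dade hypothesis holds for A, L and the constant choice H(a) = ⊥. -/
theorem result {G : Type*} [Group G] [Finite G] (A : Set G) (hA : A.Nonempty) (h1 : (1 : G) ∉ A) (L : Subgroup G) : (Cfsg.IsTISubset A ∧ Subgroup.normalizer A = L) ↔ Cfsg.DadeHypothesis A L (fun _ => ⊥) := by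
  constructor
  · rintro ⟨hTI, rfl⟩
    refine H52.dade_of_TI h1 (fun x hx a ha => (Subgroup.mem_set_normalizer_iff.1 hx a).1 ha)
      (fun a ha g hg => ?_) (fun _ _ => rfl)
    by_contra hn
    exact h1 (hTI g hn a ha hg ▸ ha)
  · intro hD
    have hN : Subgroup.normalizer A = L := by
      apply le_antisymm
      · intro g hg
        obtain ⟨a, ha⟩ := hA
        exact H52.TI_of_dade hD (fun _ _ => rfl) ha ((Subgroup.mem_set_normalizer_iff.1 hg a).1 ha)
      · intro x hx
        refine Subgroup.mem_set_normalizer_iff.2 fun a => ⟨hD.conj_mem x hx a, fun h => ?_⟩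
        have := hD.conj_mem x⁻¹ (L.inv_mem hx) _ h
        simpa [mul_assoc] using this
    refine ⟨fun g hg a ha hga => ?_, hN⟩
    exact absurd (hN ▸ H52.TI_of_dade hD (fun _ _ => rfl) ha hga) hg

end Cfsg.Agent.S1497
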