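import Cfsg.Statements.S1499
import Cfsg.Agent.H52.Dade1

set_option autoImplicit false
open Cfsg

namespace Cfsg.Agent.S1499

/-- Under the Dade hypothesis for (A, L, H), let a, b ∈ A. If an element of the coset a·H(a) is conjugate in G to an element of b·H(b), then a and b are conjugate by an element of L. Moreover the set normaliser of the coset a·H(a) is the centraliser of a. -/
theorem result {G : Type*} [Group G] [Finite G] (A : Set G) (L : Subgroup G) (H : G → Subgroup G) (hD : Cfsg.DadeHypothesis A L H) (a b : G) (ha : a ∈ A) (hb : b ∈ A) : ((∃ u ∈ H a, ∃ v ∈ H b, ∃ g : G, g * (a * u) * g⁻¹ = b * v) → ∃ x ∈ L, x * a * x⁻¹ = b) ∧ Subgroup.normalizer ((fun u : G => a * u) '' (H a : Set G)) = Subgroup.centralizer ({a} : Set G) := by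
  refine ⟨fun ⟨u, hu, v, hv, g, h⟩ => H52.dade_exists_conj_L hD ha hb hu hv h, ?_⟩
  have key : ∀ c ∈ Subgroup.centralizer ({a} : Set G), ∀ y ∈ (fun u : G => a * u) '' (H a : Set G),
      c * y * c⁻¹ ∈ (fun u : G => a * u) '' (H a : Set G) := by
    rintro c hc _ ⟨u, hu, rfl⟩
    refine ⟨c * u * c⁻¹, hD.conj_mem_H a ha c hc u hu, ?_⟩
    have := Subgroup.mem_centralizer_singleton_iff.1 hc
    calc a * (c * u * c⁻¹) = (a * c) * u * c⁻¹ := by group
      _ = _ := by rw [← this]; group
  apply le_antisymm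
  · intro g hg
    obtain ⟨v, hv, e⟩ := (Subgroup.mem_set_normalizer_iff.1 hg (a * 1)).1 ⟨1, (H a).one_mem, rfl⟩
    have := (H52.dade_conj_eq hD ha ha (H a).one_mem hv e.symm).1
    refine Subgroup.mem_centralizer_singleton_iff.2 ?_
    calc g * a = g * a * g⁻¹ * g := by group
      _ = _ := by rw [this]
  · intro c hc
    refine Subgroup.mem_set_normalizer_iff.2 fun y => ⟨key c hc y, fun h => ?_⟩
    have := key c⁻¹ (inv_mem hc) _ h
    simpa [mul_assoc] using this

end Cfsg.Agent.S1499
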