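import Cfsg.Statements.S1500
import Cfsg.Agent.PF.P2
-- import your own Cfsg.Agent.* helpers here

set_option autoImplicit false
open Cfsg

namespace Cfsg.Agent.S1500

/-- Under the Dade hypothesis for (A, L, H), let α be a class function of L vanishing outside A. Then (i) for every class function β of L vanishing outside A, the inner product over G of the Dade images of α and β equals the inner product of α and β over L; and (ii) for every class function χ of G and every function ψ on L whose value at each a ∈ A is the average of χ over the coset a·H(a), the inner product over G of the Dade image of α with χ equals the inner product over L of α with ψ. -/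
theorem result {G : Type*} [Group G] [Fintype G] (A : Set G) (L : Subgroup G) [Fintype L] (H : G → Subgroup G) (hD : Cfsg.DadeHypothesis A L H) (α : L → ℂ) (hα : Cfsg.IsClassFunction L α) (hαA : ∀ x : L, (x : G) ∉ A → α x = 0) : (∀ β : L → ℂ, Cfsg.IsClassFunction L β → (∀ x : L, (x : G) ∉ A → β x = 0) → Cfsg.classInner (Cfsg.dadeIsometry A L H α) (Cfsg.dadeIsometry A L H β) = Cfsg.classInner α β) ∧ (∀ (χ : G → ℂ) (ψ : L → ℂ), Cfsg.IsClassFunction G χ → (∀ a : L, (a : G) ∈ A → ψ a = (Nat.card (H a) : ℂ)⁻¹ * ∑ᶠ u ∈ (H a : Set G), χ (a * u)) → Cfsg.classInner (Cfsg.dadeIsometry A L H α) χ = Cfsg.classInner α ψ) := by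
  have key : ∀ β : L → ℂ, Cfsg.dadeIsometry A L H β = H54.dade A L H (extendByZero L β) :=
    fun β => by rw [H54.dade_eq]; exact congrArg _ (H52.rst_extend L β).symm
  have on : ∀ β : L → ℂ, Cfsg.IsClassFunction L β → (∀ x : L, (x : G) ∉ A → β x = 0) →
      extendByZero L β ∈ H54.CFon L A := fun β h1 h2 => ⟨H52.extend_mem_CF h1, fun x hx => by
    by_cases hL : x ∈ L
    · rw [H6.extendByZero_of_mem L β hL]; exact h2 ⟨x, hL⟩ hx
    · exact H52.extend_supp L β x hL⟩
  refine ⟨fun β hβ hβA => ?_, fun χ ψ hχ hψ => ?_⟩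
  · rw [key, key, ← H52.dot_top, PF.Dade_isometry hD (on α hα hαA) (on β hβ hβA).1,
      H52.dot_eq_classInner, H52.rst_extend, H52.rst_extend]
  · rw [key, ← H52.dot_top, PF.invDade_reciprocity hD (on α hα hαA).1 (H52.mem_CF_top.2 hχ),
      H52.dot_eq_classInner, H52.rst_extend]
    refine H53.ci_congr_right fun a h0 => ?_
    have ha : (a : G) ∈ A := by by_contra h; exact h0 (hαA a h)
    rw [hψ a ha, ← H52.sum_fin_eq_finsum]
    exact H54.invDade_apply_of_mem H χ ha

end Cfsg.Agent.S1500
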