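import Cfsg.Statements.S1501
import Cfsg.Agent.PF.P2
-- import your own Cfsg.Agent.* helpers here

set_option autoImplicit false
open Cfsg

namespace Cfsg.Agent.S1501

/-- Under the Dade hypothesis for (A, L, H): if α is a generalized character of L vanishing outside A, then its image under the Dade map is a generalized character of G. -/
theorem result {G : Type*} [Group G] [Fintype G] (A : Set G) (L : Subgroup G) [Fintype L] (H : G → Subgroup G) (hD : Cfsg.DadeHypothesis A L H) (α : L → ℂ) (hα : Cfsg.IsGeneralizedCharacter L α) (hαA : ∀ x : L, (x : G) ∉ A → α x = 0) : Cfsg.IsGeneralizedCharacter G (Cfsg.dadeIsometry A L H α) := by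
  have key : Cfsg.dadeIsometry A L H α = H54.dade A L H (extendByZero L α) := by
    rw [H54.dade_eq]; exact congrArg _ (H52.rst_extend L α).symm
  rw [key, ← H52.mem_vchar_top]
  refine PF.Dade_vchar hD ⟨H52.vchar_CF (H52.extend_vchar hα), fun x hx => ?_⟩ (H52.extend_vchar hα)
  by_cases hL : x ∈ L
  · rw [H6.extendByZero_of_mem L α hL]; exact hαA ⟨x, hL⟩ hx
  · exact H52.extend_supp L α x hL

end Cfsg.Agent.S1501
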