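import Cfsg.Statements.S1502
import Cfsg.Agent.H52.CycTI2
-- import your own Cfsg.Agent.* helpers here

set_option autoImplicit false
open Cfsg

namespace Cfsg.Agent.S1502

/-- Let W₁, W₂ be nontrivial subgroups of the finite group G generating a cyclic subgroup W = W₁ ⊔ W₂ of odd order that is the normaliser of every nonempty set of its elements outside W₁ ∪ W₂. Then there is a family attaching to each linear character ω of W an irreducible character of G up to sign, orthonormal, sending the trivial character to the principal character, with χ ω = ω on W outside W₁ ∪ W₂, and such that inducing (1 − φ)(1 − ψ) to G gives 1 − χ φ − χ ψ + χ (φψ) whenever φ ≠ 1 is trivial on W₂ and ψ ≠ 1 is trivial on W₁. -/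
theorem result {G : Type*} [Group G] [Fintype G] (W₁ W₂ : Subgroup G) (hW : Cfsg.IsSelfNormalizingCyclic W₁ W₂) (hodd : Odd (Nat.card ↥(W₁ ⊔ W₂))) : ∃ χ : (↥(W₁ ⊔ W₂) →* ℂˣ) → (G → ℂ), Cfsg.IsCyclicTIFamily W₁ W₂ χ := by
  classical
  have h := H52.cycTI_of_selfNorm hW hodd
  have hd := H52.dp_of_selfNorm hW
  have hη := H52.eta_isEta h
  refine ⟨fun ω => H54.eta ⊤ W₁ W₂ (H52.dualL ω) (H52.dualR ω), fun ω => ?_, fun ω ω' => ?_, ?_,
    fun ω w h1 h2 => ?_, fun φ ψ _ _ hφ hψ => ?_⟩
  · exact (hη.dirr _ _).imp H52.mem_irr_top.1 H52.mem_irr_top.1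
  · rw [← H52.dot_top, hη.dot_eq]
    simp only [H52.dual_eq_iff hd]
  · exact hη.one.trans H52.cf1_top
  · rw [hη.restrict h _ _ (H52.mem_cycTIset.2 ⟨w.2, h1, h2⟩), ← H52.linChar_eq_omega hd,
      H52.linChar_coe]
  · have e1 := H52.dualR_eq_one hφ
    have e2 := H52.dualL_eq_one hψ
    rw [← H52.rst_alpha hd e1 e2, ← H52.ind_top, hη.ind, hη.one, H52.cf1_top]
    simp only [H52.dualL_mul, H52.dualR_mul, e1, e2, H52.dual_mul_one, H52.dual_one_mul]
    rfl

end Cfsg.Agent.S1502
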