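import Cfsg.Statements.S1503
import Cfsg.Agent.H52.CycTI2
-- import your own Cfsg.Agent.* helpers here

set_option autoImplicit false
open Cfsg

namespace Cfsg.Agent.S1503

/-- Let W₁, W₂ ≤ G with W = W₁ ⊔ W₂ and let χ an orthonormal family of irreducible characters of G up to sign, indexed by the linear characters ω of W, with χ_1 = 1, χ_ω = ω on W outside W₁ ∪ W₂, and the induction identity for (1 − φ)(1 − ψ). If θ is an irreducible character of G orthogonal to χ ω for every linear character ω of W, then θ vanishes at every element of W lying outside W₁ ∪ W₂. -/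
theorem result {G : Type*} [Group G] [Fintype G] (W₁ W₂ : Subgroup G) (hW : Cfsg.IsSelfNormalizingCyclic W₁ W₂) (χ : (↥(W₁ ⊔ W₂) →* ℂˣ) → (G → ℂ)) (hχ : Cfsg.IsCyclicTIFamily W₁ W₂ χ) (θ : G → ℂ) (hθ : Cfsg.IsIrrCharacter G θ) (horth : ∀ ω, Cfsg.classInner θ (χ ω) = 0) (w : ↥(W₁ ⊔ W₂)) (hw₁ : (w : G) ∉ W₁) (hw₂ : (w : G) ∉ W₂) : θ w = 0 := by
  have hd := H52.dp_of_selfNorm hW
  refine H52.vanish_of_orth_alpha hd (H52.comm_of_isCyclic hW.2.2.2.2.1) (fun i j hi hj => ?_)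
    (H52.mem_cycTIset.2 ⟨w.2, hw₁, hw₂⟩)
  obtain ⟨φ, rfl, hφ⟩ := H52.exists_dual_left hd i
  obtain ⟨ψ, hψ, rfl⟩ := H52.exists_dual_right hd j
  rw [← H52.dot_ind_right le_top _ (H52.irr_CF (H52.mem_irr_top.2 hθ)), H52.ind_top,
    H52.rst_alpha hd hφ hψ, hχ.induced_eq φ ψ (fun e => hi (by rw [e]; rfl))
      (fun e => hj (by rw [e]; rfl)) (fun w hw => DFunLike.congr_fun hφ ⟨w, hw⟩)
      (fun w hw => DFunLike.congr_fun hψ ⟨w, hw⟩), H52.dot_top]
  have : (fun g => 1 - χ φ g - χ ψ g + χ (φ * ψ) g) = χ 1 - χ φ - χ ψ + χ (φ * ψ) := by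
    rw [hχ.map_one]; rfl
  rw [this, H5.classInner_add_right, H5.classInner_sub_right, H5.classInner_sub_right]
  simp [horth]

end Cfsg.Agent.S1503
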