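import Cfsg.Statements.S1504
import Cfsg.Agent.H52.CycTI2
-- import your own Cfsg.Agent.* helpers here

set_option autoImplicit false
open Cfsg

namespace Cfsg.Agent.S1504

/-- Let W₁, W₂ be subgroups of a finite group with W₁ ⊓ W₂ = ⊥ whose elements commute, and W = W₁ ⊔ W₂. For linear characters φ, ψ of W with φ trivial on W₂ and ψ trivial on W₁, the function (1 − φ)(1 − ψ) vanishes on W₁ ∪ W₂; and the family of these functions, indexed by pairs (φ, ψ) with φ ≠ 1 ≠ ψ, is linearly independent over ℂ. -/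
theorem result {G : Type*} [Group G] [Finite G] (W₁ W₂ : Subgroup G) (hdisj : W₁ ⊓ W₂ = ⊥) (hcomm : ∀ a ∈ W₁, ∀ b ∈ W₂, a * b = b * a) : (∀ φ ψ : ↥(W₁ ⊔ W₂) →* ℂˣ, (∀ w : ↥(W₁ ⊔ W₂), (w : G) ∈ W₂ → φ w = 1) → (∀ w : ↥(W₁ ⊔ W₂), (w : G) ∈ W₁ → ψ w = 1) → ∀ w : ↥(W₁ ⊔ W₂), ((w : G) ∈ W₁ ∨ (w : G) ∈ W₂) → (1 - (φ w : ℂ) - (ψ w : ℂ) + (φ w : ℂ) * (ψ w : ℂ)) = 0) ∧ LinearIndependent ℂ (fun p : {p : (↥(W₁ ⊔ W₂) →* ℂˣ) × (↥(W₁ ⊔ W₂) →* ℂˣ) // p.1 ≠ 1 ∧ p.2 ≠ 1 ∧ (∀ w : ↥(W₁ ⊔ W₂), (w : G) ∈ W₂ → p.1 w = 1) ∧ (∀ w : ↥(W₁ ⊔ W₂), (w : G) ∈ W₁ → p.2 w = 1)} => fun w : ↥(W₁ ⊔ W₂) => 1 - (p.1.1 w : ℂ) - (p.1.2 w : ℂ) + (p.1.1 w : ℂ) * (p.1.2 w : ℂ)) := by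
  classical
  have hd : H52.DP W₁ W₂ := ⟨hdisj, hcomm⟩
  let _ : Fintype G := Fintype.ofFinite G
  refine ⟨fun φ ψ hφ hψ w hw => ?_, ?_⟩
  · rcases hw with hw | hw
    · simp [hψ w hw]
    · simp [hφ w hw]
  · rw [linearIndependent_iff']
    intro s c hc q hq
    have e1 : ∀ p : {p : (↥(W₁ ⊔ W₂) →* ℂˣ) × (↥(W₁ ⊔ W₂) →* ℂˣ) // p.1 ≠ 1 ∧ p.2 ≠ 1 ∧
        (∀ w : ↥(W₁ ⊔ W₂), (w : G) ∈ W₂ → p.1 w = 1) ∧
        (∀ w : ↥(W₁ ⊔ W₂), (w : G) ∈ W₁ → p.2 w = 1)},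
        H52.dualR p.1.1 = 1 ∧ H52.dualL p.1.2 = 1 :=
      fun p => ⟨H52.dualR_eq_one p.2.2.2.1, H52.dualL_eq_one p.2.2.2.2⟩
    have n1 := H52.dualL_ne_one hd q.2.1 (e1 q).1
    have n2 := H52.dualR_ne_one hd q.2.2.1 (e1 q).2
    have h := congrArg (fun f => Cfsg.classInner f
      (H52.rst (W₁ ⊔ W₂) (H54.omega W₁ W₂ (H52.dualL q.1.1) (H52.dualR q.1.2)))) hc
    simp only [H5.classInner_sum_left, H5.classInner_smul_left] at h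
    rw [Finset.sum_eq_single q (fun p _ hp => ?_) fun h => absurd hq h] at h
    · rw [← H52.rst_alpha hd (e1 q).1 (e1 q).2, ← H52.dot_eq_classInner] at h
      simpa [H52.alpha, H52.dot_add_left, H52.dot_sub_left, H52.dot_omega hd, n1.symm, n2.symm,
        Cfsg.classInner] using h
    · rw [← H52.rst_alpha hd (e1 p).1 (e1 p).2, ← H52.dot_eq_classInner]
      have : ¬ (H52.dualL p.1.1 = H52.dualL q.1.1 ∧ H52.dualR p.1.2 = H52.dualR q.1.2) :=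
        fun e => hp (Subtype.ext (Prod.ext
          ((H52.dual_eq_iff hd).2 ⟨e.1, (e1 p).1.trans (e1 q).1.symm⟩)
          ((H52.dual_eq_iff hd).2 ⟨(e1 p).2.trans (e1 q).2.symm, e.2⟩)))
      simp [H52.alpha, H52.dot_add_left, H52.dot_sub_left, H52.dot_omega hd, n1.symm, n2.symm, this]

end Cfsg.Agent.S1504
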