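import Cfsg.Statements.S1505
import Cfsg.Agent.H52.CycTI2
-- import your own Cfsg.Agent.* helpers here

set_option autoImplicit false
open Cfsg

namespace Cfsg.Agent.S1505

open Classical in
/-- Let W₁, W₂ ≤ G form a self-normalising cyclic subgroup W = W₁ ⊔ W₂. For nontrivial linear characters φ, φ' of W trivial on W₂ and ψ, ψ' trivial on W₁, put α = (1 − φ)(1 − ψ) and α' = (1 − φ')(1 − ψ'). Then the function induced from α to G has inner product 1 with the principal character, and the inner product of the functions induced from α and α' is 1 + a + b + ab where a = 1 if φ = φ' (else 0) and b = 1 if ψ = ψ' (else 0). -/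
theorem result {G : Type*} [Group G] [Fintype G] (W₁ W₂ : Subgroup G) (hW : Cfsg.IsSelfNormalizingCyclic W₁ W₂) (φ φ' ψ ψ' : ↥(W₁ ⊔ W₂) →* ℂˣ) (hφ : φ ≠ 1) (hφ' : φ' ≠ 1) (hψ : ψ ≠ 1) (hψ' : ψ' ≠ 1) (hφ₂ : ∀ w : ↥(W₁ ⊔ W₂), (w : G) ∈ W₂ → φ w = 1 ∧ φ' w = 1) (hψ₁ : ∀ w : ↥(W₁ ⊔ W₂), (w : G) ∈ W₁ → ψ w = 1 ∧ ψ' w = 1) : Cfsg.classInner (Cfsg.indFun (W₁ ⊔ W₂) (fun w => 1 - (φ w : ℂ) - (ψ w : ℂ) + (φ w : ℂ) * (ψ w : ℂ))) (fun _ => 1) = 1 ∧ Cfsg.classInner (Cfsg.indFun (W₁ ⊔ W₂) (fun w => 1 - (φ w : ℂ) - (ψ w : ℂ) + (φ w : ℂ) * (ψ w : ℂ))) (Cfsg.indFun (W₁ ⊔ W₂) (fun w => 1 - (φ' w : ℂ) - (ψ' w : ℂ) + (φ' w : ℂ) * (ψ' w : ℂ))) = 1 + (if φ = φ' then 1 else 0) + (if ψ = ψ' then 1 else 0) + (if φ = φ' then 1 else 0) * (if ψ = ψ' then 1 else 0) := by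
  have hd := H52.dp_of_selfNorm hW
  have e1 := H52.dualR_eq_one fun w hw => (hφ₂ w hw).1
  have e1' := H52.dualR_eq_one fun w hw => (hφ₂ w hw).2
  have e2 := H52.dualL_eq_one fun w hw => (hψ₁ w hw).1
  have e2' := H52.dualL_eq_one fun w hw => (hψ₁ w hw).2
  have n1 := H52.dualL_ne_one hd hφ e1
  have n1' := H52.dualL_ne_one hd hφ' e1'
  have n2 := H52.dualR_ne_one hd hψ e2
  have n2' := H52.dualR_ne_one hd hψ' e2'
  rw [← H52.rst_alpha hd e1 e2, ← H52.rst_alpha hd e1' e2', ← H52.ind_top, ← H52.ind_top,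
    ← H52.cf1_top, ← H52.dot_top, ← H52.dot_top, H52.dot_ind_cf1 le_top,
    H52.dot_alpha_cf1 hd n1 n2, H52.dot_ind_ind_of_TI le_top
      (fun x _ hx => (H52.alpha_CFon hd _ _).2 x hx) (H52.alpha_CFon hd _ _)
      fun g _ _ hx hy => H52.ti_of_selfNorm hW g hx hy, H52.dot_alpha hd n1 n2 n1' n2']
  simp [H52.dual_eq_iff hd, e1, e1', e2, e2']

end Cfsg.Agent.S1505
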