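import Cfsg.Statements.S1506
import Cfsg.Agent.H53.Omega
import Cfsg.Agent.H52.CF7

set_option autoImplicit false
open Cfsg

namespace Cfsg.Agent.S1506

/-- Let W₁, W₂ ≤ G form a self-normalising cyclic subgroup W = W₁ ⊔ W₂ and χ an orthonormal family of irreducible characters of G up to sign, indexed by the linear characters ω of W, with χ_1 = 1, χ_ω = ω on W outside W₁ ∪ W₂, and the induction identity for (1 − φ)(1 − ψ). Let θ be a class function of G vanishing at every element of W outside W₁ ∪ W₂. For linear characters φ, φ' of W trivial on W₂ and ψ, ψ' trivial on W₁, the inner products a(ω) = ⟨θ, χ ω⟩ satisfy a(φψ) + a(φ'ψ') = a(φψ') + a(φ'ψ). -/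
theorem result {G : Type*} [Group G] [Fintype G] (W₁ W₂ : Subgroup G) (hW : Cfsg.IsSelfNormalizingCyclic W₁ W₂) (χ : (↥(W₁ ⊔ W₂) →* ℂˣ) → (G → ℂ)) (hχ : Cfsg.IsCyclicTIFamily W₁ W₂ χ) (θ : G → ℂ) (hθ : Cfsg.IsClassFunction G θ) (hθV : ∀ w : ↥(W₁ ⊔ W₂), (w : G) ∉ W₁ → (w : G) ∉ W₂ → θ w = 0) (φ φ' ψ ψ' : ↥(W₁ ⊔ W₂) →* ℂˣ) (hφ₂ : ∀ w : ↥(W₁ ⊔ W₂), (w : G) ∈ W₂ → φ w = 1 ∧ φ' w = 1) (hψ₁ : ∀ w : ↥(W₁ ⊔ W₂), (w : G) ∈ W₁ → ψ w = 1 ∧ ψ' w = 1) : Cfsg.classInner θ (χ (φ * ψ)) + Cfsg.classInner θ (χ (φ' * ψ')) = Cfsg.classInner θ (χ (φ * ψ')) + Cfsg.classInner θ (χ (φ' * ψ)) := by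
  have key : ∀ φ ψ : ↥(W₁ ⊔ W₂) →* ℂˣ, (∀ w : ↥(W₁ ⊔ W₂), (w : G) ∈ W₂ → φ w = 1) →
      (∀ w : ↥(W₁ ⊔ W₂), (w : G) ∈ W₁ → ψ w = 1) →
      classInner θ (χ 1) - classInner θ (χ φ) - classInner θ (χ ψ) + classInner θ (χ (φ * ψ)) = 0 := by
    intro φ ψ h2 h1
    by_cases e1 : φ = 1
    · rw [e1, H52.dual_one_mul]; ring
    by_cases e2 : ψ = 1
    · rw [e2, H52.dual_mul_one]; ring
    rw [← H53.ci_sub_right, ← H53.ci_sub_right, ← H53.ci_add_right, hχ.map_one]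
    have e := hχ.induced_eq φ ψ e1 e2 h2 h1
    have e' : ((fun _ => 1) - χ φ - χ ψ + χ (φ * ψ) : G → ℂ) =
      fun g => 1 - χ φ g - χ ψ g + χ (φ * ψ) g := rfl
    rw [e', ← e, ← H52.ind_top_extend, ← H53.dot_top,
      H52.dot_ind_right le_top _ (H53.mem_CF_top.2 hθ)]
    refine H53.dot_eq_zero_of_disjoint fun x hx => ?_
    have := congrFun (H53.res_extendByZero (W₁ ⊔ W₂)
      (fun w => 1 - (φ w : ℂ) - (ψ w : ℂ) + (φ w : ℂ) * (ψ w : ℂ))) ⟨x, hx⟩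
    by_cases g1 : x ∈ W₁
    · right; rw [this]; simp [h1 ⟨x, hx⟩ g1]
    by_cases g2 : x ∈ W₂
    · right; rw [this]; simp [h2 ⟨x, hx⟩ g2]
    · exact Or.inl (hθV ⟨x, hx⟩ g1 g2)
  linear_combination key φ ψ (fun w h => (hφ₂ w h).1) (fun w h => (hψ₁ w h).1) +
    key φ' ψ' (fun w h => (hφ₂ w h).2) (fun w h => (hψ₁ w h).2) -
    key φ ψ' (fun w h => (hφ₂ w h).1) (fun w h => (hψ₁ w h).2) -
    key φ' ψ (fun w h => (hφ₂ w h).2) (fun w h => (hψ₁ w h).1)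

end Cfsg.Agent.S1506
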