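import Cfsg.Statements.S1507
import Cfsg.Agent.H53.SelfNorm
import Cfsg.Agent.PF.P3_7

set_option autoImplicit false
open Cfsg

namespace Cfsg.Agent.S1507

open Cfsg.Agent.H49 Cfsg.Agent.H54 Cfsg.Agent.PF

theorem family_eq_eta {G : Type*} [Group G] [Fintype G] {W₁ W₂ : Subgroup G} (h : CycTIHyp ⊤ W₁ W₂)
    {χ : (↥(W₁ ⊔ W₂) →* ℂˣ) → (G → ℂ)} (hχ : IsCyclicTIFamily W₁ W₂ χ) (ω : Dual (W₁ ⊔ W₂)) :
    χ ω = eta ⊤ W₁ W₂ (H53.resL ω) (H53.resR ω) :=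
  eq_in_cycTIiso h ((hχ.irr_or_neg ω).imp H53.mem_irr_top.2 H53.mem_irr_top.2) fun x hx => by
    rw [H53.omega_res h.inf h.comm ω ⟨x, hx.1⟩]
    exact hχ.eq_on ω ⟨x, hx.1⟩ (fun g => hx.2 (Or.inl g)) (fun g => hx.2 (Or.inr g))


open Classical in
/-- Let W₁, W₂ ≤ G form a self-normalising cyclic subgroup W = W₁ ⊔ W₂ of odd order with Nat.card W₁ < Nat.card W₂, and χ an orthonormal family of irreducible characters of G up to sign, indexed by the linear characters ω of W, with χ_1 = 1, χ_ω = ω on W outside W₁ ∪ W₂, and the induction identity for (1 − φ)(1 − ψ). Let θ be a class function of G vanishing on W outside W₁ ∪ W₂, and suppose fewer than 2 · Nat.card W₁ linear characters ω of W have ⟨θ, χ ω⟩ ≠ 0. Then one of: all ⟨θ, χ ω⟩ vanish; or there are ψ₀ and a with ⟨θ, χ ω⟩ = a when ω ψ₀⁻¹ is trivial on W₂ and 0 otherwise; or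 there are φ₀ and a with ⟨θ, χ ω⟩ = a when ω φ₀⁻¹ is trivial on W₁ and 0 otherwise. -/
theorem result {G : Type*} [Group G] [Fintype G] (W₁ W₂ : Subgroup G) (hW : Cfsg.IsSelfNormalizingCyclic W₁ W₂) (hodd : Odd (Nat.card ↥(W₁ ⊔ W₂))) (χ : (↥(W₁ ⊔ W₂) →* ℂˣ) → (G → ℂ)) (hχ : Cfsg.IsCyclicTIFamily W₁ W₂ χ) (hlt : Nat.card W₁ < Nat.card W₂) (θ : G → ℂ) (hθ : Cfsg.IsClassFunction G θ) (hθV : ∀ w : ↥(W₁ ⊔ W₂), (w : G) ∉ W₁ → (w : G) ∉ W₂ → θ w = 0) (hfew : Nat.card {ω : ↥(W₁ ⊔ W₂) →* ℂˣ // Cfsg.classInner θ (χ ω) ≠ 0} < 2 * Nat.card W₁) : (∀ ω, Cfsg.classInner θ (χ ω) = 0) ∨ (∃ (ψ₀ : ↥(W₁ ⊔ W₂) →* ℂˣ) (a : ℂ), ∀ ω, Cfsg.classInner θ (χ ω) = if (∀ w : ↥(W₁ ⊔ W₂), (w : G) ∈ W₂ → (ω * ψ₀⁻¹) w = 1) then a else 0) ∨ (∃ (φ₀ : ↥(W₁ ⊔ W₂) →* ℂˣ) (a : ℂ), ∀ ω, Cfsg.classInner θ (χ ω) = if (∀ w : ↥(W₁ ⊔ W₂), (w : G) ∈ W₁ → (ω * φ₀⁻¹) w =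 1) then a else 0) := by
  have h := H53.cycTI_of_selfNorm hW hodd
  have hb := H53.res_bijective h.inf h.comm h.cyclic
  have e : ∀ ω, classInner θ (χ ω) = dot ⊤ θ (eta ⊤ W₁ W₂ (H53.resL ω) (H53.resR ω)) := fun ω => by
    rw [family_eq_eta h hχ, H53.dot_top]
  have hN : cycNC ⊤ W₁ W₂ θ = Nat.card {ω : ↥(W₁ ⊔ W₂) →* ℂˣ // classInner θ (χ ω) ≠ 0} := by
    rw [Nat.card_eq_fintype_card, Fintype.card_subtype]
    exact (Finset.card_bijective _ hb (by simp [e])).symm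
  simp only [e]
  rcases small_cycTI_NC h (H53.mem_CF_top.2 hθ)
    (fun x hx => hθV ⟨x, hx.1⟩ (fun g => hx.2 (Or.inl g)) (fun g => hx.2 (Or.inr g)))
    (by rw [hN]; omega) with h0 | ⟨j, a, -, h1, h0⟩ | ⟨i, a, -, h1, h0⟩
  · exact Or.inl fun ω => h0 _ _
  · obtain ⟨ψ, hψ⟩ := hb.2 (1, j)
    obtain rfl : H53.resR ψ = j := (Prod.mk.inj hψ).2
    refine Or.inr (Or.inl ⟨ψ, a, fun ω => ?_⟩)
    split_ifs with g
    · rw [H53.resR_eq_iff.2 fun w hw => mul_inv_eq_one.1 (g w hw), h1]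
    · exact h0 _ _ fun g' => g fun w hw => mul_inv_eq_one.2 (H53.resR_eq_iff.1 g' w hw)
  · obtain ⟨ψ, hψ⟩ := hb.2 (i, 1)
    obtain rfl : H53.resL ψ = i := (Prod.mk.inj hψ).1
    refine Or.inr (Or.inr ⟨ψ, a, fun ω => ?_⟩)
    split_ifs with g
    · rw [H53.resL_eq_iff.2 fun w hw => mul_inv_eq_one.1 (g w hw), h1]
    · exact h0 _ _ fun g' => g fun w hw => mul_inv_eq_one.2 (H53.resL_eq_iff.1 g' w hw)

end Cfsg.Agent.S1507
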