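import Cfsg.Statements.S1509
import Cfsg.Agent.H53.Irr

set_option autoImplicit false
open Cfsg

namespace Cfsg.Agent.S1509

open Cfsg.Agent.H53

/-- Let α, β, γ, δ be functions on a finite group X each of which is an irreducible character or the negative of one, and u, v nonzero real numbers. Suppose ⟨α, β⟩ = ⟨γ, δ⟩ = 0, ⟨α − β, uγ − vδ⟩ = 0, α 1 = β 1 and u γ 1 = v δ 1. Then also ⟨α, γ⟩ = ⟨α, δ⟩ = ⟨β, γ⟩ = ⟨β, δ⟩ = 0. -/
theorem result {X : Type*} [Group X] [Fintype X] (α β γ δ : X → ℂ) (hα : Cfsg.IsIrrCharacter X α ∨ Cfsg.IsIrrCharacter X (-α)) (hβ : Cfsg.IsIrrCharacter X β ∨ Cfsg.IsIrrCharacter X (-β)) (hγ : Cfsg.IsIrrCharacter X γ ∨ Cfsg.IsIrrCharacter X (-γ)) (hδ : Cfsg.IsIrrCharacter X δ ∨ Cfsg.IsIrrCharacter X (-δ)) (u v : ℝ) (hu : u ≠ 0) (hv : v ≠ 0) (hab : Cfsg.classInner α β = 0) (hcd : Cfsg.classInner γ δ = 0) (hmix : Cfsg.classInner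 (α - β) ((u : ℂ) • γ - (v : ℂ) • δ) = 0) (h1 : α 1 = β 1) (h2 : (u : ℂ) * γ 1 = (v : ℂ) * δ 1) : Cfsg.classInner α γ = 0 ∧ Cfsg.classInner α δ = 0 ∧ Cfsg.classInner β γ = 0 ∧ Cfsg.classInner β δ = 0 := by
  have vα := virt_of_irr_or_neg hα
  have vβ := virt_of_irr_or_neg hβ
  have vγ := virt_of_irr_or_neg hγ
  have vδ := virt_of_irr_or_neg hδ
  obtain ⟨a, b, c, d⟩ := four_orth vα (ip_self_of_irr_or_neg hα) vβ (ip_self_of_irr_or_neg hβ) vγ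
    (ip_self_of_irr_or_neg hγ) vδ (ip_self_of_irr_or_neg hδ) hu hv (ip_eq_zero_of_ci hab)
    (ip_eq_zero_of_ci hcd) (ip_eq_zero_of_ci (by simpa only [Complex.coe_smul] using hmix)) h1 h2
  exact ⟨virt_ci_eq_zero vα vγ a, virt_ci_eq_zero vα vδ b, virt_ci_eq_zero vβ vγ c,
    virt_ci_eq_zero vβ vδ d⟩

end Cfsg.Agent.S1509
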