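import Cfsg.Statements.S1510
import Cfsg.Agent.H6.PrimeTIFrozen

set_option autoImplicit false
open Cfsg

namespace Cfsg.Agent.S1510

/-- Let L be a finite group with a normal subgroup K and a nontrivial cyclic subgroup W₁ of order coprime to its index, K ⊓ W₁ = ⊥ and K ⊔ W₁ = ⊤; let W₂ ≠ ⊥ be a cyclic subgroup of K with K ⊓ C_L(x) = W₂ for every non-identity x ∈ W₁, and suppose W₁ ⊔ W₂ has odd order. Then (W₁, W₂) is a self-normalising cyclic pair in L. -/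
theorem result {L : Type*} [Group L] [Fintype L] (K W₁ W₂ : Subgroup L) [hK : K.Normal] (hKW₁ : K ⊓ W₁ = ⊥) (hKW₁' : K ⊔ W₁ = ⊤) (hW₁ : W₁ ≠ ⊥) (hW₁c : IsCyclic W₁) (hHall : Nat.Coprime (Nat.card W₁) W₁.index) (hW₂ : W₂ ≠ ⊥) (hW₂c : IsCyclic W₂) (hW₂K : W₂ ≤ K) (hC : ∀ x ∈ W₁, x ≠ 1 → K ⊓ Subgroup.centralizer ({x} : Set L) = W₂) (hodd : Odd (Nat.card ↥(W₁ ⊔ W₂))) : Cfsg.IsSelfNormalizingCyclic W₁ W₂ := by
  have h := H6A.primeTIHyp_top K W₁ W₂ hKW₁ hKW₁' hW₁ hW₁c hHall hW₂ hW₂c hW₂K hC hodd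
  have hc := PF.prime_cycTIhyp h
  refine ⟨hW₁, hW₂, hc.inf, hc.comm, hc.cyclic, fun X hX ⟨x, hx⟩ => le_antisymm (fun g hg => ?_)
    (fun g hg => ?_)⟩
  · exact hc.ti g trivial x (hX hx) (hX ((Subgroup.mem_set_normalizer_iff.1 hg x).1 hx))
  · refine Subgroup.mem_set_normalizer_iff.2 fun y => ⟨fun hy => ?_, fun hy => ?_⟩
    · rwa [show g * y = y * g from congrArg Subtype.val
        ((PF.prTI_abelian h).is_comm.comm ⟨g, hg⟩ ⟨y, (hX hy).1⟩), mul_inv_cancel_right]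
    · have h1 : y ∈ W₁ ⊔ W₂ := by
        simpa [mul_assoc] using mul_mem (mul_mem (inv_mem hg) (hX hy).1) hg
      rwa [show g * y = y * g from congrArg Subtype.val
        ((PF.prTI_abelian h).is_comm.comm ⟨g, hg⟩ ⟨y, h1⟩), mul_inv_cancel_right] at hy

end Cfsg.Agent.S1510
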