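import Cfsg.Statements.S1512
import Cfsg.Agent.H52.Dade1

set_option autoImplicit false
open Cfsg

namespace Cfsg.Agent.S1512

/-- Let K be a normal subgroup of the finite group L and x a non-identity element whose order is coprime to the order of K, such that K ⊓ C_L(y) = W₂ for every non-identity element y of the cyclic group generated by x. Then the number of conjugacy classes of K mapped to themselves by conjugation by x is at most Nat.card W₂. -/
theorem result {L : Type*} [Group L] [Finite L] (K W₂ : Subgroup L) [hK : K.Normal] (x : L) (hx1 : x ≠ 1) (hx : Nat.Coprime (orderOf x) (Nat.card K)) (hC : ∀ y ∈ Subgroup.zpowers x, y ≠ 1 → K ⊓ Subgroup.centralizer ({y} : Set L) = W₂) : Nat.card {C : ConjClasses K // ConjClasses.map (MulEquiv.toMonoidHom ((MulAut.conjNormal x : MulAut K))) C = C} ≤ Nat.card W₂ := by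
  have hW : W₂ ≤ K := (hC x (Subgroup.mem_zpowers x) hx1).ge.trans inf_le_left
  have key : ∀ C : {C : ConjClasses K // ConjClasses.map (MulEquiv.toMonoidHom
      ((MulAut.conjNormal x : MulAut K))) C = C}, ∃ w : W₂, ConjClasses.mk ⟨w, hW w.2⟩ = C.1 := by
    rintro ⟨C, hC'⟩
    obtain ⟨k, rfl⟩ := ConjClasses.exists_rep C
    obtain ⟨y, hy⟩ := isConj_iff.1 (ConjClasses.mk_eq_mk_iff_isConj.1 hC')
    have hy' : (y : L) * (x * k * x⁻¹) * (y : L)⁻¹ = k := congrArg Subtype.val hy
    obtain ⟨w, hw, c, hc, hcx, e⟩ := H52.exists_conj_coprime_coset K x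
      (fun h hh => hK.conj_mem h hh x) hx y y.2
    have h1 : Commute (c * x) (w⁻¹ * k * w) := by
      have h2 : c * x = w⁻¹ * (y * x) * w := by rw [← e]; group
      rw [h2, Commute, SemiconjBy]
      calc w⁻¹ * (y * x) * w * (w⁻¹ * k * w) = w⁻¹ * (y * (x * k * x⁻¹) * (y : L)⁻¹) * y * x * w := by
            group
        _ = _ := by rw [hy']; group
    have h3 := h1.pow_left (Nat.card K)
    rw [Commute.mul_pow hcx, orderOf_dvd_iff_pow_eq_one.1 (K.orderOf_dvd_natCard hc), one_mul] at h3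
    have h4 : x ^ Nat.card K ≠ 1 := fun e' =>
      hx1 (orderOf_eq_one_iff.1 (Nat.eq_one_of_dvd_coprimes hx dvd_rfl
        (orderOf_dvd_of_pow_eq_one e')))
    have h5 : w⁻¹ * k * w ∈ K := mul_mem (mul_mem (inv_mem hw) k.2) hw
    refine ⟨⟨w⁻¹ * k * w, (hC _ (pow_mem (Subgroup.mem_zpowers x) _) h4).le
      ⟨h5, Subgroup.mem_centralizer_singleton_iff.2 h3.symm⟩⟩,
      ConjClasses.mk_eq_mk_iff_isConj.2 (isConj_iff.2 ⟨⟨w, hw⟩, Subtype.ext ?_⟩)⟩
    simp [mul_assoc]
  choose f hf using key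
  exact Nat.card_le_card_of_injective f fun a b e => Subtype.ext (by rw [← hf a, e, hf b])

end Cfsg.Agent.S1512
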