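import Cfsg.Statements.S1513
import Cfsg.Agent.H6.PrimeTIFrozen

set_option autoImplicit false
open Cfsg

namespace Cfsg.Agent.S1513

open Cfsg.Agent.H54 Cfsg.Agent.H52 Cfsg.Agent.H6A Cfsg.Agent.PF

/-- Let L be a finite group with K normal with complement W₁ ≠ 1 a cyclic Hall subgroup, and W₂ ≠ 1 a cyclic subgroup of K equal to C_K(x) for every non-identity x ∈ W₁, with W₁W₂ of odd order. For an irreducible character θ of K: if θ is not fixed under conjugation by some element of W₁, then the function induced from θ to L is an irreducible character of L; and the irreducible characters of K fixed by all of W₁ are exactly Nat.card W₂ in number, each inducing to the sum of Nat.card W₁ pairwise distinct irreducible characters of L. -/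
theorem result {L : Type*} [Group L] [Fintype L] (K W₁ W₂ : Subgroup L) [hK : K.Normal] (hKW₁ : K ⊓ W₁ = ⊥) (hKW₁' : K ⊔ W₁ = ⊤) (hW₁ : W₁ ≠ ⊥) (hW₁c : IsCyclic W₁) (hHall : Nat.Coprime (Nat.card W₁) W₁.index) (hW₂ : W₂ ≠ ⊥) (hW₂c : IsCyclic W₂) (hW₂K : W₂ ≤ K) (hC : ∀ x ∈ W₁, x ≠ 1 → K ⊓ Subgroup.centralizer ({x} : Set L) = W₂) (hodd : Odd (Nat.card ↥(W₁ ⊔ W₂))) : (∀ θ : K → ℂ, Cfsg.IsIrrCharacter K θ → (∃ x ∈ W₁, (fun k : K => θ ⟨x * k * x⁻¹, hK.conj_mem (k : L) k.2 x⟩) ≠ θ) → Cfsg.IsIrrCharacter L (Cfsg.indFun K θ)) ∧ Nat.card {θ : Cfsg.IrrCharacter K // ∀ x ∈ W₁, (fun k : K => (θ : K → ℂ) ⟨x * k * x⁻¹, hK.conj_mem (k : L) k.2 x⟩) = θ} = Nat.card W₂ ∧ (∀ θ : K → ℂ, Cfsg.IsIrrCharacter K θ → (∀ x ∈ W₁, (fun k : K => θ ⟨x * k * x⁻¹, hK.conj_mem (k : L) k.2 x⟩) = θ) → ∃ C : Finset (L → ℂ), C.card = Nat.card W₁ ∧ (∀ μ ∈ C, Cfsg.IsIrrCharacter L μ) ∧ Cfsg.indFun K θ = ∑ μ ∈ C, μ) := by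
  classical
  have h := H6A.primeTIHyp_top K W₁ W₂ hKW₁ hKW₁' hW₁ hW₁c hHall hW₂ hW₂c hW₂K hC hodd
  have hinv : ∀ (j : Dual W₂) (x : L), (fun k : K => rst K (chiK ⊤ K W₁ W₂ j)
      ⟨x * k * x⁻¹, hK.conj_mem (k : L) k.2 x⟩) = rst K (chiK ⊤ K W₁ W₂ j) :=
    fun j x => funext fun k => congrFun (prTIres_invariant h j (Subgroup.mem_top x)) k
  have hfix : ∀ θ : K → ℂ, Cfsg.IsIrrCharacter K θ → (∀ x ∈ W₁,
      (fun k : K => θ ⟨x * k * x⁻¹, hK.conj_mem (k : L) k.2 x⟩) = θ) →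
      ∃ j, extendByZero K θ = chiK ⊤ K W₁ W₂ j := fun θ hθ hx => by
    obtain ⟨w, hw, hw1⟩ := H49.ne_bot_iff_exists.1 hW₁
    refine prTIres_of_fixed h (extend_irr hθ) hw hw1 (ext_supp
      (H6A.cfConjg_supp (h.sdp.2.2 hw) (extend_supp K θ)) (extend_supp K θ) fun x hx' => ?_)
    rw [cfConjg_apply, H6.extendByZero_of_mem K θ (hK.conj_mem x hx' w),
      H6.extendByZero_of_mem K θ hx']
    exact congrFun (hx w hw) ⟨x, hx'⟩
  refine ⟨fun θ hθ ⟨x, _, hx⟩ => ?_, ?_, fun θ hθ hx => ?_⟩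
  · rcases prTIres_irr_cases h (extend_irr hθ) with ⟨j, e⟩ | ⟨e, -⟩
    · refine absurd ?_ hx
      rw [← rst_extend K θ, e]
      exact hinv j x
    · rw [ind_top_extend] at e
      exact mem_irr_top.1 e
  · rw [← card_dual_of_abelian (H49.abelian_of_cyclic hW₂c), ← Nat.card_eq_fintype_card]
    refine (Nat.card_eq_of_bijective (fun j : Dual W₂ =>
      ⟨⟨rst K (chiK ⊤ K W₁ W₂ j), irr_rst (prTIres_irr h j)⟩, fun x _ => hinv j x⟩)
      ⟨fun j j' e => ?_, fun θ => ?_⟩).symm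
    · exact prTIres_inj h (eq_of_rst_eq (irr_supp (prTIres_irr h j)) (irr_supp (prTIres_irr h j'))
        (congrArg (fun t => t.1.1) e))
    · obtain ⟨j, e⟩ := hfix θ.1.1 θ.1.2 θ.2
      exact ⟨j, Subtype.ext (Subtype.ext (by simp only [← e, rst_extend]))⟩
  · obtain ⟨j, e⟩ := hfix θ hθ hx
    have hinj : Function.Injective fun i => mu2 ⊤ W₁ W₂ i j := fun i i' e => (prTIirr_inj h e).1
    refine ⟨Finset.univ.image fun i => mu2 ⊤ W₁ W₂ i j, ?_, fun μ hμ => ?_, ?_⟩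
    · rw [Finset.card_image_of_injective _ hinj, Finset.card_univ, prTI_card_dual h]
    · obtain ⟨i, -, rfl⟩ := Finset.mem_image.1 hμ
      exact mem_irr_top.1 (prTIirr_irr h i j)
    · rw [Finset.sum_image hinj.injOn, ← ind_top_extend, e, cfInd_prTIres h]
      rfl

end Cfsg.Agent.S1513
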