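import Cfsg.Statements.S1515
import Cfsg.Agent.H53.System

set_option autoImplicit false
open Cfsg

namespace Cfsg.Agent.S1515

open Cfsg.Agent.H53

/-- Let (S, τ, R) be a coherence system from L to G, χ ∈ S, and ψ an integer combination of S with ⟨χ, ψ⟩ = ⟨conj χ, ψ⟩ = 0. Let τ₁ be a linear isometry on the integer combinations of χ − ψ and χ − conj χ, with virtual-character values, agreeing with τ on integer multiples of χ − conj χ. Then the sum over α ∈ R χ of the squared absolute values of ⟨τ₁(χ − ψ), α⟩ is at least ⟨χ, χ⟩; and if ⟨τ₁(χ − ψ), τ₁(χ − ψ)⟩ minus that sum is at least ⟨ψ, ψ⟩, then the sum equals ⟨χ, χ⟩ and every ⟨τ₁(χ − ψ), α⟩ with α ∈ R χ is 0 or 1. -/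
theorem result {L : Type*} [Group L] [Fintype L] {G : Type*} [Group G] [Fintype G] (S : Set (L → ℂ)) (τ : (L → ℂ) → (G → ℂ)) (R : (L → ℂ) → Finset (G → ℂ)) (hS : Cfsg.IsCoherenceSystem S τ R) (χ : L → ℂ) (hχ : χ ∈ S) (ψ : L → ℂ) (hψ : ψ ∈ Cfsg.zspan S) (h1 : Cfsg.classInner χ ψ = 0) (h2 : Cfsg.classInner (Cfsg.conjFun χ) ψ = 0) (τ₁ : (L → ℂ) → (G → ℂ)) (hτ₁ : Cfsg.IsLinearIsometryOn (Cfsg.zspan {χ - ψ, χ - Cfsg.conjFun χ}) τ₁) (hagree : ∀ n : ℤ, τ₁ (n • (χ - Cfsg.conjFun χ)) = τ (n • (χ - Cfsg.conjFun χ))) : (Cfsg.classInner χ χ).re ≤ ∑ α ∈ R χ, ‖Cfsg.classInner (τ₁ (χ - ψ)) α‖ ^ 2 ∧ ((Cfsg.classInner ψ ψ).re ≤ (Cfsg.classInner (τ₁ (χ - ψ)) (τ₁ (χ - ψ))).re - ∑ α ∈ R χ, ‖Cfsg.classInner (τ₁ (χ - ψ)) α‖ ^ 2 → (∑ α ∈ R χ, ‖Cfsg.classInner (τ₁ (χ - ψ)) α‖ ^ 2 = (Cfsg.classInner χ χ).re ∧ ∀ α ∈ R χ, Cfsg.classInner (τ₁ (χ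 - ψ)) α = 0 ∨ Cfsg.classInner (τ₁ (χ - ψ)) α = 1)) := by
  have hm : χ - ψ ∈ Cfsg.zspan {χ - ψ, χ - Cfsg.conjFun χ} := mem_zspan_of_mem (by simp)
  have hm' : χ - Cfsg.conjFun χ ∈ Cfsg.zspan {χ - ψ, χ - Cfsg.conjFun χ} := mem_zspan_of_mem (by simp)
  have hv := hτ₁.2.2.2 _ hm
  have e : ∑ α ∈ R χ, ‖Cfsg.classInner (τ₁ (χ - ψ)) α‖ ^ 2 = ∑ α ∈ R χ, ip (τ₁ (χ - ψ)) α ^ 2 :=
    Finset.sum_congr rfl fun α hα => by
      rw [virt_ci_eq hv (hS.virtual χ hχ α hα), Complex.norm_real, Real.norm_eq_abs, sq_abs]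
  have o1 : ip χ ψ = 0 := ip_eq_zero_of_ci h1
  have o2 : ip (Cfsg.conjFun χ) ψ = 0 := ip_eq_zero_of_ci h2
  have k : ip (τ₁ (χ - ψ)) (τ (χ - Cfsg.conjFun χ)) = ip χ χ := by
    have := hagree 1
    rw [one_smul] at this
    rw [← this, isometryOn_ip hτ₁ hm hm']
    simp only [ip_sub_left, ip_sub_right, ip_comm ψ, o1, o2, sys_ip_conj hS hχ]
    ring
  have n := isometryOn_ip hτ₁ hm hm
  simp only [ip_sub_left, ip_sub_right, ip_comm ψ χ, o1] at n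
  have a := sys_norm_le hS hχ hv k
  rw [e]
  refine ⟨a, fun h => ?_⟩
  change ip ψ ψ ≤ ip (τ₁ (χ - ψ)) (τ₁ (χ - ψ)) - _ at h
  have b : ∑ α ∈ R χ, ip (τ₁ (χ - ψ)) α ^ 2 ≤ ip χ χ := by linarith
  refine ⟨le_antisymm b a, fun α hα => ?_⟩
  rw [virt_ci_eq hv (hS.virtual χ hχ α hα)]
  rcases sys_coeff_zero_or_one hS hχ hv k b α hα with h | h <;> simp [h]

end Cfsg.Agent.S1515
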