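import Cfsg.Statements.S1518
import Cfsg.Agent.PF.P5_9

set_option autoImplicit false
open Cfsg

namespace Cfsg.Agent.S1518

/-- Under the Dade hypothesis for (A, L, H): if χ is an irreducible character of L vanishing at every non-identity element of L outside A, then the Dade image of χ − conj χ equals μ − conj μ for some irreducible character μ of G. -/
theorem result {G : Type*} [Group G] [Fintype G] (A : Set G) (L : Subgroup G) [Fintype L] (H : G → Subgroup G) (hD : Cfsg.DadeHypothesis A L H) (χ : L → ℂ) (hχ : Cfsg.IsIrrCharacter L χ) (hsupp : ∀ x : L, x ≠ 1 → (x : G) ∉ A → χ x = 0) : ∃ μ : G → ℂ, Cfsg.IsIrrCharacter G μ ∧ Cfsg.dadeIsometry A L H (χ - Cfsg.conjFun χ) = μ - Cfsg.conjFun μ := by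
  obtain ⟨μ, hμ, e⟩ := PF.Dade_irr_sub_conjC hD (H52.extend_irr hχ) (fun x h1 hx => by
    by_cases hL : x ∈ L
    · exact (congrFun (H53.res_extendByZero L χ) ⟨x, hL⟩).trans
        (hsupp ⟨x, hL⟩ (fun e => h1 (congrArg Subtype.val e)) hx)
    · exact H53.extendByZero_not_mem L χ x hL)
  refine ⟨μ, H53.mem_irr_top.1 hμ, ?_⟩
  rw [← e, H54.dade_eq]
  congr 1
  funext x
  have := congrFun (H53.res_extendByZero L χ) x
  simp only [Pi.sub_apply, conjFun, this]

end Cfsg.Agent.S1518
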