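import Cfsg.Statements.S1521
import Cfsg.Agent.H3.CohBridge
import Cfsg.Agent.PF.P6_5

set_option autoImplicit false
open Cfsg

namespace Cfsg.Agent.S1521

/-- Let K be a solvable normal subgroup of the finite group L of odd order and (S, τ, R) a coherence system from L to G with S the functions induced from non-principal irreducible characters of K; S(A) as before. Let M ≤ K be normal in L with K/M nilpotent, H₁ = [K, K] ⊔ M, H₁ < K < L, and suppose every element of K outside H₁ is centralised modulo H₁ only from inside K (L/H₁ is a Frobenius group with kernel K/H₁). Suppose one of the following: some normal subgroup of L lies strictly between H₁ and K; or [K:H₁] > 4[L:K]^2 + 1; or [K:M] is not a prime power; or [K,K] ≤ M; or [K:M] is a power of a prime p with [L:K] dividing p − 1. Then S(M) is coherent. -/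
theorem result {L : Type*} [Group L] [Fintype L] {G : Type*} [Group G] [Fintype G] (K : Subgroup L) [hK : K.Normal] (hsolv : Group.IsSolvable K) (τ : (L → ℂ) → (G → ℂ)) (R : (L → ℂ) → Finset (G → ℂ)) (hS : Cfsg.IsCoherenceSystem (Cfsg.inducedIrrAbove K ⊥) τ R) (hodd : Odd (Nat.card L)) (M : Subgroup L) [M.Normal] (hMK : M ≤ K) [(M.subgroupOf K).Normal] (hnil : Group.IsNilpotent (↥K ⧸ M.subgroupOf K)) (H₁ : Subgroup L) (hH₁ : H₁ = ⁅K, K⁆ ⊔ M) (hH₁K : H₁ < K) (hKL : K < ⊤) (hfrob : ∀ k ∈ K, k ∉ H₁ → ∀ x : L, x * k * x⁻¹ * k⁻¹ ∈ H₁ → x ∈ K) (hgood : (∃ N : Subgroup L, N.Normal ∧ H₁ < N ∧ N < K) ∨ 4 * K.index ^ 2 + 1 < H₁.relIndex K ∨ (¬ ∃ p m : ℕ, p.Prime ∧ M.relIndex K = p ^ m) ∨ ⁅K, K⁆ ≤ M ∨ (∃ p m : ℕ, p.Prime ∧ M.relIndex K = p ^ m ∧ K.index ∣ p - 1)) : Cfsg.IsCoherent (Cfsg.inducedIrrAbove K M) {1}ᶜ τ := by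
  subst hH₁
  obtain ⟨T, hT, h⟩ := H3.exists_subcoherent_of_sys hS
  rw [H3.inducedIrrAbove_eq hMK]
  refine (h _ (H52.conjSub_seqIndD le_rfl bot_le)).2
    (H52.seqIndD_nonempty ⟨hMK, Subgroup.le_normalizer_of_normal⟩
      (le_sup_right.trans_lt hH₁K).not_ge) ?_
  refine (PF.non_coherent_chief hsolv hT ⟨by rwa [Subgroup.card_top],
    ⟨le_top, Subgroup.le_normalizer_of_normal⟩, ⟨le_top, Subgroup.le_normalizer_of_normal⟩, hMK,
    Group.nilpotent_of_mulEquiv (H49.quoEquiv Subgroup.le_normalizer_of_normal), hH₁K, hKL.ne,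
    fun k hk hk' x _ => hfrob k hk hk' x⟩).resolve_right ?_
  rintro ⟨h1, h2, p, hp, ⟨m, hm⟩, h3, h4⟩
  rw [Subgroup.relIndex_top_right] at h2 h4
  rcases hgood with ⟨N, hN, h5, h6⟩ | h5 | h5 | h5 | ⟨q, n, hq, h5, h6⟩
  · exact (h1 N ⟨le_top, Subgroup.le_normalizer_of_normal⟩ h5.le h6.le).elim h5.ne' h6.ne
  · exact h5.not_ge h2
  · exact h5 ⟨p, m, hp, hm⟩
  · exact h3 h5
  · have h7 : 1 < p ^ m := hm ▸ H3.one_lt_relIndex (le_sup_right.trans_lt hH₁K).not_ge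
    have hm0 : m ≠ 0 := by rintro rfl; simp at h7
    have h8 : p ∣ q ^ n := h5 ▸ hm ▸ dvd_pow_self p hm0
    exact h4 ((Nat.prime_dvd_prime_iff_eq hp hq).1 (hp.dvd_of_dvd_pow h8) ▸ h6)

end Cfsg.Agent.S1521
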