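import Cfsg.Statements.S1522
import Cfsg.Agent.H3.CohBridge
import Cfsg.Agent.PF.P6_6

set_option autoImplicit false
open Cfsg

namespace Cfsg.Agent.S1522

/-- Let K be a nilpotent normal subgroup of the finite group L of odd order with [K,K] < K < L and L/[K,K] a Frobenius group with kernel K/[K,K] (elements of K outside [K,K] are centralised modulo [K,K] only from inside K); let (S, τ, R) be a coherence system from L to G with S the functions induced from non-principal irreducible characters of K. Let Z be a nontrivial normal subgroup of L contained in the centre of K, and suppose every member of S outside S(Z) is an irreducible character of L. Then S minus S(Z) is the set of irreducible characters χ of L with χ z ≠ χ 1 for some z ∈ Z, and it is coherent. -/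
theorem result {L : Type*} [Group L] [Fintype L] {G : Type*} [Group G] [Fintype G] (K : Subgroup L) [hK : K.Normal] (hsolv : Group.IsSolvable K) (τ : (L → ℂ) → (G → ℂ)) (R : (L → ℂ) → Finset (G → ℂ)) (hS : Cfsg.IsCoherenceSystem (Cfsg.inducedIrrAbove K ⊥) τ R) (hodd : Odd (Nat.card L)) (hnil : Group.IsNilpotent K) (hH₁K : ⁅K, K⁆ < K) (hKL : K < ⊤) (hfrob : ∀ k ∈ K, k ∉ ⁅K, K⁆ → ∀ x : L, x * k * x⁻¹ * k⁻¹ ∈ ⁅K, K⁆ → x ∈ K) (Z : Subgroup L) [Z.Normal] (hZ1 : Z ≠ ⊥) (hZK : Z ≤ K) (hZc : ∀ z ∈ Z, ∀ k ∈ K, z * k = k * z) (hirr : ∀ χ ∈ Cfsg.inducedIrrAbove K ⊥ \ Cfsg.inducedIrrAbove K Z, Cfsg.IsIrrCharacter L χ) : Cfsg.inducedIrrAbove K ⊥ \ Cfsg.inducedIrrAbove K Z = {χ | Cfsg.IsIrrCharacter L χ ∧ ∃ z ∈ Z, χ z ≠ χ 1} ∧ Cfsg.IsCoherent (Cfsg.inducedIrrAbove K ⊥ \ Cfsg.inducedIrrAbove K Z) {1}ᶜ τ := by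
  obtain ⟨T, hT, h⟩ := H3.exists_subcoherent_of_sys hS
  have e : Cfsg.inducedIrrAbove K ⊥ \ Cfsg.inducedIrrAbove K Z =
      (H54.seqIndD K ⊤ Z ⊥ : Set (L → ℂ)) := by
    rw [H3.inducedIrrAbove_eq bot_le, H3.inducedIrrAbove_eq hZK]
    ext φ
    constructor
    · rintro ⟨h1, h2⟩
      obtain ⟨θ, hθ, -, h3, rfl⟩ := H54.mem_seqIndD.1 h1
      exact H54.mem_seqIndD.2 ⟨θ, hθ, bot_le,
        fun h4 => h2 (H54.mem_seqIndD.2 ⟨θ, hθ, h4, h3, rfl⟩), rfl⟩
    · exact fun h1 => ⟨(H52.conjSub_seqIndD hZK le_rfl).1 h1, fun h2 =>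
        H52.seqIndD_not_le_cfker le_top h1
          (H52.seqIndD_le_cfker le_top Subgroup.le_normalizer_of_normal h2)⟩
  rw [e] at hirr ⊢
  obtain ⟨h1, h2⟩ := PF.seqIndD_irr_coherence hT ⟨by rwa [Subgroup.card_top],
    ⟨le_top, Subgroup.le_normalizer_of_normal⟩, H49.NormalIn.bot ⊤, bot_le,
    H49.nilpotent_quo hnil ⊥, by rwa [sup_bot_eq], hKL.ne,
    fun k hk hk' x _ => by rw [sup_bot_eq] at hk' ⊢; exact hfrob k hk hk' x⟩
    ⟨le_top, Subgroup.le_normalizer_of_normal⟩ hZ1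
    (le_inf hZK fun z hz k hk => (hZc z hz k hk).symm)
    fun χ hχ => H52.mem_irr_top.2 (hirr χ hχ)
  refine ⟨?_, (h _ (H52.conjSub_seqIndD hZK le_rfl)).2
    (H52.seqIndD_nonempty (H49.NormalIn.bot K) fun e => hZ1 (le_bot_iff.1 e)) h2⟩
  ext χ
  rw [h1, Finset.mem_coe, H54.mem_irrKerD, Set.mem_setOf_eq, ← H52.mem_irr_top]
  refine and_congr_right fun hχ => ?_
  rw [H52.le_cfker_char (H52.irr_char hχ) (le_top : Z ≤ ⊤)]
  simp

end Cfsg.Agent.S1522
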