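import Cfsg.Statements.S1525
import Cfsg.Agent.PF.P7_1

set_option autoImplicit false
open Cfsg

namespace Cfsg.Agent.S1525



/-- Under the Dade hypothesis for (A, L, H), let χ be a class function of G and let ψ be a function on L whose value at each a ∈ A is the average of χ over the coset a·H(a). Then (1/|G|) Σ |χ g|² over the elements g of G conjugate into some coset a·H(a) with a ∈ A is at least (1/|L|) Σ_{a ∈ A ∩ L} |ψ a|². -/
theorem result {G : Type*} [Group G] [Fintype G] (A : Set G) (L : Subgroup G) [Fintype L] (H : G → Subgroup G) (hD : Cfsg.DadeHypothesis A L H) (χ : G → ℂ) (hχ : Cfsg.IsClassFunction G χ) (ψ : L → ℂ) (hψ : ∀ a : L, (a : G) ∈ A → ψ a = (Nat.card (H a) : ℂ)⁻¹ * ∑ᶠ u ∈ (H a : Set G), χ (a * u)) : (Nat.card L : ℝ)⁻¹ * ∑ᶠ a ∈ {a : L | (a : G) ∈ A}, ‖ψ a‖ ^ 2 ≤ (Nat.card G : ℝ)⁻¹ * ∑ᶠ g ∈ {g : G | ∃ a ∈ A, ∃ u ∈ H a, ∃ x : G, x * g * x⁻¹ = a * u}, ‖χ g‖ ^ 2 := by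
  classical
  have h := (PF.leC_cfnorm_invDade_support hD (H52.mem_CF_top.2 hχ)).1
  have e1 : {g : G | ∃ a ∈ A, ∃ u ∈ H a, ∃ x : G, x * g * x⁻¹ = a * u} = H54.dadeSupp A H := by
    ext g
    constructor
    · rintro ⟨a, ha, u, hu, x, e⟩
      exact ⟨a, ha, u, hu, x⁻¹, by rw [← e]; group⟩
    · rintro ⟨a, ha, u, hu, x, rfl⟩
      exact ⟨a, ha, u, hu, x⁻¹, by group⟩
  rw [e1, ← H52.sum_fin_eq_finsum (H54.dadeSupp A H)]
  refine le_trans (le_of_eq ?_) h
  rw [H52.nrm_eq_sum, H52.sum_fin_subgroup, finsum_mem_eq_finite_toFinset_sum _ (Set.toFinite _),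
    ← Finset.sum_subset (Finset.subset_univ (Set.toFinite {a : L | (a : G) ∈ A}).toFinset)]
  · congr 1
    refine Finset.sum_congr rfl (fun a ha => ?_)
    have ha' : (a : G) ∈ A := by simpa using ha
    rw [hψ a ha', H54.invDade_apply_of_mem H χ ha', H52.sum_fin_eq_finsum]
  · intro a _ ha
    have ha' : (a : G) ∉ A := by simpa using ha
    rw [H54.invDade_apply_of_not_mem H χ ha', norm_zero, zero_pow two_ne_zero]

end Cfsg.Agent.S1525
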