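import Cfsg.Statements.S1527
import Cfsg.Agent.H76.TICount

set_option autoImplicit false
open Cfsg

namespace Cfsg.Agent.S1527



/-- Let G be a finite group and H i (i in a finite index type) subgroups of pairwise coprime orders, each of whose underlying sets is a TI-subset of G, such that every non-identity element of G is conjugate to an element of some H i. Then Nat.card G − 1 = Σ_i [G : N_G(H i)] · (Nat.card (H i) − 1). -/
theorem result {G : Type*} [Group G] [Finite G] {ι : Type*} [Fintype ι] (H : ι → Subgroup G) (hcop : ∀ i j, i ≠ j → Nat.Coprime (Nat.card (H i)) (Nat.card (H j))) (hTI : ∀ i, Cfsg.IsTISubset (H i : Set G)) (hcover : ∀ g : G, g ≠ 1 → ∃ i, ∃ x : G, x * g * x⁻¹ ∈ H i) : Nat.card G - 1 = ∑ i, (Subgroup.normalizer (H i : Set G)).index * (Nat.card (H i) - 1) := by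
  classical
  have := Fintype.ofFinite G
  have h1 : ∀ i, (BG.clSupp ((H i : Set G) \ {1}) ⊤).ncard =
      (Subgroup.normalizer (H i : Set G)).index * (Nat.card (H i) - 1) := fun i => by
    rw [H76.ncard_clSupp (L := Subgroup.normalizer (H i : Set G)), mul_comm,
      Set.ncard_sdiff_singleton_of_mem (H i).one_mem, ← Nat.card_coe_set_eq]
    · rfl
    · intro g a ha hg
      by_contra hgL
      exact ha.2 (hTI i g hgL a ha.1 hg.1)
    · intro g hg a ha
      exact ⟨(Subgroup.mem_normalizer_iff.1 hg a).1 ha.1, fun e => ha.2 (by simpa using e)⟩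
  have hd : Pairwise (Function.onFun Disjoint fun i => BG.clSupp ((H i : Set G) \ {1}) ⊤) := by
    intro i j hij
    rw [Function.onFun, Set.disjoint_left]
    rintro g ⟨y, -, a, ha, rfl⟩ ⟨z, -, b, hb, e⟩
    have h1 : orderOf a = orderOf b := by
      have e1 : orderOf (y * a * y⁻¹) = orderOf a := (MulAut.conj y).orderOf_eq a
      have e2 : orderOf (z * b * z⁻¹) = orderOf b := (MulAut.conj z).orderOf_eq b
      rw [← e1, e, e2]
    have h2 : orderOf a ∣ Nat.card (H i) := Subgroup.orderOf_dvd_natCard _ ha.1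
    have h3 : orderOf a ∣ Nat.card (H j) := h1 ▸ Subgroup.orderOf_dvd_natCard _ hb.1
    exact ha.2 (orderOf_eq_one_iff.1 (Nat.eq_one_of_dvd_coprimes (hcop i j hij) h2 h3))
  have hU : (⋃ i, BG.clSupp ((H i : Set G) \ {1}) ⊤) = Set.univ \ {1} := by
    ext g
    simp only [Set.mem_iUnion, Set.mem_sdiff, Set.mem_univ, true_and, Set.mem_singleton_iff]
    constructor
    · rintro ⟨i, y, -, a, ha, rfl⟩ e
      exact ha.2 (by simpa using e)
    · intro hg
      obtain ⟨i, x, hx⟩ := hcover g hg
      exact ⟨i, x⁻¹, Subgroup.mem_top _, x * g * x⁻¹, ⟨hx, fun e => hg (by simpa using e)⟩,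
        by group⟩
  have h2 := Set.ncard_iUnion_of_finite (fun i => Set.toFinite _) hd
  rw [hU, Set.ncard_sdiff_singleton_of_mem (Set.mem_univ _), Set.ncard_univ,
    finsum_eq_sum_of_fintype] at h2
  rw [h2]
  exact Finset.sum_congr rfl (fun i _ => h1 i)

end Cfsg.Agent.S1527
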