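import Cfsg.Statements.S1530
import Cfsg.Agent.H53.Feit

set_option autoImplicit false
open Cfsg

namespace Cfsg.Agent.S1530

open Cfsg.Agent.H53

/-- Let N be a subgroup of the finite group G and S₀ a finite set of irreducible characters of N, χ an irreducible character of N not in S₀, with degrees ξ 1 = d ξ. Let τ be a linear isometry on the integer combinations of S₀ ∪ {χ} vanishing at 1, with values virtual characters of G vanishing at 1, such that (S₀, N minus 1, τ) is coherent. If some ψ ∈ S₀ has d ψ dividing d χ and 2 · d ψ · d χ < Σ_{ξ ∈ S₀} (d ξ)², then (S₀ ∪ {χ}, N minus 1, τ) is coherent. -/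
theorem result {G : Type*} [Group G] [Fintype G] (N : Subgroup G) [Fintype N] (S₀ : Finset (N → ℂ)) (χ : N → ℂ) (hirr : ∀ ξ ∈ S₀, Cfsg.IsIrrCharacter N ξ) (hχ : Cfsg.IsIrrCharacter N χ) (hχS : χ ∉ S₀) (d : (N → ℂ) → ℕ) (hd : ∀ ξ ∈ insert χ S₀, ξ 1 = (d ξ : ℂ)) (τ : (N → ℂ) → (G → ℂ)) (hτ : Cfsg.IsLinearIsometryOn (Cfsg.zspanOn (↑(insert χ S₀) : Set (N → ℂ)) {1}ᶜ) τ) (hτ1 : ∀ α ∈ Cfsg.zspanOn (↑(insert χ S₀) : Set (N → ℂ)) {1}ᶜ, τ α 1 = 0) (hcoh : Cfsg.IsCoherent (↑S₀ : Set (N → ℂ)) {1}ᶜ τ) (ψ : N → ℂ) (hψ : ψ ∈ S₀) (hdvd : d ψ ∣ d χ) (hlt : 2 * d ψ * d χ < ∑ ξ ∈ S₀, d ξ ^ 2) : Cfsg.IsCoherent (↑(insert χ S₀) : Set (N → ℂ)) {1}ᶜ τ := by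
  have hd' : ∀ ξ ∈ S₀, ξ 1 = (d ξ : ℂ) := fun ξ h => hd ξ (Finset.mem_insert_of_mem h)
  have dχ := hd χ (Finset.mem_insert_self _ _)
  clear hd
  rw [Finset.coe_insert] at hτ hτ1 ⊢
  obtain ⟨T, hT, hT1, e⟩ := exists_linear_isometryOn hτ hτ1
  obtain ⟨ν, hν⟩ := cohWith_of_isCoherent hcoh
  have hsub : (↑S₀ : Set (N → ℂ)) ⊆ insert χ ↑S₀ := Set.subset_insert _ _
  have hν' : CohWith (↑S₀) T ν := hν.congr fun α hα => (e α (zspanOn_mono hsub _ hα)).symm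
  obtain ⟨a, ha⟩ := hdvd
  have dψ := hd' ψ hψ
  have hirr' : ∀ x ∈ (insert χ ↑S₀ : Set (N → ℂ)), Cfsg.IsIrrCharacter N x := by
    rintro x (rfl | hx)
    exacts [hχ, hirr x hx]
  have h1 : χ 1 = ((a : ℤ) : ℂ) * ψ 1 := by rw [dχ, dψ, ha]; push_cast; ring
  have h2 : ∑ φ ∈ S₀, (φ 1).re ^ 2 = ∑ φ ∈ S₀, (d φ : ℝ) ^ 2 :=
    Finset.sum_congr rfl fun φ hφ => by rw [hd' φ hφ, Complex.natCast_re]
  have h3 : 2 * (χ 1).re * (ψ 1).re < ∑ φ ∈ S₀, (φ 1).re ^ 2 := by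
    rw [h2, dχ, dψ, Complex.natCast_re, Complex.natCast_re]
    have : ((2 * d ψ * d χ : ℕ) : ℝ) < ((∑ ξ ∈ S₀, d ξ ^ 2 : ℕ) : ℝ) := by exact_mod_cast hlt
    push_cast at this
    linarith
  obtain ⟨ν', h, -⟩ := feit_extend hirr' hT hT1 hsub hν' (Set.mem_insert _ _) hχS hψ (a : ℤ) h1 h3
  rw [Set.union_singleton] at h
  obtain ⟨α, hα, h0⟩ := hcoh.1
  exact isCoherent_of_cohWith (h.congr e) ⟨α, zspanOn_mono hsub _ hα, h0⟩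

end Cfsg.Agent.S1530
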