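import Cfsg.Statements.S1531
import Cfsg.Agent.H53.Feit

set_option autoImplicit false
open Cfsg

namespace Cfsg.Agent.S1531

open Cfsg.Agent.H53

/-- Let N be a subgroup of the finite group G, S a set of irreducible characters of N, and α a linear isometry on the integer combinations of S vanishing at 1 with values virtual characters of G vanishing at 1. Let X, Y ⊆ S be disjoint, each with at least two members, and σ, τ linear isometries on ℤ[X], ℤ[Y] into virtual characters agreeing with α on the members vanishing at 1. Then ⟨σ χ, τ η⟩ = 0 for χ ∈ X, η ∈ Y; and if for some χ₀ ∈ X, η₀ ∈ Y with degrees c = χ₀ 1, e = η₀ 1 one has α (c • η₀ − e • χ₀) = c • τ η₀ − e • σ χ₀, then (X ∪ Y, N minus 1, α) is coherent. -/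
theorem result {G : Type*} [Group G] [Fintype G] (N : Subgroup G) [Fintype N] (S X Y : Set (N → ℂ)) (hirr : ∀ ξ ∈ S, Cfsg.IsIrrCharacter N ξ) (hXS : X ⊆ S) (hYS : Y ⊆ S) (hXY : Disjoint X Y) (hX2 : ∃ a ∈ X, ∃ b ∈ X, a ≠ b) (hY2 : ∃ a ∈ Y, ∃ b ∈ Y, a ≠ b) (α : (N → ℂ) → (G → ℂ)) (hα : Cfsg.IsLinearIsometryOn (Cfsg.zspanOn S {1}ᶜ) α) (hα1 : ∀ θ ∈ Cfsg.zspanOn S {1}ᶜ, α θ 1 = 0) (σ τ : (N → ℂ) → (G → ℂ)) (hσ : Cfsg.IsLinearIsometryOn (Cfsg.zspan X) σ) (hσα : ∀ θ ∈ Cfsg.zspanOn X {1}ᶜ, σ θ = α θ) (hτ : Cfsg.IsLinearIsometryOn (Cfsg.zspan Y) τ) (hτα : ∀ θ ∈ Cfsg.zspanOn Y {1}ᶜ, τ θ = α θ) : (∀ χ ∈ X, ∀ η ∈ Y, Cfsg.classInner (σ χ) (τ η) = 0) ∧ ((∃ χ₀ ∈ X, ∃ η₀ ∈ Y, α (χ₀ 1 • η₀ - η₀ 1 • χ₀) = χ₀ 1 • τ η₀ - η₀ 1 • σ χ₀) → Cfsg.IsCoherent (X ∪ Y) {1}ᶜ α) := by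
  obtain ⟨T, hT, hT1, e⟩ := exists_linear_isometryOn hα hα1
  obtain ⟨ν₁, hν₁, e₁⟩ := cohWith_of_isometryOn (τ := T) hσ
    (fun θ h => by rw [hσα θ h, e θ (zspanOn_mono hXS _ h)])
  obtain ⟨ν₂, hν₂, e₂⟩ := cohWith_of_isometryOn (τ := T) hτ
    (fun θ h => by rw [hτα θ h, e θ (zspanOn_mono hYS _ h)])
  have hne : ∀ a ∈ X, ∀ b ∈ Y, a ≠ b := fun a ha b hb h => Set.disjoint_left.1 hXY ha (h ▸ hb)
  have other : ∀ {Z : Set (N → ℂ)}, (∃ a ∈ Z, ∃ b ∈ Z, a ≠ b) → ∀ c, ∃ d ∈ Z, c ≠ d := by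
    rintro Z ⟨a, ha, b, hb, hab⟩ c
    by_cases h : c = a
    · exact ⟨b, hb, h ▸ hab⟩
    · exact ⟨a, ha, h⟩
  have horth : ∀ χ ∈ X, ∀ η ∈ Y, Cfsg.classInner (ν₁ χ) (ν₂ η) = 0 := by
    intro χ hχ η hη
    obtain ⟨χ', hχ', n1⟩ := other hX2 χ
    obtain ⟨η', hη', n2⟩ := other hY2 η
    exact virt_ci_eq_zero (hν₁.virt χ hχ) (hν₂.virt η hη)
      (irr_cohWith_ortho hirr hT hT1 hXS hYS hν₁ hν₂ hχ hχ' n1 hη hη' n2 (hne _ hχ _ hη)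
        (hne _ hχ _ hη') (hne _ hχ' _ hη) (hne _ hχ' _ hη'))
  have hint : ∀ χ ∈ S, ∃ n : ℤ, χ 1 = n := fun χ h => virt_one_int (virt_of_irr (hirr χ h))
  refine ⟨fun χ hχ η hη => ?_, ?_⟩
  · rw [← e₁ χ (mem_zspan_of_mem hχ), ← e₂ η (mem_zspan_of_mem hη), horth χ hχ η hη]
  rintro ⟨χ₀, hχ₀, η₀, hη₀, h⟩
  have hm := cross_mem_zspanOn hint (hYS hη₀) (hXS hχ₀)
  have n1 := H5.degree_ne_zero (hirr _ (hXS hχ₀))
  have n2 := H5.degree_ne_zero (hirr _ (hYS hη₀))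
  obtain ⟨ν, hν, -⟩ := cohWith_bridge (χ := η₀ 1 • χ₀) (φ := χ₀ 1 • η₀) hν₁ hν₂
    (fun _ h => hint _ (hXS h)) (fun _ h => hint _ (hYS h))
    (fun a ha b hb => by
      rw [horth a ha b hb, irr_ci_ne (hirr _ (hXS ha)) (hirr _ (hYS hb)) (hne a ha b hb)])
    (Submodule.smul_mem _ _ (Submodule.subset_span hχ₀))
    (Submodule.smul_mem _ _ (Submodule.subset_span hη₀)) (by simp [mul_comm]) (by simp [n1, n2])
    (by
      rw [← neg_sub, map_neg, e _ hm, h, map_smul, map_smul, e₁ _ (mem_zspan_of_mem hχ₀),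
        e₂ _ (mem_zspan_of_mem hη₀), neg_sub])
  have hsub : X ∪ Y ⊆ S := Set.union_subset hXS hYS
  refine isCoherent_of_cohWith (hν.congr fun θ h => e θ (zspanOn_mono hsub _ h))
    ⟨_, cross_mem_zspanOn (fun _ h => hint _ (hsub h)) (Or.inr hη₀) (Or.inl hχ₀), fun h0 => ?_⟩
  have := congrArg (fun f => Cfsg.classInner f η₀) h0
  simp only [ci_sub_left, ci_smul_left, ci_zero_left, irr_ci_self (hirr _ (hYS hη₀)),
    irr_ci_ne (hirr _ (hXS hχ₀)) (hirr _ (hYS hη₀)) (hne _ hχ₀ _ hη₀)] at this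
  exact n1 (by simpa using this)

end Cfsg.Agent.S1531
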