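import Cfsg.Statements.S1532
import Cfsg.Agent.H53.TICoh
import Cfsg.Agent.S1522

set_option autoImplicit false
open Cfsg

namespace Cfsg.Agent.S1532

/-- Let G be a finite group, p an odd prime and P a Sylow p-subgroup that is non-abelian, whose underlying set is a TI-subset of G, with P properly contained in its set normaliser N and C_G(x) ≤ P for every non-identity x ∈ P. Let Z be a nontrivial subgroup of the centre of P normalised by N. Then the set of irreducible characters χ of N with χ z ≠ χ 1 for some z ∈ Z is coherent for the map induced by induction from N to G. -/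
theorem result {G : Type*} [Group G] [Fintype G] (p : ℕ) [Fact p.Prime] (hp : p ≠ 2) (P : Sylow p G) (hna : ¬ IsMulCommutative (P : Subgroup G)) (hTI : Cfsg.IsTISubset ((P : Subgroup G) : Set G)) (hlt : (P : Subgroup G) < Subgroup.normalizer ((P : Subgroup G) : Set G)) (hC : ∀ k ∈ (P : Subgroup G), k ≠ 1 → Subgroup.centralizer ({k} : Set G) ≤ (P : Subgroup G)) [Fintype ↥(Subgroup.normalizer ((P : Subgroup G) : Set G))] (Z : Subgroup G) (hZ1 : Z ≠ ⊥) (hZP : ∀ z ∈ Z, z ∈ (P : Subgroup G) ∧ ∀ y ∈ (P : Subgroup G), z * y = y * z) (hZn : ∀ x ∈ Subgroup.normalizer ((P : Subgroup G) : Set G), ∀ z ∈ Z, x * z * x⁻¹ ∈ Z) : Cfsg.IsCoherent {χ : ↥(Subgroup.normalizer ((P : Subgroup G) : Set G)) → ℂ | Cfsg.IsIrrCharacter ↥(Subgroup.normalizer ((P : Subgroup G) : Set G)) χ ∧ ∃ z : ↥(Subgroup.normalizer ((P : Subgroup G) : Set G)), (z : G) ∈ Z ∧ χ z ≠ χ 1} {1}ᶜ (fun α => Cfsg.indFun (Subgroup.normalizer ((P : Subgroup G) : Set G)) α) := by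
  have pp : p.Prime := Fact.out
  have hP1 : (P : Subgroup G) ≠ ⊥ := fun e => hna (e ▸ inferInstance)
  have h := H53.frobKer_of_cent hP1 hlt hC
  have h' := H53.frobKer_subgroupOf h
  obtain ⟨m, hm⟩ := P.isPGroup'.exists_card_eq
  have hodd := H53.frob_odd_of_nonabelian h hna (hm ▸ (pp.odd_of_ne_two hp).pow)
  let L := Subgroup.normalizer ((P : Subgroup G) : Set G)
  let K := (P : Subgroup G).subgroupOf L
  have hodd' : Odd (Nat.card (⊤ : Subgroup L)) := by rwa [Subgroup.card_top]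
  have hnil : Group.IsNilpotent K :=
    have := P.isPGroup'.isNilpotent
    Group.nilpotent_of_mulEquiv (Subgroup.subgroupOfEquivOfLe hlt.le).symm
  have fq := PF.oddFrobQuot_of_frobKer hodd' h' hnil
  have hirr : ∀ χ ∈ inducedIrrAbove K ⊥, IsIrrCharacter L χ := fun χ hχ => by
    rw [H3.inducedIrrAbove_eq bot_le] at hχ
    exact H52.mem_irr_top.1 (H53.frob_seqIndD_irr h' hχ)
  obtain ⟨R, hR, -⟩ := H53.irr_system (S := inducedIrrAbove K ⊥) (τ := fun α => indFun L α)
    (by
      rw [H3.inducedIrrAbove_eq bot_le]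
      exact H52.seqIndD_nonempty (H49.NormalIn.bot K) fun e => h'.ne_bot (le_bot_iff.1 e)) hirr
    (by
      rw [H3.inducedIrrAbove_eq bot_le]
      exact fun χ hχ => ⟨H52.conjFun_seqIndD hχ, H52.seqIndD_conjFun_ne h'.normal hodd' le_rfl hχ⟩)
    (by
      rw [H3.inducedIrrAbove_eq bot_le]
      exact H53.ti_isometry hlt.le le_rfl hTI) H53.indLin_one
  have : K.Normal := H49.normalIn_top_iff.1 h'.normal
  have : (Z.subgroupOf L).Normal := H49.normal_subgroupOf (H49.le_norm_iff.2 hZn)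
  have hZL : Z ≤ L := fun z hz => hlt.le (hZP z hz).1
  obtain ⟨e, hc⟩ := S1522.result K (H49.solvable_of_nilpotent hnil) _ R hR hodd hnil
    (le_sup_left.trans_lt fq.lt) (lt_top_iff_ne_top.2 h'.ne_top)
    (fun k hk hk' x hx => fq.frob k hk (by rw [sup_bot_eq]; exact hk') x trivial
      (Subgroup.mem_sup_left hx))
    (Z.subgroupOf L) (fun e => hZ1 ((Subgroup.subgroupOf_eq_bot.1 e).eq_bot_of_le hZL))
    (fun z hz => (hZP z hz).1) (fun z hz k hk => Subtype.ext ((hZP z hz).2 k hk))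
    (fun χ hχ => hirr χ hχ.1)
  rw [e] at hc
  exact hc

end Cfsg.Agent.S1532
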