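import Cfsg.Statements.S1533
import Cfsg.Agent.S1534

set_option autoImplicit false
open Cfsg

namespace Cfsg.Agent.S1533

/-- Let G be a finite group, p an odd prime, and P a nontrivial Sylow p-subgroup whose underlying set is a TI-subset of G, with P properly contained in its set normaliser N and C_G(x) ≤ P for every non-identity x ∈ P. Let S be the set of irreducible characters χ of N with χ x ≠ χ 1 for some x ∈ P. Then either S has exactly one member, P is elementary abelian and Nat.card P = [N:P] + 1; or (S, N minus 1, induction to G) is coherent. -/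
theorem result {G : Type*} [Group G] [Fintype G] (p : ℕ) [Fact p.Prime] (hp : p ≠ 2) (P : Sylow p G) (hP1 : (P : Subgroup G) ≠ ⊥) (hTI : Cfsg.IsTISubset ((P : Subgroup G) : Set G)) (hlt : (P : Subgroup G) < Subgroup.normalizer ((P : Subgroup G) : Set G)) (hC : ∀ k ∈ (P : Subgroup G), k ≠ 1 → Subgroup.centralizer ({k} : Set G) ≤ (P : Subgroup G)) [Fintype ↥(Subgroup.normalizer ((P : Subgroup G) : Set G))] : (Nat.card {χ : ↥(Subgroup.normalizer ((P : Subgroup G) : Set G)) → ℂ // Cfsg.IsIrrCharacter ↥(Subgroup.normalizer ((P : Subgroup G) : Set G)) χ ∧ ∃ x : ↥(Subgroup.normalizer ((P : Subgroup G) : Set G)), (x : G) ∈ (P : Subgroup G) ∧ χ x ≠ χ 1} = 1 ∧ Cfsg.IsElementaryAbelian p (P : Subgroup G) ∧ Nat.card (P : Subgroup G) = ((P : Subgroup G).subgroupOf (Subgroup.normalizer ((P : Subgroup G) : Set G))).index + 1) ∨ Cfsg.IsCoherent {χ : ↥(Subgroup.normalizer ((P : Subgroup G) : Set G)) → ℂ | Cfsg.IsIrrCharacter ↥(Subgroup.normalizer ((P : Subgroup G) : Set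 G)) χ ∧ ∃ x : ↥(Subgroup.normalizer ((P : Subgroup G) : Set G)), (x : G) ∈ (P : Subgroup G) ∧ χ x ≠ χ 1} {1}ᶜ (fun α => Cfsg.indFun (Subgroup.normalizer ((P : Subgroup G) : Set G)) α) := by
  have pp : p.Prime := Fact.out
  obtain ⟨m, hm⟩ := P.isPGroup'.exists_card_eq
  have hm0 : m ≠ 0 := by
    rintro rfl
    exact hP1 (Subgroup.card_eq_one.1 hm)
  rcases S1534.result (P : Subgroup G) hP1 P.isPGroup'.isNilpotent hTI hlt hC with
    ⟨h1, h2, q, hq, h3⟩ | ⟨h1, -⟩ | h
  · refine Or.inl ⟨h1, ?_, h2⟩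
    obtain ⟨k, hk, hk1⟩ := H49.ne_bot_iff_exists.1 hP1
    have := Fact.mk hq
    have h4 : q ∣ p ^ m := by
      rw [← hm, ← orderOf_eq_prime (h3.2 k hk) hk1]
      exact Subgroup.orderOf_dvd_natCard _ hk
    obtain rfl : q = p := (Nat.prime_dvd_prime_iff_eq hq pp).1 (hq.dvd_of_dvd_pow h4)
    exact h3
  · have h2 : p ∣ 2 ^ (Nat.card G).factorization 2 := by
      rw [← h1, hm]
      exact dvd_pow_self p hm0
    exact absurd ((Nat.prime_dvd_prime_iff_eq pp Nat.prime_two).1 (pp.dvd_of_dvd_pow h2)) hp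
  · exact Or.inr h

end Cfsg.Agent.S1533
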