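import Cfsg.Statements.S1536
import Cfsg.Agent.H6.FrobGroup

set_option autoImplicit false
open Cfsg

namespace Cfsg.Agent.S1536

/-- Let H be a normal subgroup of the finite group M whose order is coprime to its index. For x ∈ M: some non-principal irreducible character of H is unchanged under h ↦ θ(x h x⁻¹) if and only if some non-identity element of H commutes with x. -/
theorem result {M : Type*} [Group M] [Finite M] (H : Subgroup M) [hN : H.Normal] (hHall : Nat.Coprime (Nat.card H) H.index) (x : M) : (∃ θ : H → ℂ, Cfsg.IsIrrCharacter H θ ∧ θ ≠ (fun _ => 1) ∧ (fun h : H => θ ⟨x * h * x⁻¹, hN.conj_mem h h.2 x⟩) = θ) ↔ ∃ h ∈ H, h ≠ 1 ∧ x * h = h * x := by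
  classical
  constructor
  · rintro ⟨θ, hθ, hθ1, e⟩
    by_contra hcon
    push Not at hcon
    have hfpf : ∀ k ∈ H, x * k = k * x → k = 1 := fun k hk hc => by
      by_contra h1
      exact hcon k hk h1 hc
    refine hθ1 (H6.eq_one_of_comp_eq_of_forall_isConj (MulAut.conjNormal x : MulAut H)
      (fun g hg => ?_) hθ e)
    obtain ⟨y, hy⟩ := isConj_iff.1 hg.symm
    have hy' : (y : M) * (x * g * x⁻¹) * (y : M)⁻¹ = g := congrArg Subtype.val hy
    obtain ⟨a, ha, ea⟩ := H6.exists_conj_eq_mul_of_fpf H hfpf y.2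
    have h1 : a * g * a⁻¹ = 1 := by
      refine hfpf _ (hN.conj_mem _ g.2 a) ?_
      have h2 : (y * x) * g = g * (y * x) := by
        calc (y * x) * g = (y * (x * g * x⁻¹) * (y : M)⁻¹) * (y * x) := by group
          _ = _ := by rw [hy']
      rw [ea] at h2
      calc x * (a * g * a⁻¹) = a * (a⁻¹ * x * a * g) * a⁻¹ := by group
        _ = _ := by rw [h2]; group
    apply Subtype.ext
    simpa using h1
  · rintro ⟨h, hh, h1, hc⟩
    have key := H6.card_fixed_irr_eq_card_fixed_classes (G := H)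
      (fun h : H => (⟨x * h * x⁻¹, hN.conj_mem h h.2 x⟩ : H))
      (fun χ hχ => H6.isIrr_conjChar H hχ x)
    by_contra hcon
    push Not at hcon
    have hle : Nat.card {χ : IrrCharacter H // (fun g : H => (χ : H → ℂ)
        ⟨x * g * x⁻¹, hN.conj_mem g g.2 x⟩) = χ} ≤ 1 := by
      refine Finite.card_le_one_iff_subsingleton.2 ⟨fun a b => ?_⟩
      have ha : (a.1 : H → ℂ) = fun _ => 1 := by
        by_contra h'
        exact hcon _ a.1.2 h' a.2
      have hb : (b.1 : H → ℂ) = fun _ => 1 := by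
        by_contra h'
        exact hcon _ b.1.2 h' b.2
      exact Subtype.ext (Subtype.ext (ha.trans hb.symm))
    rw [key] at hle
    have hs := Finite.card_le_one_iff_subsingleton.1 hle
    have fix : ∀ k : H, x * k = k * x → ∀ g : H, ConjClasses.mk g = ConjClasses.mk k →
        IsConj g ⟨x * g * x⁻¹, hN.conj_mem g g.2 x⟩ := fun k hk g hg => by
      obtain ⟨c, rfl⟩ := isConj_iff.1 (ConjClasses.mk_eq_mk_iff_isConj.1 hg.symm)
      refine isConj_iff.2 ⟨⟨x * c * x⁻¹, hN.conj_mem c c.2 x⟩ * c⁻¹, Subtype.ext ?_⟩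
      have hk' : (k : M) = x * k * x⁻¹ := by rw [hk]; group
      simp only [Subgroup.coe_mul, Subgroup.coe_inv]
      calc _ = x * c * x⁻¹ * k * (x * c * x⁻¹)⁻¹ := by group
        _ = x * c * x⁻¹ * (x * k * x⁻¹) * (x * c * x⁻¹)⁻¹ := by rw [← hk']
        _ = _ := by group
    have e := hs.elim ⟨ConjClasses.mk ⟨h, hh⟩, fix ⟨h, hh⟩ hc⟩
      ⟨ConjClasses.mk 1, fix 1 (by simp)⟩
    have e' := ConjClasses.mk_eq_mk_iff_isConj.1 (congrArg Subtype.val e)
    rw [isConj_one_left] at e'
    exact h1 (congrArg Subtype.val e')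

end Cfsg.Agent.S1536
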