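import Cfsg.Statements.S1546
import Mathlib.Tactic
import Mathlib.FieldTheory.Finite.Basic

set_option autoImplicit false
open Cfsg

namespace Cfsg.Agent.S1546

/-- Let p and q be odd primes and N = (p ^ q − 1) / (p − 1) = 1 + p + ⋯ + p^(q−1). Then N is odd; if p ≡ 1 (mod q) then q ∣ N; and if p is not ≡ 1 (mod q) then N is coprime to p − 1 and every divisor of N is ≡ 1 (mod q). -/
theorem result (p q : ℕ) (hp : p.Prime) (hq : q.Prime) (hp2 : p ≠ 2) (hq2 : q ≠ 2) : Odd ((p ^ q - 1) / (p - 1)) ∧ (p % q = 1 → q ∣ (p ^ q - 1) / (p - 1)) ∧ (p % q ≠ 1 → Nat.Coprime ((p ^ q - 1) / (p - 1)) (p - 1) ∧ ∀ x : ℕ, x ∣ (p ^ q - 1) / (p - 1) → x % q = 1) := by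
  have hp1 : 2 ≤ p := hp.two_le
  have hN : (p ^ q - 1) / (p - 1) = ∑ i ∈ Finset.range q, p ^ i := (Nat.geomSum_eq hp1 q).symm
  rw [hN]
  have hpo : Odd p := hp.odd_of_ne_two hp2
  have hqo : Odd q := hq.odd_of_ne_two hq2
  -- the sum modulo any `d` with `p ≡ 1`
  have hmod : ∀ d : ℕ, (p : ZMod d) = 1 → ((∑ i ∈ Finset.range q, p ^ i : ℕ) : ZMod d) = q := by
    intro d hd
    push_cast
    simp [hd]
  have hmul : ∀ d : ℕ, ((∑ i ∈ Finset.range q, p ^ i : ℕ) : ZMod d) = 0 → (p : ZMod d) ^ q = 1 := by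
    intro d hd
    have := geom_sum_mul (p : ZMod d) q
    push_cast at hd
    rw [hd, zero_mul] at this
    exact (sub_eq_zero.1 this.symm)
  refine ⟨?_, fun h => ?_, fun h => ?_⟩
  · have h2 : (p : ZMod 2) = 1 := (ZMod.natCast_eq_one_iff_odd).2 hpo
    have := hmod 2 h2
    rw [(ZMod.natCast_eq_one_iff_odd).2 hqo] at this
    exact (ZMod.natCast_eq_one_iff_odd).1 this
  · have h1 : (p : ZMod q) = 1 := by
      rw [← ZMod.natCast_mod, h, Nat.cast_one]
    have := hmod q h1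
    rw [ZMod.natCast_self] at this
    exact (ZMod.natCast_eq_zero_iff _ _).1 this
  · have hne : ∀ r : ℕ, r.Prime → r ∣ ∑ i ∈ Finset.range q, p ^ i → (p : ZMod r) ≠ 1 := by
      intro r hr hd h1
      have h2 := hmod r h1
      rw [(ZMod.natCast_eq_zero_iff _ _).2 hd] at h2
      have h3 : r ∣ q := (ZMod.natCast_eq_zero_iff _ _).1 h2.symm
      have h4 : r = q := (Nat.prime_dvd_prime_iff_eq hr hq).1 h3
      subst h4
      apply h
      have h5 : ((p : ℕ) : ZMod r) = ((1 : ℕ) : ZMod r) := by simpa using h1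
      have h6 := (ZMod.natCast_eq_natCast_iff' p 1 r).1 h5
      rw [h6, Nat.mod_eq_of_lt hr.one_lt]
    have hprime : ∀ r : ℕ, r.Prime → r ∣ ∑ i ∈ Finset.range q, p ^ i → (r : ZMod q) = 1 := by
      intro r hr hd
      haveI := Fact.mk hr
      haveI := Fact.mk hq
      have h1 := hmul r ((ZMod.natCast_eq_zero_iff _ _).2 hd)
      have h2 : orderOf (p : ZMod r) = q := orderOf_eq_prime h1 (hne r hr hd)
      have h0 : (p : ZMod r) ≠ 0 := fun e => by
        rw [e, zero_pow hq.ne_zero] at h1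
        exact zero_ne_one h1
      have h3 : q ∣ r - 1 := h2 ▸ ZMod.orderOf_dvd_card_sub_one h0
      have h4 : ((r - 1 : ℕ) : ZMod q) = 0 := (ZMod.natCast_eq_zero_iff _ _).2 h3
      rw [Nat.cast_sub hr.one_le, Nat.cast_one] at h4
      exact sub_eq_zero.1 h4
    refine ⟨?_, fun x hx => ?_⟩
    · refine Nat.Coprime.symm (Nat.coprime_of_dvd fun r hr h1 h2 => hne r hr h2 ?_)
      have h4 : ((p - 1 : ℕ) : ZMod r) = 0 := (ZMod.natCast_eq_zero_iff _ _).2 h1
      rw [Nat.cast_sub hp.one_le, Nat.cast_one] at h4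
      exact sub_eq_zero.1 h4
    · have hx0 : x ≠ 0 := by
        rintro rfl
        have h0 := Nat.eq_zero_of_zero_dvd hx
        have : 0 < ∑ i ∈ Finset.range q, p ^ i :=
          Finset.sum_pos (fun i _ => pow_pos hp.pos i) ⟨0, Finset.mem_range.2 hq.pos⟩
        omega
      have h1 : (x : ZMod q) = 1 := by
        induction x using Nat.recOnMul with
        | zero => exact absurd rfl hx0
        | one => simp
        | prime r hr => exact hprime r hr hx
        | mul a b ha hb =>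
          rw [Nat.cast_mul, ha (dvd_of_mul_right_dvd hx) (left_ne_zero_of_mul hx0),
            hb (dvd_of_mul_left_dvd hx) (right_ne_zero_of_mul hx0), mul_one]
      have h5 : ((x : ℕ) : ZMod q) = ((1 : ℕ) : ZMod q) := by simpa using h1
      rw [(ZMod.natCast_eq_natCast_iff' x 1 q).1 h5, Nat.mod_eq_of_lt hq.one_lt]

end Cfsg.Agent.S1546
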