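import Cfsg.Statements.S1551
import Cfsg.Agent.H56.SxStab

set_option autoImplicit false
open scoped Pointwise
open Cfsg

namespace Cfsg.Agent.S1551

open H14 H55 H56 MulAction

/-- Structure of a sextet stabiliser: it induces every permutation of the six tetrads, the subgroup fixing each tetrad setwise has order 192, and there is a normal subgroup of order 64 consisting of elements squaring to the identity. -/
theorem result (S : Finset (Finset Cfsg.GolayPt)) (hS : S ∈ Cfsg.sextets) : (∀ e : Equiv.Perm ↥S, ∃ g ∈ MulAction.stabilizer Cfsg.M24 S, ∀ t : ↥S, (g : Equiv.Perm Cfsg.GolayPt) • (t : Finset Cfsg.GolayPt) = ((e t : ↥S) : Finset Cfsg.GolayPt)) ∧ Nat.card {g : ↥(MulAction.stabilizer Cfsg.M24 S) // ∀ t ∈ S, ((g : Cfsg.M24) : Equiv.Perm Cfsg.GolayPt) • t = t} = 192 ∧ ∃ N : Subgroup ↥(MulAction.stabilizer Cfsg.M24 S), N.Normal ∧ Nat.card N = 64 ∧ ∀ x ∈ N, x * x = 1 := by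
  obtain ⟨h1, h2⟩ := sx_sym hS
  rw [card_stab_sextet hS, hS.1, show Nat.factorial 6 = 720 by decide] at h2
  refine ⟨h1, by omega, ?_⟩
  obtain ⟨g, hg⟩ := sextet_trans S hS
  obtain ⟨e⟩ := stab_equiv hg
  obtain ⟨N, hN, h3, h4⟩ := sx_normal
  refine ⟨N.map e.toMonoidHom, hN.map _ e.surjective,
    (Subgroup.card_map_of_injective e.injective).trans h3, ?_⟩
  rintro _ ⟨x, hx, rfl⟩
  rw [← map_mul, h4 x hx, map_one]

end Cfsg.Agent.S1551
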