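import Cfsg.Statements.S1552
import Cfsg.Agent.H56.SubSelf
import Cfsg.Agent.H56.OrbSx

set_option autoImplicit false
open scoped Pointwise
open Cfsg

namespace Cfsg.Agent.S1552

open H55 H56

/-- A sextet stabiliser has four orbits on the 1771 sextets, of sizes 1, 90, 240, 1440; and the stabiliser is a maximal proper subgroup. -/
theorem result (S : Finset (Finset Cfsg.GolayPt)) (hS : S ∈ Cfsg.sextets) : ∃ X₁ ∈ Cfsg.sextets, ∃ X₂ ∈ Cfsg.sextets, ∃ X₃ ∈ Cfsg.sextets, (MulAction.orbit ↥(MulAction.stabilizer Cfsg.M24 S) X₁).ncard = 90 ∧ (MulAction.orbit ↥(MulAction.stabilizer Cfsg.M24 S) X₂).ncard = 240 ∧ (MulAction.orbit ↥(MulAction.stabilizer Cfsg.M24 S) X₃).ncard = 1440 ∧ Cfsg.sextets = {S} ∪ MulAction.orbit ↥(MulAction.stabilizer Cfsg.M24 S) X₁ ∪ MulAction.orbit ↥(MulAction.stabilizer Cfsg.M24 S) X₂ ∪ MulAction.orbit ↥(MulAction.stabilizer Cfsg.M24 S) X₃ ∧ IsCoatom (MulAction.stabilizer Cfsg.M24 S)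 := by
  have S0 := sx_sx_sub S hS
  obtain ⟨X₁, h1, X₂, h2, X₃, h3, e1, e2, e3, e⟩ := sub_self4 S0 hS (by decide) (by decide)
  exact ⟨X₁, h1, X₂, h2, X₃, h3, e1, e2, e3, e, sub_coatom S0 hS (fun g _ h => smul_mem_sextets g h)
    sextet_trans 0 (by decide) (by decide) (by decide +kernel)⟩

end Cfsg.Agent.S1552
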