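import Cfsg.Statements.S1554
import Cfsg.Agent.H56.OctStab

set_option autoImplicit false
open scoped Pointwise
open Cfsg

namespace Cfsg.Agent.S1554

open H14 H55 H56 MulAction

/-- An octad stabiliser is a split extension: the joint stabiliser of the octad and a point outside it is a complement to the pointwise stabiliser of the octad, and is isomorphic to the alternating group of degree 8. -/
theorem result (o : Finset Cfsg.GolayPt) (ho : o ∈ Cfsg.octads) (p : Cfsg.GolayPt) (hp : p ∉ o) : (Cfsg.M24 ⊓ fixingSubgroup (Equiv.Perm Cfsg.GolayPt) (o : Set Cfsg.GolayPt)) ⊓ (Cfsg.M24 ⊓ MulAction.stabilizer (Equiv.Perm Cfsg.GolayPt) o ⊓ MulAction.stabilizer (Equiv.Perm Cfsg.GolayPt) p) = ⊥ ∧ (Cfsg.M24 ⊓ fixingSubgroup (Equiv.Perm Cfsg.GolayPt) (o : Set Cfsg.GolayPt)) ⊔ (Cfsg.M24 ⊓ MulAction.stabilizer (Equiv.Perm Cfsg.GolayPt) o ⊓ MulAction.stabilizer (Equiv.Perm Cfsg.GolayPt) p) = (Cfsg.M24 ⊓ MulAction.stabilizer (Equiv.Perm Cfsg.GolayPt)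 o) ∧ Nonempty (↥(Cfsg.M24 ⊓ MulAction.stabilizer (Equiv.Perm Cfsg.GolayPt) o ⊓ MulAction.stabilizer (Equiv.Perm Cfsg.GolayPt) p) ≃* alternatingGroup (Fin 8)) := by
  have h1 : octK o ⊓ (octH o ⊓ stabilizer (Equiv.Perm GolayPt) p) = ⊥ :=
    eq_bot_iff.2 ((inf_le_inf_left _ inf_le_right).trans (octK_inf ho hp).le)
  refine ⟨h1, le_antisymm (sup_le octK_le inf_le_left) fun h hh => ?_, ?_⟩
  · obtain ⟨e, he, h2⟩ := exists_octK_mul ho hp hh
    simpa using Subgroup.mul_mem_sup (Subgroup.inv_mem _ he) h2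
  · let φ := (octRes o).comp (Subgroup.inclusion
      (inf_le_left : octH o ⊓ stabilizer (Equiv.Perm GolayPt) p ≤ _))
    have h2 : Function.Injective φ := (injective_iff_map_eq_one φ).2 fun g hg =>
      Subtype.ext (Subgroup.mem_bot.1 (h1 ▸ ⟨mem_ker_octRes.1 hg, g.2⟩))
    have h3 : φ.range = alternatingGroup o := by
      rw [← range_octRes ho]
      refine le_antisymm (by rintro _ ⟨g, rfl⟩; exact ⟨_, rfl⟩) ?_
      rintro _ ⟨g, rfl⟩
      obtain ⟨e, he, h2⟩ := exists_octK_mul ho hp g.2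
      refine ⟨⟨_, h2⟩, ?_⟩
      change octRes o (⟨e, octK_le he⟩ * g) = _
      rw [map_mul, mem_ker_octRes.2 he, one_mul]
    exact ⟨((MonoidHom.ofInjective h2).trans (MulEquiv.subgroupCongr h3)).trans
      (o.equivFinOfCardEq (octad_card ho)).altCongrHom⟩

end Cfsg.Agent.S1554
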