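import Cfsg.Statements.S1558
import Cfsg.Agent.H56.SxStab

set_option autoImplicit false
open scoped Pointwise
open Cfsg

namespace Cfsg.Agent.S1558

open H14 H55 H56 MulAction

/-- Structure of a trio stabiliser: every permutation of the three octads is induced, and there is a normal subgroup of order 64 of elements squaring to the identity whose quotient is isomorphic to the product of GL(3, 2) with the symmetric group of degree 3. -/
theorem result (T : Finset (Finset Cfsg.GolayPt)) (hT : T ∈ Cfsg.trios) : (∀ e : Equiv.Perm ↥T, ∃ g ∈ MulAction.stabilizer Cfsg.M24 T, ∀ o : ↥T, (g : Equiv.Perm Cfsg.GolayPt) • (o : Finset Cfsg.GolayPt) = ((e o : ↥T) : Finset Cfsg.GolayPt)) ∧ ∃ (N : Subgroup ↥(MulAction.stabilizer Cfsg.M24 T)) (_ : N.Normal), Nat.card N = 64 ∧ (∀ x ∈ N, x * x = 1) ∧ Nonempty (↥(MulAction.stabilizer Cfsg.M24 T) ⧸ N ≃* GL (Fin 3) (ZMod 2) × Equiv.Perm (Fin 3)) := by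
  refine ⟨(tr_sym hT).1, ?_⟩
  obtain ⟨g, hg⟩ := trio_trans T hT
  obtain ⟨e⟩ := stab_equiv hg
  obtain ⟨φ, h1, h3, h4⟩ := tr_normal
  refine ⟨(φ.comp e.symm.toMonoidHom).ker, inferInstance, ?_, fun x hx => e.symm.injective ?_,
    ⟨QuotientGroup.quotientKerEquivOfSurjective _ (h1.comp e.symm.surjective)⟩⟩
  · rw [← h3]
    exact Nat.card_congr (e.symm.toEquiv.subtypeEquiv fun _ => Iff.rfl)
  · rw [map_mul, map_one]; exact h4 _ hx

end Cfsg.Agent.S1558
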