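import Cfsg.Statements.S1560
import Cfsg.Agent.H55.Dodecad

set_option autoImplicit false
open scoped Pointwise
open Cfsg

namespace Cfsg.Agent.S1560

open Cfsg.Agent.H55 Cfsg.Agent.H14 MulAction

/-- Intersection numbers of dodecads: a dodecad meets every other dodecad in 0, 4, 6 or 8 points, meeting 495 of them in 4 points, 1584 in 6 points and 495 in 8 points. -/
theorem result (d : Finset Cfsg.GolayPt) (hd : d ∈ Cfsg.dodecads) : (∀ d' ∈ Cfsg.dodecads, d' ≠ d → (d ∩ d').card = 0 ∨ (d ∩ d').card = 4 ∨ (d ∩ d').card = 6 ∨ (d ∩ d').card = 8) ∧ {d' : Finset Cfsg.GolayPt | d' ∈ Cfsg.dodecads ∧ (d ∩ d').card = 4}.ncard = 495 ∧ {d' : Finset Cfsg.GolayPt | d' ∈ Cfsg.dodecads ∧ (d ∩ d').card = 6}.ncard = 1584 ∧ {d' : Finset Cfsg.GolayPt | d' ∈ Cfsg.dodecads ∧ (d ∩ d').card = 8}.ncard = 495 := by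
  have h := dod_suborbits d hd
  refine ⟨fun d' hd' hne => ?_, h.card 3, h.card 2, h.card 1⟩
  obtain ⟨i, hi⟩ := h.cover d' hd'
  fin_cases i
  · exfalso
    apply hne
    have h1 : (d ∩ d').card = 12 := hi
    have h2 : d ∩ d' = d := Finset.eq_of_subset_of_card_le Finset.inter_subset_left
      (by rw [h1, dodecad_card hd])
    have h3 : d ∩ d' = d' := Finset.eq_of_subset_of_card_le Finset.inter_subset_right
      (by rw [h1, dodecad_card hd'])
    rw [← h3, h2]
  · exact Or.inr (Or.inr (Or.inr hi))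
  · exact Or.inr (Or.inr (Or.inl hi))
  · exact Or.inr (Or.inl hi)
  · exact Or.inl hi

end Cfsg.Agent.S1560
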