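import Cfsg.Statements.S1562
import Cfsg.Agent.H56.OrbK

set_option autoImplicit false
open scoped Pointwise
open Cfsg

namespace Cfsg.Agent.S1562

open H55 H56

theorem card_inter_zero {s t : Finset GolayPt} : (s ∩ t).card = 0 ↔ Disjoint s t := by
  rw [Finset.card_eq_zero, Finset.disjoint_iff_inter_eq_empty]

/-- Orbits of a triad stabiliser on the triads disjoint from it: the 210 triads inside a common octad with it form one orbit and the remaining 1120 another. -/
theorem result (T : Finset Cfsg.GolayPt) (hT : T.card = 3) : {U : Finset Cfsg.GolayPt | U.card = 3 ∧ Disjoint T U ∧ (∃ o ∈ Cfsg.octads, T ∪ U ⊆ o)}.ncard = 210 ∧ {U : Finset Cfsg.GolayPt | U.card = 3 ∧ Disjoint T U ∧ ¬ (∃ o ∈ Cfsg.octads, T ∪ U ⊆ o)}.ncard = 1120 ∧ ∀ U U' : Finset Cfsg.GolayPt, U.card = 3 → U'.card = 3 → Disjoint T U → Disjoint T U' → ((∃ o ∈ Cfsg.octads, T ∪ U ⊆ o) ↔ (∃ o ∈ Cfsg.octads, T ∪ U' ⊆ o)) → ∃ g : Equiv.Perm Cfsg.GolayPt, g ∈ Cfsg.M24 ∧ g • T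 = T ∧ g • U = U' := by
  have S := tri_sub hT
  refine ⟨Eq.trans (congrArg _ (Set.ext fun x => ?_)) (S.card 2),
    Eq.trans (congrArg _ (Set.ext fun x => ?_)) (S.card 4), fun U U' h1 h2 h3 h4 h => ?_⟩
  · exact and_congr_right fun _ => by
      rw [← card_inter_zero, ← octI_eq_one]; exact (Prod.ext_iff (x := fT T x) (y := (0, 1))).symm
  · exact and_congr_right fun _ => by
      rw [← card_inter_zero, ← octI_eq_zero]; exact (Prod.ext_iff (x := fT T x) (y := (0, 0))).symm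
  · obtain ⟨g, hg⟩ := S.trans U h1 U' h2 (Prod.ext
      ((card_inter_zero.2 h3).trans (card_inter_zero.2 h4).symm) (octI_congr h))
    exact ⟨_, g.1.2, g.2, hg⟩

end Cfsg.Agent.S1562
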