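import Cfsg.Statements.S1565
import Cfsg.Agent.H55.Octad

set_option autoImplicit false
open scoped Pointwise
open Cfsg

namespace Cfsg.Agent.S1565

open Cfsg.Agent.H55 Cfsg.Agent.H14 MulAction

/-- The stabiliser of an octad is a maximal proper subgroup of the group of the length-24 code. -/
theorem result (o : Finset Cfsg.GolayPt) (ho : o ∈ Cfsg.octads) : IsCoatom (MulAction.stabilizer Cfsg.M24 o) := by
  have h := oct_suborbits o ho
  rw [← orbit_eq_of_trans (G := M24) (fun g _ h => m24_smul_mem_octads g h) oct_trans ho] at h
  exact h.isCoatom 0 (by simp [octad_card ho]) (by decide) (by decide)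

end Cfsg.Agent.S1565
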