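import Cfsg.Statements.S1568
import Cfsg.Agent.H15.Counts
import Cfsg.Agent.H15.Trans

set_option autoImplicit false
open Cfsg

namespace Cfsg.Agent.S1568

/-- Shape census of the lattice vectors of sum of squares 48 (customary norm 6): the four families (2^12, 0^12), (±3^3, ±1^21), (±4, ±2^8, 0^15) and (±5, ±1^23) have 5275648, 8290304, 3108864 and 98304 members. -/
theorem result : {x : Cfsg.GolayPt → ℤ | x ∈ Cfsg.leechLattice ∧ Cfsg.sqNorm x = 48 ∧ ∀ i, x i = 0 ∨ x i = 2 ∨ x i = -2}.ncard = 5275648 ∧ {x : Cfsg.GolayPt → ℤ | x ∈ Cfsg.leechLattice ∧ Cfsg.sqNorm x = 48 ∧ ∃ i j k, i ≠ j ∧ j ≠ k ∧ i ≠ k ∧ |x i| = 3 ∧ |x j| = 3 ∧ |x k| = 3}.ncard = 8290304 ∧ {x : Cfsg.GolayPt → ℤ | x ∈ Cfsg.leechLattice ∧ Cfsg.sqNorm x = 48 ∧ ∃ i, |x i| = 4}.ncard = 3108864 ∧ {x : Cfsg.GolayPt → ℤ | x ∈ Cfsg.leechLattice ∧ Cfsg.sqNorm x = 48 ∧ ∃ i, |x i| = 5}.ncard = 98304 := by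
  have c1 := (H15.ncard_vals {0, 2, -2} (by decide) 12).trans (by decide +kernel : _ = 5275648)
  have c2 := (H15.ncard_vals {1, -1, 3, -3} (by decide) 12).trans (by decide +kernel : _ = 8290304)
  have c3 := (H15.ncard_vals {0, 2, -2, 4, -4} (by decide) 12).trans (by decide +kernel : _ = 8384512)
  have c4 := (H15.ncard_vals {1, -1, 5, -5} (by decide) 12).trans (by decide +kernel : _ = 98304)
  simp only [Finset.mem_insert, Finset.mem_singleton, show (4 * ((12 : ℕ) : ℤ)) = 48 by norm_num]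
    at c1 c2 c3 c4
  refine ⟨c1, ?_, ?_, ?_⟩
  · rw [← c2]
    congr 1
    ext x
    refine and_congr_right fun hx => and_congr_right fun hn => ⟨fun ⟨i, j, k, a, b, c, d, e, f⟩ l => ?_,
      fun h => ?_⟩
    · have := H15.cnt_pos d
      rcases H15.shape48 hx hn with h | h | h | h <;>
        have h1 := h.abs_cases (by omega) l <;> have h2 := abs_cases (x l) <;> unfold H15.HasShape at h <;> omega
    · have h0 : H15.cnt x 0 = 0 := H15.cnt_eq_zero fun i => by have := h i; have := abs_cases (x i); omega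
      have h5 : H15.cnt x 5 = 0 := H15.cnt_eq_zero fun i => by have := h i; have := abs_cases (x i); omega
      obtain ⟨i, j, k, a, b, c, d, e, f⟩ := H15.pick3 (x := x) (k := 3) (by
        rcases H15.shape48 hx hn with h | h | h | h <;> unfold H15.HasShape at h <;> omega)
      exact ⟨i, j, k, a, c, b, d, e, f⟩
  · have hfin : {x : H15.Vec | x ∈ leechLattice ∧ sqNorm x = 48 ∧
        ∀ i, x i = 0 ∨ x i = 2 ∨ x i = -2 ∨ x i = 4 ∨ x i = -4}.Finite :=
      (H15.finite_sqNorm_le 48).subset fun x hx => le_of_eq hx.2.1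
    have := Set.ncard_diff (s := {x : H15.Vec | x ∈ leechLattice ∧ sqNorm x = 48 ∧
      ∀ i, x i = 0 ∨ x i = 2 ∨ x i = -2}) (t := {x : H15.Vec | x ∈ leechLattice ∧ sqNorm x = 48 ∧
        ∀ i, x i = 0 ∨ x i = 2 ∨ x i = -2 ∨ x i = 4 ∨ x i = -4})
      (fun x hx => ⟨hx.1, hx.2.1, fun i => by have := hx.2.2 i; omega⟩)
      (hfin.subset fun x hx => ⟨hx.1, hx.2.1, fun i => by have := hx.2.2 i; omega⟩)
    rw [c1, c3] at this
    rw [show 3108864 = 8384512 - 5275648 from rfl, ← this]
    congr 1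
    ext x
    constructor
    · rintro ⟨hx, hn, i, hi⟩
      refine ⟨⟨hx, hn, fun l => ?_⟩, fun h => by have := h.2.2 i; have := abs_cases (x i); omega⟩
      have := H15.cnt_pos hi
      rcases H15.shape48 hx hn with h | h | h | h <;>
        have h1 := h.abs_cases (by omega) l <;> have h2 := abs_cases (x l) <;> unfold H15.HasShape at h <;> omega
    · rintro ⟨⟨hx, hn, h1⟩, h2⟩
      refine ⟨hx, hn, ?_⟩
      by_contra h3
      exact h2 ⟨hx, hn, fun i => by have := h1 i; have := mt (fun h => ⟨i, h⟩) h3; have := abs_cases (x i); omega⟩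
  · rw [← c4]
    congr 1
    ext x
    refine and_congr_right fun hx => and_congr_right fun hn => ⟨fun ⟨i, d⟩ l => ?_, fun h => ?_⟩
    · have := H15.cnt_pos d
      rcases H15.shape48 hx hn with h | h | h | h <;>
        have h1 := h.abs_cases (by omega) l <;> have h2 := abs_cases (x l) <;> unfold H15.HasShape at h <;> omega
    · have h0 : H15.cnt x 0 = 0 := H15.cnt_eq_zero fun i => by have := h i; have := abs_cases (x i); omega
      have h5 : H15.cnt x 3 = 0 := H15.cnt_eq_zero fun i => by have := h i; have := abs_cases (x i); omega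
      exact H15.exists_of_cnt_pos (by
        rcases H15.shape48 hx hn with h | h | h | h <;> unfold H15.HasShape at h <;> omega)

end Cfsg.Agent.S1568
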