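import Cfsg.Statements.S1580
import Cfsg.Agent.H55.CfgThm

set_option autoImplicit false
open Cfsg

namespace Cfsg.Agent.S1580

open Cfsg.Agent.H15 Cfsg.Agent.H55

/-- The McLaughlin configuration: for u of customary norm 6 and v minimal with u − v minimal, there are 275 further such summands x of customary inner product 2 with v, permuted transitively by the stabiliser of u and v. -/
theorem result (u v : ↥Cfsg.leechLattice) (hu : Cfsg.sqNorm (u : Cfsg.GolayPt → ℤ) = 48) (hv : Cfsg.sqNorm (v : Cfsg.GolayPt → ℤ) = 32 ∧ Cfsg.sqNorm ((u - v) : Cfsg.GolayPt → ℤ) = 32) : {x : ↥Cfsg.leechLattice | Cfsg.sqNorm (x : Cfsg.GolayPt → ℤ) = 32 ∧ Cfsg.sqNorm ((u - x) : Cfsg.GolayPt → ℤ) = 32 ∧ Cfsg.dotInt (v : Cfsg.GolayPt → ℤ) (x : Cfsg.GolayPt → ℤ) = 16}.ncard = 275 ∧ ∀ x ∈ {x : ↥Cfsg.leechLattice | Cfsg.sqNorm (x : Cfsg.GolayPt → ℤ) = 32 ∧ Cfsg.sqNorm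 ((u - x) : Cfsg.GolayPt → ℤ) = 32 ∧ Cfsg.dotInt (v : Cfsg.GolayPt → ℤ) (x : Cfsg.GolayPt → ℤ) = 16}, ∀ x' ∈ {x : ↥Cfsg.leechLattice | Cfsg.sqNorm (x : Cfsg.GolayPt → ℤ) = 32 ∧ Cfsg.sqNorm ((u - x) : Cfsg.GolayPt → ℤ) = 32 ∧ Cfsg.dotInt (v : Cfsg.GolayPt → ℤ) (x : Cfsg.GolayPt → ℤ) = 16}, ∃ g : ↥Cfsg.Co0, g • u = u ∧ g • v = v ∧ g • x = x' := by
  have e : {x : leechLattice | sqNorm (x : Vec) = 32 ∧ sqNorm ((u : Vec) - (x : Vec)) = 32 ∧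
      dotInt (v : Vec) (x : Vec) = 16} = XS [v, u] [16, 24] := Set.ext fun y =>
    (and_congr_right fun hy => and_congr_left' (norm_sub_iff hu hy)).trans mem_XS2.symm
  have hv' : v ∈ XS [u] [24] := mem_XS1.2 ⟨hv.1, (norm_sub_iff hu hv.1).1 hv.2⟩
  rw [e]
  obtain ⟨h1, -, h2⟩ := (mcl1 hu hv').1 (16, 275) (by simp)
  refine ⟨h1, fun x hx y hy => ?_⟩
  obtain ⟨k, hk⟩ := (h2 x hx).ge hy
  exact ⟨k, k.2 u (by simp), k.2 v (by simp), hk⟩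

end Cfsg.Agent.S1580
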