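import Cfsg.Statements.S1582
import Cfsg.Agent.H55.CfgThm
import Cfsg.Agent.H55.IsoU43

set_option autoImplicit false
open Cfsg

namespace Cfsg.Agent.S1582

open Cfsg.Agent.H14 Cfsg.Agent.H15 Cfsg.Agent.H55

theorem aux (a b c d : ℕ) (h : a * b = c) (h1 : d * b = c) (h2 : 0 < b) : a = d :=
  Nat.eq_of_mul_eq_mul_right h2 (h.trans h1.symm)

/-- The point stabiliser in the rank-3 action of the McLaughlin group on 275 points is isomorphic to PSU(4, 3). -/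
theorem result (u v x : ↥Cfsg.leechLattice) (hu : Cfsg.sqNorm (u : Cfsg.GolayPt → ℤ) = 48) (hv : Cfsg.sqNorm (v : Cfsg.GolayPt → ℤ) = 32 ∧ Cfsg.sqNorm ((u - v) : Cfsg.GolayPt → ℤ) = 32) (hx : x ∈ {x : ↥Cfsg.leechLattice | Cfsg.sqNorm (x : Cfsg.GolayPt → ℤ) = 32 ∧ Cfsg.sqNorm ((u - x) : Cfsg.GolayPt → ℤ) = 32 ∧ Cfsg.dotInt (v : Cfsg.GolayPt → ℤ) (x : Cfsg.GolayPt → ℤ) = 16}) (F : Type) [Field F] [Fintype F] (hF : Fintype.card F = 9) : Nonempty (↥(MulAction.stabilizer ↥Cfsg.Co0 u ⊓ MulAction.stabilizer ↥Cfsg.Co0 v ⊓ MulAction.stabilizer ↥Cfsg.Co0 x) ≃* Cfsg.PSU 4 F 3) := by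
  have hv' : v ∈ XS [u] [24] := mem_XS1.2 ⟨hv.1, (norm_sub_iff hu hv.1).1 hv.2⟩
  have hx' : x ∈ XS [v, u] [16, 24] := mem_XS2.2 ⟨hx.1, (norm_sub_iff hu hx.1).1 hx.2.1, hx.2.2⟩
  obtain ⟨g, hg⟩ := tr_mcl2 hu hv' hx'
  obtain ⟨e'⟩ := Fx_equiv [lpt CfgMcL.x, lpt CfgMcL.v, lpt CfgMcL.u] g
  rw [hg] at e'
  have h1 := card_Fx_cons x [v, u]
  obtain ⟨h2, -, h3⟩ := (mcl1 hu hv').1 (16, 275) (by simp)
  have h4 : Fx [v, u] = MulAction.stabilizer Co0 v ⊓ MulAction.stabilizer Co0 (u - v) := by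
    ext k
    simp only [mem_Fx, List.forall_mem_cons, Subgroup.mem_inf, MulAction.mem_stabilizer_iff, co0_smul_sub]
    exact ⟨fun h => ⟨h.1, by rw [h.1, h.2.1]⟩, fun h => ⟨h.1, sub_left_injective (h.1 ▸ h.2 :), by simp⟩⟩
  rw [h3 x hx', h2, h4, card_McL v (u - v) hv.1 hv.2 (by
    rw [AddSubgroup.coe_sub, dot_sub_right, dot_self, hv.1, dot_comm, (mem_XS1.1 hv').2]; rfl),
    ← Nat.card_congr e'.toEquiv] at h1
  obtain ⟨e⟩ := IsoU43.equiv hF (aux _ _ _ _ h1 (by norm_num) (by norm_num))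
  rw [Fx_three]
  exact ⟨e'.symm.trans e⟩

end Cfsg.Agent.S1582
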