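import Cfsg.Statements.S1583
import Cfsg.Agent.H55.CfgThm

set_option autoImplicit false
open Cfsg

namespace Cfsg.Agent.S1583

open Cfsg.Agent.H15 Cfsg.Agent.H55

/-- The Higman–Sims configuration: for two vectors of customary norm 6 with inner product −4, exactly 100 minimal vectors have customary inner products 3 and −3 with them, and the joint stabiliser permutes these transitively. -/
theorem result (v w : ↥Cfsg.leechLattice) (hv : Cfsg.sqNorm (v : Cfsg.GolayPt → ℤ) = 48) (hw : Cfsg.sqNorm (w : Cfsg.GolayPt → ℤ) = 48) (hvw : Cfsg.dotInt (v : Cfsg.GolayPt → ℤ) (w : Cfsg.GolayPt → ℤ) = -32) : {x : ↥Cfsg.leechLattice | Cfsg.sqNorm (x : Cfsg.GolayPt → ℤ) = 32 ∧ Cfsg.dotInt (v : Cfsg.GolayPt → ℤ) (x : Cfsg.GolayPt → ℤ) = 24 ∧ Cfsg.dotInt (w : Cfsg.GolayPt → ℤ) (x : Cfsg.GolayPt → ℤ) = -24}.ncard = 100 ∧ ∀ x ∈ {x : ↥Cfsg.leechLattice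 | Cfsg.sqNorm (x : Cfsg.GolayPt → ℤ) = 32 ∧ Cfsg.dotInt (v : Cfsg.GolayPt → ℤ) (x : Cfsg.GolayPt → ℤ) = 24 ∧ Cfsg.dotInt (w : Cfsg.GolayPt → ℤ) (x : Cfsg.GolayPt → ℤ) = -24}, ∀ x' ∈ {x : ↥Cfsg.leechLattice | Cfsg.sqNorm (x : Cfsg.GolayPt → ℤ) = 32 ∧ Cfsg.dotInt (v : Cfsg.GolayPt → ℤ) (x : Cfsg.GolayPt → ℤ) = 24 ∧ Cfsg.dotInt (w : Cfsg.GolayPt → ℤ) (x : Cfsg.GolayPt → ℤ) = -24}, ∃ g : ↥Cfsg.Co0, g • v = v ∧ g • w = w ∧ g • x = x' := by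
  have e : {x : leechLattice | sqNorm (x : Vec) = 32 ∧ dotInt (v : Vec) (x : Vec) = 24 ∧
      dotInt (w : Vec) (x : Vec) = -24} = XS [w, v] [-24, 24] := Set.ext fun y => mem_XS2.symm
  rw [e]
  obtain ⟨h1, -, h2⟩ := (hs1 hv hw hvw).1 (-24, 100) (by simp)
  refine ⟨h1, fun x hx y hy => ?_⟩
  obtain ⟨k, hk⟩ := (h2 x hx).ge hy
  exact ⟨k, k.2 v (by simp), k.2 w (by simp), hk⟩

end Cfsg.Agent.S1583
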