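import Cfsg.Statements.S1584
import Cfsg.Agent.H55.CfgThm

set_option autoImplicit false
open Cfsg

namespace Cfsg.Agent.S1584

open Cfsg.Agent.H15 Cfsg.Agent.H55

/-- The Higman–Sims group acts with rank 3 and subdegrees 1, 22, 77 on its 100 points, the orbits of a point stabiliser being distinguished by customary inner product 1 with the fixed point. -/
theorem result (v w x : ↥Cfsg.leechLattice) (hv : Cfsg.sqNorm (v : Cfsg.GolayPt → ℤ) = 48) (hw : Cfsg.sqNorm (w : Cfsg.GolayPt → ℤ) = 48) (hvw : Cfsg.dotInt (v : Cfsg.GolayPt → ℤ) (w : Cfsg.GolayPt → ℤ) = -32) (hx : x ∈ {x : ↥Cfsg.leechLattice | Cfsg.sqNorm (x : Cfsg.GolayPt → ℤ) = 32 ∧ Cfsg.dotInt (v : Cfsg.GolayPt → ℤ) (x : Cfsg.GolayPt → ℤ) = 24 ∧ Cfsg.dotInt (w : Cfsg.GolayPt → ℤ) (x : Cfsg.GolayPt → ℤ) = -24}) : {y : ↥Cfsg.leechLattice | y ∈ {x : ↥Cfsg.leechLattice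 | Cfsg.sqNorm (x : Cfsg.GolayPt → ℤ) = 32 ∧ Cfsg.dotInt (v : Cfsg.GolayPt → ℤ) (x : Cfsg.GolayPt → ℤ) = 24 ∧ Cfsg.dotInt (w : Cfsg.GolayPt → ℤ) (x : Cfsg.GolayPt → ℤ) = -24} ∧ Cfsg.dotInt (x : Cfsg.GolayPt → ℤ) (y : Cfsg.GolayPt → ℤ) = 8}.ncard = 22 ∧ {y : ↥Cfsg.leechLattice | y ∈ {x : ↥Cfsg.leechLattice | Cfsg.sqNorm (x : Cfsg.GolayPt → ℤ) = 32 ∧ Cfsg.dotInt (v : Cfsg.GolayPt → ℤ) (x : Cfsg.GolayPt → ℤ) = 24 ∧ Cfsg.dotInt (w : Cfsg.GolayPt → ℤ) (x : Cfsg.GolayPt → ℤ) = -24} ∧ y ≠ x ∧ Cfsg.dotInt (x : Cfsg.GolayPt → ℤ) (y : Cfsg.GolayPt → ℤ) ≠ 8}.ncard = 77 ∧ ∀ y ∈ {x : ↥Cfsg.leechLattice | Cfsg.sqNorm (x : Cfsg.GolayPt → ℤ) = 32 ∧ Cfsg.dotInt (v : Cfsg.GolayPt → ℤ) (x : Cfsg.GolayPt → ℤ) = 24 ∧ Cfsg.dotInt (w : Cfsg.GolayPt → ℤ) (x : Cfsg.GolayPt → ℤ) = -24}, ∀ y' ∈ {x : ↥Cfsg.leechLattice | Cfsg.sqNorm (x : Cfsg.GolayPt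 → ℤ) = 32 ∧ Cfsg.dotInt (v : Cfsg.GolayPt → ℤ) (x : Cfsg.GolayPt → ℤ) = 24 ∧ Cfsg.dotInt (w : Cfsg.GolayPt → ℤ) (x : Cfsg.GolayPt → ℤ) = -24}, y ≠ x → y' ≠ x → (Cfsg.dotInt (x : Cfsg.GolayPt → ℤ) (y : Cfsg.GolayPt → ℤ) = 8 ↔ Cfsg.dotInt (x : Cfsg.GolayPt → ℤ) (y' : Cfsg.GolayPt → ℤ) = 8) → ∃ g : ↥Cfsg.Co0, g • v = v ∧ g • w = w ∧ g • x = x ∧ g • y = y' := by
  have e : {x : leechLattice | sqNorm (x : Vec) = 32 ∧ dotInt (v : Vec) (x : Vec) = 24 ∧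
      dotInt (w : Vec) (x : Vec) = -24} = XS [w, v] [-24, 24] := Set.ext fun y => mem_XS2.symm
  rw [e] at hx ⊢
  have h := hs2 hv hw hvw hx
  have k : ∀ y ∈ XS [w, v] [-24, 24], y ≠ x → dotInt (x : Vec) (y : Vec) ≠ 8 → dotInt (x : Vec) (y : Vec) = 16 := by
    intro y hy h1 h2
    obtain ⟨p, hp, e⟩ := h.2 y hy
    simp only [List.mem_cons, List.not_mem_nil, or_false] at hp
    rcases hp with rfl | rfl | rfl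
    exacts [absurd (eq_of_dot32 hx.1 hy.1 e) h1, absurd e h2, e]
  refine ⟨Eq.trans ?_ (h.1 (8, 22) (by simp)).1, Eq.trans ?_ (h.1 (16, 77) (by simp)).1,
    fun y hy z hz h1 h2 e => ?_⟩
  · congr 1
    ext y
    exact mem_XS_cons.symm
  · congr 1
    ext y
    refine Iff.trans (and_congr_right fun hy => ⟨fun h => k y hy h.1 h.2, fun h => ⟨?_, ?_⟩⟩) mem_XS_cons.symm
    · rintro rfl
      rw [dot_self, hx.1] at h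
      exact absurd h (by decide)
    · rw [show dotInt (x : Vec) (y : Vec) = 16 from h]; decide
  · obtain ⟨g, hk, e'⟩ := h.trans hy hz (by
      by_cases h3 : dotInt (x : Vec) (y : Vec) = 8
      · rw [h3, e.1 h3]
      · rw [k y hy h1 h3, k z hz h2 fun h4 => h3 (e.2 h4)])
    exact ⟨g, hk v (by simp), hk w (by simp), hk x (by simp), e'⟩

end Cfsg.Agent.S1584
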