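import Cfsg.Statements.S1585
import Cfsg.Agent.H15.Pairs

set_option autoImplicit false
open Cfsg

namespace Cfsg.Agent.S1585

/-- Two vectors of customary norm 6 with inner product −4 are exchanged by some automorphism of the lattice. -/
theorem result (v w : ↥Cfsg.leechLattice) (hv : Cfsg.sqNorm (v : Cfsg.GolayPt → ℤ) = 48) (hw : Cfsg.sqNorm (w : Cfsg.GolayPt → ℤ) = 48) (hvw : Cfsg.dotInt (v : Cfsg.GolayPt → ℤ) (w : Cfsg.GolayPt → ℤ) = -32) : ∃ g : ↥Cfsg.Co0, g • v = w ∧ g • w = v := by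
  have ha : sqNorm ((v + w : leechLattice) : H15.Vec) = 32 := by
    rw [AddSubgroup.coe_add, H15.sqNorm_add, hv, hw, hvw]; norm_num
  obtain ⟨g, h1, h2⟩ := H15.trans_pair_48_16 (v + w) v (v + w) w ha ha hv hw
    (by rw [AddSubgroup.coe_add, H15.dot_add_left, H15.dot_self, hv, H15.dot_comm, hvw]; norm_num)
    (by rw [AddSubgroup.coe_add, H15.dot_add_left, H15.dot_self, hw, hvw]; norm_num)
  refine ⟨g, h2, ?_⟩
  rw [H15.co0_smul_add, h2, add_comm v w] at h1
  exact add_left_cancel h1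

end Cfsg.Agent.S1585
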