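import Cfsg.Statements.S1589
import Cfsg.Agent.H56.M24Fix

set_option autoImplicit false
open scoped Pointwise
open Cfsg

namespace Cfsg.Agent.S1589

open H14 H55 H56 MulAction

/-- `H` is transitive on the points -/
def Tr (H : Subgroup M24) : Prop := ∀ y z : GolayPt, ∃ h ∈ H, h • y = z

/-- the point stabiliser `H_x` stabilises `U ∋ x` -/
def P (H : Subgroup M24) (x : GolayPt) (U : Finset GolayPt) : Prop :=
  x ∈ U ∧ ∀ k ∈ H, k • x = x → k • U = U

theorem P.smul {H : Subgroup M24} {x : GolayPt} {U : Finset GolayPt} (h : P H x U) {g : M24}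
    (hg : g ∈ H) : P H (g • x) (g • U) := by
  refine ⟨Finset.smul_mem_smul_finset h.1, fun k hk e => ?_⟩
  have := h.2 (g⁻¹ * k * g) (H.mul_mem (H.mul_mem (H.inv_mem hg) hk) hg)
    (by rw [mul_smul, mul_smul, e, inv_smul_smul])
  rwa [mul_smul, mul_smul, inv_smul_eq_iff] at this

theorem Tr.card {H : Subgroup M24} (h : Tr H) (x : GolayPt) :
    24 * Nat.card ↥(H ⊓ stabilizer M24 x) = Nat.card H := by
  obtain ⟨Δ, h1, -, h2⟩ := exists_orbit H x
  rwa [Finset.eq_univ_of_forall fun z => (h1 z).2 (h x z), Finset.card_univ, card_golayPt] at h2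

theorem Tr.exists_order {H : Subgroup M24} (h : Tr H) {p : ℕ} (hp : p.Prime)
    (hd : 24 * p ∣ Nat.card H) (x : GolayPt) : ∃ s ∈ H, s • x = x ∧ orderOf s = p := by
  rw [← h.card x] at hd
  obtain ⟨s, hs, e⟩ := exists_order_mem _ hp (Nat.dvd_of_mul_dvd_mul_left (by norm_num) hd)
  exact ⟨s, hs.1, hs.2, e⟩

theorem block_octad {H : Subgroup M24} {O : Finset GolayPt} (hO : OctOut H O) (hT : Tr H)
    (hd : 24 * 5 ∣ Nat.card H) (hP : ∀ x ∈ O, P H x O) : False := by
  have h8 := octad_card hO.mem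
  have key : ∀ h ∈ H, ∀ x ∈ O, h • x ∈ O → h • O = O := fun h hh x hx hy =>
    Finset.eq_of_subset_of_card_le (hO.subset (fun e he h1 => ((hP x hx).smul hh).2 e he (h1 _ hy))
      (by rw [Finset.card_smul_finset, h8]; norm_num)) (by rw [Finset.card_smul_finset])
  obtain ⟨x, hx⟩ := Finset.card_pos.1 (show 0 < O.card by omega)
  obtain ⟨c, hc, hcx, hc5⟩ := hT.exists_order (by norm_num) hd x
  have h4 := card_fix_eq (by norm_num) le_rfl hc5
  have h1 := card_modEq_fix (by norm_num) hc5 ((hP x hx).2 c hc hcx)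
  have h2 := Finset.card_le_card (Finset.inter_subset_right (s₁ := O) (s₂ := fixF c))
  obtain ⟨w, hw, hwO⟩ : ∃ w ∈ fixF c, w ∉ O := by
    by_contra! hn
    rw [Finset.inter_eq_right.2 hn] at h1
    omega
  obtain ⟨h, hh, rfl⟩ := hT x w
  have h3 := card_modEq_fix (by norm_num) hc5 (((hP x hx).smul hh).2 c hc (mem_fixF.1 hw))
  rw [Finset.card_smul_finset] at h3
  have h5 : Disjoint (O ∩ fixF c) (h • O ∩ fixF c) := by
    refine Finset.disjoint_left.2 fun z hz hz' => hwO ?_
    obtain ⟨a, ha, rfl⟩ := Finset.mem_smul_finset.1 (Finset.mem_inter.1 hz').1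
    exact (smul_mem_iff_of_smul_eq (key h hh a ha (Finset.mem_inter.1 hz).1)).2 hx
  have h6 := Finset.card_le_card (Finset.union_subset (Finset.inter_subset_right (s₁ := O))
    (Finset.inter_subset_right (s₁ := h • O) (s₂ := fixF c)))
  rw [Finset.card_union_of_disjoint h5] at h6
  omega

theorem le_or_tr {H : Subgroup M24} {O : Finset GolayPt} (hO : OctOut H O) (hI : OctIn H O) :
    H ≤ stabilizer M24 O ∨ Tr H := by
  obtain ⟨U, h1, h2, -, h3, -⟩ := hO.exists_inv
  rcases U.eq_empty_or_nonempty with rfl | ⟨y, hy⟩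
  · exact Or.inr fun y z => h3 y (by simp) z (by simp)
  · obtain rfl : U = O := Finset.Subset.antisymm h1 fun z hz => by
      obtain ⟨t, ht, -, rfl⟩ := hI y (h1 hy) z hz
      exact (smul_mem_iff_of_smul_eq (h2 t ht)).2 hy
    exact Or.inl h2

theorem exists_small {H : Subgroup M24} {O : Finset GolayPt} (hO : OctOut H O) (hI : OctIn H O)
    (hT : Tr H) (hd : 24 * 5 ∣ Nat.card H) : ∃ x U, U ⊆ O ∧ P H x U ∧ U.card ≤ 4 ∧
      24 * (24 - U.card) ∣ Nat.card H ∧ ∀ y ∉ U, ∀ z ∉ U, ∃ k ∈ H, k • x = x ∧ k • y = z := by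
  obtain ⟨x, hx⟩ := Finset.card_pos.1 (show 0 < O.card by rw [octad_card hO.mem]; norm_num)
  have hK : OctOut (H ⊓ stabilizer M24 x) O := ⟨hO.mem, fun y hy z hz =>
    let ⟨e, he, h1, h2⟩ := hO.out y hy z hz; ⟨e, ⟨he, h1 x hx⟩, h1, h2⟩⟩
  obtain ⟨U, h1, h2, h3, h4, h5⟩ := hK.exists_inv
  refine ⟨x, U, h1, ⟨h5 x hx fun k hk => hk.2, fun k hk e => h2 k ⟨hk, e⟩⟩, ?_,
    by rw [← hT.card x]; exact Nat.mul_dvd_mul_left _ h3, fun y hy z hz =>
      let ⟨k, hk, e⟩ := h4 y hy z hz; ⟨k, hk.1, hk.2, e⟩⟩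
  by_contra hc
  refine block_octad hO hT hd fun y hy => ?_
  obtain ⟨t, ht, e1, rfl⟩ := hI x hx y hy
  have : P H x O := ⟨hx, fun k hk e => smul_octad_eq k.2 hO.mem hO.mem h1 (by omega) fun a ha =>
    h1 ((smul_mem_iff_of_smul_eq (h2 k ⟨hk, e⟩)).2 ha)⟩
  have h6 := this.smul ht
  rwa [e1] at h6

theorem blocks {H : Subgroup M24} (hT : Tr H) {p : ℕ} (hp : p.Prime) (h5 : 5 ≤ p)
    (hd : 24 * p ∣ Nat.card H) {x : GolayPt} {U : Finset GolayPt} (hP : P H x U)
    (hc : U.card = 24 % p) {h : M24} (hh : h ∈ H) {y : GolayPt} (hy : y ∈ U) (hy' : y ∈ h • U) :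
    h • U = U := by
  have key : ∀ x U, P H x U → U.card = 24 % p → ∀ y ∈ U, P H y U := by
    intro x U hP hc y hy
    obtain ⟨s, hs, e, hsp⟩ := hT.exists_order hp hd x
    obtain ⟨k, hk, rfl⟩ := hT x y
    have h1 := eq_fix_of_card hp h5 hsp (hP.2 s hs e) hc
    have h2 := eq_fix_of_card hp h5 hsp ((hP.smul hk).2 s hs (mem_fixF.1 (h1 ▸ hy)))
      (by rw [Finset.card_smul_finset, hc])
    have h3 := hP.smul hk
    rwa [h2, ← h1] at h3
  obtain ⟨s, hs, e, hsp⟩ := hT.exists_order hp hd y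
  have hc' : (h • U).card = 24 % p := by rw [Finset.card_smul_finset, hc]
  rw [eq_fix_of_card hp h5 hsp ((key _ _ (hP.smul hh) hc' y hy').2 s hs e) hc',
    ← eq_fix_of_card hp h5 hsp ((key _ _ hP hc y hy).2 s hs e) hc]

theorem not_tr {H : Subgroup M24} {O : Finset GolayPt} (hO : OctOut H O) (hI : OctIn H O)
    (hc : Nat.card H = 322560 ∨ Nat.card H = 967680) : ¬ Tr H := by
  intro hT
  have hd5 : 24 * 5 ∣ Nat.card H := by rcases hc with h | h <;> rw [h] <;> norm_num
  have hd7 : 24 * 7 ∣ Nat.card H := by rcases hc with h | h <;> rw [h] <;> norm_num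
  obtain ⟨x, U, -, hP, h4, hd, -⟩ := exists_small hO hI hT hd5
  have h0 := Finset.card_pos.2 ⟨x, hP.1⟩
  obtain ⟨s, hs, e, hs7⟩ := hT.exists_order (by norm_num) hd7 x
  have h1 := card_modEq_fix (by norm_num) hs7 (hP.2 s hs e)
  have h2 := Finset.card_le_card (Finset.inter_subset_right (s₁ := U) (s₂ := fixF s))
  rw [card_fix_eq (by norm_num) (by norm_num) hs7] at h2
  have h3 : U.card = 3 := by
    have : U.card = 1 ∨ U.card = 2 ∨ U.card = 3 := by omega
    rcases this with h | h | h <;> rcases hc with h' | h' <;> rw [h, h'] at hd <;> omega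
  obtain ⟨c, hc', hcx, hc5⟩ := hT.exists_order (by norm_num) hd5 x
  have h5 := card_fix_eq (by norm_num) le_rfl hc5
  have key : ∀ W : Finset GolayPt, W.card = 3 → c • W = W → W ⊆ fixF c := fun W hW e => by
    have h6 := card_modEq_fix (by norm_num) hc5 e
    have h7 := Finset.card_le_card (Finset.inter_subset_left (s₁ := W) (s₂ := fixF c))
    exact Finset.inter_eq_left.1 (Finset.eq_of_subset_of_card_le Finset.inter_subset_left (by omega))
  have h8 := key U h3 (hP.2 c hc' hcx)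
  obtain ⟨w, hw, hwU⟩ : ∃ w ∈ fixF c, w ∉ U := by
    by_contra! hn
    have := Finset.card_le_card hn
    omega
  obtain ⟨h, hh, rfl⟩ := hT x w
  have h9 := key (h • U) (by rw [Finset.card_smul_finset, h3])
    ((hP.smul hh).2 c hc' (mem_fixF.1 hw))
  have h10 := Finset.card_le_card (Finset.union_subset h8 h9)
  have h11 := Finset.card_union_add_card_inter U (h • U)
  rw [Finset.card_smul_finset] at h11
  obtain ⟨y, hy⟩ := Finset.card_pos.1 (show 0 < (U ∩ h • U).card by omega)
  rw [Finset.mem_inter] at hy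
  exact hwU (blocks hT (by norm_num) (by norm_num) hd7 hP h3 hh hy.1 hy.2 ▸ (hP.smul hh).1)

theorem card_of_index {H : Subgroup M24} {n m : ℕ} (h : H.index = n) (e : n * m = 244823040) :
    Nat.card H = m := by
  have h1 := H.index_mul_card
  rw [h, card_M24, ← e] at h1
  exact Nat.eq_of_mul_eq_mul_left (Nat.pos_of_ne_zero (by rintro rfl; omega)) h1

theorem part1 (H : Subgroup M24) (hH : H.index = 759) : ∃ o ∈ octads, H = stabilizer M24 o := by
  obtain ⟨O, hO, hI⟩ := exists_oct_of_odd (H := H) (by rw [hH]; norm_num)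
  refine ⟨O, hO.mem, eq_stab_of_le ((le_or_tr hO hI).resolve_right
    (not_tr hO hI (Or.inl (card_of_index hH (by norm_num))))) ?_⟩
  rw [hH, ncard_orbit_octad hO.mem]

theorem part4 (H : Subgroup M24) : H.index ≠ 253 := by
  intro hH
  obtain ⟨O, hO, hI⟩ := exists_oct_of_odd (H := H) (by rw [hH]; norm_num)
  have hc : Nat.card H = 967680 := card_of_index hH (by norm_num)
  have := Subgroup.card_le_of_le ((le_or_tr hO hI).resolve_right (not_tr hO hI (Or.inr hc)))
  rw [hc, card_stab_octad hO.mem] at this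
  omega

theorem part3 (H : Subgroup M24) (hH : H.index = 1771) : ∃ S ∈ sextets, H = stabilizer M24 S := by
  classical
  obtain ⟨O, hO, hI⟩ := exists_oct_of_odd (H := H) (by rw [hH]; norm_num)
  have hc : Nat.card H = 138240 := card_of_index hH (by norm_num)
  have hT : Tr H := (le_or_tr hO hI).resolve_left fun h => by
    have := Subgroup.card_dvd_of_le h
    rw [hc, card_stab_octad hO.mem] at this
    omega
  have hd5 : 24 * 5 ∣ Nat.card H := by rw [hc]; norm_num
  obtain ⟨x, U, hUO, hP, h4, hd, htr⟩ := exists_small hO hI hT hd5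
  have h0 := Finset.card_pos.2 ⟨x, hP.1⟩
  have hU : U.card = 4 := by
    have : U.card = 1 ∨ U.card = 2 ∨ U.card = 3 ∨ U.card = 4 := by omega
    rcases this with h | h | h | h <;> rw [h, hc] at hd <;> omega
  have hB : ∀ a ∈ H, ∀ b ∈ H, ∀ z ∈ a • U, z ∈ b • U → a • U = b • U := fun a ha b hb z h1 h2 => by
    have := blocks hT (by norm_num) le_rfl hd5 hP hU (H.mul_mem (H.inv_mem hb) ha)
      (Finset.inv_smul_mem_iff.2 h2) (by rw [mul_smul]; exact Finset.smul_mem_smul_finset h1)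
    rwa [mul_smul, inv_smul_eq_iff] at this
  obtain ⟨y, hyO, hyU⟩ : ∃ y ∈ O, y ∉ U := by
    by_contra! hn
    have := Finset.card_le_card hn
    rw [octad_card hO.mem] at this
    omega
  obtain ⟨h, hh, rfl⟩ := hT x y
  have hV : U ∪ h • U = O := by
    refine Finset.eq_of_subset_of_card_le (Finset.union_subset hUO (hO.subset
      (fun e he h1 => (hP.smul hh).2 e he (h1 _ hyO)) (by rw [Finset.card_smul_finset]; omega))) ?_
    rw [Finset.card_union_of_disjoint, Finset.card_smul_finset, hU, octad_card hO.mem]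
    refine Finset.disjoint_left.2 fun z h1 h2 => hyU ?_
    have := hB 1 H.one_mem h hh z (by rwa [one_smul]) h2
    rw [one_smul] at this
    exact this ▸ (hP.smul hh).1
  let S : Finset (Finset GolayPt) := Finset.univ.filter fun W => ∃ a ∈ H, a • U = W
  have hS : ∀ W, W ∈ S ↔ ∃ a ∈ H, a • U = W := fun W => by simp [S]
  have h6 : S.card = 6 := by
    have h1 : S.biUnion id = Finset.univ := Finset.eq_univ_of_forall fun z => by
      obtain ⟨a, ha, rfl⟩ := hT x z
      exact Finset.mem_biUnion.2 ⟨_, (hS _).2 ⟨a, ha, rfl⟩, Finset.smul_mem_smul_finset hP.1⟩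
    have h2 := Finset.card_biUnion (s := S) (t := id) fun W hW W' hW' hne => by
      obtain ⟨a, ha, rfl⟩ := (hS _).1 hW
      obtain ⟨b, hb, rfl⟩ := (hS _).1 hW'
      exact Finset.disjoint_left.2 fun z h1 h2 => hne (hB a ha b hb z h1 h2)
    rw [h1, Finset.card_univ, card_golayPt, Finset.sum_congr rfl (g := fun _ => 4), Finset.sum_const,
      smul_eq_mul] at h2
    · omega
    · intro W hW
      obtain ⟨a, -, rfl⟩ := (hS _).1 hW
      rw [id, Finset.card_smul_finset, hU]
  refine ⟨S, ⟨h6, fun W hW => ?_, fun W hW W' hW' hne => ?_⟩, ?_⟩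
  · obtain ⟨a, -, rfl⟩ := (hS _).1 hW
    rw [Finset.card_smul_finset, hU]
  · obtain ⟨a, ha, rfl⟩ := (hS _).1 hW
    obtain ⟨b, hb, rfl⟩ := (hS _).1 hW'
    have hab := H.mul_mem (H.inv_mem ha) hb
    have hz : (a⁻¹ * b) • x ∉ U := fun hz => hne (hB a ha b hb (b • x)
      (by rwa [mul_smul, Finset.inv_smul_mem_iff] at hz) (Finset.smul_mem_smul_finset hP.1))
    obtain ⟨k, hk, e1, e2⟩ := htr _ hyU _ hz
    have h1 := hB _ hab _ (H.mul_mem hk hh) _ (Finset.smul_mem_smul_finset hP.1)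
      (by rw [← e2, ← mul_smul]; exact Finset.smul_mem_smul_finset hP.1)
    rw [mul_smul, inv_smul_eq_iff, mul_smul] at h1
    have h2 : a • U ∪ b • U = a • k • O := by
      rw [← hV, Finset.smul_finset_union, Finset.smul_finset_union, hP.2 k hk e1, h1]
    rw [h2]
    exact smul_mem_octads a.2 (smul_mem_octads k.2 hO.mem)
  · refine Subgroup.eq_of_le_of_card_ge (fun g hg => ?_) ?_
    · refine Finset.eq_of_subset_of_card_le (fun W hW => ?_) (by rw [Finset.card_smul_finset])
      obtain ⟨W, hW', rfl⟩ := Finset.mem_smul_finset.1 hW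
      obtain ⟨a, ha, rfl⟩ := (hS _).1 hW'
      exact (hS _).2 ⟨g * a, H.mul_mem hg ha, mul_smul _ _ _⟩
    · have h1 := card_eq_orbit_mul_stab (G := M24) U
      have h2 := choose_le_orbit (s := U) (by omega)
      rw [hU, show Nat.choose 24 4 = 10626 by decide] at h2
      rw [card_M24] at h1
      have h3 : Nat.card (stabilizer M24 U) ≤ 23040 := by
        by_contra hn
        nlinarith
      have h5 : (orbit (stabilizer M24 S) U).ncard ≤ 6 := by
        rw [← h6, ← Set.ncard_coe_finset]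
        refine Set.ncard_le_ncard ?_ (Set.toFinite _)
        rintro _ ⟨g, rfl⟩
        have := Finset.smul_mem_smul_finset (a := g.1) ((hS U).2 ⟨1, H.one_mem, one_smul _ _⟩)
        rwa [g.2] at this
      have h7 : Nat.card (stabilizer M24 (S, U)) ≤ 23040 :=
        (Subgroup.card_le_of_le fun g hg => congrArg Prod.snd hg).trans h3
      rw [card_stab_eq_mul S U, hc]
      exact (Nat.mul_le_mul h5 h7).trans (by norm_num)

theorem inv_card {K : Subgroup M24} (h7 : 7 ∣ Nat.card K) (h11 : 11 ∣ Nat.card K)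
    {U : Finset GolayPt} (hU : ∀ k ∈ K, k • U = U) : U.card ≤ 2 ∨ 22 ≤ U.card := by
  obtain ⟨s, hs, hs7⟩ := exists_order_mem K (by norm_num) h7
  obtain ⟨a, ha, ha11⟩ := exists_order_mem K (by norm_num) h11
  have h1 := card_modEq_fix (by norm_num) hs7 (hU s hs)
  have h2 := card_modEq_fix (by norm_num) ha11 (hU a ha)
  have h3 := Finset.card_le_card (Finset.inter_subset_right (s₁ := U) (s₂ := fixF s))
  have h4 := Finset.card_le_card (Finset.inter_subset_right (s₁ := U) (s₂ := fixF a))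
  rw [card_fix_eq (by norm_num) (by norm_num) hs7] at h3
  rw [card_fix_eq (by norm_num) (by norm_num) ha11] at h4
  omega

theorem exists_duad {K : Subgroup M24} (h7 : 7 ∣ Nat.card K) (h11 : 11 ∣ Nat.card K)
    (h23 : ¬ 23 ∣ Nat.card K) (hT : ¬ Tr K) :
    ∃ s : Finset GolayPt, s.card = 2 ∧ ∀ k ∈ K, k • s = s := by
  have key : ∀ y : GolayPt, (∀ k ∈ K, k • y = y) ∨ ∃ s : Finset GolayPt, s.card = 2 ∧ ∀ k ∈ K, k • s = s := by
    intro y
    obtain ⟨Δ, h1, h2, h3⟩ := exists_orbit K y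
    have hy : y ∈ Δ := (h1 y).2 ⟨1, K.one_mem, one_smul _ _⟩
    have h4 := Finset.card_pos.2 ⟨y, hy⟩
    have h5 := Finset.card_le_univ Δ
    rw [card_golayPt] at h5
    have h6 := inv_card h7 h11 h2
    have : Δ.card = 1 ∨ Δ.card = 2 ∨ Δ.card = 22 ∨ Δ.card = 23 ∨ Δ.card = 24 := by omega
    rcases this with h | h | h | h | h
    · exact Or.inl fun k hk => Finset.card_le_one.1 h.le _ ((h1 _).2 ⟨k, hk, rfl⟩) _ hy
    · exact Or.inr ⟨Δ, h, h2⟩
    · exact Or.inr ⟨Δᶜ, by rw [Finset.card_compl, h, card_golayPt],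
        fun k hk => smul_compl_eq (h2 k hk)⟩
    · exact absurd (h ▸ Dvd.intro _ h3) h23
    · refine absurd (fun a b => ?_) hT
      have h8 := Finset.eq_univ_of_card Δ (h.trans card_golayPt.symm)
      obtain ⟨k, hk, rfl⟩ := (h1 a).1 (h8 ▸ Finset.mem_univ a)
      obtain ⟨l, hl, rfl⟩ := (h1 b).1 (h8 ▸ Finset.mem_univ b)
      exact ⟨l * k⁻¹, K.mul_mem hl (K.inv_mem hk), by rw [mul_smul, inv_smul_smul]⟩
  rcases key (pt 0) with h0 | h0
  · rcases key (pt 1) with h1 | h1
    · exact ⟨{pt 0, pt 1}, by decide, fun k hk => by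
        rw [Finset.smul_finset_insert, Finset.smul_finset_singleton, h0 k hk, h1 k hk]⟩
    · exact h1
  · exact h0

theorem part2 (H : Subgroup M24) (hH : H.index = 276) :
    ∃ s : Finset GolayPt, s.card = 2 ∧ H = stabilizer M24 s := by
  have hc : Nat.card H = 887040 := card_of_index hH (by norm_num)
  have hT : ¬ Tr H := by
    intro hT
    have key : ∀ x : GolayPt, ∃ x', x' ≠ x ∧ ∀ k ∈ H, k • x = x → k • x' = x' := by
      intro x
      have h1 := hT.card x
      have h2 : Nat.card ↥(H ⊓ stabilizer M24 x) = 36960 := by omega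
      have h7 : 7 ∣ Nat.card ↥(H ⊓ stabilizer M24 x) := by rw [h2]; norm_num
      have h11 : 11 ∣ Nat.card ↥(H ⊓ stabilizer M24 x) := by rw [h2]; norm_num
      obtain ⟨s, hs, h3⟩ := exists_duad h7 h11 (by rw [h2]; norm_num) fun h => by
        obtain ⟨y, hy⟩ := exists_ne x
        obtain ⟨k, hk, e⟩ := h x y
        exact hy (e.symm.trans hk.2)
      have hx : x ∈ s := by
        by_contra hx
        have := inv_card h7 h11 (U := insert x s) fun k hk => by
          rw [Finset.smul_finset_insert, h3 k hk, show k • x = x from hk.2]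
        rw [Finset.card_insert_of_notMem hx] at this
        omega
      obtain ⟨x', hx'⟩ := Finset.card_eq_one.1
        (show (s.erase x).card = 1 by rw [Finset.card_erase_of_mem hx, hs])
      have h4 : ∀ z, z ≠ x ∧ z ∈ s ↔ z = x' := fun z => by
        rw [← Finset.mem_erase, hx', Finset.mem_singleton]
      obtain ⟨h5, h6⟩ := (h4 x').2 rfl
      exact ⟨x', h5, fun k hk e => (h4 _).1 ⟨fun h => h5 (MulAction.injective k (h.trans e.symm)),
        (smul_mem_iff_of_smul_eq (h3 k ⟨hk, e⟩)).2 h6⟩⟩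
    choose f hf1 hf2 using key
    have h11 : ∀ x, ∃ a ∈ H, fixF a = {x, f x} := fun x => by
      obtain ⟨a, ha, e, ha11⟩ := hT.exists_order (p := 11) (by norm_num) (by rw [hc]; norm_num) x
      refine ⟨a, ha, (Finset.eq_of_subset_of_card_le ?_ ?_).symm⟩
      · exact Finset.insert_subset (mem_fixF.2 e)
          (Finset.singleton_subset_iff.2 (mem_fixF.2 (hf2 x a ha e)))
      · rw [card_fix_eq (by norm_num) (by norm_num) ha11, Finset.card_pair (hf1 x).symm]
    have hcl : ∀ a ∈ H, ∀ x ∈ fixF a, f x ∈ fixF a := fun a ha x hx =>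
      mem_fixF.2 (hf2 x a ha (mem_fixF.1 hx))
    have hff : ∀ x, f (f x) = x := fun x => by
      obtain ⟨a, ha, e⟩ := h11 x
      have := hcl a ha (f x) (by simp [e])
      rw [e, Finset.mem_insert, Finset.mem_singleton] at this
      exact this.resolve_right (hf1 _)
    obtain ⟨s, hs, hs7⟩ := exists_order_mem H (p := 7) (by norm_num) (by rw [hc]; norm_num)
    have h3 := card_fix_eq (by norm_num) (by norm_num) hs7
    have h4 := Finset.sum_involution (s := fixF s) (f := fun _ => (1 : ZMod 2)) (fun x _ => f x)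
      (fun _ _ => rfl) (fun x _ _ => hf1 x) (fun x hx => hcl s hs x hx) (fun x _ => hff x)
    rw [Finset.sum_const, h3] at h4
    exact absurd h4 (by decide)
  obtain ⟨s, hs, h⟩ := exists_duad (K := H) (by rw [hc]; norm_num) (by rw [hc]; norm_num)
    (by rw [hc]; norm_num) hT
  refine ⟨s, hs, eq_stab_of_le h ?_⟩
  have := choose_le_orbit (s := s) (by omega)
  rw [hs] at this
  rw [hH]; exact this

/-- Subgroups of the group of the length-24 code of index 759, 276 and 1771 are exactly the octad, duad and sextet stabilisers, and no subgroup has index 253. -/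
theorem result : (∀ H : Subgroup ↥Cfsg.M24, H.index = 759 → ∃ o ∈ Cfsg.octads, H = MulAction.stabilizer Cfsg.M24 o) ∧ (∀ H : Subgroup ↥Cfsg.M24, H.index = 276 → ∃ s : Finset Cfsg.GolayPt, s.card = 2 ∧ H = MulAction.stabilizer Cfsg.M24 s) ∧ (∀ H : Subgroup ↥Cfsg.M24, H.index = 1771 → ∃ S ∈ Cfsg.sextets, H = MulAction.stabilizer Cfsg.M24 S) ∧ ∀ H : Subgroup ↥Cfsg.M24, H.index ≠ 253 := by
  exact ⟨part1, part2, part3, part4⟩

end Cfsg.Agent.S1589
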