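import Cfsg.Statements.S1590
import Cfsg.Agent.H56.TGolay

set_option autoImplicit false
open Cfsg

namespace Cfsg.Agent.S1590

open Cfsg.Agent.H56

/-- The length-12 ternary code has 729 words with weight distribution 0^1 6^264 9^440 12^24. -/
theorem result : Nat.card ↥Cfsg.ternaryGolayCode = 729 ∧ (∀ x ∈ Cfsg.ternaryGolayCode, x ≠ 0 → (Cfsg.ternarySupport x).card = 6 ∨ (Cfsg.ternarySupport x).card = 9 ∨ (Cfsg.ternarySupport x).card = 12) ∧ {x : Cfsg.ArrayPt → ZMod 3 | x ∈ Cfsg.ternaryGolayCode ∧ (Cfsg.ternarySupport x).card = 6}.ncard = 264 ∧ {x : Cfsg.ArrayPt → ZMod 3 | x ∈ Cfsg.ternaryGolayCode ∧ (Cfsg.ternarySupport x).card = 9}.ncard = 440 ∧ {x : Cfsg.ArrayPt → ZMod 3 | x ∈ Cfsg.ternaryGolayCode ∧ (Cfsg.ternarySupport x).card = 12}.ncard = 24 := by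
  refine ⟨?_, fun x hx h0 => tGolay_weight hx h0, ?_, ?_, ?_⟩
  · have h := ncard_tGolay (fun _ => True)
    simp only [and_true, Finset.filter_true, Finset.card_univ] at h
    rw [← SetLike.coe_sort_coe, Nat.card_coe_set_eq]
    exact h.trans (by simp [Fintype.card_prod, ZMod.card])
  · rw [ncard_tGolay (fun x => (Cfsg.ternarySupport x).card = 6)]; decide +kernel
  · rw [ncard_tGolay (fun x => (Cfsg.ternarySupport x).card = 9)]; decide +kernel
  · rw [ncard_tGolay (fun x => (Cfsg.ternarySupport x).card = 12)]; decide +kernel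

end Cfsg.Agent.S1590
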