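import Cfsg.Statements.S1591
import Cfsg.Agent.H56.TGolay

set_option autoImplicit false
open Cfsg

namespace Cfsg.Agent.S1591

open Cfsg.Agent.H56

/-- Any two words of the length-12 ternary code have dot product zero. -/
theorem result (x y : Cfsg.ArrayPt → ZMod 3) (hx : x ∈ Cfsg.ternaryGolayCode) (hy : y ∈ Cfsg.ternaryGolayCode) : ∑ p, x p * y p = 0 := by
  obtain ⟨⟨a, b, c, d, e, f⟩, rfl⟩ := mem_tGolay_iff.1 hx
  obtain ⟨⟨a', b', c', d', e', f'⟩, rfl⟩ := mem_tGolay_iff.1 hy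
  rw [Fintype.sum_prod_type, Fin.sum_univ_four]
  simp only [sum_zmod3]
  show a * a' + b * b' + c * c' +
    (d * d' + e * e' + (a + b + c + 2 * d + 2 * e) * (a' + b' + c' + 2 * d' + 2 * e')) +
    (f * f' + (2 * b + c + 2 * d + e + f) * (2 * b' + c' + 2 * d' + e' + f') +
      (a + 2 * b + d + 2 * e + f) * (a' + 2 * b' + d' + 2 * e' + f')) +
    ((a + 2 * b + 2 * c + 2 * d + 2 * f) * (a' + 2 * b' + 2 * c' + 2 * d' + 2 * f') +
      (a + c + d + e + 2 * f) * (a' + c' + d' + e' + 2 * f') +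
      (2 * a + 2 * b + c + 2 * e + 2 * f) * (2 * a' + 2 * b' + c' + 2 * e' + 2 * f')) = 0
  grind

end Cfsg.Agent.S1591
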