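import Cfsg.Statements.S1593
import Cfsg.Agent.H56.TGolay

set_option autoImplicit false
open Cfsg

namespace Cfsg.Agent.S1593

open Cfsg.Agent.H56

/-- Two positions with different signs contradict the minimum weight: we use explicit words. -/
theorem sign_eq (c : Cfsg.ArrayPt → (ZMod 3)ˣ)
    (h : (∀ x ∈ Cfsg.ternaryGolayCode, Cfsg.monomialMap 1 c x ∈ Cfsg.ternaryGolayCode))
    (v : W6) (p : Cfsg.ArrayPt) :
    tenc (tdec fun q => (c q : ZMod 3) * tenc v q) p = (c p : ZMod 3) * tenc v p :=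
  congrFun (tenc_tdec (h _ (tenc_mem v))) p

/-- The only sign changes preserving the length-12 ternary code are the identity and negation of all coordinates. -/
theorem result (c : Cfsg.ArrayPt → (ZMod 3)ˣ) (h : (∀ x ∈ Cfsg.ternaryGolayCode, Cfsg.monomialMap 1 c x ∈ Cfsg.ternaryGolayCode)) : (∀ p, c p = 1) ∨ (∀ p, c p = -1) := by
  have hu : ∀ p, (c p : ZMod 3) = 1 ∨ (c p : ZMod 3) = -1 := by
    intro p
    generalize c p = u
    revert u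
    decide
  have a1 : (c (0, 0) : ZMod 3) * 1 + c (0, 1) * 0 + c (0, 2) * 0 + 2 * (c (1, 0) * 0) +
      2 * (c (1, 1) * 0) = c (1, 2) * 1 := sign_eq c h (1, 0, 0, 0, 0, 0) (1, 2)
  have a2 : (c (0, 0) : ZMod 3) * 0 + c (0, 1) * 1 + c (0, 2) * 0 + 2 * (c (1, 0) * 0) +
      2 * (c (1, 1) * 0) = c (1, 2) * 1 := sign_eq c h (0, 1, 0, 0, 0, 0) (1, 2)
  have a3 : (c (0, 0) : ZMod 3) * 0 + c (0, 1) * 0 + c (0, 2) * 1 + 2 * (c (1, 0) * 0) +
      2 * (c (1, 1) * 0) = c (1, 2) * 1 := sign_eq c h (0, 0, 1, 0, 0, 0) (1, 2)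
  have a4 : (c (0, 0) : ZMod 3) * 0 + c (0, 1) * 0 + c (0, 2) * 0 + 2 * (c (1, 0) * 1) +
      2 * (c (1, 1) * 0) = c (1, 2) * 2 := sign_eq c h (0, 0, 0, 1, 0, 0) (1, 2)
  have a5 : (c (0, 0) : ZMod 3) * 0 + c (0, 1) * 0 + c (0, 2) * 0 + 2 * (c (1, 0) * 0) +
      2 * (c (1, 1) * 1) = c (1, 2) * 2 := sign_eq c h (0, 0, 0, 0, 1, 0) (1, 2)
  have a6 : 2 * ((c (0, 1) : ZMod 3) * 0) + c (0, 2) * 0 + 2 * (c (1, 0) * 0) + c (1, 1) * 0 +
      c (2, 0) * 1 = c (2, 1) * 1 := sign_eq c h (0, 0, 0, 0, 0, 1) (2, 1)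
  have a7 : 2 * ((c (0, 1) : ZMod 3) * 0) + c (0, 2) * 1 + 2 * (c (1, 0) * 0) + c (1, 1) * 0 +
      c (2, 0) * 0 = c (2, 1) * 1 := sign_eq c h (0, 0, 1, 0, 0, 0) (2, 1)
  have a8 : (c (0, 0) : ZMod 3) * 1 + 2 * (c (0, 1) * 0) + c (1, 0) * 0 + 2 * (c (1, 1) * 0) +
      c (2, 0) * 0 = c (2, 2) * 1 := sign_eq c h (1, 0, 0, 0, 0, 0) (2, 2)
  have a9 : (c (0, 0) : ZMod 3) * 1 + 2 * (c (0, 1) * 0) + 2 * (c (0, 2) * 0) +
      2 * (c (1, 0) * 0) + 2 * (c (2, 0) * 0) = c (3, 0) * 1 :=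
    sign_eq c h (1, 0, 0, 0, 0, 0) (3, 0)
  have a10 : (c (0, 0) : ZMod 3) * 1 + c (0, 2) * 0 + c (1, 0) * 0 + c (1, 1) * 0 +
      2 * (c (2, 0) * 0) = c (3, 1) * 1 := sign_eq c h (1, 0, 0, 0, 0, 0) (3, 1)
  have a11 : 2 * ((c (0, 0) : ZMod 3) * 1) + 2 * (c (0, 1) * 0) + c (0, 2) * 0 +
      2 * (c (1, 1) * 0) + 2 * (c (2, 0) * 0) = c (3, 2) * 2 :=
    sign_eq c h (1, 0, 0, 0, 0, 0) (3, 2)
  have hall : ∀ p, c p = c (0, 0) := by
    have e1 : (c (0, 1) : ZMod 3) = c (0, 0) := by grind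
    have e2 : (c (0, 2) : ZMod 3) = c (0, 0) := by grind
    have e3 : (c (1, 0) : ZMod 3) = c (0, 0) := by grind
    have e4 : (c (1, 1) : ZMod 3) = c (0, 0) := by grind
    have e5 : (c (1, 2) : ZMod 3) = c (0, 0) := by grind
    have e6 : (c (2, 0) : ZMod 3) = c (0, 0) := by grind
    have e7 : (c (2, 1) : ZMod 3) = c (0, 0) := by grind
    have e8 : (c (2, 2) : ZMod 3) = c (0, 0) := by grind
    have e9 : (c (3, 0) : ZMod 3) = c (0, 0) := by grind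
    have e10 : (c (3, 1) : ZMod 3) = c (0, 0) := by grind
    have e11 : (c (3, 2) : ZMod 3) = c (0, 0) := by grind
    rintro ⟨i, r⟩
    apply Units.ext
    fin_cases i <;> fin_cases r
    exacts [rfl, e1, e2, e3, e4, e5, e6, e7, e8, e9, e10, e11]
  rcases hu (0, 0) with h1 | h1
  · left; intro p; rw [hall p]; exact Units.ext h1
  · right; intro p; rw [hall p]; exact Units.ext h1

end Cfsg.Agent.S1593
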