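import Cfsg.Statements.S1594
import Cfsg.Agent.H56.THexad
import Cfsg.Agent.H56.Monomial
import Cfsg.Agent.S1593

set_option autoImplicit false
open Cfsg

namespace Cfsg.Agent.S1594

open Cfsg.Agent.H56
open scoped Pointwise

theorem code_finite : (Cfsg.ternaryGolayCode : Set (Cfsg.ArrayPt → ZMod 3)).Finite := Set.toFinite _

theorem support_monomial (σ : Equiv.Perm Cfsg.ArrayPt) (c : Cfsg.ArrayPt → (ZMod 3)ˣ)
    (x : Cfsg.ArrayPt → ZMod 3) :
    Cfsg.ternarySupport (Cfsg.monomialMap σ c x) = σ • Cfsg.ternarySupport x := by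
  ext p
  rw [← Finset.inv_smul_mem_iff]
  simp [Cfsg.ternarySupport, Cfsg.monomialMap, Equiv.Perm.inv_def]

theorem smul_subset {σ : Equiv.Perm Cfsg.ArrayPt} (hσ : σ ∈ monoPerm _ code_finite) :
    σ • tHex ⊆ tHex := by
  obtain ⟨c, hc⟩ := hσ
  rintro _ ⟨h, ⟨x, hx, rfl, h6⟩, rfl⟩
  exact ⟨_, hc x hx, support_monomial σ c x, by rwa [Finset.card_smul_finset]⟩

theorem le_aut : monoPerm _ code_finite ≤ Cfsg.setSystemAut tHex := by
  intro σ hσ
  refine Set.Subset.antisymm (smul_subset hσ) ?_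
  exact Set.subset_smul_set_iff.2 (smul_subset (inv_mem hσ))

theorem base_inj : Function.Injective fun i : Fin 5 => aI.pt i := by decide

theorem trans5 (e : Fin 5 → Cfsg.ArrayPt) (he : Function.Injective e) :
    ∃ g ∈ monoPerm _ code_finite, ∀ i : Fin 5, g • aI.pt i = e i :=
  exists_smul_base_eq (monoPerm _ code_finite) Set.univ (fun _ _ _ _ => trivial)
    (fun i : Fin 5 => aI.pt i) (fun i y _ hy => tAut_transversal i y hy) e he (fun _ => trivial)

theorem aut_le : Cfsg.setSystemAut tHex ≤ monoPerm _ code_finite := by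
  intro σ hσ
  obtain ⟨g, hg, hge⟩ := trans5 (fun i => σ • aI.pt i)
    (fun i j h => base_inj (MulAction.injective σ h))
  have : g⁻¹ * σ = 1 := tHex_aut_eq_one (mul_mem (inv_mem (le_aut hg)) hσ)
    (fun i => by rw [mul_smul, ← hge, inv_smul_smul])
  rwa [← inv_mul_eq_one.1 this]

theorem card_perm : Nat.card (monoPerm _ code_finite) = 95040 := by
  rw [card_eq_descFactorial _ _ base_inj trans5 (fun g hg h => tHex_aut_eq_one (le_aut hg) h)]
  decide

theorem card_diag : Nat.card {c : Cfsg.ArrayPt → (ZMod 3)ˣ //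
    ∀ x ∈ (Cfsg.ternaryGolayCode : Set (Cfsg.ArrayPt → ZMod 3)),
      Cfsg.monomialMap 1 c x ∈ (Cfsg.ternaryGolayCode : Set (Cfsg.ArrayPt → ZMod 3))} = 2 := by
  have hs : ∀ u : (ZMod 3)ˣ, ∀ x ∈ (Cfsg.ternaryGolayCode : Set (Cfsg.ArrayPt → ZMod 3)),
      Cfsg.monomialMap 1 (fun _ => u) x ∈ (Cfsg.ternaryGolayCode : Set (Cfsg.ArrayPt → ZMod 3)) :=
    fun u x hx => Cfsg.ternaryGolayCode.smul_mem (u : ZMod 3) hx
  rw [Nat.card_eq_two_iff]
  refine ⟨⟨fun _ => 1, hs 1⟩, ⟨fun _ => -1, hs (-1)⟩, fun h => ?_, ?_⟩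
  · have : (1 : (ZMod 3)ˣ) = -1 := congrFun (congrArg Subtype.val h) (0, 0)
    revert this
    decide
  · rw [Set.eq_univ_iff_forall]
    rintro ⟨c, hc⟩
    rcases Cfsg.Agent.S1593.result c hc with h | h
    · left; exact Subtype.ext (funext h)
    · right; exact Subtype.ext (funext h)

/-- The monomial automorphism group of the length-12 ternary code has order 190080 and its permutation parts are exactly the automorphisms of its hexad system. -/
theorem result : Nat.card {f : Equiv.Perm Cfsg.ArrayPt × (Cfsg.ArrayPt → (ZMod 3)ˣ) // (∀ x ∈ Cfsg.ternaryGolayCode, Cfsg.monomialMap f.1 f.2 x ∈ Cfsg.ternaryGolayCode)} = 190080 ∧ {σ : Equiv.Perm Cfsg.ArrayPt | ∃ c : Cfsg.ArrayPt → (ZMod 3)ˣ, (∀ x ∈ Cfsg.ternaryGolayCode, Cfsg.monomialMap σ c x ∈ Cfsg.ternaryGolayCode)} = (Cfsg.setSystemAut {h : Finset Cfsg.ArrayPt | ∃ x ∈ Cfsg.ternaryGolayCode, Cfsg.ternarySupport x = h ∧ h.card = 6} : Set (Equiv.Perm Cfsg.ArrayPt)) := by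
  constructor
  · have := card_monomial _ code_finite
    rw [card_perm, card_diag] at this
    exact this
  · exact congrArg SetLike.coe (le_antisymm le_aut aut_le)

end Cfsg.Agent.S1594
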