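import Cfsg.Statements.S1595
import Cfsg.Agent.H16.Steiner2

set_option autoImplicit false
open Cfsg

namespace Cfsg.Agent.S1595

open Cfsg.Agent.H16 Finset

section
variable {α : Type*} [Fintype α] [DecidableEq α]

theorem ncard_eq_nj (B : Set (Finset α)) (b s : Finset α) (hs : s ⊆ b) :
    {c : Finset α | c ∈ B ∧ b ∩ c = s}.ncard = nj B s (b \ s) 0 := by
  rw [nj, ← Set.ncard_coe_finset]
  congr 1
  ext c
  simp only [Set.mem_ofPred_eq, coe_filter, mem_blk, card_eq_zero]
  refine and_congr_right fun _ => ⟨?_, ?_⟩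
  · rintro rfl
    refine ⟨inter_subset_right, ?_⟩
    ext x; simp only [mem_inter, mem_sdiff, notMem_empty]; tauto
  · rintro ⟨h1, h2⟩
    ext x
    have h3 : x ∈ c ∩ (b \ s) ↔ x ∈ (∅ : Finset α) := by rw [h2]
    have h4 := @hs x
    have h5 := @h1 x
    simp only [mem_inter, mem_sdiff, notMem_empty] at h3 ⊢
    tauto

theorem nj_five {B : Set (Finset α)} (hB : Cfsg.IsSteinerSystem 5 6 B) {b : Finset α} (hb : b ∈ B)
    (s : Finset α) (hs : s ⊆ b) (j : ℕ) (hj : s.card + j = 5) : nj B s (b \ s) j = 0 := by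
  rw [nj_eq_zero_iff]
  intro c hc hsc h
  have h1 : c ∩ b = s ∪ (c ∩ (b \ s)) := by
    ext x
    have h4 := @hs x
    have h5 := @hsc x
    simp only [mem_inter, mem_sdiff, mem_union]
    tauto
  have h2 : (c ∩ b).card = 5 := by
    rw [h1, card_union_of_disjoint, h, hj]
    rw [disjoint_left]
    intro x hx
    simp [hx]
  have h3 : c = b := steiner_eq_of_inter hB hc hb (by omega)
  subst h3
  rw [inter_self, hB.1 c hc] at h2
  omega

end

/-- Leech triangle of S(5, 6, 12): blocks meet in 0, 2, 3 or 4 points, and a block is met exactly in a given 2-, 3- or 4-subset by 3, 2, 3 blocks respectively. -/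
theorem result {α : Type*} [Fintype α] [DecidableEq α] (hα : Fintype.card α = 12) {B : Set (Finset α)} (hB : Cfsg.IsSteinerSystem 5 6 B) (b : Finset α) (hb : b ∈ B) : (∀ c ∈ B, c ≠ b → (b ∩ c).card = 0 ∨ (b ∩ c).card = 2 ∨ (b ∩ c).card = 3 ∨ (b ∩ c).card = 4) ∧ ∀ s ⊆ b, (s.card = 2 → {c : Finset α | c ∈ B ∧ b ∩ c = s}.ncard = 3) ∧ (s.card = 3 → {c : Finset α | c ∈ B ∧ b ∩ c = s}.ncard = 2) ∧ (s.card = 4 → {c : Finset α | c ∈ B ∧ b ∩ c = s}.ncard = 3) := by
  refine ⟨fun c hc hcb => ?_, fun s hs => ?_⟩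
  · obtain ⟨-, h1, -⟩ := nj_5_6_12 hα hB hc
    have := nj_eq_zero_iff.1 h1 b hb (empty_subset _)
    have := steiner_inter_lt hB hb hc hcb.symm
    omega
  · have hd : Disjoint s (b \ s) := disjoint_sdiff
    have hW : (b \ s).card = 6 - s.card := by rw [card_sdiff_of_subset hs, hB.1 b hb]
    rw [ncard_eq_nj B b s hs]
    refine ⟨fun h => ?_, fun h => ?_, fun h => ?_⟩
    · have h0 := nj_eq hB hα s _ hd 0 30 (by omega) (by norm_num) (by rw [h]; decide)
      have h1 := nj_eq hB hα s _ hd 1 12 (by omega) (by norm_num) (by rw [h]; decide)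
      have h2 := nj_eq hB hα s _ hd 2 4 (by omega) (by norm_num) (by rw [h]; decide)
      have h3 := nj_eq hB hα s _ hd 3 1 (by omega) (by norm_num) (by rw [h]; decide)
      have h4 := nj_five hB hb s hs 3 (by omega)
      have h5 : nj B s (b \ s) 5 = 0 := nj_eq_zero_of_lt (by omega)
      have h6 : nj B s (b \ s) 6 = 0 := nj_eq_zero_of_lt (by omega)
      rw [hW, h] at h0 h1 h2 h3
      simp only [sum_range_succ, sum_range_zero, h4, h5, h6, Nat.choose] at h0 h1 h2 h3
      omega
    · have h0 := nj_eq hB hα s _ hd 0 12 (by omega) (by norm_num) (by rw [h]; decide)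
      have h1 := nj_eq hB hα s _ hd 1 4 (by omega) (by norm_num) (by rw [h]; decide)
      have h2 := nj_eq hB hα s _ hd 2 1 (by omega) (by norm_num) (by rw [h]; decide)
      have h3 := nj_five hB hb s hs 2 (by omega)
      have h4 : nj B s (b \ s) 4 = 0 := nj_eq_zero_of_lt (by omega)
      have h5 : nj B s (b \ s) 5 = 0 := nj_eq_zero_of_lt (by omega)
      have h6 : nj B s (b \ s) 6 = 0 := nj_eq_zero_of_lt (by omega)
      rw [hW, h] at h0 h1 h2
      simp only [sum_range_succ, sum_range_zero, h3, h4, h5, h6, Nat.choose] at h0 h1 h2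
      omega
    · have h0 := nj_eq hB hα s _ hd 0 4 (by omega) (by norm_num) (by rw [h]; decide)
      have h1 := nj_eq hB hα s _ hd 1 1 (by omega) (by norm_num) (by rw [h]; decide)
      have h2 := nj_five hB hb s hs 1 (by omega)
      have h3 : nj B s (b \ s) 3 = 0 := nj_eq_zero_of_lt (by omega)
      have h4 : nj B s (b \ s) 4 = 0 := nj_eq_zero_of_lt (by omega)
      have h5 : nj B s (b \ s) 5 = 0 := nj_eq_zero_of_lt (by omega)
      have h6 : nj B s (b \ s) 6 = 0 := nj_eq_zero_of_lt (by omega)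
      rw [hW, h] at h0 h1
      simp only [sum_range_succ, sum_range_zero, h2, h3, h4, h5, h6, Nat.choose] at h0 h1
      omega

end Cfsg.Agent.S1595
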