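import Cfsg.Statements.S1598
import Cfsg.Agent.H56.Quartet
import Cfsg.Agent.H9.SLBasic

set_option autoImplicit false
open scoped Pointwise
open Cfsg

namespace Cfsg.Agent.S1598

open H14 H55 H56 MulAction

def kA : List ℕ := [nat_lit 0x417285630, nat_lit 0x528174630]
def kB : List ℕ := [nat_lit 0x7ceae5b143b520d29e46892e848440, nat_lit 0x2de74788e05da4972a06886ad40c8c]
def kS : List ℕ := [nat_lit 0x1871e5d455331f75958e41b3da36045228b2440470881460c0, nat_lit 0xe81c7582d02547db4974d93da29e59130d5450880471060c0]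
def kCertL0 : Lev := ⟨nat_lit 10, nat_lit 0xa66be00, (.node (nat_lit 17) (.node (nat_lit 12) (.node (nat_lit 10) (.leaf (nat_lit 0x1481871e3105573913df4d649a35d6d92c92881870c4141080)) (.node (nat_lit 11) (.leaf (nat_lit 0x207de75c6da6585d65544d24503ce34c2ca2481c61440c2040)) (.leaf (nat_lit 0x1871e5d455331f75958e41b3da36045228b2440470881460c0)))) (.node (nat_lit 13) (.leaf (nat_lit 0xe5177e035055e6122dd69159331c24a64f6c6207103142040)) (.node (nat_lit 15) (.leaf (nat_lit 0x205dc75e6da6587d124e4125933d428b30d545103207182040)) (.leaf (nat_lit 0xe81c7582d02547db4974d93da29e59130d5450880471060c0))))) (.node (nat_lit 22) (.node (nat_lit 18) (.leaf (nat_lit 0x1461c7d74934607496de68b29058e3d934c5470c2185048100)) (.node (nat_lit 21) (.leaf (nat_lit 0xe7d471d6d03d85c955e4ca2da66034c4525811461c20c4200)) (.leaf (nat_lit 0x2039d71845a59e7db2974cf65049424b30d5471012050860c0)))) (.node (nat_lit 25) (.leaf (nat_lit 0x1e81f5ce49359d60a31c4092da45454d3d96c31c2146044200))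 (.node (nat_lit 27) (.leaf (nat_lit 0x1e81761d2da2947d549c4cd31024e5913d96c3048086107140)) (.leaf (nat_lit 0x206145df29a24e7156dd40c3532de64f4915821840c1207140))))))⟩
def kCertC0 : LevCert := ⟨kCertL0,
    [(nat_lit 11, nat_lit 0), (nat_lit 15, nat_lit 1), (nat_lit 27, nat_lit 1), (nat_lit 17, nat_lit 0), (nat_lit 18, nat_lit 0), (nat_lit 22, nat_lit 1), (nat_lit 13, nat_lit 0), (nat_lit 12, nat_lit 1), (nat_lit 21, nat_lit 1), (nat_lit 25, nat_lit 0), (nat_lit 9, nat_lit 1)],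
    [[nat_lit 0, nat_lit 2, nat_lit 2, nat_lit 2, nat_lit 0, nat_lit 2, nat_lit 0, nat_lit 2], [nat_lit 4, nat_lit 2, nat_lit 4, nat_lit 2, nat_lit 4, nat_lit 4, nat_lit 4, nat_lit 4, nat_lit 2, nat_lit 4, nat_lit 4, nat_lit 4, nat_lit 4, nat_lit 2, nat_lit 4]],
    [nat_lit 0x147d775c45a48e78f5604196d359830d2ca2441c1148083180, nat_lit 0x1d7947ce3d36dc80c45769535065859224a2c80430841851c0]⟩
def kCertL1 : Lev := ⟨nat_lit 12, nat_lit 0xa66b000, (.node (nat_lit 18) (.node (nat_lit 15) (.node (nat_lit 13) (.leaf (nat_lit 0x207de75c6da6585d65544d24503ce34c2ca2481c61440c2040)) (.leaf (nat_lit 0x147d775c45a48e78f5604196d359830d2ca2441c1148083180))) (.node (nat_lit 17) (.leaf (nat_lit 0x177a07ce35355851945d41b3da31c49624a2c40470881460c0)) (.leaf (nat_lit 0x1d5e07d859045c50d6de69531348e3d924a2c41820c80451c0)))) (.node (nat_lit 22) (.node (nat_lit 21) (.leaf (nat_lit 0x1779481c45048e7d53dd68c35359865b24a2c41820c80451c0)) (.leaf (nat_lit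 0x1f81e5ce49a59875931441b3d345c3552ca2441c1148083180))) (.node (nat_lit 25) (.leaf (nat_lit 0x1d7947ce3d36dc80c45769535065859224a2c80430841851c0)) (.node (nat_lit 27) (.leaf (nat_lit 0x1f51d5dc35331878f5a041b65a54e4912ca2480850441c3180)) (.leaf (nat_lit 0x1e5d47d831054e8126dd4d159a35c64f24a2c81870c4141080))))))⟩
def kCertC1 : LevCert := ⟨kCertL1,
    [(nat_lit 13, nat_lit 0), (nat_lit 22, nat_lit 1), (nat_lit 17, nat_lit 1), (nat_lit 15, nat_lit 0), (nat_lit 27, nat_lit 0), (nat_lit 21, nat_lit 1), (nat_lit 25, nat_lit 1), (nat_lit 18, nat_lit 1)],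
    [[nat_lit 0, nat_lit 2, nat_lit 0, nat_lit 2, nat_lit 0, nat_lit 0, nat_lit 0, nat_lit 2], [nat_lit 2, nat_lit 4, nat_lit 4, nat_lit 4, nat_lit 4]],
    [nat_lit 0x1779f5183da65c81235d4d64506ce54c24a2c41431c8181080, nat_lit 0x2051d79859a45c5db35f40f65348e54c2ca2441c1148083180]⟩
def kCertL2 : Lev := ⟨nat_lit 13, nat_lit 0x202000, (.node (nat_lit 21) (.leaf (nat_lit 0x207de75c6da6585d65544d24503ce34c2ca2481c61440c2040)) (.leaf (nat_lit 0x1779f5183da65c81235d4d64506ce54c24a2c41431c8181080)))⟩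
def kCertC2 : LevCert := ⟨kCertL2,
    [(nat_lit 21, nat_lit 0)],
    [[nat_lit 0, nat_lit 2, nat_lit 0, nat_lit 0, nat_lit 0, nat_lit 0]],
    [nat_lit 0x177547dc49a45880f55e41b65358e34c24a2c81421c40460c0]⟩
def kCertL3 : Lev := ⟨nat_lit 9, nat_lit 0xa00, (.node (nat_lit 11) (.leaf (nat_lit 0x207de75c6da6585d65544d24503ce34c2ca2481c61440c2040)) (.leaf (nat_lit 0x177547dc49a45880f55e41b65358e34c24a2c81421c40460c0)))⟩
def kCertC3 : LevCert := ⟨kCertL3,
    [(nat_lit 11, nat_lit 0)],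
    [],
    []⟩
def kCert : List LevCert := [kCertC0, kCertC1, kCertC2, kCertC3]
def kCertL : List Lev := [kCertL0, kCertL1, kCertL2, kCertL3]
def kCertAL0 : Lev := ⟨nat_lit 1, nat_lit 510, (.node (nat_lit 5) (.node (nat_lit 3) (.node (nat_lit 2) (.leaf (nat_lit 0x876543210)) (.leaf (nat_lit 0x453786120))) (.node (nat_lit 4) (.leaf (nat_lit 0x732651840)) (.leaf (nat_lit 0x264318750)))) (.node (nat_lit 7) (.node (nat_lit 6) (.leaf (nat_lit 0x528174630)) (.leaf (nat_lit 0x831642750))) (.node (nat_lit 8) (.leaf (nat_lit 0x417285630)) (.leaf (nat_lit 0x165327840)))))⟩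
def kCertAC0 : LevCert := ⟨kCertAL0,
    [(nat_lit 7, nat_lit 0), (nat_lit 5, nat_lit 1), (nat_lit 6, nat_lit 0), (nat_lit 4, nat_lit 1), (nat_lit 3, nat_lit 0), (nat_lit 8, nat_lit 1), (nat_lit 2, nat_lit 0)],
    [[nat_lit 2, nat_lit 0, nat_lit 2, nat_lit 2, nat_lit 2, nat_lit 0, nat_lit 2, nat_lit 0], [nat_lit 4, nat_lit 2, nat_lit 4]],
    [nat_lit 0x354768210, nat_lit 0x687435210]⟩
def kCertAL1 : Lev := ⟨nat_lit 3, nat_lit 504, (.node (nat_lit 6) (.node (nat_lit 4) (.leaf (nat_lit 0x876543210)) (.node (nat_lit 5) (.leaf (nat_lit 0x687435210)) (.leaf (nat_lit 0x768354210)))) (.node (nat_lit 7) (.leaf (nat_lit 0x543876210)) (.node (nat_lit 8) (.leaf (nat_lit 0x435687210)) (.leaf (nat_lit 0x354768210)))))⟩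
def kCertAC1 : LevCert := ⟨kCertAL1,
    [(nat_lit 8, nat_lit 0), (nat_lit 4, nat_lit 1), (nat_lit 7, nat_lit 1), (nat_lit 6, nat_lit 0), (nat_lit 5, nat_lit 1)],
    [],
    []⟩
def kCertA : List LevCert := [kCertAC0, kCertAC1]
def kCertAL : List Lev := [kCertAL0, kCertAL1]

instance fact3 : Fact (Nat.Prime 3) := Nat.fact_prime_three

theorem card_gl : Nat.card (GL (Fin 2) (ZMod 3)) = 48 := by
  rw [H9.card_gl_two, ZMod.card]; norm_num

theorem exists_hom : ∃ φ : stabilizer M24 (d0, Q0) →* GL (Fin 2) (ZMod 3),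
    Function.Surjective φ := by
  obtain ⟨φ, h, -⟩ := exists_surj_of_cert (F := GE)
    (E := vecEnc 3 (nat_lit 9) (nat_lit 4) (nat_lit 16) rfl rfl (by decide)) (N := nat_lit 33)
    (k := nat_lit 6) (M := nat_lit 64) rfl rfl (by decide)
    _ (incl_injective (stabilizer M24 (d0, Q0))) _ (glPerm_injective (Fin 2) (ZMod 3))
    (as := kA) (bs := kB) (cs := kS) (cert := kCert) (certA := kCertA)
    (by
      simp only [kA, List.forall_mem_cons]
      exact ⟨⟨⟨!![0, 2; 1, 1], !![1, 1; 2, 0], by decide, by decide⟩, by decide +kernel⟩,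
        ⟨⟨!![0, 1; 1, 1], !![2, 1; 1, 0], by decide, by decide⟩, by decide +kernel⟩, by simp⟩)
    (exists_pk_of_chkGens _ rel_dQ (by decide +kernel))
    (by decide +kernel) (by decide +kernel) (by decide +kernel)
    (by rw [quartet_counts.2]; decide +kernel) (by decide +kernel)
    (by rw [card_gl]; decide +kernel)
  exact ⟨φ, h⟩

/-- A quartet stabiliser inside the dodecad stabiliser has order 432, a normal subgroup of order 9 with quotient GL(2, 3), and is transitive on the dodecad. -/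
theorem result (d : Finset Cfsg.GolayPt) (hd : d ∈ Cfsg.dodecads) (Q : Finset (Finset Cfsg.GolayPt)) (hQ : Q ∈ Cfsg.quartets d) : Nat.card ↥(MulAction.stabilizer Cfsg.M24 d ⊓ MulAction.stabilizer Cfsg.M24 Q) = 432 ∧ (∃ (N : Subgroup ↥(MulAction.stabilizer Cfsg.M24 d ⊓ MulAction.stabilizer Cfsg.M24 Q)) (_ : N.Normal), Nat.card N = 9 ∧ Nonempty (↥(MulAction.stabilizer Cfsg.M24 d ⊓ MulAction.stabilizer Cfsg.M24 Q) ⧸ N ≃* GL (Fin 2) (ZMod 3))) ∧ ∀ p ∈ d, ∀ q ∈ d, ∃ g ∈ (MulAction.stabilizer Cfsg.M24 d ⊓ MulAction.stabilizer Cfsg.M24 Q), ((g : ↥Cfsg.M24) : Equiv.Perm Cfsg.GolayPt) p = q := by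
  obtain ⟨g, e⟩ := quartet_trans hd hQ
  rw [← stab_prod]
  obtain ⟨e1⟩ := stab_equiv e
  obtain ⟨φ, hφ⟩ := exists_hom
  have hc : Nat.card (stabilizer M24 (d, Q)) = 432 := by rw [← e, card_stab_smul, quartet_counts.2]
  have hψ : Function.Surjective (φ.comp e1.symm.toMonoidHom) := hφ.comp e1.symm.surjective
  refine ⟨hc, ⟨(φ.comp e1.symm.toMonoidHom).ker, inferInstance, ?_,
    ⟨QuotientGroup.quotientKerEquivOfSurjective _ hψ⟩⟩, fun x hx y hy => ?_⟩
  · have h1 := (φ.comp e1.symm.toMonoidHom).ker.card_mul_index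
    rw [Subgroup.index_ker, MonoidHom.range_eq_top.2 hψ, Subgroup.card_top, hc, card_gl] at h1
    omega
  have key : ∀ z ∈ d, ∃ a : M24, a • (d0, Q0) = (d, Q) ∧ ∀ i : Fin 1, a • pt 0 = z := fun z hz =>
    exists_smul_tuple q_chain.preChain
      (fun s : Finset GolayPt × Finset (Finset GolayPt) => (s.1 : Set GolayPt))
      (fun g a y hy => (m24_smul_mem_smul g).2 hy) 340831
      (fun y hy => by rw [tb_eq]; exact mem_bits.1 hy) 1 (by decide +kernel) e
      (fun _ => pt 0) (fun _ => z) (Function.injective_of_subsingleton _)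
      (Function.injective_of_subsingleton _) (fun _ => (by decide : pt 0 ∈ d0)) (fun _ => hz)
  obtain ⟨a, ha, ha'⟩ := key x hx
  obtain ⟨b, hb, hb'⟩ := key y hy
  refine ⟨b * a⁻¹, ?_, ?_⟩
  · rw [mem_stabilizer_iff, mul_smul, inv_smul_eq_iff.2 ha.symm, hb]
  · change (b * a⁻¹) • x = y
    rw [mul_smul, inv_smul_eq_iff.2 (ha' 0).symm, hb' 0]

end Cfsg.Agent.S1598
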