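import Cfsg.Statements.S1599
import Cfsg.Agent.H56.Quartet

set_option autoImplicit false
open scoped Pointwise
open Cfsg

namespace Cfsg.Agent.S1599

open H14 H55 H56 MulAction

/-- A quartet stabiliser has five orbits on the quartets of its dodecad, of sizes 1, 12, 27, 72, 108. -/
theorem result (d : Finset Cfsg.GolayPt) (hd : d ∈ Cfsg.dodecads) (Q : Finset (Finset Cfsg.GolayPt)) (hQ : Q ∈ Cfsg.quartets d) : ∃ X₁ ∈ Cfsg.quartets d, ∃ X₂ ∈ Cfsg.quartets d, ∃ X₃ ∈ Cfsg.quartets d, ∃ X₄ ∈ Cfsg.quartets d, (MulAction.orbit ↥(MulAction.stabilizer Cfsg.M24 d ⊓ MulAction.stabilizer Cfsg.M24 Q) X₁).ncard = 12 ∧ (MulAction.orbit ↥(MulAction.stabilizer Cfsg.M24 d ⊓ MulAction.stabilizer Cfsg.M24 Q) X₂).ncard = 27 ∧ (MulAction.orbit ↥(MulAction.stabilizer Cfsg.M24 d ⊓ MulAction.stabilizer Cfsg.M24 Q) X₃).ncard = 72 ∧ (MulAction.orbit ↥(MulAction.stabilizer Cfsg.M24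 d ⊓ MulAction.stabilizer Cfsg.M24 Q) X₄).ncard = 108 ∧ Cfsg.quartets d = {Q} ∪ MulAction.orbit ↥(MulAction.stabilizer Cfsg.M24 d ⊓ MulAction.stabilizer Cfsg.M24 Q) X₁ ∪ MulAction.orbit ↥(MulAction.stabilizer Cfsg.M24 d ⊓ MulAction.stabilizer Cfsg.M24 Q) X₂ ∪ MulAction.orbit ↥(MulAction.stabilizer Cfsg.M24 d ⊓ MulAction.stabilizer Cfsg.M24 Q) X₃ ∪ MulAction.orbit ↥(MulAction.stabilizer Cfsg.M24 d ⊓ MulAction.stabilizer Cfsg.M24 Q) X₄ := by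
  rw [← stab_prod]
  have S := quartet_suborbits hd hQ
  obtain ⟨X₁, h1, e1⟩ := S.exists_rep 1 (by decide)
  obtain ⟨X₂, h2, e2⟩ := S.exists_rep 2 (by decide)
  obtain ⟨X₃, h3, e3⟩ := S.exists_rep 3 (by decide)
  obtain ⟨X₄, h4, e4⟩ := S.exists_rep 4 (by decide)
  refine ⟨X₁, h1, X₂, h2, X₃, h3, X₄, h4, S.ncard_orbit h1 e1, S.ncard_orbit h2 e2,
    S.ncard_orbit h3 e3, S.ncard_orbit h4 e4, ?_⟩
  have hQo : orbit (stabilizer M24 (d, Q)) Q = {Q} := by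
    ext y
    exact ⟨fun ⟨g, hg⟩ => hg.symm.trans (congrArg Prod.snd g.2), fun h => by rw [h]; exact mem_orbit_self Q⟩
  obtain ⟨i, hi⟩ := S.cover Q hQ
  have h0 := S.ncard_orbit hQ hi
  rw [hQo, Set.ncard_singleton] at h0
  have hi0 : i = 0 := by
    revert h0
    fin_cases i <;> decide
  subst hi0
  rw [← hQo, S.orbit_eq hQ, S.orbit_eq h1, S.orbit_eq h2, S.orbit_eq h3, S.orbit_eq h4, hi, e1, e2,
    e3, e4]
  ext y
  simp only [Set.mem_union, Set.mem_ofPred_eq]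
  refine ⟨fun hy => ?_, by tauto⟩
  obtain ⟨j, hj⟩ := S.cover y hy
  fin_cases j
  exacts [.inl (.inl (.inl (.inl ⟨hy, hj⟩))), .inl (.inl (.inl (.inr ⟨hy, hj⟩))),
    .inl (.inl (.inr ⟨hy, hj⟩)), .inl (.inr ⟨hy, hj⟩), .inr ⟨hy, hj⟩]

end Cfsg.Agent.S1599
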