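import Cfsg.Statements.S1600
import Cfsg.Agent.H56.M12

set_option autoImplicit false
open scoped Pointwise
open Cfsg

namespace Cfsg.Agent.S1600

open H14 H55 H56 MulAction

/-- The pointwise stabiliser of three points of a dodecad inside the dodecad stabiliser (order 72) is transitive on the complementary dodecad. -/
theorem result (d : Finset Cfsg.GolayPt) (hd : d ∈ Cfsg.dodecads) (p q r : Cfsg.GolayPt) (hp : p ∈ d) (hq : q ∈ d) (hr : r ∈ d) (hpq : p ≠ q) (hpr : p ≠ r) (hqr : q ≠ r) : Nat.card ↥(MulAction.stabilizer Cfsg.M24 d ⊓ MulAction.stabilizer Cfsg.M24 p ⊓ MulAction.stabilizer Cfsg.M24 q ⊓ MulAction.stabilizer Cfsg.M24 r) = 72 ∧ ∀ x ∉ d, ∀ y ∉ d, ∃ g ∈ (MulAction.stabilizer Cfsg.M24 d ⊓ MulAction.stabilizer Cfsg.M24 p ⊓ MulAction.stabilizer Cfsg.M24 q ⊓ MulAction.stabilizer Cfsg.M24 r), ((g : ↥Cfsg.M24) : Equiv.Perm Cfsg.GolayPt) x = y := by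
  obtain ⟨g, h0, h⟩ := dod_tuple_in hd (t := 3) (by norm_num) ![pt 0, pt 1, pt 2] ![p, q, r]
    (by decide) (by
      intro i j
      fin_cases i <;> fin_cases j <;> simp_all [eq_comm]) (by decide) (by
      intro i
      fin_cases i <;> assumption)
  have e : g • (((d0, pt 0), pt 1), pt 2) = (((d, p), q), r) :=
    Prod.ext (Prod.ext (Prod.ext h0 (h 0)) (h 1)) (h 2)
  rw [← stab_prod, ← stab_prod, ← stab_prod]
  refine ⟨by rw [← e, card_stab_smul, card_m9], fun x hx y hy => ?_⟩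
  have key : ∀ z ∉ d, ∃ a : M24, a • (((d0, pt 0), pt 1), pt 2) = (((d, p), q), r) ∧
      ∀ i : Fin 1, a • pt 5 = z := fun z hz =>
    exists_smul_tuple m9_chain.preChain
      (fun s : ((Finset GolayPt × GolayPt) × GolayPt) × GolayPt => {y | y ∉ s.1.1.1})
      (fun g a y hy h => hy ((m24_smul_mem_smul g).1 h)) 16436384
      (by decide +kernel : ∀ y, y ∉ d0 → tb 16436384 (idx y) = true) 1 (by decide +kernel) e
      (fun _ => pt 5) (fun _ => z) (Function.injective_of_subsingleton _)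
      (Function.injective_of_subsingleton _) (fun _ => (by decide : pt 5 ∉ d0)) (fun _ => hz)
  obtain ⟨a, ha, ha'⟩ := key x hx
  obtain ⟨b, hb, hb'⟩ := key y hy
  refine ⟨b * a⁻¹, ?_, ?_⟩
  · rw [mem_stabilizer_iff, mul_smul, inv_smul_eq_iff.2 ha.symm, hb]
  · change (b * a⁻¹) • x = y
    rw [mul_smul, inv_smul_eq_iff.2 (ha' 0).symm, hb' 0]

end Cfsg.Agent.S1600
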