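import Cfsg.Statements.S1602
import Cfsg.Agent.H56.M12

set_option autoImplicit false
open scoped Pointwise
open Cfsg

namespace Cfsg.Agent.S1602

open H14 H55 H56 MulAction

def sA : List ℕ := [nat_lit 0xbda959c9e48ac29729862a0f0189a0, nat_lit 0x5c5d3a994da3d89b5c823a0b090c20]
def sB : List ℕ := [nat_lit 0x4681, nat_lit 0x8d1]
def sS : List ℕ := [nat_lit 0x1cdeb19bda959c9e48ac29729862a0f0189a0, nat_lit 0x18e6f595c5d3a994da3d89b5c823a0b090c20]
def sCertL0 : Lev := ⟨nat_lit 24, nat_lit 0x1f000000, (.node (nat_lit 26) (.node (nat_lit 25) (.leaf (nat_lit 0x1cdeb38bdab49ca307b9ac5a928398a418820)) (.leaf (nat_lit 0x1cdeb19bda959c9e48ac29729862a0f0189a0))) (.node (nat_lit 27) (.leaf (nat_lit 0x1ace39b8de8e78969acc90559b238cac41820)) (.node (nat_lit 28) (.leaf (nat_lit 0x19c737ab29f5722ec9d1248ae03388ad34820)) (.leaf (nat_lit 0x18e6f595c5d3a994da3d89b5c823a0b090c20)))))⟩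
def sCertC0 : LevCert := ⟨sCertL0,
    [(nat_lit 25, nat_lit 0), (nat_lit 28, nat_lit 1), (nat_lit 27, nat_lit 1), (nat_lit 26, nat_lit 1)],
    [[nat_lit 2, nat_lit 2, nat_lit 2, nat_lit 2, nat_lit 0], [nat_lit 4, nat_lit 2, nat_lit 4, nat_lit 2, nat_lit 4, nat_lit 2, nat_lit 2, nat_lit 4, nat_lit 2]],
    [nat_lit 0x1bd679852df3a0dc9b5c2cac5b2298e412200, nat_lit 0x19deb98a2eb78a26c7b890b2832298ed18920]⟩
def sCertL1 : Lev := ⟨nat_lit 25, nat_lit 0x1e000000, (.node (nat_lit 27) (.node (nat_lit 26) (.leaf (nat_lit 0x1cdeb38bdab49ca307b9ac5a928398a418820)) (.leaf (nat_lit 0x1bd679852df3a0dc9b5c2cac5b2298e412200))) (.node (nat_lit 28) (.leaf (nat_lit 0x1acf3788d6d498aed5aa0c7b823398a444920)) (.leaf (nat_lit 0x19deb98a2eb78a26c7b890b2832298ed18920))))⟩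
def sCertC1 : LevCert := ⟨sCertL1,
    [(nat_lit 26, nat_lit 0), (nat_lit 28, nat_lit 1), (nat_lit 27, nat_lit 0)],
    [[nat_lit 0, nat_lit 0, nat_lit 0, nat_lit 2], [nat_lit 4, nat_lit 4, nat_lit 2, nat_lit 4, nat_lit 2, nat_lit 2, nat_lit 4]],
    [nat_lit 0x1ae6f389d96e50a8cac4817dda8398a990e00, nat_lit 0x1adf33855ab4989c95c4247de08298ec1c9a0]⟩
def sCertL2 : Lev := ⟨nat_lit 26, nat_lit 0x1c000000, (.node (nat_lit 27) (.leaf (nat_lit 0x1cdeb38bdab49ca307b9ac5a928398a418820)) (.node (nat_lit 28) (.leaf (nat_lit 0x1bd7338559f1b8dc15d130acc88398ad14980)) (.leaf (nat_lit 0x1ae6f389d96e50a8cac4817dda8398a990e00))))⟩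
def sCertC2 : LevCert := ⟨sCertL2,
    [(nat_lit 28, nat_lit 0), (nat_lit 27, nat_lit 0)],
    [[nat_lit 0, nat_lit 2]],
    [nat_lit 0x1be6b38bd96e50e2d7d209acd88298e190880]⟩
def sCertL3 : Lev := ⟨nat_lit 27, nat_lit 0x18000000, (.node (nat_lit 28) (.leaf (nat_lit 0x1cdeb38bdab49ca307b9ac5a928398a418820)) (.leaf (nat_lit 0x1be6b38bd96e50e2d7d209acd88298e190880)))⟩
def sCertC3 : LevCert := ⟨sCertL3,
    [(nat_lit 28, nat_lit 0)],
    [],
    []⟩
def sCert : List LevCert := [sCertC0, sCertC1, sCertC2, sCertC3]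
def sCertL : List Lev := [sCertL0, sCertL1, sCertL2, sCertL3]
def sCertAL0 : Lev := ⟨nat_lit 1, nat_lit 0x13212, (.node (nat_lit 12) (.node (nat_lit 4) (.leaf (nat_lit 0xbdab49ca307b9ac5a928398a418820)) (.node (nat_lit 9) (.leaf (nat_lit 0x73e6ba22a4559b08dd86388a190d20)) (.leaf (nat_lit 0x8d6d498aed5aa0c7b823398a444920)))) (.node (nat_lit 13) (.leaf (nat_lit 0x8d69698964bbd215398628ced44a00)) (.node (nat_lit 16) (.leaf (nat_lit 0xbda959c9e48ac29729862a0f0189a0)) (.leaf (nat_lit 0x73d73a2141ac52cb5e02298e490da0)))))⟩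
def sCertAC0 : LevCert := ⟨sCertAL0,
    [(nat_lit 13, nat_lit 0), (nat_lit 16, nat_lit 1), (nat_lit 4, nat_lit 0), (nat_lit 9, nat_lit 1), (nat_lit 12, nat_lit 0)],
    [[nat_lit 0, nat_lit 2, nat_lit 0, nat_lit 0, nat_lit 0, nat_lit 2, nat_lit 2, nat_lit 2, nat_lit 0, nat_lit 2, nat_lit 2], [nat_lit 2, nat_lit 4, nat_lit 2, nat_lit 4, nat_lit 2, nat_lit 2, nat_lit 4, nat_lit 4, nat_lit 2]],
    [nat_lit 0x73e36bcaad52c8c9d206288e940c20, nat_lit 0xabacb50e708dd2da3c922a0ec30820]⟩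
def sCertAL1 : Lev := ⟨nat_lit 2, nat_lit 0x4014c, (.node (nat_lit 6) (.node (nat_lit 3) (.leaf (nat_lit 0xbdab49ca307b9ac5a928398a418820)) (.leaf (nat_lit 0x8adf3a22edaba04b2932398ac10c20))) (.node (nat_lit 8) (.leaf (nat_lit 0x73e36bcaad52c8c9d206288e940c20)) (.node (nat_lit 18) (.leaf (nat_lit 0x5aaaf74a24a4d2cbd9a238cb032020)) (.leaf (nat_lit 0x7b97650a8dbc5309d5882c8e430c20)))))⟩
def sCertAC1 : LevCert := ⟨sCertAL1,
    [(nat_lit 6, nat_lit 0), (nat_lit 8, nat_lit 0), (nat_lit 3, nat_lit 1), (nat_lit 18, nat_lit 1)],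
    [[nat_lit 0, nat_lit 2, nat_lit 2, nat_lit 2, nat_lit 0, nat_lit 0, nat_lit 2, nat_lit 2, nat_lit 0, nat_lit 2, nat_lit 0], [nat_lit 2, nat_lit 4, nat_lit 4, nat_lit 4, nat_lit 4, nat_lit 4, nat_lit 2, nat_lit 4, nat_lit 4]],
    [nat_lit 0x756eb8a1f055984a4da628ce990820, nat_lit 0xabacb50e708dd2da3c922a0ec30820]⟩
def sCertAL2 : Lev := ⟨nat_lit 3, nat_lit 0x40148, (.node (nat_lit 8) (.node (nat_lit 6) (.leaf (nat_lit 0xbdab49ca307b9ac5a928398a418820)) (.leaf (nat_lit 0x756eb8a1f055984a4da628ce990820))) (.node (nat_lit 18) (.leaf (nat_lit 0xb5dd4799509d4895c5833c8ad40820)) (.leaf (nat_lit 0xabacb50e708dd2da3c922a0ec30820))))⟩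
def sCertAC2 : LevCert := ⟨sCertAL2,
    [(nat_lit 6, nat_lit 0), (nat_lit 18, nat_lit 1), (nat_lit 8, nat_lit 0)],
    [],
    []⟩
def sCertA : List LevCert := [sCertAC0, sCertAC1, sCertAC2]
def sCertAL : List Lev := [sCertAL0, sCertAL1, sCertAL2]

theorem pair_eq : ({pt 5, pt 7} : Finset GolayPt) = bits 160 := by decide

theorem card_le : Nat.card (stabilizer M24 ((d0, pt 0), bits 160)) ≤ 120 := by
  rw [card_stab_eq_mul _ (pt 5)]
  have h1 : (orbit (stabilizer M24 ((d0, pt 0), bits 160)) (pt 5)).ncard ≤ 2 := by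
    refine (Set.ncard_le_ncard (t := (bits 160 : Finset GolayPt)) ?_ (Set.toFinite _)).trans ?_
    · rintro _ ⟨g, rfl⟩
      exact (smul_mem_of_stab (congrArg Prod.snd g.2)).2 (by decide)
    · rw [Set.ncard_coe_finset]; decide
  have h2 : Nat.card (stabilizer M24 (((d0, pt 0), bits 160), pt 5)) ≤ 60 := by
    rw [← card_a5]
    refine Subgroup.card_le_of_le fun g hg => ?_
    have h3 : g • pt 5 = pt 5 := congrArg Prod.snd hg
    have h4 : g • bits 160 = bits 160 := congrArg (fun x => x.1.2) hg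
    refine Prod.ext (Prod.ext (congrArg (fun x => x.1.1) hg) h3) ?_
    have h5 : g • pt 7 ∈ bits 160 := (smul_mem_of_stab h4).2 (by decide)
    rw [← pair_eq, Finset.mem_insert, Finset.mem_singleton] at h5
    exact h5.resolve_left fun h6 => absurd (MulAction.injective g (h6.trans h3.symm)) (by decide)
  exact (Nat.mul_le_mul h1 h2).trans (by norm_num)

theorem std : Nonempty (Equiv.Perm (Fin 5) ≃* stabilizer M24 ((d0, pt 0), bits 160)) :=
  nonempty_equiv_of_cert (E := GE)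
    (F := finEnc 5 (nat_lit 3) (nat_lit 8) rfl (by decide)) (N := nat_lit 29)
    (k := nat_lit 5) (M := nat_lit 32) rfl rfl (by decide) (MonoidHom.id _) Function.injective_id
    _ (incl_injective (stabilizer M24 ((d0, pt 0), bits 160))) (as := sA) (bs := sB) (cs := sS)
    (cert := sCert) (certA := sCertA)
    (exists_pk_of_chkGens (cProd (cProd cSet cPt) cSet)
      (c := (((340831 : ℕ), (0 : ℕ)), (160 : ℕ))) (a := ((d0, pt 0), bits 160))
      ⟨⟨rel_d0, idx_pt (n := 0) (by norm_num)⟩, (by norm_num : 160 < 2 ^ 24), rfl⟩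
      (by decide +kernel))
    (fun Q hQ => Enc.exists_pk_of_valid _
      (allL_iff.1 (by decide +kernel : allL sB (valid 3 8 5) = true) Q hQ))
    (by decide +kernel) (by decide +kernel) (by decide +kernel) (by decide +kernel) 120
    (by rw [Nat.card_perm]; simp [Nat.factorial]) card_le (by decide +kernel) (by decide +kernel)

/-- In the 12-point action of the smallest Mathieu group the setwise stabiliser of a pair is isomorphic to the symmetric group of degree 5. -/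
theorem result (d : Finset Cfsg.GolayPt) (hd : d ∈ Cfsg.dodecads) (p q q' : Cfsg.GolayPt) (hp : p ∈ d) (hq : q ∉ d) (hq' : q' ∉ d) (hqq' : q ≠ q') : Nonempty (↥(MulAction.stabilizer Cfsg.M24 d ⊓ MulAction.stabilizer Cfsg.M24 p ⊓ MulAction.stabilizer Cfsg.M24 ({q, q'} : Finset Cfsg.GolayPt)) ≃* Equiv.Perm (Fin 5)) := by
  obtain ⟨g, h0, h⟩ := dod_tuple_out hd hp (t := 2) (by norm_num) ![pt 5, pt 7] ![q, q']
    (by decide) (by
      intro i j
      fin_cases i <;> fin_cases j <;> simp_all [eq_comm]) (by decide) (by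
      intro i
      fin_cases i <;> assumption)
  have e : g • ((d0, pt 0), bits 160) = ((d, p), ({q, q'} : Finset GolayPt)) := by
    refine Prod.ext h0 ?_
    change g • bits 160 = _
    rw [← pair_eq, Finset.smul_finset_insert, Finset.smul_finset_singleton]
    exact congrArg₂ (fun a b => ({a, b} : Finset GolayPt)) (h 0) (h 1)
  rw [← stab_prod, ← stab_prod]
  obtain ⟨e1⟩ := stab_equiv e
  obtain ⟨e2⟩ := std
  exact ⟨e1.symm.trans e2.symm⟩

end Cfsg.Agent.S1602
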