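import Cfsg.Statements.S1604
import Cfsg.Agent.H56.OrbPt

set_option autoImplicit false
open scoped Pointwise
open Cfsg

namespace Cfsg.Agent.S1604

open H55 H56

/-- A hexad stabiliser in the two-point stabiliser has orbits of sizes 1, 16, 60 on the 77 hexads: the 16 hexads disjoint from it and the 60 meeting it in two points. -/
theorem result (p q : Cfsg.GolayPt) (hpq : p ≠ q) (o o' o'' : Finset Cfsg.GolayPt) (ho : o ∈ Cfsg.octads) (ho' : o' ∈ Cfsg.octads) (ho'' : o'' ∈ Cfsg.octads) (hp : p ∈ o ∧ p ∈ o' ∧ p ∈ o'') (hq : q ∈ o ∧ q ∈ o' ∧ q ∈ o'') (h : (o ∩ o').card = (o ∩ o'').card) : {x : Finset Cfsg.GolayPt | x ∈ Cfsg.octads ∧ p ∈ x ∧ q ∈ x ∧ (o ∩ x).card = 2}.ncard = 16 ∧ {x : Finset Cfsg.GolayPt | x ∈ Cfsg.octads ∧ p ∈ x ∧ q ∈ x ∧ (o ∩ x).card = 4}.ncard = 60 ∧ ∃ g : Equiv.Perm Cfsg.GolayPt, g ∈ Cfsg.M24 ∧ g p = p ∧ g q = q ∧ g • o =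 o ∧ g • o' = o'' := by
  have S := sII_sub (a := (p, q)) hpq (o := o) ⟨ho, hp.1, hq.1⟩
  refine ⟨Eq.trans (congrArg _ (Set.ext fun x => ?_)) (S.card 1),
    Eq.trans (congrArg _ (Set.ext fun x => ?_)) (S.card 2), ?_⟩
  · simp [bII, and_assoc]
  · simp [bII, and_assoc]
  · obtain ⟨g, hg⟩ := S.trans o' ⟨ho', hp.2.1, hq.2.1⟩ o'' ⟨ho'', hp.2.2, hq.2.2⟩ h
    exact ⟨_, g.1.2, congrArg (·.1.1) g.2, congrArg (·.1.2) g.2, congrArg (·.2) g.2, hg⟩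

end Cfsg.Agent.S1604
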