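import Cfsg.Statements.S1605
import Cfsg.Agent.H56.OrbPt

set_option autoImplicit false
open scoped Pointwise
open Cfsg

namespace Cfsg.Agent.S1605

open H14 H55 H56

/-- The two-point stabiliser acts on the 176 octads through the first point avoiding the second with rank 3 and subdegrees 1, 70, 105 (intersections 8, 2, 4). -/
theorem result (p q : Cfsg.GolayPt) (hpq : p ≠ q) : {x : Finset Cfsg.GolayPt | (x ∈ Cfsg.octads ∧ p ∈ x ∧ q ∉ x)}.ncard = 176 ∧ (∀ o o' : Finset Cfsg.GolayPt, (o ∈ Cfsg.octads ∧ p ∈ o ∧ q ∉ o) → (o' ∈ Cfsg.octads ∧ p ∈ o' ∧ q ∉ o') → ∃ g : Equiv.Perm Cfsg.GolayPt, g ∈ Cfsg.M24 ∧ g p = p ∧ g q = q ∧ g • o = o') ∧ ∀ o : Finset Cfsg.GolayPt, (o ∈ Cfsg.octads ∧ p ∈ o ∧ q ∉ o) → {x : Finset Cfsg.GolayPt | (x ∈ Cfsg.octads ∧ p ∈ x ∧ q ∉ x) ∧ (o ∩ x).card = 2}.ncard = 70 ∧ {x : Finset Cfsg.GolayPt | (x ∈ Cfsg.octads ∧ p ∈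 x ∧ q ∉ x) ∧ (o ∩ x).card = 4}.ncard = 105 ∧ ∀ o' o'' : Finset Cfsg.GolayPt, (o' ∈ Cfsg.octads ∧ p ∈ o' ∧ q ∉ o') → (o'' ∈ Cfsg.octads ∧ p ∈ o'' ∧ q ∉ o'') → (o ∩ o').card = (o ∩ o'').card → ∃ g : Equiv.Perm Cfsg.GolayPt, g ∈ Cfsg.M24 ∧ g p = p ∧ g q = q ∧ g • o = o ∧ g • o' = o'' := by
  refine ⟨?_, fun o o' ho ho' => ?_, fun o ho => ?_⟩
  · obtain ⟨g, hg⟩ := pair_trans (a := pt 0) (b := pt 5) (by decide) hpq
    rw [← bIO_card, ← Set.ncard_smul_set g (bIO _)]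
    congr 1
    ext y
    rw [Set.mem_smul_set_iff_inv_smul_mem]
    refine ⟨fun h => ?_, fun h => ?_⟩
    · have := bIO_smul g⁻¹ (p, q) y h
      rwa [← hg, inv_smul_smul] at this
    · have := bIO_smul g _ _ h
      rwa [hg, smul_inv_smul] at this
  · obtain ⟨g, hg⟩ := fIO_trans (a := (p, q)) hpq ho
    obtain ⟨h, hh⟩ := fIO_trans (a := (p, q)) hpq ho'
    have e : (h * g⁻¹) • ((p, q), o) = ((p, q), o') := by rw [← hg, mul_smul, inv_smul_smul, hh]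
    exact ⟨_, (h * g⁻¹).2, congrArg (·.1.1) e, congrArg (·.1.2) e, congrArg (·.2) e⟩
  · have S := sIO_sub (a := (p, q)) hpq (o := o) ho
    refine ⟨S.card 1, S.card 2, fun o' o'' h1 h2 h => ?_⟩
    obtain ⟨g, hg⟩ := S.trans o' h1 o'' h2 h
    exact ⟨_, g.1.2, congrArg (·.1.1) g.2, congrArg (·.1.2) g.2, congrArg (·.2) g.2, hg⟩

end Cfsg.Agent.S1605
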