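import Cfsg.Statements.S1607
import Cfsg.Agent.H56.OrbPt

set_option autoImplicit false
open scoped Pointwise
open Cfsg

namespace Cfsg.Agent.S1607

open H55 H56

/-- The point stabiliser acts on the 253 heptads of its S(4, 7, 23) with rank 3 and subdegrees 1, 112, 140 (intersections 8, 2, 4). -/
theorem result (x : Cfsg.GolayPt) (o : Finset Cfsg.GolayPt) (ho : o ∈ Cfsg.octads) (hx : x ∈ o) : {o' : Finset Cfsg.GolayPt | o' ∈ Cfsg.octads ∧ x ∈ o' ∧ (o ∩ o').card = 2}.ncard = 112 ∧ {o' : Finset Cfsg.GolayPt | o' ∈ Cfsg.octads ∧ x ∈ o' ∧ (o ∩ o').card = 4}.ncard = 140 ∧ ∀ o' o'' : Finset Cfsg.GolayPt, o' ∈ Cfsg.octads → o'' ∈ Cfsg.octads → x ∈ o' → x ∈ o'' → (o ∩ o').card = (o ∩ o'').card → ∃ g : Equiv.Perm Cfsg.GolayPt, g ∈ Cfsg.M24 ∧ g x = x ∧ g • o = o ∧ g • o' = o'' := by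
  have S := sIn_sub (a := x) (o := o) ⟨ho, hx⟩
  refine ⟨Eq.trans (congrArg _ (Set.ext fun x => ?_)) (S.card 1),
    Eq.trans (congrArg _ (Set.ext fun x => ?_)) (S.card 2), fun o' o'' h1 h2 h3 h4 h => ?_⟩
  · simp [bIn, and_assoc]
  · simp [bIn, and_assoc]
  · obtain ⟨g, hg⟩ := S.trans o' ⟨h1, h3⟩ o'' ⟨h2, h4⟩ h
    exact ⟨_, g.1.2, congrArg (·.1) g.2, congrArg (·.2) g.2, hg⟩

end Cfsg.Agent.S1607
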