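import Cfsg.Statements.S1609
import Cfsg.Agent.H56.M24Fix

set_option autoImplicit false
open scoped Pointwise
open Cfsg

namespace Cfsg.Agent.S1609

open H14 H55 H56 MulAction

/-- Subgroups of index 253 in the Mathieu group of degree 23 are exactly the duad stabilisers and the heptad stabilisers. -/
theorem result (x : Cfsg.GolayPt) (H : Subgroup ↥(MulAction.stabilizer Cfsg.M24 x)) (hH : H.index = 253) : (∃ s : Finset Cfsg.GolayPt, s.card = 2 ∧ x ∉ s ∧ H = (MulAction.stabilizer Cfsg.M24 s).subgroupOf (MulAction.stabilizer Cfsg.M24 x)) ∨ ∃ o ∈ Cfsg.octads, x ∈ o ∧ H = (MulAction.stabilizer Cfsg.M24 o).subgroupOf (MulAction.stabilizer Cfsg.M24 x) := by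
  obtain ⟨O, hx, hO⟩ := exists_oct_of_odd_stab (H := H) (by rw [hH]; norm_num)
  have hc : Nat.card (H.map (stabilizer M24 x).subtype) = 40320 := by
    have := H.index_mul_card
    rw [hH, card_stab_pt] at this
    rw [Subgroup.card_map_of_injective (Subgroup.subtype_injective _)]
    omega
  have hfix : ∀ k ∈ H.map (stabilizer M24 x).subtype, k • x = x := by
    rintro _ ⟨k, -, rfl⟩; exact k.2
  obtain ⟨U, h1, h2, h3, -, h4⟩ := hO.exists_inv
  have h5 := h4 x hx hfix
  obtain ⟨s, hs, hs7⟩ := exists_order_mem (H.map (stabilizer M24 x).subtype) (p := 7) (by norm_num)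
    (by rw [hc]; norm_num)
  have h6 := card_modEq_fix (by norm_num) hs7 (h2 s hs)
  have h7 := Finset.card_le_card (Finset.inter_subset_right (s₁ := U) (s₂ := fixF s))
  rw [card_fix_eq (by norm_num) (by norm_num) hs7] at h7
  have h8 : 0 < (U ∩ fixF s).card :=
    Finset.card_pos.2 ⟨x, Finset.mem_inter.2 ⟨h5, mem_fixF.2 (hfix s hs)⟩⟩
  have h9 := Finset.card_le_card h1
  rw [octad_card hO.mem] at h9
  rw [hc] at h3
  have h10 : U.card = 3 ∨ U.card = 8 := by
    have : U.card = 1 ∨ U.card = 2 ∨ U.card = 3 ∨ U.card = 8 := by omega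
    rcases this with h | h | h | h <;> rw [h] at h3 <;> omega
  rcases h10 with h10 | h10
  · have h11 : (U.erase x).card = 2 := by rw [Finset.card_erase_of_mem h5, h10]
    refine Or.inl ⟨U.erase x, h11, Finset.notMem_erase x U,
      eq_stab_of_le (a := U.erase x) (fun k hk => ?_) ?_⟩
    · refine smul_eq_of_forall_mem (g := k.1) fun a ha => ?_
      rw [Finset.mem_erase] at ha ⊢
      exact ⟨fun h => ha.1 (MulAction.injective k.1 (h.trans k.2.symm)),
        (smul_mem_iff_of_smul_eq (h2 _ ⟨k, hk, rfl⟩)).2 ha.2⟩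
    · have := choose_le_orbit_fix (by omega) (Finset.notMem_erase x U)
      rw [h11] at this
      rw [hH]; exact this
  · obtain rfl : U = O := Finset.eq_of_subset_of_card_le h1 (by rw [octad_card hO.mem, h10])
    exact Or.inr ⟨U, hO.mem, hx, eq_stab_of_le (a := U) (fun k hk => h2 _ ⟨k, hk, rfl⟩)
      (by rw [hH]; exact le_orbit_octad_fix hO.mem hx)⟩

end Cfsg.Agent.S1609
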