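import Cfsg.Statements.S1610
import Cfsg.Agent.H56.Hexacode

set_option autoImplicit false
open Cfsg

namespace Cfsg.Agent.S1610

open Cfsg.Agent.H56

/-- The hexacode has 64 words, minimum weight 4, and weight distribution 0^1 4^45 6^18. -/
theorem result (F : Type*) [Field F] [Fintype F] [DecidableEq F] (hF : Fintype.card F = 4) (ω : F) (hω : ω ^ 2 + ω + 1 = 0) : Nat.card ↥(Cfsg.hexacode F ω) = 64 ∧ (∀ x ∈ Cfsg.hexacode F ω, x ≠ 0 → (Finset.univ.filter fun i => x i ≠ 0).card = 4 ∨ (Finset.univ.filter fun i => x i ≠ 0).card = 6) ∧ {x : Fin 6 → F | x ∈ Cfsg.hexacode F ω ∧ (Finset.univ.filter fun i => x i ≠ 0).card = 4}.ncard = 45 ∧ {x : Fin 6 → F | x ∈ Cfsg.hexacode F ω ∧ (Finset.univ.filter fun i => x i ≠ 0).card = 6}.ncard = 18 := by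
  obtain ⟨e, he⟩ := exists_equiv_F4 hF ω hω
  refine ⟨?_, fun x hx h0 => ?_, ?_, ?_⟩
  · have h := ncard_hexacode e he (fun _ => True)
    simp only [and_true, Finset.filter_true, Finset.card_univ] at h
    rw [← SetLike.coe_sort_coe, Nat.card_coe_set_eq]
    exact h
  · obtain ⟨t, ht⟩ := hexT_iff.1 ((mem_hexacode_iff e he).1 hx)
    have h1 : ∀ t, (∀ i, henc t i = 0) ∨ (Finset.univ.filter fun i => henc t i ≠ 0).card = 4 ∨
        (Finset.univ.filter fun i => henc t i ≠ 0).card = 6 := by decide +kernel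
    rcases h1 t with h | h
    · exact absurd (funext fun i => by simpa [← ht] using h i) h0
    · simpa [← ht] using h
  · rw [ncard_hexacode e he (fun s => s.card = 4)]; decide +kernel
  · rw [ncard_hexacode e he (fun s => s.card = 6)]; decide +kernel

end Cfsg.Agent.S1610
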