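import Cfsg.Statements.S1611
import Cfsg.Agent.H56.Hexacode

set_option autoImplicit false
open Cfsg

namespace Cfsg.Agent.S1611

open Cfsg.Agent.H56 Cfsg.Agent.H29

section
variable {F : Type*} [Field F] [Fintype F] {ω : F} (e : F ≃+* F4) (he : e ω = F4.w)

omit e in
theorem code_finite (ω : F) : (Cfsg.hexacode F ω : Set (Fin 6 → F)).Finite := Set.toFinite _

include he

omit [Fintype F] in
theorem diag (c : Fin 6 → Fˣ)
    (h : ∀ x ∈ Cfsg.hexacode F ω, Cfsg.monomialMap 1 c x ∈ Cfsg.hexacode F ω) (i j : Fin 6) :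
    c i = c j := by
  have key : ∀ c0 c1 c2 c3 c4 c5 : F4,
      (∀ t, hexT fun i => ![c0, c1, c2, c3, c4, c5] i * henc t i) →
      c1 = c0 ∧ c2 = c0 ∧ c3 = c0 ∧ c4 = c0 ∧ c5 = c0 := by decide +kernel
  have h1 := (preserves_iff e he 1 c).1 h
  obtain ⟨h1, h2, h3, h4, h5⟩ := key (e (c 0)) (e (c 1)) (e (c 2)) (e (c 3)) (e (c 4)) (e (c 5)) h1
  have h6 : ∀ i, c i = c 0 := fun i => by
    apply Units.ext
    apply e.injective
    fin_cases i
    exacts [rfl, h1, h2, h3, h4, h5]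
  rw [h6 i, h6 j]

theorem swap_notMem : Equiv.swap (4 : Fin 6) 5 ∉ monoPerm _ (code_finite ω) := by
  rintro ⟨c, h⟩
  have key : ∀ c0 c1 c2 c3 c4 c5 : F4,
      (∀ t, hexT fun i => ![c0, c1, c2, c3, c4, c5] i * henc t (Equiv.swap (4 : Fin 6) 5 i)) →
      c0 = 0 := by decide +kernel
  have h1 := (preserves_iff e he _ c).1 h
  have h2 := key (e (c 0)) (e (c 1)) (e (c 2)) (e (c 3)) (e (c 4)) (e (c 5)) h1
  simp at h2

theorem trans4 (f : Fin 4 → Fin 6) (hf : Function.Injective f) :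
    ∃ g ∈ monoPerm _ (code_finite ω) ⊓ alternatingGroup (Fin 6),
      ∀ i : Fin 4, g • (Fin.castLE (by norm_num) i : Fin 6) = f i := by
  refine exists_smul_base_eq _ Set.univ (fun _ _ _ _ => trivial)
    (fun i : Fin 4 => (Fin.castLE (by norm_num) i : Fin 6)) (fun i y _ hy => ?_) f hf
    (fun _ => trivial)
  obtain ⟨h1, h2, h3, h4, h5, h6⟩ := hexAut_check i y hy
  obtain ⟨σ, hσ, hσ'⟩ := exists_perm_of_leftInverse _ _ h1
  refine ⟨σ, ⟨⟨fun p => Units.mk0 (e.symm ((hexAutData.getD (6 * i + y) (id, id, 1)).2.2 p))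
    (by simpa using h4 p), (preserves_iff e he _ _).2 fun t => ?_⟩, ?_⟩, fun j hj => ?_, ?_⟩
  · simpa [hσ'] using h5 t
  · show σ ∈ alternatingGroup (Fin 6)
    rw [Equiv.Perm.mem_alternatingGroup, Equiv.Perm.sign_eq_prod_prod_Iio]
    simp only [hσ]
    exact h6
  · exact (hσ _).trans (h2 j hj)
  · exact (hσ _).trans h3

omit [Fintype F] e he in
theorem fix4 (σ : Equiv.Perm (Fin 6))
    (h : ∀ i : Fin 4, σ • (Fin.castLE (by norm_num) i : Fin 6) = Fin.castLE (by norm_num) i) :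
    σ = 1 ∨ σ = Equiv.swap 4 5 := by
  have h0 : σ 0 = 0 := h 0
  have h1 : σ 1 = 1 := h 1
  have h2 : σ 2 = 2 := h 2
  have h3 : σ 3 = 3 := h 3
  have key : ∀ a b : Fin 6, a ≠ 0 → a ≠ 1 → a ≠ 2 → a ≠ 3 → b ≠ 0 → b ≠ 1 → b ≠ 2 → b ≠ 3 →
      a ≠ b → (a = 4 ∧ b = 5) ∨ (a = 5 ∧ b = 4) := by decide
  have hne : ∀ {x y z : Fin 6}, σ y = z → x ≠ y → σ x ≠ z := fun h1 h2 h3 =>
    h2 (σ.injective (h3.trans h1.symm))
  rcases key (σ 4) (σ 5) (hne h0 (by decide)) (hne h1 (by decide)) (hne h2 (by decide))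
    (hne h3 (by decide)) (hne h0 (by decide)) (hne h1 (by decide)) (hne h2 (by decide))
    (hne h3 (by decide)) (hne rfl (by decide)) with ⟨h4, h5⟩ | ⟨h4, h5⟩
  · left
    ext1 i
    fin_cases i
    exacts [h0, h1, h2, h3, h4, h5]
  · right
    ext1 i
    fin_cases i
    exacts [h0, h1, h2, h3, h4, h5]

theorem monoPerm_eq : monoPerm _ (code_finite ω) = alternatingGroup (Fin 6) := by
  have hs : ∀ σ : Equiv.Perm (Fin 6), ∃ g ∈ monoPerm _ (code_finite ω) ⊓ alternatingGroup (Fin 6),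
      g⁻¹ * σ = 1 ∨ g⁻¹ * σ = Equiv.swap 4 5 := by
    intro σ
    obtain ⟨g, hg, hge⟩ := trans4 e he (fun i => σ • (Fin.castLE (by norm_num) i : Fin 6))
      (fun i j h => Fin.castLE_injective _ (MulAction.injective σ h))
    exact ⟨g, hg, fix4 _ fun i => by rw [mul_smul, ← hge, inv_smul_smul]⟩
  apply le_antisymm
  · intro σ hσ
    obtain ⟨g, hg, h | h⟩ := hs σ
    · rw [← inv_mul_eq_one.1 h]; exact hg.2
    · exact absurd (h ▸ mul_mem (inv_mem hg.1) hσ) (swap_notMem e he)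
  · intro σ hσ
    obtain ⟨g, hg, h | h⟩ := hs σ
    · rw [← inv_mul_eq_one.1 h]; exact hg.1
    · have : Equiv.swap (4 : Fin 6) 5 ∈ alternatingGroup (Fin 6) := h ▸ mul_mem (inv_mem hg.2) hσ
      rw [Equiv.Perm.mem_alternatingGroup, Equiv.Perm.sign_swap (by decide)] at this
      exact absurd this (by decide)

theorem card_diag (hF : Fintype.card F = 4) : Nat.card {c : Fin 6 → Fˣ //
    ∀ x ∈ (Cfsg.hexacode F ω : Set (Fin 6 → F)),
      Cfsg.monomialMap 1 c x ∈ (Cfsg.hexacode F ω : Set (Fin 6 → F))} = 3 := by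
  have h3 : Nat.card Fˣ = 3 := by rw [Nat.card_units, Nat.card_eq_fintype_card, hF]
  rw [← h3]
  symm
  refine Nat.card_eq_of_bijective (fun u => ⟨fun _ => u, fun x hx =>
    (Cfsg.hexacode F ω).smul_mem (u : F) hx⟩) ⟨fun u u' h => ?_, fun c => ?_⟩
  · exact congrFun (congrArg Subtype.val h) 0
  · exact ⟨c.1 0, Subtype.ext (funext fun i => diag e he c.1 c.2 0 i)⟩

end

/-- The monomial automorphism group of the hexacode has order 1080: its diagonal part is the scalars and its permutation parts form the alternating group of degree 6. -/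
theorem result (F : Type*) [Field F] [Fintype F] [DecidableEq F] (hF : Fintype.card F = 4) (ω : F) (hω : ω ^ 2 + ω + 1 = 0) : Nat.card {f : Equiv.Perm (Fin 6) × (Fin 6 → Fˣ) // (∀ x ∈ Cfsg.hexacode F ω, Cfsg.monomialMap f.1 f.2 x ∈ Cfsg.hexacode F ω)} = 1080 ∧ (∀ c : Fin 6 → Fˣ, (∀ x ∈ Cfsg.hexacode F ω, Cfsg.monomialMap 1 c x ∈ Cfsg.hexacode F ω) → ∀ i j, c i = c j) ∧ {σ : Equiv.Perm (Fin 6) | ∃ c : Fin 6 → Fˣ, (∀ x ∈ Cfsg.hexacode F ω, Cfsg.monomialMap σ c x ∈ Cfsg.hexacode F ω)} = (alternatingGroup (Fin 6) : Set (Equiv.Perm (Fin 6))) := by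
  obtain ⟨e, he⟩ := exists_equiv_F4 hF ω hω
  refine ⟨?_, diag e he, congrArg SetLike.coe (monoPerm_eq e he)⟩
  have := card_monomial _ (code_finite ω)
  rw [monoPerm_eq e he, card_diag e he hF, nat_card_alternatingGroup] at this
  simp only [Nat.card_eq_fintype_card, Fintype.card_fin] at this
  exact this

end Cfsg.Agent.S1611
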