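import Cfsg.Statements.S1618
import Cfsg.Agent.H95.OddProd

set_option autoImplicit false
open Cfsg

namespace Cfsg.Agent.S1618

/-- A group generated by a class of involutions whose pairwise products (of distinct members) have p-power order for a fixed odd prime p has nilpotent derived subgroup. -/
theorem result {G : Type*} [Group G] [Finite G] (p : ℕ) (hp : p.Prime) (hodd : p ≠ 2) {D : Set G} (hinv : ∀ d ∈ D, orderOf d = 2) (hconj : ∃ d ∈ D, D = conjugatesOf d) (hgen : Subgroup.closure D = ⊤) (hprod : ∀ x ∈ D, ∀ y ∈ D, x ≠ y → ∃ k : ℕ, orderOf (x * y) = p ^ k) : Group.IsNilpotent ↥(commutator G) := by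
  obtain ⟨d, hd, rfl⟩ := hconj
  have : Fact p.Prime := ⟨hp⟩
  have h1 := H95.mul_mem_pCore_of_odd hp hodd d (hinv d hd) fun a ha b hb => by
    by_cases h : a = b
    · exact ⟨0, by rw [h, H95.mul_self_of_orderOf (hinv b hb), orderOf_one, pow_zero]⟩
    · exact hprod a ha b hb h
  have h2 := H95.commutator_le_of_mul_mem' (fun x hx => H95.mul_self_of_orderOf (hinv x hx)) hgen h1
  exact (H44.pCore_isPGroup.to_le h2).isNilpotent

end Cfsg.Agent.S1618
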