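import Cfsg.Statements.S1624
import Cfsg.Agent.H57.J2Mod

set_option autoImplicit false
open Quaternion
open Cfsg

namespace Cfsg.Agent.S1624

/-- The Hall–Janko group contains PSU(3, 3) with index 100 and acts on the 100 cosets with rank 3 and subdegrees 1, 36, 63. -/
theorem result : ∃ H : Subgroup Cfsg.Spor.J2, H.index = 100 ∧ (∃ (F : Type) (_ : Field F) (_ : Fintype F), Fintype.card F = 9 ∧ Nonempty (↥H ≃* Cfsg.PSU 3 F 3)) ∧ ∃ c₁ c₂ : Cfsg.Spor.J2 ⧸ H, (MulAction.orbit ↥H c₁).ncard = 36 ∧ (MulAction.orbit ↥H c₂).ncard = 63 := by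
  open H57.J2 in
  let act : MulAction Spor.J2 (Fin 100) := MulAction.compHom _ phi
  have hK : ∀ {g : Equiv.Perm (Fin 100)}, g ∈ K → ∃ a, phi a = g := fun hg => by
    rwa [K, ← range_phi] at hg
  have hm : ∀ a, phi a ∈ K := fun a => by rw [K, ← range_phi]; exact ⟨a, rfl⟩
  have htr : MulAction.IsPretransitive Spor.J2 (Fin 100) := ⟨fun x y => by
    obtain ⟨g, hg, rfl⟩ := trans_K x
    obtain ⟨g', hg', rfl⟩ := trans_K y
    obtain ⟨a, rfl⟩ := hK hg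
    obtain ⟨b, rfl⟩ := hK hg'
    exact ⟨b * a⁻¹, by
      show phi (b * a⁻¹) (phi a 0) = phi b 0
      rw [map_mul, map_inv]; simp⟩⟩
  let H := MulAction.stabilizer Spor.J2 (0 : Fin 100)
  have hmap : H.map phi = H0 := by
    ext g
    exact ⟨by rintro ⟨a, ha, rfl⟩; exact ⟨hm a, ha⟩, fun hg => let ⟨a, ha⟩ := hK hg.1
      ⟨a, show phi a 0 = 0 by rw [ha]; exact hg.2, ha⟩⟩
  have key : ∀ x : Fin 100, ∃ c : Spor.J2 ⧸ H, (MulAction.orbit H c).ncard = {a | ∃ g ∈ H0, g x = a}.ncard := by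
    intro x
    obtain ⟨a, rfl⟩ := MulAction.exists_smul_eq Spor.J2 (0 : Fin 100) x
    refine ⟨QuotientGroup.mk a, ?_⟩
    rw [← Set.ncard_image_of_injective _ (MulAction.injective_ofQuotientStabilizer Spor.J2 (0 : Fin 100))]
    congr 1
    ext y
    constructor
    · rintro ⟨_, ⟨h, rfl⟩, rfl⟩
      refine ⟨phi h, hmap ▸ ⟨h, h.2, rfl⟩, ?_⟩
      exact (MulAction.ofQuotientStabilizer_smul Spor.J2 (0 : Fin 100) (h : Spor.J2) (QuotientGroup.mk a)).symm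
    · rintro ⟨g, hg, rfl⟩
      rw [← hmap] at hg
      obtain ⟨h, hh, rfl⟩ := hg
      exact ⟨_, ⟨⟨h, hh⟩, rfl⟩,
        MulAction.ofQuotientStabilizer_smul Spor.J2 (0 : Fin 100) h (QuotientGroup.mk a)⟩
  refine ⟨H, ?_, ⟨H56.TF H56.F9, inferInstance, inferInstance, H56.TF.card H56.F9, ?_⟩, ?_⟩
  · rw [MulAction.index_stabilizer_of_transitive]; simp
  · obtain ⟨e⟩ := H0_equiv (H56.TF.card H56.F9)
    exact ⟨((H.equivMapOfInjective phi phi_inj).trans (MulEquiv.subgroupCongr hmap)).trans e⟩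
  · obtain ⟨c1, h1⟩ := key 5
    obtain ⟨c2, h2⟩ := key 1
    exact ⟨c1, c2, h1.trans ncard36, h2.trans ncard63⟩

end Cfsg.Agent.S1624
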