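import Cfsg.Statements.S1626
import Cfsg.Agent.H57.J3Uni
import Cfsg.Agent.H57.J3D3

set_option autoImplicit false
open scoped MatrixGroups
open Matrix
open Cfsg

namespace Cfsg.Agent.S1626

open Cfsg.Agent.H57 Cfsg.Agent.H57.J3 Cfsg.Spor

set_option maxRecDepth 100000

theorem card_iso (F : Type) [Field F] [Fintype F] (hF : Fintype.card F = 4) :
    {v : F9 → F | ∑ z, v z ^ 3 = 0}.ncard = 130816 := by
  classical
  have := charP_two_of_card hF
  let s : (F9 → F) → ℤ := fun v => ∏ z, if v z = 0 then 1 else -1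
  have h1 : ∑ v, s v = -512 := by
    have := Finset.prod_univ_sum (fun _ : F9 => (Finset.univ : Finset F))
      (fun _ x => if x = 0 then (1 : ℤ) else -1)
    rw [Fintype.piFinset_univ] at this
    have h2 : ∑ x : F, (if x = 0 then (1 : ℤ) else -1) = -2 := by
      have : ∀ x : F, (if x = 0 then (1 : ℤ) else -1) = (if x = 0 then 2 else 0) - 1 := by
        intro x; split_ifs <;> rfl
      simp only [this, Finset.sum_sub_distrib, Finset.sum_ite_eq', Finset.mem_univ, if_true,
        Finset.sum_const, Finset.card_univ, hF]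
      rfl
    simp only [h2, Finset.prod_const, Finset.card_univ] at this
    rw [← this]; rfl
  have h2 : ∀ v, s v = if ∑ z, v z ^ 3 = 0 then 1 else -1 := by
    intro v
    have h3 : ∑ z, v z ^ 3 = ((Finset.univ.filter fun z => ¬ v z = 0).card : F) := by
      rw [Finset.card_filter]
      push_cast
      refine Finset.sum_congr rfl fun z _ => ?_
      by_cases h : v z = 0
      · simp [h]
      · have := FiniteField.pow_card_sub_one_eq_one (v z) h
        rw [hF] at this
        simpa [h] using this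
    simp only [h3, CharP.cast_eq_zero_iff F 2, s, Finset.prod_ite, Finset.prod_const_one, one_mul,
      Finset.prod_const]
    split_ifs with h
    · exact Even.neg_one_pow (even_iff_two_dvd.2 h)
    · exact Odd.neg_one_pow (Nat.not_even_iff_odd.1 fun h' => h (even_iff_two_dvd.1 h'))
  simp only [h2, Finset.sum_ite, Finset.sum_const] at h1
  have h4 := Finset.card_filter_add_card_filter_not (s := (Finset.univ : Finset (F9 → F)))
    (fun v => ∑ z, v z ^ 3 = 0)
  have h5 : (Finset.univ : Finset (F9 → F)).card = 262144 := by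
    rw [Finset.card_univ, Fintype.card_fun, hF]; rfl
  rw [Set.ncard_eq_toFinset_card', Set.toFinset_setOf]
  simp only [nsmul_eq_mul, mul_one, mul_neg] at h1
  omega

theorem iso_orbit (F : Type) [Field F] [Fintype F] (hF : Fintype.card F = 4) (ω : F)
    (hω : ω ^ 2 + ω + 1 = 0) : ∃ v0 : F9 → F, ∀ v : F9 → F, v ≠ 0 → ∑ z, v z ^ 3 = 0 →
      ∃ g ∈ threeJ3 F ω, ∃ a : F, a ≠ 0 ∧ v = a • g • v0 := by
  classical
  let c := cd F hF ω hω
  have hT : ∀ A ∈ tI, Has c.red (threeJ3 F ω) A := by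
    refine has_of_slpChk (a := x1) (L := [x2, mW]) ?_ slpI
    intro A hA
    simp only [List.mem_cons, List.not_mem_nil, or_false] at hA
    rcases hA with rfl | rfl | rfl
    · exact has_x hF ω hω _ (by simp)
    · exact has_x hF ω hω _ (by simp)
    · exact has_W hF ω hω
  let v0 : F9 → F := c.dec (vecOf 18 5)
  have hv0 : ∀ z, v0 z = if z = 0 ∨ z = (0, 1) then 1 else 0 := by
    intro z
    have key : ∀ z : F9, bit 5 (2 * e9 z) = (if z = 0 ∨ z = (0, 1) then 1 else 0) ∧
      bit 5 (2 * e9 z + 1) = 0 := by decide +kernel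
    change c.el (bit 5 (2 * e9 z)) (bit 5 (2 * e9 z + 1)) = _
    rw [(key z).1, (key z).2]
    split_ifs
    · exact c.el10
    · exact c.el00
  have h0 : v0 ≠ 0 := fun h => by simpa [h] using hv0 0
  have hiso : ∑ z, v0 z ^ 3 = 0 := by
    have : ∀ z, v0 z ^ 3 = if z ∈ ({0, (0, 1)} : Finset F9) then 1 else 0 := by
      intro z; rw [hv0]; simp
    simp only [this, Finset.sum_ite_mem, Finset.univ_inter, Finset.sum_const]
    have h2 : ({0, (0, 1)} : Finset F9).card = 2 := by decide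
    rw [h2]
    simpa using c.two_eq_zero
  have h := c.orb_nrm hT iorb (c.red_dec_vecOf _) h0
  refine ⟨v0, ?_⟩
  let t : ℕ → GL F9 F := cubeG c.red (threeJ3 F ω) tI fI
  let φ : Fin 43605 × Fˣ → (F9 → F) := fun p => (p.2 : F) • t p.1 • v0
  have hne : ∀ j, t j • v0 ≠ 0 := fun j e =>
    h0 (MulAction.injective (t j) (e.trans (smul_zero _).symm))
  have hφ : Function.Injective φ := by
    rintro ⟨i, a⟩ ⟨j, b⟩ e
    simp only [φ] at e
    have e2 : t i • v0 = ((a : F)⁻¹ * b) • t j • v0 := by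
      rw [mul_smul, ← e, smul_smul, inv_mul_cancel₀ a.ne_zero, one_smul]
    have hij : i = j := Fin.ext (h i i.2 j j.2 _ e2)
    subst hij
    rw [Units.ext (smul_left_injective F (hne i) e)]
  have hsub : Set.range φ ⊆ {v : F9 → F | ∑ z, v z ^ 3 = 0} \ {0} := by
    rintro _ ⟨⟨j, a⟩, rfl⟩
    refine ⟨?_, smul_ne_zero a.ne_zero (hne j)⟩
    have h1 := herm hF ω hω (cubeG_mem (red := c.red) (threeJ3 F ω) tI fI j) v0 v0
    simp only [← pow_succ'] at h1
    change ∑ z, ((a : F) * ((t j : Matrix F9 F9 F) *ᵥ v0) z) ^ 3 = 0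
    simp only [mul_pow, ← Finset.mul_sum]
    rw [h1, hiso, mul_zero]
  have heq : Set.range φ = {v : F9 → F | ∑ z, v z ^ 3 = 0} \ {0} := by
    refine Set.eq_of_subset_of_ncard_le hsub ?_
    rw [Set.ncard_diff_singleton_of_mem (by simp), card_iso F hF, Set.ncard_range_of_injective hφ,
      Nat.card_prod, Nat.card_units, Nat.card_eq_fintype_card (α := F), hF]
    simp
  intro v hv1 hv2
  obtain ⟨⟨j, a⟩, e⟩ := heq.ge (show v ∈ _ from ⟨hv2, hv1⟩)
  exact ⟨t j, cubeG_mem _ _ _ _, a, a.ne_zero, e.symm⟩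


/-- Orbits of the triple cover of the third Janko group on lines of its 9-space over the field with 4 elements: the line through the first basis vector has exactly 23256 images, and the isotropic lines (nonzero v with Σ v_z³ = 0) form a single orbit. -/
theorem result (F : Type) [Field F] [Fintype F] (hF : Fintype.card F = 4) (ω : F) (hω : ω ^ 2 + ω + 1 = 0) : {L : Submodule F (Cfsg.Spor.F9 → F) | ∃ g ∈ Cfsg.Spor.threeJ3 F ω, L = F ∙ ((g : Matrix Cfsg.Spor.F9 Cfsg.Spor.F9 F) *ᵥ (Pi.single (0 : Cfsg.Spor.F9) (1 : F) : Cfsg.Spor.F9 → F))}.ncard = 23256 ∧ ∀ v w : Cfsg.Spor.F9 → F, v ≠ 0 → w ≠ 0 → ∑ z, (v z) ^ 3 = 0 → ∑ z, (w z) ^ 3 = 0 → ∃ g ∈ Cfsg.Spor.threeJ3 F ω, ∃ c : F, c ≠ 0 ∧ (g : Matrix Cfsg.Spor.F9 Cfsg.Spor.F9 F) *ᵥ v = c • w := by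
  constructor
  · let φ : Fin 23256 → Submodule F (F9 → F) := fun j =>
      F ∙ (tt hF ω hω j • (Pi.single (0 : F9) (1 : F) : F9 → F))
    have hφ : Function.Injective φ := by
      intro i j e
      obtain ⟨a, ha⟩ := Submodule.span_singleton_eq_span_singleton.1 e
      exact (Fin.ext (tt_lines hF ω hω j j.2 i i.2 a ha.symm)).symm
    have : {L : Submodule F (F9 → F) | ∃ g ∈ threeJ3 F ω, L = F ∙ ((g : Matrix F9 F9 F) *ᵥ
        (Pi.single (0 : F9) (1 : F) : F9 → F))} = Set.range φ := by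
      ext L
      constructor
      · rintro ⟨g, hg, rfl⟩
        obtain ⟨j, hj, h, hh, rfl⟩ := cover hF ω hω g hg
        obtain ⟨a, ha, e⟩ := HH_le_lineStab hF ω hω hh
        refine ⟨⟨j, hj⟩, ?_⟩
        change _ = F ∙ ((tt hF ω hω j * h) • (Pi.single (0 : F9) (1 : F) : F9 → F))
        rw [mul_smul, e, smul_comm, Submodule.span_singleton_smul_eq (IsUnit.mk0 a ha)]
      · rintro ⟨j, rfl⟩
        exact ⟨_, tt_mem hF ω hω j, rfl⟩
    rw [this, Set.ncard_range_of_injective hφ]
    simp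
  · obtain ⟨v0, h⟩ := iso_orbit F hF ω hω
    intro v w hv hw hv2 hw2
    obtain ⟨g, hg, a, ha, e1⟩ := h v hv hv2
    obtain ⟨k, hk, b, hb, e2⟩ := h w hw hw2
    refine ⟨k * g⁻¹, Subgroup.mul_mem _ hk (Subgroup.inv_mem _ hg), a * b⁻¹,
      mul_ne_zero ha (inv_ne_zero hb), ?_⟩
    change (k * g⁻¹) • v = _
    rw [e1, e2, smul_comm, smul_smul (k * g⁻¹), inv_mul_cancel_right, smul_smul,
      inv_mul_cancel_right₀ hb]

end Cfsg.Agent.S1626
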