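import Cfsg.Statements.S1631
import Cfsg.Agent.H29.TT1

set_option autoImplicit false
open scoped MatrixGroups
open Cfsg

namespace Cfsg.Agent.S1631

open Matrix H10

/-- The unitary transvections of SU(n, 2), n ≥ 4, form a generating conjugacy class of 3-transpositions. -/
theorem result (F : Type) [Field F] [Fintype F] [DecidableEq F] (hF : Fintype.card F = 4) (n : ℕ) (hn : 4 ≤ n) : Cfsg.IsThreeTranspositionClass {g : ↥(Cfsg.SU n F 2) | (((g : Matrix.SpecialLinearGroup (Fin n) F) : Matrix (Fin n) (Fin n) F) - 1).rank = 1} := by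
  haveI : Fact (Fintype.card F = 2 ^ 2) := ⟨hF⟩
  haveI : CharP F 2 := charP_of_card_eq_prime_pow (p := 2) (f := 2) hF
  have two : (2 : F) = 0 := CharP.cast_eq_zero F 2
  have c1 : cj F 2 1 = -1 := by rw [map_one, CharTwo.neg_eq]
  have sq : ∀ {g : SU n F 2}, (sm g - 1).rank = 1 → orderOf g = 2 := fun {g} h => by
    obtain ⟨u, p, -, h1⟩ := H29.exists_vecMulVec h
    rw [sub_eq_iff_eq_add'] at h1
    have h2 : (sm g).det = 1 := g.1.2
    rw [h1, vecMulVec_eq Unit, det_one_add_replicateCol_mul_replicateRow, add_eq_left] at h2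
    refine orderOf_eq_prime ((pow_two g).trans (Subtype.ext (Subtype.ext ?_))) fun e => ?_
    · change sm g * sm g = 1
      rw [h1, add_mul, mul_add, mul_add, vecMulVec_mul_vecMulVec, h2, zero_smul, vecMulVec_zero,
        one_mul, one_mul, mul_one, add_zero, add_assoc, ← two_smul F, two, zero_smul, add_zero]
    · rw [e, show sm (1 : SU n F 2) = 1 from rfl, sub_self, rank_zero] at h
      exact zero_ne_one h
  have aa : ∀ {g : SU n F 2}, (sm g - 1).rank = 1 → g * g = 1 := fun {g} h =>
    (pow_two g).symm.trans (orderOf_dvd_iff_pow_eq_one.1 (sq h).dvd)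
  have ut : ∀ {g : SU n F 2}, (sm g - 1).rank = 1 → ∃ w, ∃ hw : hermForm n F 2 w w = 0,
      g = utSU hw c1 := fun {g} h => by
    have h2 : sm g * sm g = 1 := congrArg sm (aa h)
    have h1 := H29.inv_selfadj (A := sm g) g.2 h2
    obtain ⟨w, -, h3, h4⟩ := H29.selfadj_decomp' h1 h
    obtain ⟨u, h3⟩ := h3 0
    refine ⟨w 0, by rw [← h3, h1, mulVec_mulVec, H29.inv_sq_zero h2,
      zero_mulVec, herm_zero_right], SU_ext fun x => ?_⟩
    have := h4 x
    rw [sub_mulVec, one_mulVec, sub_eq_iff_eq_add', Fin.sum_univ_one] at this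
    exact this.trans (by rw [← one_mul (hermForm _ _ _ _ _), ← ut_mulVec]; rfl)
  have rk : ∀ {g : SU n F 2} {v c}, sm g = unitaryTransvection n 2 v c → g ≠ 1 →
      (sm g - 1).rank = 1 := fun {g v c} h h1 => by
    have e : sm g - 1 = vecMulVec (c • v) fun j => cj F 2 (v j) := by
      rw [h, unitaryTransvection_eq, rk1, add_sub_cancel_left]
    rw [e]
    exact H29.rank_vecMulVec_eq_one fun k =>
      h1 (Subtype.ext (Subtype.ext (sub_eq_zero.1 (e.trans k))))
  have cj' : ∀ (g : SU n F 2) {w} (hw : hermForm n F 2 w w = 0), sm (g * utSU hw c1 * g⁻¹) =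
      unitaryTransvection n 2 (sm g *ᵥ w) 1 := fun g w hw => by
    change sm g * unitaryTransvection n 2 w 1 * sm g⁻¹ = _
    rw [IsIsom.mul_ut (M := sm g) g.2, mul_assoc]
    exact (congrArg _ (congrArg sm (mul_inv_cancel g))).trans (mul_one _)
  obtain ⟨e, f, he, -, hef⟩ := exists_hyperbolic_pair (F := F) (q := 2) (n := n) (by omega)
  have r0 : (sm (utSU he c1) - 1).rank = 1 := rk rfl fun k => by
    have := ut_mulVec (q := 2) e 1 f
    rw [← sm_utSU he c1, k, hef, show sm (1 : SU n F 2) = 1 from rfl, one_mulVec,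
      mul_one, one_smul, left_eq_add] at this
    rw [this, herm_zero_right] at hef
    exact zero_ne_one hef
  refine ⟨⟨fun g => sq, fun a ha b hb => ?_⟩, ⟨_, r0, Set.ext fun g =>
    ⟨fun h => H29.isConj_su_of_rank (sq r0) (sq h) (r0.trans h.symm), fun h => ?_⟩⟩, ?_⟩
  · obtain ⟨v, hv, rfl⟩ := ut ha
    obtain ⟨w, hw, rfl⟩ := ut hb
    by_cases h : hermForm n F 2 w v = 0
    · refine Or.inl (H29.sq_of_comm (aa ha) (aa hb) (Subtype.ext (Subtype.ext ((cj' _ hw).trans ?_))))
      rw [sm_utSU, ut_mulVec, h, mul_zero, zero_smul, add_zero]; rfl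
    · refine Or.inr (H29.cube_of_braid (aa ha) (aa hb)
        (Subtype.ext (Subtype.ext ((cj' _ hw).trans (Eq.trans ?_ (cj' _ hv).symm)))))
      have h3 : hermForm n F 2 w v * hermForm n F 2 v w = 1 := by
        have := FiniteField.pow_card_sub_one_eq_one _ h
        rw [hF] at this
        rw [← cj_herm w v, ← this]
        exact (pow_succ' _ 2).symm
      rw [sm_utSU, sm_utSU, ut_mulVec, ut_mulVec, one_mul, one_mul,
        show w + hermForm n F 2 w v • v = hermForm n F 2 w v • (v + hermForm n F 2 v w • w) by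
          rw [smul_add, smul_smul, h3, one_smul, add_comm], ut_smul, cj_herm, h3, mul_one]
  · obtain ⟨c, rfl⟩ := isConj_iff.1 h
    exact rk (cj' c he) fun k => by
      rw [mul_inv_eq_one, mul_eq_left] at k
      simp [k, show sm (1 : SU n F 2) = 1 from rfl] at r0
  · rw [eq_top_iff, ← closure_ut_eq_top (F := F) (q := 2) (n := n) (by omega), Subgroup.closure_le]
    rintro g ⟨v, c, -, h⟩
    by_cases k : g = 1
    · exact k ▸ one_mem _
    · exact Subgroup.subset_closure (rk h k)

end Cfsg.Agent.S1631
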