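import Cfsg.Statements.S1633
import Cfsg.Agent.H55.CfgThm
import Cfsg.Agent.H55.IsoU35

set_option autoImplicit false
open Cfsg

namespace Cfsg.Agent.S1633

open Cfsg.Agent.H14 Cfsg.Agent.H15 Cfsg.Agent.H55

theorem aux (a b c d : ℕ) (h : a * b = c) (h1 : d * b = c) (h2 : 0 < b) : a = d :=
  Nat.eq_of_mul_eq_mul_right h2 (h.trans h1.symm)

/-- The Higman–Sims group acts transitively on 352 vectors, a set closed under x ↦ −w − x, with vector stabiliser isomorphic to PSU(3, 5). -/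
theorem result (v w : ↥Cfsg.leechLattice) (hv : Cfsg.sqNorm (v : Cfsg.GolayPt → ℤ) = 48) (hw : Cfsg.sqNorm (w : Cfsg.GolayPt → ℤ) = 48) (hvw : Cfsg.dotInt (v : Cfsg.GolayPt → ℤ) (w : Cfsg.GolayPt → ℤ) = -32) (F : Type) [Field F] [Fintype F] (hF : Fintype.card F = 25) : {x : ↥Cfsg.leechLattice | Cfsg.sqNorm (x : Cfsg.GolayPt → ℤ) = 32 ∧ Cfsg.dotInt (v : Cfsg.GolayPt → ℤ) (x : Cfsg.GolayPt → ℤ) = 16 ∧ Cfsg.dotInt (w : Cfsg.GolayPt → ℤ) (x : Cfsg.GolayPt → ℤ) = -24}.ncard = 352 ∧ (∀ x ∈ {x : ↥Cfsg.leechLattice | Cfsg.sqNorm (x : Cfsg.GolayPt → ℤ) = 32 ∧ Cfsg.dotInt (v : Cfsg.GolayPt → ℤ) (x : Cfsg.GolayPt → ℤ) = 16 ∧ Cfsg.dotInt (w : Cfsg.GolayPt → ℤ) (x : Cfsg.GolayPt → ℤ) = -24}, -w - x ∈ {x : ↥Cfsg.leechLattice | Cfsg.sqNorm (x : Cfsg.GolayPt → ℤ) = 32 ∧ Cfsg.dotInt (v : Cfsg.GolayPt → ℤ) (x : Cfsg.GolayPt → ℤ) = 16 ∧ Cfsg.dotInt (w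 : Cfsg.GolayPt → ℤ) (x : Cfsg.GolayPt → ℤ) = -24}) ∧ (∀ x ∈ {x : ↥Cfsg.leechLattice | Cfsg.sqNorm (x : Cfsg.GolayPt → ℤ) = 32 ∧ Cfsg.dotInt (v : Cfsg.GolayPt → ℤ) (x : Cfsg.GolayPt → ℤ) = 16 ∧ Cfsg.dotInt (w : Cfsg.GolayPt → ℤ) (x : Cfsg.GolayPt → ℤ) = -24}, ∀ x' ∈ {x : ↥Cfsg.leechLattice | Cfsg.sqNorm (x : Cfsg.GolayPt → ℤ) = 32 ∧ Cfsg.dotInt (v : Cfsg.GolayPt → ℤ) (x : Cfsg.GolayPt → ℤ) = 16 ∧ Cfsg.dotInt (w : Cfsg.GolayPt → ℤ) (x : Cfsg.GolayPt → ℤ) = -24}, ∃ g : ↥Cfsg.Co0, g • v = v ∧ g • w = w ∧ g • x = x') ∧ ∀ x ∈ {x : ↥Cfsg.leechLattice | Cfsg.sqNorm (x : Cfsg.GolayPt → ℤ) = 32 ∧ Cfsg.dotInt (v : Cfsg.GolayPt → ℤ) (x : Cfsg.GolayPt → ℤ) = 16 ∧ Cfsg.dotInt (w : Cfsg.GolayPt → ℤ) (x : Cfsg.GolayPt → ℤ) = -24}, Nonempty (↥(MulAction.stabilizer ↥Cfsg.Co0 v ⊓ MulAction.stabilizer ↥Cfsg.Co0 w ⊓ MulAction.stabilizer ↥Cfsg.Co0 x) ≃*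 Cfsg.PSU 3 F 5) := by
  have e : {x : leechLattice | sqNorm (x : Vec) = 32 ∧ dotInt (v : Vec) (x : Vec) = 16 ∧
      dotInt (w : Vec) (x : Vec) = -24} = XS [-v, -w] [-16, 24] := Set.ext fun y => by
    rw [mem_XS2, AddSubgroup.coe_neg, AddSubgroup.coe_neg, dot_neg_left, dot_neg_left, neg_inj, neg_eq_iff_eq_neg]
    exact and_congr_right fun _ => and_comm
  have h1 : sqNorm ((-w : leechLattice) : Vec) = 48 := (sqNorm_neg _).trans hw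
  have h2 : sqNorm ((-v : leechLattice) : Vec) = 48 := (sqNorm_neg _).trans hv
  have h3 : dotInt ((-w : leechLattice) : Vec) ((-v : leechLattice) : Vec) = -32 := by
    rw [AddSubgroup.coe_neg, AddSubgroup.coe_neg, dot_neg_left, dot_neg_right, neg_neg, dot_comm, hvw]
  obtain ⟨h4, -, h5⟩ := (hs1 h1 h2 h3).1 (-16, 352) (by simp)
  refine ⟨e ▸ h4, fun x ⟨a, b, c⟩ => ⟨?_, ?_, ?_⟩, ?_, ?_⟩
  · rw [AddSubgroup.coe_sub, AddSubgroup.coe_neg, sqNorm_sub, sqNorm_neg, dot_neg_left, hw, a, c]; rfl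
  · rw [AddSubgroup.coe_sub, AddSubgroup.coe_neg, dot_sub_right, dot_neg_right, hvw, b]; rfl
  · rw [AddSubgroup.coe_sub, AddSubgroup.coe_neg, dot_sub_right, dot_neg_right, dot_self, hw, c]; rfl
  · rw [e]
    intro x hx y hy
    obtain ⟨k, hk⟩ := (h5 x hx).ge hy
    exact ⟨k, neg_injective ((co0_smul_neg _ _).symm.trans (k.2 _ (by simp))),
      neg_injective ((co0_smul_neg _ _).symm.trans (k.2 _ (by simp))), hk⟩
  · rw [e]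
    intro x hx
    obtain ⟨g, hg⟩ := (hs1 h1 h2 h3).extend (tr_hs h1 h2 h3) (lpt_XS (r := IsoU35.x) (fx := [_, _])
      (by decide +kernel)) hx
    obtain ⟨e'⟩ := Fx_equiv [lpt IsoU35.x, lpt CfgHS.w, lpt CfgHS.v] g
    rw [hg] at e'
    have h6 := card_Fx_cons x [-v, -w]
    have h7 : Fx [-v, -w] = MulAction.stabilizer Co0 (v + w) ⊓ MulAction.stabilizer Co0 v := by
      ext k
      simp only [mem_Fx, List.forall_mem_cons, Subgroup.mem_inf, MulAction.mem_stabilizer_iff, co0_smul_add,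
        co0_smul_neg, neg_inj]
      exact ⟨fun h => ⟨by rw [h.1, h.2.1], h.1⟩, fun h => ⟨h.2, add_left_cancel (h.2 ▸ h.1 :), by simp⟩⟩
    rw [h5 x hx, h4, h7, card_HS (v + w) v (by rw [AddSubgroup.coe_add, sqNorm_add, hv, hw, hvw]; rfl) hv
      (by rw [AddSubgroup.coe_add, dot_add_left, dot_self, hv, dot_comm, hvw]; rfl),
      ← Nat.card_congr e'.toEquiv] at h6
    obtain ⟨e⟩ := IsoU35.equiv hF (aux _ _ _ _ h6 (by norm_num) (by norm_num))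
    have h8 : MulAction.stabilizer Co0 v ⊓ MulAction.stabilizer Co0 w ⊓ MulAction.stabilizer Co0 x =
        Fx [x, -v, -w] := by
      ext k
      simp only [mem_Fx, List.forall_mem_cons, Subgroup.mem_inf, MulAction.mem_stabilizer_iff, co0_smul_neg, neg_inj]
      exact ⟨fun h => ⟨h.2, h.1.1, h.1.2, by simp⟩, fun h => ⟨⟨h.2.1, h.2.2.1⟩, h.1⟩⟩
    rw [h8]
    exact ⟨e'.symm.trans e⟩

end Cfsg.Agent.S1633
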