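import Cfsg.Statements.S1635
import Cfsg.Agent.H56.Golay23

set_option autoImplicit false
open Cfsg

namespace Cfsg.Agent.S1635

open H14 H55 H56

theorem sub_mem {w u v : GolayPt → ZMod 2} (hu : w - u ∈ golayCode) (hv : w - v ∈ golayCode) :
    symmDiff (support₂ u) (support₂ v) ∈ CSets := by
  rw [← supp_sub, support_mem_cSets_iff, show u - v = (w - v) - (w - u) by abel]
  exact golayCode.sub_mem hv hu

/-- Coset leaders of the length-24 code: a coset contains a unique word of weight ≤ 3, or else exactly six words of weight 4 and none lighter. -/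
theorem result (w : Cfsg.GolayPt → ZMod 2) : ({v : Cfsg.GolayPt → ZMod 2 | hammingNorm v ≤ 4 ∧ w - v ∈ Cfsg.golayCode}.ncard = 1 ∧ ∃ v : Cfsg.GolayPt → ZMod 2, hammingNorm v ≤ 3 ∧ w - v ∈ Cfsg.golayCode) ∨ ({v : Cfsg.GolayPt → ZMod 2 | hammingNorm v ≤ 4 ∧ w - v ∈ Cfsg.golayCode}.ncard = 6 ∧ ∀ v : Cfsg.GolayPt → ZMod 2, w - v ∈ Cfsg.golayCode → hammingNorm v ≤ 4 → hammingNorm v = 4) := by
  by_cases h : ∃ v : GolayPt → ZMod 2, hammingNorm v ≤ 3 ∧ w - v ∈ golayCode
  · refine Or.inl ⟨?_, h⟩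
    obtain ⟨v, h1, h2⟩ := h
    exact Set.ncard_eq_one.2 ⟨v, Set.eq_singleton_iff_unique_mem.2 ⟨⟨by omega, h2⟩, fun u hu =>
      support₂_injective (eq_of_close (sub_mem hu.2 h2) (by
        have := hu.1
        rw [hammingNorm_eq_card] at this h1
        omega))⟩⟩
  · have h4 : ∀ v : GolayPt → ZMod 2, w - v ∈ golayCode → hammingNorm v ≤ 4 → hammingNorm v = 4 :=
      fun v h1 h2 => by
        by_contra hc
        exact h ⟨v, by omega, h1⟩
    refine Or.inr ⟨?_, h4⟩
    obtain ⟨_, ⟨c, hc, rfl⟩, h1⟩ := exists_close (support₂ w)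
    rw [← supp_sub] at h1
    have h2 : w - (w - c) ∈ golayCode := by rwa [sub_sub_cancel]
    obtain ⟨S, ⟨hS, ht⟩, -⟩ := existsUnique_sextet (t := support₂ (w - c)) (h4 _ h2 h1)
    rw [← hS.1, ← Set.ncard_coe_finset]
    refine Set.ncard_congr (fun v _ => support₂ v) (fun v hv => (mem_sextet_iff hS ht).2
      ⟨h4 v hv.2 hv.1, sub_mem h2 hv.2⟩) (fun _ _ _ _ e => support₂_injective e) fun u hu => ?_
    obtain ⟨h5, h6⟩ := (mem_sextet_iff hS ht).1 hu
    refine ⟨word (mask u), ⟨by rw [hammingNorm_eq_card, supp_word_mask, h5], ?_⟩, supp_word_mask u⟩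
    rw [← supp_word_mask u, ← supp_sub, support_mem_cSets_iff] at h6
    rw [show w - word (mask u) = w - c - word (mask u) + c by abel]
    exact golayCode.add_mem h6 hc

end Cfsg.Agent.S1635
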