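import Cfsg.Statements.S1636
import Cfsg.Agent.H56.Golay23

set_option autoImplicit false
open Cfsg

namespace Cfsg.Agent.S1636

open H14 H55 H56

/-- The punctured length-23 code has weight distribution 0^1 7^253 8^506 11^1288 12^1288 15^506 16^253 23^1. -/
theorem result : {u : ZMod 23 → ZMod 2 | ∃ w ∈ Cfsg.golayCode, ∀ x : ZMod 23, u x = w (some x)}.ncard = 4096 ∧ {u : ZMod 23 → ZMod 2 | u ∈ {u : ZMod 23 → ZMod 2 | ∃ w ∈ Cfsg.golayCode, ∀ x : ZMod 23, u x = w (some x)} ∧ hammingNorm u = 7}.ncard = 253 ∧ {u : ZMod 23 → ZMod 2 | u ∈ {u : ZMod 23 → ZMod 2 | ∃ w ∈ Cfsg.golayCode, ∀ x : ZMod 23, u x = w (some x)} ∧ hammingNorm u = 8}.ncard = 506 ∧ {u : ZMod 23 → ZMod 2 | u ∈ {u : ZMod 23 → ZMod 2 | ∃ w ∈ Cfsg.golayCode, ∀ x : ZMod 23, u x = w (some x)} ∧ hammingNorm u = 11}.ncard = 1288 ∧ {u : ZMod 23 → ZMod 2 | u ∈ {u : ZMod 23 → ZMod 2 | ∃ w ∈ Cfsg.golayCode, ∀ x : ZMod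 23, u x = w (some x)} ∧ hammingNorm u = 12}.ncard = 1288 ∧ {u : ZMod 23 → ZMod 2 | u ∈ {u : ZMod 23 → ZMod 2 | ∃ w ∈ Cfsg.golayCode, ∀ x : ZMod 23, u x = w (some x)} ∧ hammingNorm u = 15}.ncard = 506 ∧ {u : ZMod 23 → ZMod 2 | u ∈ {u : ZMod 23 → ZMod 2 | ∃ w ∈ Cfsg.golayCode, ∀ x : ZMod 23, u x = w (some x)} ∧ hammingNorm u = 16}.ncard = 253 ∧ ∀ u ∈ {u : ZMod 23 → ZMod 2 | ∃ w ∈ Cfsg.golayCode, ∀ x : ZMod 23, u x = w (some x)}, u ≠ 0 → 7 ≤ hammingNorm u := by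
  refine ⟨?_, (ncard_punct _).trans (by decide +kernel), (ncard_punct _).trans (by decide +kernel),
    (ncard_punct _).trans (by decide +kernel), (ncard_punct _).trans (by decide +kernel),
    (ncard_punct _).trans (by decide +kernel), (ncard_punct _).trans (by decide +kernel),
    fun u hu h => ?_⟩
  · rw [← cSets_ncard]
    symm
    exact Set.ncard_congr (fun s _ => res s) (fun s hs => mem_punct.2 ⟨s, hs, rfl⟩)
      (fun s t hs ht h => res_inj hs ht (by simp [h])) fun u hu =>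
        let ⟨s, hs, e⟩ := mem_punct.1 hu; ⟨s, hs, e⟩
  · obtain ⟨s, hs, rfl⟩ := mem_punct.1 hu
    refine not_lt.1 fun hc => h (hammingNorm_eq_zero.1 ?_)
    rw [eq_empty_of_norm hs hc, norm_res]
    rfl

end Cfsg.Agent.S1636
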