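import Cfsg.Statements.S1637
import Cfsg.Agent.H56.Golay23

set_option autoImplicit false
open Cfsg

namespace Cfsg.Agent.S1637

open H14 H55 H56

/-- The punctured length-23 code is a perfect 3-error-correcting code: each word of length 23 is within distance 3 of exactly one codeword. -/
theorem result (u : ZMod 23 → ZMod 2) : ∃! c : ZMod 23 → ZMod 2, c ∈ {u : ZMod 23 → ZMod 2 | ∃ w ∈ Cfsg.golayCode, ∀ x : ZMod 23, u x = w (some x)} ∧ hammingDist u c ≤ 3 := by
  obtain ⟨s, rfl, h1⟩ := exists_res u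
  obtain ⟨c, hc, h2⟩ := exists_close s
  have h3 : hammingDist (res s) (res c) ≤ 3 := by
    have h4 := card_symmDiff_add s c
    have h5 := card_of_mem_cSets hc
    have h6 := Finset.card_erase_le (s := symmDiff s c) (a := none)
    rw [dist_res, norm_res]
    omega
  refine ⟨res c, ⟨mem_punct.2 ⟨c, hc, rfl⟩, h3⟩, fun v ⟨hv, h4⟩ => ?_⟩
  obtain ⟨t, ht, rfl⟩ := mem_punct.1 hv
  have h5 := hammingDist_triangle_left (res t) (res c) (res s)
  rw [res_inj ht hc (by omega)]

end Cfsg.Agent.S1637
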