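import Cfsg.Statements.S1638
import Cfsg.Agent.H56.OrbK

set_option autoImplicit false
open scoped Pointwise
open Cfsg

namespace Cfsg.Agent.S1638

open H55 H56

theorem card_inter_zero {s t : Finset GolayPt} : (s ∩ t).card = 0 ↔ Disjoint s t := by
  rw [Finset.card_eq_zero, Finset.disjoint_iff_inter_eq_empty]

theorem ex_iff (p q : GolayPt) (s : Finset GolayPt) : (∃ o ∈ octads, p ∈ o ∧ q ∈ o ∧ s ⊆ o) ↔
    ∃ o ∈ octads, {p} ∪ {q} ∪ s ⊆ o := by
  simp only [Finset.union_subset_iff, Finset.singleton_subset_iff, and_assoc]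

/-- Fix two points p ≠ q and a pair s of two further points. Among the pairs avoiding p, q and disjoint from s, exactly 30 lie in an octad together with p, q and s and exactly 160 do not; and any two pairs other than s that meet s in equally many points and agree on that octad property are carried to one another by an element of the group of the length-24 code fixing p, q and s. -/
theorem result (p q : Cfsg.GolayPt) (hpq : p ≠ q) (s : Finset Cfsg.GolayPt) (hs : (s.card = 2 ∧ p ∉ s ∧ q ∉ s)) : {t : Finset Cfsg.GolayPt | (t.card = 2 ∧ p ∉ t ∧ q ∉ t) ∧ Disjoint s t ∧ (∃ o ∈ Cfsg.octads, p ∈ o ∧ q ∈ o ∧ s ∪ t ⊆ o)}.ncard = 30 ∧ {t : Finset Cfsg.GolayPt | (t.card = 2 ∧ p ∉ t ∧ q ∉ t) ∧ Disjoint s t ∧ ¬ (∃ o ∈ Cfsg.octads, p ∈ o ∧ q ∈ o ∧ s ∪ t ⊆ o)}.ncard = 160 ∧ ∀ t t' : Finset Cfsg.GolayPt, (t.card = 2 ∧ p ∉ t ∧ q ∉ t) → (t'.card = 2 ∧ p ∉ t' ∧ q ∉ t') → t ≠ s → t' ≠ s → (s ∩ t).card = (s ∩ t').card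 → ((∃ o ∈ Cfsg.octads, p ∈ o ∧ q ∈ o ∧ s ∪ t ⊆ o) ↔ (∃ o ∈ Cfsg.octads, p ∈ o ∧ q ∈ o ∧ s ∪ t' ⊆ o)) → ∃ g : Equiv.Perm Cfsg.GolayPt, g ∈ Cfsg.M24 ∧ g p = p ∧ g q = q ∧ g • s = s ∧ g • t = t' := by
  have S := dd_sub (a := (p, q)) hpq hs
  refine ⟨Eq.trans (congrArg _ (Set.ext fun x => ?_)) (S.card 1),
    Eq.trans (congrArg _ (Set.ext fun x => ?_)) (S.card 3), fun U U' h1 h2 _ _ h3 h => ?_⟩
  · exact and_congr_right fun _ => by
      rw [← card_inter_zero, ex_iff, ← octI_eq_one]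
      exact (Prod.ext_iff (x := fD ((p, q), s) x) (y := (0, 1))).symm
  · exact and_congr_right fun _ => by
      rw [← card_inter_zero, ex_iff, ← octI_eq_zero]
      exact (Prod.ext_iff (x := fD ((p, q), s) x) (y := (0, 0))).symm
  · rw [ex_iff, ex_iff] at h
    obtain ⟨g, hg⟩ := S.trans U h1 U' h2 (Prod.ext h3 (octI_congr h))
    exact ⟨_, g.1.2, congrArg (·.1.1) g.2, congrArg (·.1.2) g.2, congrArg (·.2) g.2, hg⟩

end Cfsg.Agent.S1638
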