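import Cfsg.Statements.S1639
import Cfsg.Agent.H56.OrbPt

set_option autoImplicit false
open scoped Pointwise
open Cfsg

namespace Cfsg.Agent.S1639

open H55 H56

/-- The point stabiliser acts on the 1288 dodecads through the point with rank 4 and subdegrees 1, 165, 330, 792, distinguished by intersection 4, 8, 6 with the fixed dodecad. -/
theorem result (x : Cfsg.GolayPt) (d : Finset Cfsg.GolayPt) (hd : d ∈ Cfsg.dodecads) (hx : x ∈ d) : {d' : Finset Cfsg.GolayPt | d' ∈ Cfsg.dodecads ∧ x ∈ d' ∧ (d ∩ d').card = 4}.ncard = 165 ∧ {d' : Finset Cfsg.GolayPt | d' ∈ Cfsg.dodecads ∧ x ∈ d' ∧ (d ∩ d').card = 8}.ncard = 330 ∧ {d' : Finset Cfsg.GolayPt | d' ∈ Cfsg.dodecads ∧ x ∈ d' ∧ (d ∩ d').card = 6}.ncard = 792 ∧ ∀ d' d'' : Finset Cfsg.GolayPt, d' ∈ Cfsg.dodecads → d'' ∈ Cfsg.dodecads → x ∈ d' → x ∈ d'' → (d ∩ d').card = (d ∩ d'').card → ∃ g : Equiv.Perm Cfsg.GolayPt, g ∈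 Cfsg.M24 ∧ g x = x ∧ g • d = d ∧ g • d' = d'' := by
  have S := sDod_sub (a := x) (o := d) ⟨hd, hx⟩
  refine ⟨Eq.trans (congrArg _ (Set.ext fun x => ?_)) (S.card 1),
    Eq.trans (congrArg _ (Set.ext fun x => ?_)) (S.card 2),
    Eq.trans (congrArg _ (Set.ext fun x => ?_)) (S.card 3), fun o' o'' h1 h2 h3 h4 h => ?_⟩
  · simp [dIn, and_assoc]
  · simp [dIn, and_assoc]
  · simp [dIn, and_assoc]
  · obtain ⟨g, hg⟩ := S.trans o' ⟨h1, h3⟩ o'' ⟨h2, h4⟩ h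
    exact ⟨_, g.1.2, congrArg (·.1) g.2, congrArg (·.2) g.2, hg⟩

end Cfsg.Agent.S1639
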