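import Cfsg.Statements.S1641
import Cfsg.Agent.H55.CfgThm

set_option autoImplicit false
open Cfsg

namespace Cfsg.Agent.S1641

open Cfsg.Agent.H15 Cfsg.Agent.H55

/-- The third Conway group acts on the 11178 cosets of the Higman–Sims group with rank 5 and subdegrees 1, 352, 1100, 4125, 5600. -/
theorem result (u x : ↥Cfsg.leechLattice) (hu : Cfsg.sqNorm (u : Cfsg.GolayPt → ℤ) = 48) (hx : x ∈ {x : ↥Cfsg.leechLattice | Cfsg.sqNorm (x : Cfsg.GolayPt → ℤ) = 32 ∧ Cfsg.dotInt (u : Cfsg.GolayPt → ℤ) (x : Cfsg.GolayPt → ℤ) = -16}) : ∃ y₁ ∈ {x : ↥Cfsg.leechLattice | Cfsg.sqNorm (x : Cfsg.GolayPt → ℤ) = 32 ∧ Cfsg.dotInt (u : Cfsg.GolayPt → ℤ) (x : Cfsg.GolayPt → ℤ) = -16}, ∃ y₂ ∈ {x : ↥Cfsg.leechLattice | Cfsg.sqNorm (x : Cfsg.GolayPt → ℤ) = 32 ∧ Cfsg.dotInt (u : Cfsg.GolayPt → ℤ) (x :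 Cfsg.GolayPt → ℤ) = -16}, ∃ y₃ ∈ {x : ↥Cfsg.leechLattice | Cfsg.sqNorm (x : Cfsg.GolayPt → ℤ) = 32 ∧ Cfsg.dotInt (u : Cfsg.GolayPt → ℤ) (x : Cfsg.GolayPt → ℤ) = -16}, ∃ y₄ ∈ {x : ↥Cfsg.leechLattice | Cfsg.sqNorm (x : Cfsg.GolayPt → ℤ) = 32 ∧ Cfsg.dotInt (u : Cfsg.GolayPt → ℤ) (x : Cfsg.GolayPt → ℤ) = -16}, (MulAction.orbit ↥(MulAction.stabilizer ↥Cfsg.Co0 u ⊓ MulAction.stabilizer ↥Cfsg.Co0 x) y₁).ncard = 352 ∧ (MulAction.orbit ↥(MulAction.stabilizer ↥Cfsg.Co0 u ⊓ MulAction.stabilizer ↥Cfsg.Co0 x) y₂).ncard = 1100 ∧ (MulAction.orbit ↥(MulAction.stabilizer ↥Cfsg.Co0 u ⊓ MulAction.stabilizer ↥Cfsg.Co0 x) y₃).ncard = 4125 ∧ (MulAction.orbit ↥(MulAction.stabilizer ↥Cfsg.Co0 u ⊓ MulAction.stabilizer ↥Cfsg.Co0 x) y₄).ncard = 5600 ∧ {x : ↥Cfsg.leechLattice | Cfsg.sqNorm (x : Cfsg.GolayPt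 → ℤ) = 32 ∧ Cfsg.dotInt (u : Cfsg.GolayPt → ℤ) (x : Cfsg.GolayPt → ℤ) = -16} = {x} ∪ MulAction.orbit ↥(MulAction.stabilizer ↥Cfsg.Co0 u ⊓ MulAction.stabilizer ↥Cfsg.Co0 x) y₁ ∪ MulAction.orbit ↥(MulAction.stabilizer ↥Cfsg.Co0 u ⊓ MulAction.stabilizer ↥Cfsg.Co0 x) y₂ ∪ MulAction.orbit ↥(MulAction.stabilizer ↥Cfsg.Co0 u ⊓ MulAction.stabilizer ↥Cfsg.Co0 x) y₃ ∪ MulAction.orbit ↥(MulAction.stabilizer ↥Cfsg.Co0 u ⊓ MulAction.stabilizer ↥Cfsg.Co0 x) y₄ := by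
  have e : {x : leechLattice | sqNorm (x : Vec) = 32 ∧ dotInt (u : Vec) (x : Vec) = -16} = XS [u] [-16] :=
    Set.ext fun y => mem_XS1.symm
  rw [e] at hx ⊢
  have h := co3 hu hx
  obtain ⟨a1, ⟨a, a2⟩, a3⟩ := h.1 (-8, 352) (by simp)
  obtain ⟨b1, ⟨b, b2⟩, b3⟩ := h.1 (16, 1100) (by simp)
  obtain ⟨c1, ⟨c, c2⟩, c3⟩ := h.1 (0, 4125) (by simp)
  obtain ⟨d1, ⟨d, d2⟩, d3⟩ := h.1 (8, 5600) (by simp)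
  rw [Fx_two]
  refine ⟨a, (mem_XS_cons.1 a2).1, b, (mem_XS_cons.1 b2).1, c, (mem_XS_cons.1 c2).1, d, (mem_XS_cons.1 d2).1,
    a3 a a2 ▸ a1, b3 b b2 ▸ b1, c3 c c2 ▸ c1, d3 d d2 ▸ d1, ?_⟩
  rw [a3 a a2, b3 b b2, c3 c c2, d3 d d2]
  ext y
  simp only [Set.mem_union, mem_XS_cons (w := x), Set.mem_singleton_iff]
  refine ⟨fun hy => ?_, ?_⟩
  · obtain ⟨p, hp, e⟩ := h.2 y hy
    simp only [List.mem_cons, List.not_mem_nil, or_false] at hp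
    rcases hp with rfl | rfl | rfl | rfl | rfl
    exacts [.inl (.inl (.inl (.inl (eq_of_dot32 hx.1 hy.1 e)))), .inl (.inl (.inl (.inr ⟨hy, e⟩))),
      .inl (.inl (.inr ⟨hy, e⟩)), .inl (.inr ⟨hy, e⟩), .inr ⟨hy, e⟩]
  · rintro ((((rfl | h) | h) | h) | h)
    exacts [hx, h.1, h.1, h.1, h.1]

end Cfsg.Agent.S1641
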