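import Cfsg.Statements.S1643
import Cfsg.Agent.S1606
import Cfsg.Agent.H56.IsoK

set_option autoImplicit false
open scoped Pointwise
open Cfsg

namespace Cfsg.Agent.S1643

open H14 H55 H56 MulAction S1606

/-- `t ↦ t + 1` -/
def S : ℕ := nat_lit 956302485175575353788796878166559809
/-- `t ↦ -1 / t` -/
def I : ℕ := nat_lit 1795248432537898728475572672376535
def cFL0 : Lev := ⟨nat_lit 0, nat_lit 0x7fffff, (.node (nat_lit 11) (.node (nat_lit 5) (.node (nat_lit 2) (.node (nat_lit 1) (.leaf (nat_lit 0xbdab49ca307b9ac5a928398a418820)) (.leaf (nat_lit 0xb9ece355a5a309358e4a145218200f))) (.node (nat_lit 3) (.leaf (nat_lit 0xbd9c6ab4b46126b1c9428a430401e7)) (.node (nat_lit 4) (.leaf (nat_lit 0xb9c76939461562d494348310404deb)) (.leaf (nat_lit 0xb8ed2728c2ac5a928690620809bd67))))) (.node (nat_lit 8) (.node (nat_lit 6) (.leaf (nat_lit 0xbda4e518558b5250d20c410137ace3)) (.node (nat_lit 7) (.leaf (nat_lit 0xba4e5186d4941cc520c4102b38bdab))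 (.leaf (nat_lit 0xb9ca30da928398a41882056717b569)))) (.node (nat_lit 9) (.leaf (nat_lit 0xb9461b52507314831040ace2f6ad27)) (.node (nat_lit 10) (.leaf (nat_lit 0xb8c36a4a0e62906208159c5ed5a4e5)) (.leaf (nat_lit 0xb86d4941cc520c4102b38bdab49ca3)))))) (.node (nat_lit 17) (.node (nat_lit 14) (.node (nat_lit 12) (.leaf (nat_lit 0xbda928398a41882056717b56939461)) (.node (nat_lit 13) (.leaf (nat_lit 0xbac7250a290c10079ece355a5a3093)) (.leaf (nat_lit 0xb8e4a145218200f3d9c6ab4b46126b)))) (.node (nat_lit 15) (.leaf (nat_lit 0xbc9428a430401e7b38d56968c24d63)) (.node (nat_lit 16) (.leaf (nat_lit 0xb94348310404deb38ed2728c2ac5a9)) (.leaf (nat_lit 0xb8690620809bd671da4e518558b525))))) (.node (nat_lit 20) (.node (nat_lit 18) (.leaf (nat_lit 0xbd20c410137ace3b49ca30ab16a4a1)) (.node (nat_lit 19) (.leaf (nat_lit 0xb9062082d5a4e5183dcd62d4941cc5)) (.leaf (nat_lit 0xb8c4105ab49ca307b9ac5a928398a4)))) (.node (nat_lit 21) (.leaf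 (nat_lit 0xb8820b56939460f7358b5250731483)) (.node (nat_lit 22) (.leaf (nat_lit 0xb8416ad2728c1ee6b16a4a0e629062)) (.leaf (nat_lit 0xb82d5a4e5183dcd62d4941cc520c41)))))))⟩
def cFC0 : LevCert := ⟨cFL0,
    [(nat_lit 22, nat_lit 0), (nat_lit 21, nat_lit 0), (nat_lit 11, nat_lit 1), (nat_lit 20, nat_lit 0), (nat_lit 10, nat_lit 0), (nat_lit 17, nat_lit 1), (nat_lit 19, nat_lit 0), (nat_lit 9, nat_lit 0), (nat_lit 5, nat_lit 1), (nat_lit 16, nat_lit 0), (nat_lit 18, nat_lit 0), (nat_lit 8, nat_lit 0), (nat_lit 4, nat_lit 0), (nat_lit 14, nat_lit 1), (nat_lit 15, nat_lit 0), (nat_lit 7, nat_lit 0), (nat_lit 3, nat_lit 0), (nat_lit 2, nat_lit 1), (nat_lit 13, nat_lit 0), (nat_lit 6, nat_lit 0), (nat_lit 1, nat_lit 0), (nat_lit 12, nat_lit 0)],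
    [[nat_lit 0, nat_lit 2, nat_lit 0, nat_lit 2, nat_lit 0, nat_lit 2, nat_lit 0, nat_lit 2, nat_lit 2, nat_lit 0, nat_lit 0, nat_lit 2, nat_lit 0, nat_lit 0], [nat_lit 2, nat_lit 4, nat_lit 2, nat_lit 4, nat_lit 2, nat_lit 4, nat_lit 2, nat_lit 2, nat_lit 4]],
    [nat_lit 0xb954fa08ec8d88974c265c2a343640, nat_lit 0xb9dd52b263544287d8cda117212600]⟩
def cFL1 : Lev := ⟨nat_lit 1, nat_lit 0x5335e, (.node (nat_lit 8) (.node (nat_lit 3) (.node (nat_lit 2) (.leaf (nat_lit 0xbdab49ca307b9ac5a928398a418820)) (.leaf (nat_lit 0xbaecaaa68899e468960478dc268580))) (.node (nat_lit 4) (.leaf (nat_lit 0xbbcf671aad2d1849ac7250a290c100)) (.node (nat_lit 6) (.leaf (nat_lit 0xbc565b4144abd23a39029b4e1930c0)) (.leaf (nat_lit 0xbcdeb38ed2728c2ac5a92869062080))))) (.node (nat_lit 13) (.node (nat_lit 9) (.leaf (nat_lit 0xbd22e5a0a2b4e0d51c81ac9ec49860)) (.node (nat_lit 12) (.leaf (nat_lit 0xb954fa08ec8d88974c265c2a343640)) (.leaf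 (nat_lit 0xbd6717b56939461b52507314831040)))) (.node (nat_lit 16) (.leaf (nat_lit 0xb9dd52b263544287d8cda117212600)) (.node (nat_lit 18) (.leaf (nat_lit 0xbaa87891c15d5122bc4cb266680da0)) (.leaf (nat_lit 0xbb8b3505e6a2c503d5838a2cd24920))))))⟩
def cFC1 : LevCert := ⟨cFL1,
    [(nat_lit 9, nat_lit 0), (nat_lit 13, nat_lit 1), (nat_lit 12, nat_lit 0), (nat_lit 2, nat_lit 1), (nat_lit 8, nat_lit 1), (nat_lit 16, nat_lit 0), (nat_lit 18, nat_lit 1), (nat_lit 3, nat_lit 1), (nat_lit 6, nat_lit 0), (nat_lit 4, nat_lit 1)],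
    [],
    []⟩
def cF : List LevCert := [cFC0, cFC1]
def cFL : List Lev := [cFL0, cFL1]
def cLL0 : Lev := ⟨nat_lit 0, nat_lit 0xffffff, (.node (nat_lit 12) (.node (nat_lit 6) (.node (nat_lit 3) (.node (nat_lit 1) (.leaf (nat_lit 0xbdab49ca307b9ac5a928398a418820)) (.node (nat_lit 2) (.leaf (nat_lit 0x89a93bcab24d161c4d57515283017)) (.leaf (nat_lit 0x8c51699353b9f42a9722426c402d7)))) (.node (nat_lit 4) (.leaf (nat_lit 0x120a47c470a4aad719275854c05a77)) (.node (nat_lit 5) (.leaf (nat_lit 0x946a12e32690d04ceac3a1c07da97)) (.leaf (nat_lit 0xbda4e518558b5250d20c410137ace3))))) (.node (nat_lit 9) (.node (nat_lit 7) (.leaf (nat_lit 0x139062a4877ae211aa0ca0256acdb7)) (.node (nat_lit 8) (.leaf (nat_lit 0x1dc8f5a62769aaa09668042cca49c2)) (.leaf (nat_lit 0x191eb4c4ed355412cd008599493857)))) (.node (nat_lit 10) (.leaf (nat_lit 0xb8c36a4a0e62906208159c5ed5a4e5)) (.node (nat_lit 11) (.leaf (nat_lit 0xb86d4941cc520c4102b38bdab49ca3))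 (.leaf (nat_lit 0xbda928398a41882056717b56939461)))))) (.node (nat_lit 18) (.node (nat_lit 15) (.node (nat_lit 13) (.leaf (nat_lit 0x10dca440cc2d120248f67d5738b437)) (.node (nat_lit 14) (.leaf (nat_lit 0x1394881985a240491ecfaae71686e3)) (.leaf (nat_lit 0xbc9428a430401e7b38d56968c24d63)))) (.node (nat_lit 16) (.leaf (nat_lit 0x1dca49bd0b02611b1d8da1a5572841)) (.node (nat_lit 17) (.leaf (nat_lit 0x194937a1604c2363b1b434aae50837)) (.leaf (nat_lit 0xbd20c410137ace3b49ca30ab16a4a1))))) (.node (nat_lit 21) (.node (nat_lit 19) (.leaf (nat_lit 0xb9062082d5a4e5183dcd62d4941cc5)) (.node (nat_lit 20) (.leaf (nat_lit 0xb8c4105ab49ca307b9ac5a928398a4)) (.leaf (nat_lit 0xb8820b56939460f7358b5250731483)))) (.node (nat_lit 22) (.leaf (nat_lit 0xb8416ad2728c1ee6b16a4a0e629062)) (.node (nat_lit 23) (.leaf (nat_lit 0xb82d5a4e5183dcd62d4941cc520c41)) (.leaf (nat_lit 0x5883388a1c8f5140b46cd317aed7)))))))⟩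
def cLC0 : LevCert := ⟨cLL0,
    [(nat_lit 22, nat_lit 0), (nat_lit 23, nat_lit 2), (nat_lit 21, nat_lit 0), (nat_lit 11, nat_lit 1), (nat_lit 1, nat_lit 2), (nat_lit 20, nat_lit 0), (nat_lit 12, nat_lit 2), (nat_lit 10, nat_lit 0), (nat_lit 17, nat_lit 1), (nat_lit 2, nat_lit 2), (nat_lit 19, nat_lit 0), (nat_lit 8, nat_lit 2), (nat_lit 6, nat_lit 1), (nat_lit 9, nat_lit 0), (nat_lit 5, nat_lit 1), (nat_lit 16, nat_lit 2), (nat_lit 4, nat_lit 2), (nat_lit 18, nat_lit 0), (nat_lit 7, nat_lit 0), (nat_lit 3, nat_lit 1), (nat_lit 14, nat_lit 1), (nat_lit 15, nat_lit 0), (nat_lit 13, nat_lit 2)],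
    [[nat_lit 4, nat_lit 2, nat_lit 4, nat_lit 4, nat_lit 4], [nat_lit 2, nat_lit 4, nat_lit 6, nat_lit 2, nat_lit 2, nat_lit 4]],
    [nat_lit 0xbaecaaa68899e468960478dc268580, nat_lit 0xdc4d49de559268b0e26aba8a94180]⟩
def cLL1 : Lev := ⟨nat_lit 1, nat_lit 0xfffffe, (.node (nat_lit 12) (.node (nat_lit 6) (.node (nat_lit 3) (.node (nat_lit 2) (.leaf (nat_lit 0xbdab49ca307b9ac5a928398a418820)) (.leaf (nat_lit 0xbaecaaa68899e468960478dc268580))) (.node (nat_lit 4) (.leaf (nat_lit 0x22d95349e975e368344a9d10309ca0)) (.node (nat_lit 5) (.leaf (nat_lit 0xbc565b4144abd23a39029b4e1930c0)) (.leaf (nat_lit 0x346f26292d42e6fa94eea4024b0c40))))) (.node (nat_lit 9) (.node (nat_lit 7) (.leaf (nat_lit 0x1989652e858b90dbc2af6053299c40)) (.node (nat_lit 8) (.leaf (nat_lit 0x33115a5a2a59603ba66708a4d7b880)) (.leaf (nat_lit 0xbd22e5a0a2b4e0d51c81ac9ec49860)))) (.node (nat_lit 10) (.leaf (nat_lit 0xb954fa08ec8d88974c265c2a343640))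 (.node (nat_lit 11) (.leaf (nat_lit 0x35625b9e4e65150485a445963989e0)) (.leaf (nat_lit 0x430a978acdb8e2e09d6482a72ad0c0)))))) (.node (nat_lit 18) (.node (nat_lit 15) (.node (nat_lit 13) (.leaf (nat_lit 0x1dcd0256cf53161a24b28cdc7409a0)) (.node (nat_lit 14) (.leaf (nat_lit 0x230cf746029a0255d649bd9aaa0ce0)) (.leaf (nat_lit 0x35d8944ea7a06c28c94d5bcae81060)))) (.node (nat_lit 16) (.leaf (nat_lit 0x64d6abb9a50c68990868856c6790e0)) (.node (nat_lit 17) (.leaf (nat_lit 0xbaa87891c15d5122bc4cb266680da0)) (.leaf (nat_lit 0x3b0941c03691ae89bdb55c54271520))))) (.node (nat_lit 21) (.node (nat_lit 19) (.leaf (nat_lit 0x219d098572bb68763e22416a9b2860)) (.node (nat_lit 20) (.leaf (nat_lit 0x62eed0d243859e79a9c58a448a9880)) (.leaf (nat_lit 0x3906195e6d5a9c965216321f5888a0)))) (.node (nat_lit 22) (.leaf (nat_lit 0x65c3283e6e88aa45b683b1d454a0c0)) (.node (nat_lit 23) (.leaf (nat_lit 0x606138d574b2926bc9ee111a339500)) (.leaf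 (nat_lit 0xdc4d49de559268b0e26aba8a94180)))))))⟩
def cLC1 : LevCert := ⟨cLL1,
    [(nat_lit 2, nat_lit 0), (nat_lit 23, nat_lit 1), (nat_lit 4, nat_lit 0), (nat_lit 21, nat_lit 1), (nat_lit 22, nat_lit 1), (nat_lit 8, nat_lit 0), (nat_lit 14, nat_lit 1), (nat_lit 19, nat_lit 0), (nat_lit 7, nat_lit 1), (nat_lit 11, nat_lit 1), (nat_lit 16, nat_lit 0), (nat_lit 12, nat_lit 1), (nat_lit 5, nat_lit 0), (nat_lit 6, nat_lit 1), (nat_lit 15, nat_lit 0), (nat_lit 13, nat_lit 1), (nat_lit 18, nat_lit 1), (nat_lit 9, nat_lit 0), (nat_lit 10, nat_lit 0), (nat_lit 17, nat_lit 1), (nat_lit 3, nat_lit 0), (nat_lit 20, nat_lit 1)],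
    [[nat_lit 0, nat_lit 0, nat_lit 0, nat_lit 2, nat_lit 0], [nat_lit 2, nat_lit 4, nat_lit 2, nat_lit 4, nat_lit 2, nat_lit 2, nat_lit 2, nat_lit 2]],
    [nat_lit 0x1d2e931612246b3b39e7521825b420, nat_lit 0x255f782907599316cc65649d615020]⟩
def cLL2 : Lev := ⟨nat_lit 2, nat_lit 0xf0aa1c, (.node (nat_lit 13) (.node (nat_lit 4) (.node (nat_lit 3) (.leaf (nat_lit 0xbdab49ca307b9ac5a928398a418820)) (.leaf (nat_lit 0x255f782907599316cc65649d615020))) (.node (nat_lit 9) (.leaf (nat_lit 0x1d2e931612246b3b39e7521825b420)) (.node (nat_lit 11) (.leaf (nat_lit 0xb3d643ccac6c8684c04e8a8d5a5c20)) (.leaf (nat_lit 0x7b53589cc81ce8e132f22c14b25820))))) (.node (nat_lit 21) (.node (nat_lit 15) (.leaf (nat_lit 0xaadb6641d14a84519e8644e4fb9020)) (.node (nat_lit 20) (.leaf (nat_lit 0x5a46f43245142e6a448a71e6db5420)) (.leaf (nat_lit 0xa12c251993a95677c9b18391748c20)))) (.node (nat_lit 22) (.leaf (nat_lit 0x68c4b2c54ea1c92ba2d333209abc20))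 (.node (nat_lit 23) (.leaf (nat_lit 0x48a8d72266bb2ca216b0944e37ac20)) (.leaf (nat_lit 0x15c83938eab21f0a996c996346a420))))))⟩
def cLC2 : LevCert := ⟨cLL2,
    [(nat_lit 4, nat_lit 0), (nat_lit 3, nat_lit 1), (nat_lit 15, nat_lit 0), (nat_lit 23, nat_lit 1), (nat_lit 9, nat_lit 1), (nat_lit 21, nat_lit 1), (nat_lit 20, nat_lit 1), (nat_lit 13, nat_lit 1), (nat_lit 22, nat_lit 1), (nat_lit 11, nat_lit 1)],
    [],
    []⟩
def cL : List LevCert := [cLC0, cLC1, cLC2]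
def cLL : List Lev := [cLL0, cLL1, cLL2]

theorem pow_smul' {g : M24} {P : ℕ} (h : GE.pk g = P) (n : ℕ) (x : GolayPt) :
    g ^ n • x = (fn P)^[n] x := by
  have e : (fun y : GolayPt => g • y) = fn P := funext fun y => h ▸ GE.apply_eq g.1 y
  rw [← smul_iterate_apply, e]

section
variable {s : M24} {a : G} (hs : GE.pk s = S) (ha : GE.pk (incl _ a) = A)

include hs in
theorem order_s : orderOf s = 23 := by
  rw [← Subgroup.orderOf_coe]
  exact GE.orderOf_eq_of_ordP (by norm_num) (by rw [hs]; decide +kernel)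

include hs in
theorem reach_s : ∀ y ≠ pt 23, ∃ i : ℕ, s ^ i • pt 0 = y := fun y hy => by
  obtain ⟨i, -, e⟩ := (by decide +kernel : ∀ y ≠ pt 23, ∃ i < 23, (fn S)^[i] (pt 0) = y) y hy
  exact ⟨i, by rw [pow_smul' hs, e]⟩

include hs ha in
theorem card_eleven {K : Subgroup M24} (h1 : s ∈ K) (h2 : a.1 ∈ K) (hK : K ≤ stabilizer M24 (pt 23)) :
    ∃ c i, c ∣ 55 ∧ i % 11 = 1 ∧ Nat.card K = 23 * (c * i) := by
  obtain ⟨b, hb⟩ := exists_ab B (by simp)
  obtain ⟨c, i, h3, h4, h5, -⟩ := sylow_count ha hb (H := K.subgroupOf _) h2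
  refine ⟨c, i, h3, h5, ?_⟩
  have h6 : {y | ∃ g ∈ K, g • pt 0 = y} = (Finset.univ.erase (pt 23) : Finset GolayPt) := by
    ext y
    rw [Finset.mem_coe, Finset.mem_erase]
    refine ⟨?_, fun h => let ⟨i, e⟩ := reach_s hs y h.1; ⟨_, K.pow_mem h1 i, e⟩⟩
    rintro ⟨g, hg, rfl⟩
    exact ⟨fun h => absurd (MulAction.injective g (h.trans (hK hg).symm)) (by decide),
      Finset.mem_univ _⟩
  have h7 : K ⊓ stabilizer M24 (pt 23, pt 0) = K ⊓ stabilizer M24 (pt 0) := by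
    rw [stab_prod, ← inf_assoc, inf_eq_left.2 hK]
  have h8 := Nat.card_congr (Subgroup.subgroupOfEquivOfLe
    (inf_le_right : K ⊓ stabilizer M24 (pt 23, pt 0) ≤ _)).toEquiv
  rw [Subgroup.inf_subgroupOf_right, h7, ← h4] at h8
  rw [card_eq_orbit_mul K (pt 0), h6, Set.ncard_coe_finset, h8,
    show (Finset.univ.erase (pt 23)).card = 23 by decide]

include hs in
theorem card_norm_le {K : Subgroup M24} (h1 : s ∈ K) (hK : K ≤ stabilizer M24 (pt 23)) :
    Nat.card (Subgroup.normalizer (Subgroup.zpowers (⟨s, h1⟩ : K) : Set K)) ≤ 24 * 24 := by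
  rw [← card_golayPt, ← Fintype.card_prod, ← Nat.card_eq_fintype_card]
  refine Nat.card_le_card_of_injective (fun g => (g.1.1 • pt 0, g.1.1 • pt 1)) fun g g' e => ?_
  have h2 : (g'⁻¹ * g).1.1 • pt 0 = pt 0 := by
    change (g'.1.1⁻¹ * g.1.1) • pt 0 = pt 0
    rw [mul_smul, inv_smul_eq_iff]; exact congrArg Prod.fst e
  have h3 : (g'⁻¹ * g).1.1 • pt 1 = pt 1 := by
    change (g'.1.1⁻¹ * g.1.1) • pt 1 = pt 1
    rw [mul_smul, inv_smul_eq_iff]; exact congrArg Prod.snd e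
  rw [eq_comm, ← inv_mul_eq_one]
  generalize g'⁻¹ * g = h at h2 h3
  obtain ⟨⟨h, hk⟩, hh⟩ := h
  have h4 := (Subgroup.mem_normalizer_iff.1 hh _).1 (Subgroup.mem_zpowers _)
  classical
  rw [mem_zpowers_iff_mem_range_orderOf, ← Subgroup.orderOf_coe, order_s hs, Finset.mem_image] at h4
  obtain ⟨j, hj, e3⟩ := h4
  have e4 : s ^ j = h * s * h⁻¹ := congrArg Subtype.val e3
  have h5 : s • pt 0 = pt 1 := by
    rw [← pow_one s, pow_smul' hs]; decide +kernel
  have h6 : s ^ j • pt 0 = pt 1 := by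
    rw [e4, mul_smul, mul_smul, inv_smul_eq_iff.2 h2.symm, h5]; exact h3
  rw [pow_smul' hs] at h6
  obtain rfl : j = 1 := (by decide +kernel : ∀ j ∈ Finset.range 23, (fn S)^[j] (pt 0) = pt 1 → j = 1)
    j hj h6
  refine Subtype.ext (Subtype.ext (Subtype.ext (Equiv.ext fun y => ?_)))
  by_cases hy : y = pt 23
  · exact hy ▸ hK hk
  · obtain ⟨i, rfl⟩ := reach_s hs y hy
    change h • s ^ i • pt 0 = s ^ i • pt 0
    conv_rhs => rw [← pow_one s, e4, conj_pow, mul_smul, mul_smul, inv_smul_eq_iff.2 h2.symm]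

include hs ha in
theorem card_over {K : Subgroup M24} (h1 : s ∈ K) (h2 : a.1 ∈ K) (hK : K ≤ stabilizer M24 (pt 23)) :
    Nat.card K = 253 ∨ Nat.card K = 10200960 := by
  have hd := Subgroup.card_dvd_of_le hK
  rw [card_stab_pt] at hd
  have h0 : orderOf (⟨s, h1⟩ : K) = 23 := by rw [← Subgroup.orderOf_coe]; exact order_s hs
  have h3 := index_normalizer_mod (by norm_num) h0 fun hc => by
    have := hc.trans hd
    omega
  have h4 := card_norm_le hs h1 hK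
  have h5 : (⟨a.1, h2⟩ : K) ∈ Subgroup.normalizer (Subgroup.zpowers (⟨s, h1⟩ : K) : Set K) := by
    have h : (⟨a.1, h2⟩ : K) * ⟨s, h1⟩ * (⟨a.1, h2⟩ : K)⁻¹ = ⟨s, h1⟩ ^ 2 := by
      rw [mul_inv_eq_iff_eq_mul]
      refine Subtype.ext (Subtype.ext (GE.pk_inj.1 ?_))
      change GE.pk (incl _ a * s) = GE.pk (s ^ 2 * incl _ a)
      rw [GE.pk_mul, GE.pk_mul, GE.pk_pow, hs, ha]
      decide +kernel
    refine Subgroup.mem_normalizer_fintype ?_
    rintro _ ⟨k, rfl⟩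
    rw [← conj_zpow, h]
    exact Subgroup.zpow_mem _ (Subgroup.pow_mem _ (Subgroup.mem_zpowers _) 2) k
  have h6 := Subgroup.le_normalizer (Subgroup.mem_zpowers (⟨s, h1⟩ : K))
  have h7 := Subgroup.card_mul_index
    (Subgroup.normalizer (Subgroup.zpowers (⟨s, h1⟩ : K) : Set K))
  generalize Subgroup.normalizer (Subgroup.zpowers (⟨s, h1⟩ : K) : Set K) = N at *
  obtain ⟨c, i, e1, e2, e3⟩ := card_eleven hs ha (K := N.map K.subtype) ⟨_, h6, rfl⟩ ⟨_, h5, rfl⟩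
    ((Subgroup.map_subtype_le _).trans hK)
  obtain ⟨c', i', f1, f2, f3⟩ := card_eleven hs ha h1 h2 hK
  rw [Subgroup.card_map_of_injective K.subtype_injective] at e3
  have h8 := Subgroup.orderOf_dvd_natCard _ h5
  rw [Subgroup.orderOf_mk, Subgroup.orderOf_coe, order_a ha] at h8
  have hc : ∀ c, c ∣ 55 → c = 1 ∨ c = 5 ∨ c = 11 ∨ c = 55 := fun c hc => by
    have := Nat.le_of_dvd (by norm_num) hc
    interval_cases c <;> omega
  have h9 : Nat.card N = 253 := by rcases hc c e1 with rfl | rfl | rfl | rfl <;> omega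
  rw [h9] at h7
  rw [← h7, show 10200960 = 253 * 40320 by norm_num] at hd
  have h10 := Nat.dvd_of_mul_dvd_mul_left (by norm_num) hd
  have h11 := Nat.le_of_dvd (by norm_num) h10
  have h12 := all2_iff.1 (show all2 42 42 (fun j => force (23 * j + 1) fun m =>
    bimp (Nat.beq (40320 % m) 0) (anyL [1, 24, 70, 576, 1680, 40320] (Nat.beq m))) = true by
      decide +kernel) (N.index / 23) (by omega)
  rw [force_eq, show 23 * (N.index / 23) + 1 = N.index by omega, bimp_iff, beq_iff, anyL_iff] at h12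
  obtain ⟨m, hm, e⟩ := h12 (Nat.mod_eq_zero_of_dvd h10)
  rw [beq_iff.1 e] at h7
  simp only [List.mem_cons, List.not_mem_nil, or_false] at hm
  rcases hc c' f1 with rfl | rfl | rfl | rfl <;> rcases hm with rfl | rfl | rfl | rfl | rfl | rfl <;>
    omega

end

theorem chF : GE.IsChain (cF.map LevCert.L) (GE.grp [S, A]) := chain_grp (by decide +kernel)
theorem chL : GE.IsChain (cL.map LevCert.L) (GE.grp [S, A, I]) := chain_grp (by decide +kernel)

theorem pk_S : GE.pk (Equiv.optionCongr (Equiv.addRight (1 : ZMod 23))) = S := by decide +kernel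
theorem pk_I : GE.pk projInv = I := by decide +kernel

theorem sq_mem {u : (ZMod 23)ˣ} (h : IsSquare u) :
    Equiv.optionCongr (Units.mulLeft u) ∈ GE.grp [S, A] := by
  obtain ⟨r, rfl⟩ := h
  have h1 := (by decide +kernel : ∀ r : ZMod 23, r ≠ 0 → memOK (nat_lit 5) (nat_lit 32) (nat_lit 24)
    (cF.map LevCert.L) [pack (nat_lit 5) (nat_lit 24) fun i => idx ((pt i).map (r * r * ·))] = true)
    r fun e => absurd (e ▸ r.val_inv) (by rw [zero_mul]; decide)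
  exact Enc.inG_pk.1 (inG_of_memOK chF h1 _ (List.mem_singleton.2 rfl))

theorem A_mem : ∃ u : (ZMod 23)ˣ, IsSquare u ∧ GE.pk (Equiv.optionCongr (Units.mulLeft u)) = A :=
  ⟨⟨2, 12, by decide, by decide⟩, ⟨⟨5, 14, by decide, by decide⟩, by decide⟩, by decide +kernel⟩

theorem mem_grp {l : List ℕ} {g : Equiv.Perm GolayPt} (h : GE.pk g ∈ l) : g ∈ GE.grp l :=
  Subgroup.subset_closure h

theorem eqF : Subgroup.closure ({Equiv.optionCongr (Equiv.addRight (1 : ZMod 23))} ∪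
    {g : Equiv.Perm GolayPt | ∃ u : (ZMod 23)ˣ, IsSquare u ∧
      g = Equiv.optionCongr (Units.mulLeft u)}) = GE.grp [S, A] := by
  refine le_antisymm ((Subgroup.closure_le _).2 ?_) (Enc.grp_le ?_)
  · rintro _ (rfl | ⟨u, hu, rfl⟩)
    exacts [mem_grp (by simp [pk_S]), sq_mem hu]
  · obtain ⟨u, hu, e⟩ := A_mem
    simp only [List.mem_cons, List.not_mem_nil, or_false]
    rintro _ (rfl | rfl)
    exacts [⟨_, Subgroup.subset_closure (Or.inl rfl), pk_S⟩,
      ⟨_, Subgroup.subset_closure (Or.inr ⟨u, hu, rfl⟩), e⟩]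

theorem eqL : Subgroup.closure ({Equiv.optionCongr (Equiv.addRight (1 : ZMod 23)), projInv} ∪
    {g : Equiv.Perm GolayPt | ∃ u : (ZMod 23)ˣ, IsSquare u ∧
      g = Equiv.optionCongr (Units.mulLeft u)}) = GE.grp [S, A, I] := by
  refine le_antisymm ((Subgroup.closure_le _).2 ?_) (Enc.grp_le ?_)
  · rintro _ ((rfl | rfl) | ⟨u, hu, rfl⟩)
    exacts [mem_grp (by simp [pk_S]), mem_grp (by simp [pk_I]),
      grp_le_of_memOK chL (by decide +kernel) (sq_mem hu)]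
  · obtain ⟨u, hu, e⟩ := A_mem
    simp only [List.mem_cons, List.not_mem_nil, or_false]
    rintro _ (rfl | rfl | rfl)
    exacts [⟨_, Subgroup.subset_closure (Or.inl (Or.inl rfl)), pk_S⟩,
      ⟨_, Subgroup.subset_closure (Or.inr ⟨u, hu, rfl⟩), e⟩,
      ⟨_, Subgroup.subset_closure (Or.inl (Or.inr rfl)), pk_I⟩]

theorem card_lt {H : Type*} [Group H] [Finite H] {K L : Subgroup H} (h : K < L) :
    Nat.card K < Nat.card L :=
  lt_of_le_of_ne (Subgroup.card_le_of_le h.le) fun e =>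
    h.ne (Subgroup.eq_of_le_of_card_ge h.le e.ge)

/-- PSL(2, 23) = ⟨t ↦ t+1, t ↦ u t (u square), t ↦ −1/t⟩ is maximal of order 6072 in the group of the length-24 code, and its point stabiliser 23:11 (order 253) is maximal in the Mathieu group of degree 23. -/
theorem result : (Subgroup.closure ({Equiv.optionCongr (Equiv.addRight (1 : ZMod 23)), Cfsg.projInv} ∪ {g : Equiv.Perm Cfsg.GolayPt | ∃ u : (ZMod 23)ˣ, IsSquare u ∧ g = Equiv.optionCongr (Units.mulLeft u)}) ≤ Cfsg.M24 ∧ Nat.card ↥(Subgroup.closure ({Equiv.optionCongr (Equiv.addRight (1 : ZMod 23)), Cfsg.projInv} ∪ {g : Equiv.Perm Cfsg.GolayPt | ∃ u : (ZMod 23)ˣ, IsSquare u ∧ g = Equiv.optionCongr (Units.mulLeft u)})) = 6072 ∧ IsCoatom ((Subgroup.closure ({Equiv.optionCongr (Equiv.addRight (1 : ZMod 23)), Cfsg.projInv} ∪ {g : Equiv.Perm Cfsg.GolayPt | ∃ u : (ZMod 23)ˣ, IsSquare u ∧ g = Equiv.optionCongr (Units.mulLeft u)})).subgroupOf Cfsg.M24)) ∧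 (Subgroup.closure ({Equiv.optionCongr (Equiv.addRight (1 : ZMod 23))} ∪ {g : Equiv.Perm Cfsg.GolayPt | ∃ u : (ZMod 23)ˣ, IsSquare u ∧ g = Equiv.optionCongr (Units.mulLeft u)}) ≤ Cfsg.M24 ⊓ MulAction.stabilizer (Equiv.Perm Cfsg.GolayPt) (none : Cfsg.GolayPt) ∧ Nat.card ↥(Subgroup.closure ({Equiv.optionCongr (Equiv.addRight (1 : ZMod 23))} ∪ {g : Equiv.Perm Cfsg.GolayPt | ∃ u : (ZMod 23)ˣ, IsSquare u ∧ g = Equiv.optionCongr (Units.mulLeft u)})) = 253 ∧ IsCoatom (((Subgroup.closure ({Equiv.optionCongr (Equiv.addRight (1 : ZMod 23))} ∪ {g : Equiv.Perm Cfsg.GolayPt | ∃ u : (ZMod 23)ˣ, IsSquare u ∧ g = Equiv.optionCongr (Units.mulLeft u)})).subgroupOf Cfsg.M24).subgroupOf (MulAction.stabilizer Cfsg.M24 (none : Cfsg.GolayPt)))) := by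
  rw [eqF, eqL]
  have hL : GE.grp [S, A, I] ≤ M24 := grp_le_of_memOK m24_chain (by decide +kernel)
  have hF : GE.grp [S, A] ≤ pst (pt 23) :=
    Enc.grp_le (inG_pst cPt (c := (23 : ℕ)) (idx_pt (n := 23) (by norm_num)) (by decide +kernel))
  have hF1 : GE.grp [S, A] ≤ M24 := fun g hg => (mem_pst.1 (hF hg)).1
  have hF2 : (GE.grp [S, A]).subgroupOf M24 ≤ stabilizer M24 (pt 23) := fun g hg =>
    (mem_pst.1 (hF hg)).2
  have cL : Nat.card (GE.grp [S, A, I]) = 6072 := chL.card.trans (by decide +kernel)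
  have cF : Nat.card (GE.grp [S, A]) = 253 := chF.card.trans (by decide +kernel)
  have cL' : Nat.card ((GE.grp [S, A, I]).subgroupOf M24) = 6072 :=
    (Nat.card_congr (Subgroup.subgroupOfEquivOfLe hL).toEquiv).trans cL
  have cF' : Nat.card (((GE.grp [S, A]).subgroupOf M24).subgroupOf (stabilizer M24 (pt 23))) = 253 :=
    (Nat.card_congr ((Subgroup.subgroupOfEquivOfLe hF2).trans
      (Subgroup.subgroupOfEquivOfLe hF1)).toEquiv).trans cF
  obtain ⟨a, ha⟩ := exists_ab A (by simp)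
  have h1 : Equiv.optionCongr (Equiv.addRight (1 : ZMod 23)) ∈ GE.grp [S, A] := mem_grp (by simp [pk_S])
  have h2 : incl _ a ∈ GE.grp [S, A] := mem_grp (by simp [ha])
  refine ⟨⟨hL, cL, fun h => ?_, fun K hK => ?_⟩, fun g hg => ⟨hF1 hg, (mem_pst.1 (hF hg)).2⟩, cF,
    fun h => ?_, fun K hK => ?_⟩
  · rw [h, Subgroup.card_top, card_M24] at cL'
    omega
  · have h3 := card_lt hK
    have h4 := card_eq_orbit_mul K (pt 23)
    have hs : (⟨_, hF1 h1⟩ : M24) ∈ K := hK.le (mem_grp (by simp [pk_S]))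
    have h5 : {y | ∃ g ∈ K, g • pt 23 = y} = Set.univ := Set.eq_univ_of_forall fun y => by
      by_cases hy : y = pt 23
      · exact ⟨1, K.one_mem, by rw [hy, one_smul]⟩
      · obtain ⟨i, rfl⟩ := reach_s (s := ⟨_, hF1 h1⟩) pk_S y hy
        have h6 : projInv ∈ GE.grp [S, A, I] := mem_grp (by simp [pk_I])
        exact ⟨_, K.mul_mem (K.pow_mem hs i) (hK.le (show (⟨_, hL h6⟩ : M24) ∈ _ from h6)), by
          rw [mul_smul]; rfl⟩
    rw [h5, Set.ncard_univ, Nat.card_eq_fintype_card (α := GolayPt), card_golayPt] at h4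
    refine Subgroup.eq_top_of_card_eq _ ?_
    rw [card_M24]
    rcases card_over (s := ⟨_, hF1 h1⟩) pk_S ha (K := K ⊓ stabilizer M24 (pt 23)) ⟨hs, hF2 h1⟩
      ⟨hK.le (mem_grp (l := [S, A, I]) (g := incl _ a) (by simp [ha])), hF2 h2⟩ inf_le_right with e | e <;> omega
  · have := card_stab_pt (pt 23)
    rw [show ((GE.grp [S, A]).subgroupOf M24).subgroupOf (stabilizer M24 (pt 23)) = ⊤ from h,
      Subgroup.card_top] at cF'
    omega
  · have h3 : 253 < Nat.card K := cF' ▸ card_lt hK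
    refine Subgroup.eq_top_of_card_eq _ ?_
    rw [card_stab_pt, ← Subgroup.card_map_of_injective (Subgroup.subtype_injective _)] at *
    rcases card_over (s := ⟨_, hF1 h1⟩) pk_S ha (K := K.map (Subgroup.subtype _))
      ⟨⟨⟨_, hF1 h1⟩, hF2 h1⟩, hK.le h1, rfl⟩ ⟨⟨a.1, hF2 h2⟩, hK.le h2, rfl⟩
      (Subgroup.map_subtype_le _) with e | e
    · exact absurd (e ▸ h3) (lt_irrefl _)
    · exact e

end Cfsg.Agent.S1643
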