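import Cfsg.Statements.S1717
import Cfsg.Agent.H24.He.Start

set_option autoImplicit false
open Cfsg

namespace Cfsg.Agent.S1717

/-- Let G be a finite group with an involution z whose centraliser C is isomorphic to the centraliser of a transvection of SL(5, 2). Then a Sylow 2-subgroup of C, viewed in G, is a Sylow 2-subgroup of G (its index in G is odd). -/
theorem result {G : Type*} [Group G] [Finite G] (s : Matrix.SpecialLinearGroup (Fin 5) (ZMod 2)) (hs : (s : Matrix (Fin 5) (Fin 5) (ZMod 2)) = Matrix.transvection 0 1 1) (z : G) (hz : orderOf z = 2) (e : (Subgroup.centralizer ({z} : Set G)) ≃* Subgroup.centralizer ({s} : Set (Matrix.SpecialLinearGroup (Fin 5) (ZMod 2)))) (T : Sylow 2 (Subgroup.centralizer ({z} : Set G))) : ¬ 2 ∣ ((T : Subgroup (Subgroup.centralizer ({z} : Set G))).map (Subgroup.subtype (Subgroup.centralizer ({z} : Set G)))).index := by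
  obtain ⟨S, rfl⟩ := H24.He.exists_setup hs hz e
  have hle : (S.syl : Subgroup G) ≤ Subgroup.centralizer {S.f H24.He.cz} := fun t ht =>
    H43.mem_centralizer_singleton.2 (S.T_comm_z (S.syl_eq ▸ ht)).symm
  have h1 : Nat.card ((T : Subgroup (Subgroup.centralizer ({S.f H24.He.cz} : Set G))).map
      (Subgroup.subtype _)) = Nat.card (S.syl : Subgroup G) := by
    rw [Subgroup.card_map_of_injective Subtype.val_injective,
      Nat.card_congr (Sylow.equiv T (S.syl.subtype hle)).toEquiv, Sylow.coe_subtype,
      Nat.card_congr (Subgroup.subgroupOfEquivOfLe hle).toEquiv]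
  have h2 := Subgroup.card_mul_index ((T : Subgroup (Subgroup.centralizer ({S.f H24.He.cz} : Set G))).map
      (Subgroup.subtype _))
  rw [h1, ← Subgroup.card_mul_index (S.syl : Subgroup G)] at h2
  rw [Nat.eq_of_mul_eq_mul_left Nat.card_pos h2]
  exact S.syl.not_dvd_index

end Cfsg.Agent.S1717
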