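import Cfsg.Statements.S1753
-- import your own Cfsg.Agent.* helpers here

set_option autoImplicit false
universe u
open Cfsg

namespace Cfsg.Agent.S1753

theorem card_lt {G : Type u} [Group G] [Finite G] (H : Subgroup G) (hH : H ≠ ⊤) (L : Subgroup H)
    (N : Subgroup L) [N.Normal] : Nat.card (L ⧸ N) < Nat.card G := by
  have h1 : Nat.card (L ⧸ N) ≤ Nat.card L :=
    Nat.card_le_card_of_surjective _ (QuotientGroup.mk'_surjective N)
  have h2 : Nat.card L ≤ Nat.card H := Nat.card_le_card_of_injective _ L.subtype_injective
  have h3 : Nat.card H < Nat.card G := by
    rcases (Subgroup.card_le_card_group H).lt_or_eq with h | h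
    · exact h
    · exact absurd (Subgroup.eq_top_of_card_eq H h) hH
  omega


/-- Let K be any property of groups. (1) If G is a minimal counterexample relative to K — a finite non-abelian simple group not satisfying K such that every finite non-abelian simple group of smaller order satisfies K — then every proper subgroup of G is a K-group (all its non-abelian simple sections satisfy K), since such sections have smaller order than G. (2) Consequently (induction on the order), if every finite non-abelian simple group all of whose proper subgroups are K-groups satisfies K, then every finite non-abelian simple group satisfies K. -/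
theorem result (K : ∀ (X : Type u) [Group X], Prop) :
    (∀ (G : Type u) [Group G], Cfsg.IsMinCounterexampleWith K G → Cfsg.IsKProperWith K G) ∧
      ((∀ (X : Type u) [Group X] [Finite X], IsSimpleGroup X → ¬ IsMulCommutative X → Cfsg.IsKProperWith K X → K X) →
        ∀ (G : Type u) [Group G] [Finite G], IsSimpleGroup G → ¬ IsMulCommutative G → K G) := by
  refine ⟨fun G _ h H hH L N _ hs hna => ?_, fun h G _ _ hs hna => ?_⟩
  · obtain ⟨hf, -, -, -, hmin⟩ := h
    exact hmin _ hs hna (card_lt H hH L N)
  · have key : ∀ n : ℕ, ∀ (X : Type u) [Group X] [Finite X], IsSimpleGroup X → ¬ IsMulCommutative X →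
        Nat.card X = n → K X := by
      intro n
      induction n using Nat.strong_induction_on with
      | _ n ih =>
        intro X _ _ hs hna hn
        exact h X hs hna fun H hH L N _ hs' hna' => ih _ (hn ▸ card_lt H hH L N) _ hs' hna' rfl
    exact key _ G hs hna rfl

end Cfsg.Agent.S1753
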