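import Cfsg.Statements.S1755
import Cfsg.Agent.H59.Symp
-- import your own Cfsg.Agent.* helpers here

set_option autoImplicit false
open Cfsg

namespace Cfsg.Agent.S1755

open Subgroup H69 H59


/-- Let G be a finite group and let z be an involution of G such that Q, the generalized Fitting subgroup of the centralizer C of z, is a 2-group of symplectic type (every characteristic abelian subgroup of Q is cyclic). Let B be a characteristic abelian subgroup of Q, viewed as a subgroup of G. Then for every g in G, the conjugate of B by g either equals B or meets B trivially. -/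
theorem result {G : Type*} [Group G] [Finite G] (z : G) (hz : orderOf z = 2) (hQ : Cfsg.IsOfSymplecticType ↥(Cfsg.generalizedFittingSubgroup ↥(Subgroup.centralizer ({z} : Set G))))
    (B : Subgroup ↥(Cfsg.generalizedFittingSubgroup ↥(Subgroup.centralizer ({z} : Set G)))) (hBc : B.Characteristic) (hBa : IsMulCommutative ↥B) (g : G) :
    ((B.map (Cfsg.generalizedFittingSubgroup ↥(Subgroup.centralizer ({z} : Set G))).subtype).map (Subgroup.centralizer ({z} : Set G)).subtype).map (MulAut.conj g).toMonoidHom =
        (B.map (Cfsg.generalizedFittingSubgroup ↥(Subgroup.centralizer ({z} : Set G))).subtype).map (Subgroup.centralizer ({z} : Set G)).subtype ∨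
      ((B.map (Cfsg.generalizedFittingSubgroup ↥(Subgroup.centralizer ({z} : Set G))).subtype).map (Subgroup.centralizer ({z} : Set G)).subtype).map (MulAut.conj g).toMonoidHom ⊓
        (B.map (Cfsg.generalizedFittingSubgroup ↥(Subgroup.centralizer ({z} : Set G))).subtype).map (Subgroup.centralizer ({z} : Set G)).subtype = ⊥ := by
  haveI : Fact (Nat.Prime 2) := ⟨Nat.prime_two⟩
  have hz1 : z ≠ 1 := by rintro rfl; simp at hz
  have hzz : z * z = 1 := by rw [← pow_two, ← hz, pow_orderOf_eq_one]
  have hzC : z ∈ centralizer ({z} : Set G) := mem_centralizer_singleton_iff.2 rfl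
  have hzQ : (⟨z, hzC⟩ : centralizer ({z} : Set G)) ∈
      Cfsg.generalizedFittingSubgroup (centralizer ({z} : Set G)) := by
    obtain ⟨y, hy, e⟩ := mem_QZ_self z
    rwa [show y = ⟨z, hzC⟩ from Subtype.ext e] at hy
  set B' := (B.map (Cfsg.generalizedFittingSubgroup ↥(centralizer ({z} : Set G))).subtype).map
    (centralizer ({z} : Set G)).subtype with hB'
  have hBn : (B.map (Cfsg.generalizedFittingSubgroup ↥(centralizer ({z} : Set G))).subtype).Normal :=
    inferInstance
  have huniq : ∀ u ∈ B', u ≠ 1 → u * u = 1 → u = z := by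
    rintro _ ⟨_, ⟨u, hu, rfl⟩, rfl⟩ h1 h2
    have h1' : u ≠ 1 := by rintro rfl; exact h1 rfl
    have h2' : u * u = 1 := Subtype.ext (Subtype.ext h2)
    have hc : ∀ q, q * u = u * q := fun q => by
      have := invol_eq_of_isCyclic (hQ.2 B hBc hBa) ((inferInstance : B.Normal).conj_mem u hu q) hu
        (by simpa using h1') h1' (by rw [conj_mul, h2']; simp) h2'
      exact mul_inv_eq_iff_eq_mul.1 this
    have := (symp_center hQ hc (z := ⟨⟨z, hzC⟩, hzQ⟩)
      (fun q => Subtype.ext (Subtype.ext (mem_centralizer_singleton_iff.1 q.1.2)))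
      (fun e => hz1 (congrArg (fun x => x.1.1) e)) h2' (Subtype.ext (Subtype.ext hzz))).resolve_left h1'
    rw [this]; rfl
  have h2 : IsPGroup 2 B' := ((hQ.1.to_subgroup B).map _).map _
  refine TIin.or (S := ⊤) (fun k _ x hx hx1 hkx => ?_) (mem_top g)
  obtain ⟨j, hj1, hj2⟩ := exists_pow_two_pow (P := fun y : G => y = 1) rfl hx1 (isPGroup_iff_mem.1 h2 x hx)
  have e1 := huniq _ (B'.pow_mem hx _) hj1 hj2
  have e2 := huniq _ (B'.pow_mem hkx (2 ^ j)) (by rw [conj_pow]; simpa using hj1)
    (by rw [conj_pow, conj_mul, hj2]; simp)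
  rw [conj_pow, e1] at e2
  have hk : k ∈ centralizer ({z} : Set G) :=
    mem_centralizer_singleton_iff.2 (mul_inv_eq_iff_eq_mul.1 e2)
  refine le_normalizer_of_cj_le (H := centralizer ({z} : Set G)) (fun c hc y hy => ?_) hk
  obtain ⟨_, ⟨w, hw, rfl⟩, rfl⟩ := mem_cj'.1 hy
  exact ⟨_, hBn.conj_mem w hw ⟨c, hc⟩, rfl⟩

end Cfsg.Agent.S1755
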