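import Cfsg.Statements.S1756
import Cfsg.Agent.H15.LXMore
import Cfsg.Agent.H69.Base
-- import your own Cfsg.Agent.* helpers here

set_option autoImplicit false
open Cfsg

namespace Cfsg.Agent.S1756

open Subgroup H69


/-- Let Q be an extraspecial 2-subgroup of the finite group G (special with centre of order 2) and t an involution of G normalizing Q such that the centralizer of t in Q has index at most 2 in Q. Then t lies in the product of Q with the centralizer of Q. -/
theorem result {G : Type*} [Group G] [Finite G] (Q : Subgroup G)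
    (hQ : Cfsg.IsExtraspecial 2 ↥Q) (t : G) (ht : orderOf t = 2) (htN : t ∈ Subgroup.normalizer (Q : Set G))
    (hi : (Subgroup.centralizer ({t} : Set G) ⊓ Q).relIndex Q ≤ 2) :
    t ∈ Q ⊔ Subgroup.centralizer (Q : Set G) := by
  haveI : Fact (Nat.Prime 2) := ⟨Nat.prime_two⟩
  obtain ⟨z, hz⟩ := exists_prime_orderOf_dvd_card' (G := center Q) 2 (by rw [hQ.2])
  have hL : H97.LX (⊤ : Subgroup Q) (z : Q) := H97.lx_of_extraspecial (by rw [orderOf_coe, hz])
    (H15.isExtraspecial_congr topEquiv.symm hQ) le_top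
    (fun a _ => mem_centralizer_singleton_iff.2 (mem_center_iff.1 z.2 a))
    (by rw [normalizer_eq_top]; exact le_top)
  have htt : t * t = 1 := by rw [← pow_two, ← ht, pow_orderOf_eq_one]
  by_cases hall : ∀ a ∈ Q, a * t = t * a
  · exact mem_sup_right hall
  push Not at hall
  obtain ⟨q, hq, hqt⟩ := hall
  let C : Subgroup Q := (centralizer ({t} : Set G) ⊓ Q).subgroupOf Q
  have hC : ∀ {a : Q}, a ∈ C ↔ (a : G) * t = t * a := fun {a} => by
    rw [mem_subgroupOf, mem_inf, mem_centralizer_singleton_iff]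
    exact and_iff_left a.2
  have hqC : (⟨q, hq⟩ : Q) ∉ C := fun h => hqt (hC.1 h)
  have hi2 : C.index = 2 := by
    have h0 : C.index ≠ 0 := index_ne_zero_of_finite
    have h1 : C.index ≠ 1 := fun e => hqC (by rw [index_eq_one.1 e]; exact mem_top _)
    have h2 : C.index ≤ 2 := hi
    omega
  have hmul : ∀ {a b : Q}, a ∉ C → b ∉ C → a * b ∈ C := fun ha hb =>
    (mul_mem_iff_of_index_two hi2).2 ⟨fun h => absurd h ha, fun h => absurd h hb⟩
  let τ : MulAut Q := Q.normalizerMonoidHom ⟨t, htN⟩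
  have hτ : ∀ b : Q, ((τ b : Q) : G) = t * b * t⁻¹ := fun b => rfl
  have hτC : ∀ {a : Q}, a ∈ C ↔ τ a = a := fun {a} => by
    rw [hC, Subtype.ext_iff, hτ, mul_inv_eq_iff_eq_mul, eq_comm]
  have hττ : ∀ a, τ (τ a) = a := fun a => Subtype.ext (by
    rw [hτ, hτ]
    calc t * (t * a * t⁻¹) * t⁻¹ = (t * t) * a * (t * t)⁻¹ := by group
      _ = a := by rw [htt]; group)
  set r : Q := ⟨q, hq⟩ with hr
  have hτr : τ r ∉ C := fun h => hqC (hτC.2 (by have := hτC.1 h; rw [hττ] at this; exact this.symm))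
  set c := τ r * r⁻¹ with hc
  have hcC : c ∈ C := hmul hτr fun h => hqC (by simpa using C.inv_mem h)
  have e1 : τ r = c * r := by rw [hc]; group
  have hcx : ∀ x ∈ C, c * x = x * c := fun x hx => by
    have h1 : r⁻¹ * x * r ∈ C := (normal_of_index_eq_two hi2).conj_mem' x hx r
    have h2 := hτC.1 h1
    rw [map_mul, map_mul, map_inv, hτC.1 hx, e1] at h2
    calc c * x = c * r * (r⁻¹ * x * r) * r⁻¹ := by group
      _ = x * c := by rw [← h2]; group
  have hcc : c * c = 1 := by
    have := hττ r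
    rw [e1, map_mul, hτC.1 hcC, e1, ← mul_assoc] at this
    exact mul_eq_right.1 this
  have hcr : c * r = r * c := by
    have := hτC.1 (hmul hqC hqC)
    rw [map_mul, e1] at this
    calc c * r = c * r * (c * c) := by rw [hcc, mul_one]
      _ = (c * r * (c * r)) * r⁻¹ * c := by group
      _ = r * c := by rw [this]; group
  have hsplit : ∀ a : Q, a ∈ C ∨ ∃ x ∈ C, a = x * r := fun a => by
    by_cases h : a ∈ C
    · exact Or.inl h
    · exact Or.inr ⟨a * r⁻¹, hmul h fun h => hqC (by simpa using C.inv_mem h), by group⟩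
  have hcz : c = z := (hL.large c fun a _ => by
    rcases hsplit a with h | ⟨x, hx, rfl⟩
    · exact hcx a h
    · rw [← mul_assoc, hcx x hx, mul_assoc, hcr, mul_assoc]).resolve_left fun e =>
      hqC (hτC.2 (by rw [e1, e, one_mul]))
  obtain ⟨b, -, hbC, hbr⟩ := hL.sep C le_top (hcz ▸ hcC) r (mem_top _) hqC
  have key : ∀ a : Q, b * a * b⁻¹ = τ a := fun a => by
    rcases hsplit a with h | ⟨x, hx, rfl⟩
    · rw [hbC a h, hτC.1 h]; group
    · rw [map_mul, hτC.1 hx, e1, hcz, ← hbr, ← mul_assoc b, hbC x hx]; group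
  have : t = b * ((b : G)⁻¹ * t) := by group
  rw [this]
  refine mul_mem (mem_sup_left b.2) (mem_sup_right fun a ha => ?_)
  have h1 : (b : G) * a * (b : G)⁻¹ = t * a * t⁻¹ := congrArg Subtype.val (key ⟨a, ha⟩)
  calc a * ((b : G)⁻¹ * t) = (b : G)⁻¹ * (b * a * (b : G)⁻¹) * t := by group
    _ = (b : G)⁻¹ * t * a := by rw [h1]; group

end Cfsg.Agent.S1756
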