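import Cfsg.Statements.S1775
import Cfsg.Agent.H46.Standard
import Cfsg.Agent.H44.BalImage
import Cfsg.Agent.H22.CoprimeQuot

set_option autoImplicit false
open Cfsg

namespace Cfsg.Agent.S1775

open Subgroup Cfsg.Agent.H44
open scoped commutatorElement


/-- Let G be a finite group whose generalized Fitting subgroup is a non-abelian simple group and in which every proper section (every quotient H/N of a proper subgroup H, or of G by a nontrivial normal subgroup) has the B-property. Let x, y be commuting involutions, let D be the intersection of the 2-layer of C_G(x) with C_G(y), and let J be a 2-component of D. Write Q for the quotient of C_G(y) by its largest normal odd-order subgroup. Then (i) the image of J in Q is a component of the centralizer in Q of the image of x; and (ii) for every J-invariant subgroup E of odd order of C_G(x) ∩ C_G(y), the commutator subgroup [J, E] lies in the largest normal odd-order subgroup of C_G(y). -/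
theorem result {G : Type*} [Group G] [Finite G]
    (hF : IsSimpleGroup ↥(Cfsg.generalizedFittingSubgroup G)) (hF' : ¬ IsMulCommutative ↥(Cfsg.generalizedFittingSubgroup G))
    (hsec : ∀ (H : Subgroup G) (N : Subgroup ↥H) [N.Normal], (H ≠ ⊤ ∨ N ≠ ⊥) → Cfsg.HasBProperty (↥H ⧸ N))
    (x y : G) (hx : orderOf x = 2) (hy : orderOf y = 2) (hxy : x * y = y * x)
    (J : Subgroup ↥((Cfsg.pLayer 2 ↥(Subgroup.centralizer ({x} : Set G))).map (Subgroup.centralizer ({x} : Set G)).subtype ⊓ Subgroup.centralizer ({y} : Set G)))
    (hJ : Cfsg.IsPComponent 2 J) :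
    Cfsg.IsComponent
        ((((J.map (Subgroup.subtype _)).subgroupOf (Subgroup.centralizer ({y} : Set G))).map (QuotientGroup.mk' (Cfsg.oddCore ↥(Subgroup.centralizer ({y} : Set G))))).subgroupOf
          (Subgroup.centralizer ({(QuotientGroup.mk' (Cfsg.oddCore ↥(Subgroup.centralizer ({y} : Set G))) ⟨x, Subgroup.mem_centralizer_singleton_iff.mpr hxy⟩ : ↥(Subgroup.centralizer ({y} : Set G)) ⧸ Cfsg.oddCore ↥(Subgroup.centralizer ({y} : Set G)))} : Set _))) ∧
      ∀ E : Subgroup G, E ≤ Subgroup.centralizer ({x} : Set G) ⊓ Subgroup.centralizer ({y} : Set G) → Odd (Nat.card ↥E) →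
        (∀ j ∈ J.map (Subgroup.subtype _), ∀ e ∈ E, j * e * j⁻¹ ∈ E) →
          ⁅J.map (Subgroup.subtype _), E⁆ ≤ (Cfsg.oddCore ↥(Subgroup.centralizer ({y} : Set G))).map (Subgroup.centralizer ({y} : Set G)).subtype := by
  have hH : centralizer ({y} : Set G) ≠ ⊤ := fun h => by
    have hyZ : y ∈ center G := mem_center_iff.2 fun g =>
      mem_centralizer_singleton_iff.1 (h ▸ mem_top g)
    have hn : (zpowers y).Normal := H8.normal_zpowers_of_central hyZ
    have h1 : zpowers y ≤ generalizedFittingSubgroup G :=
      ((le_pCore hn (isPGroup_zpowers_of_orderOf hy)).trans pCore_le_fitting).trans le_sup_right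
    rcases hF.eq_bot_or_eq_top_of_normal ((zpowers y).subgroupOf _) inferInstance with h2 | h2
    · rw [subgroupOf_eq_bot, disjoint_iff, inf_of_le_left h1, zpowers_eq_bot] at h2
      exact H8.ne_one_of_orderOf_two hy h2
    · rw [subgroupOf_eq_top] at h2
      exact hF' (IsMulCommutative.of_setLike_mul_comm fun a ha b hb =>
        setLike_mul_comm (h2 ha) (h2 hb))
  have hB := hsec _ (oddCore ↥(centralizer ({y} : Set G))) (Or.inl hH)
  have hJ0 := (pcomp_map_subtype_iff.2 hJ).of_sn ((sn_Lof (p := 2) _).inf_right _)
  generalize J.map (Subgroup.subtype _) = J₀ at hJ0 ⊢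
  set H := centralizer ({y} : Set G) with hHdef
  set x' : H := ⟨x, mem_centralizer_singleton_iff.mpr hxy⟩ with hx'
  set f := QuotientGroup.mk' (oddCore H) with hf
  have hker : f.ker = pPrimeCore 2 H := QuotientGroup.ker_mk' _
  have hkc : (Nat.card f.ker).Coprime 2 := by rw [hker]; exact pPrimeCore_coprime
  have hx'2 : orderOf x' = 2 := by rw [← orderOf_coe]; exact hx
  have hJH : J₀ ≤ H := hJ0.le.trans inf_le_right
  have hJ1 : PComp 2 (centralizer ({x'} : Set H)) (J₀.subgroupOf H) := by
    rw [← pcomp_map_inj_iff H.subtype H.subtype_injective, centralizer_singleton_subtype,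
      subgroupOf_map_subtype, subgroupOf_map_subtype, inf_of_le_left hJH]
    exact hJ0
  have hJ2 : PComp 2 (centralizer ({f x'} : Set _)) ((J₀.subgroupOf H).map f) := by
    have h1 := hJ1.map f fun h => hJ1.pqs.not_le_of_coprime hkc ((Subgroup.map_eq_bot_iff _).1 h)
    rwa [← centralizer_zpowers_eq, H22.map_centralizer_of_ker_coprime f
      (QuotientGroup.mk'_surjective _) hkc (isPGroup_zpowers_of_orderOf hx'2),
      MonoidHom.map_zpowers, centralizer_zpowers_eq] at h1
  have hfx : orderOf (f x') = 2 := by
    refine H8.orderOf_two_of (by rw [← map_mul, H8.mul_self_of_orderOf_two hx'2, map_one]) fun h => ?_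
    exact H46.not_coprime_two_of_mem (MonoidHom.mem_ker.2 h) hx'2 hkc
  have h1 := hB (f x') hfx
  rw [map_commutator] at h1
  have h2 : Comp (centralizer ({f x'} : Set _)) ((J₀.subgroupOf H).map f) := by
    refine hJ2.comp_iff_commutator.2 (le_bot_iff.1 ?_)
    rw [← H22.pPrimeCore_quotient_pPrimeCore (p := 2) (G := H)]
    exact (commutator_mono hJ2.le_Lof le_rfl).trans h1
  refine ⟨(comp_iff.1 h2).2, fun E hE hodd hn => ?_⟩
  have hEH : E ≤ H := hE.trans inf_le_right
  have h3 : (E.subgroupOf H).map f ≤ centralizer ({f x'} : Set _) := by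
    rintro _ ⟨e, he, rfl⟩
    refine mem_centralizer_singleton_iff.2 ?_
    rw [← map_mul, ← map_mul]
    exact congrArg f (Subtype.ext (mem_centralizer_singleton_iff.1 (hE he).1))
  have h4 : (J₀.subgroupOf H).map f ≤ normalizer (((E.subgroupOf H).map f : Subgroup _) : Set _) :=
    (map_mono (subgroupOf_le_normalizer_subgroupOf H (le_normalizer_of_conj_mem hn))).trans
      (le_normalizer_map f)
  rcases h2.le_or_commutator_eq_bot_of_le_normalizer h3 h4 with h | h
  · exact absurd (coprime_map f (coprime_subgroupOf (coprime_two_iff_odd.2 hodd)))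
      fun h5 => hJ2.pqs.not_le_of_coprime h5 h
  · rw [← map_commutator, Subgroup.map_eq_bot_iff, hker] at h
    rw [← map_subgroupOf_commutator hJH hEH]
    exact map_mono h

end Cfsg.Agent.S1775
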