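import Cfsg.Statements.S1781
import Cfsg.Agent.H59.TI
-- import your own Cfsg.Agent.* helpers here

set_option autoImplicit false
open Cfsg

namespace Cfsg.Agent.S1781

open Subgroup H69 H59


/-- Let A be an abelian 2-subgroup of the finite group G such that every conjugate of A equals A or meets A trivially, and let g ∈ G with g A g⁻¹ ≠ A. Then either the subgroup of those elements of A that normalize g A g⁻¹ is an elementary abelian 2-group, or A and g A g⁻¹ commute elementwise. -/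
theorem result {G : Type*} [Group G] [Finite G] (A : Subgroup G)
    (hA2 : IsPGroup 2 ↥A) (hAa : IsMulCommutative ↥A)
    (hti : ∀ h : G, A.map (MulAut.conj h).toMonoidHom = A ∨ A.map (MulAut.conj h).toMonoidHom ⊓ A = ⊥)
    (g : G) (hg : A.map (MulAut.conj g).toMonoidHom ≠ A) :
    Cfsg.IsElementaryAbelian 2 (A ⊓ Subgroup.normalizer ((A.map (MulAut.conj g).toMonoidHom : Subgroup G) : Set G)) ∨
      ⁅A, A.map (MulAut.conj g).toMonoidHom⁆ = ⊥ := by
  have hA : TIin ⊤ A := tiIn_of fun h _ => hti h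
  have hB : TIin ⊤ (cj g A) := hA.cj g
  have hAB : A ⊓ cj g A = ⊥ := by rw [inf_comm]; exact (hti g).resolve_left hg
  change Cfsg.IsElementaryAbelian 2 (A ⊓ normalizer ((cj g A : Subgroup G) : Set G)) ∨ ⁅A, cj g A⁆ = ⊥
  by_cases h : ∀ a ∈ A ⊓ normalizer ((cj g A : Subgroup G) : Set G), a ^ 2 = 1
  · refine Or.inl ⟨⟨⟨fun a b => Subtype.ext ?_⟩⟩, h⟩
    have := congrArg Subtype.val (hAa.is_comm.comm ⟨a, a.2.1⟩ ⟨b, b.2.1⟩)
    exact this
  push Not at h
  obtain ⟨t, ⟨ht, htN⟩, ht2⟩ := h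
  rw [pow_two] at ht2
  have hBa : IsMulCommutative (cj g A) := by rw [cj_def]; infer_instance
  have hc := comm_of_sq (isPGroup_cj g hA2) hBa (isPGroup_iff_mem.1 hA2 t ht) htN fun b hb e =>
    comm_of_inf_eq_bot hAB ht hb htN (hA.of_comm (mem_top _) (A.mul_mem ht ht) ht2 e.symm)
  refine Or.inr (commutator_eq_bot_of_comm fun a ha b hb => ?_)
  refine (hB.mono le_top).comm_of_card_le (card_cj g A).ge hAB (fun c hcB => ?_) ha hb
  exact hA.of_comm (mem_top _) ht (fun e => ht2 (by rw [e, mul_one])) (hc c hcB).symm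

end Cfsg.Agent.S1781
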