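import Cfsg.Statements.S1782
import Cfsg.Agent.H59.TI
-- import your own Cfsg.Agent.* helpers here

set_option autoImplicit false
open Cfsg

namespace Cfsg.Agent.S1782

open Subgroup H69 H59


/-- Let S be a finite 2-group and Δ a set of subgroups of S closed under conjugation by S, all of the same order, each with nontrivial Frattini subgroup, and such that two distinct members of Δ meet trivially. Then any two distinct members of Δ commute elementwise. -/
theorem result {S : Type*} [Group S] [Finite S] (hS : IsPGroup 2 S)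
    (Δ : Set (Subgroup S)) (hinv : ∀ s : S, ∀ R ∈ Δ, R.map (MulAut.conj s).toMonoidHom ∈ Δ)
    (hΦ : ∀ R ∈ Δ, frattini ↥R ≠ ⊥) (hord : ∀ R ∈ Δ, ∀ T ∈ Δ, Nat.card ↥R = Nat.card ↥T)
    (hti : ∀ R ∈ Δ, ∀ T ∈ Δ, R = T ∨ R ⊓ T = ⊥) :
    ∀ R ∈ Δ, ∀ T ∈ Δ, R ≠ T → ⁅R, T⁆ = ⊥ := by
  haveI : Fact (Nat.Prime 2) := ⟨Nat.prime_two⟩
  intro R hR T hT hne
  refine commutator_eq_bot_of_comm (comm_of_ti_set (S := ⊤) (hS.to_subgroup _) Δ (fun _ _ => le_top)
    (fun s _ R hR => hinv s R hR) (fun R hR => ?_) hord hti R hR T hT hne)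
  by_contra hc
  push Not at hc
  have hsq : ∀ x : R, x * x = 1 := fun x => Subtype.ext (hc x x.2)
  refine hΦ R hR (le_bot_iff.1 (H3.frattini_le_of_elementary_quotient (p := 2) ?_ fun x => ?_))
  · rw [_root_.commutator_def, le_bot_iff]
    refine commutator_eq_bot_of_comm fun a _ b _ => ?_
    have h1 := inv_eq_of_mul_eq_one_right (hsq (a * b))
    rw [mul_inv_rev, inv_eq_of_mul_eq_one_right (hsq a), inv_eq_of_mul_eq_one_right (hsq b)] at h1
    exact h1.symm
  · rw [pow_two, hsq]; exact one_mem _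

end Cfsg.Agent.S1782
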