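import Cfsg.Statements.S1783
import Cfsg.Agent.H59.TI
import Cfsg.Agent.H44.Components
-- import your own Cfsg.Agent.* helpers here

set_option autoImplicit false
open Cfsg

namespace Cfsg.Agent.S1783

open Subgroup H69 H59

theorem comm_conj {X : Type*} [Group X] [Finite X] {S A : Subgroup X} (hS : IsPGroup 2 S)
    (hAa : ∀ a ∈ A, ∀ b ∈ A, a * b = b * a) (hA : TIin ⊤ A) (hs : ∃ s ∈ A, s * s ≠ 1)
    {g k : X} (hg : cj g A ≤ S) (hk : cj k A ≤ S) : ∀ a ∈ cj g A, ∀ b ∈ cj k A, a * b = b * a := by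
  by_cases e : cj g A = cj k A
  · rw [← e]
    intro a ha b hb
    obtain ⟨a', ha', rfl⟩ := mem_cj'.1 ha
    obtain ⟨b', hb', rfl⟩ := mem_cj'.1 hb
    rw [conj_mul, conj_mul, hAa a' ha' b' hb']
  refine comm_of_ti_set hS {R | R ≤ S ∧ ∃ g, R = cj g A} (fun R hR => hR.1) ?_ ?_ ?_ ?_ _
    ⟨hg, g, rfl⟩ _ ⟨hk, k, rfl⟩ e
  · rintro s hs _ ⟨h, g, rfl⟩
    exact ⟨cj_le_of_mem hs h, s * g, (cj_mul _ _ _).symm⟩
  · rintro _ ⟨-, g, rfl⟩
    obtain ⟨s, hs, hs'⟩ := hs
    exact ⟨g * s * g⁻¹, conj_mem_cj.2 hs, by rw [conj_mul]; simpa using hs'⟩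
  · rintro _ ⟨-, g, rfl⟩ _ ⟨-, k, rfl⟩
    rw [card_cj, card_cj]
  · rintro _ ⟨-, g, rfl⟩ _ ⟨-, k, rfl⟩
    exact or_iff_not_imp_left.2 fun h => hA.inf_eq_bot h


/-- Let X be a finite group whose generalized Fitting subgroup equals its largest normal 2-subgroup Q, and let A be an abelian 2-subgroup of X such that every conjugate of A equals A or meets A trivially. Let B be the subgroup generated by the squares of the elements of A. Then B lies in Q, and if B is not an elementary abelian 2-group then the normal closure of B in X is commutative. -/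
theorem result {X : Type*} [Group X] [Finite X]
    (hX : Cfsg.generalizedFittingSubgroup X = Cfsg.pCore 2 X) (A : Subgroup X) (hA2 : IsPGroup 2 ↥A) (hAa : IsMulCommutative ↥A)
    (hti : ∀ h : X, A.map (MulAut.conj h).toMonoidHom = A ∨ A.map (MulAut.conj h).toMonoidHom ⊓ A = ⊥) :
    Subgroup.closure ((fun a : X => a ^ 2) '' (A : Set X)) ≤ Cfsg.pCore 2 X ∧
      (¬ Cfsg.IsElementaryAbelian 2 (Subgroup.closure ((fun a : X => a ^ 2) '' (A : Set X))) →
        IsMulCommutative ↥(Subgroup.normalClosure ((fun a : X => a ^ 2) '' (A : Set X)))) := by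
  haveI : Fact (Nat.Prime 2) := ⟨Nat.prime_two⟩
  have hA : TIin ⊤ A := tiIn_of fun h _ => hti h
  have hAc : ∀ a ∈ A, ∀ b ∈ A, a * b = b * a := fun a ha b hb =>
    congrArg Subtype.val (hAa.is_comm.comm ⟨a, ha⟩ ⟨b, hb⟩)
  have hQ : IsPGroup 2 (Cfsg.pCore 2 X) := H44.pCore_isPGroup
  have hC : centralizer (Cfsg.pCore 2 X : Set X) ≤ Cfsg.pCore 2 X := by
    rw [← hX]; exact H44.centralizer_gfitting_le
  have hBA : closure ((fun a : X => a ^ 2) '' (A : Set X)) ≤ A := by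
    rw [closure_le]; rintro _ ⟨a, ha, rfl⟩; exact A.pow_mem ha 2
  have h1 : closure ((fun a : X => a ^ 2) '' (A : Set X)) ≤ Cfsg.pCore 2 X := by
    rw [closure_le]
    rintro _ ⟨a, ha, rfl⟩
    by_cases ha2 : a * a = 1
    · change a ^ 2 ∈ Cfsg.pCore 2 X
      rw [pow_two, ha2]; exact one_mem _
    have hS : IsPGroup 2 ↥(A ⊔ Cfsg.pCore 2 X) :=
      isPGroup_sup_of_le_normalizer hA2 hQ (by rw [normalizer_eq_top]; exact le_top)
    refine mem_of_frattini hQ hC fun q hq => ?_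
    have hc := comm_conj hS hAc hA ⟨a, ha, ha2⟩ (g := 1) (k := q) (by rw [cj_one]; exact le_sup_left)
      (cj_le_of_mem (mem_sup_right hq) le_sup_left) a (by rw [cj_one]; exact ha) _
      (conj_mem_cj.2 (A.inv_mem ha))
    have hm : a * q * a⁻¹ * q⁻¹ ∈ Cfsg.pCore 2 X :=
      mul_mem ((inferInstance : (Cfsg.pCore 2 X).Normal).conj_mem q hq a) (inv_mem hq)
    refine ⟨_, H3.pow_mem_frattini hQ ⟨_, hm⟩, ?_⟩
    change (a * q * a⁻¹ * q⁻¹) ^ 2 = a ^ 2 * q * (a ^ 2)⁻¹ * q⁻¹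
    calc (a * q * a⁻¹ * q⁻¹) ^ 2 = a * ((q * a⁻¹ * q⁻¹) * a) * (q * a⁻¹ * q⁻¹) := by
          rw [pow_two]; group
      _ = _ := by rw [← hc, pow_two]; group
  refine ⟨h1, fun hne => ?_⟩
  set B := closure ((fun a : X => a ^ 2) '' (A : Set X)) with hB
  have hBc : ∀ a ∈ B, ∀ b ∈ B, a * b = b * a := fun a ha b hb => hAc a (hBA ha) b (hBA hb)
  have hBti : TIin ⊤ B := by
    intro g _ x hx hx1 hgx
    have hg := hA g (mem_top _) x (hBA hx) hx1 (hBA hgx)
    have : ∀ k ∈ normalizer (A : Set X), cj k B ≤ B := by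
      intro k hk
      rw [cj_le_iff, hB, closure_le]
      rintro _ ⟨a, ha, rfl⟩
      change a ^ 2 ∈ cj k⁻¹ B
      rw [mem_cj]
      refine subset_closure ⟨k * a * k⁻¹, conj_mem_of_mem_normalizer hk ha, ?_⟩
      simp only [conj_pow, inv_inv]
    exact le_normalizer_of_cj_le this hg
  have hs : ∃ s ∈ B, s * s ≠ 1 := by
    by_contra hc
    push Not at hc
    exact hne ⟨⟨⟨fun a b => Subtype.ext (hBc a a.2 b b.2)⟩⟩, fun a ha => by rw [pow_two, hc a ha]⟩
  have hle : ∀ g, cj g B ≤ Cfsg.pCore 2 X := fun g =>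
    cj_le_of_mem_normalizer (by rw [normalizer_eq_top]; exact mem_top _) h1
  have key : ∀ x ∈ Group.conjugatesOfSet ((fun a : X => a ^ 2) '' (A : Set X)), ∃ g, x ∈ cj g B := by
    intro x hx
    obtain ⟨a, ha, hc⟩ := Group.mem_conjugatesOfSet_iff.1 hx
    obtain ⟨g, rfl⟩ := isConj_iff.1 hc
    exact ⟨g, conj_mem_cj.2 (subset_closure ha)⟩
  refine isMulCommutative_closure fun x hx y hy => ?_
  obtain ⟨g, hg⟩ := key x hx
  obtain ⟨k, hk⟩ := key y hy
  exact comm_conj hQ hBc hBti hs (hle g) (hle k) x hg y hk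

end Cfsg.Agent.S1783
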