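import Cfsg.Statements.S1784
import Cfsg.Agent.H59.Symp
-- import your own Cfsg.Agent.* helpers here

set_option autoImplicit false
open Cfsg

namespace Cfsg.Agent.S1784

open Subgroup H69 H59


/-- Let G be a finite group and let z be an involution of G such that Q, the generalized Fitting subgroup of the centralizer C of z, is a 2-group of symplectic type (every characteristic abelian subgroup of Q is cyclic); suppose Q is extraspecial, and view Q inside G. Let α be an involution of C that is not in Q, and let Q₀ be the subgroup of those q ∈ Q whose commutator with α lies in the subgroup generated by z. Then (a) the subgroup generated by the commutators α q α⁻¹ q⁻¹, q ∈ Q, equals the centre of Q₀; and (b) if Q₀ is not contained in the product of the centralizer of α in Q with the subgroup generated by z, then some element of Q conjugates α to α z. -/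
theorem result {G : Type*} [Group G] [Finite G] (z : G) (hz : orderOf z = 2) (hQ : Cfsg.IsOfSymplecticType ↥(Cfsg.generalizedFittingSubgroup ↥(Subgroup.centralizer ({z} : Set G)))) (hE : Cfsg.IsExtraspecial 2 ↥(Cfsg.generalizedFittingSubgroup ↥(Subgroup.centralizer ({z} : Set G))))
    (α : G) (hα : orderOf α = 2) (hαC : α ∈ Subgroup.centralizer ({z} : Set G)) (hαQ : α ∉ (Cfsg.generalizedFittingSubgroup ↥(Subgroup.centralizer ({z} : Set G))).map (Subgroup.centralizer ({z} : Set G)).subtype)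
    (Q₀ : Subgroup G) (hQ₀ : ∀ q : G, q ∈ Q₀ ↔ (q ∈ (Cfsg.generalizedFittingSubgroup ↥(Subgroup.centralizer ({z} : Set G))).map (Subgroup.centralizer ({z} : Set G)).subtype ∧ α * q * α⁻¹ * q⁻¹ ∈ Subgroup.zpowers z)) :
    Subgroup.closure ((fun q : G => α * q * α⁻¹ * q⁻¹) '' ((Cfsg.generalizedFittingSubgroup ↥(Subgroup.centralizer ({z} : Set G))).map (Subgroup.centralizer ({z} : Set G)).subtype : Set G)) = (Subgroup.center ↥Q₀).map Q₀.subtype ∧
      (¬ Q₀ ≤ ((Cfsg.generalizedFittingSubgroup ↥(Subgroup.centralizer ({z} : Set G))).map (Subgroup.centralizer ({z} : Set G)).subtype ⊓ Subgroup.centralizer ({α} : Set G)) ⊔ Subgroup.zpowers z →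
        ∃ q ∈ (Cfsg.generalizedFittingSubgroup ↥(Subgroup.centralizer ({z} : Set G))).map (Subgroup.centralizer ({z} : Set G)).subtype, q * α * q⁻¹ = α * z) := by
  haveI : Fact (Nat.Prime 2) := ⟨Nat.prime_two⟩
  have hL : H97.LX (QZ z) z := H97.lx_of_extraspecial hz
    (H15.isExtraspecial_congr (equivMapOfInjective _ _ (subtype_injective _)) hE)
    (centralizer_QZ_le z) (map_subtype_le _) (H44.le_normalizer_FSof _)
  have hzm : ∀ {a}, a ∈ zpowers z ↔ a = 1 ∨ a = z := H15.mem_zpowers_two hL.sq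
  have hαα : α * α = 1 := by rw [← pow_two, ← hα, pow_orderOf_eq_one]
  have hαi : α⁻¹ = α := inv_eq_of_mul_eq_one_right hαα
  have hαz : α * z = z * α := mem_centralizer_singleton_iff.1 hαC
  have hcQ : ∀ q ∈ QZ z, α * q * α⁻¹ * q⁻¹ ∈ QZ z := fun q hq =>
    mul_mem (hL.norm α hαz q hq) (inv_mem hq)
  have hinv : ∀ a ∈ QZ z, ∀ b ∈ QZ z, (α * a * α⁻¹) * (α * b * α⁻¹) * (α * a * α⁻¹)⁻¹ *
      (α * b * α⁻¹)⁻¹ = a * b * a⁻¹ * b⁻¹ := by
    intro a ha b hb
    have e0 : (α * a * α⁻¹) * (α * b * α⁻¹) * (α * a * α⁻¹)⁻¹ * (α * b * α⁻¹)⁻¹ =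
      α * (a * b * a⁻¹ * b⁻¹) * α⁻¹ := by group
    rw [e0]
    rcases hL.comm a ha b hb with e | e
    · rw [e]; group
    · rw [e, mul_inv_cancel_right, hαz, mul_inv_cancel_right]
  refine ⟨?_, fun h => ?_⟩
  swap
  · obtain ⟨q, hq, hq'⟩ := SetLike.not_le_iff_exists.1 h
    obtain ⟨hq1, hq2⟩ := (hQ₀ q).1 hq
    refine ⟨q, hq1, ?_⟩
    rcases hzm.1 hq2 with e | e
    · refine absurd (mem_sup_left (mem_inf.2 ⟨hq1, mem_centralizer_singleton_iff.2 ?_⟩)) hq'
      rw [mul_inv_eq_one, mul_inv_eq_iff_eq_mul] at e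
      exact e.symm
    · rw [← e, hαi, ← mul_assoc, ← mul_assoc, ← mul_assoc, hαα, one_mul]
  set D := closure ((fun q : G => α * q * α⁻¹ * q⁻¹) '' (QZ z : Set G)) with hD
  have hmem : ∀ {x}, x ∈ (center Q₀).map Q₀.subtype ↔ x ∈ Q₀ ∧ ∀ y ∈ Q₀, y * x = x * y := by
    intro x
    constructor
    · rintro ⟨x, hx, rfl⟩
      exact ⟨x.2, fun y hy => congrArg Subtype.val (mem_center_iff.1 hx ⟨y, hy⟩)⟩
    · exact fun h => ⟨⟨x, h.1⟩, mem_center_iff.2 fun y => Subtype.ext (h.2 y y.2), rfl⟩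
  apply le_antisymm
  · rw [hD, closure_le]
    rintro _ ⟨q, hq, rfl⟩
    refine hmem.2 ⟨(hQ₀ _).2 ⟨hcQ q hq, ?_⟩, fun y hy => ?_⟩
    · have e : α * (α * q * α⁻¹ * q⁻¹) * α⁻¹ * (α * q * α⁻¹ * q⁻¹)⁻¹ =
          ((α * q * α⁻¹ * q⁻¹) * (α * q * α⁻¹ * q⁻¹))⁻¹ := by
        calc α * (α * q * α⁻¹ * q⁻¹) * α⁻¹ * (α * q * α⁻¹ * q⁻¹)⁻¹
            = (α * α) * q * α⁻¹ * q⁻¹ * α⁻¹ * (α * q * α⁻¹ * q⁻¹)⁻¹ := by group
          _ = q * α * q⁻¹ * α⁻¹ * (α * q * α⁻¹ * q⁻¹)⁻¹ := by rw [hαα, one_mul]; nth_rw 1 [hαi]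
          _ = _ := by group
      rw [e]
      exact inv_mem (hzm.2 (hL.sqr _ (hcQ q hq)))
    · obtain ⟨hy1, hy2⟩ := (hQ₀ y).1 hy
      have e1 := hinv q hq y hy1
      have hq' := hL.norm α hαz q hq
      have e2 : (α * q * α⁻¹) * y * (α * q * α⁻¹)⁻¹ = q * y * q⁻¹ := by
        rcases hzm.1 hy2 with e | e
        · rw [mul_inv_eq_one.1 e] at e1; exact mul_right_cancel e1
        · rw [mul_inv_eq_iff_eq_mul.1 e] at e1
          apply mul_right_cancel (b := y⁻¹)
          rw [← e1, ← hL.cen y hy1]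
          calc α * q * α⁻¹ * y * (α * q * α⁻¹)⁻¹ * y⁻¹
              = α * q * α⁻¹ * y * ((α * q * α⁻¹)⁻¹ * z) * z⁻¹ * y⁻¹ := by group
            _ = _ := by rw [hL.cen _ (inv_mem hq')]; group
      have e3 : (α * q * α⁻¹) * (q⁻¹ * y * q) * (α * q * α⁻¹)⁻¹ = y := by
        rcases hL.comm q hq y hy1 with e | e
        · have : q⁻¹ * y * q = y := by
            conv_lhs => rw [← e]
            group
          rw [this, e2, e]
        · have : q⁻¹ * y * q = z * y := by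
            calc q⁻¹ * y * q = q⁻¹ * (z * (z * y)) * q := by rw [← mul_assoc z, hL.sq, one_mul]
              _ = (q⁻¹ * z) * (q * y * q⁻¹) * q := by rw [e]; group
              _ = z * y := by rw [hL.cen _ (inv_mem hq)]; group
          calc (α * q * α⁻¹) * (q⁻¹ * y * q) * (α * q * α⁻¹)⁻¹
              = ((α * q * α⁻¹) * z) * y * (α * q * α⁻¹)⁻¹ := by rw [this]; group
            _ = z * ((α * q * α⁻¹) * y * (α * q * α⁻¹)⁻¹) := by rw [hL.cen _ hq']; group
            _ = y := by rw [e2, e, ← mul_assoc, hL.sq, one_mul]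
      calc y * (α * q * α⁻¹ * q⁻¹)
          = ((α * q * α⁻¹) * (q⁻¹ * y * q) * (α * q * α⁻¹)⁻¹) * (α * q * α⁻¹ * q⁻¹) := by rw [e3]
        _ = α * q * α⁻¹ * q⁻¹ * y := by group
  · have hDQ : D ≤ QZ z := by
      rw [hD, closure_le]; rintro _ ⟨q, hq, rfl⟩; exact hcQ q hq
    have hDm : ∀ q ∈ QZ z, α * q * α⁻¹ * q⁻¹ ∈ D := fun q hq => subset_closure ⟨q, hq, rfl⟩
    have hzD : z ∈ D := by
      by_contra hzD
      refine hαQ (hL.inner hαz fun q hq => ?_)
      by_cases h1 : α * q * α⁻¹ * q⁻¹ = 1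
      · exact Or.inl (mul_inv_eq_one.1 h1)
      by_cases h2 : α * q * α⁻¹ * q⁻¹ = z
      · exact Or.inr (mul_inv_eq_iff_eq_mul.1 h2)
      obtain ⟨b, hb, e⟩ := hL.exists_conj (hcQ q hq) h1 h2
      have h3 := D.mul_mem (D.mul_mem (D.inv_mem (hDm b hb)) (hDm _ (mul_mem hb hq)))
        (D.inv_mem (hDm q hq))
      have e2 : (α * b * α⁻¹ * b⁻¹)⁻¹ * (α * (b * q) * α⁻¹ * (b * q)⁻¹) =
        b * (α * q * α⁻¹ * q⁻¹) * b⁻¹ := by group
      rw [e2, e, mul_inv_cancel_right] at h3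
      exact absurd h3 hzD
    intro a ha
    obtain ⟨ha1, ha2⟩ := hmem.1 ha
    by_contra haD
    obtain ⟨b, hb, hbD, hba⟩ := hL.sep D hDQ hzD a ((hQ₀ a).1 ha1).1 haD
    have hb0 : b ∈ Q₀ := by
      have hb' := hL.norm α hαz b hb
      have := hL.large (b⁻¹ * (α * b * α⁻¹)) fun p hp => by
        have hp' := hL.norm α hαz p hp
        set p' := α * p * α⁻¹ with hp'def
        have hpp : p = α * p' * α⁻¹ := by
          rw [hp'def]
          calc p = (α * α) * p * (α * α)⁻¹ := by rw [hαα]; group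
            _ = _ := by group
        have e1 := hinv b hb p' hp'
        have e2 := hbD _ (hDm p' hp')
        rw [← hpp] at e1 e2
        have e3 : b * p' * b⁻¹ * p'⁻¹ = b * p * b⁻¹ * p⁻¹ := by
          have e4 : b * p * b⁻¹ = (p * p'⁻¹) * (b * p' * b⁻¹) := by
            calc b * p * b⁻¹ = (b * (p * p'⁻¹)) * p' * b⁻¹ := by group
              _ = _ := by rw [e2]; group
          rcases hL.comm b hb p' hp' with e | e
          · rw [e4, e]; group
          · rw [e4, e]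
            calc z * p' * p'⁻¹ = (z * p) * p⁻¹ := by group
              _ = p * ((z * p'⁻¹) * p') * p⁻¹ := by rw [← hL.cen p hp]; group
              _ = _ := by rw [← hL.cen _ (inv_mem hp')]; group
        rw [e3] at e1
        have e5 : (α * b * α⁻¹) * p * (α * b * α⁻¹)⁻¹ = b * p * b⁻¹ := mul_right_cancel e1
        calc b⁻¹ * (α * b * α⁻¹) * p
            = b⁻¹ * ((α * b * α⁻¹) * p * (α * b * α⁻¹)⁻¹) * (α * b * α⁻¹) := by group
          _ = p * (b⁻¹ * (α * b * α⁻¹)) := by rw [e5]; group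
      refine (hQ₀ b).2 ⟨hb, hzm.2 (this.imp (fun e => ?_) fun e => ?_)⟩
      · rw [← inv_mul_eq_one.1 e, mul_inv_cancel]
      · rw [inv_mul_eq_iff_eq_mul.1 e, hL.cen b hb, mul_inv_cancel_right]
    rw [ha2 b hb0, mul_inv_cancel_right] at hba
    exact hL.ne (by simpa using hba.symm)

end Cfsg.Agent.S1784
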