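import Cfsg.Statements.S1785
import Cfsg.Agent.H44.FourNorm
import Cfsg.Agent.H18.Four
import Cfsg.Agent.H59.TI
-- import your own Cfsg.Agent.* helpers here

set_option autoImplicit false
open Cfsg

namespace Cfsg.Agent.S1785

open Subgroup H59

section
variable {X : Type*} [Group X] [Finite X]

theorem between {F B : Subgroup X} (hB : IsPGroup 2 B) (h : F ≤ B) {k m : ℕ} (hF : Nat.card F = 2 ^ k)
    (hkm : k ≤ m) (hm : 2 ^ m ≤ Nat.card B) : ∃ K : Subgroup X, F ≤ K ∧ K ≤ B ∧ Nat.card K = 2 ^ m := by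
  haveI : Fact (Nat.Prime 2) := ⟨Nat.prime_two⟩
  obtain ⟨n, hn⟩ := hB.exists_card_eq
  obtain ⟨K, hK, hle⟩ := Sylow.exists_subgroup_card_pow_prime_le 2 (m := m) (G := B) (by
    rw [hn] at hm ⊢
    exact pow_dvd_pow 2 ((Nat.pow_le_pow_iff_right one_lt_two).1 hm)) (F.subgroupOf B)
    (by rw [H69.card_subgroupOf_of_le h, hF]) hkm
  refine ⟨K.map B.subtype, fun x hx => ⟨⟨x, h hx⟩, hle hx, rfl⟩, map_subtype_le _, ?_⟩
  rw [card_map_of_injective B.subtype_injective, hK]

variable {E : Subgroup X} [E.Normal] (hE : Cfsg.IsElementaryAbelian 2 E)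
include hE

theorem step {F B : Subgroup X} (hB : Cfsg.IsElementaryAbelian 2 B) (h : F ≤ B) {k i : ℕ}
    (hF : Nat.card F = 2 ^ k) (hc : Nat.card B = 2 ^ (k + 1))
    (hi : 2 ^ (2 * i) < Nat.card ↥(E ⊓ centralizer (F : Set X))) :
    2 ^ (i + 1) ≤ Nat.card ↥(E ⊓ centralizer (B : Set X)) := by
  haveI : Fact (Nat.Prime 2) := ⟨Nat.prime_two⟩
  have hne : ¬ B ≤ F := fun h' => by
    have := card_le_of_le h'
    rw [hF, hc, pow_succ] at this
    have := Nat.two_pow_pos k
    omega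
  obtain ⟨x, hx, hxF⟩ := SetLike.not_le_iff_exists.1 hne
  have hxC : x ∈ centralizer (F : Set X) := fun f hf => H44.ea_comm hB (h hf) hx
  have e : F ⊔ zpowers x = B := eq_of_le_of_card_ge (sup_le h (zpowers_le.2 hx)) (by
    rw [hc]
    exact H44.pow_succ_le_card_sup_zpowers (H21.isElementaryAbelian_of_le hB h) hxC (hB.2 x hx) hxF hF.ge)
  have hD := H21.isElementaryAbelian_of_le hE (inf_le_left (b := centralizer (F : Set X)))
  have h1 := H18.card_le_sq_centralizer hD.1 (fun e he => by rw [← pow_two, hD.2 e he]) (w := x)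
    (by rw [← pow_two, hB.2 x hx]) fun e he => mem_inf.2 ⟨(inferInstance : E.Normal).conj_mem e he.1 x,
      mul_mem (mul_mem hxC (mem_inf.1 he).2) (inv_mem hxC)⟩
  have h2 : E ⊓ centralizer (F : Set X) ⊓ centralizer {x} ≤ E ⊓ centralizer (B : Set X) := by
    refine le_inf (inf_le_left.trans inf_le_left) (le_centralizer_iff.1 ?_)
    rw [← e]
    refine sup_le (le_centralizer_iff.1 (inf_le_left.trans inf_le_right)) (zpowers_le.2 ?_)
    exact fun y hy => mem_centralizer_singleton_iff.1 hy.2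
  refine H44.pow_succ_le_card_of_lt
    (H44.isPGroup_of_ea (H21.isElementaryAbelian_of_le hE inf_le_left)) ?_
  have h3 := card_le_of_le h2
  by_contra hlt
  have h4 : Nat.card ↥(E ⊓ centralizer (F : Set X) ⊓ centralizer {x}) ^ 2 ≤ (2 ^ i) ^ 2 :=
    Nat.pow_le_pow_left (by omega) 2
  rw [← pow_mul, mul_comm] at h4
  omega

/-- `|C_E(B)| ≥ 2 ^ (3 - j)` if `|B : B ∩ E| ≤ 2 ^ (j + 1)`. -/
theorem bound (h32 : 32 ≤ Nat.card E) (j : ℕ) (hj : j ≤ 2) : ∀ {F B : Subgroup X},
    Cfsg.IsElementaryAbelian 2 B → F ≤ B → F ≤ E → ∀ {k : ℕ}, Nat.card F = 2 ^ k →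
    Nat.card B = 2 ^ (k + j + 1) → 2 ^ (3 - j) ≤ Nat.card ↥(E ⊓ centralizer (B : Set X)) := by
  induction j with
  | zero =>
    intro F B hB h hFE k hF hc
    refine step hE hB h (i := 2) hF hc ?_
    rw [inf_eq_left.2 (fun e he f hf => H44.ea_comm hE (hFE hf) he)]
    omega
  | succ j ih =>
    intro F B hB h hFE k hF hc
    obtain ⟨K, h1, h2, h3⟩ := between (H44.isPGroup_of_ea hB) h hF (m := k + j + 1) (by omega)
      (by rw [hc]; exact Nat.pow_le_pow_right two_pos (by omega))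
    have h4 := ih (by omega) (H21.isElementaryAbelian_of_le hB h2) h1 hFE hF h3
    obtain rfl | rfl : j = 0 ∨ j = 1 := by omega
    · exact step hE hB h2 (i := 1) h3 hc (by omega)
    · exact step hE hB h2 (i := 0) h3 hc (by omega)

theorem link {B : Subgroup X} (hB : Cfsg.IsElementaryAbelian 2 B) (h8 : Nat.card B = 8) {k : ℕ}
    (hk : k ≤ 3) (h : 2 ^ k ≤ Nat.card ↥(E ⊓ centralizer (B : Set X))) :
    ∃ F B' : Subgroup X, F ≤ B' ∧ F ≤ E ∧ Nat.card F = 2 ^ k ∧ Cfsg.IsElementaryAbelian 2 B' ∧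
      Nat.card B' = 8 ∧ ⁅B, B'⁆ = ⊥ := by
  have hD := H21.isElementaryAbelian_of_le hE (inf_le_left (b := centralizer (B : Set X)))
  obtain ⟨F, -, h1, h2⟩ := between (H44.isPGroup_of_ea hD) bot_le (k := 0) (by simp) (Nat.zero_le k) h
  have hS := H21.isElementaryAbelian_sup hD hB inf_le_right
  obtain ⟨K, h3, h4, h5⟩ := between (H44.isPGroup_of_ea hS) (h1.trans le_sup_left) h2 hk
    (h8.ge.trans (card_le_of_le le_sup_right))
  exact ⟨F, K, h3, h1.trans inf_le_left, h2, H21.isElementaryAbelian_of_le hS h4, h5,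
    commutator_eq_bot_of_comm fun a ha b hb => H44.ea_comm hS (mem_sup_right ha) (h4 hb)⟩

end


/-- Let X be a finite 2-group having a normal elementary abelian subgroup of order at least 32. Then (a) for any two elementary abelian subgroups A, B of X of order 8 there is a chain A = A₁, A₂, …, Aₙ = B of elementary abelian subgroups of order 8 in which consecutive members commute elementwise; and (b) every elementary abelian subgroup of X of order 4 is contained in an elementary abelian subgroup of order 8. -/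
theorem result {X : Type*} [Group X] [Finite X]
    (hX : IsPGroup 2 X) (E : Subgroup X) [E.Normal] (hE : Cfsg.IsElementaryAbelian 2 E) (hE32 : 32 ≤ Nat.card ↥E) :
    (∀ A B : Subgroup X, Cfsg.IsElementaryAbelian 2 A → Nat.card ↥A = 8 → Cfsg.IsElementaryAbelian 2 B → Nat.card ↥B = 8 →
        Relation.ReflTransGen
          (fun C D : Subgroup X => Cfsg.IsElementaryAbelian 2 C ∧ Nat.card ↥C = 8 ∧ Cfsg.IsElementaryAbelian 2 D ∧ Nat.card ↥D = 8 ∧ ⁅C, D⁆ = ⊥)
          A B) ∧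
      (∀ V : Subgroup X, Cfsg.IsElementaryAbelian 2 V → Nat.card ↥V = 4 →
        ∃ A : Subgroup X, V ≤ A ∧ Cfsg.IsElementaryAbelian 2 A ∧ Nat.card ↥A = 8) := by
  haveI : Fact (Nat.Prime 2) := ⟨Nat.prime_two⟩
  refine ⟨?_, fun V hV h4 => ?_⟩
  · have key : ∀ A : Subgroup X, Cfsg.IsElementaryAbelian 2 A → Nat.card A = 8 → ∃ D ≤ E,
        Cfsg.IsElementaryAbelian 2 D ∧ Nat.card D = 8 ∧ Relation.ReflTransGen
          (fun C D : Subgroup X => Cfsg.IsElementaryAbelian 2 C ∧ Nat.card ↥C = 8 ∧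
            Cfsg.IsElementaryAbelian 2 D ∧ Nat.card ↥D = 8 ∧ ⁅C, D⁆ = ⊥) A D := by
      intro A hA h8
      obtain ⟨F1, B1, a1, a2, a3, a4, a5, a6⟩ := link hE hA h8 (k := 1) (by omega)
        (bound hE hE32 2 le_rfl hA bot_le bot_le (k := 0) (by simp) h8)
      obtain ⟨F2, B2, b1, b2, b3, b4, b5, b6⟩ := link hE a4 a5 (k := 2) (by omega)
        (bound hE hE32 1 (by omega) a4 a1 a2 a3 a5)
      obtain ⟨F3, B3, c1, c2, c3, c4, c5, c6⟩ := link hE b4 b5 (k := 3) le_rfl
        (bound hE hE32 0 (by omega) b4 b1 b2 b3 b5)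
      have e : F3 = B3 := eq_of_le_of_card_ge c1 (by rw [c3, c5]; rfl)
      exact ⟨B3, e ▸ c2, c4, c5, ((Relation.ReflTransGen.single ⟨hA, h8, a4, a5, a6⟩).tail
        ⟨a4, a5, b4, b5, b6⟩).tail ⟨b4, b5, c4, c5, c6⟩⟩
    intro A B hA hA8 hB hB8
    obtain ⟨D, d1, d2, d3, d4⟩ := key A hA hA8
    obtain ⟨D', e1, e2, e3, e4⟩ := key B hB hB8
    refine (d4.tail ⟨d2, d3, e2, e3, commutator_eq_bot_of_comm fun a ha b hb =>
      H44.ea_comm hE (d1 ha) (e1 hb)⟩).trans ?_
    refine Relation.ReflTransGen.mono (fun C D h => ?_) _ _ (Relation.ReflTransGen.swap _ _ e4)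
    exact ⟨h.2.2.1, h.2.2.2.1, h.1, h.2.1, by rw [Subgroup.commutator_comm]; exact h.2.2.2.2⟩
  · have h1 := bound hE hE32 1 (by omega) hV bot_le bot_le (k := 0) (by simp) h4
    have hD := H21.isElementaryAbelian_of_le hE (inf_le_left (b := centralizer (V : Set X)))
    have hS := H21.isElementaryAbelian_sup hD hV inf_le_right
    have h8 : 2 ^ 3 ≤ Nat.card ↥(E ⊓ centralizer (V : Set X) ⊔ V) := by
      refine H44.pow_succ_le_card_of_lt (H44.isPGroup_of_ea hS) (lt_of_not_ge fun hle => ?_)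
      have e1 : V = E ⊓ centralizer (V : Set X) ⊔ V := eq_of_le_of_card_ge le_sup_right (by omega)
      have e2 : E ⊓ centralizer (V : Set X) = V := eq_of_le_of_card_ge (le_sup_left.trans e1.ge)
        (by omega)
      have e3 : E ≤ centralizer (V : Set X) := fun e he v hv =>
        H44.ea_comm hE (e2.ge hv).1 he
      rw [inf_eq_left.2 e3] at e2
      rw [e2] at hE32
      omega
    obtain ⟨K, k1, k2, k3⟩ := between (H44.isPGroup_of_ea hS) le_sup_right (k := 2) h4 (by omega) h8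
    exact ⟨K, k1, H21.isElementaryAbelian_of_le hS k2, k3⟩

end Cfsg.Agent.S1785
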