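import Cfsg.Statements.S1786
import Cfsg.Agent.H59.TIFund2
import Cfsg.Agent.H44.FourNorm
import Cfsg.Agent.H44.Components
import Cfsg.Agent.H72.Bridge

set_option autoImplicit false
open Cfsg

namespace Cfsg.Agent.S1786

open Subgroup H69 H59
open scoped commutatorElement

section
variable {G : Type*} [Group G] [Finite G] {V Q : Subgroup G}

theorem tc_of (hV : Cfsg.IsElementaryAbelian 2 V) (hti : TIin ⊤ V) (hQ : IsPGroup 2 Q)
    (hVQ : V ≤ Q) (hQM : Q ≤ normalizer (V : Set G))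
    (hQn : normalizer (V : Set G) ≤ normalizer (Q : Set G))
    (hCQ : normalizer (V : Set G) ⊓ centralizer (Q : Set G) ≤ Q)
    (hcore : ∀ K ≤ normalizer (V : Set G), normalizer (V : Set G) ≤ normalizer (K : Set G) →
      IsPGroup 2 K → K ≤ Q)
    (hmax : ∀ A : Subgroup G, V ≤ A → A ≤ normalizer (V : Set G) → (∀ a ∈ A, ∀ b ∈ A, a * b = b * a) →
      (∀ m ∈ normalizer (V : Set G), ∀ a ∈ A, m * a * m⁻¹ ∈ A) → A ≤ V) :
    TC V (Q ⊓ centralizer (V : Set G)) := by
  haveI : Fact (Nat.Prime 2) := ⟨Nat.prime_two⟩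
  set P := Q ⊓ centralizer (V : Set G) with hP
  have hVP : V ≤ P := le_inf hVQ (H44.ea_le_centralizer hV)
  have hinv : ∀ v ∈ V, v * v = 1 := fun v hv => by rw [← pow_two, hV.2 v hv]
  have hcen : ∀ x ∈ P, ∀ v ∈ V, x * v = v * x := fun x hx v hv => (hx.2 v hv).symm
  have hcjC : ∀ (A : Subgroup G) (m : G), m ∈ normalizer (A : Set G) → ∀ x ∈ centralizer (A : Set G),
      m * x * m⁻¹ ∈ centralizer (A : Set G) := fun A m hm x hx =>
    conj_mem_of_mem_normalizer (H44.normalizer_le_normalizer_centralizer A hm) hx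
  have hPc : ∀ m ∈ normalizer (V : Set G), ∀ x ∈ P, m * x * m⁻¹ ∈ P := fun m hm x hx =>
    mem_inf.2 ⟨conj_mem_of_mem_normalizer (hQn hm) hx.1, hcjC V m hm x hx.2⟩
  have hnorm : ∀ A : Subgroup G, (∀ m ∈ normalizer (V : Set G), ∀ x ∈ A, m * x * m⁻¹ ∈ A) →
      normalizer (V : Set G) ≤ normalizer (A : Set G) := fun A h =>
    le_normalizer_of_cj_le fun m hm x hx => by
      obtain ⟨y, hy, rfl⟩ := mem_cj'.1 hx
      exact h m hm y hy
  have hPn := hnorm P hPc
  have hPM : P ≤ normalizer (V : Set G) := inf_le_left.trans hQM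
  have hZ : ∀ A : Subgroup G, V ≤ A → A ≤ P → normalizer (V : Set G) ≤ normalizer (A : Set G) →
      A ⊓ centralizer (A : Set G) ≤ V := fun A h1 h2 h3 =>
    hmax _ (le_inf h1 fun v hv a ha => hcen a (h2 ha) v hv) (inf_le_left.trans (h2.trans hPM))
      (fun a ha b hb => hb.2 a ha.1) fun m hm a ha =>
        mem_inf.2 ⟨conj_mem_of_mem_normalizer (h3 hm) ha.1, hcjC A m (h3 hm) a ha.2⟩
  have hcenter : ∀ x ∈ P, (∀ y ∈ P, y * x = x * y) → x ∈ V := fun x hx h =>
    hZ P hVP le_rfl hPn ⟨hx, h⟩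
  let K : Subgroup G :=
    { carrier := {g | (∀ v ∈ V, g * v = v * g) ∧ ∀ x ∈ P, ⁅g, x⁆ ∈ V}
      one_mem' := ⟨fun v _ => by simp, fun x _ => by simp⟩
      mul_mem' := fun {a b} ha hb => ⟨fun v hv => by
          rw [mul_assoc, hb.1 v hv, ← mul_assoc, ha.1 v hv, mul_assoc], fun x hx => by
        have e : ⁅a * b, x⁆ = a * ⁅b, x⁆ * a⁻¹ * ⁅a, x⁆ := by
          simp only [commutatorElement_def]; group
        rw [e, ha.1 _ (hb.2 x hx), mul_inv_cancel_right]
        exact V.mul_mem (hb.2 x hx) (ha.2 x hx)⟩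
      inv_mem' := fun {a} ha => ⟨fun v hv => (Commute.inv_left (ha.1 v hv)).eq, fun x hx => by
        have e : ⁅a⁻¹, x⁆ = a⁻¹ * (⁅a, x⁆⁻¹ * a) := by
          simp only [commutatorElement_def]; group
        rw [e, ← ha.1 _ (V.inv_mem (ha.2 x hx)), inv_mul_cancel_left]
        exact V.inv_mem (ha.2 x hx)⟩ }
  have hKC : K ≤ centralizer (V : Set G) := fun g hg v hv => (hg.1 v hv).symm
  have hKM : K ≤ normalizer (V : Set G) := hKC.trans (centralizer_le_normalizer _)
  have hKc : ∀ m ∈ normalizer (V : Set G), ∀ x ∈ K, m * x * m⁻¹ ∈ K := fun m hm x hx =>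
    ⟨fun v hv => (hcjC V m hm x (hKC hx) v hv).symm, fun y hy => by
      have := conj_mem_of_mem_normalizer hm (hx.2 _ (hPc m⁻¹ (inv_mem hm) y hy))
      rw [← conj_commutatorElement'] at this
      simpa [mul_assoc] using this⟩
  have hsq : ∀ g y : G, (∀ v ∈ V, g * v = v * g) → ⁅g, y⁆ ∈ V → y * (g * g) = g * g * y := by
    intro g y h1 h2
    have e : ⁅g * g, y⁆ = g * ⁅g, y⁆ * g⁻¹ * ⁅g, y⁆ := by
      simp only [commutatorElement_def]; group
    rw [h1 _ h2, mul_inv_cancel_right, hinv _ h2] at e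
    exact (comm_iff_el.1 e).symm
  have hKP : K ≤ P := by
    refine le_inf (hcore K hKM (hnorm K hKc) (isPGroup_iff_mem.2 fun g hg => ?_)) hKC
    have h1 : g * g ∈ centralizer (P : Set G) := fun y hy => hsq g y hg.1 (hg.2 y hy)
    have hgg := K.mul_mem hg hg
    have h2 : g * g * (g * g) ∈ Q := hCQ ⟨hKM (K.mul_mem hgg hgg), fun q hq => by
      refine hsq _ q hgg.1 ?_
      have h3 : ⁅g * g, q⁆ ∈ centralizer (P : Set G) := by
        have := mul_mem h1 (hcjC P q (hPn (hQM hq)) _ (inv_mem h1))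
        simpa only [commutatorElement_def, mul_assoc] using this
      refine hcenter _ (mem_inf.2 ⟨?_, fun v hv => h3 v (hVP hv)⟩) h3
      exact Q.mul_mem (conj_mem_of_mem_normalizer (hQn (hKM hgg)) hq) (Q.inv_mem hq)⟩
    obtain ⟨k, hk⟩ := isPGroup_iff_mem.1 hQ _ h2
    exact ⟨2 + k, by rw [pow_add, pow_mul, ← hk]; congr 1; rw [pow_two 2, pow_mul, pow_two, pow_two]⟩
  have hVK : V ≤ K := fun v hv => ⟨fun w hw => H44.ea_comm hV hv hw, fun x hx => by
    rw [comm_iff_el.2 (hcen x hx v hv).symm]; exact V.one_mem⟩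
  have hN : P ⊓ centralizer (K : Set G) ≤ V := by
    by_contra hne
    obtain ⟨y, hy, hyV, hy'⟩ := H44.exists_not_mem_commutator_mem (S := P) (hQ.to_le inf_le_left)
      (P ⊓ centralizer (K : Set G)) (hQ.to_le (inf_le_left.trans inf_le_left))
      (hPM.trans (hnorm _ fun m hm x hx =>
        mem_inf.2 ⟨hPc m hm x hx.1, hcjC K m (hnorm K hKc hm) x hx.2⟩)) hne
    exact hyV (hZ K hVK hKP (hnorm K hKc) ⟨⟨hcen y hy.1, hy'⟩, hy.2⟩)
  have hact : ∀ x ∈ P, ∀ z ∈ K, ⁅x, z⁆ ∈ V := fun x hx z hz => by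
    rw [← commutatorElement_inv]; exact V.inv_mem (hz.2 x hx)
  refine ⟨hti, hVP, hinv, hcen, hcenter, fun x hx y hy => ?_,
    fun x hx => hN ⟨P.mul_mem hx hx, fun z hz => hsq x z (hcen x hx) (hact x hx z hz)⟩, hPn,
    fun g h1 h2 => hKP ⟨h1, h2⟩⟩
  refine hN ⟨P.mul_mem (P.mul_mem (P.mul_mem hx hy) (P.inv_mem hx)) (P.inv_mem hy), fun z hz => ?_⟩
  have c1 := hact _ (P.inv_mem hx) z hz
  have c2 := hact _ (P.inv_mem hy) z hz
  have e1 : x⁻¹ * (y⁻¹ * z * y) * x = ⁅y⁻¹, z⁆ * ⁅x⁻¹, z⁆ * z := by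
    calc x⁻¹ * (y⁻¹ * z * y) * x = (x⁻¹ * ⁅y⁻¹, z⁆) * z * x := by
          rw [commutatorElement_def]; group
      _ = _ := by rw [hcen _ (P.inv_mem hx) _ c2, commutatorElement_def x⁻¹]; group
  have e2 : y⁻¹ * (x⁻¹ * z * x) * y = ⁅x⁻¹, z⁆ * ⁅y⁻¹, z⁆ * z := by
    calc y⁻¹ * (x⁻¹ * z * x) * y = (y⁻¹ * ⁅x⁻¹, z⁆) * z * y := by
          rw [commutatorElement_def]; group
      _ = _ := by rw [hcen _ (P.inv_mem hy) _ c1, commutatorElement_def y⁻¹]; group
  rw [H44.ea_comm hV c1 c2, ← e1] at e2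
  calc z * ⁅x, y⁆ = x * y * (y⁻¹ * (x⁻¹ * z * x) * y) * x⁻¹ * y⁻¹ := by
        rw [commutatorElement_def]; group
    _ = ⁅x, y⁆ * z := by rw [e2, commutatorElement_def]; group

theorem exists_tp {P : Subgroup G} (hT : TC V P) (hPM : P ≤ normalizer (V : Set G)) {g : G}
    (hg : cj g V ≠ V) (hle : cj g V ≤ P)
    (hmax : ∀ A : Subgroup G, V ≤ A → A ≤ normalizer (V : Set G) → (∀ a ∈ A, ∀ b ∈ A, a * b = b * a) →
      (∀ m ∈ normalizer (V : Set G), ∀ a ∈ A, m * a * m⁻¹ ∈ A) → A ≤ V) :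
    ∃ A, TP V P A (cj g V) := by
  have hD : TD V P (cj g V) := ⟨hT, ⟨g, rfl⟩, hle, hg⟩
  have hDm : ∀ m ∈ normalizer (V : Set G), TD V P (cj m (cj g V)) := fun m hm => by
    have := hD.cj m
    rwa [cj_eq_of_mem_normalizer hm, cj_eq_of_mem_normalizer (hT.norm hm)] at this
  by_contra hc
  push Not at hc
  have h1 : ∀ m ∈ normalizer (V : Set G), ∀ a ∈ cj m (cj g V), ∀ b ∈ cj g V, a * b = b * a := by
    intro m hm a ha b hb
    by_contra hne
    exact hc _ ⟨hDm m hm, hD, a, ha, b, hb, hne⟩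
  let s : Set G := {x | x ∈ V ∨ ∃ m ∈ normalizer (V : Set G), x ∈ cj m (cj g V)}
  have hsP : closure s ≤ P := by
    rw [closure_le]
    rintro x (hx | ⟨m, hm, hx⟩)
    exacts [hT.VP hx, (hDm m hm).le hx]
  have hcomm : IsMulCommutative (closure s) := isMulCommutative_closure (by
    rintro x (hx | ⟨m, hm, hx⟩) y hy
    · exact (hT.cen y (hsP (subset_closure hy)) x hx).symm
    rcases hy with hy | ⟨n, hn, hy⟩
    · exact hT.cen x ((hDm m hm).le hx) y hy
    obtain ⟨b, hb, rfl⟩ := mem_cj'.1 hy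
    have := h1 (n⁻¹ * m) (mul_mem (inv_mem hn) hm) (n⁻¹ * x * n)
      (by rw [cj_mul, mem_cj]; simpa [mul_assoc] using hx) b hb
    calc x * (n * b * n⁻¹) = n * (n⁻¹ * x * n * b) * n⁻¹ := by group
      _ = n * b * n⁻¹ * x := by rw [this]; group)
  have h2 := hmax (closure s) (fun v hv => subset_closure (Or.inl hv)) (hsP.trans hPM)
    (fun a ha b hb => congrArg Subtype.val (hcomm.is_comm.comm ⟨a, ha⟩ ⟨b, hb⟩)) fun m hm a ha => by
      have : closure s ≤ cj m⁻¹ (closure s) := by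
        rw [closure_le]
        rintro x (hx | ⟨n, hn, hx⟩)
        · exact mem_cj.2 (subset_closure (Or.inl (by
            simpa using conj_mem_of_mem_normalizer hm hx)))
        · exact mem_cj.2 (subset_closure (Or.inr ⟨m * n, mul_mem hm hn, by
            rw [cj_mul]; simpa using conj_mem_cj.2 hx⟩))
      simpa using mem_cj.1 (this ha)
  exact hg (eq_of_le_of_card_ge (fun b hb => h2 (subset_closure
    (Or.inr ⟨1, one_mem _, by rwa [cj_one]⟩))) hD.card.ge)

theorem mem_W {P A B : Subgroup G} (h : TP V P A B) {w : G} :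
    w ∈ V ⊔ B ↔ ∃ v ∈ V, ∃ b ∈ B, v * b = w :=
  mem_sup_of_le_normalizer' fun b hb =>
    centralizer_le_normalizer _ fun v hv => (h.l.tc.cen b (h.r.le hb) v hv).symm

theorem le_normalizer_W {P W : Subgroup G} (hT : TC V P) (h1 : V ≤ W) (h2 : W ≤ P) :
    P ≤ normalizer (W : Set G) := le_normalizer_of_cj_le fun x hx y hy => by
  obtain ⟨w, hw, rfl⟩ := mem_cj'.1 hy
  have := W.mul_mem (h1 (hT.comm x hx w (h2 hw))) hw
  simpa [commutatorElement_def] using this

theorem sl2 {P A : Subgroup G} {g : G} (h : TP V P A (cj g V))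
    (hN : ((centralizer ((V ⊔ cj g V : Subgroup G) : Set G)).subgroupOf (P ⊔ cj g P)).Normal) :
    ∃ (F : Type) (_ : Field F) (_ : Fintype F), Fintype.card F = Nat.card V ∧
      Nonempty (↥(P ⊔ cj g P) ⧸ (centralizer ((V ⊔ cj g V : Subgroup G) : Set G)).subgroupOf
        (P ⊔ cj g P) ≃* Matrix.SpecialLinearGroup (Fin 2) F) := by
  haveI : Fact (Nat.Prime 2) := ⟨Nat.prime_two⟩
  have hT := h.l.tc
  have hT' := hT.cj g
  obtain ⟨h1, y, hy, a, ha, e⟩ := h.le_cj
  set W := V ⊔ cj g V with hW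
  set H := P ⊔ cj g P with hH
  have hWP : W ≤ P := sup_le hT.VP h.r.le
  have hVe : Cfsg.IsElementaryAbelian 2 V :=
    ⟨⟨⟨fun a b => Subtype.ext (hT.cen a (hT.VP a.2) b b.2)⟩⟩, fun v hv => by rw [pow_two, hT.inv v hv]⟩
  have hWe : Cfsg.IsElementaryAbelian 2 W := H21.isElementaryAbelian_sup hVe
    ⟨⟨⟨fun a b => Subtype.ext (h.r.comm a a.2 b b.2)⟩⟩, fun v hv => by rw [pow_two, h.r.inv v hv]⟩
    fun v hv b hb => hT.cen b (h.r.le hb) v hv
  have hHW : H ≤ normalizer (W : Set G) := sup_le (le_normalizer_W hT le_sup_left hWP)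
    (le_normalizer_W hT' le_sup_right (sup_le h1 hT'.VP))
  obtain ⟨b0, hb0, hb1⟩ := h.r.exists_ne_one
  obtain ⟨F, _, _, hF⟩ := H72.exists_field_card (H44.isPGroup_of_ea hVe) (fun e =>
    h.r.ne (by rw [e, cj_bot]))
  let π := QuotientGroup.mk' ((centralizer (W : Set G)).subgroupOf H)
  have hπ : ∀ k, π k = 1 ↔ H.subtype k ∈ centralizer (W : Set G) := fun k =>
    (QuotientGroup.eq_one_iff _).trans mem_subgroupOf
  obtain ⟨X, _, _, _, ι, hp, hf, hb⟩ := H72.exists_br hWe H.subtype (fun k => hHW k.2) π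
    (QuotientGroup.mk'_surjective _) hπ
  have hPH : (P.subgroupOf H).map H.subtype = P := by
    rw [subgroupOf_map_subtype, inf_eq_left.2 le_sup_left]
  have hfix : ∀ x : X, x ∈ fixA X ((P.subgroupOf H).map π) ↔ ι (Multiplicative.ofAdd x) ∈ V := by
    intro x
    rw [hb.mem_fix, hPH]
    exact ⟨fun hx => hT.center _ (hWP (hb.mem x)) hx, fun hx z hz => hT.cen z hz _ hx⟩
  have hcardW : Nat.card W = Nat.card V * Nat.card V := by
    have hbij : Function.Bijective fun x : V × cj g V =>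
        (⟨x.1 * x.2, mul_mem (mem_sup_left x.1.2) (mem_sup_right x.2.2)⟩ : W) := by
      constructor
      · rintro ⟨v, b⟩ ⟨v', b'⟩ e
        have e' : (v : G) * b = v' * b' := congrArg Subtype.val e
        have e2 : (v' : G)⁻¹ * v = b' * (b : G)⁻¹ := by
          rw [inv_mul_eq_iff_eq_mul, ← mul_assoc, ← e', mul_inv_cancel_right]
        have e3 := h.r.eq_one (V.mul_mem (V.inv_mem v'.2) v.2)
          (by rw [e2]; exact mul_mem b'.2 (inv_mem b.2))
        have e4 : v' = v := Subtype.ext (inv_mul_eq_one.1 e3)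
        subst e4
        rw [Subtype.ext (mul_left_cancel e')]
      · rintro ⟨w, hw⟩
        obtain ⟨v, hv, b, hb, rfl⟩ := (mem_W h).1 hw
        exact ⟨(⟨v, hv⟩, ⟨b, hb⟩), rfl⟩
    rw [← Nat.card_eq_of_bijective _ hbij, Nat.card_prod, card_cj]
  have hfree : ∀ s ∈ P, s ∉ centralizer (W : Set G) → ∀ w ∈ W, s * w = w * s → w ∈ V := by
    intro s hs hsW w hw hc
    obtain ⟨v, hv, b, hb, rfl⟩ := (mem_W h).1 hw
    by_cases hb1 : b = 1
    · rw [hb1, mul_one]; exact hv
    refine absurd (fun w hw => ?_) hsW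
    obtain ⟨v', hv', b', hb', rfl⟩ := (mem_W h).1 hw
    rw [← mul_assoc, hT.cen s hs v hv, mul_assoc, mul_assoc] at hc
    rw [mul_assoc, ← h.r.cent_of_comm hs hb hb1 (mul_left_cancel hc) b' hb', ← mul_assoc,
      ← hT.cen s hs v' hv', mul_assoc]
  let M := ((normalizer (V : Set G)).subgroupOf H).map π
  have hM : ∀ k : H, π k ∈ M ↔ (k : G) ∈ normalizer (V : Set G) := by
    intro k
    refine ⟨?_, fun hk => ⟨k, hk, rfl⟩⟩
    rintro ⟨l, hl, e⟩
    have : l⁻¹ * k ∈ (centralizer (W : Set G)).subgroupOf H := QuotientGroup.eq.1 e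
    have h2 : (l : G)⁻¹ * k ∈ normalizer (V : Set G) :=
      centralizer_le_normalizer _ (centralizer_le (SetLike.coe_subset_coe.2 le_sup_left) this)
    simpa using mul_mem (mem_subgroupOf.1 hl) h2
  let k : H := ⟨a⁻¹ * y, mul_mem (inv_mem (mem_sup_left ha)) (mem_sup_right hy)⟩
  have hk : π k ∉ M := fun hk => h.r.ne (by rw [← e]; exact cj_eq_of_mem_normalizer ((hM k).1 hk))
  have hPM : P ≤ normalizer (V : Set G) := fun x hx =>
    centralizer_le_normalizer _ fun v hv => (hT.cen x hx v hv).symm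
  have hq : H72.QM X (Nat.card V) ((P.subgroupOf H).map π) M := by
    refine ⟨map_mono fun x hx => hPM hx, ⟨_, hk⟩, fun l hl x hx1 hx2 => ?_, ?_, ?_, ?_, ?_, ?_, ?_⟩
    · obtain ⟨l, rfl⟩ := QuotientGroup.mk'_surjective _ l
      rw [H72.mem_fix_cj, ← map_inv, hfix, hb.eqv] at hx2
      by_contra hx0
      refine hl ((hM l).2 ?_)
      have := hT.ti _ (mem_top _) _ ((hfix x).1 hx1) (fun e => hx0 (by
        rw [← map_one ι] at e; exact hb.inj e)) hx2
      simpa using inv_mem this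
    · rintro _ ⟨s, hs, rfl⟩ x
      rw [hfix, hb.dl_eq]
      exact hT.comm _ hs _ (hWP (hb.mem x))
    · rintro _ ⟨s, hs, rfl⟩ hs1 x hx
      rw [hfix]
      refine hfree s hs (fun e => hs1 ((hπ s).2 e)) _ (hb.mem x) (comm_iff_el.1 ?_)
      have := hb.dl_eq s x
      rw [hx] at this
      exact this.symm.trans (map_one ι)
    · rw [← h.l.card]
      symm
      refine Nat.card_eq_of_bijective (fun x : A =>
        (⟨π ⟨x, mem_sup_left (h.l.le x.2)⟩, _, h.l.le x.2, rfl⟩ : (P.subgroupOf H).map π)) ⟨?_, ?_⟩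
      · intro x z e
        have e' : π ⟨x, mem_sup_left (h.l.le x.2)⟩ = π ⟨z, mem_sup_left (h.l.le z.2)⟩ :=
          congrArg Subtype.val e
        have h2 : (x : G)⁻¹ * z ∈ centralizer (W : Set G) := mem_subgroupOf.1 (QuotientGroup.eq.1 e')
        by_contra hne
        exact h.ne (A.mul_mem (A.inv_mem x.2) z.2) (fun e => hne (Subtype.ext (inv_mul_eq_one.1 e)))
          hb0 hb1 (h2 b0 (mem_sup_right hb0)).symm
      · rintro ⟨_, s, hs0, rfl⟩
        have hs : (s : G) ∈ P := hs0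
        obtain ⟨c, hc, e⟩ := h.dec (P.inv_mem hs)
        refine ⟨⟨c⁻¹, A.inv_mem hc⟩, Subtype.ext (QuotientGroup.eq.2 ?_)⟩
        have h2 : (s : G)⁻¹ * c⁻¹ ∈ centralizer (W : Set G) := fun w hw => by
          obtain ⟨v', hv', b', hb', rfl⟩ := (mem_W h).1 hw
          rw [mul_assoc, ← e b' hb', ← mul_assoc,
            ← hT.cen _ (P.mul_mem (P.inv_mem hs) (P.inv_mem (h.l.le hc))) v' hv', mul_assoc]
        simpa [mem_subgroupOf] using inv_mem h2
    · have : W ⊓ centralizer (P : Set G) = V := le_antisymm (fun x hx => hT.center x (hWP hx.1) hx.2)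
        (le_inf le_sup_left fun v hv z hz => hT.cen z hz v hv)
      rw [← hb.card_toG, hb.toG_fix, hPH, this]
    · rw [← hb.card, hcardW]
    · rw [← h.r.card, one_lt_card_iff_ne_bot]
      exact fun e => hb1 (mem_bot.1 (e ▸ hb0))
  have hkP : cj (a⁻¹ * y) P = cj g P := by
    have hn : g⁻¹ * (a⁻¹ * y) ∈ normalizer (V : Set G) := by
      rw [← cj_eq_self_iff, cj_mul, e, cj_inv_cj]
    have := cj_eq_of_mem_normalizer (hT.norm hn)
    rw [cj_mul] at this
    rw [← cj_cj_inv g (cj (a⁻¹ * y) P), this]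
  obtain ⟨θ, ρ, h3, h4, -⟩ := hq.exists_coord hp hk (by
    rw [← H70.map_cj, ← Subgroup.map_sup]
    have : P.subgroupOf H ⊔ H70.cj k (P.subgroupOf H) = ⊤ := map_injective H.subtype_injective (by
      rw [Subgroup.map_sup, H70.map_cj, hPH, ← MonoidHom.range_eq_map, range_subtype]
      exact congrArg (P ⊔ ·) hkP)
    rw [this]
    exact map_top_of_surjective _ (QuotientGroup.mk'_surjective _)) F hF
  refine ⟨F, inferInstance, inferInstance, hF, ⟨MulEquiv.ofBijective ρ ⟨?_, h3⟩⟩⟩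
  refine (injective_iff_map_eq_one ρ).2 fun γ hγ => hf γ fun x => ?_
  obtain ⟨x, rfl⟩ := θ.surjective x
  rw [h4, hγ, sl2_one_mulVec]

end

/-- Let G be a finite group, V an elementary abelian 2-subgroup of G and M the normalizer of V; write Q for the largest normal 2-subgroup of M. Suppose (1) the generalized Fitting subgroup of M equals Q; (2) V is a maximal abelian normal subgroup of M; (3) every conjugate of V equals V or meets V trivially, and for some g ∈ G the conjugate V' = g V g⁻¹ is different from V and contained in Q. Let P be the centralizer of V in Q, W the subgroup generated by V and V', and H the subgroup generated by P and g P g⁻¹. Then: (a) V is contained in g Q g⁻¹; (b) every non-identity element of W lies in exactly one conjugate of V contained in W, H normalizes W, and H modulo the centralizer of W in H is isomorphic to the special linear group of dimension 2 over the field with |V| elements; (c) P = Q, and V equals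 the Frattini subgroup, the centre and the commutator subgroup of Q. -/
theorem result {G : Type*} [Group G] [Finite G] (V : Subgroup G)
    (hV : Cfsg.IsElementaryAbelian 2 V)
    (h1 : (Cfsg.generalizedFittingSubgroup ↥(Subgroup.normalizer (V : Set G))).map (Subgroup.normalizer (V : Set G)).subtype =
      (Cfsg.pCore 2 ↥(Subgroup.normalizer (V : Set G))).map (Subgroup.normalizer (V : Set G)).subtype)
    (h2 : ∀ A : Subgroup G, V ≤ A → A ≤ Subgroup.normalizer (V : Set G) → IsMulCommutative ↥A →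
      (∀ m ∈ Subgroup.normalizer (V : Set G), ∀ a ∈ A, m * a * m⁻¹ ∈ A) → A = V)
    (hti : ∀ x : G, V.map (MulAut.conj x).toMonoidHom = V ∨ V.map (MulAut.conj x).toMonoidHom ⊓ V = ⊥)
    (g : G) (hg : V.map (MulAut.conj g).toMonoidHom ≠ V)
    (hgQ : V.map (MulAut.conj g).toMonoidHom ≤ (Cfsg.pCore 2 ↥(Subgroup.normalizer (V : Set G))).map (Subgroup.normalizer (V : Set G)).subtype) :
    let Q : Subgroup G := (Cfsg.pCore 2 ↥(Subgroup.normalizer (V : Set G))).map (Subgroup.normalizer (V : Set G)).subtype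
    let P : Subgroup G := Q ⊓ Subgroup.centralizer (V : Set G)
    let W : Subgroup G := V ⊔ V.map (MulAut.conj g).toMonoidHom
    let H : Subgroup G := P ⊔ P.map (MulAut.conj g).toMonoidHom
    V ≤ Q.map (MulAut.conj g).toMonoidHom ∧
      (∀ w ∈ W, w ≠ 1 → ∃! U : Subgroup G, (∃ x : G, U = V.map (MulAut.conj x).toMonoidHom) ∧ U ≤ W ∧ w ∈ U) ∧
      H ≤ Subgroup.normalizer (W : Set G) ∧
      (∀ hN : ((Subgroup.centralizer (W : Set G)).subgroupOf H).Normal, ∃ (F : Type) (_ : Field F) (_ : Fintype F), Fintype.card F = Nat.card ↥V ∧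
        Nonempty (↥H ⧸ (Subgroup.centralizer (W : Set G)).subgroupOf H ≃* Matrix.SpecialLinearGroup (Fin 2) F)) ∧
      P = Q ∧ (frattini ↥Q).map Q.subtype = V ∧ (Subgroup.center ↥Q).map Q.subtype = V ∧ (commutator ↥Q).map Q.subtype = V := by
  haveI : Fact (Nat.Prime 2) := ⟨Nat.prime_two⟩
  intro Q P W H
  have hti' : TIin ⊤ V := tiIn_of fun x _ => hti x
  have hQ : IsPGroup 2 Q := H44.pCoreOf_isPGroup _
  have hQM : Q ≤ normalizer (V : Set G) := map_subtype_le _
  have hQn : normalizer (V : Set G) ≤ normalizer (Q : Set G) := H44.le_normalizer_pCoreOf _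
  have hVQ : V ≤ Q := H44.le_pCoreOf le_normalizer le_rfl (H44.isPGroup_of_ea hV)
  have hmax : ∀ A : Subgroup G, V ≤ A → A ≤ normalizer (V : Set G) →
      (∀ a ∈ A, ∀ b ∈ A, a * b = b * a) →
      (∀ m ∈ normalizer (V : Set G), ∀ a ∈ A, m * a * m⁻¹ ∈ A) → A ≤ V := fun A a1 a2 a3 a4 =>
    (h2 A a1 a2 ⟨⟨fun a b => Subtype.ext (a3 a a.2 b b.2)⟩⟩ a4).le
  have hT : TC V P := tc_of hV hti' hQ hVQ hQM hQn
    (by have := H44.inf_centralizer_FSof_le (normalizer (V : Set G)); rwa [H44.FSof, h1] at this)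
    (fun K k1 k2 k3 => H44.le_pCoreOf k1 k2 k3) hmax
  have hle : cj g V ≤ P := le_inf hgQ fun b hb v hv =>
    ((hti'.cj g).mono le_top).comm_of_card_le (card_cj g V).ge
      (by rw [inf_comm]; exact (hti g).resolve_left hg) (hgQ.trans hQM) hv hb
  obtain ⟨A, h⟩ := exists_tp hT (inf_le_left.trans hQM) hg hle hmax
  have hWP : W ≤ P := sup_le hT.VP hle
  have hPQ : P = Q := by
    obtain ⟨y, hy, hy1, hy'⟩ := H44.exists_not_mem_commutator_mem (U := ⊥) hQ V
      (H44.isPGroup_of_ea hV) hQM (fun e => hg (by rw [le_bot_iff.1 e, Subgroup.map_bot]))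
    refine inf_eq_left.2 fun q hq v hv => ?_
    by_cases hv1 : v = 1
    · rw [hv1, one_mul, mul_one]
    obtain ⟨m, hm, rfl⟩ := h.trans hy (fun e => hy1 (mem_bot.2 e)) hv hv1
    have := comm_iff_el.1 (mem_bot.1 (hy' _ (conj_mem_of_mem_normalizer' (hQn hm) hq)))
    calc m * y * m⁻¹ * q = m * (y * (m⁻¹ * q * m)) * m⁻¹ := by group
      _ = q * (m * y * m⁻¹) := by rw [this]; group
  have hcomm : ⁅Q, Q⁆ = V := by
    rw [← hPQ]
    refine le_antisymm (commutator_le.2 hT.comm) fun v hv => ?_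
    obtain ⟨b, hb, hb1⟩ := h.r.exists_ne_one
    obtain ⟨a, ha, rfl⟩ := h.onto hb hb1 hv
    exact commutator_mem_commutator (hle hb) (h.l.le ha)
  refine ⟨h.le_cj.1.trans (cj_mono inf_le_left), fun w hw hw1 => ?_,
    sup_le (le_normalizer_W hT le_sup_left hWP)
      (le_normalizer_W (hT.cj g) le_sup_right (sup_le h.le_cj.1 (hT.cj g).VP)),
    fun hN => sl2 h hN, hPQ, ?_, ?_, by rw [map_subtype_commutator, hcomm]⟩
  · refine existsUnique_of_exists_of_unique ?_ ?_
    · obtain ⟨v, hv, b, hb, rfl⟩ := (mem_W h).1 hw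
      by_cases hb1 : b = 1
      · exact ⟨V, ⟨1, (cj_one V).symm⟩, le_sup_left, by rw [hb1, mul_one]; exact hv⟩
      obtain ⟨a, ha, e⟩ := h.exists_conj hb hb1 hv
      refine ⟨cj a (cj g V), ⟨a * g, (cj_mul _ _ _).symm⟩, cj_le_of_mem_normalizer
        (le_normalizer_W hT le_sup_left hWP (h.l.le ha)) le_sup_right, ?_⟩
      rw [← e]; exact conj_mem_cj.2 hb
    · rintro _ _ ⟨⟨x, rfl⟩, -, hx⟩ ⟨⟨y, rfl⟩, -, hy⟩
      by_contra hne
      exact hw1 (mem_bot.1 (hti'.inf_eq_bot hne ▸ mem_inf.2 ⟨hx, hy⟩))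
  · refine le_antisymm ((H3.map_frattini_le_iff hQ).2 ⟨hcomm.le, fun x hx => ?_⟩) ?_
    · rw [pow_two]; exact hT.sq x (hPQ.ge hx)
    · exact hcomm.ge.trans ((H3.map_frattini_le_iff hQ).1 le_rfl).1
  · refine le_antisymm ?_ fun v hv => ⟨⟨v, hVQ hv⟩, mem_center_iff.2 fun q =>
      Subtype.ext (hT.cen q (hPQ.ge q.2) v hv), rfl⟩
    rintro _ ⟨x, hx, rfl⟩
    exact hT.center _ (hPQ.ge x.2) fun y hy =>
      congrArg Subtype.val (mem_center_iff.1 hx ⟨y, hPQ.le hy⟩)

end Cfsg.Agent.S1786
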