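import Cfsg.Statements.S1851
import Cfsg.Agent.H69.QT

set_option autoImplicit false
open Cfsg

namespace Cfsg.Agent.S1851

open Subgroup H92 H70 H69.QT in
theorem main {G : Type*} [Group G] [Finite G] (hE : IsOfEvenCharacteristic G) (T : Sylow 2 G)
    {L K : Subgroup G} (hL : L ∈ calLf (T : Subgroup G)) (hK : K ∈ calL (T : Subgroup G))
    (h : L ≤ K) : K ∈ calLf (T : Subgroup G) := by
  obtain ⟨-, l2, l3, -⟩ := calL_data hL.1
  obtain ⟨k1, k2, k3, k4⟩ := calL_data hK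
  have c := isChar_over hE T le_sup_right k4
  refine ⟨hK, ⟨k1, (oddGenerated_eq K).trans k2, mem_calHe.2 (c.of_subn k3)⟩, fun e => hL.2.2 ?_⟩
  change ⁅omegaOneCenter 2 (pCoreOf 2 K), K⁆ = ⊥ at e
  change ⁅omegaOneCenter 2 (pCoreOf 2 L), L⁆ = ⊥
  have nL : pCoreOf 2 (L ⊔ T) ≤ normalizer (L : Set G) := by
    simpa only [l2] using l3.pCoreOf_le_norm_pRes (p := 2)
  have nK : pCoreOf 2 (K ⊔ T) ≤ normalizer (K : Set G) := by
    simpa only [k2] using k3.pCoreOf_le_norm_pRes (p := 2)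
  have pV := IsElementaryAbelian_isPGroup (oz_isElem (p := 2) (pCoreOf 2 L))
  have pY := IsElementaryAbelian_isPGroup (oz_isElem (p := 2) (pCoreOf 2 (K ⊔ T)))
  have LK : L ⊔ T ≤ K ⊔ T := sup_le_sup_right h _
  refine comm_eq_bot_iff'.2 (l2.ge.trans (pRes_le_cent_of_PxQ pV (pCoreOf_isPGroup (L ⊔ T))
    (norm_oz (norm_pCoreOf nL)) (norm_oz (le_norm_pCoreOf L)) ?_ ?_))
  · refine le_trans ?_ (le_cent_oz _)
    rw [l3.pCoreOf_eq]
    exact le_inf (commutator_le_left_of_norm (le_sup_left.trans (le_norm_pCoreOf _)))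
      (commutator_le_right_of_norm nL)
  have a : pCoreOf 2 (K ⊔ T) ≤ pCoreOf 2 (L ⊔ T) := pCoreOf_le_of_le LK
    ((pCoreOf_le_sylIn (sylIn_of_le T le_sup_right)).trans le_sup_right)
  have b := (inf_le_right.trans (cent_anti a) : omegaOneCenter 2 (pCoreOf 2 L) ⊓ _ ≤ _)
  have nY : K ≤ normalizer (omegaOneCenter 2 (pCoreOf 2 (K ⊔ T)) : Set G) :=
    norm_oz (le_sup_left.trans (le_norm_pCoreOf _))
  have d := commutator_le_left_of_norm nY
  refine (le_oz (IsElem_of_le (oz_isElem _) inf_le_left) ((le_inf (inf_le_left.trans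
    ((oz_le _).trans ((pCoreOf_le L).trans (h.trans le_sup_left)))) b).trans c) b).trans
    ((comm_eq_bot_iff.1 ?_).trans (cent_anti h))
  rw [← comm_comm_eq_of_pRes_eq k2 (pY.to_le d) nY, eq_bot_iff, ← e]
  refine commutator_mono (le_oz (IsElem_of_le (oz_isElem _) d) ?_
    (d.trans ((oz_le_cent _).trans (cent_anti k3.pCoreOf_le)))) le_rfl
  rw [k3.pCoreOf_eq]
  exact le_inf (d.trans (oz_le _)) (commutator_le_right_of_norm ((oz_le _).trans nK))

/-- Let G be a non-abelian finite simple QTKE-group and T a Sylow 2-subgroup of G, and let L be a member of ℒ_f(G, T) (a member of ℒ(G, T) that lies in 𝒳 — L ≠ 1, L = O²(L), F*(L) = O₂(L) — and acts nontrivially on Ω₁(Z(O₂(L)))). Then (1) every member K of ℒ(G, T) containing L is again in ℒ_f(G, T) (a sharper form of (1) also compares the modules [Ω₁(Z(R)), L] and [Ω₁(Z(R')), K] for suitable 2-subgroups R, R'; that comparison is not included); and (2) if L is maximal under inclusion among the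 members of ℒ_f(G, T), then L is a maximal member of ℒ(G, T), hence a member of ℒ_f*(G, T). -/
theorem result {G : Type*} [Group G] [Finite G] [IsSimpleGroup G]
    (hG : ¬ IsMulCommutative G) (hQ : Cfsg.IsQTKE G) (T : Sylow 2 G) (L : Subgroup G)
    (hL : L ∈ Cfsg.calLf (T : Subgroup G)) :
    (∀ K ∈ Cfsg.calL (T : Subgroup G), L ≤ K → K ∈ Cfsg.calLf (T : Subgroup G)) ∧
    ((∀ K ∈ Cfsg.calLf (T : Subgroup G), L ≤ K → K = L) → L ∈ Cfsg.calLfMax (T : Subgroup G)) := by
  exact ⟨fun K hK h => main hQ.2.2 T hL hK h,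
    fun h => ⟨⟨hL.1, fun K hK e => h K (main hQ.2.2 T hL hK e) e⟩, hL.2⟩⟩

end Cfsg.Agent.S1851
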