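import Cfsg.Statements.S1957
import Cfsg.Agent.H61.Comm
import Cfsg.Agent.H72.Core
import Cfsg.Agent.H50.PGroup
import Cfsg.Agent.H45.Basic
import Cfsg.Agent.H8.StrongEmb

set_option autoImplicit false
open Cfsg

namespace Cfsg.Agent.S1957

open Subgroup H72
open scoped commutatorElement

theorem eq_of_mem_zpowers {G : Type*} [Group G] {u x : G} (hu : u * u = 1) (hx : x ∈ zpowers u) :
    x = 1 ∨ x = u := by
  obtain ⟨k, rfl⟩ := mem_zpowers_iff.1 hx
  have h2 : u ^ (2 : ℤ) = 1 := by rw [zpow_two, hu]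
  rcases Int.even_or_odd' k with ⟨m, rfl | rfl⟩
  · left; rw [zpow_mul, h2, one_zpow]
  · right; rw [zpow_add, zpow_mul, h2, one_zpow, one_mul, zpow_one]

theorem index_two_commutator {G : Type*} [Group G] {T S : Subgroup G} (hTS : T ≤ S)
    (h2 : ∀ a ∈ S, ∀ b ∈ S, a ∉ T → b ∉ T → a * b ∈ T) {v s : G} (hv : v ∈ T)
    (hvT : v ∈ centralizer (T : Set G)) (hvv : v * v = 1) (hs : s ∈ S) :
    ⁅v, s⁆ ∈ centralizer (S : Set G) ∧ ⁅v, s⁆ * ⁅v, s⁆ = 1 := by
  by_cases hsT : s ∈ T
  · rw [commutatorElement_eq_one_iff_mul_comm.2 (hvT s hsT).symm]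
    exact ⟨one_mem _, one_mul _⟩
  have hn : ∀ a ∈ S, a ∉ T → ∀ t ∈ T, a * t * a⁻¹ ∈ T := fun a ha haT t ht =>
    h2 _ (mul_mem ha (hTS ht)) _ (inv_mem ha) (by rwa [mul_mem_cancel_right ht])
      (by rwa [inv_mem_iff])
  have hv' : v⁻¹ = v := inv_eq_of_mul_eq_one_right hvv
  have h3 : s * v * s⁻¹ ∈ centralizer (T : Set G) := fun t ht => by
    have := hvT _ (hn _ (inv_mem hs) (by rwa [inv_mem_iff]) t ht)
    calc t * (s * v * s⁻¹) = s * (s⁻¹ * t * s⁻¹⁻¹ * v) * s⁻¹ := by group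
      _ = s * v * s⁻¹ * t := by rw [this]; group
  have h4 : ⁅v, s⁆ = v * (s * v * s⁻¹) := by rw [commutatorElement_def, hv']; group
  have h5 : s * v * s⁻¹ * v = v * (s * v * s⁻¹) := (h3 v hv).symm
  have h6 : s * ⁅v, s⁆ = ⁅v, s⁆ * s := by
    have := hvT _ (h2 s hs s hs hsT hsT)
    rw [h4]
    calc s * (v * (s * v * s⁻¹)) = s * v * s⁻¹ * (s * s * v) * s⁻¹ := by group
      _ = s * v * s⁻¹ * v * s := by rw [this]; group
      _ = _ := by rw [h5]
  refine ⟨fun g hg => ?_, ?_⟩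
  · have h7 : ∀ t ∈ T, t * ⁅v, s⁆ = ⁅v, s⁆ * t := fun t ht => by
      rw [h4]; exact mul_mem hvT h3 t ht
    by_cases hgT : g ∈ T
    · exact h7 g hgT
    · have := h7 _ (h2 g hg _ (inv_mem hs) hgT (by rwa [inv_mem_iff]))
      calc g * ⁅v, s⁆ = g * s⁻¹ * (s * ⁅v, s⁆) := by group
        _ = g * s⁻¹ * ⁅v, s⁆ * s := by rw [h6]; group
        _ = ⁅v, s⁆ * g := by rw [this]; group
  · rw [h4]
    calc v * (s * v * s⁻¹) * (v * (s * v * s⁻¹)) = v * (s * v * s⁻¹ * v) * (s * v * s⁻¹) := by group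
      _ = (v * v) * s * (v * v) * s⁻¹ := by rw [h5]; group
      _ = 1 := by rw [hvv]; group

/-- Let `G` be a finite non-abelian simple group in which every local subgroup is solvable and which is of characteristic 2 type. Let `P` be a Sylow 2-subgroup of `G` and `U` a normal subgroup of `P` that is a four-group, with `U` central in `P` if the centre of `P` is not cyclic. Then `U` centralizes every subgroup of odd order of `G` that it normalizes. -/
theorem result {G : Type*} [Group G] [Finite G]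
    [IsSimpleGroup G] (hna : ¬ IsMulCommutative G) (hN : Cfsg.IsNGroup G) (h2 : Cfsg.IsCharacteristicTwoType G)
    (P : Sylow 2 G) (U : Subgroup G) (hUP : U ≤ (P : Subgroup G)) (hUn : (P : Subgroup G) ≤ Subgroup.normalizer (U : Set G))
    (hU4 : IsKleinFour ↥U)
    (hUZ : ¬ IsCyclic ↥((P : Subgroup G) ⊓ Subgroup.centralizer ((P : Subgroup G) : Set G)) →
      U ≤ Subgroup.centralizer ((P : Subgroup G) : Set G))
    (K : Subgroup G) (hK : Odd (Nat.card K)) (hUK : U ≤ Subgroup.normalizer (K : Set G)) :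
    U ≤ Subgroup.centralizer (K : Set G) := by
  have hUp : IsPGroup 2 U := P.isPGroup'.to_le hUP
  have hsq : ∀ e ∈ U, e * e = 1 := fun e he => congrArg Subtype.val (IsKleinFour.mul_self (⟨e, he⟩ : U))
  have hUc : U ≤ centralizer (U : Set G) :=
    le_centralizer_iff_isMulCommutative.2 IsKleinFour.isMulCommutative
  rw [le_centralizer_iff]
  refine H45.le_of_elements Nat.prime_two (B := U)
    ⟨IsKleinFour.isMulCommutative, fun a ha => by rw [sq, hsq a ha]⟩ hU4.card_four.ge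
    ((H49.isPi_compl_singleton Nat.prime_two).2 hK.not_two_dvd_nat) hUK fun u hu hu1 => ?_
  have hu2 : orderOf u = 2 := orderOf_eq_prime (by rw [sq, hsq u hu]) hu1
  set H := normalizer (zpowers u : Set G) with hH
  have hHc : ∀ g ∈ H, g * u = u * g := fun g hg => by
    rcases eq_of_mem_zpowers (hsq u hu) ((mem_normalizer_iff.1 hg u).1 (mem_zpowers u)) with h | h
    · exact absurd (by simpa using h) hu1
    · exact mul_inv_eq_iff_eq_mul.1 h
  have hcH : centralizer ({u} : Set G) ≤ H := by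
    rw [← centralizer_zpowers]; exact centralizer_le_normalizer _
  have hzp : IsPGroup 2 (zpowers u) := hUp.to_le (zpowers_le.2 hu)
  have hchar : CharPIn 2 H := (charPIn_iff H).2 (h2.2 _ hzp (by rwa [Ne, zpowers_eq_bot]))
  have hT : (P : Subgroup G) ⊓ centralizer (U : Set G) ≤ H :=
    inf_le_right.trans ((centralizer_le (Set.singleton_subset_iff.2 hu)).trans hcH)
  set T := (P : Subgroup G) ⊓ centralizer (U : Set G) with hTdef
  obtain ⟨S, hS, hTS⟩ := exists_isSylowIn_ge (P.isPGroup'.to_inf_left : IsPGroup 2 T) hT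
  have hUT : U ≤ T := le_inf hUP hUc
  have key : ∀ v ∈ U, ∀ s ∈ S, ⁅v, s⁆ ∈ zpowers u := by
    intro v hv s hs
    by_cases hsT : s ∈ T
    · rw [commutatorElement_eq_one_iff_mul_comm.2 (hsT.2 v hv)]; exact one_mem _
    have hcS : Nat.card S ≤ Nat.card P := (isSylowIn_top P).card_le hS.isPGroup le_top
    have h1 : T.relIndex P ≤ 2 := by
      rw [hTdef, inf_comm, inf_relIndex_right]
      exact H50.relIndex_cent_le_of_p2 P.isPGroup' hUp hUn hU4.card_four.le
    have h3 : Nat.card T * T.relIndex P = Nat.card P := H49.card_mul_relIndex inf_le_left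
    have h4 : Nat.card T * T.relIndex S = Nat.card S := H49.card_mul_relIndex hTS
    have h5 : T.relIndex S ≠ 1 := fun h => hsT (relIndex_eq_one.1 h hs)
    have h6 : T.relIndex S ≠ 0 := index_ne_zero_of_finite
    have h7 : 0 < Nat.card T := Nat.card_pos
    have h8 : T.relIndex S ≤ T.relIndex P := Nat.le_of_mul_le_mul_left (by omega) h7
    have h9 : T.relIndex S = 2 := by omega
    have h10 : T.relIndex P = 2 := by omega
    have hS' : IsSylowIn 2 S ⊤ := (isSylowIn_top P).of_card_le hS.isPGroup le_top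
      (by rw [← h3, ← h4, h9, h10])
    obtain ⟨g, -, hg⟩ := (isSylowIn_top P).exists_cj_eq hS'
    have hcyc : IsCyclic ↥(S ⊓ centralizer (S : Set G)) := by
      rw [← hg, ← cj_centralizer, ← cj_inf]
      refine H49.isCyclic_cj.2 ?_
      by_contra hc
      have := le_centralizer_iff.1 (hUZ hc)
      rw [relIndex_eq_one.2 (le_inf le_rfl this)] at h10
      omega
    obtain ⟨h11, h12⟩ := index_two_commutator hTS (fun a ha b hb haT hbT =>
      ((mul_mem_iff_of_index_two h9 (a := ⟨a, ha⟩) (b := ⟨b, hb⟩)).2 (iff_of_false haT hbT) :))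
      (hUT hv) (le_centralizer_iff.1 inf_le_right hv) (hsq v hv) hs
    by_cases h13 : ⁅v, s⁆ = 1
    · rw [h13]; exact one_mem _
    have hvS : v ∈ S := hTS (hUT hv)
    rw [H8.involution_unique_of_isCyclic hcyc (a := ⁅v, s⁆)
      (mem_inf.2 ⟨mul_mem (mul_mem (mul_mem hvS hs) (inv_mem hvS)) (inv_mem hs), h11⟩)
      (mem_inf.2 ⟨hTS (hUT hu), fun g hg => hHc g (hS.le hg)⟩)
      (orderOf_eq_prime (by rw [sq, h12]) h13) hu2]
    exact mem_zpowers u
  rintro k ⟨hk, hku⟩ v hv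
  have hkH : k ∈ H := hcH hku
  have hvH : v ∈ H := hT (hUT hv)
  have hv' : v ∈ H61.commInto (pCoreOf 2 H) (zpowers u) :=
    ⟨hvH, fun q hq => key v hv q (hS.pCoreOf_le hq)⟩
  have hv'' : k * v⁻¹ * k⁻¹ ∈ H61.commInto (pCoreOf 2 H) (zpowers u) := by
    refine ⟨mul_mem (mul_mem hkH (inv_mem hvH)) (inv_mem hkH), fun q hq => ?_⟩
    have := conj_mem_of_mem_normalizer hkH ((inv_mem hv').2 _
      (conj_mem_of_mem_normalizer' (le_normalizer_pCoreOf H hkH) hq))
    rwa [show k * ⁅v⁻¹, k⁻¹ * q * k⁆ * k⁻¹ = ⁅k * v⁻¹ * k⁻¹, q⁆ by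
      simp only [commutatorElement_def]; group] at this
  have hw := mul_mem hv' hv''
  have hwK : v * (k * v⁻¹ * k⁻¹) ∈ K := by
    rw [← mul_assoc, ← mul_assoc]
    exact mul_mem (conj_mem_of_mem_normalizer (hUK hv) hk) (inv_mem hk)
  have hwo : (orderOf (v * (k * v⁻¹ * k⁻¹))).Coprime 2 :=
    Nat.Coprime.of_dvd_left (K.orderOf_dvd_natCard hwK) (Nat.coprime_two_right.2 hK)
  have h1 : v * (k * v⁻¹ * k⁻¹) = 1 := by
    refine hchar.eq_one hw.1 (fun q hq => ?_) hwo
    refine (commute_of_commutator_mem hzp hwo ?_ ?_).eq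
    · rw [centralizer_zpowers]
      exact mem_centralizer_singleton_iff.2 (hHc _ hw.1)
    · rw [← commutatorElement_inv]
      exact inv_mem (hw.2 q hq)
  calc v * k = v * (k * v⁻¹ * k⁻¹) * (k * v) := by group
    _ = k * v := by rw [h1, one_mul]

end Cfsg.Agent.S1957
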