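import Cfsg.Statements.S1958
import Cfsg.Agent.H45.Basic
import Cfsg.Agent.H48.Coprime

set_option autoImplicit false
open Cfsg

namespace Cfsg.Agent.S1958

open Cfsg.Agent.H49 Subgroup

theorem half {G : Type*} [Group G] [Finite G]
    (p : ℕ) [hp : Fact p.Prime] (a b : G) (ha : orderOf a = p) (hab : a * b = b * a)
    (hb : Group.IsSolvable ↥(Subgroup.centralizer ({b} : Set G))) :
    Cfsg.centralizerPPrimeCore p a ⊓ Subgroup.centralizer {b} ≤ Cfsg.centralizerPPrimeCore p b := by
  have e : ∀ a : G, Cfsg.centralizerPPrimeCore p a = piCoreOf {p}ᶜ 𝒞[a] := fun a =>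
    pPrimeCore_map_subtype hp.out _
  simp only [e]
  have hz : zpowers a ≤ 𝒞[b] := zpowers_le.2 (mem_centralizer_singleton_iff.2 hab)
  have h := H48.pcore_cent_le hp.out hb hz (IsPGroup.of_card (n := 1) (by simp [ha]))
  refine le_trans ?_ h
  rw [cent_zpowers]
  refine le_piCoreOf (le_inf inf_le_right (inf_le_left.trans (piCoreOf_le _ _)))
    ?_ ((piCoreOf_pi _ _).inf_left _)
  exact norm_inf (inf_le_right.trans (le_norm_piCoreOf _ _)) (norm_of_le inf_le_left)

/-- Let `G` be a finite group, `p` a prime, and `x, y` commuting elements of order `p` whose centralizers `C_G(x)` and `C_G(y)` are both solvable. Then `O_{p'}(C_G(x)) ∩ C_G(y) = O_{p'}(C_G(y)) ∩ C_G(x)` (balance). -/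
theorem result {G : Type*} [Group G] [Finite G]
    (p : ℕ) [Fact p.Prime] (x y : G) (hx : orderOf x = p) (hy : orderOf y = p) (hxy : x * y = y * x)
    (hCx : Group.IsSolvable ↥(Subgroup.centralizer ({x} : Set G))) (hCy : Group.IsSolvable ↥(Subgroup.centralizer ({y} : Set G))) :
    Cfsg.centralizerPPrimeCore p x ⊓ Subgroup.centralizer {y} = Cfsg.centralizerPPrimeCore p y ⊓ Subgroup.centralizer {x} := by
  exact le_antisymm
    (le_inf (half p x y hx hxy hCy) (inf_le_left.trans (Subgroup.map_subtype_le _)))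
    (le_inf (half p y x hy hxy.symm hCx) (inf_le_left.trans (Subgroup.map_subtype_le _)))

end Cfsg.Agent.S1958
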