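import Cfsg.Statements.S1979
import Cfsg.Agent.H61.KMap

set_option autoImplicit false
open Cfsg

namespace Cfsg.Agent.S1979

/-- Let P be a finite p-group and Q a subgroup of P containing every term of the K-sequence of P of nonnegative index (every even-indexed term and every odd-indexed term after the initial term P). Then the K-infinity subgroups of Q, computed in Q and viewed in P, equal those of P. -/
theorem result {P : Type*} [Group P] [Finite P] {p : ℕ} [Fact p.Prime] (hP : IsPGroup p P) (Q : Subgroup P) (hQ : ∀ n : ℕ, Cfsg.kSeqEven P n ≤ Q ∧ Cfsg.kSeqOdd P (n + 1) ≤ Q) : (Cfsg.kInfLower ↥Q).map Q.subtype = Cfsg.kInfLower P ∧ (Cfsg.kInfUpper ↥Q).map Q.subtype = Cfsg.kInfUpper P := by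
  have h := H61.kInf_eq_of_le (S := (⊤ : Subgroup P)) (T := Q) le_top (fun n => by
    rw [H61.kEvenIn_top, H61.kOddIn_top]; exact hQ n)
  rw [H61.map_kInfLower Q.subtype_injective, H61.map_kInfUpper Q.subtype_injective,
    Subgroup.range_subtype, h.1, h.2]
  exact ⟨iSup_congr H61.kEvenIn_top, iInf_congr H61.kOddIn_top⟩

end Cfsg.Agent.S1979
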