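import Cfsg.Statements.S1990
import Cfsg.Agent.H62.NPC
import Cfsg.Agent.H62.FCOne
import Cfsg.Agent.H21.PStab2

set_option autoImplicit false
universe u
open Cfsg

namespace Cfsg.Agent.S1990

open Subgroup Cfsg.Agent.H62 Cfsg.Agent.H72 Cfsg.Agent.H61
open scoped Cfsg.Agent.H49

theorem comm_of_involves {X Y : Type*} [Group X] [Group Y] [Finite X] {q : ℕ} [Fact q.Prime]
    (h : ∀ T : Sylow q X, IsMulCommutative T) (hY : Involves Y X) (T : Sylow q Y) :
    IsMulCommutative T := by
  obtain ⟨K, f, hf⟩ := H94.involves_iff.1 hY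
  obtain ⟨R, rfl⟩ := Sylow.mapSurjective_surjective hf q T
  obtain ⟨T, hT⟩ := (R.2.map K.subtype).exists_le_sylow
  refine H49.abelian_iff.2 ?_
  rintro _ ⟨a, ha, rfl⟩ _ ⟨b, hb, rfl⟩
  rw [← map_mul, ← map_mul]
  congr 1
  exact Subtype.ext (H49.abelian_iff.1 (h T) (hT ⟨a, ha, rfl⟩) _ (hT ⟨b, hb, rfl⟩))

theorem stable_of_comm {X : Type*} [Group X] [Finite X] {p : ℕ} [Fact p.Prime] (hp : p ≠ 2)
    (h : ∀ T : Sylow 2 X, IsMulCommutative T) : IsNormalizerPStable p X := by
  intro Q hQ g hg hq
  obtain ⟨T⟩ : Nonempty (Sylow 2 (𝒩(Q))) := inferInstance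
  exact H21.mem_pCore_automizer (H21.quadStable_of_sylow_two_comm hp
    (comm_of_involves h (inv_sub _) T)) hQ (a := ⟨g, hg⟩) hq

theorem normal_of_csf {X : Type*} [Group X] [Finite X] {p : ℕ} [Fact p.Prime] (hc : Constr p X)
    (S : Sylow p X) {U : Subgroup X} (hU : (S : Subgroup X) ≤ 𝒩(U))
    (h : ControlsStrongFusion p U) : U.Normal := by
  obtain ⟨T, -, h⟩ := same_of_csf h
  rw [normal_iff_norm_eq_top, eq_top_iff]
  intro g _
  obtain ⟨x, hx, hx'⟩ := h (pCore p X) (H22.pCore_le_sylow T) g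
    (by rw [cj_eq_of_normal]; exact H22.pCore_le_sylow T)
  have := mul_mem hx (hU (H22.pCore_le_sylow S (hc (same_iff.1 hx'))))
  rwa [mul_inv_cancel_left] at this


/-- Let p be an odd prime, G a finite group with Sylow p-subgroup S, and W an isomorphism-invariant p-group functor (W assigns to every group Q a subgroup W(Q), nontrivial whenever Q is a nontrivial finite p-group, and every isomorphism from a finite p-group Q onto a group R carries W(Q) onto W(R)). Suppose N_G(W(S)) has a normal p-complement, and W(T) controls strong fusion in every section G* = K/R of G all of whose sections are p-stable in the normalizer form, for every Sylow p-subgroup T of G*. Then G has a normal p-complement. -/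
theorem result {G : Type u} [Group G] [Finite G] {p : ℕ} [Fact p.Prime] (hp : p ≠ 2) (W : ∀ (Q : Type u) [Group Q], Subgroup Q) (hW : Cfsg.IsCharPFunctor.{u} p W) (S : Sylow p G) (hN : Cfsg.HasNormalPComplement p ↥(Subgroup.normalizer ((Cfsg.inducedFunctor (G := G) W (S : Subgroup G) : Subgroup G) : Set G))) (hctl : ∀ (K R : Subgroup G) [hR : (R.subgroupOf K).Normal], (∀ (K' R' : Subgroup (↥K ⧸ R.subgroupOf K)) [hR' : (R'.subgroupOf K').Normal], Cfsg.IsNormalizerPStable p (↥K' ⧸ R'.subgroupOf K')) → ∀ T : Sylow p (↥K ⧸ R.subgroupOf K), Cfsg.ControlsStrongFusion p (Cfsg.inducedFunctor (G := (↥K ⧸ R.subgroupOf K)) W (T : Subgroup (↥K ⧸ R.subgroupOf K)))) : Cfsg.HasNormalPComplement p G := by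
  have key := sec_transfer (G := G) (P := fun X _ =>
    (∀ (Y : Type u) [Group Y], Involves Y X → IsNormalizerPStable p Y) → HypNormal p W X)
    (fun X Y _ _ _ e h hs => (h fun Z _ hZ => hs Z (inv_trans hZ (inv_equiv e.symm))).equiv hW e)
    (fun K R _ hs hc T => normal_of_csf hc T (le_norm_ind hW T.2)
      (hctl K R (fun K' R' _ => hs _ (inv_sec K' R')) T))
  refine npc_of_minConfig hW (fun X _ _ P L hX hm _ => key X hX (fun Y _ hY => ?_) hm.cent P) S hN
  have := inv_finite hY
  exact stable_of_comm hp (comm_of_involves (hm.sylow_isMulCommutative hp.symm) hY)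

end Cfsg.Agent.S1990
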