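import Cfsg.Statements.S2005
import Cfsg.Agent.H62.NPC
import Cfsg.Agent.H62.TCOne

set_option autoImplicit false
universe u
open Cfsg

namespace Cfsg.Agent.S2005

open Subgroup Cfsg.Agent.H62

/-- Thompson's normal p-complement criterion in functor form. Let p be a prime, G a finite group with Sylow p-subgroup S, and W an isomorphism-invariant p-group functor (W assigns to every group Q a subgroup W(Q), nontrivial whenever Q is a nontrivial finite p-group, and every isomorphism from a finite p-group Q onto a group R carries W(Q) onto W(R)). Suppose N_G(W(S)) has a normal p-complement, and that W(S*) is normal in G* whenever G* = K/R is a section of G with C_{G*}(O_p(G*)) ≤ O_p(G*) such that G*/O_p(G*) has a normal p-complement, and S* is a Sylow p-subgroup of G* that is a maximal subgroup of G*. Then G has a normal p-complement. -/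
theorem result {G : Type u} [Group G] [Finite G] {p : ℕ} [Fact p.Prime] (W : ∀ (Q : Type u) [Group Q], Subgroup Q) (hW : Cfsg.IsCharPFunctor.{u} p W) (S : Sylow p G) (hN : Cfsg.HasNormalPComplement p ↥(Subgroup.normalizer ((Cfsg.inducedFunctor (G := G) W (S : Subgroup G) : Subgroup G) : Set G))) (hloc : ∀ (K R : Subgroup G) [hR : (R.subgroupOf K).Normal], Subgroup.centralizer ((Cfsg.pCore p (↥K ⧸ R.subgroupOf K) : Subgroup (↥K ⧸ R.subgroupOf K)) : Set (↥K ⧸ R.subgroupOf K)) ≤ Cfsg.pCore p (↥K ⧸ R.subgroupOf K) → Cfsg.HasNormalPComplement p ((↥K ⧸ R.subgroupOf K) ⧸ Cfsg.pCore p (↥K ⧸ R.subgroupOf K)) → ∀ T : Sylow p (↥K ⧸ R.subgroupOf K), IsCoatom (T : Subgroup (↥K ⧸ R.subgroupOf K)) → (Cfsg.inducedFunctor (G := (↥K ⧸ R.subgroupOf K)) W ((T : Subgroup (↥K ⧸ R.subgroupOf K)))).Normal) : Cfsg.HasNormalPComplement p G := by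
  have key := sec_transfer (G := G) (P := fun X _ => Constr p X →
    HasNormalPComplement p (X ⧸ pCore p X) → ∀ T : Sylow p X, IsCoatom (T : Subgroup X) →
      (inducedFunctor W (T : Subgroup X)).Normal) (fun X Y _ _ _ e h hc hq T hT => by
        obtain ⟨S, hS⟩ := exists_sylow_map_equiv e T
        rw [← hS, ind_map_inj hW _ e.injective S.2, normal_map_equiv_iff]
        refine h (hc.equiv e.symm) ((H3.hasNormalPComplement_congr
          (QuotientGroup.congr _ _ e (H22.map_pCore_equiv e))).2 hq) S ?_
        rw [← hS] at hT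
        exact (e.mapSubgroup.isCoatom_iff _).1 hT) (fun K R _ => hloc K R)
  exact npc_of_minConfig hW (fun X _ _ P L hX hm hP =>
    key X hX hm.cent (minConfig_npc_quot hm) P (minConfig_isCoatom hm hP)) S hN

end Cfsg.Agent.S2005
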