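import Cfsg.Statements.S2006
import Cfsg.Agent.H62.NPC2
import Cfsg.Agent.H62.TCOne

set_option autoImplicit false
universe u
open Cfsg

namespace Cfsg.Agent.S2006

open Subgroup Cfsg.Agent.H62

/-- Let p be a prime, G a finite group with Sylow p-subgroup S, and W an isomorphism-invariant p-group functor (W assigns to every group Q a subgroup W(Q), nontrivial whenever Q is a nontrivial finite p-group, and every isomorphism from a finite p-group Q onto a group R carries W(Q) onto W(R)). Suppose N_G(W(S)) has a normal p-complement, and that whenever G* = K/R is a section of G with C_{G*}(O_p(G*)) ≤ O_p(G*) and S* is a Sylow p-subgroup of G* with W(S*) not normal in G*, there are an element g of S* outside O_p(G*) and a chief factor X/Y of G* with X ≤ O_p(G*) such that [X, g, …, g] ≤ Y with p − 1 entries g but [X, g] ≰ Y. Then G has a normal p-complement. -/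
theorem result {G : Type u} [Group G] [Finite G] {p : ℕ} [Fact p.Prime] (W : ∀ (Q : Type u) [Group Q], Subgroup Q) (hW : Cfsg.IsCharPFunctor.{u} p W) (S : Sylow p G) (hN : Cfsg.HasNormalPComplement p ↥(Subgroup.normalizer ((Cfsg.inducedFunctor (G := G) W (S : Subgroup G) : Subgroup G) : Set G))) (hloc : ∀ (K R : Subgroup G) [hR : (R.subgroupOf K).Normal], Subgroup.centralizer ((Cfsg.pCore p (↥K ⧸ R.subgroupOf K) : Subgroup (↥K ⧸ R.subgroupOf K)) : Set (↥K ⧸ R.subgroupOf K)) ≤ Cfsg.pCore p (↥K ⧸ R.subgroupOf K) → ∀ T : Sylow p (↥K ⧸ R.subgroupOf K), ¬ (Cfsg.inducedFunctor (G := (↥K ⧸ R.subgroupOf K)) W ((T : Subgroup (↥K ⧸ R.subgroupOf K)))).Normal → ∃ g : (↥K ⧸ R.subgroupOf K), g ∈ (T : Subgroup (↥K ⧸ R.subgroupOf K)) ∧ g ∉ Cfsg.pCore p (↥K ⧸ R.subgroupOf K) ∧ ∃ U V : Subgroup (↥K ⧸ R.subgroupOf K), Cfsg.IsChiefFactor U V ∧ U ≤ Cfsg.pCore p (↥K ⧸ R.subgroupOf K) ∧ Cfsg.iterCommutator U (Subgroup.zpowers g) (p - 1) ≤ V ∧ ¬ ⁅U, Subgroup.zpowers g⁆ ≤ V)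 : Cfsg.HasNormalPComplement p G := by
  have key := sec_transfer (G := G) (P := fun X _ => Constr p X →
    ∀ T : Sylow p X, ¬ (inducedFunctor W (T : Subgroup X)).Normal →
      ∃ g : X, g ∈ (T : Subgroup X) ∧ ∃ U V : Subgroup X, IsChiefFactor U V ∧ U ≤ pCore p X ∧
        iterCommutator U (zpowers g) (p - 1) ≤ V ∧ ¬ ⁅U, zpowers g⁆ ≤ V)
    (fun X Y _ _ _ e h hc T hT => by
      obtain ⟨S, hS⟩ := exists_sylow_map_equiv e T
      rw [← hS, ind_map_inj hW _ e.injective S.2, normal_map_equiv_iff] at hT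
      obtain ⟨g, hg, U, V, hUV, hU, h1, h2⟩ := h (hc.equiv e.symm) S hT
      refine ⟨e g, hS ▸ ⟨g, hg, rfl⟩, U.map e.toMonoidHom, V.map e.toMonoidHom,
        chief_map_equiv e hUV, H22.map_pCore_equiv (p := p) e ▸ map_mono hU, ?_, fun h3 => h2 ?_⟩
      · have := map_mono (f := e.toMonoidHom) h1
        rwa [iterC_map, MonoidHom.map_zpowers] at this
      · rw [← map_le_map_iff_of_injective (f := e.toMonoidHom) e.injective, map_commutator,
          MonoidHom.map_zpowers]
        exact h3)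
    (fun K R _ hc T hT => by
      obtain ⟨g, h1, -, h2⟩ := hloc K R hc T hT
      exact ⟨g, h1, h2⟩)
  refine npc_of_minConfig hW (fun X _ _ P L hX hm _ => ?_) S hN
  by_contra hn
  obtain ⟨g, hg, U, V, hUV, hU, h1, h2⟩ := key X hX hm.cent P hn
  exact h2 (comm_le_of_minConfig hm hUV hU hg h1)

end Cfsg.Agent.S2006
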