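import Cfsg.Statements.S2009
import Mathlib.GroupTheory.FixedPointFree
import Mathlib.Data.Set.Card

set_option autoImplicit false
open Cfsg

namespace Cfsg.Agent.S2009

theorem exists_third {H : Type*} [Group H] (E : Subgroup H) (hE : IsKleinFour ↥E) (z : H) :
    ∃ e ∈ E, e ≠ 1 ∧ e ≠ z := by
  by_contra hc
  push Not at hc
  have h1 : (E : Set H) ⊆ {1, z} := fun e he => by
    by_cases h : e = 1
    · exact Or.inl h
    · exact Or.inr (hc e he h)
  have h2 := Set.ncard_le_ncard h1 (Set.toFinite _)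
  have h3 : (E : Set H).ncard = 4 := hE.card_four
  have h4 := Set.ncard_insert_le (1 : H) {z}
  rw [Set.ncard_singleton] at h4
  omega

theorem inverts {H : Type*} [Group H] [Finite H] (N : Subgroup H) [N.Normal] {e : H} (he : e * e = 1)
    (h : ∀ x ∈ N, e * x * e⁻¹ = x → x = 1) {x : H} (hx : x ∈ N) : e * x * e⁻¹ = x⁻¹ := by
  have h1 : MonoidHom.FixedPointFree (MulAut.conjNormal e : MulAut N) :=
    fun g hg => Subtype.ext (h g g.2 (congrArg Subtype.val hg))
  have h2 : Function.Involutive (MulAut.conjNormal e : MulAut N) := fun g => by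
    rw [← MulAut.mul_apply, ← map_mul, he, map_one, MulAut.one_apply]
  exact congrArg Subtype.val (congrFun (h1.coe_eq_inv_of_involutive h2) ⟨x, hx⟩)

/-- Let H be a finite group and z an involution such that every proper normal subgroup of H meets the centralizer of z trivially, and suppose z lies in a Klein four-subgroup E of H all three of whose involutions are conjugate to z in H. Then H is simple. -/
theorem result {H : Type*} [Group H] [Finite H] (z : H) (hz : orderOf z = 2) (hN : ∀ N : Subgroup H, N.Normal → N ≠ ⊤ → N ⊓ Subgroup.centralizer ({z} : Set H) = ⊥) (E : Subgroup H) (hE : IsKleinFour ↥E) (hzE : z ∈ E) (hc : ∀ e ∈ E, e ≠ 1 → IsConj z e) : IsSimpleGroup H := by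
  have hz1 : z ≠ 1 := fun h => by simp [h] at hz
  have : Nontrivial H := ⟨z, 1, hz1⟩
  refine ⟨fun N hNn => ?_⟩
  by_cases hT : N = ⊤
  · exact Or.inr hT
  left
  have hfree : ∀ e ∈ E, e ≠ 1 → ∀ x ∈ N, e * x * e⁻¹ = x → x = 1 := by
    intro e he h1 x hx hex
    obtain ⟨g, hg⟩ := isConj_iff.1 (hc e he h1)
    have h2 : g⁻¹ * x * g ∈ N ⊓ Subgroup.centralizer ({z} : Set H) := by
      refine ⟨hNn.conj_mem' x hx g, Subgroup.mem_centralizer_singleton_iff.2 ?_⟩
      rw [← hg] at hex
      conv_lhs => rw [← hex]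
      have : g * z * g⁻¹ * x * (g * z * g⁻¹)⁻¹ = g * (z * (g⁻¹ * x * g) * z⁻¹) * g⁻¹ := by group
      rw [this]; group
    rw [hN N hNn hT, Subgroup.mem_bot] at h2
    calc x = g * (g⁻¹ * x * g) * g⁻¹ := by group
      _ = 1 := by rw [h2]; group
  have hsq : ∀ e ∈ E, e * e = 1 := fun e he => congrArg Subtype.val (IsKleinFour.mul_self (⟨e, he⟩ : E))
  obtain ⟨e, he, he1, hez⟩ := exists_third E hE z
  have hze : z * e ≠ 1 := fun h => hez (by
    rw [← mul_left_cancel_iff (a := z), h, hsq z hzE])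
  rw [eq_bot_iff]
  intro x hx
  refine hfree _ (mul_mem hzE he) hze x hx ?_
  have h1 := inverts N (hsq e he) (hfree e he he1) hx
  have h2 := inverts N (hsq z hzE) (hfree z hzE hz1) (inv_mem hx)
  calc z * e * x * (z * e)⁻¹ = z * (e * x * e⁻¹) * z⁻¹ := by group
    _ = x := by rw [h1, h2, inv_inv]

end Cfsg.Agent.S2009
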