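import Cfsg.Statements.S2008
import Cfsg.Agent.S2009

set_option autoImplicit false
open Cfsg

namespace Cfsg.Agent.S2008

/-- Let H be a finite group and z an involution such that every proper normal subgroup of H meets the centralizer of z trivially, and suppose z lies in a Klein four-subgroup E of H all three of whose involutions are conjugate to z in H. Then H has no non-trivial abelian normal subgroup. -/
theorem result {H : Type*} [Group H] [Finite H] (z : H) (hz : orderOf z = 2) (hN : ∀ N : Subgroup H, N.Normal → N ≠ ⊤ → N ⊓ Subgroup.centralizer ({z} : Set H) = ⊥) (E : Subgroup H) (hE : IsKleinFour ↥E) (hzE : z ∈ E) (hc : ∀ e ∈ E, e ≠ 1 → IsConj z e) (N : Subgroup H) [N.Normal] (hab : IsMulCommutative ↥N) : N = ⊥ := by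
  rcases (S2009.result z hz hN E hE hzE hc).eq_bot_or_eq_top_of_normal N inferInstance with h | h
  · exact h
  subst h
  obtain ⟨e, he, he1, hez⟩ := S2009.exists_third E hE z
  obtain ⟨g, hg⟩ := isConj_iff.1 (hc e he he1)
  have : g * z = z * g := congrArg Subtype.val
    (hab.is_comm.comm (⟨g, Subgroup.mem_top g⟩ : (⊤ : Subgroup H)) ⟨z, Subgroup.mem_top z⟩)
  exact absurd (by rw [← hg, this, mul_inv_cancel_right]) hez

end Cfsg.Agent.S2008
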