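import Cfsg.Statements.S2035
import Cfsg.Agent.H63.LBM12
import Cfsg.Agent.H63.MatUB

set_option autoImplicit false
open Cfsg

namespace Cfsg.Agent.S2035

/-- The Schur multiplier of the Mathieu group M₁₂ (the stabiliser of a dodecad in the automorphism group of the length-24 binary code) is cyclic of order 2; here the Schur multiplier is described through stem extensions, as in the definitions: surjective homomorphisms onto the group from a finite group, whose kernel is central in that finite group and contained in that finite group's commutator subgroup. -/
theorem result : Cfsg.HasCyclicSchurMultiplier ↥Cfsg.Spor.M12 2 := by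
  refine H63.mult_cyclic (H63.UB.of_PB_fac [(2, [2]), (3, [])] ?_
    [(2, 6), (3, 3), (5, 1), (11, 1)] 95040 H14.card_M12
    (by norm_num) (by simp only [List.forall_mem_cons]; norm_num)) (H63.M12.clb H63.M12.md H14.card_M12)
  simp only [List.forall_mem_cons]
  exact ⟨H63.Mat.m12p2pb, H63.Mat.m12p3pb, by simp⟩

end Cfsg.Agent.S2035
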