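import Cfsg.Statements.S2040
import Cfsg.Agent.H63.J2
import Cfsg.Agent.H63.Quot2
import Cfsg.Agent.H57.J2Perf

set_option autoImplicit false
open Cfsg

namespace Cfsg.Agent.S2040

/-- The Schur multiplier of the Hall–Janko group J₂ (the icosian reflection group modulo its centre) is cyclic of order 2; here the Schur multiplier is described through stem extensions, as in the definitions: surjective homomorphisms onto the group from a finite group, whose kernel is central in that finite group and contained in that finite group's commutator subgroup. -/
theorem result : Cfsg.HasCyclicSchurMultiplier Cfsg.Spor.J2 2 := by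
  have h := H57.J2.card_J2
  have : Finite Spor.J2 := Nat.finite_of_card_ne_zero (by rw [h]; norm_num)
  have e := H57.J2.equivK.symm
  refine H63.mult_cyclic (H63.UB.of_PB_fac [(2, [2]), (3, []), (5, [])] ?_ [(2, 7), (3, 3), (5, 2), (7, 1)] 604800 h
    (by norm_num) (by simp only [List.forall_mem_cons]; norm_num))
    ((H63.LB.quot _ (QuotientGroup.mk'_surjective _) (QuotientGroup.ker_mk' _).le H57.J2.commutator_twoJ2).of_dvd
      ((congrArg (fun K : Subgroup _ => Nat.card K) (QuotientGroup.ker_mk' _)).trans H57.J2.card_center).symm.dvd)
  simp only [List.forall_mem_cons]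
  exact ⟨H63.J2.p2pb.congr e, H63.J2.p3pb.congr e, H63.J2.p5pb.congr e, by simp⟩

end Cfsg.Agent.S2040
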