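import Cfsg.Statements.S2044
import Cfsg.Agent.H63.UBCo2

set_option autoImplicit false
open Cfsg

namespace Cfsg.Agent.S2044

/-- The Schur multiplier of the Conway group Co₂ (the stabiliser of a minimal vector of the rank-24 lattice) is trivial; here the Schur multiplier is described through stem extensions, as in the definitions: surjective homomorphisms onto the group from a finite group, whose kernel is central in that finite group and contained in that finite group's commutator subgroup. -/
theorem result : Cfsg.HasCyclicSchurMultiplier ↥Cfsg.Spor.Co2 1 := by
  obtain ⟨e⟩ := H63.Le.equiv_C2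
  have := H15.finite_Co0
  have := Finite.of_equiv _ e.toEquiv
  refine H63.mult_trivial (H63.UB.of_PB_fac [(2, []), (3, []), (5, [])] ?_
    [(2, 18), (3, 6), (5, 3), (7, 1), (11, 1), (23, 1)] 42305421312000
    ((Nat.card_congr e.toEquiv).symm.trans H63.Le.card_C2)
    (by norm_num) (by simp only [List.forall_mem_cons]; norm_num))
  simp only [List.forall_mem_cons]
  exact ⟨H63.Le.co2p2pb.congr e, H63.Le.co2p3pb.congr e, H63.Le.co2p5pb.congr e, by simp⟩

end Cfsg.Agent.S2044
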