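import Cfsg.Statements.S2050
import Cfsg.Agent.H63.Ly2
import Cfsg.Agent.H63.Ly3
import Cfsg.Agent.H17.LyS
import Cfsg.Agent.S2100

set_option autoImplicit false
open Cfsg

namespace Cfsg.Agent.S2050

/-- The Schur multiplier of the Lyons group (the finitely presented group of the definitions) is trivial; here the Schur multiplier is described through stem extensions, as in the definitions: surjective homomorphisms onto the group from a finite group, whose kernel is central in that finite group and contained in that finite group's commutator subgroup. -/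
theorem result : Cfsg.HasCyclicSchurMultiplier Cfsg.Spor.Ly 1 := by
  have h := H17.LyE.card_eq
  obtain ⟨e⟩ := H17.LyS.iso
  refine H63.mult_trivial (H63.UB.of_PB_fac [(2, []), (3, []), (5, [])] ?_ [(2, 8), (3, 7), (5, 6), (7, 1), (11, 1), (31, 1), (37, 1), (67, 1)] 51765179004000000 h
    (by norm_num) (by simp only [List.forall_mem_cons]; norm_num))
  simp only [List.forall_mem_cons]
  exact ⟨H63.Ly.p2pb (H63.Ly.s2md H63.Ly.md) h, H63.Ly.p3pb (H63.Ly.s3md H63.Ly.md) h,
    H63.PB.of_sub H17.LyU.H Nat.prime_five (by rw [H17.LyE.index_card.1]; norm_num)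
      ((H63.PB.of_mult (S2100.result (F := ZMod 5) (by simp))).congr e.symm), by simp⟩

end Cfsg.Agent.S2050
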