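import Cfsg.Statements.S2054
import Cfsg.Agent.H63.Fi23C
import Cfsg.Agent.H63.Fi23D
import Cfsg.Agent.H58.Fi23P

set_option autoImplicit false
open Cfsg

namespace Cfsg.Agent.S2054

/-- The Schur multiplier of the Fischer group Fi₂₃ (the finitely presented group of the definitions) is trivial; here the Schur multiplier is described through stem extensions, as in the definitions: surjective homomorphisms onto the group from a finite group, whose kernel is central in that finite group and contained in that finite group's commutator subgroup. -/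
theorem result : Cfsg.HasCyclicSchurMultiplier Cfsg.Spor.Fi23 1 := by
  have := H58.Fi23P.finite
  have := H58.Fi23P.simple
  have h := H58.Fi23P.card_eq
  have hU := H63.univ_cox (fun x => (H58.Fi23P.hc x).2) H58.Fi23P.homM
  refine H63.mult_trivial (H63.UB.of_PB_fac [(2, []), (3, []), (5, [])] ?_ [(2, 18), (3, 13), (5, 2), (7, 1), (11, 1), (13, 1), (17, 1), (23, 1)] 4089470473293004800 h
    (by norm_num) (by simp only [List.forall_mem_cons]; norm_num))
  simp only [List.forall_mem_cons]
  exact ⟨(H63.Fi23.acov hU).pb h (by norm_num) Nat.prime_two (fun _ _ _ hM ho => H63.Fi23.ap2pb (H63.Fi23.asmd hM) ho)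
    (by decide), (H63.Fi23.acov hU).pb h (by norm_num) Nat.prime_three (fun _ _ _ hM ho => H63.Fi23.ap3pb (H63.Fi23.asmd hM) ho)
    (by decide), (H63.Fi23.acov hU).pb h (by norm_num) Nat.prime_five (fun _ _ _ hM ho => H63.Fi23.ap5pb (H63.Fi23.asmd hM) ho)
    (by decide), by simp⟩

end Cfsg.Agent.S2054
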