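import Cfsg.Statements.S2091
import Cfsg.Agent.H63.U62
import Cfsg.Agent.H10.SUHeis
import Cfsg.Agent.S0283

set_option autoImplicit false
open Cfsg

namespace Cfsg.Agent.S2091

/-- Exceptional Schur multiplier: PSU₆(2), realised over the field with 4 elements, has Schur multiplier isomorphic to the product of cyclic groups of orders 3, 2 and 2 (order 12, not cyclic; here the Schur multiplier is described through stem extensions, as in the definitions). -/
theorem result {F : Type*} [Field F] [Fintype F] (hF : Fintype.card F = 4) : Cfsg.HasSchurMultiplier (Cfsg.PSU 6 F 2) (Multiplicative (ZMod 3 × ZMod 2 × ZMod 2)) := by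
  have : Fact (Fintype.card F = 2 ^ 2) := ⟨hF⟩
  have h : Nat.card (SU 6 F 2) = 27590492160 := by
    have := H10.card_SU_mul (F := F) (q := 2) (n := 6) (by norm_num)
    rw [H10.card_GU] at this
    simp +decide [Finset.prod_range_succ] at this
    omega
  have hs := QuotientGroup.mk'_surjective (Subgroup.center (SU 6 F 2))
  have hk := (congrArg (fun K : Subgroup _ => Nat.card K) (QuotientGroup.ker_mk' (Subgroup.center (SU 6 F 2)))).trans
    (show _ = 3 by rw [H10.card_center_SU (by norm_num)]; rfl)
  have hX : commutator (SU 6 F 2) = ⊤ := H10.commutator_SU_eq_top (by norm_num) (by norm_num)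
  have hM := H63.U62.smd (H63.U62.md0 hF)
  have : IsCyclic (QuotientGroup.mk' (Subgroup.center (SU 6 F 2))).ker := by
    have := Fact.mk Nat.prime_three
    exact isCyclic_of_prime_card hk
  have h' : Nat.card ((SU 6 F 2) ⧸ Subgroup.center (SU 6 F 2)) = 9196830720 := by
    have := Subgroup.card_eq_card_quotient_mul_card_subgroup (Subgroup.center (SU 6 F 2))
    rw [QuotientGroup.ker_mk'] at hk
    rw [h, hk] at this
    omega
  have : IsSimpleGroup ((SU 6 F 2) ⧸ Subgroup.center (SU 6 F 2)) := S0283.result (q := 2) hF 6 (by decide) (by decide)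
  refine H63.mult_prod3 (H63.UB.of_PB_fac [(3, [3]), (2, [2, 2])] ?_ [(2, 15), (3, 6), (5, 1), (7, 1), (11, 1)] 9196830720 h'
    (by norm_num) (by simp only [List.forall_mem_cons]; norm_num))
    (((H63.LB.quot _ hs (QuotientGroup.ker_mk' _).le hX).of_dvd hk.symm.dvd).mul
      (H63.U62.acov (H63.U62.uuniv (H63.U62.md0 hF) h h')).lb (by norm_num))
  simp only [List.forall_mem_cons]
  exact ⟨(H63.U62.p3pb hM h).quot_cyc _ hs hX hk Nat.prime_three, (H63.U62.p2pb hM h).quot_cop _ hs hX hk (by norm_num),
    by simp⟩

end Cfsg.Agent.S2091
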