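import Cfsg.Statements.S2096
import Cfsg.Agent.H39.CentBCD

set_option autoImplicit false
open Cfsg

namespace Cfsg.Agent.S2096

/-- Schur multipliers of the even-dimensional orthogonal groups of plus type and odd rank: for odd l ≥ 5 and a field F with q elements, the Schur multiplier of PΩ⁺_2l(F) (for the form Σ xᵢyᵢ) is cyclic of order gcd(4, q^l − 1); here the Schur multiplier is described through stem extensions, as in the definitions. -/
theorem result {F : Type*} [Field F] [Fintype F] {q : ℕ} (hF : Fintype.card F = q) (l : ℕ) (hl : 5 ≤ l) (hodd : Odd l) : Cfsg.HasCyclicSchurMultiplier (Cfsg.POmega F (Cfsg.quadFormPlus l F)) (Nat.gcd 4 (q ^ l - 1)) := by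
  subst hF
  obtain ⟨n, rfl⟩ : ∃ n, l = n + 2 := ⟨l - 2, by omega⟩
  have hn : Odd n := by rwa [Nat.odd_add, iff_true_right even_two] at hodd
  have hq : 0 < Fintype.card F := Fintype.card_pos
  have h4 : Fintype.card F ^ (n + 2) % 4 = 1 ↔ Fintype.card F % 4 = 1 := by
    obtain ⟨k, hk⟩ := hodd
    have : ∀ a < 4, (a ^ 2 % 4) ^ k * a % 4 = 1 ↔ a = 1 := by
      intro a ha
      interval_cases a <;> simp
      · rcases k with _ | k <;> simp
    rw [hk, pow_succ, pow_mul, Nat.mul_mod, Nat.pow_mod, Nat.pow_mod _ 2, Nat.mod_mul_mod,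
      this _ (Nat.mod_lt _ four_pos)]
  have h2 : Even (Fintype.card F ^ (n + 2)) ↔ Even (Fintype.card F) := by simp [Nat.even_pow]
  have hp := pow_pos hq (n + 2)
  have key : ∀ q, 0 < q → Nat.gcd 4 (q - 1) = if q % 4 = 1 then 4 else if q % 2 = 0 then 1 else 2 := fun q h => by
    rw [Nat.gcd_rec]
    rcases (by omega : q % 4 = 0 ∨ q % 4 = 1 ∨ q % 4 = 2 ∨ q % 4 = 3) with e | e | e | e
    · rw [show (q - 1) % 4 = 3 by omega, e, show q % 2 = 0 by omega]; rfl
    · rw [show (q - 1) % 4 = 0 by omega, e]; rfl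
    · rw [show (q - 1) % 4 = 1 by omega, e, show q % 2 = 0 by omega]; rfl
    · rw [show (q - 1) % 4 = 2 by omega, e, show q % 2 = 1 by omega]; rfl
  rw [show Nat.gcd 4 (Fintype.card F ^ (n + 2) - 1) = Nat.gcd 4 (Fintype.card F - 1) by
    simp only [key _ hq, key _ hp, h4, ← Nat.even_iff, h2]]
  have : NeZero (Nat.gcd 4 (Fintype.card F - 1)) := ⟨Nat.gcd_ne_zero_left four_ne_zero⟩
  obtain ⟨g, hg⟩ := H39.exists_inj_D_odd hn F
  refine H39.pomega_plus_multiplier (by omega) (by omega) g hg ?_ ?_ <;>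
    rw [Nat.card_congr Multiplicative.toAdd, Nat.card_zmod, key _ hq, Nat.even_iff]
  · split_ifs <;> omega
  · rw [h4]; split_ifs <;> omega

end Cfsg.Agent.S2096
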