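import Cfsg.Statements.S2097
import Cfsg.Agent.H39.CentBCD

set_option autoImplicit false
open Cfsg

namespace Cfsg.Agent.S2097

/-- Schur multipliers of the even-dimensional orthogonal groups of plus type and even rank: for even l ≥ 4 and a field F with q elements, (l, q) ≠ (4, 2), the Schur multiplier of PΩ⁺_2l(F) (for the form Σ xᵢyᵢ) is the product of two cyclic groups of order gcd(2, q^l − 1) (so trivial for q even and a four-group for q odd; here the Schur multiplier is described through stem extensions, as in the definitions). -/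
theorem result {F : Type*} [Field F] [Fintype F] {q : ℕ} (hF : Fintype.card F = q) (l : ℕ) (hl : 4 ≤ l) (heven : Even l) (hexc : ¬ (l = 4 ∧ q = 2)) : Cfsg.HasSchurMultiplier (Cfsg.POmega F (Cfsg.quadFormPlus l F)) (Multiplicative (ZMod (Nat.gcd 2 (q ^ l - 1)) × ZMod (Nat.gcd 2 (q ^ l - 1)))) := by
  subst hF
  obtain ⟨n, rfl⟩ : ∃ n, l = n + 2 := ⟨l - 2, by omega⟩
  have hn : Even n := by rwa [Nat.even_add, iff_true_right even_two] at heven
  have hq : 0 < Fintype.card F := Fintype.card_pos
  have h2 : Even (Fintype.card F ^ (n + 2)) ↔ Even (Fintype.card F) := by simp [Nat.even_pow]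
  have key : ∀ q, 0 < q → Nat.gcd 2 (q - 1) = if q % 2 = 0 then 1 else 2 := fun q h => by
    rw [Nat.gcd_rec]
    rcases (by omega : q % 2 = 0 ∨ q % 2 = 1) with e | e
    · rw [show (q - 1) % 2 = 1 by omega, e]; rfl
    · rw [show (q - 1) % 2 = 0 by omega, e]; rfl
  rw [show Nat.gcd 2 (Fintype.card F ^ (n + 2) - 1) = Nat.gcd 2 (Fintype.card F - 1) by
    simp only [key _ hq, key _ (pow_pos hq (n + 2)), ← Nat.even_iff, h2]]
  have : NeZero (Nat.gcd 2 (Fintype.card F - 1)) := ⟨Nat.gcd_ne_zero_left two_ne_zero⟩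
  obtain ⟨g, hg⟩ := H39.exists_inj_D_even hn F
  refine H39.pomega_plus_multiplier (by omega) (by omega) g hg ?_ ?_ <;>
    rw [Nat.card_congr Multiplicative.toAdd, Nat.card_prod, Nat.card_zmod, key _ hq, Nat.even_iff]
  · split_ifs <;> omega
  · split_ifs with h
    · omega
    · obtain ⟨k, hk⟩ := heven.two_dvd
      refine Or.inr (Or.inl ⟨le_rfl, ?_⟩)
      rw [hk, pow_mul, Nat.pow_mod, Nat.pow_mod _ 2]
      rcases (by omega : Fintype.card F % 4 = 1 ∨ Fintype.card F % 4 = 3) with e | e <;> simp [e]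

end Cfsg.Agent.S2097
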