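import Cfsg.Statements.S2101
import Cfsg.Agent.H63.G23
import Cfsg.Agent.S1059
import Cfsg.Agent.S1055
import Cfsg.Agent.S1078

set_option autoImplicit false
open Cfsg

namespace Cfsg.Agent.S2101

/-- Exceptional Schur multiplier: over the field with 3 elements the Chevalley group of type G₂ has Schur multiplier cyclic of order 3 (here the Schur multiplier is described through stem extensions, as in the definitions). -/
theorem result {F : Type*} [Field F] [Fintype F] (hF : Fintype.card F = 3) : Cfsg.HasCyclicSchurMultiplier ↥(Cfsg.Lie.chevG2.group F) 3 := by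
  obtain ⟨f⟩ := H56.chev_equiv Lie.chevG2 H56.F3 hF
  refine H81.mult_congr_left (G := Lie.chevG2.group (H56.TF H56.F3)) ?_ f.symm
  have := (S1055.result (F := H56.TF H56.F3) ⟨H56.TF.mk H56.F3 2, by decide, by decide⟩).1
  have h : Nat.card (Lie.chevG2.group (H56.TF H56.F3)) = 4245696 :=
    (S1059.result (H56.TF.card H56.F3)).trans (by norm_num [H56.F3])
  have : Finite (Lie.chevG2.group (H56.TF H56.F3)) := Nat.finite_of_card_ne_zero (by rw [h]; norm_num)
  have hU := H63.univ_chev' (n := 25) H39.memG2 (S1078.result _ (by simp)) H63.G23.ast (by decide +kernel)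
  refine H63.mult_cyclic (H63.UB.of_PB_fac [(2, []), (3, [3])] ?_ [(2, 6), (3, 6), (7, 1), (13, 1)] 4245696 h
    (by norm_num) (by simp only [List.forall_mem_cons]; norm_num)) (H63.G23.acov hU).lb
  simp only [List.forall_mem_cons]
  exact ⟨(H63.G23.acov hU).pb h (by norm_num) Nat.prime_two (fun _ _ _ hM ho => H63.G23.ap2pb (H63.G23.asmd hM) ho)
    (by decide), (H63.G23.acov hU).pb h (by norm_num) Nat.prime_three (fun _ _ _ hM ho => H63.G23.ap3pb (H63.G23.asmd hM) ho)
    (by decide), by simp⟩

end Cfsg.Agent.S2101
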