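import Cfsg.Statements.S2104
import Cfsg.Agent.H63.F42
import Cfsg.Agent.S1062
import Cfsg.Agent.S1054
import Cfsg.Agent.S1078

set_option autoImplicit false
open Cfsg

namespace Cfsg.Agent.S2104

/-- Exceptional Schur multiplier: over the field with 2 elements the Chevalley group of type F₄ has Schur multiplier cyclic of order 2 (here the Schur multiplier is described through stem extensions, as in the definitions). -/
theorem result {F : Type*} [Field F] [Fintype F] (hF : Fintype.card F = 2) : Cfsg.HasCyclicSchurMultiplier ↥(Cfsg.Lie.chevF4.group F) 2 := by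
  obtain ⟨f⟩ := H56.chev_equiv Lie.chevF4 H56.F2 hF
  refine H81.mult_congr_left (G := Lie.chevF4.group (H56.TF H56.F2)) ?_ f.symm
  have := (S1054.result (F := H56.TF H56.F2) Lie.chevF4 (by simp)).1
  have h : Nat.card (Lie.chevF4.group (H56.TF H56.F2)) = 3311126603366400 :=
    (S1062.result (H56.TF.card H56.F2)).trans (by norm_num [H56.F2])
  have : Finite (Lie.chevF4.group (H56.TF H56.F2)) := Nat.finite_of_card_ne_zero (by rw [h]; norm_num)
  have hU := H63.univ_chev' (n := 49) H39.memF4 (S1078.result _ (by simp)) H63.F42.ast (by decide +kernel)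
  refine H63.mult_cyclic (H63.UB.of_PB_fac [(2, [2]), (3, []), (5, []), (7, [])] ?_ [(2, 24), (3, 6), (5, 2), (7, 2), (13, 1), (17, 1)] 3311126603366400 h
    (by norm_num) (by simp only [List.forall_mem_cons]; norm_num)) (H63.F42.acov hU).lb
  simp only [List.forall_mem_cons]
  exact ⟨(H63.F42.acov hU).pb h (by norm_num) Nat.prime_two (fun _ _ _ hM ho => H63.F42.ap2pb (H63.F42.atmd hM) ho)
    (by decide), (H63.F42.acov hU).pb h (by norm_num) Nat.prime_three (fun _ _ _ hM ho => H63.F42.ap3pb (H63.F42.asmd hM) ho)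
    (by decide), (H63.F42.acov hU).pb h (by norm_num) Nat.prime_five (fun _ _ _ hM ho => H63.F42.ap5pb (H63.F42.asmd hM) ho)
    (by decide), (H63.F42.acov hU).pb h (by norm_num) Nat.prime_seven (fun _ _ _ hM ho => H63.F42.ap7pb (H63.F42.asmd hM) ho)
    (by decide), by simp⟩

end Cfsg.Agent.S2104
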