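import Cfsg.Statements.S2106
import Cfsg.Agent.H39.UCE

set_option autoImplicit false
open Cfsg

namespace Cfsg.Agent.S2106

/-- Schur multipliers of the (adjoint, simple) Chevalley groups of type E₇: over a field with q elements the Schur multiplier is cyclic of order gcd(2, q − 1) (here the Schur multiplier is described through stem extensions, as in the definitions). -/
theorem result {F : Type*} [Field F] [Fintype F] {q : ℕ} (hF : Fintype.card F = q) : Cfsg.HasCyclicSchurMultiplier ↥(Cfsg.Lie.chevE7.group F) (Nat.gcd 2 (q - 1)) := by
  obtain ⟨inst⟩ := H37.nonempty_chev (D := Lie.chevE7) (by simp)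
  have hD : H37.IsChev Lie.chevE7 := by simp
  refine H39.group_multiplier hD (H39.generic_of_rank (by decide)) Nat.prime_two (Nat.gcd_dvd_left _ _) ?_
  rw [H39.card_st_center hD (H39.torus_injective_E7 hD), H39.card_centT_E7, Nat.card_eq_fintype_card, hF]

end Cfsg.Agent.S2106
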