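import Cfsg.Statements.S2112
import Cfsg.Agent.H63.Sz8
import Cfsg.Agent.S1162
import Cfsg.Agent.S1163

set_option autoImplicit false
open Cfsg

namespace Cfsg.Agent.S2112

/-- Exceptional Schur multiplier: the Suzuki group Sz(8), built over the field with 8 elements using the map x ↦ x⁴, has Schur multiplier a four-group, the product of two cyclic groups of order 2 (here the Schur multiplier is described through stem extensions, as in the definitions). -/
theorem result {F : Type*} [Field F] [Fintype F] (hF : Fintype.card F = 8) : Cfsg.HasSchurMultiplier ↥(Cfsg.Lie.Sz F 4) (Multiplicative (ZMod 2 × ZMod 2)) := by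
  have h : Nat.card (Lie.Sz F 4) = 29120 := (S1163.result (m := 1) le_rfl hF).1
  have : IsSimpleGroup (Lie.Sz F 4) := S1162.result (m := 1) le_rfl hF
  have hM := H63.Sz8.md0 hF
  refine H63.mult_prod2 (H63.UB.of_PB_fac [(2, [2, 2])] ?_ [(2, 6), (5, 1), (7, 1), (13, 1)] 29120 h
    (by norm_num) (by simp only [List.forall_mem_cons]; norm_num))
    (H63.Sz8.acov (H63.Univ.of_quot h (by norm_num) (H63.Sz8.uuniv hM h))).lb
  simp only [List.forall_mem_cons]
  exact ⟨H63.Sz8.p2pb (H63.Sz8.smd hM) h, by simp⟩

end Cfsg.Agent.S2112
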