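import Cfsg.Statements.S2113
import Cfsg.Agent.H13.ReeCls
import Cfsg.Agent.H13.ReeGen
import Cfsg.Agent.S2111

set_option autoImplicit false
open Cfsg

namespace Cfsg.Agent.S2113

open Cfsg.Agent.H13
set_option linter.style.haveILetI false

open scoped commutatorElement
open Cfsg.Agent.S2111 (cen comm_congr comm_mul_left comm_mul_right conj_comm reduce cyc)

theorem biadd_eq_one {F A : Type*} [Field F] [Group A] (f : F → F → A)
    (hl : ∀ a a' b, f (a + a') b = f a b * f a' b) (hr : ∀ a b b', f a (b + b') = f a b * f a b')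
    (ν : F → F) (hν : ∀ a b, b ≠ 0 → f a b = f (a * ν b) 1) {x : F} (x0 : x ≠ 0) (x1 : x + 1 ≠ 0)
    (hx : ν (x + 1) - (ν x + 1) ≠ 0) (a b : F) : f a b = 1 := by
  have h1 : ∀ a, f a 1 = 1 := by
    intro a
    obtain ⟨c, rfl⟩ : ∃ c, a = c * (ν (x + 1) - (ν x + 1)) := ⟨a / _, (div_mul_cancel₀ a hx).symm⟩
    refine mul_right_cancel (b := f (c * ν x + c) 1) ?_
    rw [← hl, one_mul, hl _ c, ← hν _ _ x0, ← hr, hν _ _ x1]
    congr 1; ring
  by_cases hb : b = 0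
  · subst hb; simpa using hr a 0 0
  · rw [hν _ _ hb, h1]

theorem add_eq_one {F A : Type*} [Field F] [Group A] (h2 : (2 : F) ≠ 0) (f : F → A)
    (hl : ∀ a a', f (a + a') = f a * f a') (hn : ∀ a, f (-a) = f a) (a : F) : f a = 1 := by
  have h0 : f 0 = 1 := by simpa using hl 0 0
  rw [show a = a / 2 + a / 2 by field_simp; norm_num, hl]
  nth_rewrite 1 [← hn]
  rw [← hl, neg_add_cancel, h0]

section
variable {X G K : Type*} [Group X] [Group G] [Field K] (M : Ree G K) [Finite K]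
  {σ : X →* G} (hs : Function.Surjective σ) (hc : σ.ker ≤ Subgroup.center X)

section
variable {A : Type*} [Group A] (f : K → K → A) (hl : ∀ a a' b, f (a + a') b = f a b * f a' b)
  (hr : ∀ a b b', f a (b + b') = f a b * f a b') {x : K} (hx : x ^ 3 ≠ x)
include M hl hr hx

omit [Finite K] in
theorem form1 (hi : ∀ l, l ≠ 0 → ∃ l', (l' = l ∨ l' = -l) ∧ ∀ a b, f (l' * a) (l' * b) = f a b) (a b : K) :
    f a b = 1 := by
  have x0 : x ≠ 0 := by rintro rfl; simp at hx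
  have x1 : x + 1 ≠ 0 := fun h => hx (by linear_combination (x ^ 2 - x) * h)
  have n1 : ∀ a b, f (-a) (-b) = f a b := fun a b => by
    have e1 : f (-a) (-b) * f a (-b) = 1 := by rw [← hl, neg_add_cancel]; simpa using hl 0 0 (-b)
    have e2 : f a b * f a (-b) = 1 := by rw [← hr, add_neg_cancel]; simpa using hr a 0 0
    exact mul_right_cancel (e1.trans e2.symm)
  refine biadd_eq_one f hl hr (fun b => b⁻¹) (fun a b hb => ?_) x0 x1 (fun h => hx ?_) a b
  · obtain ⟨l, rfl | rfl, h⟩ := hi b⁻¹ (inv_ne_zero hb)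
    · rw [← h, inv_mul_cancel₀ hb, mul_comm]
    · rw [← h, neg_mul, neg_mul, n1, inv_mul_cancel₀ hb, mul_comm]
  · field_simp at h
    have : (x - 1) ^ 2 = 0 := by linear_combination -h - x * M.three
    linear_combination (x ^ 2 + x) * (pow_eq_zero_iff two_ne_zero).1 this

omit [Finite K] in
theorem form3 (hi : ∀ k : Kˣ, ∀ a b, f (k ^ 2 / M.ψ k * a) (k * b) = f a b) (a b : K) : f a b = 1 := by
  have x0 : x ≠ 0 := by rintro rfl; simp at hx
  have x1 : x + 1 ≠ 0 := fun h => hx (by linear_combination (x ^ 2 - x) * h)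
  have x2 : x - 1 ≠ 0 := fun h => hx (by linear_combination (x ^ 2 + x) * h)
  refine biadd_eq_one f hl hr (fun b => M.ψ b / b ^ 2) (fun a b hb => ?_) x0 x1 (fun h => hx ?_) a b
  · have := M.ψ_ne hb
    rw [← hi (Units.mk0 b hb)⁻¹]
    congr 1 <;> simp only [Units.val_inv_eq_inv_val, Units.val_mk0, map_inv₀] <;> field_simp
  · rw [map_add, map_one] at h
    field_simp at h
    have h2 : M.ψ x = x ^ 3 := mul_left_cancel₀ x2 (by linear_combination h + (x * M.ψ x + x ^ 3) * M.three)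
    have h3 := M.ψψ x
    rw [h2, map_pow, h2] at h3
    haveI := M.charP
    have : (x ^ 3 - x) ^ 3 = 0 := by rw [sub_pow_char]; linear_combination h3
    exact sub_eq_zero.1 (pow_eq_zero_iff three_ne_zero |>.1 this)

end

include hc in
theorem comm_of_coprime {x y : X} (h : σ x * σ y = σ y * σ x) (h2 : σ x ^ 2 = 1) (h3 : σ y ^ 3 = 1) :
    y * x = x * y := by
  have k : σ ⁅x, y⁆ = 1 := by rw [map_commutatorElement, commutatorElement_eq_one_iff_mul_comm, h]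
  have e2 : ⁅x, y⁆ * ⁅x, y⁆ = 1 := by
    have := comm_mul_left x x y
    rwa [cen hc k, comm_congr hc (x' := 1) (by rw [map_mul, ← sq, h2, map_one]) rfl, commutatorElement_one_left,
      eq_comm] at this
  have e3 : ⁅x, y⁆ * (⁅x, y⁆ * ⁅x, y⁆) = 1 := by
    have := comm_mul_right x y (y * y)
    rwa [comm_mul_right x y y, cen hc k, cen hc (by simp [k]), comm_congr hc (y' := 1) rfl
      (by rw [map_mul, map_mul, ← pow_three, h3, map_one]), commutatorElement_one_right, eq_comm] at this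
  rw [e2, mul_one, commutatorElement_eq_one_iff_mul_comm] at e3
  exact e3.symm

include hs hc in
theorem comm_a {x y : X} (hx : σ x = M.a) (hy : σ y * M.a = M.a * σ y) : y * x = x * y := by
  have key : ∀ s, M.f s ∈ (Subgroup.centralizer {x}).map σ := fun s => (H90.sl2_eq_top
    (H := ((Subgroup.centralizer {x}).map σ).comap M.f) (fun t => by
      obtain ⟨z, hz⟩ := hs (M.f (H90.xu t))
      exact ⟨z, Subgroup.mem_centralizer_singleton_iff.2 (comm_of_coprime hc (by rw [hx, hz, M.a_mul_f])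
        (by rw [hx, sq, M.a_mul_a]) (by rw [hz, M.f_xu, M.u0_cube])), hz⟩) (fun t => by
      obtain ⟨z, hz⟩ := hs (M.f (H90.xl t))
      exact ⟨z, Subgroup.mem_centralizer_singleton_iff.2 (comm_of_coprime hc (by rw [hx, hz, M.a_mul_f])
        (by rw [hx, sq, M.a_mul_a]) (by
          rw [hz, M.f_xl]; nth_rewrite 2 [← M.n_inv]; rw [conj_pow, M.u0_cube]; simp [M.n_mul_n])), hz⟩)).ge (Subgroup.mem_top s)
  have : σ y ∈ (Subgroup.centralizer {x}).map σ := by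
    obtain ⟨s, h | h⟩ := M.mem_centralizer_a'.1 (Subgroup.mem_centralizer_singleton_iff.2 hy) <;> rw [h]
    · exact key s
    · exact mul_mem ⟨x, Subgroup.mem_centralizer_singleton_iff.2 rfl, hx⟩ (key s)
  obtain ⟨z, hz, e⟩ := this
  rw [← commutatorElement_eq_one_iff_mul_comm, comm_congr hc e.symm rfl, commutatorElement_eq_one_iff_mul_comm]
  exact Subgroup.mem_centralizer_singleton_iff.1 hz

include M hs hc in
theorem two_part {S : Subgroup G} (hS : IsPGroup 2 S) : ⁅S.comap σ, S.comap σ⁆ = ⊥ := by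
  rw [eq_bot_iff, Subgroup.commutator_le]
  intro x hx y hy
  rw [Subgroup.mem_bot]
  by_cases h1 : σ x = 1
  · rw [comm_congr hc (x' := 1) (by simpa using h1) rfl, commutatorElement_one_left]
  obtain ⟨g, hg⟩ := M.exists_conj_model h1 (M.sq_eq_one_of_isPGroup hS hx)
  exact commutatorElement_eq_one_iff_mul_comm.2 (comm_a (M.conj g) hs hc hg.symm (by
    rw [hg]; exact comm_of_sq (fun _ => M.sq_eq_one_of_isPGroup hS) hy hx)).symm

include hs hc in
theorem three_part {s : K} (hs3 : s ^ 3 ≠ s) : σ.ker ⊓ ⁅M.U.comap σ, M.U.comap σ⁆ = ⊥ := by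
  choose l hl using hs
  have hh : ∀ (k : Kˣ) {x t b c}, σ x = M.u t b c → σ (l (M.h k) * x * (l (M.h k))⁻¹) =
      M.u (k ^ 2 / M.ψ k * t) (M.ψ k / k * b) (k * c) := fun k x t b c hx => by
    simp only [map_mul, map_inv, hl, hx, M.h_conj]
  have k0 : ∀ b c b' c', σ ⁅l (M.u 0 b c), l (M.u 0 b' c')⁆ = 1 := fun b c b' c' => by
    rw [map_commutatorElement, hl, hl, commutatorElement_eq_one_iff_mul_comm, M.u0_mul, M.u0_mul, add_comm b,
      add_comm c]
  have ladd : ∀ b c b₁ c₁ b' c', ⁅l (M.u 0 (b + b₁) (c + c₁)), l (M.u 0 b' c')⁆ =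
      ⁅l (M.u 0 b c), l (M.u 0 b' c')⁆ * ⁅l (M.u 0 b₁ c₁), l (M.u 0 b' c')⁆ := fun b c b₁ c₁ b' c' => by
    rw [comm_congr hc (x' := l (M.u 0 b₁ c₁) * l (M.u 0 b c)) (by simp [hl, M.u0_mul, add_comm]) rfl,
      comm_mul_left, cen hc (k0 ..)]
  have radd : ∀ b c b₁ c₁ b' c', ⁅l (M.u 0 b c), l (M.u 0 (b₁ + b') (c₁ + c'))⁆ =
      ⁅l (M.u 0 b c), l (M.u 0 b₁ c₁)⁆ * ⁅l (M.u 0 b c), l (M.u 0 b' c')⁆ := fun b c b₁ c₁ b' c' => by
    rw [comm_congr hc rfl (y' := l (M.u 0 b₁ c₁) * l (M.u 0 b' c')) (by simp [hl, M.u0_mul]),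
      comm_mul_right, cen hc (k0 ..)]
  have hinv : ∀ (k : Kˣ) b c b' c', ⁅l (M.u 0 (M.ψ k / k * b) (k * c)), l (M.u 0 (M.ψ k / k * b') (k * c'))⁆ =
      ⁅l (M.u 0 b c), l (M.u 0 b' c')⁆ := fun k b c b' c' => by
    rw [← cen hc (k0 b c b' c') (l (M.h k)), conj_comm]
    exact comm_congr hc (by rw [hl, hh k (hl _), mul_zero]) (by rw [hl, hh k (hl _), mul_zero])
  have f22 : ∀ b b', ⁅l (M.u 0 b 0), l (M.u 0 b' 0)⁆ = 1 :=
    form1 M _ (fun a a' b => by simpa using ladd a 0 a' 0 b 0) (fun a b b' => by simpa using radd a 0 b 0 b' 0) hs3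
      fun t ht => by
        obtain ⟨k, hk⟩ := M.exists_wt_b ht
        exact ⟨_, hk, fun a b => by simpa using hinv k a 0 b 0⟩
  have f33 : ∀ c c', ⁅l (M.u 0 0 c), l (M.u 0 0 c')⁆ = 1 :=
    form1 M _ (fun a a' b => by simpa using ladd 0 a 0 a' 0 b) (fun a b b' => by simpa using radd 0 a 0 b 0 b') hs3
      fun t ht => ⟨t, Or.inl rfl, fun a b => by simpa using hinv (Units.mk0 t ht) 0 a 0 b⟩
  have f23 : ∀ b c, ⁅l (M.u 0 b 0), l (M.u 0 0 c)⁆ = 1 := fun b =>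
    add_eq_one M.two_ne _ (fun c c' => by simpa using radd b 0 0 c 0 c') fun c => by simpa using hinv (-1) b 0 0 c
  have s1 : ∀ {x y : X} {b c b' c'}, σ x = M.u 0 b c → σ y = M.u 0 b' c' → x * y * x⁻¹ = y := by
    intro x y b c b' c' hx hy
    rw [mul_inv_eq_iff_eq_mul, ← commutatorElement_eq_one_iff_mul_comm,
      comm_congr hc (x' := l (M.u 0 (b + 0) (0 + c))) (y' := l (M.u 0 (b' + 0) (0 + c'))) (by simp [hl, hx])
        (by simp [hl, hy]), ladd, radd, radd, f22, f23, f33, ← commutatorElement_inv, f23]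
    simp
  have s0 : s ≠ 0 := by rintro rfl; simp at hs3
  have n1 : M.ψ s / s - 1 ≠ 0 := sub_ne_zero.2 (M.wt_b_ne (k := Units.mk0 s s0)
    (fun h => hs3 (by rw [show s = 1 from congrArg Units.val h]; simp))
    (fun h => hs3 (by rw [show s = -1 from congrArg Units.val h]; ring)))
  have n2 : s - 1 ≠ 0 := fun h => hs3 (by linear_combination (s ^ 2 + s) * h)
  obtain ⟨η, z1, z2, z3⟩ : ∃ η : K → K → X, (∀ b c, σ (η b c) = M.u 0 b c) ∧
      (∀ b c b' c', η (b + b') (c + c') = η b c * η b' c') ∧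
      ∀ (k : Kˣ) b c, l (M.h k) * η b c * (l (M.h k))⁻¹ = η (M.ψ k / k * b) (k * c) := by
    have z1 : ∀ b c, σ ⁅l (M.h (Units.mk0 s s0)), l (M.u 0 (b / (M.ψ s / s - 1)) (c / (s - 1)))⁆ = M.u 0 b c :=
      fun b c => by
        rw [commutatorElement_def, map_mul, hh _ (hl _), map_inv, hl, mul_zero, M.u0_inv, M.u0_mul, Units.val_mk0]
        congr 1
        · generalize M.ψ s / s = w at *; field_simp; ring
        · field_simp; ring
    refine ⟨_, z1, fun b c b' c' => ?_, fun k b c => ?_⟩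
    · rw [comm_congr hc rfl (y' := l (M.u 0 (b / (M.ψ s / s - 1)) (c / (s - 1))) *
        l (M.u 0 (b' / (M.ψ s / s - 1)) (c' / (s - 1)))) (by simp [hl, M.u0_mul, add_div]),
        comm_mul_right, s1 (hl _) (z1 _ _)]
    · rw [conj_comm]
      refine comm_congr hc ?_ ?_
      · simp only [map_mul, map_inv, hl]; rw [M.h_comm]; simp
      · rw [hh k (hl _), hl, mul_zero, mul_div_assoc, mul_div_assoc]
  have z0 : η 0 0 = 1 := by simpa using z2 0 0 0 0
  -- the action of `U` on the preimage of `U'`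
  have dec : ∀ {x t b c}, σ x = M.u t b c → ∃ b' c', σ ((l (M.u t 0 0))⁻¹ * x) = M.u 0 b' c' := fun {x t b c} hx => by
    rw [map_mul, map_inv, hl, hx, M.u_inv, M.u_mul, neg_add_cancel]; exact ⟨_, _, rfl⟩
  have k2 : ∀ {x y t b c b' c'}, σ x = M.u t b c → σ y = M.u 0 b' c' →
      x * y * x⁻¹ = l (M.u t 0 0) * y * (l (M.u t 0 0))⁻¹ := fun {x y t b c b' c'} hx hy => by
    obtain ⟨b₁, c₁, h⟩ := dec hx
    conv_rhs => rw [← s1 h hy]
    group
  have k3 : ∀ {x y t b c b' c'}, σ x = M.u t b c → σ y = M.u 0 b' c' → σ (x * y * x⁻¹) = M.u 0 b' (c' + b' * t) :=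
    fun hx hy => by rw [map_mul, map_mul, map_inv, hx, hy, M.u_conj_u0]
  have k4 : ∀ {y} t t' {b c}, σ y = M.u 0 b c → l (M.u (t + t') 0 0) * y * (l (M.u (t + t') 0 0))⁻¹ =
      l (M.u t 0 0) * (l (M.u t' 0 0) * y * (l (M.u t' 0 0))⁻¹) * (l (M.u t 0 0))⁻¹ := fun {y} t t' b c hy => by
    rw [← k2 (x := l (M.u t 0 0) * l (M.u t' 0 0)) (by rw [map_mul, hl, hl, M.u_mul]) hy]; group
  have k5 : ∀ (k : Kˣ) t b c, l (M.h k) * (l (M.u t 0 0) * η b c * (l (M.u t 0 0))⁻¹) * (l (M.h k))⁻¹ =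
      l (M.u (k ^ 2 / M.ψ k * t) 0 0) * η (M.ψ k / k * b) (k * c) * (l (M.u (k ^ 2 / M.ψ k * t) 0 0))⁻¹ :=
    fun k t b c => by rw [← k2 (hh k (hl (M.u t 0 0))) (z1 _ _), ← z3]; group
  have k6 : ∀ t b c, σ (l (M.u t 0 0) * η b c * (l (M.u t 0 0))⁻¹ * (η b (c + b * t))⁻¹) = 1 := fun t b c => by
    rw [map_mul, k3 (hl _) (z1 _ _), map_inv, z1, mul_inv_cancel]
  have s3 : ∀ t c, l (M.u t 0 0) * η 0 c * (l (M.u t 0 0))⁻¹ = η 0 c := by
    intro t c
    rw [← mul_inv_eq_one]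
    revert t c
    have k7 : ∀ t c, σ (l (M.u t 0 0) * η 0 c * (l (M.u t 0 0))⁻¹ * (η 0 c)⁻¹) = 1 := fun t c => by
      simpa using k6 t 0 c
    refine form3 M _ (fun t t' c => ?_) (fun t c c' => ?_) hs3 fun k t c => ?_
    · rw [add_comm, k4 _ _ (z1 _ _), ← cen hc (k7 t c) (l (M.u t' 0 0))]; group
    · rw [← cen hc (k7 t c') (η 0 c)⁻¹⁻¹, show η 0 (c + c') = η 0 c * η 0 c' by simpa using z2 0 c 0 c']; group
    · rw [← cen hc (k7 t c) (l (M.h k)), ← conj_mul, k5, ← conj_inv, z3, mul_zero]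
  have s4 : ∀ t b c, l (M.u t 0 0) * η b c * (l (M.u t 0 0))⁻¹ = η b (c + b * t) := by
    have : ∀ b t, l (M.u t 0 0) * η b 0 * (l (M.u t 0 0))⁻¹ * (η b (0 + b * t))⁻¹ = 1 := fun b => by
      refine add_eq_one M.two_ne _ (fun t t' => ?_) fun t => ?_
      · have e2 := cen hc (k6 t b 0) (l (M.u t' 0 0))
        rw [add_comm, k4 _ _ (z1 _ _), show η b (0 + b * (t' + t)) = η b (0 + b * t') * η 0 (b * t) by
            rw [← z2]; congr 1 <;> ring]
        generalize hF : l (M.u t 0 0) * η b 0 * (l (M.u t 0 0))⁻¹ * (η b (0 + b * t))⁻¹ = F at e2 ⊢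
        rw [mul_inv_eq_iff_eq_mul.1 hF, show η b (0 + b * t) = η b 0 * η 0 (b * t) by simpa using z2 b 0 0 (b * t),
          ← conj_mul, e2, ← conj_mul, s3]
        group
      · rw [← cen hc (k6 t b 0) (l (M.h (-1))), ← conj_mul, k5, ← conj_inv, z3]; simp
    intro t b c
    rw [show η b c = η b 0 * η 0 c by simpa using z2 b 0 0 c, ← conj_mul, s3, mul_inv_eq_one.1 (this b t), ← z2]
    congr 1 <;> ring
  -- the projection onto the kernel
  obtain ⟨π, p1⟩ : ∃ π : X → X, ∀ {y b c}, σ y = M.u 0 b c → π y = y * (η b c)⁻¹ := by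
    have hi : Function.Injective fun p : K × K => M.u 0 p.1 p.2 := fun p p' h => Prod.ext (M.u_inj.1 h).2.1
      (M.u_inj.1 h).2.2
    refine ⟨fun y => y * (η (Function.invFun (fun p : K × K => M.u 0 p.1 p.2) (σ y)).1
      (Function.invFun (fun p : K × K => M.u 0 p.1 p.2) (σ y)).2)⁻¹, fun {y b c} hy => ?_⟩
    simp only [hy, Function.leftInverse_invFun hi (b, c)]
  have p0 : ∀ {y b c}, σ y = M.u 0 b c → σ (y * (η b c)⁻¹) = 1 := fun hy => by simp [hy, z1]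
  have p2 : ∀ {y y' b c b' c'}, σ y = M.u 0 b c → σ y' = M.u 0 b' c' → π (y * y') = π y * π y' :=
    fun {y y' b c b' c'} hy hy' => by
      rw [p1 hy, p1 hy', p1 (by rw [map_mul, hy, hy', M.u0_mul]), z2, ← cen hc (p0 hy') (η b c)]; group
  have p3 : ∀ {x y t b c b' c'}, σ x = M.u t b c → σ y = M.u 0 b' c' → π (x * y * x⁻¹) = π y :=
    fun {x y t b c b' c'} hx hy => by
      rw [p1 (k3 hx hy), p1 hy, ← s4, ← k2 hx (z1 _ _), ← cen hc (p0 hy) x]; group
  have p4 : ∀ (k : Kˣ) {y b c}, σ y = M.u 0 b c → π (l (M.h k) * y * (l (M.h k))⁻¹) = π y := fun k y b c hy => by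
    rw [p1 (by rw [hh k hy, mul_zero]), p1 hy, ← z3, ← cen hc (p0 hy) (l (M.h k))]; group
  have p5 : π 1 = 1 := by rw [p1 (b := 0) (c := 0) (by simp), z0]; simp
  have d0 : ∀ {x y t b c t' b' c'}, σ x = M.u t b c → σ y = M.u t' b' c' → ∃ b₁ c₁, σ ⁅x, y⁆ = M.u 0 b₁ c₁ :=
    fun {x y t b c t' b' c'} hx hy => by
      obtain ⟨z, hz⟩ := M.u_comm t b c t' b' c'
      exact ⟨_, z, by rw [map_commutatorElement, hx, hy, commutatorElement_def, hz]⟩
  have d1 : ∀ {x x' y t b c t₁ b₁ c₁ t' b' c'}, σ x = M.u t b c → σ x' = M.u t₁ b₁ c₁ → σ y = M.u t' b' c' →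
      π ⁅x * x', y⁆ = π ⁅x', y⁆ * π ⁅x, y⁆ := fun hx hx' hy => by
    obtain ⟨_, _, e1⟩ := d0 hx hy
    obtain ⟨_, _, e2⟩ := d0 hx' hy
    rw [comm_mul_left, p2 (k3 hx e2) e1, p3 hx e2]
  have d2 : ∀ {x y y' t b c t₁ b₁ c₁ t' b' c'}, σ x = M.u t b c → σ y = M.u t₁ b₁ c₁ → σ y' = M.u t' b' c' →
      π ⁅x, y * y'⁆ = π ⁅x, y⁆ * π ⁅x, y'⁆ := fun hx hy hy' => by
    obtain ⟨_, _, e1⟩ := d0 hx hy
    obtain ⟨_, _, e2⟩ := d0 hx hy'
    rw [comm_mul_right, p2 e1 (k3 hy e2), p3 hy e2]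
  have d3 : ∀ {x y t b c b' c'}, σ x = M.u t b c → σ y = M.u 0 b' c' → π ⁅x, y⁆ = 1 ∧ π ⁅y, x⁆ = 1 :=
    fun {x y t b c b' c'} hx hy => by
      have hy' : σ y⁻¹ = M.u 0 (-b') (-c') := by rw [map_inv, hy, M.u0_inv]
      constructor
      · rw [commutatorElement_def, p2 (k3 hx hy) hy', p3 hx hy, ← p2 hy hy', mul_inv_cancel, p5]
      · rw [commutatorElement_def, mul_assoc, mul_assoc, ← mul_assoc x, p2 hy (k3 hx hy'), p3 hx hy', ← p2 hy hy',
          mul_inv_cancel, p5]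
  have d4 : ∀ {x y t b c t' b' c'}, σ x = M.u t b c → σ y = M.u t' b' c' →
      π ⁅x, y⁆ = π ⁅l (M.u t 0 0), l (M.u t' 0 0)⁆ := fun {x y t b c t' b' c'} hx hy => by
    obtain ⟨_, _, e1⟩ := dec hx
    obtain ⟨_, _, e2⟩ := dec hy
    rw [← mul_inv_cancel_left (l (M.u t 0 0)) x, d1 (hl _) e1 hy, (d3 hy e1).2, one_mul,
      ← mul_inv_cancel_left (l (M.u t' 0 0)) y, d2 (hl _) (hl _) e2, (d3 (hl _) e2).1, mul_one]
  have s5 : ∀ t t', π ⁅l (M.u t 0 0), l (M.u t' 0 0)⁆ = 1 := by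
    refine form1 M _ (fun a a' b => ?_) (fun a b b' => ?_) hs3 fun t ht => ?_
    · rw [← d1 (hl _) (hl _) (hl _), d4 (x := _ * _) (by rw [map_mul, hl, hl, M.u_mul]) (hl _), add_comm]
    · rw [← d2 (hl _) (hl _) (hl _), d4 (y := _ * _) (hl _) (by rw [map_mul, hl, hl, M.u_mul])]
    · obtain ⟨k, hk⟩ := M.exists_wt_t ht
      refine ⟨t, Or.inl rfl, fun a b => ?_⟩
      obtain ⟨_, _, e⟩ := d0 (hl (M.u a 0 0)) (hl (M.u b 0 0))
      rw [← p4 k e, conj_comm, d4 (hh k (hl _)) (hh k (hl _)), hk]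
  let N : Subgroup X :=
    { carrier := {x | ∃ b c, η b c = x}
      mul_mem' := by rintro _ _ ⟨a, b, rfl⟩ ⟨c, d, rfl⟩; exact ⟨_, _, z2 ..⟩
      one_mem' := ⟨0, 0, z0⟩
      inv_mem' := by
        rintro _ ⟨a, b, rfl⟩
        exact ⟨-a, -b, eq_inv_of_mul_eq_one_left (by rw [← z2, neg_add_cancel, neg_add_cancel, z0])⟩ }
  have hle : ⁅M.U.comap σ, M.U.comap σ⁆ ≤ N := by
    rw [Subgroup.commutator_le]
    rintro x ⟨t, b, c, hx⟩ y ⟨t', b', c', hy⟩
    obtain ⟨b₁, c₁, e⟩ := d0 hx hy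
    exact ⟨b₁, c₁, (mul_inv_eq_one.1 (by rw [← p1 e, d4 hx hy, s5])).symm⟩
  rw [eq_bot_iff]
  rintro x ⟨h1, h2⟩
  obtain ⟨b, c, rfl⟩ := hle h2
  have := z1 b c
  rw [h1, eq_comm, M.u_eq_one] at this
  rw [this.2.1, this.2.2, z0]; exact Subgroup.one_mem _

end

/-- Schur multipliers of the small Ree groups: for q = 3^(2m+1) with m ≥ 1 the Schur multiplier of ²G₂(q) is trivial (here the Schur multiplier is described through stem extensions, as in the definitions). -/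
theorem result {K : Type*} [Field K] [Fintype K] {m : ℕ} (hm : 1 ≤ m) (hK : Fintype.card K = 3 ^ (2 * m + 1)) : Cfsg.HasCyclicSchurMultiplier ↥(Cfsg.Lie.twistedG2 K (3 ^ m)) 1 := by
  obtain ⟨hK', hq⟩ := ree_par hm hK
  set M := reeModel hK
  haveI := M.finite
  obtain ⟨s, hs3⟩ := H40.exists_cube_ne hK hm
  rw [H81.mult_trivial_iff]
  intro X _ _ σ ⟨hs, hc, hk⟩
  rw [← Subgroup.card_eq_one]
  by_contra hne
  haveI : Fact (Nat.card σ.ker).minFac.Prime := ⟨Nat.minFac_prime hne⟩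
  have hd := Nat.minFac_dvd (Nat.card σ.ker)
  generalize (Nat.card σ.ker).minFac = p at *
  by_cases h3 : p = 3
  · subst h3
    exact reduce hs hc M.U M.not_dvd_index_U (three_part M hs hc hs3) hk hd
  obtain ⟨P⟩ : Nonempty (Sylow p ↥(Cfsg.Lie.twistedG2 K (3 ^ m))) := inferInstance
  by_cases h2 : p = 2
  · subst h2
    exact reduce hs hc P P.not_dvd_index (by rw [two_part M hs hc P.isPGroup', inf_bot_eq]) hk hd
  · exact reduce hs hc P P.not_dvd_index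
      (by rw [cyc hc (M.isCyclic_of_isPGroup hq hK' (reeModel_ψ hK) h2 h3 P.isPGroup'), inf_bot_eq]) hk hd

end Cfsg.Agent.S2113
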