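import Cfsg.Statements.S2115
import Cfsg.Agent.H63.Tits
import Cfsg.Agent.S1074

set_option autoImplicit false
open Cfsg

namespace Cfsg.Agent.S2115

/-- The Tits group, the commutator subgroup of ²F₄(2), has trivial Schur multiplier (here the Schur multiplier is described through stem extensions, as in the definitions). -/
theorem result : Cfsg.HasCyclicSchurMultiplier Cfsg.Lie.TitsGroup 1 := by
  have h : Nat.card Lie.TitsGroup = 17971200 := S1074.result.2.2.2
  have : Finite Lie.TitsGroup := Nat.finite_of_card_ne_zero (by rw [h]; norm_num)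
  have hM := H63.Tits.smd H63.Tits.md
  refine H63.mult_trivial (H63.UB.of_PB_fac [(2, []), (3, []), (5, [])] ?_ [(2, 11), (3, 3), (5, 2), (13, 1)] 17971200 h
    (by norm_num) (by simp only [List.forall_mem_cons]; norm_num))
  simp only [List.forall_mem_cons]
  exact ⟨H63.Tits.p2pb hM h, H63.Tits.p3pb hM h, H63.Tits.p5pb hM h, by simp⟩

end Cfsg.Agent.S2115
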