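import Cfsg.Statements.S2136
import Cfsg.Agent.H97.Co2A
import Cfsg.Agent.H57.ES

set_option autoImplicit false
open Cfsg

namespace Cfsg.Agent.S2136

open Cfsg.Agent.H97 Cfsg.Agent.H15 Subgroup MulAction

/-- The Conway group Co₂ (the stabiliser of a minimal vector of the rank-24 lattice) has an involution whose centraliser C has largest normal 2-subgroup extraspecial of order 2^9 with quotient C / O₂(C) isomorphic to the symplectic group Sp(6, 2) (shape 2^{1+8}Sp(6, 2)). -/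
theorem result : ∃ t : ↥Cfsg.Spor.Co2, orderOf t = 2 ∧ Cfsg.IsExtraspecial 2 (Cfsg.pCore 2 ↥(Subgroup.centralizer ({t} : Set ↥Cfsg.Spor.Co2))) ∧ Nat.card (Cfsg.pCore 2 ↥(Subgroup.centralizer ({t} : Set ↥Cfsg.Spor.Co2))) = 2 ^ 9 ∧ Nonempty (↥(Subgroup.centralizer ({t} : Set ↥Cfsg.Spor.Co2)) ⧸ Cfsg.pCore 2 ↥(Subgroup.centralizer ({t} : Set ↥Cfsg.Spor.Co2)) ≃* Matrix.symplecticGroup (Fin 3) (ZMod 2)) := by
  have := finite_Co0
  have : Fact (Nat.Prime 2) := ⟨Nat.prime_two⟩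
  obtain ⟨θ, hθ, hk⟩ := exists_theta2
  let ι : Spor.Co2 →* Co0 := inclusion inf_le_left
  have hr : ι.range = stabilizer Co0 uP :=
    le_antisymm (by rintro _ ⟨g, rfl⟩; exact g.2.2) fun g hg => ⟨⟨g, g.2, hg⟩, rfl⟩
  let t : Spor.Co2 := ⟨tt, tt.2, tt_uP⟩
  let e := H57.centEquiv ι (inclusion_injective _) hr t (y := tt) rfl
  have : Finite (centralizer ({t} : Set Spor.Co2)) := Finite.of_equiv _ e.symm.toEquiv
  let ψ := θ.comp e.toMonoidHom
  have hψ : Function.Surjective ψ := hθ.comp e.surjective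
  have hQ : QQ ≤ stabilizer Co0 uP ⊓ CenT tt := fun g hg => ⟨QQ_fix hg tt_uP, QQ_le hg⟩
  have e2 : QQ ≃* ψ.ker := ((subgroupOfEquivOfLe hQ).symm.trans
    (e.symm.subgroupMap _)).trans (MulEquiv.subgroupCongr (by
      ext g
      exact mem_map_equiv.trans (hk (e g)).symm))
  have hE := isExtraspecial_congr e2 (QQ_ex.isExtraspecial (by rw [card_QQ]; norm_num))
  have hp : pCore 2 (centralizer ({t} : Set Spor.Co2)) = ψ.ker :=
    le_antisymm (sSup_le fun P hP => (Subgroup.map_eq_bot_iff _).1 (eq_bot_of_simple simple_Sp6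
      (by rw [card_Sp6]; norm_num) _ (hP.1.map ψ hψ) (hP.2.map ψ)))
      (le_sSup ⟨inferInstance, hE.1.1⟩)
  refine ⟨t, orderOf_two (fun h => QQ_ex.ne (congrArg ι h)) (inclusion_injective inf_le_left
    QQ_ex.sq), hp ▸ hE, ?_, ⟨(QuotientGroup.quotientMulEquivOfEq hp).trans
      (QuotientGroup.quotientKerEquivOfSurjective ψ hψ)⟩⟩
  rw [hp, ← Nat.card_congr e2.toEquiv, card_QQ]; rfl

end Cfsg.Agent.S2136
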