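import Cfsg.Statements.S2141
import Cfsg.Agent.H66.SpFin
import Cfsg.Agent.H28.SpTransfer

set_option autoImplicit false
open Cfsg

namespace Cfsg.Agent.S2141


/-- Minimal index of a proper subgroup of the symplectic groups over fields with at least 3 elements: for m ≥ 2 and a field F with q ≥ 3 elements, (m, q) ≠ (2, 3), every proper subgroup of PSp_2m(F) has index at least (q^(2m) − 1)/(q − 1), and that index is attained. -/
theorem result {F : Type*} [Field F] [Fintype F] {q : ℕ} (hF : Fintype.card F = q) (m : ℕ) (hm : 2 ≤ m) (hq : 3 ≤ q) (hexc : ¬ (m = 2 ∧ q = 3)) : (∀ H : Subgroup (Cfsg.PSp m F), H ≠ ⊤ → (q ^ (2 * m) - 1) / (q - 1) ≤ H.index) ∧ (∃ H : Subgroup (Cfsg.PSp m F), H.index = (q ^ (2 * m) - 1) / (q - 1)) := by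
  have hc : Nat.card F = q := by rw [Nat.card_eq_fintype_card, hF]
  refine ⟨fun H hH => Nat.div_le_of_le_mul ?_, ?_⟩
  · rw [mul_comm (q - 1), ← hc]
    by_cases h2 : (2 : F) = 0
    · refine H28.psp_min_index_of (fun H hH => ?_) hH
      rw [show Nat.card F ^ (2 * m) = Nat.card (Fin m ⊕ Fin m → F) by simp [two_mul]]
      refine H66.sp_even_min_index (B := H27.sympBilin m F) H27.sympBilin_isAlt H27.sympBilin_nondegenerate.1 h2 ?_
        (by simp; omega) hH
      by_contra h4
      have h3 := FiniteField.cast_card_eq_zero F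
      rw [show Fintype.card F = 3 by omega] at h3
      exact one_ne_zero (α := F) (by push_cast at h3; linear_combination h3 - h2)
    · exact H28.psp_odd_min_index h2 hm (by omega) hH
  · obtain ⟨H, hH⟩ := H28.psp_exists_index (F := F) (m := m) (by omega)
    rw [hc] at hH
    exact ⟨H, by rw [← hH, Nat.mul_div_cancel _ (by omega)]⟩

end Cfsg.Agent.S2141
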