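import Cfsg.Statements.S2142
import Cfsg.Agent.H66.SpFin
import Cfsg.Agent.S0246

set_option autoImplicit false
open Cfsg

namespace Cfsg.Agent.S2142


/-- Minimal index of a proper subgroup of the symplectic groups over the field with 2 elements: for m ≥ 3, every proper subgroup of Sp_2m(2) has index at least 2^(m−1)(2^m − 1), and that index is attained. -/
theorem result {F : Type*} [Field F] [Fintype F] (hF : Fintype.card F = 2) (m : ℕ) (hm : 3 ≤ m) : (∀ H : Subgroup (Cfsg.PSp m F), H ≠ ⊤ → 2 ^ (m - 1) * (2 ^ m - 1) ≤ H.index) ∧ (∃ H : Subgroup (Cfsg.PSp m F), H.index = 2 ^ (m - 1) * (2 ^ m - 1)) := by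
  have hq : Nat.card F = 2 := by rw [Nat.card_eq_fintype_card, hF]
  have : CharP F 2 := CharTwo.of_one_ne_zero_of_two_eq_zero one_ne_zero (by
    have := FiniteField.cast_card_eq_zero F
    rwa [hF] at this)
  obtain ⟨k, rfl⟩ : ∃ k, m = k + 1 := ⟨m - 1, by omega⟩
  obtain ⟨φ, h1, h2⟩ := H66.exists_toSp F (k + 1)
  have hc : Subgroup.center (Matrix.symplecticGroup (Fin (k + 1)) F) = ⊥ :=
    Subgroup.eq_bot_of_card_eq _ (S0246.result hF _ (by omega))
  let π := (QuotientGroup.mk' (Subgroup.center (Matrix.symplecticGroup (Fin (k + 1)) F))).comp φ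
  have hπ : Function.Surjective π := (QuotientGroup.mk'_surjective _).comp h2
  rw [Nat.add_sub_cancel]
  refine ⟨fun H hH => ?_, ?_⟩
  · rw [← Subgroup.index_comap_of_surjective H hπ]
    exact H66.sp_two_index hq (by omega) fun h => hH (Subgroup.comap_injective hπ h)
  · obtain ⟨H, hH⟩ := H66.sp_two_exists hq (k := k) (by omega)
    refine ⟨H.map π, (Subgroup.index_map_eq H hπ fun g hg => ?_).trans hH⟩
    have : φ g ∈ Subgroup.center _ := (QuotientGroup.eq_one_iff _).1 hg
    rw [hc, Subgroup.mem_bot, ← map_one φ] at this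
    rw [h1 this]
    exact H.one_mem

end Cfsg.Agent.S2142
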