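import Cfsg.Statements.S2143
import Cfsg.Agent.H66.OrthNum2

set_option autoImplicit false
open Cfsg

namespace Cfsg.Agent.S2143


/-- Minimal index of a proper subgroup of the odd-dimensional orthogonal groups: for m ≥ 3 and a field F with q elements, q odd and q ≥ 5, every proper subgroup of PΩ_(2m+1)(F) (for the form x₀² + Σ xᵢyᵢ) has index at least (q^(2m) − 1)/(q − 1), and that index is attained. -/
theorem result {F : Type*} [Field F] [Fintype F] {q : ℕ} (hF : Fintype.card F = q) (hodd : Odd q) (h5 : 5 ≤ q) (m : ℕ) (hm : 3 ≤ m) : (∀ H : Subgroup (Cfsg.POmega F (Cfsg.quadFormOdd m F)), H ≠ ⊤ → (q ^ (2 * m) - 1) / (q - 1) ≤ H.index) ∧ (∃ H : Subgroup (Cfsg.POmega F (Cfsg.quadFormOdd m F)), H.index = (q ^ (2 * m) - 1) / (q - 1)) := by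
  obtain ⟨j, rfl⟩ : ∃ j, m = j + 3 := ⟨m - 3, by omega⟩
  have h2 : (2 : F) ≠ 0 := H11.two_ne_zero_iff_odd.2 (hF ▸ hodd)
  rw [← Nat.card_eq_fintype_card] at hF
  subst hF
  have hQ := H11.nd_qOdd h2 (j + 3)
  have hd : 5 ≤ Module.finrank F (Unit ⊕ (Fin (j + 3) ⊕ Fin (j + 3)) → F) := by simp; omega
  have e := H11.pdEquiv (H11.isoOG (H11.qOdd F (j + 3)) _ (H11.qOdd_eq F _))
  have hp : 0 < Nat.card F ^ (2 * (j + 3)) := Nat.pow_pos Nat.card_pos
  refine ⟨H66.le_index_of_EG hQ hd e fun H hH => H66.odd_min h2 j (Or.inl ⟨h5, ?_⟩) hH, ?_⟩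
  · have := Nat.div_mul_le_self (Nat.card F ^ (2 * (j + 3)) - 1) (Nat.card F - 1)
    rw [← pow_mul, mul_comm (j + 3)]
    omega
  · obtain ⟨H, hH⟩ := H66.exists_index_sing hQ hd e
    refine ⟨H, (Nat.div_eq_of_eq_mul_left (by omega) ?_).symm⟩
    have := H11.card_zeros_qOdd (F := F) (j + 3)
    rw [H66.cnt] at hH
    omega

end Cfsg.Agent.S2143
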