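import Cfsg.Statements.S2144
import Cfsg.Agent.H66.OrthNum2

set_option autoImplicit false
open Cfsg

namespace Cfsg.Agent.S2144


/-- Minimal index of a proper subgroup of the odd-dimensional orthogonal groups over the field with 3 elements: for m ≥ 3, every proper subgroup of PΩ_(2m+1)(3) (for the form x₀² + Σ xᵢyᵢ) has index at least 3^m(3^m − 1)/2, and that index is attained. -/
theorem result {F : Type*} [Field F] [Fintype F] (hF : Fintype.card F = 3) (m : ℕ) (hm : 3 ≤ m) : (∀ H : Subgroup (Cfsg.POmega F (Cfsg.quadFormOdd m F)), H ≠ ⊤ → 3 ^ m * (3 ^ m - 1) / 2 ≤ H.index) ∧ (∃ H : Subgroup (Cfsg.POmega F (Cfsg.quadFormOdd m F)), H.index = 3 ^ m * (3 ^ m - 1) / 2) := by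
  obtain ⟨j, rfl⟩ : ∃ j, m = j + 3 := ⟨m - 3, by omega⟩
  have h2 : (2 : F) ≠ 0 := H11.two_ne_zero_iff_odd.2 (by rw [hF]; decide)
  rw [← Nat.card_eq_fintype_card] at hF
  have hQ := H11.nd_qOdd h2 (j + 3)
  have hd : 5 ≤ Module.finrank F (Unit ⊕ (Fin (j + 3) ⊕ Fin (j + 3)) → F) := by simp; omega
  have e := H11.pdEquiv (H11.isoOG (H11.qOdd F (j + 3)) _ (H11.qOdd_eq F _))
  have hp : 3 ^ (j + 3) * (3 ^ (j + 3) - 1) + 3 ^ (j + 3) = (3 ^ (j + 3)) ^ 2 := by
    rw [← Nat.mul_succ, Nat.succ_eq_add_one, Nat.sub_add_cancel (Nat.pow_pos (by norm_num)), sq]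
  refine ⟨H66.le_index_of_EG hQ hd e fun H hH => H66.odd_min h2 j (Or.inr ⟨hF, ?_⟩) hH, ?_⟩
  · omega
  · have h1 : ∀ c : F, c ≠ 0 → c * c = 1 := fun c hc => by
      rcases H66.eq_of_card_three hF c with h | h | h
      · exact (hc h).elim
      · rw [h, one_mul]
      · rw [h, neg_mul_neg, one_mul]
    obtain ⟨H, hH⟩ := H66.exists_index_nonsing hQ hd e h1 (t := -1) (by simp)
    refine ⟨H, (Nat.div_eq_of_eq_mul_left (by omega) ?_).symm⟩
    have h3 := H66.cnt_odd (F := F) (-1) (j + 3)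
    rw [H66.cnt_odd_base, hF] at h3
    · rw [hF] at hH
      omega
    · rintro ⟨c, hc⟩
      rw [h1 c (by rintro rfl; simp at hc)] at hc
      exact h2 (by linear_combination -hc)

end Cfsg.Agent.S2144
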