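import Cfsg.Statements.S2145
import Cfsg.Agent.H66.OrthNum2

set_option autoImplicit false
open Cfsg

namespace Cfsg.Agent.S2145


/-- Minimal index of a proper subgroup of the even-dimensional orthogonal groups of plus type: for m ≥ 4 and a field F with q ≥ 4 elements, every proper subgroup of PΩ⁺_2m(F) (for the form Σ xᵢyᵢ) has index at least (q^m − 1)(q^(m−1) + 1)/(q − 1), and that index is attained (the singular points). -/
theorem result {F : Type*} [Field F] [Fintype F] {q : ℕ} (hF : Fintype.card F = q) (hq : 4 ≤ q) (m : ℕ) (hm : 4 ≤ m) : (∀ H : Subgroup (Cfsg.POmega F (Cfsg.quadFormPlus m F)), H ≠ ⊤ → (q ^ m - 1) * (q ^ (m - 1) + 1) / (q - 1) ≤ H.index) ∧ (∃ H : Subgroup (Cfsg.POmega F (Cfsg.quadFormPlus m F)), H.index = (q ^ m - 1) * (q ^ (m - 1) + 1) / (q - 1)) := by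
  obtain ⟨j, rfl⟩ : ∃ j, m = j + 4 := ⟨m - 4, by omega⟩
  rw [← Nat.card_eq_fintype_card] at hF
  subst hF
  have hQ := H11.nd_qPlus F (j + 4)
  have hd : 5 ≤ Module.finrank F (Fin (j + 4) ⊕ Fin (j + 4) → F) := by simp; omega
  have e := H11.pdEquiv (H11.isoOG (H11.qPlus F (j + 4)) _ (H11.qPlus_eq F _))
  have hp : (Nat.card F ^ (j + 4) - 1) * (Nat.card F ^ (j + 4 - 1) + 1) + 1 =
      H66.cnt (H11.qPlus F (j + 4)) 0 := by
    have h1 : H66.cnt (H11.qPlus F (j + 4)) 0 + _ = _ := H66.cnt_plus_zero (F := F) (j + 3)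
    have h2 : 1 ≤ Nat.card F ^ (j + 4) := Nat.pow_pos Nat.card_pos
    rw [show j + 4 - 1 = j + 3 from rfl]
    zify [h2] at h1 ⊢
    linear_combination -h1
  refine ⟨H66.le_index_of_EG hQ hd e fun H hH => H66.plus_min j (Or.inl ⟨hq, ?_⟩) hH, ?_⟩
  · rw [← hp]
    exact Nat.succ_le_succ (Nat.div_mul_le_self _ _)
  · obtain ⟨H, hH⟩ := H66.exists_index_sing hQ hd e
    exact ⟨H, (Nat.div_eq_of_eq_mul_left (by omega) (by omega)).symm⟩

end Cfsg.Agent.S2145
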