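import Cfsg.Statements.S2146
import Cfsg.Agent.H66.OrthNum2

set_option autoImplicit false
open Cfsg

namespace Cfsg.Agent.S2146


/-- Minimal index of a proper subgroup of the even-dimensional orthogonal groups of plus type over the field with 2 elements: for m ≥ 4, every proper subgroup of Ω⁺_2m(2) (for the form Σ xᵢyᵢ) has index at least 2^(m−1)(2^m − 1), and that index is attained. -/
theorem result {F : Type*} [Field F] [Fintype F] (hF : Fintype.card F = 2) (m : ℕ) (hm : 4 ≤ m) : (∀ H : Subgroup (Cfsg.POmega F (Cfsg.quadFormPlus m F)), H ≠ ⊤ → 2 ^ (m - 1) * (2 ^ m - 1) ≤ H.index) ∧ (∃ H : Subgroup (Cfsg.POmega F (Cfsg.quadFormPlus m F)), H.index = 2 ^ (m - 1) * (2 ^ m - 1)) := by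
  obtain ⟨j, rfl⟩ : ∃ j, m = j + 4 := ⟨m - 4, by omega⟩
  rw [← Nat.card_eq_fintype_card] at hF
  have hQ := H11.nd_qPlus F (j + 4)
  have hd : 5 ≤ Module.finrank F (Fin (j + 4) ⊕ Fin (j + 4) → F) := by simp; omega
  have e := H11.pdEquiv (H11.isoOG (H11.qPlus F (j + 4)) _ (H11.qPlus_eq F _))
  have hp : 2 ^ (j + 4 - 1) * (2 ^ (j + 4) - 1) = H66.cnt (H11.qPlus F (j + 4)) 1 := by
    have h1 : H66.cnt (H11.qPlus F (j + 4)) 1 + _ = _ :=
      H66.cnt_plus_ne (F := F) one_ne_zero (j + 3)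
    have h2 : 1 ≤ 2 ^ (j + 4) := Nat.pow_pos (by norm_num)
    rw [show j + 4 - 1 = j + 3 from rfl]
    rw [hF] at h1
    zify [h2] at h1 ⊢
    linear_combination -h1
  refine ⟨H66.le_index_of_EG hQ hd e fun H hH => H66.plus_min j (Or.inr ⟨hF, hp.le⟩) hH, ?_⟩
  obtain ⟨H, hH⟩ := H66.exists_index_nonsing hQ hd e (fun c hc => by
    rw [(H66.eq_of_card_two hF c).resolve_left hc, one_mul]) (t := 1) one_ne_zero
  rw [hF] at hH
  exact ⟨H, by omega⟩

end Cfsg.Agent.S2146
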