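import Cfsg.Statements.S2147
import Cfsg.Agent.H66.OrthNum2

set_option autoImplicit false
open Cfsg

namespace Cfsg.Agent.S2147


/-- Minimal index of a proper subgroup of the even-dimensional orthogonal groups of minus type: for m ≥ 4 and a field F with q elements, every proper subgroup of PΩ⁻_2m(F) (for the form Σ_{i<m−1} xᵢyᵢ + z₁² + a z₁z₂ + b z₂² with anisotropic binary part) has index at least (q^m + 1)(q^(m−1) − 1)/(q − 1), and that index is attained. -/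
theorem result {F : Type*} [Field F] [Fintype F] {q : ℕ} (hF : Fintype.card F = q) (m : ℕ) (hm : 4 ≤ m) (a b : F) (hab : ∀ z₁ z₂ : F, z₁ ^ 2 + a * z₁ * z₂ + b * z₂ ^ 2 = 0 → z₁ = 0 ∧ z₂ = 0) : (∀ H : Subgroup (Cfsg.POmega F (Cfsg.quadFormMinus (m - 1) F a b)), H ≠ ⊤ → (q ^ m + 1) * (q ^ (m - 1) - 1) / (q - 1) ≤ H.index) ∧ (∃ H : Subgroup (Cfsg.POmega F (Cfsg.quadFormMinus (m - 1) F a b)), H.index = (q ^ m + 1) * (q ^ (m - 1) - 1) / (q - 1)) := by
  obtain ⟨j, rfl⟩ : ∃ j, m = j + 4 := ⟨m - 4, by omega⟩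
  rw [← Nat.card_eq_fintype_card] at hF
  subst hF
  have hq : 2 ≤ Nat.card F := Finite.one_lt_card
  have hQ := H11.nd_qMinus hab (j + 3)
  have hd : 5 ≤ Module.finrank F ((Fin (j + 3) ⊕ Fin (j + 3)) ⊕ Fin 2 → F) := by simp; omega
  have e := H11.pdEquiv (H11.isoOG (H11.qMinus (j + 3) a b) _ (H11.qMinus_eq _ a b))
  have hp : (Nat.card F ^ (j + 4) + 1) * (Nat.card F ^ (j + 4 - 1) - 1) + 1 =
      H66.cnt (H11.qMinus (j + 3) a b) 0 := by
    have h1 := H66.cnt_minus_zero hab (j + 3)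
    have h2 : 1 ≤ Nat.card F ^ (j + 3) := Nat.pow_pos Nat.card_pos
    rw [show j + 4 - 1 = j + 3 from rfl]
    zify [h2] at h1 ⊢
    linear_combination -h1
  refine ⟨H66.le_index_of_EG hQ hd e fun H hH => H66.minus_min hab j ?_ hH, ?_⟩
  · rw [← hp]
    exact Nat.succ_le_succ (Nat.div_mul_le_self _ _)
  · obtain ⟨H, hH⟩ := H66.exists_index_sing hQ hd e
    exact ⟨H, (Nat.div_eq_of_eq_mul_left (by omega) (by omega)).symm⟩

end Cfsg.Agent.S2147
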