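import Cfsg.Statements.S2150
import Cfsg.Agent.H28.U4c

set_option autoImplicit false
open Cfsg

namespace Cfsg.Agent.S2150

section

open Module Cfsg.Agent.H27 Cfsg.Agent.H28 Cfsg.Agent.H66

variable {F V : Type*} [Field F] [AddCommGroup V] [Module F V] [FiniteDimensional F V]

theorem two_le_finrank {x y : V} (h0 : x ≠ 0) (hy : y ∉ Submodule.span F {x}) :
    2 ≤ finrank F (Submodule.span F {x, y}) := by
  have := Submodule.finrank_lt_finrank_of_lt (s := Submodule.span F {x}) (t := Submodule.span F {x, y})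
    (lt_of_le_of_ne (Submodule.span_mono (by simp)) fun e => hy (e ▸ Submodule.subset_span (by simp)))
  rwa [finrank_span_singleton h0] at this

theorem eq_span_pair {L : Submodule F V} (h2 : finrank F L = 2) {x y : V} (hx : x ∈ L) (hy : y ∈ L)
    (h0 : x ≠ 0) (hxy : y ∉ Submodule.span F {x}) : Submodule.span F {x, y} = L :=
  Submodule.eq_of_le_of_finrank_le (Submodule.span_le.2 (by simp [Set.insert_subset_iff, hx, hy]))
    (h2 ▸ two_le_finrank h0 hxy)

variable [Fintype F] {q : ℕ} [hF : Fact (Fintype.card F = q ^ 2)]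

theorem card_lines_le {B : V →ₛₗ[H10.cj F q] V →ₗ[F] F} (U : UH B) (h4 : finrank F V = 4) {ι : Type*}
    [Finite ι] (L : ι → Submodule F V) (hL : Function.Injective L) (h2 : ∀ i, finrank F (L i) = 2)
    (hi : ∀ i, ∀ x ∈ L i, ∀ y ∈ L i, B x y = 0) : Nat.card ι ≤ (q + 1) * (q ^ 3 + 1) := by
  have : Finite V := Module.finite_of_finite F
  have hq := H10.two_le_q F q
  have h5 := card_ne_zero_succ (fun _ : F => True) trivial
  rw [Nat.card_congr (Equiv.subtypeUnivEquiv fun _ => trivial), Nat.card_eq_fintype_card (α := F),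
    hF.out] at h5
  have h6 : 4 ≤ q ^ 2 := by nlinarith
  have h1 := card_mul_le_of_rel (X := ι) (Ω := {x : V // x ≠ 0 ∧ B x x = 0}) (fun i x => x.1 ∈ L i)
    (a := q ^ 4 - 1) (b := q + 1) (fun i => by
      have h3 := card_ne_zero_succ (· ∈ L i) (L i).zero_mem
      rw [show Nat.card {x // x ∈ L i} = q ^ 4 by
        rw [Module.natCard_eq_pow_finrank (K := F), h2, Nat.card_eq_fintype_card, hF.out, ← pow_mul]] at h3
      rw [← h3, Nat.add_sub_cancel]
      exact Nat.card_le_card_of_injective (fun x => ⟨⟨x.1, x.2.1, hi i _ x.2.2 _ x.2.2⟩, x.2.2⟩)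
        fun _ _ e => Subtype.ext (congrArg (fun z => z.1.1) e))
    (fun x => by
      have h3 := card_mul_le_of_rel (X := {i // x.1 ∈ L i})
        (Ω := {y : V // B y y = 0 ∧ B x y = 0 ∧ y ∉ Submodule.span F {x.1}}) (fun i y => y.1 ∈ L i)
        (a := (q ^ 2 - 1) * q ^ 2) (b := 1) (fun i => by
          obtain ⟨y, hy, hy'⟩ := exists_not_mem_of_finrank_lt (W := L i) (S := Submodule.span F {x.1})
            (by rw [finrank_span_singleton x.2.1, h2]; omega)
          have hm : ∀ a b : F, a • y + b • x.1 ∈ L i := fun a b =>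
            (L i).add_mem ((L i).smul_mem _ hy) ((L i).smul_mem _ i.2)
          have hn : ∀ a b : F, a • y + b • x.1 ∈ Submodule.span F {x.1} → a = 0 := fun a b e => by
            by_contra h
            exact hy' ((Submodule.smul_mem_iff _ h).1 ((Submodule.add_mem_iff_left _
              (Submodule.smul_mem _ _ (Submodule.mem_span_singleton_self _))).1 e))
          refine le_of_eq_of_le (b := Nat.card ({c : F // c ≠ 0 ∧ True} × F)) (by
            rw [Nat.card_prod, Nat.card_eq_fintype_card (α := F), hF.out, Nat.eq_sub_of_add_eq h5]) ?_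
          refine Nat.card_le_card_of_injective (fun p => ⟨⟨p.1.1 • y + p.2 • x.1, hi i _ (hm _ _) _ (hm _ _),
            hi i _ i.2 _ (hm _ _), fun e => p.1.2.1 (hn _ _ e)⟩, hm _ _⟩) fun p p' e => ?_
          have e1 : p.1.1 • y + p.2 • x.1 = p'.1.1 • y + p'.2 • x.1 := congrArg (fun z => z.1.1) e
          have e2 := sub_eq_zero.1 (hn (p.1.1 - p'.1.1) (p.2 - p'.2) (by
            rw [sub_smul, sub_smul, ← add_sub_add_comm, e1, sub_self]; exact Submodule.zero_mem _))
          rw [e2, add_right_inj] at e1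
          exact Prod.ext (Subtype.ext e2) (smul_left_injective F x.2.1 e1))
        (fun y => Finite.card_le_one_iff_subsingleton.2 ⟨fun i j => Subtype.ext (Subtype.ext (hL
          ((eq_span_pair (h2 _) i.1.2 i.2 x.2.1 y.2.2.2).symm.trans
            (eq_span_pair (h2 _) j.1.2 j.2 x.2.1 y.2.2.2))))⟩)
      rw [mul_one] at h3
      refine Nat.le_of_mul_le_mul_right ((h3.trans (u4_card_col U h4 x.2.1 x.2.2)).trans_eq (by ring))
        (Nat.mul_pos (by omega) (by omega)))
  have h7 := u4_card_iso U h4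
  have h8 : 16 ≤ q ^ 4 := by nlinarith
  refine Nat.le_of_mul_le_mul_right (h1.trans_eq ?_) (show 0 < q ^ 4 - 1 by omega)
  zify [show 1 ≤ q ^ 4 by omega] at h7 ⊢
  linear_combination (q + 1) * h7

end

/-- Minimal index of a proper subgroup of the four-dimensional unitary groups: for a field F with q² elements, every proper subgroup of PSU₄(q) has index at least (q + 1)(q³ + 1), and that index is attained. -/
theorem result {F : Type*} [Field F] [Fintype F] (q : ℕ) (hF : Fintype.card F = q ^ 2) (hq : 2 ≤ q) : (∀ H : Subgroup (Cfsg.PSU 4 F q), H ≠ ⊤ → (q + 1) * (q ^ 3 + 1) ≤ H.index) ∧ (∃ H : Subgroup (Cfsg.PSU 4 F q), H.index = (q + 1) * (q ^ 3 + 1)) := by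
  have := Fact.mk hF
  obtain ⟨ζ, h0, hζ⟩ := H10.exists_skew F q
  obtain ⟨π, hπ, hk⟩ := H28.exists_toPSU (q := q) (n := 4) (by omega) h0
  have U := H27.uH_su (n := 4) (by omega) h0 hζ
  have : Finite (H27.GG (H27.suB 4 q ζ)) :=
    Finite.of_injective (fun g => (g.1 : (Fin 4 → F) → _)) fun _ _ e => H28.GG_ext (congrFun e)
  have h4 : Module.finrank F (Fin 4 → F) = 4 := by simp
  have key : ∀ H : Subgroup (Cfsg.PSU 4 F q), H ≠ ⊤ → (q + 1) * (q ^ 3 + 1) ≤ H.index := fun H hH => by
    obtain ⟨e, g, hg⟩ := H28.exists_action_of_ne_top π hπ hH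
    rw [← e]
    exact H28.u4_min_card U h4 hg
  refine ⟨key, ?_⟩
  obtain ⟨a, -, ha0, ha⟩ := (H28.NDs.top U.toSkH).exists_norm U (by simp) (μ := 0) (by simp)
  obtain ⟨w, h⟩ := H28.exists_HP U.toSkH ha ha0
  have hW := h.finrank_Wp U.toSkH
  obtain ⟨b, hb, hb0, hbb⟩ := H28.NDs.exists_norm U (h.nd U.toSkH) (by omega) (μ := 0) (by simp)
  have hL : ∀ x ∈ Submodule.span F {a, b}, ∀ y ∈ Submodule.span F {a, b}, H27.suB 4 q ζ x y = 0 := by
    intro x hx y hy
    obtain ⟨a₁, a₂, rfl⟩ := Submodule.mem_span_pair.1 hx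
    obtain ⟨b₁, b₂, rfl⟩ := Submodule.mem_span_pair.1 hy
    simp [ha, hbb, (H28.mem_Wp.1 hb).1, U.zero_symm hb.1]
  have h2 : Module.finrank F (Submodule.span F {a, b}) = 2 :=
    le_antisymm (H27.finrank_span_pair_le a b) (two_le_finrank ha0 fun e => by
      obtain ⟨c, rfl⟩ := Submodule.mem_span_singleton.1 e
      have : c = 0 := by simpa [h.wv U.toSkH] using (H28.mem_Wp.1 hb).2
      simp [this] at hb0)
  have ham : a ∈ Submodule.span F {a, b} := Submodule.subset_span (by simp)
  generalize Submodule.span F {a, b} = L at hL h2 ham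
  let K := (H27.stab L).subgroupOf (H27.GG (H27.suB 4 q ζ))
  have h5 : (K.map π).index = K.index := Subgroup.index_map_eq _ hπ fun g hg =>
    H27.mem_stab_of_mapsTo fun x hx => by
      obtain ⟨c, hc⟩ := Submodule.mem_span_singleton.1 (hk g hg x)
      exact hc ▸ L.smul_mem c hx
  refine ⟨K.map π, le_antisymm ?_ (key _ fun e => ?_)⟩
  · rw [h5]
    refine card_lines_le U h4 (fun c : _ ⧸ K => L.map (c.out.1 : (Fin 4 → F) →ₗ[F] (Fin 4 → F)))
      (fun c c' e => ?_) (fun c => by rw [LinearEquiv.finrank_map_eq, h2]) ?_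
    · rw [← c.out_eq, ← c'.out_eq]
      refine QuotientGroup.eq.2 (H27.mem_stab_of_mapsTo fun x hx => ?_)
      obtain ⟨y, hy, e'⟩ := e.ge (Submodule.mem_map_of_mem hx)
      rwa [Subgroup.coe_subtype, H28.GG_mul_apply, show c'.out.1 x = c.out.1 y from e'.symm, H28.GG_inv_apply]
    · rintro c _ ⟨x, hx, rfl⟩ _ ⟨y, hy, rfl⟩
      exact (H28.GG_iso _ x y).trans (hL x hx y hy)
  · rw [e, Subgroup.index_top, eq_comm, Subgroup.index_eq_one] at h5
    have := hL a ham _ (H27.stab_apply (h5.ge (Subgroup.mem_top (H28.eE U.toSkH w 0 1))) ham)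
    simp [H28.tE_apply U.toSkH h.ww, ha, h.vw, h.wv U.toSkH] at this

end Cfsg.Agent.S2150
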