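import Cfsg.Statements.S2151
import Cfsg.Agent.H28.UTransfer

set_option autoImplicit false
open Cfsg

namespace Cfsg.Agent.S2151

/-- Minimal index of a proper subgroup of the unitary groups of odd dimension n ≥ 5: for a field F with q² elements, every proper subgroup of PSU_n(q) has index at least (q^n + 1)(q^(n−1) − 1)/(q² − 1), and that index is attained. -/
theorem result {F : Type*} [Field F] [Fintype F] (q : ℕ) (hF : Fintype.card F = q ^ 2) (hq : 2 ≤ q) (n : ℕ) (hn : 5 ≤ n) (hodd : Odd n) : (∀ H : Subgroup (Cfsg.PSU n F q), H ≠ ⊤ → (q ^ n + 1) * (q ^ (n - 1) - 1) / (q ^ 2 - 1) ≤ H.index) ∧ (∃ H : Subgroup (Cfsg.PSU n F q), H.index = (q ^ n + 1) * (q ^ (n - 1) - 1) / (q ^ 2 - 1)) := by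
  have := Fact.mk hF
  obtain ⟨k, rfl⟩ : ∃ k, n = k + 2 := ⟨n - 2, by omega⟩
  have hk : Odd k := by simpa [parity_simps] using hodd
  have h1 : 1 ≤ q ^ 2 := Nat.one_le_pow _ _ (by omega)
  have h2 : 1 ≤ q ^ (k + 1) := Nat.one_le_pow _ _ (by omega)
  have h3 : 4 ≤ q ^ 2 := by nlinarith
  have hx : (1 : ℤ) ≤ (q : ℤ) ^ k := by exact_mod_cast Nat.one_le_pow k q (by omega)
  have hq' : (2 : ℤ) ≤ q := by exact_mod_cast hq
  refine ⟨fun H hH => Nat.div_le_of_le_mul ?_, ?_⟩
  · have h := H28.psu_min_index (by omega) hH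
    rw [hk.neg_pow] at h
    rw [show k + 2 - 1 = k + 1 from rfl]
    zify [h1, h2]
    rw [pow_succ, pow_succ]
    generalize (q : ℤ) ^ k = x at *
    rcases h with h | h
    · linarith
    · have h4 := mul_le_mul_of_nonneg_right h (show (0 : ℤ) ≤ q - 1 by omega)
      have h5 : 0 ≤ (q - 2) * ((q : ℤ) ^ 3 * x ^ 2) := mul_nonneg (by omega) (by positivity)
      have h6 : 0 ≤ (q - 1) * ((q : ℤ) * x) := mul_nonneg (by omega) (by positivity)
      linarith
  · obtain ⟨H, hH⟩ := H28.psu_exists_index (F := F) (q := q) (n := k + 2) (by omega) True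
    refine ⟨H, (Nat.div_eq_of_eq_mul_left (by omega) ?_).symm⟩
    rw [if_pos trivial, if_pos trivial, hodd.neg_pow] at hH
    rw [show k + 2 - 1 = k + 1 from rfl]
    zify [h1, h2]
    refine mul_left_cancel₀ (show (q : ℤ) ≠ 0 by omega) ?_
    rw [hH]
    ring

end Cfsg.Agent.S2151
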