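import Cfsg.Statements.S2153
import Cfsg.Agent.H28.UTransfer

set_option autoImplicit false
open Cfsg

namespace Cfsg.Agent.S2153

/-- Minimal index of a proper subgroup of the unitary groups PSU_n(2) with n divisible by 6, realised over the field with 4 elements: every proper subgroup has index at least 2^(n−1)(2^n − 1)/3, and that index is attained. -/
theorem result {F : Type*} [Field F] [Fintype F] (hF : Fintype.card F = 4) (n : ℕ) (hn : 6 ∣ n) (hpos : 6 ≤ n) : (∀ H : Subgroup (Cfsg.PSU n F 2), H ≠ ⊤ → 2 ^ (n - 1) * (2 ^ n - 1) / 3 ≤ H.index) ∧ (∃ H : Subgroup (Cfsg.PSU n F 2), H.index = 2 ^ (n - 1) * (2 ^ n - 1) / 3) := by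
  have : Fact (Fintype.card F = 2 ^ 2) := ⟨hF⟩
  obtain ⟨k, rfl⟩ : ∃ k, n = k + 2 := ⟨n - 2, by omega⟩
  have heven : Even (k + 2) := even_iff_two_dvd.2 (Dvd.dvd.trans (by norm_num) hn)
  have hk : Even k := by simpa [parity_simps] using heven
  have h2 : 1 ≤ 2 ^ (k + 2) := Nat.one_le_pow _ _ (by omega)
  have hx : (1 : ℤ) ≤ (2 : ℤ) ^ k := by exact_mod_cast Nat.one_le_pow k 2 (by omega)
  refine ⟨fun H hH => Nat.div_le_of_le_mul ?_, ?_⟩
  · have h := H28.psu_min_index (by omega) hH
    rw [hk.neg_pow] at h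
    rw [show k + 2 - 1 = k + 1 from rfl]
    zify [h2]
    simp only [pow_succ _ (k + 1), pow_succ _ k]
    push_cast at h
    generalize (2 : ℤ) ^ k = x at *
    rcases h with h | h <;> linarith
  · obtain ⟨H, hH⟩ := H28.psu_exists_index (F := F) (q := 2) (n := k + 2) (by omega) False
    refine ⟨H, (Nat.div_eq_of_eq_mul_left (by omega) ?_).symm⟩
    rw [if_neg id, if_neg id, heven.neg_pow] at hH
    rw [show k + 2 - 1 = k + 1 from rfl]
    zify [h2]
    refine mul_left_cancel₀ (show (2 : ℤ) ≠ 0 by omega) ?_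
    push_cast at hH
    rw [hH]
    ring

end Cfsg.Agent.S2153
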