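import Cfsg.Statements.S2155
import Cfsg.Agent.H64.Parab
import Cfsg.Agent.H64.FixMat
import Cfsg.Agent.H38.MatLevi
import Cfsg.Agent.H71.CharP

set_option autoImplicit false
open Cfsg

namespace Cfsg.Agent.S2155

/-- In a Chevalley group of type G₂, B₂, D₄, F₄, E₆, E₇ or E₈ over a finite field of characteristic p (for types G₂ and B₂ the field is assumed to have at least 3 elements, so that the group is simple), the generalized Fitting subgroup of every proper standard parabolic subgroup P_J is a p-group (P_J is p-constrained with trivial largest normal subgroup of order prime to p). -/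
theorem result {F : Type*} [Field F] [Fintype F] (p : ℕ) [Fact p.Prime] [CharP F p] (D : Cfsg.Lie.ChevalleyDatum) (hD : D ∈ [Cfsg.Lie.chevG2, Cfsg.Lie.chevB2, Cfsg.Lie.chevD4, Cfsg.Lie.chevF4, Cfsg.Lie.chevE6, Cfsg.Lie.chevE7, Cfsg.Lie.chevE8]) (hq : (D = Cfsg.Lie.chevG2 ∨ D = Cfsg.Lie.chevB2) → 3 ≤ Fintype.card F) (J : Set ℕ) (hJ : ∃ i, i < D.rank ∧ i ∉ J) : IsPGroup p ↥(Cfsg.generalizedFittingSubgroup ↥(D.parabolicSubgroup F J)) := by
  obtain ⟨inst⟩ := H37.nonempty_chev hD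
  obtain ⟨i, hi, hiJ⟩ := hJ
  rw [H38.mg_PJ hD]
  generalize hK : H38.nodes D J = K
  have hK' : ∃ j, j ∉ K := ⟨⟨i, hi⟩, hK ▸ hiJ⟩
  set X := H38.mg hD F
  have hU : IsPGroup p X.U := H64.mg_isPGroup_U hD F p
  have hN : ((X.UJ K).subgroupOf (X.PJ K)).Normal :=
    (Subgroup.normal_subgroupOf_iff_le_normalizer (X.UJ_le_PJ K)).2 (X.PJ_le_normalizer K)
  have h1 : (X.UJ K).subgroupOf (X.PJ K) ≤ pCore p (X.PJ K) :=
    H44.le_pCore hN ((hU.to_le (X.UJ_le_U K)).comap_subtype)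
  have h2 : Subgroup.centralizer ((X.UJ K).subgroupOf (X.PJ K) : Set (X.PJ K)) ≤ pCore p (X.PJ K) := by
    refine H44.le_pCore inferInstance ((hU.comap_subtype (K := X.PJ K)).to_le fun g hg => ?_)
    refine H64.mem_U_of_centralizes_UJ (H38.mg_faithful hD F) (H38.rs_conn hD)
      (fun h hh => H38.mg_adj hD F hh) hK' g.2 fun y hy => ?_
    exact (congrArg Subtype.val (hg ⟨y, X.UJ_le_PJ K hy⟩ hy)).symm
  rw [H71.gfitting_eq_pCore_iff.2 ((Subgroup.centralizer_le h1).trans h2)]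
  exact H44.pCore_isPGroup

end Cfsg.Agent.S2155
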