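import Cfsg.Statements.S2160
import Cfsg.Agent.H64.AutMat

set_option autoImplicit false
open Cfsg

namespace Cfsg.Agent.S2160

/-- In a Chevalley group of type G₂, B₂, D₄, F₄, E₆, E₇ or E₈ over a finite field, every field automorphism commutes with every graph automorphism. -/
theorem result {F : Type*} [Field F] [Finite F] (D : Cfsg.Lie.ChevalleyDatum) (hD : D ∈ [Cfsg.Lie.chevG2, Cfsg.Lie.chevB2, Cfsg.Lie.chevD4, Cfsg.Lie.chevF4, Cfsg.Lie.chevE6, Cfsg.Lie.chevE7, Cfsg.Lie.chevE8]) (f g : ↥(D.group F) ≃* ↥(D.group F))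
    (hf : D.IsFieldAut f) (hg : D.IsGraphAut g) (y : ↥(D.group F)) : f (g y) = g (f y) := by
  obtain ⟨inst⟩ := H37.nonempty_chev hD
  obtain ⟨τ, rfl⟩ := H64.exists_fieldHom_eq hD F hf
  obtain ⟨π, -, h⟩ := (H64.isGraphAut_iff hD).1 hg
  refine DFunLike.congr_fun (((H64.pin_fieldHom hD τ).mul h).ext (H64.gg_top hD F)
    (θ' := (g : MulAut (D.group F)) * H64.fieldHom D F τ) ?_) y
  convert h.mul (H64.pin_fieldHom hD τ) using 1
  · simp
  · ext i; simp
  · ext i t; simp [H64.gσ_apply]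

end Cfsg.Agent.S2160
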