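import Cfsg.Statements.S2161
import Cfsg.Agent.H64.AutMat

set_option autoImplicit false
open Cfsg

namespace Cfsg.Agent.S2161

/-- For the Chevalley groups of types D₄ and E₆ (one root length) over any field: if `π` is a symmetry of the Dynkin diagram and `φ` is an automorphism sending `x_{p_i}(t)` to `x_{p_{π i}}(t)` and `x_{-p_i}(t)` to `x_{-p_{π i}}(t)` for every fundamental root `p_i`, then for every root `r` there is a sign `ε = ±1` with `φ(x_r(t)) = x_{π·r}(ε t)` for all `t`, where `π·r` is the root whose coefficients are those of `r` permuted by `π`. -/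
theorem result {F : Type*} [Field F] (D : Cfsg.Lie.ChevalleyDatum) (hD : D ∈ [Cfsg.Lie.chevD4, Cfsg.Lie.chevE6])
    (π : Equiv.Perm (Fin D.rank)) (hπ : D.IsDiagramSymmetry π) (φ : ↥(D.group F) ≃* ↥(D.group F))
    (hφ : ∀ (g : ↥(D.group F)) (i : Fin D.rank) (t : F),
      (((g : GL D.Idx F) : Matrix D.Idx D.Idx F) = D.x F (D.simple i) t →
        ((φ g : GL D.Idx F) : Matrix D.Idx D.Idx F) = D.x F (D.simple (π i)) t) ∧
      (((g : GL D.Idx F) : Matrix D.Idx D.Idx F) = D.x F (D.neg (D.simple i)) t →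
        ((φ g : GL D.Idx F) : Matrix D.Idx D.Idx F) = D.x F (D.neg (D.simple (π i))) t))
    (r : ℕ) (hr : r < D.nroots) :
    ∃ ε : F, (ε = 1 ∨ ε = -1) ∧ ∀ (g : ↥(D.group F)) (t : F),
      ((g : GL D.Idx F) : Matrix D.Idx D.Idx F) = D.x F r t →
        ((φ g : GL D.Idx F) : Matrix D.Idx D.Idx F) = D.x F (D.permRoot π r) (ε * t) := by
  have hD' : H37.IsChev D := by
    simp only [List.mem_cons, List.not_mem_nil, or_false] at hD ⊢
    tauto
  obtain ⟨inst⟩ := H37.nonempty_chev hD'
  have hC : ∀ i j : Fin D.rank, D.cartan (π i) (D.simple (π j)) = D.cartan i (D.simple j) := by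
    have : ∀ i j : Fin D.rank, i ≠ j → D.cartan i (D.simple j) = - D.bonds i j := by
      simp only [List.mem_cons, List.not_mem_nil, or_false] at hD
      rcases hD with rfl | rfl <;> decide +kernel
    intro i j
    by_cases h : i = j
    · rw [h, H37.Chev.cartan_self (π j).2, H37.Chev.cartan_self j.2]
    · rw [this _ _ h, this _ _ (π.injective.ne h), hπ i j h]
  have hp : H64.Pin (H64.gg hD' F) φ π 1 1 := ⟨fun i t => by
    rw [← H64.eq_gg_x]
    simpa [H38.rs_sp_val] using (hφ _ i t).1 (H64.gg_x_mat hD' F ((H38.rs D).sp i) t),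
    fun i t => by
    rw [← H64.eq_gg_x]
    simpa [H38.rs_sp_val, H38.rs_neg_val] using
      (hφ _ i t).2 (H64.gg_x_mat hD' F ((H38.rs D).neg ((H38.rs D).sp i)) t)⟩
  have hn : ∀ (i : Fin D.rank) (s : Fin D.nroots), ∃ ε : F, (ε = 1 ∨ ε = -1) ∧ ∀ u,
      (H64.gg hD' F).ns i * (H64.gg hD' F).x s u * ((H64.gg hD' F).ns i)⁻¹ =
        (H64.gg hD' F).x ((H38.rs D).σ i s) (ε * u) := fun i s => by
    refine ⟨H37.eta D (D.simple i) s, ?_, fun u => Subtype.ext ?_⟩
    · rcases H37.Chev.eta_eq_or (D := D) (H37.Chev.simple_lt _ i.2) s.2 with h | h <;> simp [h]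
    · have := (H37.matRel hD' F).n_conj _ (H37.Chev.simple_lt _ i.2) _ s.2 1 one_ne_zero u
      rw [one_zpow, mul_one] at this
      have h5 : ((H64.gg hD' F).ns i : GL D.Idx F) = (H37.matRel hD' F).n (D.simple i) 1 :=
        H38.rg_ns (H37.matRel hD' F) i
      rw [Subgroup.coe_mul, Subgroup.coe_mul, Subgroup.coe_inv, h5]
      exact mul_inv_eq_iff_eq_mul.2 this
  have key : ∀ s : Fin D.nroots, ∃ s' : Fin D.nroots,
      (∀ j : Fin D.rank, H37.cor D s' (π j) = H37.cor D s j) ∧ ∃ ε : F, (ε = 1 ∨ ε = -1) ∧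
        ∀ t, φ ((H64.gg hD' F).x s t) = (H64.gg hD' F).x s' (ε * t) := by
    intro s
    induction s using (H38.rs D).root_induction with
    | h0 i =>
      refine ⟨(H38.rs D).sp (π i), fun j => ?_, 1, Or.inl rfl, fun t => by simpa using hp.pos i t⟩
      rw [H38.rs_sp_val, H38.rs_sp_val, H37.Chev.cor_simple (π i).2 (π j).2,
        H37.Chev.cor_simple i.2 j.2]
      simp [Fin.val_inj]
    | h1 i s ih =>
      obtain ⟨s', h1, ε, hε, h2⟩ := ih
      obtain ⟨a, ha, ha'⟩ := hn i s
      obtain ⟨b, hb, hb'⟩ := hn (π i) s'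
      refine ⟨(H38.rs D).σ (π i) s', fun j => ?_, b * ε * a, ?_, fun t => ?_⟩
      · rw [H38.rs_σ_val, H38.rs_σ_val, H37.Chev.cor_refl (H37.Chev.simple_lt _ (π i).2) s'.2 (π j).2,
          H37.Chev.cor_refl (H37.Chev.simple_lt _ i.2) s.2 j.2, h1,
          H37.Chev.cor_simple (π i).2 (π j).2, H37.Chev.cor_simple i.2 j.2,
          H37.pairing_eq_sum, H37.pairing_eq_sum, Finset.sum_range, Finset.sum_range,
          ← Equiv.sum_comp π]
        simp [h1, hC, Fin.val_inj]
      · rcases ha with rfl | rfl <;> rcases hb with rfl | rfl <;> rcases hε with rfl | rfl <;> simp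
      · have h3 : a * (a * t) = t := by rcases ha with rfl | rfl <;> simp
        have h4 : φ ((H64.gg hD' F).ns i) = (H64.gg hD' F).ns (π i) := by
          simpa [H38.RG.ns] using hp.map_n i 1
        conv_lhs => rw [← h3, ← ha', map_mul, map_mul, map_inv, h4, h2, hb']
        simp only [mul_assoc]
  obtain ⟨s', h1, ε, hε, h2⟩ := key ⟨r, hr⟩
  have h3 : D.permRoot π r = s' := by
    unfold Cfsg.Lie.ChevalleyDatum.permRoot
    rcases hf : (List.range D.nroots).find? (fun s => (List.finRange D.rank).all fun i =>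
      (D.coroot.getD s #[]).getD (π i).val 0 == (D.coroot.getD r #[]).getD i.val 0) with _ | s
    · exact absurd (by simpa [H37.cor] using h1)
        (List.find?_eq_none.1 hf s' (List.mem_range.2 s'.2))
    · have hs := List.mem_range.1 (List.mem_of_find?_eq_some hf)
      have h4 : ∀ j, j < D.rank → H37.cor D s j = H37.cor D s' j := fun j hj => by
        have h5 := List.find?_some hf
        simp only [List.all_eq_true, List.mem_finRange, beq_iff_eq, forall_const] at h5
        have h6 := h1 (π.symm ⟨j, hj⟩)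
        have h7 := h5 (π.symm ⟨j, hj⟩)
        rw [Equiv.apply_symm_apply] at h6 h7
        exact h7.trans h6.symm
      have h5 : ∀ q, D.pairing s q = D.pairing s' q := fun q => by
        rw [H37.pairing_eq_sum, H37.pairing_eq_sum]
        exact Finset.sum_congr rfl fun j hj => by rw [h4 j (Finset.mem_range.1 hj)]
      have h6 := H37.Chev.pairing_symm hs s'.2
      rw [h5, H37.Chev.pairing_self _ s'.2, ← h5, H37.Chev.pairing_self _ hs] at h6
      refine H37.Chev.vec_inj hs s'.2 fun j hj => ?_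
      have h7 := H37.Chev.cor_mul_len _ hs j hj
      rw [h4 j hj, show H37.Chev.len D s = H37.Chev.len D s' by omega,
        H37.Chev.cor_mul_len _ s'.2 j hj] at h7
      exact (mul_right_cancel₀ (H37.Chev.len_pos _ (H37.Chev.simple_lt _ hj)).ne' h7).symm
  refine ⟨ε, hε, fun g t e => ?_⟩
  rw [(H64.eq_gg_x hD' F (r := ⟨r, hr⟩)).1 e, h2, h3, H64.gg_x_mat]

end Cfsg.Agent.S2161
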