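import Cfsg.Statements.S2298
import Cfsg.Agent.H65.GL2Table

set_option autoImplicit false
open Cfsg

namespace Cfsg.Agent.S2298

/-- Over a finite field F with q elements, every irreducible complex character of GL₂ has degree 1, q − 1, q or q + 1; and when q ≥ 3 (so that these four numbers are distinct) there are exactly q − 1 irreducible characters of degree 1, exactly q − 1 of degree q, exactly (q − 1)(q − 2)/2 of degree q + 1 and exactly q(q − 1)/2 of degree q − 1. -/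
theorem result {F : Type*} [Field F] [Fintype F] :
    (∀ χ : Matrix.GeneralLinearGroup (Fin 2) F → ℂ, Cfsg.IsIrrCharacter (Matrix.GeneralLinearGroup (Fin 2) F) χ →
      χ 1 = 1 ∨ χ 1 = (Fintype.card F : ℂ) - 1 ∨ χ 1 = (Fintype.card F : ℂ) ∨ χ 1 = (Fintype.card F : ℂ) + 1) ∧
    (3 ≤ Fintype.card F →
      Nat.card {χ : Cfsg.IrrCharacter (Matrix.GeneralLinearGroup (Fin 2) F) // (χ : Matrix.GeneralLinearGroup (Fin 2) F → ℂ) 1 = 1} = Fintype.card F - 1 ∧
      Nat.card {χ : Cfsg.IrrCharacter (Matrix.GeneralLinearGroup (Fin 2) F) // (χ : Matrix.GeneralLinearGroup (Fin 2) F → ℂ) 1 = (Fintype.card F : ℂ)} = Fintype.card F - 1 ∧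
      Nat.card {χ : Cfsg.IrrCharacter (Matrix.GeneralLinearGroup (Fin 2) F) // (χ : Matrix.GeneralLinearGroup (Fin 2) F → ℂ) 1 = (Fintype.card F : ℂ) + 1} = (Fintype.card F - 1) * (Fintype.card F - 2) / 2 ∧
      Nat.card {χ : Cfsg.IrrCharacter (Matrix.GeneralLinearGroup (Fin 2) F) // (χ : Matrix.GeneralLinearGroup (Fin 2) F → ℂ) 1 = (Fintype.card F : ℂ) - 1} = Fintype.card F * (Fintype.card F - 1) / 2) := by
  classical
  obtain ⟨a, b, _, ⟨ι⟩⟩ := H65.exists_quad F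
  refine ⟨fun χ h => ?_, fun hq => ?_⟩
  · rcases H65.gl_irr_cases ι h with ⟨l, rfl⟩ | ⟨l, rfl⟩ | ⟨α, β, h', rfl⟩ | ⟨θ, h', rfl⟩ <;>
      simp [H65.detChar_one, H65.StG_one, H65.PS_one, H65.Cusp_one]
  have hq' : (3 : ℝ) ≤ Fintype.card F := by exact_mod_cast hq
  let _ := H65.fintypeMC F
  let _ := H65.fintypeQuad a b
  let _ := H65.fintypeMC (QuadraticAlgebra F a b)
  refine ⟨?_, ?_, ?_, ?_⟩
  · rw [← H65.card_image_detChar]
    refine H65.natCard_irr_eq (fun χ => χ 1 = 1) _ fun χ => ?_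
    simp only [Finset.mem_image, Finset.mem_univ, true_and]
    refine ⟨by rintro ⟨l, rfl⟩; exact ⟨H65.isIrr_detChar l, H65.detChar_one l⟩, fun ⟨h, h1⟩ => ?_⟩
    have h2 := congrArg Complex.re h1
    rcases H65.gl_irr_cases ι h with ⟨l, rfl⟩ | ⟨l, rfl⟩ | ⟨α, β, h', rfl⟩ | ⟨θ, h', rfl⟩ <;>
      simp only [H65.detChar_one, H65.StG_one, H65.PS_one, H65.Cusp_one, Complex.add_re,
        Complex.sub_re, Complex.natCast_re, Complex.one_re] at h2
    exacts [⟨l, rfl⟩, by linarith, by linarith, by linarith]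
  · rw [← H65.card_image_StG]
    refine H65.natCard_irr_eq (fun χ => χ 1 = Fintype.card F) _ fun χ => ?_
    simp only [Finset.mem_image, Finset.mem_univ, true_and]
    refine ⟨by rintro ⟨l, rfl⟩; exact ⟨H65.isIrr_StG l, H65.StG_one l⟩, fun ⟨h, h1⟩ => ?_⟩
    have h2 := congrArg Complex.re h1
    rcases H65.gl_irr_cases ι h with ⟨l, rfl⟩ | ⟨l, rfl⟩ | ⟨α, β, h', rfl⟩ | ⟨θ, h', rfl⟩ <;>
      simp only [H65.detChar_one, H65.StG_one, H65.PS_one, H65.Cusp_one, Complex.add_re,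
        Complex.sub_re, Complex.natCast_re, Complex.one_re] at h2
    exacts [by linarith, ⟨l, rfl⟩, by linarith, by linarith]
  · rw [← H65.card_image_PS, Nat.mul_div_cancel_left _ two_pos]
    refine H65.natCard_irr_eq (fun χ => χ 1 = Fintype.card F + 1) _ fun χ => ?_
    simp only [Finset.mem_image, Finset.mem_univ, true_and, Finset.mem_offDiag]
    refine ⟨by rintro ⟨l, h, rfl⟩; exact ⟨H65.isIrr_PS h, H65.PS_one _ _⟩, fun ⟨h, h1⟩ => ?_⟩
    have h2 := congrArg Complex.re h1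
    rcases H65.gl_irr_cases ι h with ⟨l, rfl⟩ | ⟨l, rfl⟩ | ⟨α, β, h', rfl⟩ | ⟨θ, h', rfl⟩ <;>
      simp only [H65.detChar_one, H65.StG_one, H65.PS_one, H65.Cusp_one, Complex.add_re,
        Complex.sub_re, Complex.natCast_re, Complex.one_re] at h2
    exacts [by linarith, by linarith, ⟨(α, β), h', rfl⟩, by linarith]
  · rw [← H65.card_image_Cusp ι, Nat.mul_div_cancel_left _ two_pos]
    refine H65.natCard_irr_eq (fun χ => χ 1 = Fintype.card F - 1) _ fun χ => ?_
    simp only [Finset.mem_image, Finset.mem_univ, true_and, Finset.mem_filter]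
    refine ⟨by rintro ⟨l, h, rfl⟩; exact ⟨H65.isIrr_Cusp ι h, H65.Cusp_one _ _⟩, fun ⟨h, h1⟩ => ?_⟩
    have h2 := congrArg Complex.re h1
    rcases H65.gl_irr_cases ι h with ⟨l, rfl⟩ | ⟨l, rfl⟩ | ⟨α, β, h', rfl⟩ | ⟨θ, h', rfl⟩ <;>
      simp only [H65.detChar_one, H65.StG_one, H65.PS_one, H65.Cusp_one, Complex.add_re,
        Complex.sub_re, Complex.natCast_re, Complex.one_re] at h2
    exacts [by linarith, by linarith, by linarith, ⟨θ, h', rfl⟩]

end Cfsg.Agent.S2298
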