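import Cfsg.Statements.S2301
import Cfsg.Agent.H65.SL2Unip

set_option autoImplicit false
open Cfsg

namespace Cfsg.Agent.S2301

/-- Over a finite field with q elements of odd characteristic p, the elements of order p of SL₂ (the non-identity unipotent elements) fall into exactly two conjugacy classes, each of size (q² − 1)/2; two upper unitriangular matrices with non-zero off-diagonal entries b and b′ are conjugate exactly when bb′ is a square. -/
theorem result {F : Type*} [Field F] [Fintype F] (p : ℕ) [Fact p.Prime] [CharP F p] (hp : p ≠ 2) :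
    Nat.card {C : ConjClasses (Matrix.SpecialLinearGroup (Fin 2) F) // ∃ g : Matrix.SpecialLinearGroup (Fin 2) F, orderOf g = p ∧ ConjClasses.mk g = C} = 2 ∧
    (∀ g : Matrix.SpecialLinearGroup (Fin 2) F, orderOf g = p → Nat.card (ConjClasses.mk g).carrier = (Fintype.card F ^ 2 - 1) / 2) ∧
    ∀ g h : Matrix.SpecialLinearGroup (Fin 2) F, (g : Matrix (Fin 2) (Fin 2) F) 0 0 = 1 → (g : Matrix (Fin 2) (Fin 2) F) 1 1 = 1 → (g : Matrix (Fin 2) (Fin 2) F) 1 0 = 0 → (g : Matrix (Fin 2) (Fin 2) F) 0 1 ≠ 0 →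
      (h : Matrix (Fin 2) (Fin 2) F) 0 0 = 1 → (h : Matrix (Fin 2) (Fin 2) F) 1 1 = 1 → (h : Matrix (Fin 2) (Fin 2) F) 1 0 = 0 → (h : Matrix (Fin 2) (Fin 2) F) 0 1 ≠ 0 →
      (IsConj g h ↔ IsSquare ((g : Matrix (Fin 2) (Fin 2) F) 0 1 * (h : Matrix (Fin 2) (Fin 2) F) 0 1)) := by
  classical
  have h2 : ringChar F ≠ 2 := by rw [ringChar.eq F p]; exact hp
  have hodd := FiniteField.odd_card_of_char_ne_two h2
  refine ⟨?_, fun g hg => ?_, fun g h g1 g2 g3 g4 h1 h2 h3 h4 => ?_⟩
  · obtain ⟨n, hn⟩ := FiniteField.exists_nonsquare h2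
    have hn0 : n ≠ 0 := by rintro rfl; exact hn IsSquare.zero
    rw [Nat.card_eq_two_iff]
    refine ⟨⟨_, H65.bs 1 1, H65.orderOf_bs_one p one_ne_zero, rfl⟩,
      ⟨_, H65.bs 1 n, H65.orderOf_bs_one p hn0, rfl⟩, fun h => hn ?_, ?_⟩
    · have := ConjClasses.mk_eq_mk_iff_isConj.1 (congrArg Subtype.val h)
      simpa using (H65.isConj_bs_one_iff one_ne_zero hn0).1 this
    · rw [Set.eq_univ_iff_forall]
      rintro ⟨_, g, hg, rfl⟩
      obtain ⟨x, hx, h1⟩ := H65.exists_isConj_of_orderOf p hg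
      simp only [Set.mem_insert_iff, Set.mem_singleton_iff, Subtype.mk.injEq,
        ConjClasses.mk_eq_mk_iff_isConj]
      by_cases hs : IsSquare x
      · exact Or.inl (h1.trans ((H65.isConj_bs_one_iff hx one_ne_zero).2 (by simpa using hs)))
      · obtain ⟨s, rfl⟩ := H65.exists_sq_mul hn hs
        exact Or.inr (h1.trans (H65.isConj_bs_sq 1 s n).symm)
  · obtain ⟨x, hx, h1⟩ := H65.exists_isConj_of_orderOf p hg
    have h4 := H65.card_carrier_bs hx
    rw [Nat.gcd_eq_right ((Nat.odd_iff.2 hodd).tsub_odd odd_one).two_dvd] at h4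
    rw [ConjClasses.mk_eq_mk_iff_isConj.2 h1, ← h4, Nat.mul_div_cancel_left _ two_pos]
  · obtain ⟨a, x, rfl⟩ := H65.exists_bs g3
    obtain ⟨b, y, rfl⟩ := H65.exists_bs h3
    obtain rfl : a = 1 := Units.ext (by simpa [H65.coe_bs] using g1)
    obtain rfl : b = 1 := Units.ext (by simpa [H65.coe_bs] using h1)
    simpa [H65.coe_bs] using H65.isConj_bs_one_iff (x := x) (y := y)
      (by simpa [H65.coe_bs] using g4) (by simpa [H65.coe_bs] using h4)

end Cfsg.Agent.S2301
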