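import Cfsg.Statements.S2302
import Cfsg.Agent.H65.SL2Unip

set_option autoImplicit false
open Cfsg

namespace Cfsg.Agent.S2302

/-- Over a finite field with q elements of characteristic 2, the involutions of SL₂ (the non-identity unipotent elements) form a single conjugacy class, of size q² − 1. -/
theorem result {F : Type*} [Field F] [Fintype F] [CharP F 2] (g h : Matrix.SpecialLinearGroup (Fin 2) F) (hg : orderOf g = 2) (hh : orderOf h = 2) :
    IsConj g h ∧ Nat.card (ConjClasses.mk g).carrier = Fintype.card F ^ 2 - 1 := by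
  classical
  have h2 := ringChar.eq F 2
  obtain ⟨x, hx, h1⟩ := H65.exists_isConj_of_orderOf 2 hg
  obtain ⟨y, hy, h3⟩ := H65.exists_isConj_of_orderOf 2 hh
  refine ⟨h1.trans (((H65.isConj_bs_one_iff hx hy).2
    (FiniteField.isSquare_of_char_two h2 _)).trans h3.symm), ?_⟩
  have h4 := H65.card_carrier_bs hx
  have h5 := FiniteField.even_card_of_char_two h2
  have : 2 ≤ Fintype.card F := Fintype.one_lt_card
  rw [Nat.Coprime.gcd_eq_one (Nat.coprime_two_right.2 (Nat.odd_iff.2 (by omega))), one_mul] at h4
  rw [ConjClasses.mk_eq_mk_iff_isConj.2 h1, h4]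

end Cfsg.Agent.S2302
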