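import Cfsg.Statements.S2303
import Cfsg.Agent.H65.GL2Table

set_option autoImplicit false
open Cfsg

namespace Cfsg.Agent.S2303

/-- Over a finite field with q elements: a diagonal element of GL₂ with two distinct diagonal entries has centralizer of order (q − 1)² (so q(q + 1) conjugates), and an element of GL₂ with no eigenvector in F² has centralizer of order q² − 1 (so q(q − 1) conjugates). -/
theorem result {F : Type*} [Field F] [Fintype F] (g : Matrix.GeneralLinearGroup (Fin 2) F) :
    ((g : Matrix (Fin 2) (Fin 2) F) 0 1 = 0 → (g : Matrix (Fin 2) (Fin 2) F) 1 0 = 0 → (g : Matrix (Fin 2) (Fin 2) F) 0 0 ≠ (g : Matrix (Fin 2) (Fin 2) F) 1 1 →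
      Nat.card (Subgroup.centralizer ({g} : Set (Matrix.GeneralLinearGroup (Fin 2) F))) = (Fintype.card F - 1) ^ 2) ∧
    ((∀ (c : F) (v : Fin 2 → F), v ≠ 0 → (g : Matrix (Fin 2) (Fin 2) F).mulVec v ≠ c • v) →
      Nat.card (Subgroup.centralizer ({g} : Set (Matrix.GeneralLinearGroup (Fin 2) F))) = Fintype.card F ^ 2 - 1) := by
  classical
  refine ⟨fun g1 g2 g3 => ?_, fun hg => ?_⟩
  · obtain ⟨c, d, x, rfl⟩ := H65.exists_bm g2
    obtain rfl : x = 0 := by simpa [H65.coe_bm] using g1
    have hcd : (c : F) - d ≠ 0 := sub_ne_zero.2 (by simpa [H65.coe_bm] using g3)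
    rw [sq, ← Nat.card_eq_fintype_card, ← Nat.card_units, ← Nat.card_prod]
    symm
    refine Nat.card_congr (Equiv.ofBijective (fun p => ⟨H65.bm p.1 p.2 0, ?_⟩) ⟨?_, ?_⟩)
    · rw [Subgroup.mem_centralizer_singleton_iff, H65.bm_mul, H65.bm_mul, H65.bm_inj]
      simp [mul_comm]
    · rintro ⟨x, y⟩ ⟨z, w⟩ h
      simpa [H65.bm_inj] using h
    · rintro ⟨g, hg⟩
      have h := congrArg Units.val (Subgroup.mem_centralizer_singleton_iff.1 hg)
      have h10 := congrFun (congrFun h 1) 0
      have h01 := congrFun (congrFun h 0) 1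
      simp [H65.coe_bm, Matrix.mul_apply, Fin.sum_univ_two, Matrix.vecMul, dotProduct] at h10 h01
      obtain ⟨x, y, z, rfl⟩ := H65.exists_bm (g := g)
        (mul_left_cancel₀ hcd (by linear_combination h10))
      have : z = 0 := by
        simp [H65.coe_bm] at h01
        exact mul_left_cancel₀ hcd (by linear_combination -h01)
      subst this
      exact ⟨(x, y), rfl⟩
  · have : Fact (∀ r : F, r ^ 2 ≠ -g.1.det + g.1.trace * r) := ⟨(H65.isEll_iff _).1 hg⟩
    let z : (QuadraticAlgebra F (-g.1.det) g.1.trace)ˣ :=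
      Units.mk0 QuadraticAlgebra.omega (fun h => by simpa using congrArg QuadraticAlgebra.im h)
    have hz : g = H65.tu (H65.ellHom g.1) z := Units.ext (H65.ellHom_omega g.1).symm
    have h1 := H65.centralizer_tu (H65.ellHom g.1) (z := z) (by simp [z])
    rw [← hz] at h1
    rw [h1, ← Nat.card_congr (MonoidHom.ofInjective (H65.tu_injective _)).toEquiv,
      H65.card_units_quad, ← Nat.sq_sub_sq, one_pow]

end Cfsg.Agent.S2303
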