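import Cfsg.Statements.S2308
import Cfsg.Agent.H65.GL2PS

set_option autoImplicit false
open Cfsg

namespace Cfsg.Agent.S2308

/-- Values of the permutation character of GL₂ over a finite field F with q elements on the cosets of its upper triangular subgroup (equivalently, the number of lines of F² that an element maps to themselves): q + 1 at a scalar matrix, 2 at a diagonal matrix with two different diagonal entries, 0 at an element with no eigenvector in F², and 1 at an upper triangular matrix with equal diagonal entries and non-zero upper right entry. -/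
theorem result {F : Type*} [Field F] [Fintype F] (g : Matrix.GeneralLinearGroup (Fin 2) F) :
    ((∃ a : F, (g : Matrix (Fin 2) (Fin 2) F) = a • (1 : Matrix (Fin 2) (Fin 2) F)) → Cfsg.fixedPointCharacter (Cfsg.upperTriangularGL 2 F) g = Fintype.card F + 1) ∧
    ((g : Matrix (Fin 2) (Fin 2) F) 0 1 = 0 → (g : Matrix (Fin 2) (Fin 2) F) 1 0 = 0 → (g : Matrix (Fin 2) (Fin 2) F) 0 0 ≠ (g : Matrix (Fin 2) (Fin 2) F) 1 1 →
      Cfsg.fixedPointCharacter (Cfsg.upperTriangularGL 2 F) g = 2) ∧
    ((∀ (c : F) (v : Fin 2 → F), v ≠ 0 → (g : Matrix (Fin 2) (Fin 2) F).mulVec v ≠ c • v) → Cfsg.fixedPointCharacter (Cfsg.upperTriangularGL 2 F) g = 0) ∧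
    ((g : Matrix (Fin 2) (Fin 2) F) 1 0 = 0 → (g : Matrix (Fin 2) (Fin 2) F) 0 0 = (g : Matrix (Fin 2) (Fin 2) F) 1 1 → (g : Matrix (Fin 2) (Fin 2) F) 0 1 ≠ 0 →
      Cfsg.fixedPointCharacter (Cfsg.upperTriangularGL 2 F) g = 1) := by
  classical
  have key : Cfsg.fixedPointCharacter (Cfsg.upperTriangularGL 2 F) g = H65.PS 1 1 g := by
    rw [Cfsg.fixedPointCharacter, H65.fixedPointCharacter_eq_indFun', H65.PS]
    congr 1
    ext ⟨b, hb⟩
    obtain ⟨a, d, x, rfl⟩ := H65.exists_bm (H65.mem_B.1 hb)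
    simp [H65.bChar_bm]
  rw [key]
  refine ⟨?_, fun h1 h2 h3 => ?_, fun h => H65.PS_ell _ _ h, fun h1 h2 h3 => ?_⟩
  · rintro ⟨c, hc⟩
    obtain ⟨a, d, x, rfl⟩ := H65.exists_bm (g := g) (by simp [hc])
    have h1 := congrFun (congrFun hc 0) 0
    have h2 := congrFun (congrFun hc 1) 1
    have h3 := congrFun (congrFun hc 0) 1
    simp [H65.coe_bm] at h1 h2 h3
    obtain rfl : a = d := Units.ext (h1.trans h2.symm)
    subst h3
    simp [H65.PS_scalar]
  · obtain ⟨a, d, x, rfl⟩ := H65.exists_bm h2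
    have : a ≠ d := fun e => h3 (by simp [H65.coe_bm, e])
    rw [H65.PS_split _ _ this]
    simp; norm_num
  · obtain ⟨a, d, x, rfl⟩ := H65.exists_bm h1
    obtain rfl : a = d := Units.ext (by simpa [H65.coe_bm] using h2)
    rw [H65.PS_unip _ _ _ (by simpa [H65.coe_bm] using h3)]
    simp

end Cfsg.Agent.S2308
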