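import Cfsg.Statements.S2309
import Cfsg.Agent.H65.GL2Table

set_option autoImplicit false
open Cfsg

namespace Cfsg.Agent.S2309

/-- Over a finite field F with q elements: every irreducible complex character of GL₂ of degree q − 1 vanishes at every diagonal matrix with two distinct entries, and every irreducible complex character of degree q + 1 vanishes at every element with no eigenvector in F². -/
theorem result {F : Type*} [Field F] [Fintype F] (χ : Matrix.GeneralLinearGroup (Fin 2) F → ℂ) (hχ : Cfsg.IsIrrCharacter (Matrix.GeneralLinearGroup (Fin 2) F) χ) (g : Matrix.GeneralLinearGroup (Fin 2) F) :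
    (χ 1 = (Fintype.card F : ℂ) - 1 → (g : Matrix (Fin 2) (Fin 2) F) 0 1 = 0 → (g : Matrix (Fin 2) (Fin 2) F) 1 0 = 0 → (g : Matrix (Fin 2) (Fin 2) F) 0 0 ≠ (g : Matrix (Fin 2) (Fin 2) F) 1 1 → χ g = 0) ∧
    (χ 1 = (Fintype.card F : ℂ) + 1 → (∀ (c : F) (v : Fin 2 → F), v ≠ 0 → (g : Matrix (Fin 2) (Fin 2) F).mulVec v ≠ c • v) → χ g = 0) := by
  classical
  obtain ⟨a, b, _, ⟨ι⟩⟩ := H65.exists_quad F
  have hq' : (2 : ℝ) ≤ Fintype.card F := by exact_mod_cast Fintype.one_lt_card
  refine ⟨fun h1 g1 g2 g3 => ?_, fun h1 hg => ?_⟩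
  · obtain ⟨c, d, x, rfl⟩ := H65.exists_bm g2
    have hcd : c ≠ d := fun e => g3 (by simp [H65.coe_bm, e])
    have hq : (3 : ℝ) ≤ Fintype.card F := by
      have h1 : 1 < Fintype.card Fˣ := Fintype.one_lt_card_iff.2 ⟨c, d, hcd⟩
      rw [Fintype.card_units] at h1
      have : 3 ≤ Fintype.card F := by omega
      exact_mod_cast this
    have h2 := congrArg Complex.re h1
    rcases H65.gl_irr_cases ι hχ with ⟨l, rfl⟩ | ⟨l, rfl⟩ | ⟨α, β, h', rfl⟩ | ⟨θ, h', rfl⟩ <;>
      simp only [H65.detChar_one, H65.StG_one, H65.PS_one, H65.Cusp_one, Complex.add_re,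
        Complex.sub_re, Complex.natCast_re, Complex.one_re] at h2
    exacts [by linarith, by linarith, by linarith, H65.Cusp_split _ _ hcd _]
  · have h2 := congrArg Complex.re h1
    rcases H65.gl_irr_cases ι hχ with ⟨l, rfl⟩ | ⟨l, rfl⟩ | ⟨α, β, h', rfl⟩ | ⟨θ, h', rfl⟩ <;>
      simp only [H65.detChar_one, H65.StG_one, H65.PS_one, H65.Cusp_one, Complex.add_re,
        Complex.sub_re, Complex.natCast_re, Complex.one_re] at h2
    exacts [by linarith, by linarith, H65.PS_ell _ _ hg, by linarith]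

end Cfsg.Agent.S2309
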