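import Cfsg.Statements.S2310
import Cfsg.Agent.H65.GL2Table

set_option autoImplicit false
open Cfsg

namespace Cfsg.Agent.S2310

/-- Over a finite field F with q ≥ 3 elements, let u be the upper unitriangular matrix of GL₂ with off-diagonal entry 1. An irreducible complex character χ of GL₂ takes at u the value 1 if χ has degree 1 or q + 1, the value −1 if χ has degree q − 1, and the value 0 if χ has degree q. -/
theorem result {F : Type*} [Field F] [Fintype F] (hq : 3 ≤ Fintype.card F) (χ : Matrix.GeneralLinearGroup (Fin 2) F → ℂ) (hχ : Cfsg.IsIrrCharacter (Matrix.GeneralLinearGroup (Fin 2) F) χ)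
    (u : Matrix.GeneralLinearGroup (Fin 2) F) (hu : (u : Matrix (Fin 2) (Fin 2) F) = !![1, 1; 0, 1]) :
    (χ 1 = 1 → χ u = 1) ∧ (χ 1 = (Fintype.card F : ℂ) + 1 → χ u = 1) ∧
    (χ 1 = (Fintype.card F : ℂ) - 1 → χ u = -1) ∧ (χ 1 = (Fintype.card F : ℂ) → χ u = 0) := by
  classical
  obtain ⟨a, b, _, ⟨ι⟩⟩ := H65.exists_quad F
  have hq' : (3 : ℝ) ≤ Fintype.card F := by exact_mod_cast hq
  obtain rfl : u = H65.bm 1 1 1 := Units.ext (by simp [hu, H65.coe_bm])
  refine ⟨fun h1 => ?_, fun h1 => ?_, fun h1 => ?_, fun h1 => ?_⟩ <;>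
  have h2 := congrArg Complex.re h1 <;>
  rcases H65.gl_irr_cases ι hχ with ⟨l, rfl⟩ | ⟨l, rfl⟩ | ⟨α, β, h', rfl⟩ | ⟨θ, h', rfl⟩ <;>
    simp only [H65.detChar_one, H65.StG_one, H65.PS_one, H65.Cusp_one, Complex.add_re,
      Complex.sub_re, Complex.natCast_re, Complex.one_re] at h2 <;>
    first
    | (exfalso; linarith)
    | simp [H65.detChar_bm, H65.StG_unip, H65.PS_unip, H65.Cusp_unip]

end Cfsg.Agent.S2310
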