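import Cfsg.Statements.S2313
import Cfsg.Agent.H38.StMat

set_option autoImplicit false
open Cfsg

namespace Cfsg.Agent.S2313

/-- In a Chevalley group of type G₂, B₂, D₄, F₄, E₆, E₇ or E₈ over a finite field, the restriction of the Steinberg character to the subgroup B = UH is the permutation character of B on the cosets of the diagonal subgroup H: at b ∈ B its value is the number of cosets xH, x ∈ B, with bxH = xH. -/
theorem result {F : Type*} [Field F] [Fintype F] (D : Cfsg.Lie.ChevalleyDatum) (hD : D ∈ [Cfsg.Lie.chevG2, Cfsg.Lie.chevB2, Cfsg.Lie.chevD4, Cfsg.Lie.chevF4, Cfsg.Lie.chevE6, Cfsg.Lie.chevE7, Cfsg.Lie.chevE8]) (b : ↥((D.borelSubgroup F).subgroupOf (D.group F))) :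
    D.steinbergCharacter F ((((D.borelSubgroup F).subgroupOf (D.group F)).subtype) b) =
      Cfsg.fixedPointCharacter (((D.diagonalSubgroup F).subgroupOf (D.group F)).subgroupOf ((D.borelSubgroup F).subgroupOf (D.group F))) b := by
  have := Fintype.ofFinite (D.group F)
  obtain ⟨p, hp, -⟩ := FiniteField.card' F
  have := Fact.mk (CharP.char_is_prime F p)
  obtain ⟨S, h1, h2, h3, -⟩ := H38.exists_stData hD F p
  have := S.St_res ∅ b (by rw [h2]; exact b.2)
  rw [← h1, ← H38.pc_eq_subgroupOf (by rw [← h2, ← h3]; exact S.M_le subset_rfl)]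
  simpa [h2, h3] using this

end Cfsg.Agent.S2313
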