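import Cfsg.Statements.S2315
import Cfsg.Agent.H33.DefRG
import Cfsg.Agent.H38.ClA

set_option autoImplicit false
open Cfsg

namespace Cfsg.Agent.S2315

theorem two_mul_ncard {ι R : Type} [Fintype ι] [DecidableEq ι] [Finite R] (P : H38.RS ι R) :
    {r | P.Pos r}.ncard * 2 = Nat.card R := by
  have : {r | P.Pos r}ᶜ = P.neg '' {r | P.Pos r} := by
    ext r
    exact ⟨fun h => ⟨P.neg r, P.pos_neg_iff.2 h, P.neg_neg r⟩, by
      rintro ⟨s, hs, rfl⟩; exact P.not_pos_neg_iff.2 hs⟩
  rw [← Set.ncard_add_ncard_compl {r | P.Pos r}, this, Set.ncard_image_of_injective _ P.neg_inj, mul_two]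

/-- Steinberg's count of unipotent elements for the general linear group: over a finite field with q elements of characteristic p, the number of elements of GL_n of p-power order (the unipotent matrices) is q^(n(n−1)). -/
theorem result {F : Type*} [Field F] [Fintype F] (p : ℕ) [Fact p.Prime] [CharP F p] (n : ℕ) :
    Nat.card {g : Matrix.GeneralLinearGroup (Fin n) F // ∃ k : ℕ, orderOf g = p ^ k} = Fintype.card F ^ (n * (n - 1)) := by
  rcases n with _ | n
  · simp only [zero_mul, pow_zero]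
    exact Nat.card_eq_one_iff_unique.2 ⟨inferInstance, ⟨⟨1, 0, by simp⟩⟩⟩
  have := Fintype.ofFinite (Matrix.SpecialLinearGroup (Fin (n + 1)) F)
  obtain ⟨S, -, h, -⟩ := H33.rg_stData p (H38.ClA.faithful (n := n) (F := F)) H38.ClA.grp_eq_top
  have h1 := S.card_unipotent
  rw [h, H38.RG.U, H38.RG0.card_US _ H38.ClA.faithful.sep (H38.ClA.rs n).cl_pos, ← pow_mul, two_mul_ncard,
    Nat.card_eq_fintype_card (α := F)] at h1
  have h2 : Nat.card (H38.ClA.Rt n) = (n + 1) * (n + 1 - 1) := by
    rw [Nat.card_eq_fintype_card, Fintype.card_subtype,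
      show Finset.univ.filter (fun x : Fin (n + 1) × Fin (n + 1) => x.1 ≠ x.2) = Finset.univ.offDiag by
        ext; simp, Finset.offDiag_card]
    simp [mul_add]
  rw [← h2, ← h1]
  symm
  refine Nat.card_eq_of_bijective (fun g => ⟨Matrix.SpecialLinearGroup.toGL g.1, by
    rw [orderOf_injective _ Matrix.SpecialLinearGroup.toGL_injective]; exact g.2⟩)
    ⟨fun g g' e => Subtype.ext (Matrix.SpecialLinearGroup.toGL_injective (congrArg Subtype.val e)),
      fun ⟨g, k, hk⟩ => ?_⟩
  have h3 : g ∈ (Matrix.GeneralLinearGroup.det : GL (Fin (n + 1)) F →* Fˣ).ker := by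
    have : (Matrix.GeneralLinearGroup.det g : F) ^ p ^ k = 1 := by
      rw [← Units.val_pow_eq_pow_val, ← map_pow, ← hk, pow_orderOf_eq_one, map_one, Units.val_one]
    replace this : ((Matrix.GeneralLinearGroup.det g : F) - 1) ^ p ^ k = 0 := by
      rw [sub_pow_char_pow, this, one_pow, sub_self]
    exact Units.ext (sub_eq_zero.1 (pow_eq_zero_iff (pow_ne_zero k (Fact.out : p.Prime).ne_zero) |>.1 this))
  rw [← H9.toGL_range_eq_ker_det] at h3
  obtain ⟨g, rfl⟩ := h3
  exact ⟨⟨g, k, by rwa [orderOf_injective _ Matrix.SpecialLinearGroup.toGL_injective] at hk⟩, rfl⟩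

end Cfsg.Agent.S2315
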