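import Cfsg.Statements.S2316
import Cfsg.Agent.H33.DefRG
import Cfsg.Agent.H38.ClBCD
import Cfsg.Agent.H9.SpCount

set_option autoImplicit false
open Cfsg

namespace Cfsg.Agent.S2316

/-- Steinberg's count of unipotent elements for the symplectic group: over a finite field with q elements of characteristic p, the number of elements of Sp_{2m} of p-power order is q^(2m²). -/
theorem result {F : Type*} [Field F] [Fintype F] (p : ℕ) [Fact p.Prime] [CharP F p] (m : ℕ) :
    Nat.card {g : ↥(Matrix.symplecticGroup (Fin m) F) // ∃ k : ℕ, orderOf g = p ^ k} = Fintype.card F ^ (2 * m ^ 2) := by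
  rcases m with _ | n
  · simp only [ne_eq, OfNat.ofNat_ne_zero, not_false_eq_true, zero_pow, mul_zero, pow_zero]
    exact Nat.card_eq_one_iff_unique.2 ⟨inferInstance, ⟨⟨1, 0, by simp⟩⟩⟩
  have := Fintype.ofFinite (Matrix.symplecticGroup (Fin (n + 1)) F)
  have := Fintype.ofFinite (H38.frE (n + 1) true).Rt
  obtain ⟨S, -⟩ := H33.rg_stData p (H38.rgC_faithful (F := F) n) (H38.rgC_grp n)
  obtain ⟨k, hp, hk⟩ := FiniteField.card F p
  have h : ¬ p ∣ ∏ i ∈ Finset.range (n + 1), (Fintype.card F ^ (2 * (i + 1)) - 1) := by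
    rw [Prime.dvd_finsetProd_iff hp.prime]
    rintro ⟨i, -, hi⟩
    have h1 : p ∣ Fintype.card F ^ (2 * (i + 1)) := Dvd.dvd.pow (hk ▸ dvd_pow_self p k.2.ne') (by omega)
    exact hp.one_lt.ne' (Nat.eq_one_of_dvd_one ((Nat.dvd_sub_iff_right (Nat.one_le_pow _ _ Fintype.card_pos) h1).1 hi))
  have h0 : ∏ i ∈ Finset.range (n + 1), (Fintype.card F ^ (2 * (i + 1)) - 1) ≠ 0 := fun h0 => h (h0 ▸ dvd_zero p)
  rw [S.card_unipotent, S.card_U, H9.card_symplecticGroup, Nat.factorization_mul (by positivity) h0,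
    Finsupp.add_apply, Nat.factorization_eq_zero_of_not_dvd h, hk, ← pow_mul, ← pow_mul, ← pow_mul, hp.factorization_pow]
  simp only [Finsupp.single_eq_same, add_zero]
  congr 1; ring

end Cfsg.Agent.S2316
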