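import Cfsg.Statements.S2317
import Cfsg.Agent.H67.Jordan
import Cfsg.Agent.H67.ClassCount

set_option autoImplicit false
open Cfsg

namespace Cfsg.Agent.S2317


open Module Polynomial

theorem unip_iff {F : Type*} [Field F] (p : ℕ) [hp : Fact p.Prime] [CharP F p] (n : ℕ)
    (g : Matrix.GeneralLinearGroup (Fin n) F) :
    (∃ k : ℕ, orderOf g = p ^ k) ↔
      ∃ N : ℕ, (Matrix.toLin' (g : Matrix (Fin n) (Fin n) F) - 1) ^ N = 0 := by
  have key : ∀ k : ℕ, (Matrix.toLin' (g : Matrix (Fin n) (Fin n) F) - 1) ^ (p ^ k) = 0 ↔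
      g ^ (p ^ k) = 1 := by
    intro k
    have h1 : (Matrix.toLin' (g : Matrix (Fin n) (Fin n) F) - 1) ^ (p ^ k) =
        (Matrix.toLin' (g : Matrix (Fin n) (Fin n) F)) ^ (p ^ k) - 1 := by
      rw [← H67.aeval_X_sub_one_pow (F := F), sub_pow_char_pow]
      simp
    rw [h1, sub_eq_zero, H67.toLin'_pow']
    constructor
    · intro h
      apply Units.ext
      rw [Units.val_pow_eq_pow_val, Units.val_one]
      apply Matrix.toLin'.injective
      rw [h, Matrix.toLin'_one]; rfl
    · intro h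
      rw [← Units.val_pow_eq_pow_val, h, Units.val_one, Matrix.toLin'_one]; rfl
  constructor
  · rintro ⟨k, hk⟩
    exact ⟨p ^ k, (key k).2 (by rw [← hk]; exact pow_orderOf_eq_one g)⟩
  · rintro ⟨N, hN⟩
    have h2 : (Matrix.toLin' (g : Matrix (Fin n) (Fin n) F) - 1) ^ (p ^ N) = 0 :=
      pow_eq_zero_of_le (Nat.lt_pow_self hp.out.one_lt).le hN
    obtain ⟨k, -, hk⟩ := (Nat.dvd_prime_pow hp.out).1 (orderOf_dvd_of_pow_eq_one ((key N).1 h2))
    exact ⟨k, hk⟩


/-- Over a finite field of characteristic p, the conjugacy classes of GL_n consisting of elements of p-power order (the unipotent classes) are as many as the partitions of n. -/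
theorem result {F : Type*} [Field F] [Fintype F] (p : ℕ) [Fact p.Prime] [CharP F p] (n : ℕ) :
    Nat.card {C : ConjClasses (Matrix.GeneralLinearGroup (Fin n) F) //
      ∃ g : Matrix.GeneralLinearGroup (Fin n) F, (∃ k : ℕ, orderOf g = p ^ k) ∧ ConjClasses.mk g = C} =
      Fintype.card (Nat.Partition n) := by
  have h := H67.card_conjClasses_eq_of_rel (G := Matrix.GeneralLinearGroup (Fin n) F)
    (I := Nat.Partition n) (fun g => ∃ k : ℕ, orderOf g = p ^ k)
    (fun i g => ∀ k, finrank F (LinearMap.ker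
      ((Matrix.toLin' (g : Matrix (Fin n) (Fin n) F) - 1) ^ k)) = (i.parts.map (min · k)).sum)
    ?_ ?_ ?_ ?_
  · rw [← Nat.card_eq_fintype_card, ← h]
    exact Nat.card_congr (Equiv.subtypeEquivRight fun C =>
      ⟨fun ⟨g, h1, h2⟩ => ⟨g, h2, h1⟩, fun ⟨g, h1, h2⟩ => ⟨g, h2, h1⟩⟩)
  · intro i
    obtain ⟨t, e, he⟩ := H67.exists_fin_enum i.parts
    haveI := H67.finite_model (F := F) (f := fun j => (X - 1 : F[X]) ^ e j)
      (fun j => pow_ne_zero _ H67.monic_X_sub_one.ne_zero)
    have hsum : ∑ j, e j = n := by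
      have := i.parts_sum
      rw [← he] at this
      exact this
    obtain ⟨A, hA⟩ := H67.exists_matrix_sim (ι := Fin n)
      (H67.modT fun j => (X - 1 : F[X]) ^ e j)
      (by rw [H67.finrank_model_unipotent, hsum, Fintype.card_fin])
    have hnil : (H67.modT (fun j => (X - 1 : F[X]) ^ e j) - 1) ^ n = 0 := by
      rw [← H67.aeval_X_sub_one_pow (F := F), H67.aeval_modT_eq_zero_iff]
      intro j
      apply pow_dvd_pow
      rw [← hsum]
      exact Finset.single_le_sum (f := e) (fun _ _ => Nat.zero_le _) (Finset.mem_univ j)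
    have hnil' : (Matrix.toLin' A - 1) ^ n = 0 := (hA.sub_one.pow n).eq_zero_iff.1 hnil
    have hA1 : (A - 1) ^ n = 0 := by
      apply Matrix.toLin'.injective
      rw [← H67.toLin'_pow', map_sub, Matrix.toLin'_one, map_zero]
      exact hnil'
    have hu : IsUnit A := by
      have : IsNilpotent (A - 1) := ⟨n, hA1⟩
      simpa using this.isUnit_add_one
    refine ⟨hu.unit, (unip_iff p n _).2 ⟨n, hnil'⟩, fun k => ?_⟩
    rw [IsUnit.unit_spec, ← (hA.sub_one.pow k).finrank_ker, H67.finrank_ker_modT_unipotent, ← he,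
      Multiset.map_map]
    rfl
  · intro g hg
    obtain ⟨N, hN⟩ := (unip_iff p n g).1 hg
    obtain ⟨t, e, he0, -, hsum, hsim⟩ := H67.exists_sim_unipotent _ hN
    refine ⟨⟨Finset.univ.val.map e, ?_, ?_⟩, fun k => ?_⟩
    · intro a ha
      obtain ⟨j, -, rfl⟩ := Multiset.mem_map.1 ha
      exact he0 j
    · rw [Module.finrank_fin_fun] at hsum
      exact hsum
    · rw [(hsim.sub_one.pow k).finrank_ker, H67.finrank_ker_modT_unipotent, Multiset.map_map]
      rfl
  · intro i g h hg hh hi hi'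
    obtain ⟨N, hN⟩ := (unip_iff p n g).1 hg
    obtain ⟨M, hM⟩ := (unip_iff p n h).1 hh
    exact (H67.isConj_gl_iff_sim g h).2 (H67.sim_of_unipotent _ _ hN hM fun k => by
      rw [hi, hi'])
  · intro i j g h _ _ hi hj hc
    have hs := (H67.isConj_gl_iff_sim g h).1 hc
    apply Nat.Partition.ext
    refine H67.multiset_eq_of_sum_min (fun a ha => i.parts_pos ha) (fun a ha => j.parts_pos ha)
      fun k => ?_
    rw [← hi, ← hj, (hs.sub_one.pow k).finrank_ker]

end Cfsg.Agent.S2317
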