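import Cfsg.Statements.S2320
import Cfsg.Agent.H65.GL2Table

set_option autoImplicit false
open Cfsg

namespace Cfsg.Agent.S2320

/-- Over a finite field F with q elements, every irreducible complex character of GL₂ of degree q takes a value of absolute value 1 at every diagonal matrix with two different diagonal entries and at every element with no eigenvector in F². -/
theorem result {F : Type*} [Field F] [Fintype F] (χ : Matrix.GeneralLinearGroup (Fin 2) F → ℂ) (hχ : Cfsg.IsIrrCharacter (Matrix.GeneralLinearGroup (Fin 2) F) χ) (hdeg : χ 1 = (Fintype.card F : ℂ)) (g : Matrix.GeneralLinearGroup (Fin 2) F) :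
    ((g : Matrix (Fin 2) (Fin 2) F) 0 1 = 0 → (g : Matrix (Fin 2) (Fin 2) F) 1 0 = 0 → (g : Matrix (Fin 2) (Fin 2) F) 0 0 ≠ (g : Matrix (Fin 2) (Fin 2) F) 1 1 → ‖χ g‖ = 1) ∧
    ((∀ (c : F) (v : Fin 2 → F), v ≠ 0 → (g : Matrix (Fin 2) (Fin 2) F).mulVec v ≠ c • v) → ‖χ g‖ = 1) := by
  classical
  obtain ⟨a, b, _, ⟨ι⟩⟩ := H65.exists_quad F
  have hq' : (2 : ℝ) ≤ Fintype.card F := by exact_mod_cast Fintype.one_lt_card
  have h2 := congrArg Complex.re hdeg
  obtain ⟨l, rfl⟩ : ∃ l, χ = H65.StG l := by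
    rcases H65.gl_irr_cases ι hχ with ⟨l, rfl⟩ | ⟨l, rfl⟩ | ⟨α, β, h', rfl⟩ | ⟨θ, h', rfl⟩ <;>
      simp only [H65.detChar_one, H65.StG_one, H65.PS_one, H65.Cusp_one, Complex.add_re,
        Complex.sub_re, Complex.natCast_re, Complex.one_re] at h2
    exacts [by linarith, ⟨l, rfl⟩, by linarith, by linarith]
  have hn : ∀ c : Fˣ, ‖l c‖ = 1 := fun c => H5.norm_monoidHom l.toUnitHom c
  refine ⟨fun g1 g2 g3 => ?_, fun hg => ?_⟩
  · obtain ⟨c, d, x, rfl⟩ := H65.exists_bm g2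
    have hcd : c ≠ d := fun e => g3 (by simp [H65.coe_bm, e])
    rw [H65.StG_split _ hcd, norm_mul, hn, hn, mul_one]
  · rw [H65.StG_ell _ hg, norm_neg]
    exact hn (Matrix.GeneralLinearGroup.det g)

end Cfsg.Agent.S2320
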