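import Cfsg.Statements.S2322
import Cfsg.Agent.H65.SL2Unip

set_option autoImplicit false
open Cfsg

namespace Cfsg.Agent.S2322

/-- Over a finite field F with q elements, q odd: every irreducible complex character of SL₂ of degree q − 1 or (q − 1)/2 vanishes at every diagonal matrix whose diagonal entry a has a² ≠ 1, and every irreducible complex character of degree q + 1 or (q + 1)/2 vanishes at every element with no eigenvector in F². -/
theorem result {F : Type*} [Field F] [Fintype F] (hodd : Odd (Fintype.card F)) (χ : Matrix.SpecialLinearGroup (Fin 2) F → ℂ) (hχ : Cfsg.IsIrrCharacter (Matrix.SpecialLinearGroup (Fin 2) F) χ) (g : Matrix.SpecialLinearGroup (Fin 2) F) :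
    ((χ 1 = (Fintype.card F : ℂ) - 1 ∨ χ 1 = (((Fintype.card F - 1) / 2 : ℕ) : ℂ)) →
      (g : Matrix (Fin 2) (Fin 2) F) 0 1 = 0 → (g : Matrix (Fin 2) (Fin 2) F) 1 0 = 0 → (g : Matrix (Fin 2) (Fin 2) F) 0 0 ^ 2 ≠ 1 → χ g = 0) ∧
    ((χ 1 = (Fintype.card F : ℂ) + 1 ∨ χ 1 = (((Fintype.card F + 1) / 2 : ℕ) : ℂ)) →
      (∀ (c : F) (v : Fin 2 → F), v ≠ 0 → (g : Matrix (Fin 2) (Fin 2) F).mulVec v ≠ c • v) → χ g = 0) := by
  classical
  obtain ⟨a, b, _, ⟨ι⟩⟩ := H65.exists_quad F
  rw [H65.eq_half_add_iff hodd, H65.eq_half_sub_iff hodd]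
  refine ⟨fun h h1 h2 h3 => ?_, fun h hg => ?_⟩
  · obtain ⟨c, x, rfl⟩ := H65.exists_bs h2
    obtain rfl : x = 0 := by simpa [H65.coe_bs] using h1
    have hc : c ≠ c⁻¹ := fun e => h3 (by
      have : c * c = 1 := mul_eq_one_iff_eq_inv.2 e
      simpa [H65.coe_bs, sq, Units.ext_iff] using this)
    have hq := H65.four_le_card hc
    rcases h with h | h
    · obtain ⟨ψ, -, rfl⟩ := H65.exists_CuspS_of_degree ι hq hχ h
      exact H65.CuspS_split _ _ hc _
    · obtain ⟨ψ, ν, -, -, h⟩ := H65.exists_half_CuspS_of_degree ι hq hχ h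
      simpa [H65.CuspS_split _ _ hc] using h.two_mul_bs_zero c
  · rcases h with h | h
    · obtain ⟨α, -, rfl⟩ := H65.exists_PSS_of_degree hχ h
      exact H65.PSS_ell _ hg
    · have hq : (2 : ℝ) ≤ Fintype.card F := by exact_mod_cast Fintype.one_lt_card
      have h1 : 2 * (χ 1).re = Fintype.card F + 1 := by simpa using congrArg Complex.re h
      rcases H65.sl_irr_cases_re ι hχ with h | h | h | ⟨h, ψ, hψ, rfl⟩ | ⟨-, α, ν, -, -, h⟩ | h
      · linarith [h.1]
      · linarith [h.1]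
      · linarith [h.1]
      · have h3 : (Fintype.card F : ℝ) = 3 := by linarith
        obtain ⟨z, hz, hc⟩ := H65.exists_isConj_tuS ι hg
        rw [H65.CuspS_ell ι ψ hz hc, H65.add_inv_eq_zero_of_three (by exact_mod_cast h3) hψ hz,
          neg_zero]
      · simpa [H65.PSS_ell _ hg] using h.two_mul_ell hg
      · linarith [h.1]

end Cfsg.Agent.S2322
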