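import Cfsg.Statements.S2324
import Cfsg.Agent.H65.SL2Count

set_option autoImplicit false
open Cfsg

namespace Cfsg.Agent.S2324

/-- Over a finite field F with q elements, q odd and q ≥ 5, let u be the upper unitriangular matrix of SL₂ with off-diagonal entry 1 and let δ = (−1)^((q−1)/2). Every irreducible complex character χ of SL₂ of degree (q + 1)/2 satisfies (2χ(u) − 1)² = δq, and every irreducible complex character χ of degree (q − 1)/2 satisfies (2χ(u) + 1)² = δq; that is, χ(u) = (1 ± √(δq))/2 in the first case and χ(u) = (−1 ± √(δq))/2 in the second. Moreover two different irreducible characters of degree (q + 1)/2 take the two different values (their values at u add up to 1), and likewise for degree (q − 1)/2 (values adding up to −1). -/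
theorem result {F : Type*} [Field F] [Fintype F] (hodd : Odd (Fintype.card F)) (hq : 5 ≤ Fintype.card F)
    (u : Matrix.SpecialLinearGroup (Fin 2) F) (hu : (u : Matrix (Fin 2) (Fin 2) F) = !![1, 1; 0, 1]) :
    (∀ χ : Matrix.SpecialLinearGroup (Fin 2) F → ℂ, Cfsg.IsIrrCharacter (Matrix.SpecialLinearGroup (Fin 2) F) χ → χ 1 = (((Fintype.card F + 1) / 2 : ℕ) : ℂ) → (2 * χ u - 1) ^ 2 = (-1 : ℂ) ^ ((Fintype.card F - 1) / 2) * (Fintype.card F : ℂ)) ∧
    (∀ χ : Matrix.SpecialLinearGroup (Fin 2) F → ℂ, Cfsg.IsIrrCharacter (Matrix.SpecialLinearGroup (Fin 2) F) χ → χ 1 = (((Fintype.card F - 1) / 2 : ℕ) : ℂ) → (2 * χ u + 1) ^ 2 = (-1 : ℂ) ^ ((Fintype.card F - 1) / 2) * (Fintype.card F : ℂ)) ∧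
    (∀ χ₁ χ₂ : Matrix.SpecialLinearGroup (Fin 2) F → ℂ, Cfsg.IsIrrCharacter (Matrix.SpecialLinearGroup (Fin 2) F) χ₁ → Cfsg.IsIrrCharacter (Matrix.SpecialLinearGroup (Fin 2) F) χ₂ → χ₁ ≠ χ₂ →
      χ₁ 1 = (((Fintype.card F + 1) / 2 : ℕ) : ℂ) → χ₂ 1 = (((Fintype.card F + 1) / 2 : ℕ) : ℂ) → χ₁ u + χ₂ u = 1) ∧
    (∀ χ₁ χ₂ : Matrix.SpecialLinearGroup (Fin 2) F → ℂ, Cfsg.IsIrrCharacter (Matrix.SpecialLinearGroup (Fin 2) F) χ₁ → Cfsg.IsIrrCharacter (Matrix.SpecialLinearGroup (Fin 2) F) χ₂ → χ₁ ≠ χ₂ →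
      χ₁ 1 = (((Fintype.card F - 1) / 2 : ℕ) : ℂ) → χ₂ 1 = (((Fintype.card F - 1) / 2 : ℕ) : ℂ) → χ₁ u + χ₂ u = -1) := by
  classical
  obtain ⟨a, b, _, ⟨ι⟩⟩ := H65.exists_quad F
  obtain rfl : u = H65.bs 1 1 := Subtype.ext (by simp [hu, H65.coe_bs])
  have hq' : 4 ≤ Fintype.card F := by omega
  have v1 : ∀ α : MulChar F ℂ, H65.PSS α (H65.bs 1 1) = 1 := fun α => by
    rw [H65.PSS_unip _ inv_one.symm one_ne_zero]; simp
  simp only [H65.eq_half_add_iff hodd, H65.eq_half_sub_iff hodd]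
  refine ⟨fun χ h1 h2 => ?_, fun χ h1 h2 => ?_, fun χ₁ χ₂ h1 h2 hne h3 h4 => ?_,
    fun χ₁ χ₂ h1 h2 hne h3 h4 => ?_⟩
  · obtain ⟨α, ν, -, -, h⟩ := H65.exists_half_PSS_of_degree hq' h1 h2
    have := v1 α
    rw [h.eq, Pi.add_apply] at this
    rw [← h.sq_sub, ← this]; ring
  · obtain ⟨α, ν, -, -, h⟩ := H65.exists_half_CuspS_of_degree ι hq' h1 h2
    have := H65.CuspS_unip_one ι α (one_ne_zero (α := F))
    rw [h.eq, Pi.add_apply] at this
    rw [← h.sq_sub]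
    congr 1
    linear_combination this
  · obtain ⟨α, ν, a1, a2, h⟩ := H65.exists_half_PSS_of_degree hq' h1 h3
    obtain ⟨β, ν', b1, b2, h'⟩ := H65.exists_half_PSS_of_degree hq' h2 h4
    obtain ⟨γ, -, -, hγ⟩ := H65.exists_unique_quadChar hodd
    rw [hγ β b1 b2, ← hγ α a1 a2] at h'
    obtain rfl := (h.eq_or_eq h').resolve_left hne.symm
    rw [← v1 α, h.eq, Pi.add_apply]
  · obtain ⟨α, ν, a1, a2, h⟩ := H65.exists_half_CuspS_of_degree ι hq' h1 h3
    obtain ⟨β, ν', b1, b2, h'⟩ := H65.exists_half_CuspS_of_degree ι hq' h2 h4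
    obtain ⟨γ, -, -, hγ⟩ := H65.exists_unique_quadHom (a := a) (b := b) hodd
    rw [hγ β b1 b2, ← hγ α a1 a2] at h'
    obtain rfl := (h.eq_or_eq h').resolve_left hne.symm
    rw [← H65.CuspS_unip_one ι α (one_ne_zero (α := F)), h.eq, Pi.add_apply]

end Cfsg.Agent.S2324
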