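import Cfsg.Statements.S2364
import Cfsg.Agent.H11.CommP

set_option autoImplicit false
open Cfsg

namespace Cfsg.Agent.S2364

/-- Let F be a finite field of characteristic p, n ≥ 4, and let a, b be commuting elements of PSL(n, F) with a of order p. Then every prime divisor of the order of b divides the order of SL(n − 2, F). -/
theorem result {F : Type*} [Field F] [Fintype F] (p : ℕ) [Fact p.Prime] [CharP F p] (n : ℕ) (hn : 4 ≤ n)
    (a b : Matrix.ProjectiveSpecialLinearGroup (Fin n) F) (ha : orderOf a = p) (hab : Commute a b) :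
    (orderOf b).primeFactors ⊆ (Nat.card (Matrix.SpecialLinearGroup (Fin (n - 2)) F)).primeFactors := by
  intro r hr0
  obtain ⟨hr, hrb, -⟩ := Nat.mem_primeFactors.1 hr0
  refine Nat.mem_primeFactors.2 ⟨hr, ?_, Nat.card_pos.ne'⟩
  obtain ⟨k, rfl⟩ : ∃ k, n = k + 1 + 1 + 2 := ⟨n - 4, by omega⟩
  have hq : 1 < Fintype.card F := Fintype.one_lt_card
  have hpq : p ∣ Fintype.card F := by
    obtain ⟨n, -, hn⟩ := FiniteField.card F p
    exact hn ▸ dvd_pow_self p n.ne_zero
  have h1 := H9.card_sl_fin (F := F) (k + 1 + 1) (by omega)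
  rw [Fin.prod_univ_castSucc, Fin.val_last, pow_succ _ (k + 1), ← Nat.mul_sub_one, ← mul_assoc,
    mul_comm _ (_ - 1)] at h1
  rw [Nat.add_sub_cancel, Nat.eq_of_mul_eq_mul_left (by omega) h1]
  by_cases hrp : r = p
  · exact hrp ▸ (hpq.pow k.succ_ne_zero).mul_left _
  suffices ∀ d, 2 ≤ d → d ≤ k + 2 → r ∣ Fintype.card F ^ d - 1 → r ∣ _ by
    by_cases hre : r ∣ Fintype.card F - 1
    · exact this 2 le_rfl (by omega) (hre.trans (Nat.sub_one_dvd_pow_sub_one _ _))
    let Ω := AlgebraicClosure F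
    obtain ⟨g, h2, x, h3, h4⟩ := H11.exists_ev_of_commute Ω p (H67.slHom _ F) Subtype.val_injective
      (H67.center_pow_card_sub_one (H67.slHom _ F) Subtype.val_injective H67.sl_mem_center_iff) (fun h =>
        (Fact.out : p.Prime).one_lt.ne' (Nat.dvd_one.1 ((Nat.dvd_sub_iff_right hq.le hpq).1 h)))
      ha hab hr hrb hrp hre
    obtain ⟨h5, h6⟩ := H11.minimalPeriod_add_two_le (H67.frob_injective (F := F))
      (H67.ev_map_frob _) h2 (by simp [H67.card_ev]) h3
    have h7 := Function.iterate_minimalPeriod (f := fun x : Ω => x ^ Fintype.card F) (x := x)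
    rw [H67.card_ev, Fintype.card_fin] at h6
    generalize Function.minimalPeriod _ x = d at *
    rw [pow_iterate, ← H11.pow_qe_true (by omega) (by rintro rfl; exact hr.ne_zero (by simp [← h4])),
      ← orderOf_dvd_iff_pow_eq_one, h4] at h7
    exact this d (by
      by_contra h
      rw [show d = 1 by omega, H11.qe, pow_one] at h7
      exact hre h7) (by omega) h7
  intro d h2 h3 h4
  refine Dvd.dvd.mul_right ((h4.trans ?_).trans (Finset.dvd_prod_of_mem _
    (Finset.mem_univ (⟨k + 2 - d, by omega⟩ : Fin (k + 1))))) _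
  refine ⟨Fintype.card F ^ (k + 2 - d), ?_⟩
  rw [Nat.sub_mul, one_mul, ← pow_add, ← pow_succ, show d + (k + 2 - d) = k + 1 + 1 by omega]
  rfl

end Cfsg.Agent.S2364
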