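import Cfsg.Statements.S2365
import Cfsg.Agent.H11.CommP

set_option autoImplicit false
open Cfsg

namespace Cfsg.Agent.S2365

/-- Let q be a power of the prime p, F the field with q² elements, m ≥ 4, and let a, b be commuting elements of PSU(m, q) with a of order p. Then every prime divisor of the order of b divides the order of SU(m − 2, q). -/
theorem result {F : Type*} [Field F] [Fintype F] (p : ℕ) [Fact p.Prime] [CharP F p] (m q : ℕ) (hm : 4 ≤ m) (hF : Fintype.card F = q ^ 2)
    (a b : Cfsg.PSU m F q) (ha : orderOf a = p) (hab : Commute a b) :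
    (orderOf b).primeFactors ⊆ (Nat.card ↥(Cfsg.SU (m - 2) F q)).primeFactors := by
  intro r hr0
  obtain ⟨hr, hrb, -⟩ := Nat.mem_primeFactors.1 hr0
  refine Nat.mem_primeFactors.2 ⟨hr, ?_, Nat.card_pos.ne'⟩
  haveI : Fact (Fintype.card F = q ^ 2) := ⟨hF⟩
  obtain ⟨k, rfl⟩ : ∃ k, m = k + 1 + 1 + 2 := ⟨m - 4, by omega⟩
  have hq := H10.two_le_q F q
  have hpq : p ∣ q := (Fact.out : p.Prime).dvd_of_dvd_pow (n := 2) (by
    obtain ⟨n, -, hn⟩ := FiniteField.card F p
    exact hF ▸ hn ▸ dvd_pow_self p n.ne_zero)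
  have h1 := H10.card_SU_mul (F := F) (q := q) (n := k + 1 + 1) (by omega)
  rw [H10.card_GU, Finset.prod_range_succ', if_pos Even.zero, zero_add, pow_one, ← mul_assoc,
    mul_comm _ (q + 1)] at h1
  rw [Nat.add_sub_cancel, Nat.eq_of_mul_eq_mul_left (by omega) h1]
  by_cases hrp : r = p
  · refine hrp ▸ (hpq.pow (Nat.div_pos ?_ two_pos).ne').mul_right _
    rw [Nat.add_sub_cancel]; nlinarith
  suffices ∀ d, 2 ≤ d → d ≤ k + 2 → r ∣ H11.uq q d → r ∣ _ by
    by_cases hre : r ∣ q + 1
    · exact this 2 le_rfl (by omega) (hre.trans (H11.succ_dvd_uq _ _))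
    let Ω := AlgebraicClosure F
    let ρ : Cfsg.SU (k + 1 + 1 + 2) F q →* Matrix _ _ F :=
      { toFun := H10.sm, map_one' := rfl, map_mul' := fun _ _ => rfl }
    obtain ⟨g, h2, x, h3, h4⟩ := H11.exists_ev_of_commute Ω p ρ H10.sm_injective (e := q + 1)
      (fun z hz => by
        obtain ⟨c, hc⟩ := (H10.mem_center_SU_iff (by omega) z).1 hz
        have h2 := (H67.isIsom_iff_cjT _).1 (H10.sm_isIsom z)
        rw [hc, H67.cjT_smul, H67.cjT_one, smul_mul_smul_comm, one_mul, mul_comm,
          H10.mul_cj_eq_pow] at h2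
        refine H10.sm_injective ((map_pow ρ z _).trans ?_)
        rw [show ρ z = c • 1 from hc, _root_.smul_pow, one_pow, h2]
        rfl)
      (fun h => (Fact.out : p.Prime).one_lt.ne' (Nat.dvd_one.1 ((Nat.dvd_add_right hpq).1 h)))
      ha hab hr hrb hrp hre
    obtain ⟨h5, h6⟩ := H11.minimalPeriod_add_two_le (H67.twist_injective F)
      (H67.ev_map_twist ((H67.isIsom_iff_cjT _).1 (H10.sm_isIsom g))) h2 (by simp [H67.card_ev]) h3
    have h7 := Function.iterate_minimalPeriod (f := fun x : Ω => x ^ (-(q : ℤ))) (x := x)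
    rw [H67.card_ev, Fintype.card_fin] at h6
    generalize Function.minimalPeriod _ x = d at *
    rw [← H11.pow_uq_eq_one_iff (by rintro rfl; exact hr.ne_zero (by simp [← h4])),
      ← orderOf_dvd_iff_pow_eq_one, h4] at h7
    exact this d (by
      by_contra h
      rw [show d = 1 by omega, H11.uq_odd odd_one, pow_one] at h7
      exact hre h7) (by omega) h7
  intro d h2 h3 h4
  obtain ⟨d, rfl⟩ := Nat.exists_eq_add_of_le' h2
  refine Dvd.dvd.mul_left ((h4.trans (dvd_of_eq ?_)).trans (Finset.dvd_prod_of_mem _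
    (Finset.mem_range.2 (show d < k + 1 by omega)))) _
  split_ifs with h
  · exact H11.uq_odd h.add_one
  · exact Nat.eq_sub_of_add_eq (H11.uq_even (by omega) (Nat.not_even_iff_odd.1 h).add_one)

end Cfsg.Agent.S2365
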