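import Cfsg.Statements.S2366
import Cfsg.Agent.H11.EvTools
import Cfsg.Agent.H10.Isotropic

set_option autoImplicit false
open Cfsg

namespace Cfsg.Agent.S2366


open Polynomial

theorem three_cases {α : Type*} {φ : α → α} (hφ : Function.Injective φ) {s : Multiset α}
    (hs : s.map φ = s) (hc : s.card = 3) :
    (∃ x z, s = {x, x, z} ∧ φ x = x) ∨ (s.Nodup ∧ ((∀ x ∈ s, φ x = x) ∨
      ∃ x z, s = {x, φ x, z} ∧ (φ (φ x) = x ∨ φ (φ x) = z))) := by
  classical
  by_cases hn : s.Nodup
  · refine Or.inr ⟨hn, ?_⟩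
    by_cases h : ∀ x ∈ s, φ x = x
    · exact Or.inl h
    right
    push Not at h
    obtain ⟨x, hx, hne⟩ := h
    have h1 := H67.iterate_mem_of_map_eq hs hx 1
    have h2 := H67.iterate_mem_of_map_eq hs hx 2
    obtain ⟨t, rfl⟩ := Multiset.exists_cons_of_mem hx
    have h3 : φ x ∈ t := (Multiset.mem_cons.1 h1).resolve_left hne
    obtain ⟨u, rfl⟩ := Multiset.exists_cons_of_mem h3
    obtain ⟨z, rfl⟩ := Multiset.card_eq_one.1 (show u.card = 1 by simpa using hc)
    refine ⟨x, z, rfl, ?_⟩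
    simp only [Multiset.mem_cons, Multiset.mem_singleton] at h2
    rcases h2 with h | h | h
    · exact Or.inl h
    · exact absurd (hφ h) hne
    · exact Or.inr h
  · left
    rw [Multiset.nodup_iff_count_le_one] at hn
    push Not at hn
    obtain ⟨x, hx⟩ := hn
    have h1 : Multiset.replicate 2 x ≤ s := Multiset.le_count_iff_replicate_le.1 hx
    obtain ⟨u, hu⟩ := Multiset.le_iff_exists_add.1 h1
    obtain ⟨z, rfl⟩ := Multiset.card_eq_one.1 (show u.card = 1 by
      have := congrArg Multiset.card hu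
      simp only [Multiset.card_add, Multiset.card_replicate] at this
      omega)
    refine ⟨x, z, hu, ?_⟩
    by_contra hne
    have h2 := H67.count_iterate hφ hs x 1
    rw [Function.iterate_one] at h2
    rw [← h2, hu, Multiset.count_add, Multiset.count_replicate,
      if_neg (Ne.symm hne), zero_add] at hx
    exact absurd hx (not_lt.2 (Multiset.count_le_card _ _))


/-- The set of element orders of PSU(3, q) for an odd prime power q = p^n: writing d = gcd(3, q + 1), a positive integer is the order of some element exactly when it divides one of q + 1, p(q + 1)/d, (q² − 1)/d, (q² − q + 1)/d. -/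
theorem result {F : Type*} [Field F] [Fintype F] (p : ℕ) [Fact p.Prime] [CharP F p] (hp : p ≠ 2) (q : ℕ) (hF : Fintype.card F = q ^ 2) :
    Set.range (orderOf : Cfsg.PSU 3 F q → ℕ) =
      {s : ℕ | s ∣ q + 1} ∪ {s : ℕ | s ∣ p * (q + 1) / Nat.gcd 3 (q + 1)} ∪
        {s : ℕ | s ∣ (q ^ 2 - 1) / Nat.gcd 3 (q + 1)} ∪ {s : ℕ | s ∣ (q ^ 2 - q + 1) / Nat.gcd 3 (q + 1)} := by
  classical
  haveI : Fact (Fintype.card F = q ^ 2) := ⟨hF⟩
  have hpp : p.Prime := Fact.out
  obtain ⟨p', a, hp', hchar, ha, hq⟩ := H10.exists_char_pow_of_card_sq hF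
  obtain rfl : p = p' := CharP.eq F ‹CharP F p› hchar
  have hq2 : 2 ≤ q := H10.two_le_q F q
  have hpq : p ∣ q := hq ▸ dvd_pow_self p ha.ne'
  have hp3 : 3 ≤ p := by have := hpp.two_le; omega
  let Ω := AlgebraicClosure F
  haveI : CharP Ω p := charP_of_injective_algebraMap (algebraMap F Ω).injective p
  let ρ : Cfsg.SU 3 F q →* Matrix (Fin 3) (Fin 3) F :=
    { toFun := H10.sm, map_one' := rfl, map_mul' := fun _ _ => rfl }
  have hρ : Function.Injective ρ := H10.sm_injective
  have hZ : ∀ g, g ∈ Subgroup.center _ ↔ ∃ c : F, ρ g = c • 1 :=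
    H10.mem_center_SU_iff (by omega)
  have hU : ∀ g, H67.cjT q (ρ g) * ρ g = 1 := fun g => (H67.isIsom_iff_cjT _).1 (H10.sm_isIsom g)
  set d := Nat.gcd 3 (q + 1) with hd
  have hd0 : 0 < d := Nat.gcd_pos_of_pos_left _ (by norm_num)
  have hd1 : d ∣ q + 1 := Nat.gcd_dvd_right _ _
  have hd3 : d ∣ 3 := Nat.gcd_dvd_left _ _
  obtain ⟨r, hqr⟩ : ∃ r, q = r + 1 := ⟨q - 1, by omega⟩
  have e1 : q ^ 2 - 1 = (q + 1) * r := by rw [hqr]; exact Nat.sub_eq_of_eq_add (by ring)
  have e2 : q ^ 2 - q + 1 = q * r + 1 := by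
    rw [Nat.add_right_cancel_iff, hqr]; exact Nat.sub_eq_of_eq_add (by ring)
  have hd2 : d ∣ q ^ 2 - 1 := e1 ▸ hd1.mul_right r
  have hd4 : d ∣ q ^ 2 - q + 1 := by
    rw [e2]
    have h1 : d ∣ (q + 1) * q + 3 := dvd_add (hd1.mul_right q) hd3
    have h2 : (q + 1) * q + 3 = q * r + 1 + (q + 1) * 2 := by rw [hqr]; ring
    rw [h2] at h1
    exact (Nat.dvd_add_left (hd1.mul_right 2)).1 h1
  let φ : Ω → Ω := fun x => x ^ (-(q : ℤ))
  have hφ : ∀ x, φ x = (x ^ q)⁻¹ := fun x => by simp only [φ, zpow_neg, zpow_natCast]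
  have hφp : ∀ x k, φ x ^ k = φ (x ^ k) := fun x k => by
    rw [hφ, hφ, inv_pow, ← pow_mul, ← pow_mul, mul_comm]
  have hφi : Function.Injective φ := H67.twist_injective F
  have hfix : ∀ x, x ≠ 0 → (φ x = x ↔ x ^ (q + 1) = 1) := fun x hx => by
    rw [hφ, ← mul_eq_one_iff_inv_eq₀ (pow_ne_zero _ hx), pow_succ]
  have hω : ∀ ω : Ω, ω ^ d = 1 → ω ^ 3 = 1 ∧ φ ω = ω ∧ ∃ c, algebraMap F Ω c = ω := by
    intro ω h
    have h0 : ω ≠ 0 := by rintro rfl; rw [zero_pow hd0.ne'] at h; exact zero_ne_one h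
    have h1 : φ ω = ω := (hfix ω h0).2 (by obtain ⟨e, he⟩ := hd1; rw [he, pow_mul, h, one_pow])
    refine ⟨by obtain ⟨e, he⟩ := hd3; rw [he, pow_mul, h, one_pow], h1,
      H67.exists_algebraMap_eq_of_pow_card ?_⟩
    rw [← H67.twist_twist F (q := q)]
    change φ (φ ω) = ω
    rw [h1, h1]
  have hev : ∀ g, (H67.ev Ω (ρ g)).prod = 1 := fun g => by
    rw [H67.prod_ev]
    exact (congrArg _ (H10.sm_det g)).trans (map_one _)
  -- lower bound on orders
  have hlow : ∀ (g : Cfsg.SU 3 F q) (x : Ω) (M : ℕ), IsPrimitiveRoot x M → d ∣ M →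
      x ∈ H67.ev Ω (ρ g) → M / d ∣ orderOf (QuotientGroup.mk g : Cfsg.PSU 3 F q) := by
    intro g x M hx hM hxg
    set k := orderOf (QuotientGroup.mk g : Cfsg.PSU 3 F q)
    obtain ⟨c, hc⟩ := (H67.orderOf_mk_dvd_iff ρ hZ g k).1 dvd_rfl
    have h1 := H67.pow_eq_of_mem_ev hc hxg
    have h2 := H67.pow_eq_of_mem_ev hc
      (H67.iterate_mem_of_map_eq (H67.ev_map_twist (hU g)) hxg 1)
    change φ x ^ k = _ at h2
    rw [hφp, ← h1, hfix _ (pow_ne_zero _
      (H67.ne_zero_of_mem_ev ((Group.isUnit g).map ρ) hxg))] at h2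
    have h3 : c ^ 3 = 1 := by
      have := congrArg Matrix.det hc
      rw [Matrix.det_pow, show (ρ g).det = 1 from H10.sm_det g] at this
      simpa using this.symm
    have h4 : (x ^ k) ^ 3 = 1 := by rw [h1, ← map_pow, h3, map_one]
    refine H11.dvd_div_gcd_of_dvd_mul hM hd0 (hx.dvd_of_pow_eq_one _ ?_)
    rw [pow_mul]
    exact pow_gcd_eq_one.2 ⟨h4, h2⟩
  have hex : ∀ s : Multiset Ω, s.map φ = s → s.card = 3 → s.prod = 1 →
      ∃ g : Cfsg.SU 3 F q, H67.ev Ω (ρ g) = s := by
    intro s h1 h2 h3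
    obtain ⟨T, hT0, -, hT2⟩ := H67.exists_isIsom_ev_eq (n := 3) (K := F) (q := q) h1 h2
      (fun h => by rw [Multiset.prod_eq_zero h] at h3; exact zero_ne_one h3)
    exact ⟨H10.mkSU T hT0 ((algebraMap F Ω).injective (by
      rw [← H67.prod_ev, hT2, h3, map_one])), hT2⟩
  have hnd1 : ¬ p ∣ q + 1 := fun h => hpp.one_lt.ne' (Nat.dvd_one.1 ((Nat.dvd_add_right hpq).1 h))
  apply Set.Subset.antisymm
  · rintro _ ⟨x, rfl⟩
    obtain ⟨g, rfl⟩ := QuotientGroup.mk_surjective x
    have h0 : ∀ x ∈ H67.ev Ω (ρ g), x ≠ 0 := fun x hx =>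
      H67.ne_zero_of_mem_ev ((Group.isUnit g).map ρ) hx
    have hpr := hev g
    simp only [Set.mem_union, Set.mem_setOf_eq, H67.orderOf_mk_dvd_iff ρ hZ]
    rcases three_cases hφi (H67.ev_map_twist (hU g)) (by rw [H67.card_ev, Fintype.card_fin]) with
      ⟨x, z, hs, hx⟩ | ⟨hn, hall | ⟨x, z, hs, hx⟩⟩
    · refine Or.inl (Or.inl (Or.inr ?_))
      have hx0 := h0 x (by simp [hs])
      obtain ⟨h1, -, c, hc⟩ := hω (x ^ ((q + 1) / d)) (by
        rw [← pow_mul, Nat.div_mul_cancel hd1, (hfix x hx0).1 hx])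
      have h2 := H67.pow_eq_smul_of_ev p (A := ρ g) (k := (q + 1) / d) (j := 1) (c := c) (by
        intro y hy
        rw [hs] at hy hpr
        simp only [Multiset.insert_eq_cons, Multiset.mem_cons, Multiset.mem_singleton,
          Multiset.prod_cons, Multiset.prod_singleton] at hy hpr
        rw [hc]
        rcases hy with rfl | rfl | rfl
        · rfl
        · rfl
        · have h3 := congrArg (· ^ ((q + 1) / d)) hpr
          simp only [mul_pow, one_pow] at h3
          linear_combination x ^ ((q + 1) / d) * h3 - y ^ ((q + 1) / d) * h1)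
        (by simpa using hp3)
      rw [pow_one, mul_comm, ← Nat.mul_div_assoc _ hd1] at h2
      exact ⟨_, h2⟩
    · refine Or.inl (Or.inl (Or.inl ⟨1, ?_⟩))
      rw [H67.IsSS_pow_eq_smul_iff (Ω := Ω) (H11.isSS_of_nodup hn)]
      intro y hy
      rw [map_one]
      exact (hfix y (h0 y hy)).1 (hall y hy)
    · have hx0 := h0 x (by simp [hs])
      have key : ∀ M, d ∣ M → x ^ M = 1 → ∃ c : F, ρ g ^ (M / d) = c • 1 := by
        intro M hM hxM
        obtain ⟨h1, h2, c, hc⟩ := hω (x ^ (M / d)) (by rw [← pow_mul, Nat.div_mul_cancel hM, hxM])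
        refine ⟨c, ?_⟩
        rw [H67.IsSS_pow_eq_smul_iff (Ω := Ω) (H11.isSS_of_nodup hn)]
        intro y hy
        rw [hs] at hy hpr
        simp only [Multiset.insert_eq_cons, Multiset.mem_cons, Multiset.mem_singleton,
          Multiset.prod_cons, Multiset.prod_singleton] at hy hpr
        rw [hc]
        rcases hy with rfl | rfl | rfl
        · rfl
        · rw [hφp, h2]
        · have h3 := congrArg (· ^ (M / d)) hpr
          simp only [mul_pow, one_pow] at h3
          rw [hφp, h2] at h3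
          linear_combination x ^ (M / d) * h3 - y ^ (M / d) * h1
      have h4 : φ (φ x) = x ^ q ^ 2 := by rw [← hF]; exact H67.twist_twist F x
      rcases hx with hx | hx
      · refine Or.inl (Or.inr (key _ hd2 ?_))
        apply mul_right_cancel₀ hx0
        rw [← pow_succ, Nat.sub_add_cancel (Nat.one_le_pow _ _ (by omega)), ← h4, hx, one_mul]
      · refine Or.inr (key _ hd4 ?_)
        rw [hs, ← hx, h4, hφ] at hpr
        simp only [Multiset.insert_eq_cons, Multiset.prod_cons, Multiset.prod_singleton] at hpr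
        rw [← hpr, e2, show q ^ 2 = q * r + q by rw [hqr]; ring, pow_add, pow_add, pow_one,
          mul_comm (x ^ (q * r)) (x ^ q), inv_mul_cancel_left₀ (pow_ne_zero _ hx0), mul_comm]
  · rintro s (((hs | hs) | hs) | hs)
    · obtain ⟨x, hx⟩ := H11.exists_primRoot Ω p hnd1
      have hx0 : x ≠ 0 := hx.ne_zero (by omega)
      have h1 := (hfix x hx0).2 hx.pow_eq_one
      obtain ⟨g, hg⟩ := hex {x, 1, x⁻¹} (by
        simp only [Multiset.insert_eq_cons, Multiset.map_cons, Multiset.map_singleton]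
        rw [h1, (hfix 1 one_ne_zero).2 (one_pow _), (hfix _ (inv_ne_zero hx0)).2 (by
          rw [inv_pow, hx.pow_eq_one, inv_one])]) (by simp) (by simp [hx0])
      refine H67.mem_range_orderOf_of_dvd (QuotientGroup.mk g) (hs.trans ?_)
      obtain ⟨c, hc⟩ := (H67.orderOf_mk_dvd_iff ρ hZ g _).1 dvd_rfl
      apply hx.dvd_of_pow_eq_one
      rw [H67.pow_eq_of_mem_ev hc (x := x) (by simp [hg]),
        ← H67.pow_eq_of_mem_ev hc (x := 1) (by simp [hg]), one_pow]
    · obtain ⟨l, hl⟩ : ∃ l : F, IsPrimitiveRoot l (q + 1) := by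
        obtain ⟨x, hx⟩ := H11.exists_primRoot Ω p hnd1
        obtain ⟨c, rfl⟩ := H67.exists_algebraMap_eq_of_pow_card (F := F) (x := x) (by
          rw [hF, ← Nat.sub_add_cancel (Nat.one_le_pow 2 q (by omega)), e1, pow_succ, pow_mul,
            hx.pow_eq_one, one_pow, one_mul])
        exact ⟨c, hx.of_map_of_injective (algebraMap F Ω).injective⟩
      have hl0 : l ≠ 0 := hl.ne_zero (by omega)
      have hl1 : l * H10.cj F q l = 1 := by rw [H10.mul_cj_eq_pow, hl.pow_eq_one]
      have hS : H10.IsIsom q (Matrix.diagonal ![(l ^ 2)⁻¹, l, l]) := by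
        rw [H10.isIsom_iff, Matrix.diagonal_transpose, Matrix.diagonal_map (map_zero _),
          Matrix.diagonal_mul_diagonal, ← Matrix.diagonal_one]
        congr 1
        ext i
        fin_cases i
        · simp only [Fin.zero_eta, Matrix.cons_val_zero, map_inv₀, map_pow]
          rw [← mul_inv, ← mul_pow, hl1, one_pow, inv_one]
        · exact hl1
        · exact hl1
      let t : Cfsg.SU 3 F q := H10.mkSU _ hS (by
        rw [Matrix.det_diagonal, Fin.prod_univ_three]
        change (l ^ 2)⁻¹ * l * l = 1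
        rw [mul_assoc, ← pow_two, inv_mul_cancel₀ (pow_ne_zero _ hl0)])
      obtain ⟨i, hi⟩ := H10.exists_norm_eq (F := F) (q := q) (t := -1) (by simp)
      obtain ⟨c, hc0, hc⟩ := H10.exists_skew F q
      have hw : hermForm 3 F q ![0, 1, i] ![0, 1, i] = 0 := by
        rw [H10.herm_eq, Fin.sum_univ_three]
        simp [hi]
      let u := H10.utSU hw hc
      have hcomm : Commute t u := by
        apply hρ
        change Matrix.diagonal _ * unitaryTransvection 3 q _ c =
          unitaryTransvection 3 q _ c * Matrix.diagonal _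
        rw [hS.mul_ut, show Matrix.mulVec (Matrix.diagonal ![(l ^ 2)⁻¹, l, l]) ![0, 1, i] =
          l • ![0, 1, i] by ext j; fin_cases j <;> simp [Matrix.mulVec_diagonal], H10.ut_smul, hl1,
          one_mul]
      have hu1 : (ρ u - 1) ^ 2 = 0 := by
        have h1 : ρ u * ρ u = unitaryTransvection 3 q ![0, 1, i] (c + c) := by
          change unitaryTransvection 3 q _ c * unitaryTransvection 3 q _ c = _
          rw [H10.ut_mul_ut, hw, mul_zero, add_zero]
        have h2 : ρ u = unitaryTransvection 3 q ![0, 1, i] c := rfl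
        rw [pow_two, sub_mul, mul_sub, h1, h2]
        apply Matrix.toLin'.injective
        refine LinearMap.ext fun v => ?_
        simp only [Matrix.toLin'_apply, Matrix.sub_mulVec, mul_one, one_mul, H10.ut_mulVec,
          Matrix.one_mulVec, Matrix.zero_mulVec, add_mul, add_smul]
        abel
      have hu2 : (ρ u - 1) ^ 1 ≠ 0 := by
        rw [pow_one, sub_ne_zero]
        intro h
        have h2 : ρ u = unitaryTransvection 3 q ![0, 1, i] c := rfl
        have h3 := H10.ut_mulVec (q := q) ![0, 1, i] c (Pi.single 1 1)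
        rw [← h2, h, Matrix.one_mulVec, H10.herm_single_left] at h3
        have h4 := congrFun h3 1
        simp [hc0] at h4
      obtain ⟨j, hj1, hj2⟩ := H67.exists_pow_dvd_orderOf_mk ρ hZ hρ p hu1 hu2
      have hj3 : p ∣ orderOf (QuotientGroup.mk u : Cfsg.PSU 3 F q) :=
        (dvd_pow_self p (by rintro rfl; simp at hj1)).trans hj2
      obtain ⟨y, hy1, hy2⟩ := H67.goodOrd_of_commute
        (hcomm.map (QuotientGroup.mk' (Subgroup.center _))) hj3
      have h5 := hlow t (algebraMap F Ω l) (q + 1) (hl.map_of_injective (algebraMap F Ω).injective)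
        hd1 (by
          rw [H67.mem_ev_iff]
          change aeval _ (Matrix.diagonal _).charpoly = 0
          rw [Matrix.charpoly_diagonal, Fin.prod_univ_three]
          simp)
      refine H67.mem_range_orderOf_of_dvd y (hs.trans ?_)
      rw [Nat.mul_div_assoc _ hd1]
      refine Nat.Coprime.mul_dvd_of_dvd_of_dvd ?_ hy2 (h5.trans hy1)
      exact (Nat.Prime.coprime_iff_not_dvd hpp).2 fun h => hnd1 (h.trans (Nat.div_dvd_of_dvd hd1))
    · obtain ⟨x, hx⟩ := H11.exists_primRoot Ω p (n := q ^ 2 - 1) (fun h => by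
        have h1 : p ∣ q ^ 2 := hpq.trans (dvd_pow_self _ two_ne_zero)
        rw [← Nat.sub_add_cancel (Nat.one_le_pow 2 q (by omega))] at h1
        exact hpp.one_lt.ne' (Nat.dvd_one.1 ((Nat.dvd_add_right h).1 h1)))
      have hx0 : x ≠ 0 := hx.ne_zero (by rw [e1]; exact Nat.mul_ne_zero (by omega) (by omega))
      have h4 : φ (φ x) = x := by
        rw [show φ (φ x) = x ^ Fintype.card F from H67.twist_twist F x, hF,
          ← Nat.sub_add_cancel (Nat.one_le_pow 2 q (by omega)), pow_succ, hx.pow_eq_one, one_mul]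
      have h5 : φ x ≠ 0 := by rw [hφ]; exact inv_ne_zero (pow_ne_zero _ hx0)
      obtain ⟨g, hg⟩ := hex {x, φ x, (x * φ x)⁻¹} (by
        simp only [Multiset.insert_eq_cons, Multiset.map_cons, Multiset.map_singleton]
        rw [h4, Multiset.cons_swap]
        congr 3
        rw [hφ (x * φ x)⁻¹, inv_pow, mul_pow, mul_inv, ← hφ, ← hφ, h4, mul_comm]) (by simp) (by
          simp only [Multiset.insert_eq_cons, Multiset.prod_cons, Multiset.prod_singleton]
          rw [← mul_assoc, mul_inv_cancel₀ (mul_ne_zero hx0 h5)])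
      exact H67.mem_range_orderOf_of_dvd (QuotientGroup.mk g)
        (hs.trans (hlow g x _ hx hd2 (by simp [hg])))
    · obtain ⟨x, hx⟩ := H11.exists_primRoot Ω p (n := q ^ 2 - q + 1) (fun h => by
        rw [e2] at h
        exact hpp.one_lt.ne' (Nat.dvd_one.1 ((Nat.dvd_add_right (hpq.mul_right r)).1 h)))
      have hx0 : x ≠ 0 := hx.ne_zero (by omega)
      have h4 : φ (φ x) = x ^ q ^ 2 := by rw [← hF]; exact H67.twist_twist F x
      have h5 := hx.pow_eq_one
      rw [e2] at h5
      obtain ⟨g, hg⟩ := hex {x, φ x, φ (φ x)} (by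
        simp only [Multiset.insert_eq_cons, Multiset.map_cons, Multiset.map_singleton]
        have h6 : φ (φ (φ x)) = x := by
          rw [h4, hφ, ← mul_eq_one_iff_inv_eq₀ (pow_ne_zero _ (pow_ne_zero _ hx0)), ← pow_mul,
            ← pow_succ, show q ^ 2 * q + 1 = (q * r + 1) * (q + 1) by rw [hqr]; ring, pow_mul, h5,
            one_pow]
        rw [h6, ← Multiset.cons_zero, ← Multiset.cons_zero, Multiset.cons_swap (φ (φ x)),
          Multiset.cons_swap (φ x)]) (by simp) (by
          simp only [Multiset.insert_eq_cons, Multiset.prod_cons, Multiset.prod_singleton]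
          rw [h4, hφ, ← h5, show q ^ 2 = q * r + q by rw [hqr]; ring, pow_add, pow_add, pow_one,
            mul_comm (x ^ (q * r)) (x ^ q), inv_mul_cancel_left₀ (pow_ne_zero _ hx0), mul_comm])
      exact H67.mem_range_orderOf_of_dvd (QuotientGroup.mk g)
        (hs.trans (hlow g x _ hx hd4 (by simp [hg])))

end Cfsg.Agent.S2366
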