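import Cfsg.Statements.S2367
import Mathlib.NumberTheory.Padics.PadicVal.Basic

set_option autoImplicit false
open Cfsg

namespace Cfsg.Agent.S2367

set_option synthInstance.maxSize 1000

theorem spor {N : ℕ} (a : ℕ) (h : N ≠ 0 ∧ N ∣ Nat.factorial 71 ∧ 2 ^ a ∣ N ∧ ∀ p < 72,
    ¬ 2 ∣ p → (p = 3 ∨ ¬ 3 ∣ p) → (p = 5 ∨ ¬ 5 ∣ p) → p ^ 3 ∣ N → p ^ 4 ∣ N ∨ p ^ 3 < 2 ^ a)
    {p : ℕ} (hp : p.Prime) (hodd : p ≠ 2) (h3 : N.factorization p = 3) :
    p ^ 3 < 2 ^ N.factorization 2 := by
  obtain ⟨h0, h1, h2, h4⟩ := h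
  have h5 : p ^ 3 ∣ N := (hp.pow_dvd_iff_le_factorization h0).2 h3.ge
  have h6 := hp.dvd_factorial.1 (((dvd_pow_self p (by norm_num)).trans h5).trans h1)
  have h7 : ∀ q : ℕ, q.Prime → p = q ∨ ¬ q ∣ p := fun q hq =>
    (em (q ∣ p)).imp_left fun h => ((Nat.prime_dvd_prime_iff_eq hq hp).1 h).symm
  rcases h4 p (by omega) ((h7 2 Nat.prime_two).resolve_left hodd) (h7 3 Nat.prime_three)
    (h7 5 Nat.prime_five) h5 with h | h
  · have := (hp.pow_dvd_iff_le_factorization h0).1 h
    omega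
  · exact h.trans_le (Nat.pow_le_pow_right two_pos
      ((Nat.prime_two.pow_dvd_iff_le_factorization h0).1 h2))

theorem eight_pow_dvd (m : ℕ) : 2 ^ (3 * m) ∣ (4 * m).factorial := by
  induction m with
  | zero => simp
  | succ m ih =>
    obtain ⟨c, hc⟩ := ih
    refine ⟨(m + 1) * (4 * m + 3) * (2 * m + 1) * (4 * m + 1) * c, ?_⟩
    rw [show 4 * (m + 1) = 4 * m + 1 + 1 + 1 + 1 by ring, Nat.factorial_succ, Nat.factorial_succ,
      Nat.factorial_succ, Nat.factorial_succ, hc]
    ring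

theorem cube_lt {m p : ℕ} (hm : 2 ≤ m) (h : 3 * p ≤ 4 * m + 3) : 2 * p ^ 3 < 2 ^ (3 * m) := by
  by_cases h4 : 4 ≤ m
  · obtain ⟨k, rfl⟩ := Nat.exists_eq_add_of_le' h4
    have h1 : k < 2 ^ k := Nat.lt_two_pow_self
    have h2 : p ^ 3 ≤ (8 * 2 ^ k) ^ 3 := Nat.pow_le_pow_left (by omega) 3
    have h3 : 2 ^ (3 * (k + 4)) = 8 * (8 * 2 ^ k) ^ 3 := by ring
    have h5 : 0 < (8 * 2 ^ k) ^ 3 := by positivity
    omega
  · have : p ≤ 5 := by omega
    interval_cases m <;> interval_cases p <;> omega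

theorem alt {n N p : ℕ} (hN : 2 * N = n.factorial) (hp : p.Prime) (hodd : p ≠ 2)
    (h3 : N.factorization p = 3) : p ^ 3 < 2 ^ N.factorization 2 := by
  have h0 : N ≠ 0 := by
    rintro rfl
    exact n.factorial_ne_zero hN.symm
  have h5 : p ^ 3 ∣ n.factorial :=
    ((hp.pow_dvd_iff_le_factorization h0).2 h3.ge).trans ⟨2, by rw [← hN, mul_comm]⟩
  have hp3 : 3 ≤ p := by have := hp.two_le; omega
  have h6 : 3 * p ≤ n := by
    by_contra! h
    have h1 : n < p ^ 2 := by nlinarith
    rw [hp.pow_dvd_factorial_iff (b := 2) (by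
      rcases eq_or_ne n 0 with rfl | h2
      · simp
      · exact Nat.log_lt_of_lt_pow h2 h1)] at h5
    have h2 : n / p < 3 := Nat.div_lt_of_lt_mul (by omega)
    simp at h5
    omega
  have h7 := (eight_pow_dvd (3 * p / 4)).trans (Nat.factorial_dvd_factorial
    (by omega : 4 * (3 * p / 4) ≤ n))
  have h8 := cube_lt (m := 3 * p / 4) (p := p) (by omega) (by omega)
  obtain ⟨r, hr⟩ : ∃ r, 3 * (3 * p / 4) = r + 1 := ⟨3 * (3 * p / 4) - 1, by omega⟩
  rw [hr, pow_succ' 2 r] at h7 h8
  rw [← hN, Nat.mul_dvd_mul_iff_left two_pos] at h7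
  exact (Nat.lt_of_mul_lt_mul_left h8).trans_le (Nat.pow_le_pow_right two_pos
    ((Nat.prime_two.pow_dvd_iff_le_factorization h0).1 h7))

/-- Let G be an alternating group of degree at least 5 or a simple group with the order of one of the 26 sporadic groups, and let p be an odd prime such that p³ is the exact power of p dividing the order of G. Then p³ is less than the 2-part of the order of G. -/
theorem result {G : Type*} [Group G] [Finite G] (hG : Cfsg.IsAlternating G ∨ Cfsg.IsSporadic G)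
    (p : ℕ) (hp : p.Prime) (hodd : p ≠ 2) (h3 : (Nat.card G).factorization p = 3) :
    p ^ 3 < 2 ^ (Nat.card G).factorization 2 := by
  rcases hG with ⟨n, hn, ⟨e⟩⟩ | h
  · have : Nontrivial (Fin n) := Fin.nontrivial_iff_two_le.2 (by omega)
    refine alt (n := n) ?_ hp hodd h3
    rw [Nat.card_congr e.toEquiv, two_mul_nat_card_alternatingGroup, Nat.card_perm, Nat.card_fin]
  · rcases h with h | h | h | h | h | h | h | h | h | h | h | h | h | h | h | h | h | h | h | h | h |
      h | h | h | h | h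
    · exact spor 4 (by rw [h.2]; decide +kernel) hp hodd h3
    · exact spor 6 (by rw [h.2]; decide +kernel) hp hodd h3
    · exact spor 7 (by rw [h.2]; decide +kernel) hp hodd h3
    · exact spor 7 (by rw [h.2]; decide +kernel) hp hodd h3
    · exact spor 10 (by rw [h.2]; decide +kernel) hp hodd h3
    · exact spor 3 (by rw [h.2]; decide +kernel) hp hodd h3
    · exact spor 7 (by rw [h.2]; decide +kernel) hp hodd h3
    · exact spor 7 (by rw [h.2]; decide +kernel) hp hodd h3
    · exact spor 21 (by rw [h.2]; decide +kernel) hp hodd h3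
    · exact spor 21 (by rw [h.2]; decide +kernel) hp hodd h3
    · exact spor 18 (by rw [h.2]; decide +kernel) hp hodd h3
    · exact spor 10 (by rw [h.2]; decide +kernel) hp hodd h3
    · exact spor 17 (by rw [h.2]; decide +kernel) hp hodd h3
    · exact spor 18 (by rw [h.2]; decide +kernel) hp hodd h3
    · exact spor 21 (by rw [h.2]; decide +kernel) hp hodd h3
    · exact spor 9 (by rw [h.2]; decide +kernel) hp hodd h3
    · exact spor 7 (by rw [h.2]; decide +kernel) hp hodd h3
    · exact spor 10 (by rw [h.2]; decide +kernel) hp hodd h3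
    · exact spor 14 (by rw [h.2]; decide +kernel) hp hodd h3
    · exact spor 13 (by rw [h.2]; decide +kernel) hp hodd h3
    · exact spor 9 (by rw [h.2]; decide +kernel) hp hodd h3
    · exact spor 14 (by rw [h.2]; decide +kernel) hp hodd h3
    · exact spor 8 (by rw [h.2]; decide +kernel) hp hodd h3
    · exact spor 15 (by rw [h.2]; decide +kernel) hp hodd h3
    · exact spor 41 (by rw [h.2]; decide +kernel) hp hodd h3
    · exact spor 46 (by rw [h.2]; decide +kernel) hp hodd h3

end Cfsg.Agent.S2367
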