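import Cfsg.Statements.S2371
import Cfsg.Agent.H37.Tori

set_option autoImplicit false
open Cfsg

namespace Cfsg.Agent.S2371

theorem h1 : H37.wordOK Cfsg.Lie.chevG2 [0, 1, 0, 1]
    [[1, 3], [-1, -2]] = true := by decide +kernel

theorem h2 : H37.cycOK Cfsg.Lie.chevG2.rank
    [[1, 3], [-1, -2]]
    [[1, 0], [-2, 1], [1, -1]]
    [[1, 0], [2, 1]]
    [1, 1, 1] [-1, -2] = true := by decide +kernel

theorem h3 : H37.Cov.regOK Cfsg.Lie.chevG2 1 2 2
    [[1, 0], [2, 1]]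
    [1, 1, 1] = true := by decide +kernel

/-- The group G₂(q), q ≥ 3, contains a cyclic subgroup of order q² + q + 1 which is its own centralizer. -/
theorem result {F : Type*} [Field F] [Fintype F] (q : ℕ) (hF : Fintype.card F = q) (hq : 3 ≤ q) :
    ∃ H : Subgroup ↥(Cfsg.Lie.chevG2.group F), IsCyclic ↥H ∧ Nat.card ↥H = q ^ 2 + q + 1 ∧
      Subgroup.centralizer (H : Set ↥(Cfsg.Lie.chevG2.group F)) = H := by
  have hD : H37.IsChev Cfsg.Lie.chevG2 := by simp
  obtain ⟨_⟩ := H37.nonempty_chev hD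
  obtain ⟨H, e1, e2, e3⟩ := H37.exists_selfcent_group hD F (H37.Cov.sc_of_centT _ H39.centT_G2)
    (H37.Cov.sc_of_centT _ H39.centT_G2) H64.hasInv_G2 h1 h2 h3
  refine ⟨H, e1, ?_, e3⟩
  rw [e2, H39.centT_G2, Subgroup.card_bot, Nat.div_one, Nat.card_eq_fintype_card, hF]
  have h : 2 ≤ q := hF ▸ Fintype.one_lt_card
  refine (congrArg Int.toNat ?_).trans (Int.toNat_natCast _)
  simp only [H37.ev_cons, H37.ev_nil]
  push_cast
  ring

end Cfsg.Agent.S2371
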