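import Cfsg.Statements.S2372
import Cfsg.Agent.H37.Tori

set_option autoImplicit false
open Cfsg

namespace Cfsg.Agent.S2372

theorem h1 : H37.wordOK Cfsg.Lie.chevF4 [0, 3, 1, 2, 1, 2]
    [[1, 2, 2, 2], [-1, -1, 0, 0], [0, 0, -1, -1], [1, 1, 2, 1]] = true := by decide +kernel

theorem h2 : H37.cycOK Cfsg.Lie.chevF4.rank
    [[1, 2, 2, 2], [-1, -1, 0, 0], [0, 0, -1, -1], [1, 1, 2, 1]]
    [[1, 0, 0, 0], [-1, 1, 0, 0], [-1, 0, 1, -1], [-1, 1, 0, -1], [-1, 0, 0, 0]]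
    [[1, 0, 0, 0], [1, 1, 0, 0], [1, 1, 1, -1], [0, 1, 0, -1]]
    [1, 0, 0, 0, 1] [-1, -1, -1, 0] = true := by decide +kernel

theorem h3 : H37.Cov.regOK Cfsg.Lie.chevF4 1 2 2
    [[1, 0, 0, 0], [1, 1, 0, 0], [1, 1, 1, -1], [0, 1, 0, -1]]
    [1, 0, 0, 0, 1] = true := by decide +kernel

/-- The group F₄(q) contains a cyclic subgroup of order q⁴ + 1 which is its own centralizer. -/
theorem result {F : Type*} [Field F] [Fintype F] (q : ℕ) (hF : Fintype.card F = q) :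
    ∃ H : Subgroup ↥(Cfsg.Lie.chevF4.group F), IsCyclic ↥H ∧ Nat.card ↥H = q ^ 4 + 1 ∧
      Subgroup.centralizer (H : Set ↥(Cfsg.Lie.chevF4.group F)) = H := by
  have hD : H37.IsChev Cfsg.Lie.chevF4 := by simp
  obtain ⟨_⟩ := H37.nonempty_chev hD
  obtain ⟨H, e1, e2, e3⟩ := H37.exists_selfcent_group hD F (H37.Cov.sc_of_centT _ H39.centT_F4)
    (H37.Cov.sc_of_centT _ H39.centT_F4) H64.hasInv_F4 h1 h2 h3
  refine ⟨H, e1, ?_, e3⟩
  rw [e2, H39.centT_F4, Subgroup.card_bot, Nat.div_one, Nat.card_eq_fintype_card, hF]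
  have h : 2 ≤ q := hF ▸ Fintype.one_lt_card
  refine (congrArg Int.toNat ?_).trans (Int.toNat_natCast _)
  simp only [H37.ev_cons, H37.ev_nil]
  push_cast
  ring

end Cfsg.Agent.S2372
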