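import Cfsg.Statements.S2373
import Cfsg.Agent.H37.Tori

set_option autoImplicit false
open Cfsg

namespace Cfsg.Agent.S2373

theorem h1 : H37.wordOK Cfsg.Lie.chevE6 [2, 5, 4, 1, 0, 3]
    [[-1, 0, -1, 0, 0, 0], [0, 0, 1, 1, 1, 1], [1, 1, 1, 1, 1, 1], [0, -1, -1, -1, -1, -1], [0, 1, 1, 1, 0, 0], [0, 0, 0, 0, 1, 0]] = true := by decide +kernel

theorem h2 : H37.cycOK Cfsg.Lie.chevE6.rank
    [[-1, 0, -1, 0, 0, 0], [0, 0, 1, 1, 1, 1], [1, 1, 1, 1, 1, 1], [0, -1, -1, -1, -1, -1], [0, 1, 1, 1, 0, 0], [0, 0, 0, 0, 1, 0]]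
    [[0, 0, 0, 0, 0, 1], [0, 0, 0, 0, 1, -1], [0, 0, 0, 1, -1, 0], [1, -1, -1, 1, 0, 0], [0, 0, -1, 1, 0, -1], [0, -1, 0, 1, -1, 0], [1, 0, -1, 0, 0, 0]]
    [[-1, 0, 1, 1, -1, -1], [0, 0, 1, 0, 0, -1], [0, 1, 1, 0, -1, 0], [1, 1, 1, 0, 0, 0], [1, 1, 0, 0, 0, 0], [1, 0, 0, 0, 0, 0]]
    [1, 1, 0, -1, 0, 1, 1] [1, 0, 0, -1, -1, -1] = true := by decide +kernel

theorem h3 : H37.Cov.regOK Cfsg.Lie.chevE6 3 2 6
    [[-1, 0, 1, 1, -1, -1], [0, 0, 1, 0, 0, -1], [0, 1, 1, 0, -1, 0], [1, 1, 1, 0, 0, 0], [1, 1, 0, 0, 0, 0], [1, 0, 0, 0, 0, 0]]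
    [1, 1, 0, -1, 0, 1, 1] = true := by decide +kernel

/-- The group E₆(q) (the simple Chevalley group of type E₆) contains a cyclic subgroup of order (q⁴ − q² + 1)(q² + q + 1)/gcd(3, q − 1) which is its own centralizer. -/
theorem result {F : Type*} [Field F] [Fintype F] (q : ℕ) (hF : Fintype.card F = q) :
    ∃ H : Subgroup ↥(Cfsg.Lie.chevE6.group F), IsCyclic ↥H ∧ Nat.card ↥H = (q ^ 4 - q ^ 2 + 1) * (q ^ 2 + q + 1) / Nat.gcd 3 (q - 1) ∧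
      Subgroup.centralizer (H : Set ↥(Cfsg.Lie.chevE6.group F)) = H := by
  have hD : H37.IsChev Cfsg.Lie.chevE6 := by simp
  obtain ⟨_⟩ := H37.nonempty_chev hD
  obtain ⟨H, e1, e2, e3⟩ := H37.exists_selfcent_group hD F (H39.torus_injective_E6 hD) (H39.torus_injective_E6 hD) H64.hasInv_E6 h1 h2 h3
  refine ⟨H, e1, ?_, e3⟩
  rw [e2, H39.card_centT_E6, Nat.card_eq_fintype_card, hF]
  have h : 2 ≤ q := hF ▸ Fintype.one_lt_card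
  have a1 : q ^ 2 ≤ q ^ 4 := Nat.pow_le_pow_right (by omega) (by norm_num)
  congr 1
  refine (congrArg Int.toNat ?_).trans (Int.toNat_natCast _)
  simp only [H37.ev_cons, H37.ev_nil]
  push_cast [a1]
  ring

end Cfsg.Agent.S2373
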