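import Cfsg.Statements.S2376
import Cfsg.Agent.H37.Twist

set_option autoImplicit false
open Cfsg

namespace Cfsg.Agent.S2376

theorem h1 : H37.wordTOK Cfsg.Lie.chevD4 H40.tauD4 [1]
    [[0, 1, 1, 0], [0, -1, 0, 0], [0, 1, 0, 1], [1, 1, 0, 0]] = true := by decide +kernel

theorem h2 : H37.cycOK Cfsg.Lie.chevD4.rank
    [[0, 1, 1, 0], [0, -1, 0, 0], [0, 1, 0, 1], [1, 1, 0, 0]]
    [[0, 1, 0, -1], [0, -1, 1, 1], [0, 1, -1, 0], [1, -1, 1, 0], [-1, 1, 0, 0]]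
    [[0, 0, 1, 1], [1, 1, 1, 0], [1, 1, 0, 0], [0, 1, 1, 0]]
    [-1, -1, 0, 1, 1] [0, 1, 1, 0] = true := by decide +kernel

theorem h3 : H37.Cov.regOK Cfsg.Lie.chevD4 1 2 2
    [[0, 0, 1, 1], [1, 1, 1, 0], [1, 1, 0, 0], [0, 1, 1, 0]]
    [-1, -1, 0, 1, 1] = true := by decide +kernel

open H40 in

/-- The group ³D₄(q) contains a cyclic subgroup of order (q³ − 1)(q + 1) which is its own centralizer. -/
theorem result {K : Type*} [Field K] [Fintype K] (q : ℕ) (hq : IsPrimePow q) (hK : Fintype.card K = q ^ 3) :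
    ∃ H : Subgroup ↥(Cfsg.Lie.twistedD4 K q), IsCyclic ↥H ∧ Nat.card ↥H = (q ^ 3 - 1) * (q + 1) ∧
      Subgroup.centralizer (H : Set ↥(Cfsg.Lie.twistedD4 K q)) = H := by
  obtain ⟨Φ, μ, e1, e2⟩ := H37.exists_model_3D4 hq hK
  obtain ⟨Φ', μ', -, -, -, -, e3⟩ := μ.exists_word e2 e1 h1
  obtain ⟨p, _, _, -, ⟨a, rfl⟩, -⟩ := H37.exists_frobHom hK
  obtain ⟨x, hx, hx'⟩ := μ'.exists_selfcent (H37.sc_all _) p hq.two_le
    (dvd_pow_self p (by rintro rfl; exact hq.ne_one rfl)) h2 e3 hq.two_le h3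
  rw [pow_one] at hx'
  refine ⟨Subgroup.zpowers x, inferInstance, ?_, le_antisymm (le_trans (Subgroup.centralizer_le
    (Set.singleton_subset_iff.2 (Subgroup.mem_zpowers x))) hx') (Subgroup.le_centralizer _)⟩
  rw [Nat.card_zpowers, hx]
  refine (congrArg Int.toNat ?_).trans (Int.toNat_natCast _)
  simp only [H37.ev_cons, H37.ev_nil]
  push_cast [Nat.cast_sub (Nat.one_le_pow 3 _ hq.pos)]
  ring

end Cfsg.Agent.S2376
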