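import Cfsg.Statements.S2379
import Cfsg.Agent.H85.Tori
import Cfsg.Agent.H85.SLSyl

set_option autoImplicit false
open Cfsg

namespace Cfsg.Agent.S2379



/-- Sylow subgroups of `SL_n(q)` for large primes. Let `F` be a field with `q` elements and `r` a prime with `r > n` and `r ∤ q` (so `r` does not divide the order `n!` of the Weyl group). Let `d` be the multiplicative order of `q` modulo `r`, `a` the number of integers `i` with `2 ≤ i ≤ n` divisible by `d` (the degrees of the Weyl group are `2, …, n`), and `m` the `r`-part of the value at `q` of the `d`-th cyclotomic polynomial. Then every Sylow `r`-subgroup of `SL_n(q)` is a direct product of `a` cyclic groups of order `m`. -/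
theorem result {F : Type*} [Field F] [Fintype F] {q : ℕ} (hq : Fintype.card F = q) (n : ℕ)
    (r : ℕ) [Fact r.Prime] (hrn : n < r) (hrq : ¬ r ∣ q) (P : Sylow r (Matrix.SpecialLinearGroup (Fin n) F)) :
    Nonempty (↥(P : Subgroup (Matrix.SpecialLinearGroup (Fin n) F)) ≃*
      (Fin ((Finset.Icc 2 n).filter (fun i => orderOf (q : ZMod r) ∣ i)).card →
        Multiplicative (ZMod (r ^ padicValNat r ((Polynomial.cyclotomic (orderOf (q : ZMod r)) ℤ).eval (q : ℤ)).natAbs)))) := by
  classical
  subst hq
  have hq := Fintype.one_lt_card (α := F)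
  have hr : r.Prime := Fact.out
  rw [H85.val_cyclotomic hq hrq]
  rcases Nat.eq_zero_or_pos n with rfl | hn
  · refine H85.Emb.sylow_equiv ?_ (H85.card_pi_zmod _ _) ?_ P
    · have : IsEmpty (Fin ((Finset.Icc 2 0).filter
          (fun i => orderOf (Fintype.card F : ZMod r) ∣ i)).card) := by simp [Fin.isEmpty']
      exact H85.Emb.of_subsingleton
    · rw [Nat.card_unique]; simp
  have h1 := congrArg (padicValNat r) (H9.card_sl_fin (F := F) n hn)
  rw [padicValNat.mul (by omega) Nat.card_pos.ne', H85.val_gl hq hrq hrn,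
    ← Nat.factorization_def (Nat.card _) hr] at h1
  have h2 := H85.val_pow_sub_one (r := r) hq (i := 1) hr.not_dvd_one
  rw [pow_one] at h2
  have h3 : ∀ d : ℕ, ((Finset.Icc 2 n).filter (fun i => d ∣ i)).card + (if d ∣ 1 then 1 else 0) =
      n / d := by
    intro d
    rw [← Nat.Ioc_filter_dvd_card_eq_div, show Finset.Ioc 0 n = insert 1 (Finset.Icc 2 n) by
      ext; simp; omega, Finset.filter_insert]
    split_ifs
    · rw [Finset.card_insert_of_notMem (by simp)]
    · rfl
  refine H85.Emb.sylow_equiv ?_ (H85.card_pi_zmod _ _) ?_ P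
  · have h4 := h3 (orderOf (Fintype.card F : ZMod r))
    split_ifs at h4 with h
    · obtain ⟨n, rfl⟩ : ∃ k, n = k + 1 := ⟨n - 1, by omega⟩
      rw [Nat.dvd_one] at h
      refine (H85.emb_gl_tori F hrq (n := n) (by rw [h, Nat.div_one] at h4; rw [h]; omega)).trans
        (H85.Emb.trans ⟨H85.glToSl _ _, H85.glToSl_injective _ _⟩ (H85.Emb.of_equiv
          (H9.slReindexEquiv (Fintype.equivFinOfCardEq (by simp)))))
    · rw [add_zero] at h4
      rw [h4]
      obtain ⟨φ, hφ⟩ := H85.emb_gl_tori F hrq (Nat.div_mul_le_self n _)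
      refine H85.Emb.trans ⟨φ.codRestrict (Matrix.GeneralLinearGroup.det : _ →* Fˣ).ker fun x => ?_,
        fun a b hab => hφ (congrArg Subtype.val hab)⟩ (H85.Emb.of_equiv H9.slEquivKerDet.symm)
      rw [MonoidHom.mem_ker, ← orderOf_eq_one_iff]
      have h5 := (orderOf_map_dvd ((Matrix.GeneralLinearGroup.det : _ →* Fˣ).comp φ) x).trans
        (orderOf_dvd_natCard x)
      rw [H85.card_pi_zmod] at h5
      have h6 := orderOf_dvd_natCard (((Matrix.GeneralLinearGroup.det : _ →* Fˣ).comp φ) x)
      rw [Nat.card_units, Nat.card_eq_fintype_card] at h6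
      refine Nat.eq_one_of_dvd_coprimes (Nat.Coprime.pow_left _ ((Nat.Prime.coprime_iff_not_dvd hr).2
        fun h7 => h ?_)) h5 h6
      exact (H85.dvd_pow_sub_one_iff hq.le 1).1 (by rwa [pow_one])
  · rw [← h3, h2, add_mul] at h1
    split_ifs at h1 <;> omega

end Cfsg.Agent.S2379
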