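import Cfsg.Statements.S2381
import Cfsg.Agent.H85.Tori
import Cfsg.Agent.S0778

set_option autoImplicit false
open Cfsg

namespace Cfsg.Agent.S2381



/-- Sylow subgroups of `Sp_{2n}(q)` for large primes. Let `F` be a field with `q` elements and `r` an odd prime with `r > n` and `r ∤ q` (so `r` does not divide the order `2^n n!` of the Weyl group). Let `d` be the multiplicative order of `q` modulo `r`, `a` the number of `i` with `1 ≤ i ≤ n` and `d ∣ 2i` (the degrees being `2, 4, …, 2n`), and `m` the `r`-part of the value at `q` of the `d`-th cyclotomic polynomial. Then every Sylow `r`-subgroup of the symplectic group `Sp_{2n}(q)` is a direct product of `a` cyclic groups of order `m`. -/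
theorem result {F : Type*} [Field F] [Fintype F] {q : ℕ} (hq : Fintype.card F = q) (n : ℕ)
    (r : ℕ) [Fact r.Prime] (hr2 : r ≠ 2) (hrn : n < r) (hrq : ¬ r ∣ q) (P : Sylow r ↥(Matrix.symplecticGroup (Fin n) F)) :
    Nonempty (↥(P : Subgroup ↥(Matrix.symplecticGroup (Fin n) F)) ≃*
      (Fin ((Finset.Icc 1 n).filter (fun i => orderOf (q : ZMod r) ∣ 2 * i)).card →
        Multiplicative (ZMod (r ^ padicValNat r ((Polynomial.cyclotomic (orderOf (q : ZMod r)) ℤ).eval (q : ℤ)).natAbs)))) := by
  classical
  subst hq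
  have hq := Fintype.one_lt_card (α := F)
  have hr : r.Prime := Fact.out
  rw [H85.val_cyclotomic hq hrq]
  have h1 : ∀ d n : ℕ, ((Finset.Icc 1 n).filter (fun i => d ∣ 2 * i)).card =
      ((Finset.range n).filter (fun i => d ∣ 2 * (i + 1))).card := by
    intro d n
    rw [Finset.card_filter, Finset.card_filter, Finset.range_eq_Ico,
      Finset.sum_Ico_add' (fun i => if d ∣ 2 * i then 1 else 0) 0 n 1]
    rfl
  have hval : ∀ n < r, (Nat.card (Matrix.symplecticGroup (Fin n) F)).factorization r = _ :=
    fun n hn => by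
      rw [H9.card_symplecticGroup, Nat.factorization_def _ hr, H85.val_sp hq hrq hr2 hn]
  rw [h1]
  refine H85.Emb.sylow_equiv ?_ (H85.card_pi_zmod _ _) (hval n hrn).le P
  have hd := H85.orderOf_pos_of_not_dvd hrq
  have hd' := H85.orderOf_lt_prime hrq
  rcases Nat.even_or_odd (orderOf (Fintype.card F : ZMod r)) with ⟨e, he⟩ | ho
  · rw [← two_mul] at he
    have h2 : ∀ n, ((Finset.range n).filter
        (fun i => orderOf (Fintype.card F : ZMod r) ∣ 2 * (i + 1))).card = n / e := by
      intro n
      rw [← Nat.card_multiples, he]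
      simp only [Nat.mul_dvd_mul_iff_left two_pos]
    rw [h2]
    refine H85.emb_pi (fun n => Matrix.symplecticGroup (Fin n) F) (H85.emb_sp_add F) (e := e) ?_
      _ _ (Nat.div_mul_le_self _ _)
    obtain ⟨Q⟩ : Nonempty (Sylow r (Matrix.symplecticGroup (Fin e) F)) := inferInstance
    obtain ⟨R⟩ : Nonempty (Sylow r (GL (Fin (2 * e)) F)) := inferInstance
    have h3 := Q.card_eq_multiplicity
    rw [hval e (by omega), h2, Nat.div_self (by omega)] at h3
    obtain ⟨e1⟩ := ((H85.Emb.subtype (Q : Subgroup (Matrix.symplecticGroup (Fin e) F))).trans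
      (H85.emb_sp_gl F e)).sylow_equiv h3 (by
        rw [Matrix.card_GL_field, Nat.factorization_def _ hr, H85.val_gl hq hrq (by omega), ← he,
          Nat.div_self hd]) R
    obtain ⟨e2⟩ := H85.sylow_gl_large F hrq (n := 2 * e) (by omega) R
    rw [show 2 * e / orderOf (Fintype.card F : ZMod r) = 1 by rw [← he, Nat.div_self hd]] at e2
    exact (H85.Emb.of_equiv ((MulEquiv.funUnique (Fin 1) _).symm.trans (e2.symm.trans e1))).trans
      (H85.Emb.subtype _)
  · have h2 : ((Finset.range n).filter
        (fun i => orderOf (Fintype.card F : ZMod r) ∣ 2 * (i + 1))).card =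
        n / orderOf (Fintype.card F : ZMod r) := by
      rw [← Nat.card_multiples]
      simp only [(Nat.coprime_two_right.2 ho).dvd_mul_left]
    rw [h2]
    exact (H85.emb_gl_tori F hrq (Nat.div_mul_le_self n _)).trans ⟨S0778.blk F n, fun a b h =>
      Units.ext (Matrix.fromBlocks_inj.1 (congrArg Subtype.val h)).1⟩

end Cfsg.Agent.S2381
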