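import Cfsg.Statements.S2384
import Cfsg.Agent.H66.Semisimple
import Cfsg.Agent.H66.DoubleCount
import Cfsg.Agent.S2388

set_option autoImplicit false
open Cfsg

namespace Cfsg.Agent.S2384


/-- In `SL_n(q)`, `q` a power of the prime `p`, the number of conjugacy classes of elements of order prime to `p` (the semisimple classes) is `q^(n-1)`. -/
theorem result {F : Type*} [Field F] [Fintype F] {q : ℕ} (hq : Fintype.card F = q) (p : ℕ) [Fact p.Prime] [CharP F p] (n : ℕ) (hn : 1 ≤ n) :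
    Nat.card {c : ConjClasses (Matrix.SpecialLinearGroup (Fin n) F) //
      ∃ g : Matrix.SpecialLinearGroup (Fin n) F, ConjClasses.mk g = c ∧ (orderOf g).Coprime p} = q ^ (n - 1) := by
  subst hq
  have h1 := Cfsg.Agent.H66.card_monic_coeff_zero (F := F) hn (fun a => a = (-1) ^ n)
  rw [Nat.card_unique (α := {a : F // a = (-1) ^ n}), one_mul] at h1
  rw [← h1]
  let φ : Matrix.SpecialLinearGroup (Fin n) F →* Matrix (Fin n) (Fin n) F :=
    Matrix.SpecialLinearGroup.coeMonoidHom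
  have hφ : Function.Injective φ := Subtype.val_injective
  have hs : ((-1 : F) ^ n) * (-1) ^ n = 1 := by rw [← mul_pow]; simp
  refine Cfsg.Agent.H66.card_eq_of_surj_of_ker
    (fun g : {g : Matrix.SpecialLinearGroup (Fin n) F // (orderOf g).Coprime p} =>
      ⟨ConjClasses.mk g.1, g.1, rfl, g.2⟩)
    (fun g => ⟨(g.1 : Matrix (Fin n) (Fin n) F).charpoly, ⟨Matrix.charpoly_monic _, by simp⟩, ?_⟩)
    ?_ ?_ ?_
  · have hd : (g.1 : Matrix (Fin n) (Fin n) F).det = 1 := g.1.2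
    rw [Matrix.det_eq_sign_charpoly_coeff, Fintype.card_fin] at hd
    linear_combination (-1) ^ n * hd - (g.1 : Matrix (Fin n) (Fin n) F).charpoly.coeff 0 * hs
  · rintro ⟨c, g, rfl, hg⟩
    exact ⟨⟨g, hg⟩, rfl⟩
  · rintro ⟨f, ⟨hf, hd⟩, h0⟩
    obtain ⟨A, hA, rfl⟩ := Cfsg.Agent.H66.exists_isSS_charpoly_eq (ι := Fin n) hf (by simpa using hd)
    have hd : A.det = 1 := by
      rw [Matrix.det_eq_sign_charpoly_coeff, h0, Fintype.card_fin, hs]
    exact ⟨⟨⟨A, hd⟩, Cfsg.Agent.H66.IsSS.coprime_orderOf φ hφ p (g := ⟨A, hd⟩) hA⟩, rfl⟩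
  · intro g h
    rw [Subtype.mk.injEq, Subtype.mk.injEq, ConjClasses.mk_eq_mk_iff_isConj]
    constructor
    · intro hc
      obtain ⟨c, hc⟩ := isConj_iff.mp hc
      rw [← hc, Matrix.SpecialLinearGroup.coe_mul, Matrix.charpoly_mul_comm,
        ← Matrix.SpecialLinearGroup.coe_mul, inv_mul_cancel_left]
    · exact Cfsg.Agent.S2388.result p n g.1 h.1 g.2 h.2

end Cfsg.Agent.S2384
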