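import Cfsg.Statements.S2385
import Cfsg.Agent.H64.SSCount
import Cfsg.Agent.S2589

set_option autoImplicit false
open Cfsg

namespace Cfsg.Agent.S2385

/-- In the symplectic group `Sp_{2n}(q)`, `q` a power of the prime `p`, the number of conjugacy classes of elements of order prime to `p` is `q^n`. -/
theorem result {F : Type*} [Field F] [Fintype F] {q : ℕ} (hq : Fintype.card F = q) (p : ℕ) [Fact p.Prime] [CharP F p] (n : ℕ) :
    Nat.card {c : ConjClasses ↥(Matrix.symplecticGroup (Fin n) F) //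
      ∃ g : ↥(Matrix.symplecticGroup (Fin n) F), ConjClasses.mk g = c ∧ (orderOf g).Coprime p} = q ^ n := by

  classical
  subst hq
  rw [← H64.card_palin (F := F) n]
  have hrev : ∀ A : Matrix (Fin n ⊕ Fin n) (Fin n ⊕ Fin n) F, A.det = 1 →
      A⁻¹.charpoly = Polynomial.reflect (2 * n) A.charpoly := fun A hA => by
    rw [Matrix.charpoly_inv A ((Matrix.isUnit_iff_isUnit_det A).2 (hA ▸ isUnit_one)), hA,
      Ring.inverse_one, ← Matrix.reverse_charpoly, Polynomial.reverse,
      Matrix.charpoly_natDegree_eq_dim]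
    simp [two_mul]
  refine H67.card_conjClasses_eq_of_inv (fun g : Matrix.symplecticGroup (Fin n) F => (orderOf g).Coprime p)
    (fun g => g.1.charpoly)
    {f | (f.Monic ∧ f.natDegree = 2 * n) ∧ Polynomial.reflect (2 * n) f = f} ?_ ?_ ?_
  · rintro f ⟨⟨h1, h2⟩, h3⟩
    obtain ⟨A, hA, rfl⟩ := H66.exists_isSS_charpoly_eq (ι := Fin n ⊕ Fin n) h1
      (by rw [h2]; simp [two_mul])
    have hd : A.det = 1 := by
      rw [Matrix.det_eq_sign_charpoly_coeff, ← h3, Polynomial.coeff_reflect, Polynomial.revAt_zero,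
        ← h2, h1.coeff_natDegree]
      simp
    have hu : IsUnit A := (Matrix.isUnit_iff_isUnit_det A).2 (hd ▸ isUnit_one)
    obtain ⟨g, hg1, hg2⟩ := H64.exists_sp_ss_ev (F := F) (Ω := AlgebraicClosure F) p (m := n)
      (s := H67.ev (AlgebraicClosure F) A) (fun x hx => H67.ne_zero_of_mem_ev hu hx)
      (H67.ev_map_frob A)
      (by rw [← H67.ev_inv hu]; exact H67.ev_of_charpoly_eq ((hrev A hd).trans h3))
      (by rw [H67.card_ev]; simp [two_mul]) (by rw [H67.prod_ev, hd, map_one])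
    exact ⟨g, hg1, H67.charpoly_eq_of_ev hg2⟩
  · intro g _
    have hd := SymplecticGroup.det_eq_one g.2
    have hu : IsUnit g.1 := (Matrix.isUnit_iff_isUnit_det _).2 (hd ▸ isUnit_one)
    refine ⟨⟨Matrix.charpoly_monic _, by simp [two_mul]⟩, ?_⟩
    rw [← hrev _ hd]
    refine H67.charpoly_eq_of_ev (Ω := AlgebraicClosure F) ?_
    rw [H67.ev_inv hu]
    exact H67.ev_map_inv_of_pres (H67.pres_of_sp g)
  · intro g h hg hh
    rw [S2589.result g h hg]
    exact ⟨H67.charpoly_eq_of_isConj, fun hc => H66.exists_GL_conj_of_charpoly_eq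
      (H66.isSS_of_orderOf (Matrix.symplecticGroup (Fin n) F).subtype p hg)
      (H66.isSS_of_orderOf (Matrix.symplecticGroup (Fin n) F).subtype p hh) hc⟩


end Cfsg.Agent.S2385
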