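import Cfsg.Statements.S2386
import Cfsg.Agent.H64.SSCount

set_option autoImplicit false
open Cfsg

namespace Cfsg.Agent.S2386

/-- In the special unitary group `SU_n(q)` (matrices of determinant one over the field with `q²` elements preserving the standard Hermitian form), `q` a power of the prime `p`, the number of conjugacy classes of elements of order prime to `p` is `q^(n-1)`. -/
theorem result {F : Type*} [Field F] [Fintype F] {q : ℕ} (hF : Fintype.card F = q ^ 2) (p : ℕ) [Fact p.Prime] [CharP F p] (n : ℕ) (hn : 1 ≤ n) :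
    Nat.card {c : ConjClasses ↥(Cfsg.SU n F q) // ∃ g : ↥(Cfsg.SU n F q), ConjClasses.mk g = c ∧ (orderOf g).Coprime p} = q ^ (n - 1) := by

  classical
  have hK : Fact (Fintype.card F = q ^ 2) := ⟨hF⟩
  obtain ⟨k, rfl⟩ : ∃ k, n = k + 1 := ⟨n - 1, by omega⟩
  have hs : ((-1 : F) ^ (k + 1)) * (-1) ^ (k + 1) = 1 := by rw [← mul_pow]; simp
  rw [Nat.add_sub_cancel, ← H64.card_upalin (K := F) (q := q) k ((-1) ^ (k + 1)) (by simp) hs]
  have hrev : ∀ A : Matrix (Fin (k + 1)) (Fin (k + 1)) F, A.det = 1 →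
      A⁻¹.charpoly = Polynomial.C ((-1) ^ (k + 1)) * Polynomial.reflect (k + 1) A.charpoly :=
    fun A hA => by
    rw [Matrix.charpoly_inv A ((Matrix.isUnit_iff_isUnit_det A).2 (hA ▸ isUnit_one)), hA,
      Ring.inverse_one, ← Matrix.reverse_charpoly, Polynomial.reverse,
      Matrix.charpoly_natDegree_eq_dim]
    simp
  have hcj : ∀ A : Matrix (Fin (k + 1)) (Fin (k + 1)) F,
      (H67.cjT q A).charpoly = A.charpoly.map (H10.cj F q) := fun A => by
    rw [H67.cjT_apply, Matrix.charpoly_transpose, Matrix.charpoly_map]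
  let φ : Cfsg.SU (k + 1) F q →* Matrix (Fin (k + 1)) (Fin (k + 1)) F :=
    Matrix.SpecialLinearGroup.coeMonoidHom.comp (Cfsg.SU (k + 1) F q).subtype
  have hφ : Function.Injective φ := H10.sm_injective
  refine H67.card_conjClasses_eq_of_inv (fun g : Cfsg.SU (k + 1) F q => (orderOf g).Coprime p)
    (fun g => (H10.sm g).charpoly)
    {f | (f.Monic ∧ f.natDegree = k + 1) ∧
      f.map (H10.cj F q) = Polynomial.C ((-1) ^ (k + 1)) * Polynomial.reflect (k + 1) f} ?_ ?_ ?_
  · rintro f ⟨⟨h1, h2⟩, h3⟩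
    obtain ⟨A, hA, rfl⟩ := H66.exists_isSS_charpoly_eq (ι := Fin (k + 1)) h1 (by rw [h2]; simp)
    have hd : A.det = 1 := by
      apply H10.cj_injective (F := F) (q := q)
      have := congrArg (fun f => Polynomial.coeff f 0) h3
      simp only [Polynomial.coeff_map, Polynomial.coeff_C_mul, Polynomial.coeff_reflect,
        Polynomial.revAt_zero] at this
      have h4 := h1.coeff_natDegree
      rw [h2] at h4
      rw [Matrix.det_eq_sign_charpoly_coeff, map_mul, this, h4, Fintype.card_fin, map_pow, map_neg,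
        map_one, mul_one, hs]
    have hu : IsUnit A := (Matrix.isUnit_iff_isUnit_det A).2 (hd ▸ isUnit_one)
    have h5 : H67.ev (AlgebraicClosure F) (H67.cjT q A) = H67.ev (AlgebraicClosure F) A⁻¹ :=
      H67.ev_of_charpoly_eq (by rw [hcj, h3, hrev A hd])
    obtain ⟨B, hB1, hB2, hB3⟩ := H67.exists_isIsom_ev_eq (K := F) (q := q) (n := k + 1)
      (s := H67.ev (AlgebraicClosure F) A) (by
        rw [← H67.ev_cjT_inv hu, H67.ev_inv (H67.isUnit_cjT hu), h5, H67.ev_inv hu,
          Multiset.map_map]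
        simp) (by rw [H67.card_ev]; simp) (fun h => H67.ne_zero_of_mem_ev hu h rfl)
    have h6 := H67.charpoly_eq_of_ev hB3
    have hdB : B.det = 1 := by
      rw [Matrix.det_eq_sign_charpoly_coeff, h6, ← Matrix.det_eq_sign_charpoly_coeff, hd]
    exact ⟨H10.mkSU B hB1 hdB, H66.IsSS.coprime_orderOf φ hφ p (g := H10.mkSU B hB1 hdB) hB2, h6⟩
  · intro g _
    refine ⟨⟨Matrix.charpoly_monic _, by simp⟩, ?_⟩
    rw [← hrev _ (H10.sm_det g), ← hcj,
      Matrix.inv_eq_left_inv ((H67.isIsom_iff_cjT _).1 (H10.sm_isIsom g))]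
  · intro g h hg hh
    have h1 : H66.IsSS (H10.sm g) := H66.isSS_of_orderOf φ p hg
    have h2 : H66.IsSS (H10.sm h) := H66.isSS_of_orderOf φ p hh
    refine ⟨fun hc => H67.charpoly_eq_of_isConj (φ.map_isConj hc), fun hc =>
      H67.isConj_SU_of_det g h (H66.exists_GL_conj_of_charpoly_eq h1 h2 hc) fun a ha => ?_⟩
    obtain ⟨C, hC1, hC2⟩ := h1.exists_commute_det_eq ha
    exact ⟨C, hC1, hC2⟩


end Cfsg.Agent.S2386
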