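import Cfsg.Statements.S2387
import Cfsg.Agent.H66.Semisimple
import Cfsg.Agent.H66.DoubleCount

set_option autoImplicit false
open scoped MatrixGroups
open Cfsg

namespace Cfsg.Agent.S2387


/-- In `GL_n(q)` with `n ≥ 1`, `q` a power of the prime `p`, the number of conjugacy classes of elements of order prime to `p` (diagonalisable over the algebraic closure; determined by the characteristic polynomial) is `(q - 1) q^(n-1)`. -/
theorem result {F : Type*} [Field F] [Fintype F] {q : ℕ} (hq : Fintype.card F = q) (p : ℕ) [Fact p.Prime] [CharP F p] (n : ℕ) (hn : 1 ≤ n) :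
    Nat.card {c : ConjClasses (GL (Fin n) F) // ∃ g : GL (Fin n) F, ConjClasses.mk g = c ∧ (orderOf g).Coprime p} = (q - 1) * q ^ (n - 1) := by
  subst hq
  have h1 := Cfsg.Agent.H66.card_monic_coeff_zero (F := F) hn (fun a => a ≠ 0)
  have h2 : Nat.card {a : F // a ≠ 0} = Fintype.card F - 1 := by
    classical
    rw [Nat.card_eq_fintype_card, Fintype.card_subtype_compl, Fintype.card_subtype_eq]
  rw [← h2, ← h1]
  let φ : GL (Fin n) F →* Matrix (Fin n) (Fin n) F := Units.coeHom _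
  have hφ : Function.Injective φ := Units.val_injective
  refine Cfsg.Agent.H66.card_eq_of_surj_of_ker
    (fun g : {g : GL (Fin n) F // (orderOf g).Coprime p} => ⟨ConjClasses.mk g.1, g.1, rfl, g.2⟩)
    (fun g => ⟨(g.1 : Matrix (Fin n) (Fin n) F).charpoly, ⟨Matrix.charpoly_monic _, by simp⟩, ?_⟩)
    ?_ ?_ ?_
  · intro h0
    have hd : (g.1 : Matrix (Fin n) (Fin n) F).det ≠ 0 := (Matrix.GeneralLinearGroup.det g.1).ne_zero
    rw [Matrix.det_eq_sign_charpoly_coeff, h0, mul_zero] at hd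
    exact hd rfl
  · rintro ⟨c, g, rfl, hg⟩
    exact ⟨⟨g, hg⟩, rfl⟩
  · rintro ⟨f, ⟨hf, hd⟩, h0⟩
    obtain ⟨A, hA, rfl⟩ := Cfsg.Agent.H66.exists_isSS_charpoly_eq (ι := Fin n) hf (by simpa using hd)
    have hd : A.det ≠ 0 := by
      rw [Matrix.det_eq_sign_charpoly_coeff]
      exact mul_ne_zero (pow_ne_zero _ (neg_ne_zero.mpr one_ne_zero)) h0
    exact ⟨⟨Matrix.GeneralLinearGroup.mkOfDetNeZero A hd, Cfsg.Agent.H66.IsSS.coprime_orderOf φ hφ p
      (g := Matrix.GeneralLinearGroup.mkOfDetNeZero A hd) hA⟩, rfl⟩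
  · intro g h
    rw [Subtype.mk.injEq, Subtype.mk.injEq, ConjClasses.mk_eq_mk_iff_isConj]
    constructor
    · intro hc
      obtain ⟨c, hc⟩ := isConj_iff.mp hc
      rw [← hc, Units.val_mul, Units.val_mul, Matrix.coe_units_inv, Matrix.charpoly_units_conj]
    · intro hc
      obtain ⟨P, hP⟩ := Cfsg.Agent.H66.exists_GL_conj_of_charpoly_eq
        (Cfsg.Agent.H66.isSS_of_orderOf φ p g.2) (Cfsg.Agent.H66.isSS_of_orderOf φ p h.2) hc
      exact isConj_iff.mpr ⟨P, by rw [mul_inv_eq_iff_eq_mul]; exact Units.ext hP⟩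

end Cfsg.Agent.S2387
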