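import Cfsg.Statements.S2391


set_option autoImplicit false
open Cfsg

namespace Cfsg.Agent.S2391

section
variable {F : Type*} [Field F] {n : ℕ} (U : Subgroup (Matrix.SpecialLinearGroup (Fin n) F))

/-- The ascending series of fixed points. -/
def W : ℕ → Submodule F (Fin n → F)
  | 0 => ⊥
  | i + 1 => ⨅ u : U, (W i).comap
      (Matrix.mulVecLin ((u : Matrix.SpecialLinearGroup (Fin n) F) : Matrix (Fin n) (Fin n) F) - LinearMap.id)

theorem mem_W_succ {i : ℕ} {v : Fin n → F} : v ∈ W U (i + 1) ↔
    ∀ u ∈ U, (u : Matrix (Fin n) (Fin n) F).mulVec v - v ∈ W U i := by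
  simp [W, Submodule.mem_iInf]

theorem W_inv {g : Matrix.SpecialLinearGroup (Fin n) F}
    (hg : g ∈ Subgroup.normalizer (U : Set (Matrix.SpecialLinearGroup (Fin n) F))) :
    ∀ i, ∀ v ∈ W U i, (g : Matrix (Fin n) (Fin n) F).mulVec v ∈ W U i
  | 0, v, hv => by
    have : v = 0 := by simpa [W] using hv
    subst this; simp
  | i + 1, v, hv => by
    rw [mem_W_succ] at hv ⊢
    intro u hu
    have h1 : g⁻¹ * u * g ∈ U := by
      have := (Subgroup.mem_normalizer_iff.1 (inv_mem hg) u).1 hu
      simpa using this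
    have h2 := W_inv hg i _ (hv _ h1)
    rw [Matrix.mulVec_sub, Matrix.mulVec_mulVec, ← Matrix.SpecialLinearGroup.coe_mul,
      show g * (g⁻¹ * u * g) = u * g by group, Matrix.SpecialLinearGroup.coe_mul,
      ← Matrix.mulVec_mulVec] at h2
    exact h2

theorem W_le_succ (i : ℕ) : W U i ≤ W U (i + 1) := by
  intro v hv
  rw [mem_W_succ]
  intro u hu
  exact sub_mem (W_inv U (Subgroup.le_normalizer hu) i v hv) hv

theorem W_lt_succ [Fintype F] (p : ℕ) [Fact p.Prime] [CharP F p] (hU : IsPGroup p U) (i : ℕ)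
    (h : W U i ≠ ⊤) : W U i < W U (i + 1) := by
  classical
  let ρ : U →* Module.End F ((Fin n → F) ⧸ W U i) :=
    { toFun := fun u => (W U i).mapQ (W U i)
        (Matrix.mulVecLin ((u : Matrix.SpecialLinearGroup (Fin n) F) : Matrix (Fin n) (Fin n) F))
        (fun v hv => W_inv U (Subgroup.le_normalizer u.2) i v hv)
      map_one' := by
        apply Submodule.linearMap_qext
        ext v; simp
      map_mul' := fun a b => by
        apply Submodule.linearMap_qext
        refine LinearMap.ext fun v => ?_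
        exact congrArg (W U i).mkQ (Matrix.mulVec_mulVec v
          ((a : Matrix.SpecialLinearGroup (Fin n) F) : Matrix (Fin n) (Fin n) F)
          ((b : Matrix.SpecialLinearGroup (Fin n) F) : Matrix (Fin n) (Fin n) F)).symm }
  letI : MulAction U ((Fin n → F) ⧸ W U i) := MulAction.compHom _ ρ
  haveI : Nontrivial ((Fin n → F) ⧸ W U i) := Submodule.Quotient.nontrivial_iff.2 h
  haveI : Finite ((Fin n → F) ⧸ W U i) := Finite.of_surjective _ (Submodule.mkQ_surjective _)
  have hd : p ∣ Nat.card ((Fin n → F) ⧸ W U i) := by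
    rw [Module.natCard_eq_pow_finrank (K := F)]
    obtain ⟨m, -, hm⟩ := FiniteField.card F p
    rw [Nat.card_eq_fintype_card, hm]
    exact (dvd_pow_self p m.ne_zero).trans (dvd_pow_self _ Module.finrank_pos.ne')
  obtain ⟨b, hb, hb0⟩ := hU.exists_fixed_point_of_prime_dvd_card_of_fixed_point _ hd
    (a := 0) (fun u => map_zero (ρ u))
  obtain ⟨v, rfl⟩ := Submodule.mkQ_surjective _ b
  refine lt_of_le_of_ne (W_le_succ U i) (fun he => hb0 ?_)
  have : v ∈ W U (i + 1) := by
    rw [mem_W_succ]
    intro u hu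
    have h1 : ρ ⟨u, hu⟩ ((W U i).mkQ v) = (W U i).mkQ v := hb ⟨u, hu⟩
    exact (Submodule.Quotient.eq _).1 h1
  rw [← he] at this
  exact ((Submodule.Quotient.mk_eq_zero _).2 this).symm

end


/-- The Borel–Tits property of `SL_n(q)` in flag form: for a field `F` of characteristic `p` with finitely many elements and a non-trivial `p`-subgroup `U` of `SL_n(F)`, there is a flag `0 = V₀ < V₁ < ⋯ < V_{k+1} = F^n` with at least one proper non-zero member such that every element of the normaliser of `U` maps each `V_i` onto itself and every element of `U` acts trivially on each quotient `V_{i+1}/V_i` (so the normaliser lies in the parabolic subgroup of the flag and `U` in its unipotent radical). -/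
theorem result {F : Type*} [Field F] [Fintype F] (p : ℕ) [Fact p.Prime] [CharP F p] (n : ℕ)
    (U : Subgroup (Matrix.SpecialLinearGroup (Fin n) F)) (hU : IsPGroup p ↥U) (hne : U ≠ ⊥) :
    ∃ (k : ℕ) (V : Fin (k + 2) → Submodule F (Fin n → F)), 1 ≤ k ∧ StrictMono V ∧ V 0 = ⊥ ∧ V (Fin.last (k + 1)) = ⊤ ∧
      (∀ g ∈ Subgroup.normalizer (U : Set (Matrix.SpecialLinearGroup (Fin n) F)), ∀ i, (V i).map (Matrix.mulVecLin (g : Matrix (Fin n) (Fin n) F)) = V i) ∧
      (∀ u ∈ U, ∀ i : Fin (k + 1), ∀ v ∈ V i.succ, (u : Matrix (Fin n) (Fin n) F).mulVec v - v ∈ V (Fin.castSucc i)) := by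
  classical
  have hex : ∃ m, W U m = ⊤ := by
    by_contra hcon
    push Not at hcon
    have hs : StrictMono (W U) := strictMono_nat_of_lt_succ fun i => W_lt_succ U p hU i (hcon i)
    exact not_strictMono_of_wellFoundedGT _ hs
  have hm := Nat.find_spec hex
  have h1 : W U 1 ≠ ⊤ := by
    intro h
    apply hne
    rw [eq_bot_iff]
    intro u hu
    rw [Subgroup.mem_bot]
    apply Subtype.ext
    apply Matrix.toLin'.injective
    refine LinearMap.ext fun v => ?_
    have h2 : v ∈ W U (0 + 1) := by rw [zero_add, h]; trivial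
    have h3 := (mem_W_succ U).1 h2 u hu
    have h4 : (u : Matrix (Fin n) (Fin n) F).mulVec v - v = 0 := by simpa [W] using h3
    simpa [sub_eq_zero] using h4
  have h0 : W U 0 ≠ ⊤ := fun h => h1 (top_le_iff.1 (h ▸ W_le_succ U 0))
  obtain ⟨k, hk⟩ : ∃ k, Nat.find hex = k + 1 := by
    refine Nat.exists_eq_succ_of_ne_zero (fun h => h0 (h ▸ hm))
  have hk1 : 1 ≤ k := by
    by_contra h
    have : k = 0 := by omega
    subst this
    rw [hk] at hm
    exact h1 hm
  refine ⟨k, fun i => W U i, hk1, ?_, rfl, by simpa [hk] using hm, ?_, ?_⟩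
  · rw [Fin.strictMono_iff_lt_succ]
    intro i
    have : (i : ℕ) < Nat.find hex := by rw [hk]; exact i.2
    simpa using W_lt_succ U p hU i (Nat.find_min hex this)
  · intro g hg i
    apply le_antisymm
    · rintro _ ⟨v, hv, rfl⟩
      exact W_inv U hg i v hv
    · intro v hv
      refine ⟨_, W_inv U (inv_mem hg) i v hv, ?_⟩
      rw [Matrix.mulVecLin_apply, Matrix.mulVec_mulVec, ← Matrix.SpecialLinearGroup.coe_mul,
        mul_inv_cancel]
      simp
  · intro u hu i v hv
    exact (mem_W_succ U).1 (by simpa using hv) u hu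

end Cfsg.Agent.S2391
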