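import Cfsg.Statements.S2392
import Cfsg.Agent.H65.SLa

set_option autoImplicit false
open scoped MatrixGroups
open Cfsg

namespace Cfsg.Agent.S2392

/-- A lower bound for representations in cross characteristic: for `n ≥ 3` and a field `F` with `q` elements, every homomorphism from `SL_n(F)` to `GL_d(K)`, `K` a field of characteristic different from that of `F`, whose kernel is central has `d ≥ q^(n-1) - 1`. -/
theorem result {F : Type*} [Field F] [Fintype F] {q : ℕ} (hq : Fintype.card F = q) (n : ℕ) (hn : 3 ≤ n)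
    {K : Type*} [Field K] (hK : ringChar K ≠ ringChar F) {d : ℕ}
    (ρ : Matrix.SpecialLinearGroup (Fin n) F →* GL (Fin d) K) (hker : ρ.ker ≤ Subgroup.center (Matrix.SpecialLinearGroup (Fin n) F)) :
    q ^ (n - 1) - 1 ≤ d := by
  classical
  have hp : ((ringChar F : ℕ) : AlgebraicClosure K) ≠ 0 := fun e => by
    have h1 : ((ringChar F : ℕ) : K) = 0 := (algebraMap K (AlgebraicClosure K)).injective (by simpa using e)
    have h2 := (Nat.dvd_prime (CharP.char_is_prime F (ringChar F))).1 (ringChar.dvd h1)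
    exact h2.elim CharP.ringChar_ne_one hK
  obtain ⟨g, hg⟩ : ∃ g, g ∉ Subgroup.center (Matrix.SpecialLinearGroup (Fin n) F) := by
    by_contra! h
    let u : Fin n → F := Pi.single ⟨0, by omega⟩ 1
    let v : Fin n → F := Pi.single ⟨1, by omega⟩ 1
    have h1 := congrArg (fun g => g.1.mulVec u ⟨0, by omega⟩) (Subgroup.mem_center_iff.1
      (h (H65.slT u (LinearMap.proj ⟨1, by omega⟩))) (H65.slT v (LinearMap.proj ⟨0, by omega⟩)))
    simp only [H65.sl_mul] at h1
    rw [H65.slT_mulVec, H65.slT_mulVec, H65.slT_mulVec, H65.slT_mulVec] at h1 <;> simp [u, v] at h1 ⊢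
  have := H65.sl_bound (ρ := ((Matrix.toLinAlgEquiv' : Matrix (Fin d) (Fin d) (AlgebraicClosure K) ≃ₐ[AlgebraicClosure K]
    _).toMonoidHom.comp ((algebraMap K (AlgebraicClosure K)).mapMatrix.toMonoidHom.comp ((Units.coeHom _).comp ρ))))
    hn hp (g := g) fun e => hg (hker ?_)
  · rwa [Module.finrank_fin_fun, Nat.card_eq_fintype_card, hq] at this
  · rw [MonoidHom.mem_ker]
    refine Units.ext (Matrix.map_injective (algebraMap K (AlgebraicClosure K)).injective ?_)
    have h1 := (Matrix.toLinAlgEquiv' : Matrix (Fin d) (Fin d) (AlgebraicClosure K) ≃ₐ[AlgebraicClosure K] _).injective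
      (e.trans (map_one _).symm)
    simpa using h1

end Cfsg.Agent.S2392
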