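import Cfsg.Statements.S2393
import Cfsg.Agent.H65.SpLS

set_option autoImplicit false
open scoped MatrixGroups
open Cfsg

namespace Cfsg.Agent.S2393

/-- A lower bound for representations in cross characteristic: for `n ≥ 2` and a field `F` with `q` elements, `q` odd, every homomorphism from the symplectic group `Sp_{2n}(F)` to `GL_d(K)`, `K` a field of characteristic different from that of `F`, whose kernel is central has `d ≥ q^(n-1)(q-1)/2`. -/
theorem result {F : Type*} [Field F] [Fintype F] {q : ℕ} (hq : Fintype.card F = q) (hodd : Odd q) (n : ℕ) (hn : 2 ≤ n)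
    {K : Type*} [Field K] (hK : ringChar K ≠ ringChar F) {d : ℕ}
    (ρ : ↥(Matrix.symplecticGroup (Fin n) F) →* GL (Fin d) K) (hker : ρ.ker ≤ Subgroup.center ↥(Matrix.symplecticGroup (Fin n) F)) :
    q ^ (n - 1) * (q - 1) / 2 ≤ d := by
  classical
  have hp : ((ringChar F : ℕ) : AlgebraicClosure K) ≠ 0 := fun e => by
    have h1 : ((ringChar F : ℕ) : K) = 0 := (algebraMap K (AlgebraicClosure K)).injective (by simpa using e)
    have h2 := (Nat.dvd_prime (CharP.char_is_prime F (ringChar F))).1 (ringChar.dvd h1)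
    exact h2.elim CharP.ringChar_ne_one hK
  have := H65.sp_bound (H65.two_ne_zero_of_odd (hq ▸ hodd)) hn
    ((Matrix.toLinAlgEquiv' : Matrix (Fin d) (Fin d) (AlgebraicClosure K) ≃ₐ[AlgebraicClosure K] _).toMonoidHom.comp
      ((algebraMap K (AlgebraicClosure K)).mapMatrix.toMonoidHom.comp ((Units.coeHom _).comp ρ))) hp
    fun g hg e => hg (hker ?_)
  · rw [Module.finrank_fin_fun, Nat.card_eq_fintype_card, hq] at this
    obtain ⟨m, rfl⟩ : ∃ m, n = m + 1 := ⟨n - 1, by omega⟩
    have h1 : 1 ≤ q ^ m := Nat.one_le_pow _ _ hodd.pos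
    rw [Nat.add_sub_cancel, Nat.mul_sub_one, ← pow_succ]
    omega
  · rw [MonoidHom.mem_ker]
    refine Units.ext (Matrix.map_injective (algebraMap K (AlgebraicClosure K)).injective ?_)
    have h1 := (Matrix.toLinAlgEquiv' : Matrix (Fin d) (Fin d) (AlgebraicClosure K) ≃ₐ[AlgebraicClosure K] _).injective
      (e.trans (map_one _).symm)
    simpa using h1

end Cfsg.Agent.S2393
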