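import Cfsg.Statements.S2399
import Cfsg.Agent.H39.PLift

set_option autoImplicit false
open scoped MatrixGroups
open Cfsg

namespace Cfsg.Agent.S2399

/-- Projective representations in the natural characteristic lift: for each of the types G₂, B₂, D₄, F₄, E₆, E₇, E₈ over any field `K` (for types B₂ and G₂ the field must have more than two elements — the cases where the Chevalley group is not simple are set aside), every homomorphism from the Chevalley group to `PGL_n(L) = GL_n(L)/Z`, `L` a field of the same characteristic as `K`, lifts uniquely to a homomorphism from the group Δ presented by (R1), (R2) to `GL_n(L)`, compatibly with the projection Δ → Chevalley group sending x̄_r(t) to x_r(t). -/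
theorem result {K : Type*} [Field K] (D : Cfsg.Lie.ChevalleyDatum) (hD : D ∈ [Cfsg.Lie.chevG2, Cfsg.Lie.chevB2, Cfsg.Lie.chevD4, Cfsg.Lie.chevF4, Cfsg.Lie.chevE6, Cfsg.Lie.chevE7, Cfsg.Lie.chevE8]) (hK : D ∈ [Cfsg.Lie.chevB2, Cfsg.Lie.chevG2] → ∃ x : K, x ≠ 0 ∧ x ≠ 1)
    (θ : D.SteinbergCover K →* ↥(D.group K))
    (hθ : ∀ (r : ℕ) (t : K), r < D.nroots → ((θ (D.scGen K r t) : GL D.Idx K) : Matrix D.Idx D.Idx K) = D.x K r t)
    {L : Type*} [Field L] (hL : ringChar L = ringChar K) {n : ℕ}
    (φ : ↥(D.group K) →* GL (Fin n) L ⧸ Subgroup.center (GL (Fin n) L)) :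
    ∃! ψ : D.SteinbergCover K →* GL (Fin n) L, (QuotientGroup.mk' (Subgroup.center (GL (Fin n) L))).comp ψ = φ.comp θ := by
  classical
  obtain ⟨inst⟩ := H37.nonempty_chev hD
  by_cases h5 : ∃ s : Finset K, 4 < s.card
  · exact H39.cover_universal hD (H39.generic_of_five h5) _ (QuotientGroup.mk'_surjective _)
      (QuotientGroup.ker_mk' _).le _
  have : Finite K := by
    by_contra c
    obtain ⟨s, hs⟩ := (not_finite_iff_infinite.1 c).exists_subset_card_eq K 5
    exact h5 ⟨s, by omega⟩
  have hp : commutator (D.SteinbergCover K) = ⊤ :=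
    H39.presAB_perfect hD subset_rfl fun h => hK (by rcases h with rfl | rfl <;> simp)
  have := Fact.mk (CharP.char_is_prime K (ringChar K))
  let L' := AlgebraicClosure L
  have : CharP L (ringChar K) := ringChar.of_eq hL
  let ι : GL (Fin n) L →* GL (Fin n) L' := Matrix.GeneralLinearGroup.map (algebraMap L L')
  have hι : Function.Injective ι := fun a b h => Units.ext (Matrix.ext fun i j => (algebraMap L L').injective
    (congrArg (fun g : GL (Fin n) L' => g i j) h))
  let ι' := QuotientGroup.map _ _ ι (Matrix.GeneralLinearGroup.map_center_le (algebraMap L L'))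
  obtain ⟨X, hX⟩ := H39.exists_AB_plift hD (ringChar K) (QuotientGroup.mk'_surjective _)
    (QuotientGroup.ker_mk' (Subgroup.center (GL (Fin n) L'))).le (fun z hz h => by
      rw [QuotientGroup.ker_mk', Matrix.GeneralLinearGroup.center_eq_range_scalar] at hz
      obtain ⟨a, rfl⟩ := hz
      refine Units.ext (Matrix.ext fun i j => ?_)
      have h1 := congrArg (fun g : GL (Fin n) L' => g i i) h
      simp only [← map_pow] at h1
      have h2 : (a : L') = 1 := by
        apply frobenius_inj L' (ringChar K)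
        simpa [frobenius_def, Matrix.diagonal_pow] using h1
      rw [show a = 1 from Units.ext h2, map_one]) (fun z hz => by
      rw [QuotientGroup.ker_mk', Matrix.GeneralLinearGroup.center_eq_range_scalar] at hz ⊢
      obtain ⟨a, rfl⟩ := hz
      obtain ⟨b, hb⟩ := IsAlgClosed.exists_pow_nat_eq (a : L') (Fact.out : (ringChar K).Prime).pos
      have hb0 : b ≠ 0 := by
        rintro rfl
        exact a.ne_zero (by rw [← hb, zero_pow (Fact.out : (ringChar K).Prime).ne_zero])
      exact ⟨_, ⟨Units.mk0 b hb0, rfl⟩, by rw [← map_pow]; exact congrArg _ (Units.ext hb)⟩) (ι'.comp φ)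
  have h1 : (QuotientGroup.mk' _).comp X.lift = ι'.comp (φ.comp θ) := H39.pres_hom_ext fun r hr t => by
    refine (congrArg (QuotientGroup.mk' _) (X.lift_x hr t)).trans ((hX r hr t).trans (congrArg ι' (congrArg φ ?_)))
    exact Subtype.ext (Units.ext ((H39.grpAB_x' hD hr t).trans (hθ r t hr).symm))
  have h2 : ∀ a, ∃ y, QuotientGroup.mk' _ y = φ (θ a) ∧ ι y = X.lift a := fun a => by
    let T : Subgroup (D.SteinbergCover K) :=
      { carrier := {a | ∃ y, QuotientGroup.mk' _ y = φ (θ a) ∧ ι y = X.lift a}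
        one_mem' := ⟨1, by simp⟩
        mul_mem' := fun ⟨y, a, b⟩ ⟨y', a', b'⟩ => ⟨y * y', by simp only [map_mul, a, b, a', b', and_self]⟩
        inv_mem' := fun ⟨y, a, b⟩ => ⟨y⁻¹, by simp only [map_inv, a, b, and_self]⟩ }
    refine (show commutator _ ≤ T from Subgroup.commutator_le.2 fun a _ b _ => ?_) (hp ▸ Subgroup.mem_top a)
    obtain ⟨y, hy⟩ := QuotientGroup.mk'_surjective _ (φ (θ a))
    obtain ⟨y', hy'⟩ := QuotientGroup.mk'_surjective _ (φ (θ b))
    refine ⟨y * y' * y⁻¹ * y'⁻¹, by simp only [commutatorElement_def, map_mul, map_inv, hy, hy'], ?_⟩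
    have k : ∀ {c y}, QuotientGroup.mk' _ y = φ (θ c) → ∃ z ∈ Subgroup.center _, X.lift c = ι y * z := fun {c y} h =>
      ⟨(ι y)⁻¹ * X.lift c, QuotientGroup.eq.1 ((congrArg ι' h).trans (DFunLike.congr_fun h1 c).symm), by simp⟩
    obtain ⟨z, hz, e⟩ := k hy
    obtain ⟨z', hz', e'⟩ := k hy'
    simp only [commutatorElement_def, map_mul, map_inv, e, e']
    rw [mul_assoc _ z, ← Subgroup.mem_center_iff.1 hz, show ∀ a b c d : GL (Fin n) L',
      a * (b * c * d) * (a * d)⁻¹ = a * b * (c * a⁻¹) from fun a b c d => by group,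
      ← Subgroup.mem_center_iff.1 hz']
    group
  choose ψ h3 h4 using h2
  refine ⟨MonoidHom.mk' ψ fun a b => hι (by rw [map_mul, h4, h4, h4, map_mul]), MonoidHom.ext h3, fun ψ' h => ?_⟩
  exact H81.lift_unique_of_perfect ⟨hp⟩ (QuotientGroup.ker_mk' _).le (h.trans (MonoidHom.ext h3).symm)

end Cfsg.Agent.S2399
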