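import Cfsg.Statements.S2403
import Cfsg.Agent.H62.SLGen

set_option autoImplicit false
open Cfsg

namespace Cfsg.Agent.S2403

/-- Explicit two-element generation of `PSL_{n+1}(K)` over the fields with two or three elements: with `x = 1 + E₁₂` and `w` the monomial matrix with entries `1` in positions `(i, i+1)` and `(−1)^n` in position `(n+1, 1)`, the elements `x` and `w` generate `SL_{n+1}(K)` modulo its centre. -/
theorem result {K : Type*} [Field K] [Fintype K] (hK : Fintype.card K ≤ 3) (n : ℕ) (hn : 1 ≤ n)
    (x w : Matrix.SpecialLinearGroup (Fin (n + 1)) K)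
    (hx : (x : Matrix (Fin (n + 1)) (Fin (n + 1)) K) = Matrix.transvection (0 : Fin (n + 1)) (1 : Fin (n + 1)) 1)
    (hw : (w : Matrix (Fin (n + 1)) (Fin (n + 1)) K) =
      Matrix.of (fun i j => if j.val = i.val + 1 then 1 else if i.val = n ∧ j.val = 0 then (-1) ^ n else 0)) :
    Subgroup.closure ({x, w} : Set (Matrix.SpecialLinearGroup (Fin (n + 1)) K)) ⊔
      Subgroup.center (Matrix.SpecialLinearGroup (Fin (n + 1)) K) = ⊤ := by
  classical
  have h01 := H62.SLGen.zero_ne_one' hn
  rw [eq_top_iff, ← H62.SLGen.top_of_w hn (Subgroup.closure {x, w})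
    (H62.SLGen.isW_of hn w hw) (Subgroup.subset_closure (by simp)) h01 ?_]
  · exact le_sup_left
  have hx1 : Matrix.SpecialLinearGroup.transvection h01 (1 : K) ∈ Subgroup.closure {x, w} := by
    rw [← H62.SLGen.tv_eq h01 hx]
    exact Subgroup.subset_closure (by simp)
  intro a
  by_cases h0 : a = 0
  · subst h0; simp [Subgroup.one_mem]
  by_cases h1 : a = 1
  · subst h1; exact hx1
  have h2 : a = 1 + 1 := by
    by_contra h2
    by_cases h3 : a + 1 = 0
    · by_cases h4 : (1 + 1 : K) = 0
      · apply h1; linear_combination h3 - h4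
      · have : ({0, 1, 1 + 1, a} : Finset K).card ≤ 3 := (Finset.card_le_univ _).trans hK
        rw [Finset.card_insert_of_notMem, Finset.card_insert_of_notMem, Finset.card_insert_of_notMem] at this
        · simp at this
        · simpa using Ne.symm h2
        · simp [Ne.symm h1]
        · simp [Ne.symm h0, Ne.symm h4]
    · have : ({0, 1, a + 1, a} : Finset K).card ≤ 3 := (Finset.card_le_univ _).trans hK
      rw [Finset.card_insert_of_notMem, Finset.card_insert_of_notMem, Finset.card_insert_of_notMem] at this
      · simp at this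
      · simp
      · simp [Ne.symm h1, h0]
      · simp [Ne.symm h0, Ne.symm h3]
  rw [h2, Matrix.SpecialLinearGroup.transvection_add]
  exact Subgroup.mul_mem _ hx1 hx1

end Cfsg.Agent.S2403
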