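import Cfsg.Statements.S2405
import Cfsg.Agent.H38.Gen2

set_option autoImplicit false
open Cfsg

namespace Cfsg.Agent.S2405

open Cfsg.Agent.H37 Cfsg.Agent.H38 Cfsg.Lie

/-- Each Chevalley group of type G₂, B₂, D₄, F₄, E₆, E₇ or E₈ over a finite field is generated by two of its elements (types B₂ and G₂ over the field with two elements, where the group is not simple, excepted). -/
theorem result {F : Type*} [Field F] [Finite F] (D : Cfsg.Lie.ChevalleyDatum) (hD : D ∈ [Cfsg.Lie.chevG2, Cfsg.Lie.chevB2, Cfsg.Lie.chevD4, Cfsg.Lie.chevF4, Cfsg.Lie.chevE6, Cfsg.Lie.chevE7, Cfsg.Lie.chevE8])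
    (hF : D ∈ [Cfsg.Lie.chevB2, Cfsg.Lie.chevG2] → ∃ x : F, x ≠ 0 ∧ x ≠ 1) :
    ∃ a b : ↥(D.group F), Subgroup.closure ({a, b} : Set ↥(D.group F)) = ⊤ := by
  have hD' : IsChev D := hD
  obtain ⟨inst⟩ := nonempty_chev hD'
  have hH : ∀ h ∈ (rg (matRel hD' F)).H, ∀ h' ∈ (rg (matRel hD' F)).H, h * h' = h' * h :=
    fun h hh h' hh' => mg_H_comm hD' F hh hh'
  rw [← mg_grp hD']
  obtain ⟨l, hl⟩ := IsCyclic.exists_generator (α := Fˣ)
  have hpow : ∀ t : F, t ≠ 0 → ∃ n : ℤ, t = (l : F) ^ n := fun t ht => by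
    obtain ⟨n, hn⟩ := hl (Units.mk0 t ht)
    exact ⟨n, by simpa using congrArg Units.val hn.symm⟩
  simp only [List.mem_cons, List.not_mem_nil, or_false] at hD
  by_cases h1 : (l : F) = 1
  · have h2 : ∀ t : F, t = 0 ∨ t = 1 := fun t => (eq_or_ne t 0).imp_right fun ht => by
      obtain ⟨n, rfl⟩ := hpow t ht
      simp [h1]
    have h2' : ∀ t : F, t = 0 ∨ t = 1 ∨ t = -1 := fun t => (h2 t).imp_right Or.inl
    have h3 : ¬ ∃ x : F, x ≠ 0 ∧ x ≠ 1 := fun ⟨x, h0, h1⟩ => (h2 x).elim h0 h1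
    rcases hD with rfl | rfl | rfl | rfl | rfl | rfl | rfl
    · exact absurd (hF (by simp)) h3
    · exact absurd (hF (by simp)) h3
    · exact two_gens_two _ h2 12 0 3 8 [(0, [], 0, 12)]
        [(1, [], 12, 8), (0, [], 0, 9), (0, [], 0, 1), (0, [], 0, 18), (0, [], 0, 8), (0, [], 0, 10), (0, [], 0, 12), (1, [], 12, 3), (1, [], 21, 4), (1, [], 12, 21), (0, [], 0, 22), (0, [], 0, 3), (0, [], 0, 7)]
        (by decide +kernel)
    · exact two_gens_two _ h2 24 1 17 19 [(0, [], 0, 24), (0, [], 0, 5), (0, [], 0, 17), (0, [], 0, 4), (0, [], 0, 16)]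
        [(0, [], 0, 19), (0, [], 0, 11), (0, [], 0, 33), (0, [], 0, 27), (0, [], 0, 35), (0, [], 0, 38), (0, [], 0, 24), (0, [], 0, 5), (2, [2], 1, 17), (0, [], 0, 28), (0, [], 0, 36), (0, [], 0, 17), (0, [], 0, 4), (0, [], 0, 16), (2, [], 2, 19), (0, [], 0, 22)]
        (by decide +kernel)
    · exact two_gens_prime _ h2' (ok_one F) 39 (by decide +kernel)
        [(0, [], 0, 39), (0, [], 0, 37), (0, [], 0, 36), (0, [], 0, 8), (0, [], 0, 28), (0, [], 0, 23), (0, [], 0, 11), (1, [], 39, 28), (1, [], 23, 29), (0, [], 0, 20), (0, [], 0, 6), (0, [], 0, 27), (0, [], 0, 22), (0, [], 0, 56), (1, [], 39, 37), (1, [], 36, 40), (1, [], 41, 11), (1, [], 14, 42), (1, [], 40, 23), (0, [], 0, 29), (0, [], 0, 24), (0, [], 0, 12), (0, [], 0, 19), (0, [], 0, 32), (0, [], 0, 41), (0, [], 0, 10), (0, [], 0, 4), (0, [], 0, 0), (0, [], 0, 1), (0, [], 0, 16), (1, [], 40, 30)]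
        (by decide +kernel)
    · exact two_gens_prime _ h2' (ok_one F) 69 (by decide +kernel)
        [(0, [], 0, 69), (0, [], 0, 66), (0, [], 0, 64), (0, [], 0, 63), (0, [], 0, 23), (1, [], 69, 51), (0, [], 0, 52), (0, [], 0, 46), (0, [], 0, 29), (0, [], 0, 40), (0, [], 0, 20), (0, [], 0, 50), (0, [], 0, 44), (0, [], 0, 27), (0, [], 0, 51), (1, [], 45, 52), (0, [], 0, 41), (0, [], 0, 21), (0, [], 0, 12), (0, [], 0, 37), (0, [], 0, 18), (0, [], 0, 49), (0, [], 0, 43), (0, [], 0, 93), (1, [], 69, 66), (1, [], 70, 45), (0, [], 0, 45), (0, [], 0, 28), (0, [], 0, 39), (0, [], 0, 56), (0, [], 0, 59), (0, [], 0, 61), (0, [], 0, 62), (1, [], 47, 102), (0, [], 0, 98)]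
        (by decide +kernel)
    · exact two_gens_prime _ h2' (ok_one F) 126 (by decide +kernel)
        [(0, [], 0, 126), (0, [], 0, 123), (0, [], 0, 121), (0, [], 0, 120), (0, [], 0, 66), (0, [], 0, 103), (1, [], 126, 96), (0, [], 0, 97), (0, [], 0, 74), (0, [], 0, 90), (0, [], 0, 63), (0, [], 0, 49), (0, [], 0, 86), (0, [], 0, 60), (0, [], 0, 47), (0, [], 0, 85), (0, [], 0, 59), (0, [], 0, 101), (0, [], 0, 94), (0, [], 0, 71), (0, [], 0, 96), (1, [], 73, 97), (0, [], 0, 64), (0, [], 0, 50), (0, [], 0, 31), (0, [], 0, 44), (0, [], 0, 28), (0, [], 0, 42), (0, [], 0, 27), (0, [], 0, 41), (0, [], 0, 82), (0, [], 0, 57), (0, [], 0, 100), (0, [], 0, 93), (0, [], 0, 162), (1, [], 126, 123), (1, [], 121, 127), (1, [], 120, 128), (0, [], 0, 73), (1, [], 89, 64), (0, [], 0, 32), (0, [], 0, 11), (0, [], 0, 19), (0, [], 0, 25), (0, [], 0, 9), (0, [], 0, 17), (0, [], 0, 23), (0, [], 0, 38), (0, [], 0, 80), (0, [], 0, 56),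 (0, [], 0, 99), (0, [], 0, 163), (1, [], 129, 147), (0, [], 0, 151), (1, [], 127, 73), (0, [], 0, 89), (0, [], 0, 62), (0, [], 0, 102), (0, [], 0, 95), (0, [], 0, 72), (0, [], 0, 88), (0, [], 0, 109), (0, [], 0, 113), (0, [], 0, 116), (0, [], 0, 118), (0, [], 0, 119), (0, [], 0, 173), (1, [], 75, 136), (1, [], 128, 89), (1, [], 92, 136), (0, [], 0, 77)]
        (by decide +kernel)
  have hE : ∀ e ∈ [(1 : ℤ), -1], e ∈ [(1 : ℤ), -1, 2, -2] ∧ (l : F) ^ e ≠ 1 := by simpa using h1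
  rcases hD with rfl | rfl | rfl | rfl | rfl | rfl | rfl
  · exact two_gens_A _ hH hl hE 6 8 [(⟨0, by decide⟩, -1), (⟨1, by decide⟩, -1)]
        [(0, [], 0, 8), (0, [], 0, 4), (0, [], 0, 2), (0, [], 0, 3), (0, [], 0, 6), (0, [], 0, 1), (0, [], 0, 0)]
        (by decide +kernel)
  · by_cases h2 : (l : F) ^ 2 = 1
    · have h3 : (l : F) = -1 := (sq_eq_one_iff.1 h2).resolve_left h1
      have h4 : ∀ t : F, t = 0 ∨ t = 1 ∨ t = -1 := fun t => (eq_or_ne t 0).imp_right fun ht => by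
        obtain ⟨n, rfl⟩ := hpow t ht
        rw [h3]
        exact (Int.even_or_odd n).imp Even.neg_one_zpow Odd.neg_one_zpow
      have h5 : (2 : F) ≠ 0 := fun h => h1 (by rw [h3]; linear_combination -h)
      have hok : ∀ e ∈ [(1 : ℤ), -1, 2, -2], (e : F) ≠ 0 := by simpa using h5
      exact two_gens_prime _ h4 hok 5 (by decide +kernel)
        [(0, [], 0, 5), (1, [], 5, 6), (0, [], 0, 7), (0, [], 0, 6), (0, [], 0, 2), (1, [], 5, 1)]
        (by decide +kernel)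
    · have hE' : ∀ e ∈ [(1 : ℤ), -1, 2, -2], e ∈ [(1 : ℤ), -1, 2, -2] ∧ (l : F) ^ e ≠ 1 := by
        intro e he
        refine ⟨he, ?_⟩
        simp only [List.mem_cons, List.not_mem_nil, or_false] at he
        rcases he with rfl | rfl | rfl | rfl
        · rwa [zpow_one]
        · rwa [zpow_neg_one, ne_eq, inv_eq_one]
        · rwa [zpow_ofNat]
        · rwa [zpow_neg, ne_eq, inv_eq_one, zpow_ofNat]
      exact two_gens_A _ hH hl hE' 4 2 [(⟨0, by decide⟩, -1), (⟨1, by decide⟩, -2)]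
        [(0, [], 0, 2), (0, [], 0, 1), (0, [], 0, 4), (0, [], 0, 0)]
        (by decide +kernel)
  · exact two_gens_A _ hH hl hE 14 15 [(⟨0, by decide⟩, -1), (⟨1, by decide⟩, -1)]
        [(0, [], 0, 14), (0, [], 0, 22), (0, [], 0, 5), (0, [], 0, 9), (0, [], 0, 1), (0, [], 0, 15), (1, [], 14, 13), (0, [], 0, 16), (0, [], 0, 13), (0, [], 0, 2), (0, [], 0, 8), (1, [], 14, 8)]
        (by decide +kernel)
  · exact two_gens_A _ hH hl hE 33 25 [(⟨1, by decide⟩, -1), (⟨2, by decide⟩, -1)]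
        [(0, [], 0, 33), (0, [], 0, 25), (0, [], 0, 27), (0, [], 0, 35), (0, [], 0, 38), (0, [], 0, 28), (0, [], 0, 36), (0, [], 0, 14), (0, [], 0, 24), (0, [], 0, 5), (0, [], 0, 17), (0, [], 0, 4), (0, [], 0, 16), (0, [], 0, 22)]
        (by decide +kernel)
  · exact two_gens_A _ hH hl hE 36 56 [(⟨1, by decide⟩, -1), (⟨3, by decide⟩, -1), (⟨4, by decide⟩, -1)]
        [(0, [], 0, 36), (0, [], 0, 56), (1, [], 56, 42), (1, [], 8, 57), (0, [], 0, 22), (0, [], 0, 42), (0, [], 0, 47), (0, [], 0, 59), (0, [], 0, 52), (0, [], 0, 39), (1, [], 36, 59), (0, [], 0, 60), (1, [], 36, 8), (1, [], 9, 59), (0, [], 0, 8), (1, [], 28, 9), (1, [], 59, 4), (1, [], 47, 21), (1, [], 56, 8), (0, [], 0, 19), (0, [], 0, 32), (0, [], 0, 34)]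
        (by decide +kernel)
  · exact two_gens_A _ hH hl hE 63 93 [(⟨3, by decide⟩, -1), (⟨5, by decide⟩, -1), (⟨6, by decide⟩, -1)]
        [(0, [], 0, 63), (0, [], 0, 93), (1, [], 93, 73), (1, [], 23, 94), (0, [], 0, 43), (0, [], 0, 73), (0, [], 0, 79), (0, [], 0, 96), (1, [], 63, 85), (0, [], 0, 86), (0, [], 0, 23), (1, [], 63, 23), (1, [], 51, 24), (1, [], 15, 85), (1, [], 96, 30), (0, [], 0, 66), (1, [], 24, 85), (0, [], 0, 85), (1, [], 105, 30), (0, [], 0, 82), (0, [], 0, 32), (1, [], 93, 23), (0, [], 0, 39), (0, [], 0, 56), (0, [], 0, 59), (1, [], 39, 85)]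
        (by decide +kernel)
  · exact two_gens_A _ hH hl hE 120 162 [(⟨3, by decide⟩, -1), (⟨6, by decide⟩, -1), (⟨7, by decide⟩, -1)]
        [(0, [], 0, 120), (0, [], 0, 162), (1, [], 162, 135), (1, [], 66, 163), (0, [], 0, 93), (1, [], 120, 66), (0, [], 0, 135), (0, [], 0, 142), (0, [], 0, 165), (0, [], 0, 149), (1, [], 67, 176), (0, [], 0, 130), (0, [], 0, 66), (0, [], 0, 103), (1, [], 103, 67), (1, [], 96, 53), (1, [], 34, 176), (1, [], 149, 91), (0, [], 0, 123), (0, [], 0, 176), (1, [], 190, 91), (0, [], 0, 168), (1, [], 66, 168), (1, [], 53, 176), (1, [], 162, 66), (0, [], 0, 88), (0, [], 0, 109), (0, [], 0, 113), (1, [], 120, 88), (1, [], 89, 149), (0, [], 0, 118)]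
        (by decide +kernel)

end Cfsg.Agent.S2405
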