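import Cfsg.Statements.S2409
import Cfsg.Agent.H13.ReeInst
import Cfsg.Agent.H13.ReeGen

set_option autoImplicit false
open Cfsg

namespace Cfsg.Agent.S2409

open Cfsg.Agent.H13
set_option linter.style.haveILetI false

/-- The small Ree group ²G₂(3^(2m+1)) with `m ≥ 1` is generated by two of its elements. -/
theorem result {K : Type*} [Field K] [Fintype K] {m : ℕ} (hm : 1 ≤ m) (hK : Fintype.card K = 3 ^ (2 * m + 1)) :
    ∃ a b : ↥(Cfsg.Lie.twistedG2 K (3 ^ m)), Subgroup.closure ({a, b} : Set ↥(Cfsg.Lie.twistedG2 K (3 ^ m))) = ⊤ := by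
  set M := reeModel hK
  obtain ⟨s, hs⟩ := IsCyclic.exists_generator (α := Kˣ)
  obtain ⟨x, hx⟩ := H40.exists_cube_ne hK hm
  have hx0 : x ≠ 0 := by rintro rfl; simp at hx
  have hs1 : s ≠ 1 := by
    rintro rfl
    have := hs (Units.mk0 x hx0)
    rw [Subgroup.zpowers_one_eq_bot, Subgroup.mem_bot, Units.ext_iff] at this
    simp only [Units.val_mk0, Units.val_one] at this
    simp [this] at hx
  refine ⟨M.h s, M.u 1 0 0 * M.n, ?_⟩
  set S := Subgroup.closure ({M.h s, M.u 1 0 0 * M.n} : Set (Cfsg.Lie.twistedG2 K (3 ^ m)))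
  have h1 : M.h s ∈ S := Subgroup.subset_closure (by simp)
  have h2 : M.u 1 0 0 * M.n ∈ S := Subgroup.subset_closure (by simp)
  have hh : ∀ t, M.h t ∈ S := by
    intro t
    obtain ⟨i, rfl⟩ := hs t
    simpa using S.zpow_mem h1 i
  have h3 := S.mul_mem (S.mul_mem (S.mul_mem h2 (hh s⁻¹)) (S.inv_mem h2)) (hh s⁻¹)
  have e : M.u 1 0 0 * M.n * M.h s⁻¹ * (M.u 1 0 0 * M.n)⁻¹ * M.h s⁻¹ =
      M.u 1 0 0 * (M.h s * (M.u 1 0 0)⁻¹ * (M.h s)⁻¹) := by
    calc _ = M.u 1 0 0 * (M.n * M.h s⁻¹ * M.n⁻¹) * (M.u 1 0 0)⁻¹ * M.h s⁻¹ := by group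
      _ = _ := by rw [M.n_inv, M.n_h_n, inv_inv, map_inv]; group
  rw [e, M.u_inv, M.h_conj, M.u_mul] at h3
  have hu := M.u_mem_of_mem hx hh h3 (by simpa [← sub_eq_add_neg, sub_eq_zero] using (M.wt_t_ne hs1).symm)
  refine M.eq_top_of_mem hu hh ?_
  simpa using S.mul_mem (S.inv_mem (hu 1 0 0)) h2

end Cfsg.Agent.S2409
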