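import Cfsg.Statements.S2410
import Cfsg.Agent.H13.SzPart

set_option autoImplicit false
open Cfsg

namespace Cfsg.Agent.S2410

open Cfsg.Agent.H13
set_option linter.style.haveILetI false

/-- The Suzuki group over the field with `2^(2m+1)` elements, `m ≥ 1` (realised as the stabiliser in `SL₄` of the Suzuki–Tits ovoid), is generated by two of its elements. -/
theorem result {F : Type*} [Field F] [Fintype F] {m : ℕ} (hm : 1 ≤ m) (hF : Fintype.card F = 2 ^ (2 * m + 1)) :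
    ∃ a b : ↥(Cfsg.Sz F m), Subgroup.closure ({a, b} : Set ↥(Cfsg.Sz F m)) = ⊤ := by
  letI := titsOfCard hF
  have Q := par_of_card hm hF
  set M := ovoidModel (titsOfCard_θ hF) Q.hy
  obtain ⟨s, hs⟩ := IsCyclic.exists_generator (α := Fˣ)
  have hs1 : s ≠ 1 := by
    rintro rfl
    obtain ⟨t, ht⟩ := exists_unit_ne_one Q.hy
    exact ht (by simpa using hs t)
  refine ⟨M.h s, M.u 1 0 * M.w, ?_⟩
  set K := Subgroup.closure ({M.h s, M.u 1 0 * M.w} : Set (Cfsg.Sz F m))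
  have h1 : M.h s ∈ K := Subgroup.subset_closure (by simp)
  have h2 : M.u 1 0 * M.w ∈ K := Subgroup.subset_closure (by simp)
  have hh : ∀ t, M.h t ∈ K := by
    intro t
    obtain ⟨i, rfl⟩ := hs t
    have := K.zpow_mem h1 i
    rwa [← M.hHom_apply, ← map_zpow] at this
  have h3 := K.mul_mem (K.mul_mem (K.mul_mem h2 (hh s⁻¹)) (K.inv_mem h2)) (hh s⁻¹)
  have e : M.u 1 0 * M.w * M.h s⁻¹ * (M.u 1 0 * M.w)⁻¹ * M.h s⁻¹ =
      M.u 1 0 * (M.h s * (M.u 1 0)⁻¹ * (M.h s)⁻¹) := by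
    calc _ = M.u 1 0 * (M.w * M.h s⁻¹ * M.w⁻¹) * (M.u 1 0)⁻¹ * M.h s⁻¹ := by group
      _ = _ := by rw [M.w_inv, M.w_h_w, M.h_inv, inv_inv]; group
  rw [e, M.u_inv, M.h_u_conj, M.u_mul_u] at h3
  have ha : (1 : F) + θ (s : F) * 1 ≠ 0 := by
    intro h; apply hs1; apply Units.ext; apply θ_eq_one.1; grind
  generalize (1 : F) + θ (s : F) * 1 = a at h3 ha
  generalize (0 : F) + _ + _ = b at h3
  have h4 : ∀ c, c ≠ 0 → ∃ d, M.u c d ∈ K := by
    intro c hc
    obtain ⟨t, ht⟩ := θ_surj (c / a)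
    have ht0 : t ≠ 0 := by rintro rfl; exact div_ne_zero hc ha (by simpa using ht.symm)
    have := K.mul_mem (K.mul_mem (hh (Units.mk0 t ht0)) h3) (K.inv_mem (hh (Units.mk0 t ht0)))
    rw [M.h_u_conj, Units.val_mk0, ht, div_mul_cancel₀ _ ha] at this
    exact ⟨_, this⟩
  have h5 : ∀ d, M.u 0 d ∈ K := by
    intro d
    obtain ⟨c, rfl⟩ := mul_θ_surj d
    by_cases hc : c = 0
    · simp [hc, K.one_mem]
    · obtain ⟨d, hd⟩ := h4 c hc
      have := K.pow_mem hd 2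
      rwa [M.u_sq, mul_comm] at this
  have h6 : ∀ c d, M.u c d ∈ K := by
    intro c d
    by_cases hc : c = 0
    · subst hc; exact h5 d
    · obtain ⟨d', hd⟩ := h4 c hc
      have := K.mul_mem hd (h5 (d + d'))
      rw [M.u_mul_u] at this
      convert this using 2 <;> grind
  refine M.eq_top_of_mem K h6 hh ?_
  simpa using K.mul_mem (K.inv_mem (h6 1 0)) h2

end Cfsg.Agent.S2410
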