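import Cfsg.Statements.S2416
import Cfsg.Agent.H38.GenN

set_option autoImplicit false
open scoped MatrixGroups
open Cfsg

namespace Cfsg.Agent.S2416

open Cfsg.Agent.H37 Cfsg.Agent.H38 Cfsg.Lie

/-- A Chevalley group of type G₂, B₂, D₄, F₄, E₆, E₇ or E₈ over a finite field lies in (indeed equals) the subgroup generated by its monomial subgroup `N` and a single fundamental root subgroup `X_p`, where `p` is a short fundamental root if there are two root lengths (any fundamental root otherwise), provided the characteristic is not 2 for types B₂, F₄ and not 3 for type G₂ (and the field has more than two elements for B₂, G₂). -/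
theorem result {K : Type*} [Field K] [Finite K] (D : Cfsg.Lie.ChevalleyDatum) (hD : D ∈ [Cfsg.Lie.chevG2, Cfsg.Lie.chevB2, Cfsg.Lie.chevD4, Cfsg.Lie.chevF4, Cfsg.Lie.chevE6, Cfsg.Lie.chevE7, Cfsg.Lie.chevE8])
    (hK : D ∈ [Cfsg.Lie.chevB2, Cfsg.Lie.chevG2] → ∃ x : K, x ≠ 0 ∧ x ≠ 1)
    (h2 : D ∈ [Cfsg.Lie.chevB2, Cfsg.Lie.chevF4] → ringChar K ≠ 2) (h3 : D = Cfsg.Lie.chevG2 → ringChar K ≠ 3)
    (i : ℕ) (hi : i < D.rank) (hshort : D.isLong (D.simple i) = false) :
    D.group K ≤ D.monomialSubgroup K ⊔ D.rootSubgroup K (D.simple i) := by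
  have hD' : IsChev D := hD
  obtain ⟨inst⟩ := nonempty_chev hD'
  set M := D.monomialSubgroup K ⊔ D.rootSubgroup K (D.simple i)
  have hN : ∀ j, (rg (matRel hD' K)).ns j ∈ M := fun j =>
    Subgroup.mem_sup_left (mg_N hD' K ▸ (mg hD' K).ns_mem_N j)
  have hx : ∀ t, (matRel hD' K).x (D.simple i) t ∈ M := fun t => Subgroup.mem_sup_right (by
    have := mg_rootSubgroup hD' K ((rs D).sp ⟨i, hi⟩)
    rw [rs_sp_val] at this
    rw [this]
    exact (mg hD' K).x_mem (Set.mem_singleton ((rs D).sp ⟨i, hi⟩)) t)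
  have hc : ∀ p : ℕ, p.Prime → ringChar K ≠ p → ((p : ℤ) : K) ≠ 0 := fun p hp h e => by
    have : ringChar K ∣ p := (ringChar.spec K p).1 (by exact_mod_cast e)
    exact h ((Nat.prime_dvd_prime_iff_eq (CharP.char_is_prime K (ringChar K)) hp).1 this)
  rw [← mg_grp hD']
  have hall : AllGen D → (rg (matRel hD' K)).grp ≤ M := fun h =>
    grp_le_of_grow _ hN (L := [i]) (by simpa using ⟨hi, hx⟩) (h i hi)
  simp only [List.mem_cons, List.not_mem_nil, or_false] at hD
  rcases hD with rfl | rfl | rfl | rfl | rfl | rfl | rfl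
  exacts [grp_le_of_shortGen _ hN shortGen_G2 (hc 3 Nat.prime_three (h3 rfl)) hi hshort hx,
    grp_le_of_shortGen _ hN shortGen_B2 (hc 2 Nat.prime_two (h2 (by simp))) hi hshort hx,
    hall allGen_D4,
    grp_le_of_shortGen _ hN shortGen_F4 (hc 2 Nat.prime_two (h2 (by simp))) hi hshort hx,
    hall allGen_E6, hall allGen_E7, hall allGen_E8]

end Cfsg.Agent.S2416
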