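import Cfsg.Statements.S2417
import Cfsg.Agent.H38.GenN

set_option autoImplicit false
open scoped MatrixGroups
open Cfsg

namespace Cfsg.Agent.S2417

open Cfsg.Agent.H37 Cfsg.Agent.H38 Cfsg.Lie

/-- In the characteristics with an exceptional graph symmetry — type B₂ or F₄ in characteristic 2 (field of more than two elements for B₂) and type G₂ in characteristic 3 — the Chevalley group lies in the subgroup generated by its monomial subgroup `N` and the two fundamental root subgroups `X_a`, `X_b` of a short root `a` and a long root `b` joined in the Dynkin diagram. -/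
theorem result {K : Type*} [Field K] [Finite K] (e : Cfsg.Lie.ChevalleyDatum × ℕ)
    (he : e ∈ [(Cfsg.Lie.chevB2, 2), (Cfsg.Lie.chevF4, 2), (Cfsg.Lie.chevG2, 3)]) [CharP K e.2]
    (hK : e.1 = Cfsg.Lie.chevB2 → ∃ x : K, x ≠ 0 ∧ x ≠ 1)
    (i j : ℕ) (hi : i < e.1.rank) (hj : j < e.1.rank) (hshort : e.1.isLong (e.1.simple i) = false)
    (hlong : e.1.isLong (e.1.simple j) = true) (hbond : e.1.bonds i j ≠ 0) :
    e.1.group K ≤ e.1.monomialSubgroup K ⊔ e.1.rootSubgroup K (e.1.simple i) ⊔ e.1.rootSubgroup K (e.1.simple j) := by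
  obtain ⟨D, p⟩ := e
  have h : IsChev D ∧ TwoGen D := by
    simp only [List.mem_cons, List.not_mem_nil, or_false, Prod.mk.injEq] at he
    rcases he with ⟨rfl, -⟩ | ⟨rfl, -⟩ | ⟨rfl, -⟩
    exacts [⟨by simp, twoGen_B2⟩, ⟨by simp, twoGen_F4⟩, ⟨by simp, twoGen_G2⟩]
  obtain ⟨hD', h2⟩ := h
  obtain ⟨inst⟩ := nonempty_chev hD'
  dsimp only at *
  set M := D.monomialSubgroup K ⊔ D.rootSubgroup K (D.simple i) ⊔ D.rootSubgroup K (D.simple j)
  have hN : ∀ j, (rg (matRel hD' K)).ns j ∈ M := fun j =>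
    Subgroup.mem_sup_left (Subgroup.mem_sup_left (mg_N hD' K ▸ (mg hD' K).ns_mem_N j))
  have hx : ∀ i < D.rank, ∀ t, (matRel hD' K).x (D.simple i) t ∈ D.rootSubgroup K (D.simple i) :=
    fun i hi t => by
      have := mg_rootSubgroup hD' K ((rs D).sp ⟨i, hi⟩)
      rw [rs_sp_val] at this
      rw [this]
      exact (mg hD' K).x_mem (Set.mem_singleton ((rs D).sp ⟨i, hi⟩)) t
  rw [← mg_grp hD']
  exact grp_le_of_grow _ hN (L := [i, j]) (by
    simpa using ⟨⟨hi, fun t => Subgroup.mem_sup_left (Subgroup.mem_sup_right (hx i hi t))⟩,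
      hj, fun t => Subgroup.mem_sup_right (hx j hj t)⟩) (h2 i hi j hj hshort hlong)

end Cfsg.Agent.S2417
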