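import Cfsg.Statements.S2418
import Cfsg.Agent.H38.CoxW
import Cfsg.Agent.H39.PoinData

set_option autoImplicit false
open Cfsg

namespace Cfsg.Agent.S2418

open Cfsg.Agent.H37 Cfsg.Agent.H38 Cfsg.Lie

/-- For the Coxeter groups of types B₂, G₂, D₄, F₄, E₇, E₈ the centre has order 2 (the element acting as −1 on the root system) and is generated by a power of the Coxeter element `s₁ s₂ ⋯ s_l`; the Coxeter group of type E₆ has trivial centre. -/
theorem result (c : (Σ n : ℕ, CoxeterMatrix (Fin n)) × ℕ)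
    (hc : c ∈ [(⟨2, CoxeterMatrix.B 2⟩, 2), (⟨2, CoxeterMatrix.G₂⟩, 2), (⟨4, Cfsg.Lie.coxeterD4⟩, 2), (⟨4, CoxeterMatrix.F₄⟩, 2),
      (⟨6, CoxeterMatrix.E₆⟩, 1), (⟨7, CoxeterMatrix.E₇⟩, 2), (⟨8, CoxeterMatrix.E₈⟩, 2)]) :
    Nat.card (Subgroup.center c.1.2.Group) = c.2 ∧
      Subgroup.center c.1.2.Group ≤ Subgroup.zpowers ((List.finRange c.1.1).map c.1.2.simple).prod := by
  simp only [List.mem_cons, List.not_mem_nil, or_false] at hc
  rcases hc with rfl | rfl | rfl | rfl | rfl | rfl | rfl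
  · obtain ⟨inst⟩ := nonempty_chev H39.memB2
    exact center_two H39.memB2 H39.coxM_B2 2 (by decide +kernel)
  · obtain ⟨inst⟩ := nonempty_chev H39.memG2
    exact center_two H39.memG2 H39.coxM_G2 3 (by decide +kernel)
  · obtain ⟨inst⟩ := nonempty_chev H39.memD4
    exact center_two H39.memD4 H39.coxM_D4 3 (by decide +kernel)
  · obtain ⟨inst⟩ := nonempty_chev H39.memF4
    exact center_two H39.memF4 H39.coxM_F4 6 (by decide +kernel)
  · obtain ⟨inst⟩ := nonempty_chev H39.memE6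
    have := center_one H39.memE6 H39.coxM_E6 [0, 1, 2, 0, 3, 1, 2, 0, 3, 2, 4, 3, 1, 2, 0, 3, 2, 4, 3,
      1, 5, 4, 3, 1, 2, 0, 3, 2, 4, 3, 1, 5, 4, 3, 2, 0] (by decide +kernel) (by decide +kernel)
      (by decide +kernel)
    change Subgroup.center CoxeterMatrix.E₆.Group = ⊥ at this
    change Nat.card (Subgroup.center CoxeterMatrix.E₆.Group) = 1 ∧
      Subgroup.center CoxeterMatrix.E₆.Group ≤ _
    rw [this]
    exact ⟨Subgroup.card_bot, bot_le⟩
  · obtain ⟨inst⟩ := nonempty_chev H39.memE7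
    exact center_two H39.memE7 H39.coxM_E7 9 (by decide +kernel)
  · obtain ⟨inst⟩ := nonempty_chev H39.memE8
    exact center_two H39.memE8 H39.coxM_E8 15 (by decide +kernel)

end Cfsg.Agent.S2418
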