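import Cfsg.Statements.S2419
import Cfsg.Agent.H38.CoxW
import Cfsg.Agent.H39.PoinData

set_option autoImplicit false
open Cfsg

namespace Cfsg.Agent.S2419

open Cfsg.Agent.H37 Cfsg.Agent.H38 Cfsg.Lie

theorem rank_two (M : CoxeterMatrix (Fin 2)) :
    ∃ T : Finset M.Group, T.card = 1 ∧ (∀ t ∈ T, ∃ (g : M.Group) (i : Fin 2), t = g * M.simple i * g⁻¹) ∧
      Subgroup.closure (({((List.finRange 2).map M.simple).prod} : Set M.Group) ∪ ↑T) = ⊤ := by
  refine ⟨{M.simple 0}, rfl, fun t ht => ⟨1, 0, by simpa using ht⟩, top_le_iff.1 ?_⟩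
  rw [← M.toCoxeterSystem.subgroup_closure_range_simple, Subgroup.closure_le]
  have h0 : M.simple 0 ∈ Subgroup.closure
    (({((List.finRange 2).map M.simple).prod} : Set M.Group) ∪ ↑({M.simple 0} : Finset _)) :=
    Subgroup.subset_closure (by simp)
  have h1 : M.simple 0 * M.simple 1 ∈ Subgroup.closure
    (({((List.finRange 2).map M.simple).prod} : Set M.Group) ∪ ↑({M.simple 0} : Finset _)) :=
    Subgroup.subset_closure (Or.inl (by simp [List.finRange_succ]))
  rintro _ ⟨i, rfl⟩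
  fin_cases i
  · exact h0
  · simpa using mul_mem (inv_mem h0) h1

theorem gen_list {D : ChevalleyDatum} (hD : IsChev D) {M : CoxeterMatrix (Fin D.rank)}
    (hM : H39.coxM D = M) (I : List (Fin D.rank)) (hI : I.Nodup) (L : List (ℕ × List ℕ × ℕ × ℕ))
    (h : ∀ i < D.rank, D.simple i ∈ runSteps D (List.range D.rank) [] L
        (I.map (fun i : Fin D.rank => D.simple i) ++ I.map fun i : Fin D.rank => D.neg (D.simple i)) ∨
      D.neg (D.simple i) ∈ runSteps D (List.range D.rank) [] L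
        (I.map (fun i : Fin D.rank => D.simple i) ++ I.map fun i : Fin D.rank => D.neg (D.simple i))) :
    ∃ T : Finset M.Group, T.card = I.length ∧
      (∀ t ∈ T, ∃ (g : M.Group) (i : Fin D.rank), t = g * M.simple i * g⁻¹) ∧
      Subgroup.closure (({((List.finRange D.rank).map M.simple).prod} : Set M.Group) ∪ ↑T) = ⊤ := by
  classical
  obtain ⟨inst⟩ := nonempty_chev hD
  refine ⟨(I.map M.simple).toFinset, ?_, fun t ht => ?_,
    closure_eq_top_of_run hD hM I L h fun i hi => by simpa using ⟨i, hi, rfl⟩⟩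
  · rw [List.toFinset_card_of_nodup (hI.map (simple_inj hD hM)), List.length_map]
  · obtain ⟨i, -, rfl⟩ := List.mem_map.1 (List.mem_toFinset.1 ht)
    exact ⟨1, i, by simp⟩

/-- The Coxeter groups of types B₂, G₂, E₆, E₇, E₈ are generated by the Coxeter element `s₁ s₂ ⋯ s_l` together with one suitable reflection (a conjugate of a simple reflection); for types D₄ and F₄ the Coxeter element together with two suitable reflections suffices. -/
theorem result (c : (Σ n : ℕ, CoxeterMatrix (Fin n)) × ℕ)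
    (hc : c ∈ [(⟨2, CoxeterMatrix.B 2⟩, 1), (⟨2, CoxeterMatrix.G₂⟩, 1), (⟨4, Cfsg.Lie.coxeterD4⟩, 2), (⟨4, CoxeterMatrix.F₄⟩, 2),
      (⟨6, CoxeterMatrix.E₆⟩, 1), (⟨7, CoxeterMatrix.E₇⟩, 1), (⟨8, CoxeterMatrix.E₈⟩, 1)]) :
    ∃ T : Finset c.1.2.Group, T.card = c.2 ∧ (∀ t ∈ T, ∃ (g : c.1.2.Group) (i : Fin c.1.1), t = g * c.1.2.simple i * g⁻¹) ∧
      Subgroup.closure (({((List.finRange c.1.1).map c.1.2.simple).prod} : Set c.1.2.Group) ∪ ↑T) = ⊤ := by
  simp only [List.mem_cons, List.not_mem_nil, or_false] at hc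
  rcases hc with rfl | rfl | rfl | rfl | rfl | rfl | rfl
  · exact rank_two _
  · exact rank_two _
  · exact gen_list H39.memD4 H39.coxM_D4 [⟨3, by decide⟩, ⟨1, by decide⟩] (by decide +kernel)
      [(0, [], 0, 14), (0, [], 0, 22), (2, [], 3, 14), (0, [], 0, 15)]
      (by decide +kernel)
  · exact gen_list H39.memF4 H39.coxM_F4 [⟨3, by decide⟩, ⟨1, by decide⟩] (by decide +kernel)
      [(0, [], 0, 27), (2, [], 3, 35), (0, [], 0, 36), (0, [], 0, 24), (0, [], 0, 5), (2, [], 1, 17)]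
      (by decide +kernel)
  · exact gen_list H39.memE6 H39.coxM_E6 [⟨3, by decide⟩] (by decide +kernel)
      [(0, [], 0, 39), (0, [], 0, 37), (0, [], 0, 36), (0, [], 0, 8), (0, [], 0, 28), (0, [], 0, 23), (0, [], 0, 11), (2, [], 3, 37), (0, [], 0, 32), (2, [], 3, 34), (2, [4], 3, 23), (2, [], 3, 28)]
      (by decide +kernel)
  · exact gen_list H39.memE7 H39.coxM_E7 [⟨3, by decide⟩] (by decide +kernel)
      [(0, [], 0, 56), (0, [], 0, 59), (0, [], 0, 61), (0, [], 0, 62), (0, [], 0, 102), (0, [], 0, 74), (0, [], 0, 69), (0, [], 0, 66), (0, [], 0, 64), (0, [], 0, 63), (0, [], 0, 23), (0, [], 0, 51), (2, [], 3, 66), (2, [], 3, 59), (2, [4], 3, 23), (2, [4, 3], 1, 18), (0, [], 0, 27), (2, [4], 3, 45), (2, [], 3, 51)]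
      (by decide +kernel)
  · exact gen_list H39.memE8 H39.coxM_E8 [⟨4, by decide⟩] (by decide +kernel)
      [(0, [], 0, 126), (2, [], 4, 123), (0, [], 0, 113), (2, [], 4, 116), (0, [], 0, 116), (0, [], 0, 118), (0, [], 0, 119), (0, [], 0, 173), (2, [5], 4, 136), (0, [], 0, 123), (0, [], 0, 121), (0, [], 0, 120), (0, [], 0, 66), (2, [5], 4, 103), (0, [], 0, 103), (0, [], 0, 96), (2, [5, 4, 3], 2, 73), (2, [], 6, 127), (2, [3], 2, 128), (0, [], 0, 139), (0, [], 0, 146), (0, [], 0, 77), (0, [], 0, 136), (0, [], 0, 143), (0, [], 0, 127), (0, [], 0, 124), (0, [], 0, 122), (0, [], 0, 67), (2, [5], 4, 52), (2, [5, 4, 3, 2], 0, 47), (0, [], 0, 88)]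
      (by decide +kernel)

end Cfsg.Agent.S2419
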