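import Cfsg.Statements.S2425
import Cfsg.Agent.H89.StC

set_option autoImplicit false
open scoped MatrixGroups
open Cfsg

namespace Cfsg.Agent.S2425

/-- Values of the Steinberg character of `GL_n(q)` (the partition-indexed character for `ν = (1,…,1)`, of degree `q^(n(n−1)/2)`) at elements of order prime to the characteristic: if the characteristic polynomial of such an element is `∏ f^(m_f)` over distinct monic irreducible `f`, the value is `∏_f (−1)^((deg f − 1) m_f) q^(deg f · m_f (m_f − 1)/2)`. (At elements of order divisible by the characteristic the value is 0; that is not part of this statement.) -/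
theorem result {F : Type*} [Field F] [Fintype F] [DecidableEq F] {q : ℕ} (hq : Fintype.card F = q) (p : ℕ) [Fact p.Prime] [CharP F p]
    {n : ℕ} (x : GL (Fin n) F) (hx : (orderOf x).Coprime p) :
    Cfsg.unipotentCharacterGL n F (fun _ => 1) x =
      ∏ f ∈ (UniqueFactorizationMonoid.normalizedFactors (x : Matrix (Fin n) (Fin n) F).charpoly).toFinset,
        (-1 : ℂ) ^ ((f.natDegree - 1) * (UniqueFactorizationMonoid.normalizedFactors (x : Matrix (Fin n) (Fin n) F).charpoly).count f) *
          (q : ℂ) ^ (f.natDegree * (UniqueFactorizationMonoid.normalizedFactors (x : Matrix (Fin n) (Fin n) F).charpoly).count f *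
            ((UniqueFactorizationMonoid.normalizedFactors (x : Matrix (Fin n) (Fin n) F).charpoly).count f - 1) / 2) := by
  subst hq
  have hss : H66.IsSS (x : Matrix (Fin n) (Fin n) F) :=
    H66.isSS_of_orderOf (Units.coeHom (Matrix (Fin n) (Fin n) F)) p hx
  obtain ⟨hT, hn⟩ := H89St.typ_aeval hss
  have hsemi : IsSemisimpleModule (Polynomial F)
      (Module.AEval' (Matrix.toLin' (x : Matrix (Fin n) (Fin n) F))) := by
    obtain ⟨Q, hQ, h0⟩ := hss
    exact Module.End.isSemisimple_of_squarefree_aeval_eq_zero hQ
      ((H66.aeval_toLin'_eq_zero_iff _ Q).2 h0)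
  have hfinM : Finite (Module.AEval' (Matrix.toLin' (x : Matrix (Fin n) (Fin n) F))) :=
    Finite.of_equiv _ (Module.AEval'.of _).toEquiv
  have hfin : Fintype (Submodule (Polynomial F)
      (Module.AEval' (Matrix.toLin' (x : Matrix (Fin n) (Fin n) F)))) :=
    @Fintype.ofFinite _ (Finite.of_injective _ SetLike.coe_injective)
  have h1 := H89St.mu_eq _ _ _ (H89St.isMu_alt _ (H89St.und_strictMono _)) hT
  beta_reduce at h1
  rw [H89St.und_top, H89St.und_bot, finrank_top, finrank_bot, Module.finrank_fin_fun,
    Nat.sub_zero] at h1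
  have h2 : Cfsg.unipotentCharacterGL n F (fun _ => 1) x =
      (H89St.alt (fun W : Submodule (Polynomial F)
        (Module.AEval' (Matrix.toLin' (x : Matrix (Fin n) (Fin n) F))) =>
          Module.finrank F (H89St.und W)) 1 n ⊥ : ℤ) := by
    unfold Cfsg.unipotentCharacterGL H89St.alt
    push_cast
    refine Finset.sum_congr rfl fun κ _ => ?_
    split_ifs with h
    · rw [Cfsg.fixedPointCharacter, H89St.card_fixedBy _ (H66.sum_sub_perm_eq _ (by simp) κ h),
        show (fun i : Fin n => if (κ i).val = 0 then 1 + i.val else 1 + i.val - (κ i).val) =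
          fun i : Fin n => 1 + i.val - (κ i).val from funext fun i => by split_ifs <;> omega,
        ← H89St.card_Fl]
      simp
    · rfl
  have h3 : ((-1 : ℤ) ^ n) * (-1) ^ n = 1 := by rw [← mul_pow]; simp
  have h4 := H89St.sign_cval (Nat.card F) _ fun f hf => (hT.1 f hf).2
  rw [hn] at h4
  rw [h2, ← one_mul (H89St.alt _ _ _ _), ← h3, mul_assoc, h1, h4, Nat.card_eq_fintype_card]
  push_cast
  rfl

end Cfsg.Agent.S2425
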