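import Cfsg.Statements.S2426
import Cfsg.Agent.H39.PresSL

set_option autoImplicit false
open Cfsg

namespace Cfsg.Agent.S2426

/-- The two roots. -/
def rt (b : Bool) : H38.ClA.Rt 1 := if b then ⟨(0, 1), by simp⟩ else ⟨(1, 0), by simp⟩

theorem neg_rt (b : Bool) : (H38.ClA.rs 1).neg (rt b) = rt !b := by cases b <;> rfl

theorem rt_surj : ∀ r : H38.ClA.Rt 1, ∃ b, r = rt b := by decide

open H38 H38.ClA in
theorem key {K : Type*} [Field K] [Finite K] (S : Set (FreeGroup (Bool × K)))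
    (h1 : ∀ b t u, FreeGroup.of (b, t) * FreeGroup.of (b, u) * (FreeGroup.of (b, t + u))⁻¹ ∈ S)
    (h2 : ∀ b t u, t ≠ 0 → (FreeGroup.of (b, t) * FreeGroup.of (!b, -t⁻¹) * FreeGroup.of (b, t)) *
      FreeGroup.of (b, u) * (FreeGroup.of (b, t) * FreeGroup.of (!b, -t⁻¹) * FreeGroup.of (b, t))⁻¹ *
      (FreeGroup.of (!b, -(t⁻¹ ^ 2 * u)))⁻¹ ∈ S)
    (h : ∀ g ∈ S, FreeGroup.lift (fun p : Bool × K => x K (rt p.1) p.2) g = 1) :
    ∃ e : PresentedGroup S ≃* Matrix.SpecialLinearGroup (Fin 2) K,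
      ∀ b t, e (PresentedGroup.of (b, t)) = x K (rt b) t := by
  let y : Bool → K → PresentedGroup S := fun a t => PresentedGroup.of (a, t)
  have a1 : ∀ a t u, y a (t + u) = y a t * y a u := fun a t u =>
    (mul_inv_eq_one.1 (PresentedGroup.one_of_mem (h1 a t u))).symm
  have a2 : ∀ b t u, t ≠ 0 → (y b t * y (!b) (-t⁻¹) * y b t) * y b u * (y b t * y (!b) (-t⁻¹) * y b t)⁻¹ =
      y (!b) (-(t⁻¹ ^ 2 * u)) := fun b t u ht => mul_inv_eq_one.1 (PresentedGroup.one_of_mem (h2 b t u ht))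
  have a3 : ∀ t u, t ≠ 0 → (y true t * y false (-t⁻¹) * y true t) * y false u *
      (y true t * y false (-t⁻¹) * y true t)⁻¹ = y true (-(t ^ 2 * u)) := fun t u ht => by
    have k1 := a2 true t t ht
    have k2 := a2 false (-t⁻¹) u (by simpa)
    simp only [Bool.not_true, Bool.not_false, inv_neg, inv_inv, neg_neg, neg_sq] at k1 k2
    rw [show -(t⁻¹ ^ 2 * t) = -t⁻¹ by field_simp, mul_inv_eq_iff_eq_mul, ← mul_assoc, mul_left_inj,
      ← mul_assoc] at k1
    rw [k1, k2]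
  have hy : ∀ b, decide ((rt b).1.1 = 0) = b := by decide
  let X : RG0 (rs 1) K (PresentedGroup S) := ⟨fun r => y (decide (r.1.1 = 0)), fun _ => a1 _, fun r s e1 e2 => by
    obtain ⟨a, rfl⟩ := rt_surj r
    obtain ⟨b, rfl⟩ := rt_surj s
    cases a <;> cases b <;> simp [neg_rt] at e1 e2⟩
  have hX : ∀ b t, X.x (rt b) t = y b t := fun b t => congrArg (y · t) (hy b)
  let Y : RG (rs 1) K (PresentedGroup S) := ⟨X, fun i => ⟨fun _ => -1, by simp, fun s c hc u => by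
    have e : (rs 1).sp i = rt true := by fin_cases i; rfl
    obtain ⟨b, rfl⟩ := rt_surj s
    cases b
    · rw [show rt false = (rs 1).neg ((rs 1).sp i) by rw [e]; rfl, RS.σ_neg_sp, RS.A_neg, RS.A_sp_self, RG0.n, e]
      simp only [neg_rt, hX, Bool.not_true, a3 c u hc, neg_neg, zpow_ofNat, neg_mul, one_mul]
    · rw [← e, RS.σ_sp, RS.A_sp_self, RG0.n, e]
      simpa only [neg_rt, hX, zpow_neg, zpow_ofNat, neg_mul, one_mul, inv_pow] using a2 true c u hc⟩⟩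
  have hθ : ∀ r t, PresentedGroup.toGroup h (Y.x r t) = x K r t := fun r t => by
    obtain ⟨b, rfl⟩ := rt_surj r
    exact (congrArg _ (hX b t)).trans (PresentedGroup.toGroup.of h)
  refine ⟨MulEquiv.ofBijective _ (H39.bijective_sl Y ?_ hθ), fun b t => PresentedGroup.toGroup.of h⟩
  rw [eq_top_iff, ← PresentedGroup.closure_range_of, Subgroup.closure_le]
  rintro _ ⟨⟨b, t⟩, rfl⟩
  exact (hX b t ▸ Y.x_mem_grp (rt b) t :)


/-- The rank-one Steinberg presentation of `SL₂` over a finite field `K`: generators `x(t)`, `y(t)` (`t ∈ K`; the two opposite root subgroups) subject to additivity `x(t)x(u) = x(t+u)`, `y(t)y(u) = y(t+u)` and, with `w(t) = x(t) y(−t⁻¹) x(t)` and `w'(t) = y(t) x(−t⁻¹) y(t)` for `t ≠ 0`, the relations `w(t) x(u) w(t)⁻¹ = y(−t⁻² u)` and `w'(t) y(u) w'(t)⁻¹ = x(−t⁻² u)`, present `SL₂(K)`, with `x(t) ↦ (1 t; 0 1)` and `y(t) ↦ (1 0; t 1)`. -/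
theorem result {K : Type*} [Field K] [Finite K] :
    ∃ e : PresentedGroup
        ({g : FreeGroup (Bool × K) | ∃ (b : Bool) (t u : K), g = FreeGroup.of (b, t) * FreeGroup.of (b, u) * (FreeGroup.of (b, t + u))⁻¹} ∪
          {g | ∃ (b : Bool) (t u : K), t ≠ 0 ∧
            g = (FreeGroup.of (b, t) * FreeGroup.of (!b, -t⁻¹) * FreeGroup.of (b, t)) * FreeGroup.of (b, u) *
                  (FreeGroup.of (b, t) * FreeGroup.of (!b, -t⁻¹) * FreeGroup.of (b, t))⁻¹ * (FreeGroup.of (!b, -(t⁻¹ ^ 2 * u)))⁻¹})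
        ≃* Matrix.SpecialLinearGroup (Fin 2) K,
      (∀ t : K, ((e (PresentedGroup.of (true, t)) : Matrix (Fin 2) (Fin 2) K)) = !![1, t; 0, 1]) ∧
      (∀ t : K, ((e (PresentedGroup.of (false, t)) : Matrix (Fin 2) (Fin 2) K)) = !![1, 0; t, 1]) := by
  refine (key _ (fun b t u => Or.inl ⟨b, t, u, rfl⟩) (fun b t u h => Or.inr ⟨b, t, u, h, rfl⟩) ?_).imp
    fun e he => ⟨fun t => ?_, fun t => ?_⟩
  · rintro _ (⟨b, t, u, rfl⟩ | ⟨b, t, u, h, rfl⟩)
    · simp [H38.ClA.x_add]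
    · have := H38.ClA.n_conj_self (rt b) h u
      rw [← mul_inv_eq_one, H38.RG0.n, neg_rt, zpow_neg, zpow_ofNat, ← inv_pow, neg_mul] at this
      simpa only [map_mul, map_inv, FreeGroup.lift_apply_of, H38.ClA.rg_x] using this
  · rw [he, H38.ClA.x_val]; ext i j; fin_cases i <;> fin_cases j <;> simp [rt]
  · rw [he, H38.ClA.x_val]; ext i j; fin_cases i <;> fin_cases j <;> simp [rt]

end Cfsg.Agent.S2426
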