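import Cfsg.Statements.S2427
import Mathlib
import Cfsg.Agent.S0257

set_option autoImplicit false
open Cfsg

namespace Cfsg.Agent.S2427

open Subgroup

abbrev G := Matrix.SpecialLinearGroup (Fin 2) (ZMod 3)

theorem d1 : ∀ g : G, g ^ 4 = 1 → ∃ a b : G, g = a * b * a⁻¹ * b⁻¹ := by decide +kernel
theorem d2 : ∀ a b : G, (a * b * a⁻¹ * b⁻¹) ^ 4 = 1 := by decide +kernel
theorem d3 : ∀ a b : G, a ^ 4 = 1 → b ^ 4 = 1 → (a * b) ^ 4 = 1 := by decide +kernel
theorem d4 : ∀ g : G, g ^ 4 ≠ 1 → ∃ a : G, (g * (a * g⁻¹ * a⁻¹)) ^ 4 = 1 ∧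
    (g * (a * g⁻¹ * a⁻¹)) ^ 2 ≠ 1 := by decide +kernel
theorem d5 : ∀ g h : G, g ^ 4 = 1 → g ^ 2 ≠ 1 → h ^ 4 = 1 →
    (∃ a : G, h = a * g * a⁻¹) ∨ h = g * g ∨ h = 1 := by decide +kernel
theorem d6 : ∀ g h : G, g ^ 4 ≠ 1 → h ^ 4 = 1 ∨ (g * h) ^ 4 = 1 ∨ (g * g * h) ^ 4 = 1 := by
  decide +kernel
theorem d7 : ∀ g h : G, g ^ 2 = 1 → g ≠ 1 → (∀ a, a * h = h * a) → h = 1 ∨ h = g := by decide +kernel
theorem d8 : ∀ g h : G, g ^ 2 = 1 → h * g = g * h := by decide +kernel
theorem d9 : Fintype.card {g : G // g ^ 4 = 1} = 8 := by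
  rw [Fintype.card_subtype]; decide +kernel

def Q : Subgroup G where
  carrier := {g | g ^ 4 = 1}
  one_mem' := one_pow 4
  mul_mem' := fun {a b} => d3 a b
  inv_mem' := fun {a} (h : a ^ 4 = 1) => show a⁻¹ ^ 4 = 1 by rw [inv_pow, h, inv_one]

theorem comm_eq : commutator G = Q := by
  refine le_antisymm (commutator_le.2 fun a _ b _ => d2 a b) fun g hg => ?_
  obtain ⟨a, b, rfl⟩ := d1 g hg
  exact commutator_mem_commutator (mem_top a) (mem_top b)

theorem card_Q : Nat.card Q = 8 := by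
  rw [← d9, ← Nat.card_eq_fintype_card]; rfl

theorem card_G : Nat.card G = 24 := by rw [H9.card_sl_two]; simp


/-- The group SL₂ over the field with 3 elements has order 24 and centre of order 2; its commutator subgroup has order 8, is isomorphic to the quaternion group of order 8 and is complemented by every Sylow 3-subgroup (so the group is a semidirect product of a quaternion group of order 8 by a cyclic group of order 3); and its only normal subgroups besides the trivial subgroup and the whole group are the centre and the commutator subgroup. -/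
theorem result :
    Nat.card (Matrix.SpecialLinearGroup (Fin 2) (ZMod 3)) = 24 ∧
    Nat.card (Subgroup.center (Matrix.SpecialLinearGroup (Fin 2) (ZMod 3))) = 2 ∧
    Nat.card (commutator (Matrix.SpecialLinearGroup (Fin 2) (ZMod 3))) = 8 ∧
    Nonempty (commutator (Matrix.SpecialLinearGroup (Fin 2) (ZMod 3)) ≃* QuaternionGroup 2) ∧
    (∀ P : Sylow 3 (Matrix.SpecialLinearGroup (Fin 2) (ZMod 3)),
      Subgroup.IsComplement' (commutator (Matrix.SpecialLinearGroup (Fin 2) (ZMod 3)))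
        (P : Subgroup (Matrix.SpecialLinearGroup (Fin 2) (ZMod 3)))) ∧
    ∀ N : Subgroup (Matrix.SpecialLinearGroup (Fin 2) (ZMod 3)), N.Normal →
      N = ⊥ ∨ N = ⊤ ∨ N = Subgroup.center (Matrix.SpecialLinearGroup (Fin 2) (ZMod 3)) ∨
        N = commutator (Matrix.SpecialLinearGroup (Fin 2) (ZMod 3)) := by
  refine ⟨card_G, (S0257.result (by simp)).2, comm_eq ▸ card_Q, ?_, fun P => ?_, fun N hN => ?_⟩
  · obtain ⟨Q0, -, hc, ⟨e⟩⟩ := S0257.main
    have : Q0 = Q := eq_of_le_of_card_ge (fun n hn => by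
      have : ∀ t : QuaternionGroup 2, t ^ 4 = 1 := by decide +kernel
      have h := this (e ⟨n, hn⟩)
      rw [← map_pow, EmbeddingLike.map_eq_one_iff] at h
      exact congrArg Subtype.val h) (by rw [hc, card_Q])
    rw [comm_eq, ← this]
    exact ⟨e⟩
  · have h3 : Nat.card (P : Subgroup G) = 3 := by
      rw [P.card_eq_multiplicity, card_G, show 24 = 3 * 8 from rfl,
        Nat.factorization_mul (by norm_num) (by norm_num), Nat.Prime.factorization Nat.prime_three]
      simp [Nat.factorization_eq_zero_of_not_dvd]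
    exact isComplement'_of_coprime (by rw [comm_eq, card_Q, h3, card_G])
      (by rw [comm_eq, card_Q, h3]; norm_num)
  · have key : ∀ g ∈ N, g ^ 4 = 1 → g ^ 2 ≠ 1 → Q ≤ N := fun g hg h1 h2 h hh => by
      rcases d5 g h h1 h2 hh with ⟨a, rfl⟩ | rfl | rfl
      exacts [hN.conj_mem g hg a, mul_mem hg hg, one_mem _]
    by_cases h1 : ∃ g ∈ N, g ^ 4 ≠ 1
    · obtain ⟨g, hg, h1⟩ := h1
      obtain ⟨a, h2, h3⟩ := d4 g h1
      have h4 := key _ (mul_mem hg (hN.conj_mem _ (inv_mem hg) a)) h2 h3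
      refine Or.inr (Or.inl (eq_top_iff.2 fun h _ => ?_))
      rcases d6 g h h1 with e | e | e
      exacts [h4 e, (mul_mem_cancel_left hg).1 (h4 e), (mul_mem_cancel_left (mul_mem hg hg)).1 (h4 e)]
    push Not at h1
    by_cases h2 : ∃ g ∈ N, g ^ 2 ≠ 1
    · obtain ⟨g, hg, h2⟩ := h2
      exact Or.inr (Or.inr (Or.inr (comm_eq ▸ le_antisymm h1 (key g hg (h1 g hg) h2))))
    push Not at h2
    by_cases h3 : N = ⊥
    · exact Or.inl h3
    obtain ⟨⟨g, hg⟩, h4⟩ := ne_bot_iff_exists_ne_one.1 h3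
    refine Or.inr (Or.inr (Or.inl (le_antisymm (fun x hx => mem_center_iff.2 fun h => d8 x h (h2 x hx))
      fun x hx => ?_)))
    rcases d7 g x (h2 g hg) (by simpa using h4) (mem_center_iff.1 hx) with rfl | rfl
    exacts [one_mem _, hg]

end Cfsg.Agent.S2427
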