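import Cfsg.Statements.S2428
import Cfsg.Agent.H66.SL2Torus
import Cfsg.Agent.H67.FinField

set_option autoImplicit false
open Cfsg

namespace Cfsg.Agent.S2428

open Cfsg.Agent.H66 in
theorem aux {F : Type*} [Field F] (d : Matrix.SpecialLinearGroup (Fin 2) F) (hd01 : d.1 0 1 = 0)
    (hda : d.1 0 0 ^ 2 ≠ 1) : d.1 0 0 ≠ d.1 1 1 ∧ tr2 d ^ 2 ≠ 4 ∧ Split (tr2 d) := by
  have hd := sl2_det d
  rw [hd01, zero_mul, sub_zero] at hd
  have h1 : d.1 0 0 ≠ d.1 1 1 := fun e => hda (by rw [← e] at hd; rw [sq, hd])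
  refine ⟨h1, fun e => h1 ?_, d.1 0 0, by rw [tr2]; linear_combination -hd⟩
  have : (d.1 0 0 - d.1 1 1) ^ 2 = 0 := by rw [tr2] at e; linear_combination e - 4 * hd
  exact sub_eq_zero.1 (pow_eq_zero_iff two_ne_zero |>.1 this)


/-- Let F be a finite field with q elements, q odd, and let d be a diagonal element of SL₂ over F whose diagonal entry a has a² ≠ 1 (such d exist exactly when q > 3). Then the centraliser of d is precisely the diagonal subgroup T; the normaliser of T has order 2(q − 1) and exactly (q + 5)/2 conjugacy classes; and every element of that normaliser outside T has square equal to −1. -/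
theorem result {F : Type*} [Field F] [Fintype F] (hodd : Odd (Fintype.card F))
    (d : Matrix.SpecialLinearGroup (Fin 2) F) (hd01 : (d : Matrix (Fin 2) (Fin 2) F) 0 1 = 0) (hd10 : (d : Matrix (Fin 2) (Fin 2) F) 1 0 = 0) (hda : (d : Matrix (Fin 2) (Fin 2) F) 0 0 ^ 2 ≠ 1) :
    (∀ g : Matrix.SpecialLinearGroup (Fin 2) F, g ∈ Subgroup.centralizer ({d} : Set (Matrix.SpecialLinearGroup (Fin 2) F)) ↔ ((g : Matrix (Fin 2) (Fin 2) F) 0 1 = 0 ∧ (g : Matrix (Fin 2) (Fin 2) F) 1 0 = 0)) ∧
    Nat.card (Subgroup.normalizer ((Subgroup.centralizer ({d} : Set (Matrix.SpecialLinearGroup (Fin 2) F))) : Set (Matrix.SpecialLinearGroup (Fin 2) F))) = 2 * (Fintype.card F - 1) ∧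
    Nat.card (ConjClasses (Subgroup.normalizer ((Subgroup.centralizer ({d} : Set (Matrix.SpecialLinearGroup (Fin 2) F))) : Set (Matrix.SpecialLinearGroup (Fin 2) F)))) = (Fintype.card F + 5) / 2 ∧
    ∀ g : Matrix.SpecialLinearGroup (Fin 2) F, g ∈ Subgroup.normalizer ((Subgroup.centralizer ({d} : Set (Matrix.SpecialLinearGroup (Fin 2) F))) : Set (Matrix.SpecialLinearGroup (Fin 2) F)) →
      g ∉ Subgroup.centralizer ({d} : Set (Matrix.SpecialLinearGroup (Fin 2) F)) → ((g * g) : Matrix (Fin 2) (Fin 2) F) = -1 := by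
  obtain ⟨h1, h2, h3⟩ := aux d hd01 hda
  have hc := (H66.centralizer_split h2 h3).2
  rw [Nat.card_eq_fintype_card (α := F)] at hc
  have hq : 1 < Fintype.card F := Fintype.one_lt_card
  refine ⟨H66.mem_centralizer_diag hd01 hd10 h1, ?_, ?_, fun g hg hg' => ?_⟩
  · rw [H66.card_normalizer_centralizer h2, hc]
  · have := H66.card_conjClasses_normalizer (H67.two_ne_zero_of_odd hodd) h2
    rw [hc] at this
    omega
  · have := H66.mul_self_of_tr2_eq_zero (H66.tr2_eq_zero_of_conj_eq_inv (H66.nonSc_of_tr2 h2)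
      (H66.conj_eq_inv_of_not_mem h2 hg hg'))
    exact congrArg Subtype.val this

end Cfsg.Agent.S2428
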