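import Cfsg.Statements.S2429
import Cfsg.Agent.H66.SL2Order
import Cfsg.Agent.H67.FinField

set_option autoImplicit false
open Cfsg

namespace Cfsg.Agent.S2429


/-- Let F be a finite field with q elements, q odd. Then SL₂ over F contains a cyclic subgroup T′ of order q + 1 (a non-split torus) with the following properties: T′ is its own centraliser, and indeed the centraliser of each element of T′ other than 1 and −1 is exactly T′; every element of SL₂ having no eigenvector in F² is conjugate to an element of T′; the normaliser of T′ has order 2(q + 1) and exactly (q + 7)/2 conjugacy classes; and every element of that normaliser outside T′ has square −1. -/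
theorem result {F : Type*} [Field F] [Fintype F] (hodd : Odd (Fintype.card F)) :
    ∃ T' : Subgroup (Matrix.SpecialLinearGroup (Fin 2) F), IsCyclic T' ∧ Nat.card T' = Fintype.card F + 1 ∧
      Subgroup.centralizer ((T' : Set (Matrix.SpecialLinearGroup (Fin 2) F))) = T' ∧
      (∀ g : Matrix.SpecialLinearGroup (Fin 2) F, g ∈ T' → (g : Matrix (Fin 2) (Fin 2) F) ≠ 1 → (g : Matrix (Fin 2) (Fin 2) F) ≠ -1 → Subgroup.centralizer ({g} : Set (Matrix.SpecialLinearGroup (Fin 2) F)) = T') ∧
      (∀ g : Matrix.SpecialLinearGroup (Fin 2) F, (∀ (c : F) (v : Fin 2 → F), v ≠ 0 → (g : Matrix (Fin 2) (Fin 2) F).mulVec v ≠ c • v) → ∃ h : Matrix.SpecialLinearGroup (Fin 2) F, h * g * h⁻¹ ∈ T') ∧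
      Nat.card (Subgroup.normalizer (T' : Set (Matrix.SpecialLinearGroup (Fin 2) F))) = 2 * (Fintype.card F + 1) ∧
      Nat.card (ConjClasses (Subgroup.normalizer (T' : Set (Matrix.SpecialLinearGroup (Fin 2) F)))) = (Fintype.card F + 7) / 2 ∧
      ∀ g : Matrix.SpecialLinearGroup (Fin 2) F, g ∈ Subgroup.normalizer (T' : Set (Matrix.SpecialLinearGroup (Fin 2) F)) → g ∉ T' → ((g * g) : Matrix (Fin 2) (Fin 2) F) = -1 := by
  obtain ⟨x, hx, hs⟩ := H66.exists_nonsplit (F := F)
  have ht := H66.tr2_sq_ne_of_not_split hs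
  obtain ⟨hc1, hc2⟩ := H66.centralizer_nonsplit hs
  rw [Nat.card_eq_fintype_card (α := F)] at hc2
  have hxm : x ∈ Subgroup.centralizer ({x} : Set (Matrix.SpecialLinearGroup (Fin 2) F)) :=
    Subgroup.mem_centralizer_singleton_iff.2 rfl
  refine ⟨Subgroup.centralizer {x}, hc1, hc2, ?_, ?_, ?_, ?_, ?_, fun g hg hg' => ?_⟩
  · apply le_antisymm
    · exact Subgroup.centralizer_le (Set.singleton_subset_iff.2 hxm)
    · intro k hk l hl
      exact Subtype.ext (H66.commute_of_commute_nonSc (H66.nonSc_of_tr2 ht)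
        (H66.mem_centralizer_singleton_sl.1 hl) (H66.mem_centralizer_singleton_sl.1 hk))
  · intro g hg h1 h2
    exact H66.centralizer_eq_of_mem (H66.nonSc_of_tr2 ht)
      ((H66.nonSc_iff g).2 ⟨fun e => h1 (by rw [e]; rfl), fun e => h2 (by rw [e]; rfl)⟩) hg
  · intro g hg
    refine H66.exists_conj_mem_centralizer_nonsplit (fun h => ?_) hs
    obtain ⟨c, v, hv, e⟩ := (H66.split_iff_eigen g).1 h
    exact hg c v hv e
  · rw [H66.card_normalizer_centralizer ht, hc2]
  · have := H66.card_conjClasses_normalizer (H67.two_ne_zero_of_odd hodd) ht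
    rw [hc2] at this
    omega
  · have := H66.mul_self_of_tr2_eq_zero (H66.tr2_eq_zero_of_conj_eq_inv (H66.nonSc_of_tr2 ht)
      (H66.conj_eq_inv_of_not_mem ht hg hg'))
    exact congrArg Subtype.val this

end Cfsg.Agent.S2429
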