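import Cfsg.Statements.S2434
import Cfsg.Agent.H65.SL2Unip

set_option autoImplicit false
open Cfsg

namespace Cfsg.Agent.S2434

/-- Let F be a finite field with q elements, q odd, and C a cyclic subgroup of order q + 1 of SL₂ over F (a non-split torus; it contains the centre). For every homomorphism θ from C to the non-zero complex numbers with θ² ≠ 1 there is an irreducible complex character χ of degree q − 1 such that χ(c) = −θ(c) − θ(c)⁻¹ for every non-central c in C, χ(zg) = θ(z)χ(g) for central z in C, χ vanishes at diagonal elements with entry a, a² ≠ 1, and χ takes the value −1 at every upper unitriangular element other than 1. Conversely every irreducible character of degree q − 1 has, for some such θ, the values −θ(c) − θ(c)⁻¹ at the non-central elements c of C (for q ≥ 5 these are exactly the cuspidal characters of degree q − 1). -/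
theorem result {F : Type*} [Field F] [Fintype F] (hodd : Odd (Fintype.card F))
    (C : Subgroup (Matrix.SpecialLinearGroup (Fin 2) F)) (hC : IsCyclic C) (hcard : Nat.card C = Fintype.card F + 1) :
    (∀ θ : C →* ℂˣ, (∃ c : C, θ c ^ 2 ≠ 1) →
      ∃ χ : Matrix.SpecialLinearGroup (Fin 2) F → ℂ, Cfsg.IsIrrCharacter (Matrix.SpecialLinearGroup (Fin 2) F) χ ∧ χ 1 = (Fintype.card F : ℂ) - 1 ∧
        (∀ c : C, (c : Matrix.SpecialLinearGroup (Fin 2) F) ∉ Subgroup.center (Matrix.SpecialLinearGroup (Fin 2) F) → χ c = -((θ c).val + (θ c)⁻¹.val)) ∧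
        (∀ c : C, (c : Matrix.SpecialLinearGroup (Fin 2) F) ∈ Subgroup.center (Matrix.SpecialLinearGroup (Fin 2) F) → ∀ g : Matrix.SpecialLinearGroup (Fin 2) F, χ ((c : Matrix.SpecialLinearGroup (Fin 2) F) * g) = (θ c).val * χ g) ∧
        (∀ g : Matrix.SpecialLinearGroup (Fin 2) F, (g : Matrix (Fin 2) (Fin 2) F) 0 1 = 0 → (g : Matrix (Fin 2) (Fin 2) F) 1 0 = 0 → (g : Matrix (Fin 2) (Fin 2) F) 0 0 ^ 2 ≠ 1 → χ g = 0) ∧
        (∀ g : Matrix.SpecialLinearGroup (Fin 2) F, (g : Matrix (Fin 2) (Fin 2) F) 1 0 = 0 → (g : Matrix (Fin 2) (Fin 2) F) 0 0 = 1 → (g : Matrix (Fin 2) (Fin 2) F) 1 1 = 1 → (g : Matrix (Fin 2) (Fin 2) F) 0 1 ≠ 0 → χ g = -1)) ∧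
    (∀ χ : Matrix.SpecialLinearGroup (Fin 2) F → ℂ, Cfsg.IsIrrCharacter (Matrix.SpecialLinearGroup (Fin 2) F) χ → χ 1 = (Fintype.card F : ℂ) - 1 →
      ∃ θ : C →* ℂˣ, (∃ c : C, θ c ^ 2 ≠ 1) ∧
        ∀ c : C, (c : Matrix.SpecialLinearGroup (Fin 2) F) ∉ Subgroup.center (Matrix.SpecialLinearGroup (Fin 2) F) → χ c = -((θ c).val + (θ c)⁻¹.val)) := by
  classical
  obtain ⟨c, hc⟩ := IsCyclic.exists_generator (α := C)
  have hco : orderOf c.1 = Fintype.card F + 1 := by
    rw [Subgroup.orderOf_coe, orderOf_eq_card_of_forall_mem_zpowers hc, hcard]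
  have hell := H65.isEll_of_orderOf hco
  have : Fact (∀ r : F, r ^ 2 ≠ -c.1.1.det + c.1.1.trace * r) := ⟨(H65.isEll_iff _).1 hell⟩
  set ι := H65.ellHom c.1.1 with hι
  have hr : (H65.tuS ι).range = C := by
    symm
    refine Subgroup.eq_of_le_of_card_ge (fun x hx => ?_) ?_
    · obtain ⟨k, hk⟩ := hc ⟨x, hx⟩
      have : x = c.1 ^ k := (congrArg Subtype.val hk).symm
      rw [this]
      refine Subgroup.zpow_mem _ ?_ k
      rw [H65.range_tuS]
      exact ⟨Units.mk0 QuadraticAlgebra.omega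
        (fun h => by simpa using congrArg QuadraticAlgebra.im h), Units.ext (H65.ellHom_omega _)⟩
    · rw [hcard, ← Nat.card_congr (MonoidHom.ofInjective (H65.tuS_injective ι)).toEquiv,
        H65.card_ker_normU]
  let j := (MonoidHom.ofInjective (H65.tuS_injective ι)).trans (MulEquiv.subgroupCongr hr)
  have hj : ∀ z, (j z).1 = H65.tuS ι z := fun z => rfl
  have him : ∀ z, (j z).1 ∉ Subgroup.center _ → z.1.1.im ≠ 0 := by
    rintro ⟨z, hz⟩ h h0
    obtain ⟨a, rfl⟩ := H65.exists_scU h0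
    have ha := H65.eq_inv_of_scU_mem hz
    exact h (by rw [hj, H65.tuS_scU ι ha]; exact H65.bs_mem_center ha)
  have hsq : ∀ {A : Type _} [Group A] (ψ : A →* ℂˣ), ψ ^ 2 ≠ 1 ↔ ∃ x, ψ x ^ 2 ≠ 1 := by
    intro A _ ψ
    rw [Ne, MonoidHom.ext_iff, not_forall]; rfl
  refine ⟨fun θ hθ => ?_, fun χ hχ h1 => ?_⟩
  · have hψ : θ.comp j.toMonoidHom ^ 2 ≠ 1 := by
      obtain ⟨x, hx⟩ := hθ
      exact (hsq _).2 ⟨j.symm x, by simpa using hx⟩
    refine ⟨_, H65.isIrr_CuspS ι hψ, H65.CuspS_one _ _, fun x hx => ?_, fun x hx g => ?_,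
      fun g g1 g2 g3 => ?_, fun g g1 g2 g3 g4 => ?_⟩
    · obtain ⟨z, rfl⟩ := j.surjective x
      rw [hj, H65.CuspS_tuS _ _ (him z hx), map_inv]; rfl
    · obtain ⟨z, rfl⟩ := j.surjective x
      rw [H65.irr_central_mul (H65.isIrr_CuspS ι hψ) hx]
      congr 1
      obtain ⟨a, ha, h⟩ := H65.exists_of_mem_center hx
      obtain rfl : z = ⟨_, H65.scU_mem ha⟩ :=
        H65.tuS_injective ι (by rw [← hj, h, H65.tuS_scU ι ha])
      rw [h, H65.CuspS_scalar _ _ ha, H65.CuspS_one,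
        mul_div_cancel_left₀ _ H65.q_sub_one_ne_zero]
      rfl
    · obtain ⟨a, x, rfl⟩ := H65.exists_bs g2
      exact H65.CuspS_split _ _ (fun e => g3 (by
        have : a * a = 1 := mul_eq_one_iff_eq_inv.2 e
        simpa [H65.coe_bs, sq, Units.ext_iff] using this)) _
    · obtain ⟨a, x, rfl⟩ := H65.exists_bs g1
      obtain rfl : a = 1 := Units.ext (by simpa [H65.coe_bs] using g2)
      exact H65.CuspS_unip_one _ _ (by simpa [H65.coe_bs] using g4)
  · have key : ∀ ψ : (H65.normU (-c.1.1.det) c.1.1.trace).ker →* ℂˣ, ψ ^ 2 ≠ 1 →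
        (∀ z, z.1.1.im ≠ 0 → χ (H65.tuS ι z) = -((ψ z : ℂ) + (ψ z⁻¹ : ℂˣ))) →
        ∃ θ : C →* ℂˣ, (∃ c : C, θ c ^ 2 ≠ 1) ∧ ∀ c : C, c.1 ∉ Subgroup.center _ →
          χ c = -((θ c).val + (θ c)⁻¹.val) := by
      intro ψ hψ h
      obtain ⟨z, hz⟩ := (hsq _).1 hψ
      refine ⟨ψ.comp j.symm.toMonoidHom, ⟨j z, by simpa using hz⟩, fun x hx => ?_⟩
      obtain ⟨z, rfl⟩ := j.surjective x
      rw [hj, h z (him z hx), map_inv]
      simp
    have hq : (2 : ℝ) ≤ Fintype.card F := by exact_mod_cast Fintype.one_lt_card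
    have hq2 : (Fintype.card F : ℝ) ≠ 2 := by
      intro h
      have : Fintype.card F = 2 := by exact_mod_cast h
      rw [this] at hodd
      exact absurd hodd (by decide)
    have h2 : (χ 1).re = Fintype.card F - 1 := by simp [h1]
    rcases H65.sl_irr_cases_re ι hχ with h | h | h | ⟨h, ψ, hψ, rfl⟩ | ⟨h0, α, ν, -, -, h⟩ | h
    · exact absurd (by linarith [h.1]) hq2
    · linarith [h.1]
    · linarith [h.1]
    · exact key ψ hψ fun z hz => H65.CuspS_tuS _ _ hz
    · have h3 : Fintype.card F = 3 := by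
        have : (Fintype.card F : ℝ) = 3 := by linarith
        exact_mod_cast this
      let _ := H65.fintypeHomKer (-c.1.1.det) c.1.1.trace
      let _ := H65.fintypeQuad (-c.1.1.det) c.1.1.trace
      have := H65.isCyclic_monoidHom (H65.normU (-c.1.1.det) c.1.1.trace).ker
      have h4 := H65.card_filter_sq_ne_one (H := (H65.normU (-c.1.1.det) c.1.1.trace).ker →* ℂˣ)
      rw [H65.natCard_hom_ker, h3] at h4
      obtain ⟨ψ, hψ⟩ := Finset.card_pos.1 (by rw [h4]; norm_num)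
      have hψ' := (Finset.mem_filter.1 hψ).2
      refine key ψ hψ' fun z hz => ?_
      have hg : H65.IsEll (H65.tuS ι z).1 := H65.isEll_iota ι hz
      rw [H65.add_inv_eq_zero_of_three h3 hψ' hz, neg_zero]
      simpa [H65.PSS_ell _ hg] using h.two_mul_ell hg
    · linarith [h.1]

end Cfsg.Agent.S2434
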