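import Cfsg.Statements.S2435
import Cfsg.Agent.H65.SL2Unip

set_option autoImplicit false
open Cfsg

namespace Cfsg.Agent.S2435

/-- Let F be a finite field with q elements, q odd and q ≥ 5, and χ an irreducible complex character of SL₂ over F. If χ has degree (q + 1)/2, then at a diagonal element with entry a, a² ≠ 1, χ takes the value 1 when a is a square in F and −1 otherwise. If χ has degree (q − 1)/2, then at an element g with no eigenvector in F² (so g has order dividing q + 1), χ takes the value −1 when g raised to the power (q + 1)/2 is the identity and the value 1 otherwise. -/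
theorem result {F : Type*} [Field F] [Fintype F] (hodd : Odd (Fintype.card F)) (hq : 5 ≤ Fintype.card F)
    (χ : Matrix.SpecialLinearGroup (Fin 2) F → ℂ) (hχ : Cfsg.IsIrrCharacter (Matrix.SpecialLinearGroup (Fin 2) F) χ) (g : Matrix.SpecialLinearGroup (Fin 2) F) :
    (χ 1 = (((Fintype.card F + 1) / 2 : ℕ) : ℂ) → (g : Matrix (Fin 2) (Fin 2) F) 0 1 = 0 → (g : Matrix (Fin 2) (Fin 2) F) 1 0 = 0 → (g : Matrix (Fin 2) (Fin 2) F) 0 0 ^ 2 ≠ 1 →
      (IsSquare ((g : Matrix (Fin 2) (Fin 2) F) 0 0) → χ g = 1) ∧ (¬ IsSquare ((g : Matrix (Fin 2) (Fin 2) F) 0 0) → χ g = -1)) ∧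
    (χ 1 = (((Fintype.card F - 1) / 2 : ℕ) : ℂ) → (∀ (c : F) (v : Fin 2 → F), v ≠ 0 → (g : Matrix (Fin 2) (Fin 2) F).mulVec v ≠ c • v) →
      (((g ^ ((Fintype.card F + 1) / 2)) : Matrix (Fin 2) (Fin 2) F) = 1 → χ g = -1) ∧ (((g ^ ((Fintype.card F + 1) / 2)) : Matrix (Fin 2) (Fin 2) F) ≠ 1 → χ g = 1)) := by
  classical
  obtain ⟨a, b, _, ⟨ι⟩⟩ := H65.exists_quad F
  have hq' : 4 ≤ Fintype.card F := by omega
  rw [H65.eq_half_add_iff hodd, H65.eq_half_sub_iff hodd]
  refine ⟨fun h h1 h2 h3 => ?_, fun h hg => ?_⟩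
  · obtain ⟨c, x, rfl⟩ := H65.exists_bs h2
    obtain rfl : x = 0 := by simpa [H65.coe_bs] using h1
    have hc : c ≠ c⁻¹ := fun e => h3 (by
      have : c * c = 1 := mul_eq_one_iff_eq_inv.2 e
      simpa [H65.coe_bs, sq, Units.ext_iff] using this)
    obtain ⟨α, ν, a1, a2, h⟩ := H65.exists_half_PSS_of_degree hq' hχ h
    have h4 := h.two_mul_bs_zero c
    have h5 : α⁻¹ = α := (mul_eq_one_iff_eq_inv.1 ((sq α).symm.trans a1)).symm
    rw [H65.PSS_split _ hc, Units.val_inv_eq_inv_val, ← MulChar.inv_apply', h5, ← two_mul] at h4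
    rw [mul_left_cancel₀ two_ne_zero h4]
    have hsq : ∀ s : Fˣ, α (s ^ 2) = 1 := fun s => by
      rw [map_pow, ← MulChar.pow_apply_coe, a1, MulChar.one_apply_coe]
    simp only [H65.coe_bs, Matrix.of_apply, Matrix.cons_val', Matrix.cons_val_zero,
      Matrix.cons_val_fin_one]
    refine ⟨?_, fun hn => ?_⟩
    · rintro ⟨r, hr⟩
      have hr0 : r ≠ 0 := by rintro rfl; exact c.ne_zero (by simpa using hr)
      rw [hr, ← sq]
      exact hsq (Units.mk0 r hr0)
    · obtain ⟨m, hm⟩ := MulChar.ne_one_iff.1 a2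
      have h6 : α m = -1 := (sq_eq_one_iff.1 (by rw [← map_pow, hsq])).resolve_left hm
      have h7 : ¬ IsSquare (m : F) := by
        rintro ⟨r, hr⟩
        have hr0 : r ≠ 0 := by rintro rfl; exact m.ne_zero (by simpa using hr)
        exact hm (by rw [hr, ← sq]; exact hsq (Units.mk0 r hr0))
      obtain ⟨s, hs⟩ := H65.exists_sq_mul h7 hn
      rw [hs, map_mul, hsq, h6, one_mul]
  · obtain ⟨ψ, ν, a1, a2, h⟩ := H65.exists_half_CuspS_of_degree ι hq' hχ h
    obtain ⟨z, hz, hc⟩ := H65.exists_isConj_tuS ι hg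
    have h4 := h.two_mul_ell hg
    have := H65.finite_quad a b
    have h5 := H65.apply_eq_one_iff_of_sq a1 a2 z
    rw [H65.card_ker_normU] at h5
    have h6 : (g.1 ^ ((Fintype.card F + 1) / 2) = 1) ↔ z ^ ((Fintype.card F + 1) / 2) = 1 := by
      have h7 := hc.pow ((Fintype.card F + 1) / 2)
      constructor
      · intro h8
        have h9 : Matrix.SpecialLinearGroup.toGL g ^ ((Fintype.card F + 1) / 2) = 1 :=
          Units.ext (by rw [Units.val_pow_eq_pow_val]; exact h8)
        rw [h9, isConj_one_right, ← map_pow, map_eq_one_iff _ (H65.tu_injective ι)] at h7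
        exact Subtype.ext h7
      · intro h8
        rw [← map_pow (H65.tu ι), ← Subgroup.coe_pow, h8, OneMemClass.coe_one, map_one,
          isConj_one_left] at h7
        have := congrArg Units.val h7
        rwa [Units.val_pow_eq_pow_val] at this
    rw [H65.CuspS_ell ι ψ hz hc, map_inv] at h4
    refine ⟨fun h8 => ?_, fun h8 => ?_⟩
    · rw [h5.1 (h6.1 h8)] at h4
      simp only [inv_one, Units.val_one] at h4
      linear_combination (1 / 2 : ℂ) * h4
    · rw [h5.2 (mt h6.2 h8)] at h4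
      simp only [inv_neg, inv_one, Units.val_neg, Units.val_one] at h4
      linear_combination (1 / 2 : ℂ) * h4

end Cfsg.Agent.S2435
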