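import Cfsg.Statements.S2437
import Cfsg.Agent.H66.PSL2Cent
import Cfsg.Agent.H67.FinField

set_option autoImplicit false
open Cfsg

namespace Cfsg.Agent.S2437

open Matrix in
theorem mem_B {F : Type*} [Field F] (g : SpecialLinearGroup (Fin 2) F) :
    g ∈ (Cfsg.upperTriangularGL 2 F).comap Matrix.SpecialLinearGroup.toGL ↔ g.1 1 0 = 0 := by
  change g.1.BlockTriangular id ↔ _
  constructor
  · intro h; exact h (show (0 : Fin 2) < 1 by decide)
  · intro h i j hij
    fin_cases i <;> fin_cases j <;> simp_all

open Matrix in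
noncomputable def eB (F : Type*) [Field F] :
    Fˣ × F ≃ (Cfsg.upperTriangularGL 2 F).comap (Matrix.SpecialLinearGroup.toGL :
      SpecialLinearGroup (Fin 2) F →* _) :=
  Equiv.ofBijective (fun x => ⟨H9.slMk !![(x.1 : F), x.2; 0, (x.1⁻¹ : Fˣ)] (by simp),
    (mem_B _).2 rfl⟩) ⟨fun x y h => Prod.ext (Units.ext (congrArg (fun k => k.1.1 0 0) h))
      (congrArg (fun k => k.1.1 0 1) h), fun g => by
    have h := (mem_B _).1 g.2
    have hd := H66.sl2_det g.1
    rw [h, mul_zero, sub_zero] at hd
    refine ⟨(Units.mk0 _ (left_ne_zero_of_mul_eq_one hd), g.1.1 0 1),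
      Subtype.ext (H66.sl2_ext rfl rfl h.symm ?_)⟩
    simpa using (eq_inv_of_mul_eq_one_right hd).symm⟩

theorem eB_coe {F : Type*} [Field F] (x : Fˣ × F) :
    (eB F x).1.1 = !![(x.1 : F), x.2; 0, (x.1⁻¹ : Fˣ)] := rfl

open Matrix Classical in
theorem card_comm {F : Type*} [Field F] [Fintype F]
    (g : (Cfsg.upperTriangularGL 2 F).comap (Matrix.SpecialLinearGroup.toGL :
      SpecialLinearGroup (Fin 2) F →* _)) (hg : H66.NonSc g.1.1) :
    (Finset.univ.filter fun h => g * h = h * g).card =
      Nat.card (Subgroup.centralizer ({g.1} : Set (SpecialLinearGroup (Fin 2) F))) := by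
  rw [← H66.card_filter_mem_subgroup]
  refine Finset.card_bij (fun h _ => h.1) ?_ (fun a _ b _ h => Subtype.ext h) ?_
  · intro h hh
    simp only [Finset.mem_filter, Finset.mem_univ, true_and] at hh ⊢
    exact Subgroup.mem_centralizer_singleton_iff.2 (congrArg Subtype.val hh).symm
  · intro k hk
    simp only [Finset.mem_filter, Finset.mem_univ, true_and] at hk ⊢
    obtain ⟨α, β, e⟩ := H66.exists_eq_of_commute hg (H66.mem_centralizer_singleton_sl.1 hk)
    refine ⟨⟨k, (mem_B _).2 ?_⟩, Subtype.ext (Subgroup.mem_centralizer_singleton_iff.1 hk).symm, rfl⟩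
    rw [e]; simp [(mem_B _).1 g.2]


/-- Over a finite field F with q elements, q odd, the upper triangular subgroup of SL₂ (a Borel subgroup, of order q(q − 1)) has exactly q + 3 conjugacy classes. -/
theorem result {F : Type*} [Field F] [Fintype F] (hodd : Odd (Fintype.card F)) :
    Nat.card (ConjClasses ((Cfsg.upperTriangularGL 2 F).comap Matrix.SpecialLinearGroup.toGL)) = Fintype.card F + 3 := by
  classical
  have h2 := H67.two_ne_zero_of_odd hodd
  have hq : 1 < Fintype.card F := Fintype.one_lt_card
  have hB : Nat.card ((Cfsg.upperTriangularGL 2 F).comap (Matrix.SpecialLinearGroup.toGL :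
      Matrix.SpecialLinearGroup (Fin 2) F →* _)) = (Fintype.card F - 1) * Fintype.card F := by
    rw [← Nat.card_congr (eB F), Nat.card_prod, Nat.card_units, Nat.card_eq_fintype_card]
  have s := H66.sum_card_commute ((Cfsg.upperTriangularGL 2 F).comap (Matrix.SpecialLinearGroup.toGL :
      Matrix.SpecialLinearGroup (Fin 2) F →* _))
  have key : ∀ x : Fˣ × F, (Finset.univ.filter fun h => eB F x * h = h * eB F x).card =
      if (x.1 : F) ^ 2 = 1 then (if x.2 = 0 then (Fintype.card F - 1) * Fintype.card F
        else 2 * Fintype.card F) else Fintype.card F - 1 := by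
    rintro ⟨a, b⟩
    have ht : H66.tr2 (eB F (a, b)).1 = a + (a⁻¹ : Fˣ) := by simp [H66.tr2, eB_coe]
    have hai : (a : F) * (a⁻¹ : Fˣ) = 1 := a.mul_inv
    split_ifs with h1 h3
    · have : ¬ H66.NonSc (eB F (a, b)).1.1 := by
        simp only at h1 h3
        simp only [H66.NonSc, eB_coe, not_not]
        refine ⟨by simpa using h3, rfl, ?_⟩
        change (a : F) = (a⁻¹ : Fˣ)
        linear_combination ((a⁻¹ : Fˣ) : F) * h1 - a * hai
      rw [H66.not_nonSc_iff, ← H66.sl2_mem_center_iff, Subgroup.mem_center_iff] at this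
      rw [Finset.filter_true_of_mem fun h _ => Subtype.ext (this h.1).symm, Finset.card_univ,
        ← Nat.card_eq_fintype_card, hB]
    · have hn : H66.NonSc (eB F (a, b)).1.1 := fun h => h3 h.1
      rw [card_comm _ hn, H66.card_centralizer_unipotent hn, H66.gcd_two_of_two_ne_zero h2]
      rw [ht]
      simp only at h1
      linear_combination (1 - ((a⁻¹ : Fˣ) : F) ^ 2) * h1 + (a * (a⁻¹ : Fˣ) + 3) * hai
    · have hn : H66.tr2 (eB F (a, b)).1 ^ 2 ≠ 4 := by
        rw [ht]
        intro e
        apply h1
        have : ((a : F) - (a⁻¹ : Fˣ)) ^ 2 = 0 := by linear_combination e - 4 * hai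
        have := pow_eq_zero_iff two_ne_zero |>.1 this
        simp only
        linear_combination a * this + hai
      rw [card_comm _ (H66.nonSc_of_tr2 hn), (H66.centralizer_split hn ⟨a, by
        rw [ht]; linear_combination -hai⟩).2, Nat.card_eq_fintype_card]
  rw [← (eB F).sum_comp, hB] at s
  simp_rw [key] at s
  rw [Fintype.sum_prod_type] at s
  have inner : ∀ a : Fˣ, (∑ b : F, if (a : F) ^ 2 = 1 then (if b = 0 then
      (Fintype.card F - 1) * Fintype.card F else 2 * Fintype.card F) else Fintype.card F - 1) =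
      (Fintype.card F - 1) * Fintype.card F * (1 + if (a : F) ^ 2 = 1 then 2 else 0) := by
    intro a
    split_ifs with h
    · rw [← Finset.add_sum_erase _ _ (Finset.mem_univ (0 : F)), if_pos rfl,
        Finset.sum_congr rfl (fun b hb => if_neg (Finset.ne_of_mem_erase hb)), Finset.sum_const,
        Finset.card_erase_of_mem (Finset.mem_univ _), Finset.card_univ, smul_eq_mul]
      ring
    · simp [mul_comm]
  simp_rw [inner] at s
  rw [← Finset.mul_sum, Finset.sum_add_distrib, ← Finset.sum_filter, Finset.sum_const,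
    Finset.sum_const, Finset.card_univ, Fintype.card_units] at s
  have hc : (Finset.univ.filter fun a : Fˣ => (a : F) ^ 2 = 1).card = 2 := by
    rw [Finset.card_eq_two]
    refine ⟨1, -1, fun e => h2 ?_, ?_⟩
    · have : (1 : F) = -1 := by simpa using congrArg Units.val e
      linear_combination this
    · ext a
      simp only [Finset.mem_filter, Finset.mem_univ, true_and, Finset.mem_insert,
        Finset.mem_singleton, sq_eq_one_iff, Units.ext_iff, Units.val_neg, Units.val_one]
  rw [hc, mul_comm] at s
  have := Nat.eq_of_mul_eq_mul_right (Nat.mul_pos (by omega) (by omega)) s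
  simp only [smul_eq_mul] at this
  omega

end Cfsg.Agent.S2437
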