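import Cfsg.Statements.S2436
import Cfsg.Agent.H89.McK2
import Cfsg.Agent.S2299
import Cfsg.Agent.S2430
import Cfsg.Agent.S2431
import Cfsg.Agent.S2437

set_option autoImplicit false
open Cfsg
open scoped commutatorElement

namespace Cfsg.Agent.S2436

open Cfsg.Agent.H89McK Matrix MatrixGroups

theorem deg_cases {F : Type*} [Field F] [Fintype F] (hodd : Odd (Fintype.card F))
    (χ : IrrCharacter SL(2, F)) :
    charDegree (χ : SL(2, F) → ℂ) ∈ ({1, Fintype.card F, Fintype.card F + 1, Fintype.card F - 1,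
      (Fintype.card F + 1) / 2, (Fintype.card F - 1) / 2} : Finset ℕ) := by
  have hq : 1 ≤ Fintype.card F := Fintype.card_pos
  have := (S2299.result hodd).1 χ χ.2
  rw [← H32.cast_charDegree_irr] at this
  simp only [Finset.mem_insert, Finset.mem_singleton]
  rcases this with h | h | h | h | h | h
  · left; exact_mod_cast h
  · right; left; exact_mod_cast h
  · right; right; left; exact_mod_cast h
  · right; right; right; left
    rw [← Nat.cast_inj (R := ℂ), Nat.cast_sub hq]; simpa using h
  · right; right; right; right; left; exact_mod_cast h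
  · right; right; right; right; right; exact_mod_cast h

theorem cnt_G {F : Type*} [Field F] [Fintype F] (hodd : Odd (Fintype.card F))
    (hq : 5 ≤ Fintype.card F) {l : ℕ} (hl : l.Prime) :
    cnt l SL(2, F) = 1 + ((if l ∣ Fintype.card F then 0 else 1) +
      ((if l ∣ Fintype.card F + 1 then 0 else (Fintype.card F - 3) / 2) +
      ((if l ∣ Fintype.card F - 1 then 0 else (Fintype.card F - 1) / 2) +
      ((if l ∣ (Fintype.card F + 1) / 2 then 0 else 2) +
      (if l ∣ (Fintype.card F - 1) / 2 then 0 else 2))))) := by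
  obtain ⟨h1, h2, h3, h4, h5, h6⟩ := (S2299.result hodd).2 hq
  obtain ⟨k, hk⟩ := hodd
  rw [cnt_eq_sum l _ (fun χ _ => deg_cases ⟨k, hk⟩ χ), Finset.sum_insert (by simp; omega),
    Finset.sum_insert (by simp; omega), Finset.sum_insert (by simp; omega),
    Finset.sum_insert (by simp; omega), Finset.sum_pair (by omega),
    if_neg (by simpa using hl.ne_one)]
  have e1 : nd SL(2, F) 1 = 1 := by simpa [nd] using h1
  have e2 : nd SL(2, F) (Fintype.card F) = 1 := h2
  have e3 : nd SL(2, F) (Fintype.card F + 1) = (Fintype.card F - 3) / 2 := by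
    rw [← h3]; simp [nd]
  have e4 : nd SL(2, F) (Fintype.card F - 1) = (Fintype.card F - 1) / 2 := by
    rw [← h4, nd, Nat.cast_sub (by omega)]; simp
  have e5 : nd SL(2, F) ((Fintype.card F + 1) / 2) = 2 := h5
  have e6 : nd SL(2, F) ((Fintype.card F - 1) / 2) = 2 := h6
  rw [e1, e2, e3, e4, e5, e6]

theorem cnt_top {G : Type*} [Group G] (l : ℕ) {N : Subgroup G} (h : N = ⊤) : cnt l G = cnt l N := by
  subst h
  exact cnt_congr l Subgroup.topEquiv.symm

noncomputable def upH (F : Type*) [Field F] : Multiplicative F →* SL(2, F) where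
  toFun c := H66.upT c.toAdd
  map_one' := H66.upT_zero
  map_mul' _ _ := H66.upT_add _ _

theorem upH_inj (F : Type*) [Field F] : Function.Injective (upH F) := fun a b h => by
  have := congrArg (fun k : SL(2, F) => k.1 0 1) h
  simpa [upH, H66.coe_upT] using this

theorem norm_upH (F : Type*) [Field F] [Finite F] :
    Subgroup.normalizer ((upH F).range : Set SL(2, F)) =
      (Cfsg.upperTriangularGL 2 F).comap Matrix.SpecialLinearGroup.toGL := by
  ext g
  rw [S2437.mem_B]
  constructor
  · intro h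
    obtain ⟨c, hc⟩ := (Subgroup.mem_normalizer_iff.1 h (H66.upT 1)).1 ⟨Multiplicative.ofAdd 1, rfl⟩
    have := congrArg (fun k : SL(2, F) => k.1 1 0) hc
    simp only [upH, MonoidHom.coe_mk, OneHom.coe_mk, H66.coe_upT, H66.sl2_mul_apply,
      H66.sl2_inv00, H66.sl2_inv10] at this
    simp at this
    have h0 : g.1 1 0 * g.1 1 0 = 0 := by linear_combination this
    exact mul_self_eq_zero.1 h0
  · intro h
    refine Subgroup.mem_normalizer_fintype ?_
    rintro _ ⟨c, rfl⟩
    refine ⟨Multiplicative.ofAdd (g.1 0 0 ^ 2 * c.toAdd), ?_⟩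
    have hd := H66.sl2_det g
    rw [h] at hd
    apply H66.sl2_ext <;>
      simp only [upH, MonoidHom.coe_mk, OneHom.coe_mk, H66.coe_upT, H66.sl2_mul_apply,
        H66.sl2_inv00, H66.sl2_inv10, H66.sl2_inv01, H66.sl2_inv11, h] <;> simp
    · linear_combination -hd
    · ring
    · linear_combination -hd

theorem case_char {F : Type*} [Field F] [Fintype F] (hodd : Odd (Fintype.card F)) (l : ℕ)
    [Fact l.Prime] (hl : l ∣ Fintype.card F) (S : Sylow l SL(2, F)) :
    cnt l SL(2, F) = cnt l (Subgroup.normalizer ((S : Subgroup SL(2, F)) : Set SL(2, F))) := by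
  classical
  have hp : l.Prime := Fact.out
  have hq : 1 < Fintype.card F := Fintype.one_lt_card
  obtain ⟨p, hchar, n, hpp, hn⟩ := FiniteField.card' F
  obtain rfl : l = p := (Nat.prime_dvd_prime_iff_eq hp hpp).1 (hp.dvd_of_dvd_pow (hn ▸ hl))
  have hU : Nat.card (upH F).range = Fintype.card F := by
    rw [← Nat.card_congr (MonoidHom.ofInjective (upH_inj F)).toEquiv, Nat.card_eq_fintype_card,
      Fintype.card_multiplicative]
  have hnd : ¬ l ∣ Fintype.card F ^ 2 - 1 := fun h => by
    have h1 : 1 ≤ Fintype.card F ^ 2 := Nat.one_le_pow _ _ (by omega)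
    have := Nat.dvd_sub (dvd_pow hl two_ne_zero) h
    rw [show Fintype.card F ^ 2 - (Fintype.card F ^ 2 - 1) = 1 by omega] at this
    exact hp.ne_one (Nat.dvd_one.1 this)
  have hfac : (Nat.card SL(2, F)).factorization l = n := by
    have h0 : Fintype.card F ^ 2 - 1 ≠ 0 := fun e => hnd (e ▸ dvd_zero _)
    rw [H9.card_sl_two, Nat.factorization_mul (by omega) h0, Finsupp.add_apply,
      Nat.factorization_eq_zero_of_not_dvd hnd, hn, Nat.Prime.factorization_pow hp]
    simp
  let P : Sylow l SL(2, F) := Sylow.ofCard (upH F).range (by rw [hU, hfac, hn])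
  have hP : (P : Subgroup SL(2, F)) = (upH F).range := rfl
  obtain ⟨g, hg⟩ := MulAction.exists_smul_eq SL(2, F) P S
  have hS : (S : Subgroup SL(2, F)) = (P : Subgroup SL(2, F)).map (MulAut.conj g).toMonoidHom := by
    rw [← hg]; rfl
  have hN : Subgroup.normalizer ((S : Subgroup SL(2, F)) : Set SL(2, F)) =
      (Subgroup.normalizer ((P : Subgroup SL(2, F)) : Set SL(2, F))).map
        (MulAut.conj g).toMonoidHom := by
    rw [hS]; exact (Subgroup.map_equiv_normalizer_eq _ (MulAut.conj g)).symm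
  have e1 : cnt l (Subgroup.normalizer ((S : Subgroup SL(2, F)) : Set SL(2, F))) =
      cnt l (Subgroup.normalizer ((P : Subgroup SL(2, F)) : Set SL(2, F))) := by
    rw [hN]
    exact (cnt_congr l ((MulAut.conj g).subgroupMap _)).symm
  rw [e1, cnt_abelian_sylow P (by
    rintro _ ⟨a, rfl⟩ _ ⟨b, rfl⟩
    rw [← map_mul, ← map_mul, mul_comm]), hP, norm_upH, S2437.result hodd]
  have h1 := cnt_add (G := SL(2, F)) l (Fintype.card F) fun χ => ⟨fun h => ?_, fun h => h ▸ hl⟩
  · rw [← H5.card_irrCharacter, H65.card_irr_sl_odd hodd,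
      show nd SL(2, F) (Fintype.card F) = 1 from H65.natCard_degree_q] at h1
    omega
  · have h2 := deg_cases hodd χ
    have a1 : ¬ l ∣ Fintype.card F + 1 := fun e =>
      hp.ne_one (Nat.dvd_one.1 ((Nat.dvd_add_right hl).1 e))
    have a2 : ¬ l ∣ Fintype.card F - 1 := fun e => by
      have := Nat.dvd_sub hl e
      rw [show Fintype.card F - (Fintype.card F - 1) = 1 by omega] at this
      exact hp.ne_one (Nat.dvd_one.1 this)
    obtain ⟨k, hk⟩ := hodd
    simp only [Finset.mem_insert, Finset.mem_singleton] at h2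
    rcases h2 with e | e | e | e | e | e <;> rw [e] at h
    · exact absurd (Nat.dvd_one.1 h) hp.ne_one
    · exact e
    · exact absurd h a1
    · exact absurd h a2
    · exact absurd (h.trans ⟨2, by omega⟩) a1
    · exact absurd (h.trans ⟨2, by omega⟩) a2

theorem case_odd {F : Type*} [Field F] [Fintype F] (hodd : Odd (Fintype.card F)) (l : ℕ)
    [Fact l.Prime] (hl2 : l ≠ 2) (hl : l ∣ Fintype.card F ^ 2 - 1) (S : Sylow l SL(2, F)) :
    cnt l SL(2, F) = cnt l (Subgroup.normalizer ((S : Subgroup SL(2, F)) : Set SL(2, F))) := by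
  have h2 := H67.two_ne_zero_of_odd hodd
  have hp : l.Prime := Fact.out
  have hq : 1 < Fintype.card F := Fintype.one_lt_card
  have hl3 : 3 ≤ l := by
    have := hp.two_le
    omega
  have hlo : Nat.Coprime l 2 := (Nat.coprime_primes hp Nat.prime_two).2 hl2
  obtain ⟨g, hg, ht, ho, hP⟩ := S2430.aux2 h2 l hl2 S hl
  obtain ⟨e1, e2⟩ := S2430.aux _ ht hg hP
  have hcomm : ∀ a ∈ (S : Subgroup SL(2, F)), ∀ b ∈ (S : Subgroup SL(2, F)), a * b = b * a := by
    intro a ha b hb
    have : b ∈ Subgroup.centralizer ((S : Subgroup SL(2, F)) : Set SL(2, F)) := e1 ▸ hP hb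
    exact this a ha
  have hk := H66.card_conjClasses_normalizer h2 ht
  rw [cnt_abelian_sylow S hcomm, e2]
  have hnot : l ∣ Fintype.card F - 1 → l ∣ Fintype.card F + 1 → False := fun a b => by
    have := Nat.dvd_sub b a
    rw [show Fintype.card F + 1 - (Fintype.card F - 1) = 2 by omega] at this
    exact hl2 ((Nat.prime_dvd_prime_iff_eq hp Nat.prime_two).1 this)
  obtain ⟨k, hk'⟩ := id hodd
  have b1 : l ∣ (Fintype.card F - 1) / 2 ↔ l ∣ Fintype.card F - 1 :=
    ⟨fun h => h.trans ⟨2, by omega⟩, fun h => hlo.dvd_of_dvd_mul_left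
      (by rwa [show 2 * ((Fintype.card F - 1) / 2) = Fintype.card F - 1 by omega])⟩
  have b2 : l ∣ (Fintype.card F + 1) / 2 ↔ l ∣ Fintype.card F + 1 :=
    ⟨fun h => h.trans ⟨2, by omega⟩, fun h => hlo.dvd_of_dvd_mul_left
      (by rwa [show 2 * ((Fintype.card F + 1) / 2) = Fintype.card F + 1 by omega])⟩
  rw [H66.sq_sub_one_eq, hp.dvd_mul] at hl
  rcases hl with h | h
  · have hs : ¬ H66.Split (H66.tr2 g) := H66.not_split_of_orderOf ht fun e =>
      hnot (by rw [← Nat.card_eq_fintype_card]; exact ho.trans e) h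
    rw [(H66.centralizer_nonsplit hs).2, Nat.card_eq_fintype_card (α := F)] at hk
    have h5 : 5 ≤ Fintype.card F := by
      have := Nat.le_of_dvd (by omega) (b2.2 h)
      omega
    have a : ¬ l ∣ Fintype.card F := fun e =>
      hp.ne_one (Nat.dvd_one.1 ((Nat.dvd_add_right e).1 h))
    rw [cnt_G hodd h5 hp, if_neg a, if_pos h, if_neg (fun e => hnot e h), if_pos (b2.2 h),
      if_neg (fun e => hnot (b1.1 e) h)]
    omega
  · have hs : H66.Split (H66.tr2 g) := H66.split_of_orderOf fun e =>
      hnot h (by rw [← Nat.card_eq_fintype_card]; exact ho.trans e)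
    rw [(H66.centralizer_split ht hs).2, Nat.card_eq_fintype_card (α := F)] at hk
    have h5 : 5 ≤ Fintype.card F := by
      have := Nat.le_of_dvd (by omega) (b1.2 h)
      omega
    have a : ¬ l ∣ Fintype.card F := fun e => by
      have := Nat.dvd_sub e h
      rw [show Fintype.card F - (Fintype.card F - 1) = 1 by omega] at this
      exact hp.ne_one (Nat.dvd_one.1 this)
    rw [cnt_G hodd h5 hp, if_neg a, if_neg (hnot h), if_pos h, if_neg (fun e => hnot h (b2.1 e)),
      if_pos (b1.2 h)]
    omega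

theorem case_two {F : Type*} [Field F] [Fintype F] (hodd : Odd (Fintype.card F))
    (S : Sylow 2 SL(2, F)) :
    cnt 2 (Subgroup.normalizer ((S : Subgroup SL(2, F)) : Set SL(2, F))) = 4 := by
  have h2 := H67.two_ne_zero_of_odd hodd
  obtain ⟨k, x, y, hk, hS, hx, hxS, hyS, hxy, hgen⟩ := H66.exists_sylow_two_gens hodd S
  obtain ⟨-, c1, c2⟩ := S2431.result hodd S
  by_cases hq8 : Fintype.card F % 8 = 1 ∨ Fintype.card F % 8 = 7
  · rw [c1 hq8, cnt_pgroup Nat.prime_two hS]
    refine index_comm_dic (x := ⟨x, hxS⟩) (y := ⟨y, hyS⟩) (m := 2 ^ k) ?_ ?_ (Subtype.ext hxy) ?_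
    · rw [Subgroup.orderOf_mk, hx, pow_succ']
    · rw [hS, pow_add, mul_comm]; rfl
    · intro s
      obtain ⟨i, h | h⟩ := hgen s s.2
      · exact ⟨i, Or.inl (Subtype.ext h)⟩
      · exact ⟨i, Or.inr (Subtype.ext h)⟩
  · have hq8' : Fintype.card F % 8 = 3 ∨ Fintype.card F % 8 = 5 := by
      obtain ⟨j, hj⟩ := hodd
      omega
    have ht := H66.tr2_sq_ne_of_orderOf_two_pow h2 hk hx
    have hyy := H66.mul_self_of_tr2_eq_zero
      (H66.tr2_eq_zero_of_conj_eq_inv (H66.nonSc_of_tr2 ht) hxy)
    have hG := (S : Subgroup SL(2, F)).card_mul_index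
    rw [H9.card_sl_two, hS] at hG
    have hq : 1 ≤ Fintype.card F ^ 2 := Nat.one_le_pow _ _ Fintype.card_pos
    obtain rfl : k = 1 := by
      by_contra hne
      have h16 : 16 ∣ Fintype.card F * (Fintype.card F ^ 2 - 1) := by
        rw [← hG]
        exact (pow_dvd_pow 2 (show 4 ≤ k + 2 by omega)).mul_right _
      have h16' : 16 ∣ Fintype.card F ^ 2 - 1 :=
        (Nat.Coprime.pow_left 4 (Nat.coprime_two_left.2 hodd)).dvd_of_dvd_mul_left h16
      have := (Nat.modEq_iff_dvd' hq).2 h16'
      have h : Fintype.card F % 16 = 3 ∨ Fintype.card F % 16 = 5 ∨ Fintype.card F % 16 = 11 ∨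
          Fintype.card F % 16 = 13 := by omega
      rcases h with h | h | h | h <;> simp [Nat.ModEq, Nat.pow_mod, h] at this
    have hxx : x * x = -1 := by
      refine ((H66.mul_self_eq_one_iff (x * x) h2).1 ?_).resolve_left fun e => ?_
      · have := pow_orderOf_eq_one x
        rw [hx] at this
        rw [← this, show 2 ^ (1 + 1) = 2 + 2 from rfl, pow_add, sq]
      · have := Nat.le_of_dvd two_pos (orderOf_dvd_of_pow_eq_one (x := x) (n := 2) (by rw [sq, e]))
        omega
    have hyx : y * x = -(x * y) := by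
      rw [mul_inv_eq_iff_eq_mul.1 hxy, inv_eq_of_mul_eq_one_right (show x * -x = 1 by
        rw [mul_neg, hxx, neg_neg]), neg_mul]
    obtain ⟨w, hw1, hw2, -⟩ := H66.exists_omega h2 hxx hyy hyx
    have a1 : w * x * w⁻¹ = y := by rw [hw1, mul_inv_cancel_right]
    have a2 : w * y * w⁻¹ = x * y := by rw [hw2, mul_inv_cancel_right]
    have hwN : w ∈ Subgroup.normalizer ((S : Subgroup SL(2, F)) : Set SL(2, F)) := by
      refine Subgroup.mem_normalizer_fintype fun s hs => ?_
      obtain ⟨i, rfl | rfl⟩ := hgen s hs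
      · rw [← conj_pow, a1]; exact Subgroup.pow_mem _ hyS _
      · rw [← conj_mul, ← conj_pow, a1, a2]
        exact Subgroup.mul_mem _ (Subgroup.mul_mem _ hxS hyS) (Subgroup.pow_mem _ hyS _)
    have hN := c2 hq8'
    rw [hS] at hN
    refine cnt_24 hN ?_
    set N := Subgroup.normalizer ((S : Subgroup SL(2, F)) : Set SL(2, F)) with hNdef
    have hle : (S : Subgroup SL(2, F)) ≤ N := Subgroup.le_normalizer
    have hidx : ((S : Subgroup SL(2, F)).subgroupOf N).index = 3 := by
      have := ((S : Subgroup SL(2, F)).subgroupOf N).card_mul_index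
      rw [Nat.card_congr (Subgroup.subgroupOfEquivOfLe hle).toEquiv, hS, hN] at this
      omega
    have hxN : (⟨x, hle hxS⟩ : N) ∈ commutator N := by
      have : (⟨x, hle hxS⟩ : N) = ⁅(⟨w, hwN⟩ : N), (⟨y, hle hyS⟩ : N)⁆ := by
        apply Subtype.ext
        change x = w * y * w⁻¹ * y⁻¹
        rw [a2, mul_inv_cancel_right]
      rw [this]
      exact Subgroup.commutator_mem_commutator (Subgroup.mem_top _) (Subgroup.mem_top _)
    have hyN : (⟨y, hle hyS⟩ : N) ∈ commutator N := by
      have : (⟨y, hle hyS⟩ : N) = ⁅(⟨w, hwN⟩ : N), (⟨x, hle hxS⟩ : N)⁆ * ⟨x, hle hxS⟩ := by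
        apply Subtype.ext
        change y = w * x * w⁻¹ * x⁻¹ * x
        rw [a1, inv_mul_cancel_right]
      rw [this]
      exact Subgroup.mul_mem _
        (Subgroup.commutator_mem_commutator (Subgroup.mem_top _) (Subgroup.mem_top _)) hxN
    have e : commutator N = (S : Subgroup SL(2, F)).subgroupOf N := by
      refine le_antisymm ?_ fun s hs => ?_
      · rw [← Subgroup.Normal.quotient_commutative_iff_commutator_le]
        have : Fact (Nat.Prime 3) := ⟨Nat.prime_three⟩
        have hc : IsCyclic (N ⧸ (S : Subgroup SL(2, F)).subgroupOf N) :=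
          isCyclic_of_prime_card (p := 3) hidx
        exact hc.isMulCommutative
      · obtain ⟨i, h | h⟩ := hgen s.1 hs
        · rw [show s = ⟨x, hle hxS⟩ ^ i from Subtype.ext h]
          exact Subgroup.pow_mem _ hxN _
        · rw [show s = ⟨y, hle hyS⟩ * ⟨x, hle hxS⟩ ^ i from Subtype.ext h]
          exact Subgroup.mul_mem _ hyN (Subgroup.pow_mem _ hxN _)
    rw [e, hidx]

/-- Let F be a finite field with q elements, q odd, ℓ any prime and S a Sylow ℓ-subgroup of SL₂ over F with normaliser N. Then SL₂ and N have the same number of irreducible complex characters of degree not divisible by ℓ (the McKay equality holds for SL₂ over F at every prime). -/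
theorem result {F : Type*} [Field F] [Fintype F] (hodd : Odd (Fintype.card F)) (ℓ : ℕ) [Fact ℓ.Prime] (S : Sylow ℓ (Matrix.SpecialLinearGroup (Fin 2) F)) :
    Nat.card {χ : Cfsg.IrrCharacter (Matrix.SpecialLinearGroup (Fin 2) F) // ¬ ℓ ∣ Cfsg.charDegree (χ : Matrix.SpecialLinearGroup (Fin 2) F → ℂ)} =
      Nat.card {ψ : Cfsg.IrrCharacter (Subgroup.normalizer ((S : Subgroup (Matrix.SpecialLinearGroup (Fin 2) F)) : Set (Matrix.SpecialLinearGroup (Fin 2) F))) //
        ¬ ℓ ∣ Cfsg.charDegree (ψ : Subgroup.normalizer ((S : Subgroup (Matrix.SpecialLinearGroup (Fin 2) F)) : Set (Matrix.SpecialLinearGroup (Fin 2) F)) → ℂ)} := by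
  change cnt ℓ _ = cnt ℓ _
  have hp : ℓ.Prime := Fact.out
  have hq : 1 < Fintype.card F := Fintype.one_lt_card
  by_cases h1 : ℓ ∣ Fintype.card F
  · exact case_char hodd ℓ h1 S
  by_cases h2 : ℓ = 2
  · subst h2
    by_cases h5 : 5 ≤ Fintype.card F
    · rw [case_two hodd S, cnt_G hodd h5 hp, if_neg h1]
      obtain ⟨k, hk⟩ := hodd
      rw [if_pos (by omega), if_pos (by omega)]
      split_ifs <;> omega
    · have h3 : Fintype.card F = 3 := by
        obtain ⟨k, hk⟩ := hodd
        omega
      refine cnt_top 2 (Subgroup.eq_top_of_card_eq _ ?_)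
      obtain ⟨k, x, y, hk, hS, -⟩ := H66.exists_sylow_two_gens hodd S
      have h := (S2431.result hodd S).2.2 (by omega)
      have h' := Subgroup.card_le_card_group (Subgroup.normalizer ((S : Subgroup SL(2, F)) :
        Set SL(2, F)))
      have h8 : 2 ^ 3 ≤ 2 ^ (k + 2) := Nat.pow_le_pow_right two_pos (by omega)
      rw [H9.card_sl_two, h3] at h' ⊢
      omega
  by_cases h3 : ℓ ∣ Fintype.card F ^ 2 - 1
  · exact case_odd hodd ℓ h2 h3 S
  · refine cnt_top ℓ ?_
    have : (S : Subgroup SL(2, F)) = ⊥ := by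
      obtain ⟨k, hk⟩ := S.isPGroup'.exists_card_eq
      rcases k with _ | k
      · exact Subgroup.eq_bot_of_card_eq _ hk
      · have := Subgroup.card_subgroup_dvd_card (S : Subgroup SL(2, F))
        rw [hk, H9.card_sl_two] at this
        exact absurd (hp.dvd_mul.1 ((dvd_pow_self ℓ (Nat.succ_ne_zero k)).trans this))
          (not_or.2 ⟨h1, h3⟩)
    rw [this]
    exact Subgroup.normalizer_eq_top _

end Cfsg.Agent.S2436
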