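import Cfsg.Statements.S2439
import Cfsg.Agent.H33.DefRG
import Cfsg.Agent.H38.ClA
import Cfsg.Agent.H34.Basic

set_option autoImplicit false
open Cfsg

namespace Cfsg.Agent.S2439

theorem sign {G : Type*} [Group G] [Finite G] {z : G} (hz : z ∈ Subgroup.center G) (h2 : z ^ 2 = 1)
    (χ : IrrCharacter G) : (χ : G → ℂ) z = (χ : G → ℂ) 1 ∨ (χ : G → ℂ) z = -(χ : G → ℂ) 1 := by
  obtain ⟨ω, -, -, h⟩ := H5.exists_apply_mul_eq_of_norm_eq (H5.isCharacter_of_isIrr χ.2)
    (H5.norm_apply_of_mem_center χ.2 hz)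
  have h1 := h 1
  have h3 := h z
  rw [mul_one] at h1
  rw [← sq, h2, h1, ← mul_assoc] at h3
  have : ω * ω = 1 := mul_right_cancel₀ (H5.degree_ne_zero χ.2) (by rw [← h3, one_mul])
  rcases mul_self_eq_one_iff.1 this with rfl | rfl
  · left; rw [h1, one_mul]
  · right; rw [h1, neg_one_mul]

theorem aux {G : Type*} [Group G] [Finite G] {p : ℕ} (hp : p ≠ 2) {M : Ideal AlgInt} (hM : IsPModular p M)
    {z : G} (hz : z ∈ Subgroup.center G) (h2 : z ^ 2 = 1) (h1 : z ≠ 1) (St : IrrCharacter G)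
    (hSt : (St : G → ℂ) z = (St : G → ℂ) 1) (hb : blockOf M (St : G → ℂ) = {St})
    (hne : (St : G → ℂ) 1 ≠ 1) (h3 : Nat.card {B : Set (IrrCharacter G) // IsPBlock M B} = 3)
    (B : Set (IrrCharacter G)) : IsPBlock M B ↔ B = {χ | χ = St} ∨
      B = {χ : IrrCharacter G | (χ : G → ℂ) z = (χ : G → ℂ) 1 ∧ χ ≠ St} ∨
      B = {χ : IrrCharacter G | (χ : G → ℂ) z = -(χ : G → ℂ) 1} := by
  classical
  have := hM.2.1
  have hs : ∀ χ : IrrCharacter G, (χ : G → ℂ) z = -(χ : G → ℂ) 1 ↔ (χ : G → ℂ) z ≠ (χ : G → ℂ) 1 := fun χ =>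
    ⟨fun h h' => H5.degree_ne_zero χ.2 (by linear_combination (h - h') / 2), (sign hz h2 χ).resolve_left⟩
  let f : IrrCharacter G → Fin 3 := fun χ => if χ = St then 0 else if (χ : G → ℂ) z = (χ : G → ℂ) 1 then 1 else 2
  have hc : ∀ χ : IrrCharacter G, centralChar (χ : G → ℂ) z = (χ : G → ℂ) z / (χ : G → ℂ) 1 := fun χ => by
    rw [centralChar, Subgroup.index_eq_one.2 (eq_top_iff.2 fun y _ =>
      Subgroup.mem_centralizer_singleton_iff.2 (Subgroup.mem_center_iff.1 hz y))]; simp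
  have h4 : ∀ χ ψ : IrrCharacter G, SameBlock M (χ : G → ℂ) ψ → (χ : G → ℂ) z = (χ : G → ℂ) 1 →
      (ψ : G → ℂ) z = (ψ : G → ℂ) 1 := fun χ ψ h e => by
    by_contra e'
    have := h z
    rw [hc, hc, e, (hs ψ).2 e', neg_div, div_self (H5.degree_ne_zero χ.2), div_self (H5.degree_ne_zero ψ.2),
      show (1 : ℂ) - -1 = (2 : ℕ) by norm_num, ← H32.mem_locMax, H32.natCast_mem_locMax_iff hM] at this
    exact hp ((Nat.prime_dvd_prime_iff_eq hM.1 Nat.prime_two).1 this)
  have h5 : ∀ χ ψ : IrrCharacter G, SameBlock M (χ : G → ℂ) ψ → χ = St → ψ = St := by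
    rintro _ ψ h rfl
    exact hb.le h
  have hf : ∀ χ ψ : IrrCharacter G, SameBlock M (χ : G → ℂ) ψ → f χ = f ψ := fun χ ψ h => by
    simp only [f, show χ = St ↔ ψ = St from ⟨h5 _ _ h, h5 _ _ (H32.sameBlock_symm h)⟩,
      show (χ : G → ℂ) z = (χ : G → ℂ) 1 ↔ (ψ : G → ℂ) z = (ψ : G → ℂ) 1 from
        ⟨h4 _ _ h, h4 _ _ (H32.sameBlock_symm h)⟩]
  have hsurj : Function.Surjective f := fun i => by
    fin_cases i
    · exact ⟨St, by simp [f]⟩
    · exact ⟨⟨_, H5.isIrrCharacter_one⟩, by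
        simp only [f]; rw [if_neg (by rintro rfl; exact hne rfl)]; simp⟩
    · obtain ⟨χ, hχ, e⟩ : ∃ χ, IsIrrCharacter G χ ∧ χ z ≠ χ 1 := by
        by_contra h
        push Not at h
        exact h1 (H5.eq_one_of_forall_irr h)
      exact ⟨⟨χ, hχ⟩, by simp only [f]; rw [if_neg (by rintro rfl; exact e hSt), if_neg e]; rfl⟩
  let g : {B : Set (IrrCharacter G) // IsPBlock M B} → Fin 3 := fun B => f B.2.choose
  have hg : ∀ χ : IrrCharacter G, g ⟨_, χ, rfl⟩ = f χ := fun χ =>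
    hf _ _ ((H32.isPBlock_blockOf (M := M) χ).choose_spec.le (H32.mem_blockOf_self χ))
  have := Nat.finite_of_card_ne_zero (h3 ▸ three_ne_zero)
  have hinj : Function.Injective g := ((Nat.bijective_iff_surjective_and_card g).2
    ⟨fun i => (hsurj i).elim fun χ h => ⟨_, (hg χ).trans h⟩, by rw [h3]; simp⟩).1
  have h6 : ∀ χ : IrrCharacter G, blockOf M (χ : G → ℂ) = {ψ | f ψ = f χ} := fun χ =>
    Set.ext fun ψ => ⟨fun h => (hf _ _ h).symm, fun h => (congrArg Subtype.val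
      (hinj (((hg ψ).trans h).trans (hg χ).symm))).le (H32.mem_blockOf_self ψ)⟩
  have h7 : IsPBlock M B ↔ ∃ i, B = {ψ | f ψ = i} :=
    ⟨fun ⟨χ, e⟩ => ⟨_, e.trans (h6 χ)⟩, fun ⟨i, e⟩ => (hsurj i).elim fun χ h => ⟨χ, by rw [h6, h, e]⟩⟩
  rw [h7, Fin.exists_fin_succ, Fin.exists_fin_two]
  refine or_congr ?_ (or_congr ?_ ?_) <;> refine iff_of_eq (congrArg _ (Set.ext fun χ => ?_)) <;>
    simp only [Set.mem_setOf_eq, f, hs] <;> split_ifs with a b <;> simp_all

/-- Let F be a finite field with q elements of odd characteristic p, and M a maximal ideal of the algebraic integers containing p. Then SL₂ over F has exactly three p-blocks relative to M: the irreducible character of degree q (the Steinberg character) alone; the other irreducible characters taking the same value at −1 as at 1 (the principal block); and the irreducible characters χ with χ(−1) = −χ(1). Every Sylow p-subgroup is a defect group of each of the last two blocks. -/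
theorem result {F : Type*} [Field F] [Fintype F] (p : ℕ) [Fact p.Prime] [CharP F p] (hp : p ≠ 2)
    (M : Ideal Cfsg.AlgInt) (hM : Cfsg.IsPModular p M) :
    (∀ B : Set (Cfsg.IrrCharacter (Matrix.SpecialLinearGroup (Fin 2) F)), Cfsg.IsPBlock M B ↔
      (B = {χ : Cfsg.IrrCharacter (Matrix.SpecialLinearGroup (Fin 2) F) | (χ : Matrix.SpecialLinearGroup (Fin 2) F → ℂ) 1 = (Fintype.card F : ℂ)} ∨
       B = {χ : Cfsg.IrrCharacter (Matrix.SpecialLinearGroup (Fin 2) F) | (χ : Matrix.SpecialLinearGroup (Fin 2) F → ℂ) (-1) = (χ : Matrix.SpecialLinearGroup (Fin 2) F → ℂ) 1 ∧ (χ : Matrix.SpecialLinearGroup (Fin 2) F → ℂ) 1 ≠ (Fintype.card F : ℂ)} ∨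
       B = {χ : Cfsg.IrrCharacter (Matrix.SpecialLinearGroup (Fin 2) F) | (χ : Matrix.SpecialLinearGroup (Fin 2) F → ℂ) (-1) = -(χ : Matrix.SpecialLinearGroup (Fin 2) F → ℂ) 1})) ∧
    Nat.card {B : Set (Cfsg.IrrCharacter (Matrix.SpecialLinearGroup (Fin 2) F)) // Cfsg.IsPBlock M B} = 3 ∧
    ∀ P : Sylow p (Matrix.SpecialLinearGroup (Fin 2) F),
      Cfsg.IsDefectGroup p M {χ : Cfsg.IrrCharacter (Matrix.SpecialLinearGroup (Fin 2) F) | (χ : Matrix.SpecialLinearGroup (Fin 2) F → ℂ) (-1) = (χ : Matrix.SpecialLinearGroup (Fin 2) F → ℂ) 1 ∧ (χ : Matrix.SpecialLinearGroup (Fin 2) F → ℂ) 1 ≠ (Fintype.card F : ℂ)} (P : Subgroup (Matrix.SpecialLinearGroup (Fin 2) F)) ∧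
      Cfsg.IsDefectGroup p M {χ : Cfsg.IrrCharacter (Matrix.SpecialLinearGroup (Fin 2) F) | (χ : Matrix.SpecialLinearGroup (Fin 2) F → ℂ) (-1) = -(χ : Matrix.SpecialLinearGroup (Fin 2) F → ℂ) 1} (P : Subgroup (Matrix.SpecialLinearGroup (Fin 2) F)) := by
  have := hM.2.1
  have := Fintype.ofFinite (Matrix.SpecialLinearGroup (Fin 2) F)
  have hX := H38.ClA.faithful (n := 1) (F := F)
  have hG := H38.ClA.grp_eq_top (n := 1) (F := F)
  obtain ⟨S, h1, h2, -⟩ := H33.rg_stData p hX hG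
  obtain ⟨k, hpp, hk⟩ := FiniteField.card F p
  have hodd : Odd (Fintype.card F) := hk ▸ (hpp.odd_of_ne_two hp).pow
  have h3 : Nat.card {B : Set (IrrCharacter (Matrix.SpecialLinearGroup (Fin 2) F)) // IsPBlock M B} =
      Nat.card (Subgroup.center (Matrix.SpecialLinearGroup (Fin 2) F)) + 1 :=
    H33.rg_card_blocks p hX hG H38.ClA.conn hM
  rw [H9.card_center_sl, Fintype.card_fin, Nat.gcd_eq_left (even_iff_two_dvd.1 (Nat.Odd.sub_odd hodd odd_one))]
    at h3
  have hq : p ^ (Nat.card (Matrix.SpecialLinearGroup (Fin 2) F)).factorization p = Fintype.card F := by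
    have h : ¬ p ∣ Fintype.card F ^ 2 - 1 := fun h => by
      have := Nat.dvd_sub (show p ∣ Fintype.card F ^ 2 from hk ▸ (dvd_pow_self p k.ne_zero).pow two_ne_zero) h
      rw [Nat.sub_sub_self (Nat.one_le_pow _ _ Fintype.card_pos)] at this
      exact hpp.one_lt.ne' (Nat.dvd_one.1 this)
    rw [H9.card_sl_two, Nat.factorization_mul Fintype.card_ne_zero (by rintro e; simp [e] at h),
      Finsupp.add_apply, Nat.factorization_eq_zero_of_not_dvd h, hk, hpp.factorization_pow]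
    simp
  have h4 : S.St 1 = Fintype.card F := by rw [S.St_one, S.card_U, hq]
  let St : IrrCharacter _ := ⟨S.St, S.St_irr⟩
  have h5 : ∀ χ : IrrCharacter (Matrix.SpecialLinearGroup (Fin 2) F),
      χ.1 1 = Fintype.card F ↔ χ = St := fun χ =>
    ⟨fun h => Subtype.ext (S.eq_St_of_defect_zero (H33.rg_closure_pElements p hG) χ.2 h hq.dvd),
      by rintro rfl; exact h4⟩
  have hz : (-1 : Matrix.SpecialLinearGroup (Fin 2) F) ∈ Subgroup.center _ :=
    Subgroup.mem_center_iff.2 fun g => by simp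
  have hd : ∀ χ : IrrCharacter (Matrix.SpecialLinearGroup (Fin 2) F), blockDefect p (blockOf M χ.1) = 0 ↔
      χ = St := fun χ => by
    rw [H32.blockDefect_eq_zero_iff hM]
    refine ⟨fun h => Subtype.ext (S.eq_St_of_defect_zero (H33.rg_closure_pElements p hG) χ.2
      (H32.cast_charDegree_irr χ).symm ((hpp.pow_dvd_iff_le_factorization (H32.charDegree_ne_zero χ)).2 h.ge)), ?_⟩
    rintro rfl
    rw [Nat.cast_inj.1 ((H32.cast_charDegree_irr St).trans h4), ← hq, hpp.factorization_pow]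
    simp
  have h7 : S.St (-1 : Matrix.SpecialLinearGroup (Fin 2) F) = S.St 1 := H33.St_of_mem_center S hz
    (h1 ∅ ▸ ((H38.ClA.rg 1 F).H_le_B.trans ((H38.ClA.rg 1 F).B_le_PJ _)) (H33.rg_center_le_H hX hG hz))
  have h8 := aux hp hM hz (by simp) (fun h => by
      have := congrFun (congrFun (congrArg Subtype.val h) 0) 0
      simp only [Matrix.SpecialLinearGroup.coe_neg, Matrix.SpecialLinearGroup.coe_one, Matrix.neg_apply,
        Matrix.one_apply_eq] at this
      have h2 : ((2 : ℕ) : F) = 0 := by push_cast; linear_combination -this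
      exact hp ((Nat.prime_dvd_prime_iff_eq hpp Nat.prime_two).1 ((CharP.cast_eq_zero_iff F p 2).1 h2)))
    St h7 ((H32.blockOf_eq_singleton_iff hM St).2 ((H32.blockDefect_eq_zero_iff hM St).1 ((hd St).2 rfl)))
    (fun h => Fintype.one_lt_card.ne' (by exact_mod_cast h4.symm.trans h)) h3
  have h9 : ∀ B, IsPBlock M B → St ∉ B → ∀ P : Sylow p (Matrix.SpecialLinearGroup (Fin 2) F),
      IsDefectGroup p M B P := fun B hB h P => by
    refine (H33.isDefectGroup_sylow_iff hM hB P).2 (((H33.rg_bt p hX hG H38.ClA.conn).defect hM hB).resolve_left ?_)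
    obtain ⟨χ, rfl⟩ := hB
    rw [hd]
    rintro rfl
    exact h (H32.mem_blockOf_self _)
  simp only [ne_eq, h5]
  refine ⟨h8, h3, fun P => ⟨h9 _ ((h8 _).2 (Or.inr (Or.inl rfl))) (fun h => h.2 rfl) P,
    h9 _ ((h8 _).2 (Or.inr (Or.inr rfl))) (fun h => H5.degree_ne_zero S.St_irr ?_) P⟩⟩
  have h' : S.St (-1 : Matrix.SpecialLinearGroup (Fin 2) F) = -S.St 1 := h
  linear_combination (h' - h7) / 2

end Cfsg.Agent.S2439
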