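import Cfsg.Statements.S2441
import Cfsg.Agent.H33.DefRG
import Cfsg.Agent.H38.StMat
import Cfsg.Agent.H38.Simple

set_option autoImplicit false
open Cfsg

namespace Cfsg.Agent.S2441

open Cfsg.Lie in
theorem aux {D : ChevalleyDatum} (hD : H37.IsChev D) (hr : 0 < D.rank) (p : ℕ) [Fact p.Prime]
    (M : Ideal Cfsg.AlgInt) (hM : Cfsg.IsPModular p M) :
    Nat.card {B : Set (Cfsg.IrrCharacter (D.group (ZMod p))) // Cfsg.IsPBlock M B} = 2 := by
  obtain ⟨inst⟩ := H37.nonempty_chev hD
  have : Nonempty (Fin D.rank) := ⟨⟨0, hr⟩⟩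
  have hX := (H38.mg_faithful hD (ZMod p)).sub (H38.mg_grp hD _)
  have hG := H38.RG.sub_grp _ (H38.mg_grp hD (ZMod p))
  rw [H33.rg_card_blocks p hX hG (H38.rs_conn hD) hM, (Subgroup.eq_bot_iff_forall (Subgroup.center _)).2 fun z hz => ?_,
    Subgroup.card_bot]
  have h := H33.rg_center_le_H hX hG hz
  rw [H38.RG.sub_H] at h
  exact Subtype.ext (H38.mg_adj hD _ h fun r t =>
    congrArg Subtype.val (Subgroup.mem_center_iff.1 hz ((H38.mgs hD (ZMod p)).x r t)).symm)

/-- For a prime p, the Chevalley groups of types G₂, F₄ and E₈ over the field with p elements (types for which the simply connected and adjoint groups coincide, so the group has trivial centre) each have exactly two p-blocks relative to any maximal ideal of the algebraic integers containing p (only the count is asserted; it arises as the defect-zero block of the Steinberg character plus a single block of maximal defect). -/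
theorem result (p : ℕ) [Fact p.Prime] (M : Ideal Cfsg.AlgInt) (hM : Cfsg.IsPModular p M) :
    Nat.card {B : Set (Cfsg.IrrCharacter (Cfsg.Lie.chevG2.group (ZMod p))) // Cfsg.IsPBlock M B} = 2 ∧
    Nat.card {B : Set (Cfsg.IrrCharacter (Cfsg.Lie.chevF4.group (ZMod p))) // Cfsg.IsPBlock M B} = 2 ∧
    Nat.card {B : Set (Cfsg.IrrCharacter (Cfsg.Lie.chevE8.group (ZMod p))) // Cfsg.IsPBlock M B} = 2 := by
  exact ⟨aux (by simp [H37.IsChev]) (by decide) p M hM, aux (by simp [H37.IsChev]) (by decide) p M hM,
    aux (by simp [H37.IsChev]) (by decide) p M hM⟩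

end Cfsg.Agent.S2441
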