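import Cfsg.Statements.S2442
import Cfsg.Agent.H65.CuF

set_option autoImplicit false
open scoped MatrixGroups
open Cfsg

namespace Cfsg.Agent.S2442

open Classical in
open Cfsg.Agent.H65.Cu Module in
theorem sum_rad {F : Type*} [Field F] [Fintype F] [DecidableEq F] {n m : ℕ} (h0 : 0 < m)
    (h1 : m < n) {β : Polynomial F → ℂ} (hβ : Adv β) :
    (∑ g : GL (Fin n) F, if (∀ i j : Fin n, ¬ (i.val < m ∧ m ≤ j.val) →
      (g : Matrix (Fin n) (Fin n) F) i j = (1 : Matrix (Fin n) (Fin n) F) i j) then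
      sF β (Matrix.GeneralLinearGroup.toLin g : End F (Fin n → F)) ⊤ else 0) = 0 := by
  classical
  let W : Submodule F (Fin n → F) :=
    { carrier := {v | ∀ i : Fin n, m ≤ i.val → v i = 0}
      add_mem' := fun ha hb i hi => by simp [ha i hi, hb i hi]
      zero_mem' := fun _ _ => rfl
      smul_mem' := fun c v hv i hi => by simp [hv i hi] }
  have hW : ∀ v, v ∈ W ↔ ∀ i : Fin n, m ≤ i.val → v i = 0 := fun _ => Iff.rfl
  have hmem : ∀ A : Matrix (Fin n) (Fin n) F, Matrix.toLin' A ∈ nset W W ↔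
      ∀ i j : Fin n, ¬ (i.val < m ∧ m ≤ j.val) → A i j = 0 := by
    intro A
    rw [mem_nset]
    constructor
    · rintro ⟨a1, a2⟩ i j hij
      by_cases hi : i.val < m
      · have := congrFun (a2 (Pi.single j 1) fun k hk => Pi.single_eq_of_ne
          (fun e => hij ⟨hi, by rw [← e]; exact hk⟩) _) i
        simpa using this
      · simpa using a1 (Pi.single j 1) i (not_lt.1 hi)
    · intro h
      refine ⟨fun v i hi => ?_, fun v hv => funext fun i => ?_⟩
      · rw [Matrix.toLin'_apply, Matrix.mulVec, dotProduct]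
        exact Finset.sum_eq_zero fun j _ => by rw [h i j fun e => absurd hi (not_le.2 e.1), zero_mul]
      · rw [Matrix.toLin'_apply, Matrix.mulVec, dotProduct]
        refine Finset.sum_eq_zero fun j _ => ?_
        by_cases hj : m ≤ j.val
        · rw [hv j hj, mul_zero]
        · rw [h i j fun e => hj e.2, zero_mul]
  rw [← Finset.sum_filter]
  refine Eq.trans ?_ (cusp hβ (x := 1) (W₀ := W) (fun _ h => h) (fun e => ?_) fun e => ?_)
  · have e : ∀ g : GL (Fin n) F, (Matrix.GeneralLinearGroup.toLin g : End F (Fin n → F)) =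
        1 + Matrix.toLin' ((g : Matrix (Fin n) (Fin n) F) - 1) := fun g => by
      rw [map_sub, Matrix.toLin'_one, ← Module.End.one_eq_id, add_sub_cancel]; rfl
    refine Finset.sum_bij (fun g _ => Matrix.toLin' ((g : Matrix (Fin n) (Fin n) F) - 1))
      (fun g hg => (hmem _).2 fun i j hij => ?_) (fun g _ g' _ h => ?_) (fun x hx => ?_)
      fun g _ => by rw [e]
    · rw [Matrix.sub_apply, (Finset.mem_filter.1 hg).2 i j hij, sub_self]
    · exact Units.ext (sub_left_inj.1 (Matrix.toLin'.injective h))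
    · obtain ⟨A, rfl⟩ := Matrix.toLin'.surjective x
      have hA : A * A = 0 := Matrix.toLin'.injective (LinearMap.ext fun v => by
        rw [Matrix.toLin'_mul, map_zero]
        exact (mem_nset.1 hx).2 _ ((mem_nset.1 hx).1 v))
      refine ⟨⟨1 + A, 1 - A, by rw [add_mul, mul_sub, mul_sub, hA]; simp,
        by rw [sub_mul, mul_add, mul_add, hA]; simp⟩,
        Finset.mem_filter.2 ⟨Finset.mem_univ _, fun i j hij => ?_⟩, by simp⟩
      simp [(hmem A).1 hx i j hij]
  · have : (Pi.single ⟨0, by omega⟩ 1 : Fin n → F) ∈ W := fun k hk => Pi.single_eq_of_ne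
      (fun e => by rw [e] at hk; exact absurd hk (not_le.2 h0)) _
    rw [e, Submodule.mem_bot] at this
    simpa using congrFun this ⟨0, by omega⟩
  · have : (Pi.single ⟨m, h1⟩ 1 : Fin n → F) ∈ W := e ▸ Submodule.mem_top
    simpa using this ⟨m, h1⟩ le_rfl

open Classical in
/-- Let F be a finite field with q elements and n ≥ 2. Call a complex character χ of GL_n over F cuspidal when, for every 0 < m < n, the sum of χ over the subgroup of matrices that agree with the identity outside the upper right m × (n − m) block vanishes (the restriction of χ to the unipotent radical of each maximal standard parabolic subgroup contains no principal constituent). Then GL_n has at least φ(qⁿ − 1)/n distinct cuspidal irreducible characters of degree (q − 1)(q² − 1)⋯(q^(n−1) − 1), φ being Euler's function (in particular at least one). -/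
theorem result {F : Type*} [Field F] [Fintype F] [DecidableEq F] (n : ℕ) (hn : 2 ≤ n) :
    Nat.totient (Fintype.card F ^ n - 1) / n ≤
      Nat.card {χ : Cfsg.IrrCharacter (GL (Fin n) F) //
        (χ : GL (Fin n) F → ℂ) 1 = ∏ i ∈ Finset.Ico 1 n, ((Fintype.card F : ℂ) ^ i - 1) ∧
        ∀ m : ℕ, 0 < m → m < n →
          (∑ g : GL (Fin n) F,
            if (∀ i j : Fin n, ¬ (i.val < m ∧ m ≤ j.val) → (g : Matrix (Fin n) (Fin n) F) i j = (1 : Matrix (Fin n) (Fin n) F) i j)
            then (χ : GL (Fin n) F → ℂ) g else 0) = 0} := by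
  classical
  open Cfsg.Agent.H65.Cu Module in
  obtain ⟨p, hp⟩ := CharP.exists F
  have hpp : p.Prime := CharP.char_is_prime F p
  have := Fact.mk hpp
  obtain ⟨M, hM⟩ := H86.exists_isPModular hpp
  have := hM.2.1
  have := H32.res_charP hM
  let _ := ZMod.algebra F p
  let _ := ZMod.algebra (H32.Res M) p
  let _ : Algebra F (H32.Res M) :=
    (IsAlgClosed.lift (R := ZMod p) (S := F) (M := H32.Res M)).toRingHom.toAlgebra
  have hd : finrank F (Fin n → F) = n := by simp
  have : Nontrivial (Fin n → F) := Module.nontrivial_of_finrank_pos (R := F) (by omega)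
  have := Fintype.ofFinite (End F (Fin n → F))ˣ
  have hq1 : 1 < Fintype.card F := Fintype.one_lt_card
  have hq : 1 < Fintype.card F ^ n := Nat.one_lt_pow (by omega) hq1
  set q := Fintype.card F with hqd
  set N := q ^ n - 1 with hN
  have hN0 : N ≠ 0 := by omega
  have hex : ∀ a : ℕ, ∃ τ : ℂ ≃+* ℂ, N.Coprime a → ∀ z : ℂ, z ^ N = 1 → τ z = z ^ a := fun a => by
    by_cases h : N.Coprime a
    · obtain ⟨τ, hτ⟩ := H7.exists_ringEquiv_pow hN0 h.symm
      exact ⟨τ, fun _ => hτ⟩
    · exact ⟨RingEquiv.refl _, fun h' => absurd h' h⟩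
  choose τ hτ using hex
  let β := bet F (teich (M := M) p)
  let s : ℕ → GL (Fin n) F → ℂ := fun a g =>
    (τ a : ℂ →+* ℂ) (sF β (Matrix.GeneralLinearGroup.toLin g : End F (Fin n → F)) ⊤)
  let χ : ℕ → GL (Fin n) F → ℂ := fun a => ((-1 : ℤ) ^ (n - 1)) • s a
  have h1 : ∀ a b, N.Coprime a → N.Coprime b → classInner (χ a) (χ b) =
      ((Finset.range n).filter fun j => a ≡ q ^ j * b [MOD N]).card := by
    intro a b ha hb
    have := inner_gal hM (Fin n → F) (τ a : ℂ →+* ℂ) (τ b : ℂ →+* ℂ) (a := a) (b := b)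
      (by rw [hd]; exact hτ a ha) (by rw [hd]; exact hτ b hb)
    rw [hd, ← H5.classInner_comp_equiv Matrix.GeneralLinearGroup.toLin] at this
    rw [H5.classInner_zsmul_left, H5.classInner_zsmul_right, ← mul_assoc, ← Int.cast_mul,
      ← mul_pow, ← this]
    simp [s, β]
  have h2 : ∀ a, χ a 1 = ∏ i ∈ Finset.Ico 1 n, ((q : ℂ) ^ i - 1) := fun a => by
    have h3 : teich (M := M) p 1 = 1 := by
      simpa using teich_redC hM (z := 1) (m := 1) hpp.not_dvd_one (one_pow _)
    simp only [χ, s, Pi.smul_apply, map_one, Units.val_one]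
    rw [sF_one (bet_one F h3), hd, sig, if_neg (by omega), Nat.card_eq_fintype_card, map_prod,
      zsmul_eq_mul, ← Nat.card_Ico, Int.cast_pow, ← Finset.prod_const, ← Finset.prod_mul_distrib]
    exact Finset.prod_congr rfl fun i _ => by simp [hqd]
  have h3 : ∀ a, N.Coprime a → IsIrrCharacter _ (χ a) := fun a ha => by
    refine H53.irr_of_virt_norm_one (H53.virt_zsmul _ (H7.isGeneralizedCharacter_ringHom _
      (H53.virt_comp (virt_sF hM (Fin n → F)) Matrix.GeneralLinearGroup.toLin.toMonoidHom))) ?_ ?_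
    · rw [H53.ip, h1 a a ha ha, Finset.card_eq_one.2 ⟨0, ?_⟩]
      · simp
      · ext j
        rw [Finset.mem_filter, Finset.mem_range, Finset.mem_singleton]
        refine ⟨fun ⟨a1, a2⟩ => ?_, by rintro rfl; exact ⟨by omega, by rw [pow_zero, one_mul]⟩⟩
        have a3 : 1 ≡ q ^ j [MOD N] := Nat.ModEq.cancel_right_of_coprime ha (by rwa [one_mul])
        have a4 := Nat.pow_lt_pow_right hq1 a1
        have a5 := Nat.one_le_pow j q (by omega)
        have a6 := Nat.eq_zero_of_dvd_of_lt ((Nat.modEq_iff_dvd' a5).1 a3) (by omega)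
        by_contra h
        have := Nat.one_lt_pow h hq1
        omega
    · rw [h2, show ∏ i ∈ Finset.Ico 1 n, ((q : ℂ) ^ i - 1) =
        ((∏ i ∈ Finset.Ico 1 n, (q ^ i - 1) : ℕ) : ℂ) by
          rw [Nat.cast_prod]
          exact Finset.prod_congr rfl fun i _ => by
            rw [Nat.cast_sub (Nat.one_le_pow i q (by omega))]; simp]
      exact Nat.cast_nonneg _
  let S := (Finset.range N).filter N.Coprime
  have h4 : S.card ≤ n * (S.image χ).card := by
    refine Finset.card_le_mul_card_image _ _ fun ψ hψ => ?_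
    obtain ⟨b, hb, rfl⟩ := Finset.mem_image.1 hψ
    refine (Finset.card_le_card (t := (Finset.range n).image fun j => q ^ j * b % N)
      fun a ha => ?_).trans (Finset.card_image_le.trans (Finset.card_range n).le)
    obtain ⟨ha, e⟩ := Finset.mem_filter.1 ha
    obtain ⟨a1, a2⟩ := Finset.mem_filter.1 ha
    have h5 := h1 a b a2 (Finset.mem_filter.1 hb).2
    rw [e, H5.classInner_irr_self (h3 b (Finset.mem_filter.1 hb).2)] at h5
    obtain ⟨j, hj⟩ := Finset.card_pos.1 (Nat.pos_of_ne_zero fun h => by rw [h] at h5; simp at h5)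
    obtain ⟨j1, j2⟩ := Finset.mem_filter.1 hj
    exact Finset.mem_image.2 ⟨j, j1, Eq.trans j2.symm (Nat.mod_eq_of_lt (Finset.mem_range.1 a1))⟩
  refine (Nat.div_le_of_le_mul h4).trans ?_
  rw [← Fintype.card_coe, ← Nat.card_eq_fintype_card]
  have h6 : ∀ ψ ∈ S.image χ, ∃ a, N.Coprime a ∧ χ a = ψ := fun ψ hψ => by
    obtain ⟨a, ha, e⟩ := Finset.mem_image.1 hψ
    exact ⟨a, (Finset.mem_filter.1 ha).2, e⟩
  refine Nat.card_le_card_of_injective (fun ψ => ⟨⟨ψ.1, ?_⟩, ?_, fun m m0 m1 => ?_⟩)
    fun ψ ψ' h => Subtype.ext (congrArg (fun x => x.1.1) h)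
  · obtain ⟨a, ha, e⟩ := h6 _ ψ.2
    exact e ▸ h3 a ha
  · obtain ⟨a, ha, e⟩ := h6 _ ψ.2
    exact e ▸ h2 a
  · obtain ⟨a, ha, e⟩ := h6 _ ψ.2
    have h7 := congrArg (fun z => ((-1 : ℤ) ^ (n - 1)) • (τ a : ℂ →+* ℂ) z)
      (sum_rad m0 m1 (adv_bet F (teich (M := M) p)))
    simp only [map_zero, smul_zero, map_sum, Finset.smul_sum] at h7
    refine Eq.trans (Finset.sum_congr rfl fun g _ => ?_) h7
    split_ifs
    · exact (congrFun e g).symm
    · simp

end Cfsg.Agent.S2442
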