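import Cfsg.Statements.S2500
import Cfsg.Agent.H68.CovSp2
import Cfsg.Agent.H68.CovG2

set_option autoImplicit false
open Cfsg

namespace Cfsg.Agent.S2500

theorem cast_eq_zero_of_card {F : Type} [Field F] [Fintype F] {p : ℕ} (h : p ∣ Fintype.card F)
    (hp : p.Prime) : (p : F) = 0 := by
  obtain ⟨r, hr⟩ := CharP.exists F
  obtain ⟨n, h1, h2⟩ := FiniteField.card F r
  rw [h2] at h
  rw [(Nat.prime_dvd_prime_iff_eq hp h1).1 (hp.dvd_of_dvd_pow h)]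
  exact CharP.cast_eq_zero F r

/-- The infinite families of simple groups with normal covering number 2. For a finite field F: each of PSL_2(F) (|F| ≥ 4), PSL_3(F), PSL_4(F), PSU_4 over F (|F| = q²), PSU_3 over F when |F| = q² with q a power of 3, PSp_{2m}(F) for |F| even, m ≥ 2 and (m, |F|) ≠ (2, 2), PSp_6(F) for |F| a power of 3, and G_2(F) (automorphisms of the split octonions) for |F| = 2^a ≥ 4 is the union of the conjugates of two proper subgroups: there are proper subgroups H, K such that every element is conjugate into H or into K. -/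
theorem result {F : Type} [Field F] [Fintype F] :
    (4 ≤ Fintype.card F → (∃ H K : Subgroup (Matrix.ProjectiveSpecialLinearGroup (Fin 2) F), H ≠ ⊤ ∧ K ≠ ⊤ ∧ ∀ g : (Matrix.ProjectiveSpecialLinearGroup (Fin 2) F), ∃ x : (Matrix.ProjectiveSpecialLinearGroup (Fin 2) F), x * g * x⁻¹ ∈ H ∨ x * g * x⁻¹ ∈ K)) ∧
    (∃ H K : Subgroup (Matrix.ProjectiveSpecialLinearGroup (Fin 3) F), H ≠ ⊤ ∧ K ≠ ⊤ ∧ ∀ g : (Matrix.ProjectiveSpecialLinearGroup (Fin 3) F), ∃ x : (Matrix.ProjectiveSpecialLinearGroup (Fin 3) F), x * g * x⁻¹ ∈ H ∨ x * g * x⁻¹ ∈ K) ∧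
    (∃ H K : Subgroup (Matrix.ProjectiveSpecialLinearGroup (Fin 4) F), H ≠ ⊤ ∧ K ≠ ⊤ ∧ ∀ g : (Matrix.ProjectiveSpecialLinearGroup (Fin 4) F), ∃ x : (Matrix.ProjectiveSpecialLinearGroup (Fin 4) F), x * g * x⁻¹ ∈ H ∨ x * g * x⁻¹ ∈ K) ∧
    (∀ q : ℕ, Fintype.card F = q ^ 2 → (∃ H K : Subgroup (Cfsg.PSU 4 F q), H ≠ ⊤ ∧ K ≠ ⊤ ∧ ∀ g : (Cfsg.PSU 4 F q), ∃ x : (Cfsg.PSU 4 F q), x * g * x⁻¹ ∈ H ∨ x * g * x⁻¹ ∈ K)) ∧
    (∀ q a : ℕ, Fintype.card F = q ^ 2 → 1 ≤ a → q = 3 ^ a → (∃ H K : Subgroup (Cfsg.PSU 3 F q), H ≠ ⊤ ∧ K ≠ ⊤ ∧ ∀ g : (Cfsg.PSU 3 F q), ∃ x : (Cfsg.PSU 3 F q), x * g * x⁻¹ ∈ H ∨ x * g * x⁻¹ ∈ K)) ∧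
    (∀ m : ℕ, 2 ≤ m → ¬ Odd (Fintype.card F) → ¬ (m = 2 ∧ Fintype.card F = 2) → (∃ H K : Subgroup (Cfsg.PSp m F), H ≠ ⊤ ∧ K ≠ ⊤ ∧ ∀ g : (Cfsg.PSp m F), ∃ x : (Cfsg.PSp m F), x * g * x⁻¹ ∈ H ∨ x * g * x⁻¹ ∈ K)) ∧
    (∀ a : ℕ, 1 ≤ a → Fintype.card F = 3 ^ a → (∃ H K : Subgroup (Cfsg.PSp 3 F), H ≠ ⊤ ∧ K ≠ ⊤ ∧ ∀ g : (Cfsg.PSp 3 F), ∃ x : (Cfsg.PSp 3 F), x * g * x⁻¹ ∈ H ∨ x * g * x⁻¹ ∈ K)) ∧
    (∀ a : ℕ, 2 ≤ a → Fintype.card F = 2 ^ a → (∃ H K : Subgroup (Cfsg.Lie.G2 F), H ≠ ⊤ ∧ K ≠ ⊤ ∧ ∀ g : (Cfsg.Lie.G2 F), ∃ x : (Cfsg.Lie.G2 F), x * g * x⁻¹ ∈ H ∨ x * g * x⁻¹ ∈ K)) := by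
  refine ⟨fun h => H68.cov_PSL (l := 2) (Or.inr ⟨rfl, by rwa [Nat.card_eq_fintype_card]⟩) le_rfl
      (fun d _ _ _ => by omega),
    H68.cov_PSL (l := 3) (Or.inl le_rfl) (by omega) (fun d _ _ _ => by omega),
    H68.cov_PSL (l := 2) (Or.inl (by omega)) le_rfl (fun d _ _ _ => by omega),
    fun q hq => ?_, fun q a hq ha h => ?_, fun m hm h1 h2 => ?_, fun a ha h => ?_, fun a ha h => ?_⟩
  · have := Fact.mk hq
    exact H68.cov_SU4.quot (H10.commutator_SU_eq_top (by omega) (by omega))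
  · have := Fact.mk hq
    have h3 : 3 ∣ q := h ▸ dvd_pow_self 3 (by omega)
    refine (H68.cov_SU3 ?_).quot (H10.commutator_SU_eq_top le_rfl (by omega))
    exact cast_eq_zero_of_card (hq ▸ h3.pow two_ne_zero) Nat.prime_three
  · have h3 := cast_eq_zero_of_card (F := F) (Nat.not_odd_iff_even.1 h1).two_dvd Nat.prime_two
    have : CharP F 2 := (CharP.charP_iff_prime_eq_zero Nat.prime_two).2 h3
    have := Fintype.one_lt_card (α := F)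
    exact (H68.cov_Sp_two hm).quot (H10.commutator_sp_eq_top (by omega))
  · refine (H68.cov_Sp6 ?_).quot (H10.commutator_sp_eq_top (by omega))
    exact cast_eq_zero_of_card (h ▸ dvd_pow_self 3 (by omega)) Nat.prime_three
  · exact H68.cov_G2 (cast_eq_zero_of_card (h ▸ dvd_pow_self 2 (by omega)) Nat.prime_two)

end Cfsg.Agent.S2500
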