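import Cfsg.Statements.S2531

set_option autoImplicit false
open Cfsg

namespace Cfsg.Agent.S2531

open Projectivization in
theorem rep_mk_mem {F V : Type*} [Field F] [AddCommGroup V] [Module F V] (W : Submodule F V) (v : V)
    (hv : v ≠ 0) : (Projectivization.mk F v hv).rep ∈ W ↔ v ∈ W := by
  obtain ⟨a, ha⟩ := Projectivization.exists_smul_eq_mk_rep F v hv
  rw [← ha, Units.smul_def]
  exact W.smul_mem_iff a.ne_zero

open Projectivization in
theorem card_pts {F V : Type*} [Field F] [Finite F] [AddCommGroup V] [Module F V] [Finite V]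
    (W : Submodule F V) (hW : W ≠ ⊥) :
    ((Nat.card {p : Projectivization F V // p.rep ∈ W} : ℕ) : ZMod (Nat.card F)) = 1 := by
  have e : Nat.card (Projectivization F W) = Nat.card {p : Projectivization F V // p.rep ∈ W} := by
    refine Nat.card_congr (Equiv.ofBijective
      (fun p => ⟨Projectivization.map W.subtype W.injective_subtype p, ?_⟩) ⟨?_, ?_⟩)
    · induction p with
      | h v hv => rw [map_mk, rep_mk_mem]; exact v.2
    · intro p q h
      exact Projectivization.map_injective W.subtype W.injective_subtype (congrArg Subtype.val h)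
    · rintro ⟨p, hp⟩
      refine ⟨Projectivization.mk F ⟨p.rep, hp⟩ (fun h => p.rep_nonzero (congrArg Subtype.val h)), ?_⟩
      apply Subtype.ext
      simp only [map_mk]
      exact p.mk_rep
  rw [← e]
  have h1 := Projectivization.card' F W
  have h2 : Nat.card W = Nat.card F ^ Module.finrank F W := Module.natCard_eq_pow_finrank
  have h3 : Module.finrank F W ≠ 0 := by
    rw [Ne, Submodule.finrank_eq_zero]; exact hW
  have h4 : ((Nat.card W : ℕ) : ZMod (Nat.card F)) = 0 := by
    rw [h2, Nat.cast_pow, ZMod.natCast_self, zero_pow h3]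
  rw [h1, Nat.cast_add, Nat.cast_mul, Nat.cast_sub (Nat.card_pos), ZMod.natCast_self] at h4
  simp only [Nat.cast_one] at h4
  linear_combination -h4


/-- Let `F` be a finite field and `n ≥ 3`. No set of permutations of the points of the projective space of `Fⁿ`, each induced by an invertible semilinear transformation of `Fⁿ` (so a subset of the full projective semilinear group), is sharply 2-transitive on the points: it is impossible that for all pairs of distinct points `(a, b)` and `(c, d)` exactly one member of the set sends `a` to `c` and `b` to `d`. -/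
theorem result {F : Type*} [Field F] [Finite F]
    (n : ℕ) (hn : 3 ≤ n) (S : Set (Equiv.Perm (Projectivization F (Fin n → F))))
    (hS : ∀ s ∈ S, ∃ (σ : F ≃+* F) (f : (Fin n → F) →ₛₗ[(σ : F →+* F)] (Fin n → F)) (hf : Function.Injective f),
      ∀ x, s x = Projectivization.map f hf x) :
    ¬ (∀ a b c d : Projectivization F (Fin n → F), a ≠ b → c ≠ d →
        ∃! s, s ∈ S ∧ s a = c ∧ s b = d) := by
  classical
  intro h
  letI : Fintype F := Fintype.ofFinite F
  letI : Fintype (Projectivization F (Fin n → F)) := Fintype.ofFinite _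
  obtain ⟨m, rfl⟩ : ∃ m, n = m + 3 := ⟨n - 3, by omega⟩
  set W : Submodule F (Fin (m + 3) → F) := LinearMap.ker (LinearMap.proj (R := F) (φ := fun _ => F) 0)
  have memW : ∀ v, v ∈ W ↔ v 0 = 0 := fun v => Iff.rfl
  have e0 : (Pi.single 0 1 : Fin (m + 3) → F) ≠ 0 := fun h => by simpa using congrFun h 0
  have e1 : (Pi.single 1 1 : Fin (m + 3) → F) ≠ 0 := fun h => by simpa using congrFun h 1
  set α := Projectivization.mk F _ e0
  have hα : α.rep ∉ W := by rw [rep_mk_mem, memW]; simp
  set B : Finset (Projectivization F (Fin (m + 3) → F)) := Finset.univ.filter (fun p => p.rep ∈ W)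
  set T : Finset (Equiv.Perm (Projectivization F (Fin (m + 3) → F))) :=
    Finset.univ.filter (fun s => s ∈ S ∧ s α = α)
  have cnt : ∀ x, x ≠ α → ∀ C : Finset (Projectivization F (Fin (m + 3) → F)), α ∉ C →
      (T.filter (fun s => s x ∈ C)).card = C.card := by
    intro x hx C hC
    refine Finset.card_bij (fun s _ => s x) (fun s hs => (Finset.mem_filter.1 hs).2) ?_ ?_
    · intro s hs t ht hst
      have hs' := (Finset.mem_filter.1 (Finset.mem_filter.1 hs).1).2
      have ht' := (Finset.mem_filter.1 (Finset.mem_filter.1 ht).1).2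
      have hne : α ≠ s x := fun h' => hC (h' ▸ (Finset.mem_filter.1 hs).2)
      exact (h α x α (s x) hx.symm hne).unique ⟨hs'.1, hs'.2, rfl⟩ ⟨ht'.1, ht'.2, hst.symm⟩
    · intro y hy
      have hne : α ≠ y := fun h' => hC (h' ▸ hy)
      obtain ⟨s, ⟨h1, h2, h3⟩, -⟩ := h α x α y hx.symm hne
      exact ⟨s, Finset.mem_filter.2 ⟨Finset.mem_filter.2 ⟨Finset.mem_univ _, h1, h2⟩, h3 ▸ hy⟩, h3⟩
  have hαB : α ∉ B := fun h' => hα (Finset.mem_filter.1 h').2
  have pts : ∀ U : Submodule F (Fin (m + 3) → F), U ≠ ⊥ →
      (((Finset.univ.filter (fun p : Projectivization F (Fin (m + 3) → F) => p.rep ∈ U)).card : ℕ) :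
        ZMod (Nat.card F)) = 1 := by
    intro U hU
    rw [← card_pts U hU, Nat.card_eq_fintype_card (α := {p // _}), Fintype.card_subtype]
  have hW : W ≠ ⊥ := fun h' => e1 ((Submodule.eq_bot_iff _).1 h' _ (by rw [memW]; simp))
  have hB := pts W hW
  have hT : ((T.card : ℕ) : ZMod (Nat.card F)) = 0 := by
    have hx : Projectivization.mk F _ e1 ≠ α := fun h' => hα (by
      rw [← h', rep_mk_mem, memW]; simp)
    have := cnt _ hx (Finset.univ.erase α) (by simp)
    rw [Finset.filter_true_of_mem] at this
    · have h2 := pts ⊤ top_ne_bot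
      rw [Finset.filter_true_of_mem (fun _ _ => Submodule.mem_top)] at h2
      rw [this, Finset.card_erase_of_mem (Finset.mem_univ _), Nat.cast_sub (Finset.card_pos.2 ⟨α, by simp⟩), h2]
      simp
    · intro s hs
      have hs' := (Finset.mem_filter.1 hs).2
      rw [Finset.mem_erase]
      exact ⟨fun h' => hx (s.injective (h'.trans hs'.2.symm)), Finset.mem_univ _⟩
  have each : ∀ s ∈ T, (((B.filter (fun x => s x ∈ B)).card : ℕ) : ZMod (Nat.card F)) = 1 := by
    intro s hs
    obtain ⟨σ, f, hf, hsf⟩ := hS s (Finset.mem_filter.1 hs).2.1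
    have hne : W ⊓ W.comap f ≠ ⊥ := by
      obtain ⟨v, v', hvv, he⟩ := Fintype.exists_ne_map_eq_of_card_lt
        (fun v : Fin (m + 3) → F => ((v 0, f v 0) : F × F)) (by
          rw [Fintype.card_prod, Fintype.card_fun, Fintype.card_fin, ← sq]
          exact Nat.pow_lt_pow_right Fintype.one_lt_card (by omega))
      intro hb
      apply hvv
      rw [← sub_eq_zero]
      refine (Submodule.eq_bot_iff _).1 hb _ ⟨?_, ?_⟩
      · show (v - v') 0 = 0
        have := congrArg Prod.fst he
        simp only at this
        simp [this]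
      · show f (v - v') 0 = 0
        have := congrArg Prod.snd he
        simp only at this
        simp [map_sub, this]
    rw [← pts _ hne]
    congr 2
    ext p
    simp only [B, Finset.mem_filter, Finset.mem_univ, true_and, Submodule.mem_inf, Submodule.mem_comap]
    rw [hsf]
    refine and_congr Iff.rfl ?_
    conv_lhs => rw [← p.mk_rep, Projectivization.map_mk, rep_mk_mem]
  have dc : ∑ s ∈ T, (B.filter (fun x => s x ∈ B)).card = ∑ x ∈ B, (T.filter (fun s => s x ∈ B)).card := by
    simp only [Finset.card_filter]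
    exact Finset.sum_comm
  rw [Finset.sum_congr rfl (fun x hx => cnt x (fun h' => hαB (h' ▸ hx)) B hαB)] at dc
  have := congrArg (Nat.cast : ℕ → ZMod (Nat.card F)) dc
  rw [Nat.cast_sum, Finset.sum_congr rfl each, Finset.sum_const, Finset.sum_const, nsmul_eq_mul, smul_eq_mul,
    Nat.cast_mul, hT, hB] at this
  haveI hfact : Fact (1 < Nat.card F) := ⟨Finite.one_lt_card⟩
  rw [zero_mul, one_mul] at this
  exact zero_ne_one this

end Cfsg.Agent.S2531
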