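import Cfsg.Statements.S2532

set_option autoImplicit false
open Cfsg

namespace Cfsg.Agent.S2532

open Equiv MulAction in
theorem exists_emb {H α : Type*} [Group H] [Finite H] [Finite α] [MulAction H α] (r : ℕ)
    (h : 2 ^ Nat.card H * r * Nat.card H ≤ Nat.card α) : ∃ (L : Subgroup H)
      (j : Fin r × (H ⧸ L) ↪ α), ∀ (g : H) i c, j (i, g • c) = g • j (i, c) := by
  classical
  have := Fintype.ofFinite (orbitRel.Quotient H α)
  have : Finite (Subgroup H) := Finite.of_injective _ SetLike.coe_injective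
  have := Fintype.ofFinite (Subgroup H)
  have h1 : Nat.card α ≤ Nat.card (orbitRel.Quotient H α × H) :=
    Nat.card_le_card_of_surjective (fun x => x.2 • x.1.out) fun y => by
      obtain ⟨g, hg⟩ := (Quotient.mk_out (s := orbitRel H α) y)
      exact ⟨(Quotient.mk _ y, g⁻¹), inv_smul_eq_iff.2 hg.symm⟩
  have h2 : Nat.card (Subgroup H) ≤ 2 ^ Nat.card H := by
    have := Fintype.ofFinite H
    simpa using Nat.card_le_card_of_injective _ (SetLike.coe_injective (A := Subgroup H))
  rw [Nat.card_prod] at h1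
  have h3 := (Nat.mul_le_mul_right r h2).trans
    (Nat.le_of_mul_le_mul_right (h.trans h1) Nat.card_pos)
  rw [Nat.card_eq_fintype_card, Nat.card_eq_fintype_card] at h3
  obtain ⟨L, hL⟩ := Fintype.exists_le_card_fiber_of_mul_le_card
    (fun q : orbitRel.Quotient H α => stabilizer H q.out) h3
  obtain ⟨e, he⟩ := Function.Embedding.exists_of_card_le_finset ((Fintype.card_fin r).trans_le hL)
  have hs : ∀ i, stabilizer H (e i).out = L := fun i => by simpa using he ⟨i, rfl⟩
  have key : ∀ i (a b : H), a • (e i).out = b • (e i).out ↔ (a : H ⧸ L) = b := fun i a b => by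
    rw [QuotientGroup.eq, ← hs i, mem_stabilizer_iff, mul_smul, inv_smul_eq_iff, eq_comm]
  refine ⟨L, ⟨fun x => x.2.out • (e x.1).out, fun ⟨i, c⟩ ⟨j, d⟩ hx => ?_⟩, fun g i c => ?_⟩
  · obtain rfl : i = j := e.injective (Quotient.out_equiv_out.1
      ⟨c.out⁻¹ * d.out, (mul_smul _ _ _).trans (inv_smul_eq_iff.2 hx.symm)⟩)
    simpa using (key i _ _).1 hx
  · exact ((key i _ _).2 (by
      rw [QuotientGroup.out_eq', ← smul_eq_mul, ← Quotient.smul_coe, QuotientGroup.out_eq'])).trans
      (mul_smul _ _ _)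

open Equiv

/-- There is a function `f` of two natural-number arguments such that, whenever `m ≥ f(n, r)`, every subgroup of order `n` of the alternating group of degree `m` centralizes some subgroup of that alternating group isomorphic to the alternating group of degree `r`. -/
theorem result :
    ∃ f : ℕ → ℕ → ℕ, ∀ (m r : ℕ) (H : Subgroup ↥(alternatingGroup (Fin m))), f (Nat.card H) r ≤ m →
      ∃ K : Subgroup ↥(alternatingGroup (Fin m)), Nonempty (↥K ≃* ↥(alternatingGroup (Fin r))) ∧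
        K ≤ Subgroup.centralizer (H : Set ↥(alternatingGroup (Fin m))) := by
  refine ⟨fun n r => 2 ^ n * r * n, fun m r H hm => ?_⟩
  obtain ⟨L, j, hj⟩ := exists_emb (H := H) (α := Fin m) r (by simpa using hm)
  classical
  have := Fintype.ofFinite (H ⧸ L)
  let ψ : Perm (Fin r) →* Perm (Fin r × (H ⧸ L)) :=
    MonoidHom.mk' (fun σ => prodCongrLeft fun _ => σ) fun _ _ => rfl
  let φ := ((Perm.viaEmbeddingHom j).comp (ψ.comp (alternatingGroup _).subtype)).codRestrict
    (alternatingGroup (Fin m)) fun σ => by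
      have := Perm.mem_alternatingGroup.1 σ.2
      have h : Perm.sign (ψ σ) = 1 := 
        (Perm.sign_prodCongrLeft fun _ : H ⧸ L => σ.1).trans (Finset.prod_eq_one fun _ _ => this)
      simpa [Perm.viaEmbeddingHom_apply, Perm.viaEmbedding, Perm.sign_extendDomain] using h
  have h1 : ∀ σ i c, (φ σ).1 (j (i, c)) = j (σ.1 i, c) := fun σ i c =>
    Perm.viaEmbedding_apply _ _ _
  have hφ : Function.Injective φ := fun a b h => Subtype.ext (Perm.ext fun i =>
    congrArg Prod.fst (j.injective ((h1 a i (1 : H)).symm.trans (h ▸ h1 b i (1 : H)))))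
  refine ⟨φ.range, ⟨(MonoidHom.ofInjective hφ).symm⟩, ?_⟩
  rintro _ ⟨σ, rfl⟩ g hg
  refine Subtype.ext (Perm.ext fun y => ?_)
  change (⟨g, hg⟩ : H) • (φ σ).1 y = (φ σ).1 ((⟨g, hg⟩ : H) • y)
  by_cases hy : y ∈ Set.range j
  · obtain ⟨⟨i, c⟩, rfl⟩ := hy
    rw [← hj, h1, h1, hj]
  · have h2 : ∀ y ∉ Set.range j, (φ σ).1 y = y := Perm.viaEmbedding_apply_of_notMem _ _
    rw [h2 y hy, h2]
    rintro ⟨⟨i, c⟩, h⟩
    exact hy ⟨(i, _), by rw [hj, h, inv_smul_smul]⟩

end Cfsg.Agent.S2532
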