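import Cfsg.Statements.S2533
import Cfsg.Agent.H9.Transport

set_option autoImplicit false
open Cfsg

namespace Cfsg.Agent.S2533

open Matrix

/-- generalized dihedral group over `K³` -/
@[ext] structure GD (K : Type) where
  /-- translation part -/
  v : Fin 3 → K
  /-- sign -/
  s : ℤˣ

variable {K : Type} [Field K]

theorem ss (s : ℤˣ) : ((s : ℤ) : K) * ((s : ℤ) : K) = 1 := by
  rcases Int.units_eq_one_or s with rfl | rfl <;> simp

instance : Mul (GD K) := ⟨fun a b => ⟨b.v + ((b.s : ℤ) : K) • a.v, a.s * b.s⟩⟩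
instance : One (GD K) := ⟨⟨0, 1⟩⟩
instance : Inv (GD K) := ⟨fun a => ⟨-(((a.s : ℤ) : K) • a.v), a.s⟩⟩

theorem mul_v (a b : GD K) : (a * b).v = b.v + ((b.s : ℤ) : K) • a.v := rfl
theorem mul_s (a b : GD K) : (a * b).s = a.s * b.s := rfl
theorem one_v : (1 : GD K).v = 0 := rfl
theorem one_s : (1 : GD K).s = 1 := rfl
theorem inv_v (a : GD K) : (a⁻¹).v = -(((a.s : ℤ) : K) • a.v) := rfl
theorem inv_s (a : GD K) : (a⁻¹).s = a.s := rfl

instance : Group (GD K) := Group.ofLeftAxioms
  (fun a b c => GD.ext (by simp [mul_v, mul_s, smul_smul, add_assoc, mul_comm]) (by simp [mul_s, mul_assoc]))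
  (fun a => GD.ext (by simp [mul_v, one_v]) (by simp [mul_s, one_s]))
  (fun a => GD.ext (by simp [mul_v, inv_v, one_v, smul_smul, ss]) (by simp [mul_s, inv_s, one_s]))

/-- as a product -/
def eqv : GD K ≃ (Fin 3 → K) × ℤˣ := ⟨fun a => (a.v, a.s), fun b => ⟨b.1, b.2⟩, fun _ => rfl, fun _ => rfl⟩

/-- the Kronecker-type block -/
def N (k : ℕ) (v : Fin 3 → K) : Matrix (Fin (2 * k + 2 + 1)) (Fin (2 * k + 2)) K :=
  Matrix.of fun i j => (if i = j.castSucc then v 0 else 0) + (if i = j.succ then v 1 else 0) +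
    (if i.val = 0 ∧ j.val = 1 then v 2 else 0)

theorem N_add (k : ℕ) (v w : Fin 3 → K) (c : K) : N k (v + c • w) = N k v + c • N k w := by
  ext i j
  simp only [N, Matrix.of_apply, Matrix.add_apply, Matrix.smul_apply, Pi.add_apply, Pi.smul_apply, smul_eq_mul]
  split_ifs <;> ring

theorem N_zero (k : ℕ) : N k (0 : Fin 3 → K) = 0 := by ext i j; simp [N]

/-- index type -/
abbrev I (k : ℕ) := Fin (2 * k + 2 + 1) ⊕ Fin (2 * k + 2)

/-- the representation -/
def rho (k : ℕ) : GD K →* SpecialLinearGroup (I k) K where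
  toFun a := ⟨fromBlocks 1 (N k a.v) 0 (((a.s : ℤ) : K) • 1), by
    rw [det_fromBlocks_zero₂₁, det_one, one_mul, det_smul, det_one, mul_one, Fintype.card_fin,
      show 2 * k + 2 = 2 * (k + 1) by ring, pow_mul, sq, ss, one_pow]⟩
  map_one' := Subtype.ext (by simp [one_v, one_s, N_zero])
  map_mul' a b := Subtype.ext (by
    show _ = fromBlocks _ _ _ _ * fromBlocks _ _ _ _
    rw [fromBlocks_multiply]
    simp [mul_v, mul_s, N_add, smul_smul, mul_comm])

theorem rho_val (k : ℕ) (a : GD K) : (rho k a : Matrix (I k) (I k) K) =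
    fromBlocks 1 (N k a.v) 0 (((a.s : ℤ) : K) • 1) := rfl

theorem toeplitz {m : ℕ} (P : Matrix (Fin (m + 1)) (Fin (m + 1)) K)
    (h : ∀ i j : Fin m, P i.succ j.succ = P i.castSucc j.castSucc)
    (h0 : ∀ j : Fin m, P 0 j.succ = 0) (hl : ∀ j : Fin m, P (Fin.last m) j.castSucc = 0) (i j : Fin (m + 1)) :
    P i j = if i = j then P 0 0 else 0 := by
  have up : ∀ (n : ℕ) (i j : Fin (m + 1)), i.val = n → i < j → P i j = 0 := by
    intro n
    induction n with
    | zero =>
      intro i j hi hij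
      obtain rfl : i = 0 := Fin.ext hi
      obtain ⟨j, rfl⟩ := Fin.exists_succ_eq.2 hij.ne'
      exact h0 j
    | succ n ih =>
      intro i j hi hij
      obtain ⟨i, rfl⟩ := Fin.exists_succ_eq.2 (show i ≠ 0 by rintro rfl; simp at hi)
      obtain ⟨j, rfl⟩ := Fin.exists_succ_eq.2 (show j ≠ 0 by rintro rfl; simp at hij)
      rw [h]
      exact ih _ _ (by simpa using hi) (by simpa using hij)
  have dn : ∀ (n : ℕ) (i j : Fin (m + 1)), m - i.val = n → j < i → P i j = 0 := by
    intro n
    induction n with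
    | zero =>
      intro i j hi hij
      obtain rfl : i = Fin.last m := Fin.ext (by have := i.isLt; simp; omega)
      obtain ⟨j, rfl⟩ := Fin.exists_castSucc_eq.2 hij.ne
      exact hl j
    | succ n ih =>
      intro i j hi hij
      obtain ⟨i, rfl⟩ := Fin.exists_castSucc_eq.2 (show i ≠ Fin.last m by rintro rfl; simp at hi)
      obtain ⟨j, rfl⟩ := Fin.exists_castSucc_eq.2 (show j ≠ Fin.last m from (hij.trans_le (Fin.le_last _)).ne)
      rw [← h]
      exact ih _ _ (by simp at hi ⊢; omega) (by simpa using hij)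
  rcases lt_trichotomy i j with hij | rfl | hij
  · rw [if_neg hij.ne, up _ _ _ rfl hij]
  · rw [if_pos rfl]
    induction i using Fin.induction with
    | zero => rfl
    | succ i ih => rw [h, ih]
  · rw [if_neg hij.ne', dn _ _ _ rfl hij]

theorem central_of (h2 : (2 : K) ≠ 0) (k : ℕ) (g : SpecialLinearGroup (I k) K)
    (hg : ∀ a : GD K, ∃ c : K, (g : Matrix (I k) (I k) K) * (rho k a : Matrix (I k) (I k) K) =
      c • ((rho k a : Matrix (I k) (I k) K) * g)) :
    g ∈ Subgroup.center (SpecialLinearGroup (I k) K) := by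
  obtain ⟨c, hc⟩ := hg ⟨0, -1⟩
  have i1 : (g⁻¹ : SpecialLinearGroup (I k) K).1 * g.1 = 1 := congrArg Subtype.val (inv_mul_cancel g)
  have i2 : g.1 * (g⁻¹ : SpecialLinearGroup (I k) K).1 = 1 := congrArg Subtype.val (mul_inv_cancel g)
  have hc1 : c = 1 := by
    have e : (rho k (⟨0, -1⟩ : GD K) : Matrix (I k) (I k) K) =
        (g⁻¹ : SpecialLinearGroup (I k) K).1 * (c • ((rho k (⟨0, -1⟩ : GD K) : Matrix (I k) (I k) K) * g)) := by
      rw [← hc, ← mul_assoc, i1, one_mul]
    have := congrArg trace e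
    rw [Matrix.mul_smul, trace_smul, trace_mul_comm, mul_assoc, i2, mul_one, rho_val] at this
    simp [trace, Fintype.sum_sum_type] at this
    linear_combination -this
  obtain ⟨P, Q, R, S, hb⟩ : ∃ P Q R S, (g : Matrix (I k) (I k) K) = fromBlocks P Q R S :=
    ⟨_, _, _, _, (fromBlocks_toBlocks _).symm⟩
  rw [hc1, one_smul, hb, rho_val, fromBlocks_multiply, fromBlocks_multiply, fromBlocks_inj] at hc
  simp only [N_zero, Units.val_neg, Units.val_one, Int.cast_neg, Int.cast_one, Matrix.mul_one, Matrix.mul_zero,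
    add_zero, zero_add, neg_smul, one_smul, Matrix.mul_neg, Matrix.one_mul, Matrix.zero_mul, Matrix.neg_mul] at hc
  have hQ : Q = 0 := by
    have : (2 : K) • Q = 0 := by rw [two_smul]; nth_rewrite 1 [← hc.2.1]; simp
    exact (smul_eq_zero.1 this).resolve_left h2
  have hR : R = 0 := by
    have : (2 : K) • R = 0 := by rw [two_smul]; nth_rewrite 1 [hc.2.2.1]; simp
    exact (smul_eq_zero.1 this).resolve_left h2
  subst hQ hR
  have hP : P ≠ 0 := by
    rintro rfl
    have := g.det_coe
    rw [hb, det_fromBlocks_zero₂₁, det_zero, zero_mul] at this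
    exact zero_ne_one this
  have key : ∀ v : Fin 3 → K, P * N k v = N k v * S := by
    intro v
    obtain ⟨c, hc⟩ := hg ⟨v, 1⟩
    rw [hb, rho_val, fromBlocks_multiply, fromBlocks_multiply, fromBlocks_smul, fromBlocks_inj] at hc
    simp only [Units.val_one, Int.cast_one, Matrix.mul_one, Matrix.mul_zero,
      add_zero, zero_add, one_smul, Matrix.one_mul, Matrix.zero_mul] at hc
    have : c = 1 := by
      have : (c - 1) • P = 0 := by rw [sub_smul, ← hc.1]; simp
      exact sub_eq_zero.1 ((smul_eq_zero.1 this).resolve_right hP)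
    rw [hc.2.1, this, one_smul]
  have k0 : ∀ i j, P i j.castSucc = ∑ l, (if i = l.castSucc then 1 else 0) * S l j := by
    intro i j
    have := congrFun (congrFun (key (Pi.single 0 1)) i) j
    simpa [Matrix.mul_apply, N] using this
  have k1 : ∀ i j, P i j.succ = ∑ l, (if i = l.succ then 1 else 0) * S l j := by
    intro i j
    have := congrFun (congrFun (key (Pi.single 1 1)) i) j
    simpa [Matrix.mul_apply, N] using this
  have hS : ∀ i j, S i j = P i.castSucc j.castSucc := fun i j => by simp [k0]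
  have hT := toeplitz P (fun i j => by simp [k1, ← hS]) (fun j => by simp [k1, (Fin.succ_ne_zero _).symm])
    (fun j => by simp [k0, (Fin.castSucc_lt_last _).ne'])
  have e : (g : Matrix (I k) (I k) K) = P 0 0 • 1 := by
    rw [hb]
    ext (i | i) (j | j)
    · simp [hT i j, Matrix.one_apply]
    · simp
    · simp
    · simp [hS, hT i.castSucc, Matrix.one_apply]
  rw [Subgroup.mem_center_iff]
  intro h
  apply Subtype.ext
  simp [e]

theorem inj (h2 : (2 : K) ≠ 0) (k : ℕ) (a : GD K)
    (h : rho k a ∈ Subgroup.center (SpecialLinearGroup (I k) K)) : a = 1 := by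
  obtain ⟨r, -, hr⟩ := Matrix.SpecialLinearGroup.mem_center_iff.1 h
  rw [rho_val] at hr
  have e0 : r = 1 := by simpa using congrFun (congrFun hr (.inl 0)) (.inl 0)
  have e1 : r = ((a.s : ℤ) : K) := by simpa using congrFun (congrFun hr (.inr 0)) (.inr 0)
  have eN : ∀ i j, 0 = N k a.v i j := fun i j => by simpa using congrFun (congrFun hr (.inl i)) (.inr j)
  have e2 : 0 = a.v 0 := by
    have := eN ⟨0, by omega⟩ ⟨0, by omega⟩
    simp only [N, Matrix.of_apply, Fin.ext_iff, Fin.val_castSucc, Fin.val_succ] at this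
    simpa using this
  have e3 : 0 = a.v 1 := by
    have := eN ⟨1, by omega⟩ ⟨0, by omega⟩
    simp only [N, Matrix.of_apply, Fin.ext_iff, Fin.val_castSucc, Fin.val_succ] at this
    simpa using this
  have e4 : 0 = a.v 2 := by
    have := eN ⟨0, by omega⟩ ⟨1, by omega⟩
    simp only [N, Matrix.of_apply, Fin.ext_iff, Fin.val_castSucc, Fin.val_succ] at this
    simpa using this
  refine GD.ext ?_ ?_
  · ext i
    fin_cases i
    · exact e2.symm
    · exact e3.symm
    · exact e4.symm
  · rcases Int.units_eq_one_or a.s with h | h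
    · exact h
    · rw [h, e0] at e1
      exact absurd (by simp at e1; linear_combination e1) h2


/-- For every odd prime `p` there is a finite group `H` of order `2p³` which, for infinitely many `n`, embeds in the projective special linear group `PSL(n, p)` as a subgroup with trivial centralizer. -/
theorem result
    (p : ℕ) [Fact p.Prime] (hp : p ≠ 2) :
    ∃ (H : Type) (_ : Group H) (_ : Finite H), Nat.card H = 2 * p ^ 3 ∧
      ∀ N : ℕ, ∃ n, N ≤ n ∧ ∃ φ : H →* Matrix.ProjectiveSpecialLinearGroup (Fin n) (ZMod p),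
        Function.Injective φ ∧ Subgroup.centralizer (φ.range : Set (Matrix.ProjectiveSpecialLinearGroup (Fin n) (ZMod p))) = ⊥ := by
  have h2 : (2 : ZMod p) ≠ 0 := by
    intro h
    have := (ZMod.natCast_eq_zero_iff 2 p).1 (by exact_mod_cast h)
    exact hp ((Nat.prime_dvd_prime_iff_eq Fact.out Nat.prime_two).1 this)
  refine ⟨GD (ZMod p), inferInstance, Finite.of_equiv _ eqv.symm, ?_, fun M => ⟨Fintype.card (I M), ?_, ?_⟩⟩
  · rw [Nat.card_congr eqv]; simp [mul_comm]
  · simp; omega
  set e := H9.centerQuotEquiv (H9.slReindexEquiv (R := ZMod p) (Fintype.equivFin (I M)))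
  refine ⟨e.toMonoidHom.comp ((QuotientGroup.mk' _).comp (rho M)), ?_, ?_⟩
  · rw [injective_iff_map_eq_one]
    intro a ha
    exact inj h2 M a ((QuotientGroup.eq_one_iff _).1 ((map_eq_one_iff e e.injective).1 ha))
  · rw [Subgroup.eq_bot_iff_forall]
    intro x hx
    obtain ⟨x, rfl⟩ := e.surjective x
    obtain ⟨g, rfl⟩ := QuotientGroup.mk_surjective x
    rw [map_eq_one_iff e e.injective, QuotientGroup.eq_one_iff]
    refine central_of h2 M g fun a => ?_
    have := (hx _ ⟨a, rfl⟩).symm
    simp only [MulEquiv.toMonoidHom_eq_coe, MonoidHom.coe_comp, MonoidHom.coe_coe, Function.comp_apply,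
      QuotientGroup.mk'_apply, ← map_mul, EmbeddingLike.apply_eq_iff_eq] at this
    rw [← mul_inv_eq_one, ← QuotientGroup.mk_mul, ← QuotientGroup.mk_mul, ← QuotientGroup.mk_inv,
      ← QuotientGroup.mk_mul, QuotientGroup.eq_one_iff] at this
    obtain ⟨r, -, hr⟩ := Matrix.SpecialLinearGroup.mem_center_iff.1 this
    refine ⟨r, ?_⟩
    have e2 : g * rho M a = g * rho M a * (rho M a * g)⁻¹ * (rho M a * g) := by group
    have e3 : (g * rho M a).1 = (g * rho M a * (rho M a * g)⁻¹).1 * (rho M a * g).1 := congrArg Subtype.val e2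
    rw [← hr, scalar_apply, ← smul_eq_diagonal_mul] at e3
    exact e3

end Cfsg.Agent.S2533
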