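import Cfsg.Statements.S2534
import Cfsg.Agent.H62.HallSym4

set_option autoImplicit false
open Cfsg

namespace Cfsg.Agent.S2534

/-- For `n ≥ 5` and a set of primes `π`, the alternating group of degree `n` satisfies the full Sylow analogue for `π` (its maximal `π`-subgroups are pairwise conjugate; for a finite group this says Hall `π`-subgroups exist, are all conjugate, and contain every `π`-subgroup up to conjugacy) if and only if either at most one prime of `π` divides its order or every prime dividing its order lies in `π`. -/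
theorem result (n : ℕ) (hn : 5 ≤ n) (π : Set ℕ) :
    Cfsg.IsDPiGroup π ↥(alternatingGroup (Fin n)) ↔
      ((∀ r s : ℕ, r.Prime → s.Prime → r ∈ π → s ∈ π → r ∣ Nat.card ↥(alternatingGroup (Fin n)) → s ∣ Nat.card ↥(alternatingGroup (Fin n)) → r = s) ∨
        ∀ r : ℕ, r.Prime → r ∣ Nat.card ↥(alternatingGroup (Fin n)) → r ∈ π) := by
  have hd : ∀ r : ℕ, r.Prime → (r ∣ Nat.card ↥(alternatingGroup (Fin n)) ↔ r ≤ n) := by
    intro r hr
    haveI : Nontrivial (Fin n) := Fin.nontrivial_iff_two_le.2 (by omega)
    have h1 : 2 * Nat.card ↥(alternatingGroup (Fin n)) = n.factorial := by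
      rw [two_mul_nat_card_alternatingGroup, Nat.card_eq_fintype_card, Fintype.card_perm, Fintype.card_fin]
    rw [← hr.dvd_factorial, ← h1]
    refine ⟨fun h => h.mul_left _, fun h => ?_⟩
    by_cases h2 : r = 2
    · subst h2
      have h3 : 2 * 2 ∣ n.factorial := (show 2 * 2 ∣ (4 : ℕ).factorial by decide).trans (Nat.factorial_dvd_factorial (by omega))
      rw [← h1] at h3
      exact Nat.dvd_of_mul_dvd_mul_left (by norm_num) h3
    · exact ((Nat.coprime_primes hr Nat.prime_two).2 h2).dvd_of_dvd_mul_left h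
  constructor
  · intro hD
    by_contra hc
    push Not at hc
    obtain ⟨⟨r, s, hr, hs, h1, h2, h3, h4, h5⟩, q, hq, h6, h7⟩ := hc
    exact H62.HallSym.not_D ⟨⟨r, s, hr, hs, h5, h1, h2, (hd r hr).1 h3, (hd s hs).1 h4⟩, q, hq, (hd q hq).1 h6, h7⟩ hD
  · rintro (h | h)
    · obtain ⟨p, hp, h1⟩ := H62.HallSym.exists_single Nat.card_pos.ne' h
      exact h1.D hp
    · exact H62.HallSym.all_D h

end Cfsg.Agent.S2534
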