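import Cfsg.Statements.S2535
import Cfsg.Agent.H62.HallSym4

set_option autoImplicit false
open Cfsg

namespace Cfsg.Agent.S2535

/-- For every `n` and every set of primes `π`, the following are equivalent for the symmetric group `S` of degree `n` and its alternating subgroup `A`: `S` has a Hall `π`-subgroup; `S` has a Hall `π`-subgroup and all of them are conjugate; `A` has a Hall `π`-subgroup; `A` has a Hall `π`-subgroup and all of them are conjugate. -/
theorem result (n : ℕ) (π : Set ℕ) :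
    (Cfsg.IsEPiGroup π (Equiv.Perm (Fin n)) ↔ Cfsg.IsCPiGroup π (Equiv.Perm (Fin n))) ∧
    (Cfsg.IsEPiGroup π (Equiv.Perm (Fin n)) ↔ Cfsg.IsEPiGroup π ↥(alternatingGroup (Fin n))) ∧
    (Cfsg.IsEPiGroup π ↥(alternatingGroup (Fin n)) ↔ Cfsg.IsCPiGroup π ↥(alternatingGroup (Fin n))) := by
  refine ⟨⟨H62.HallSym.sym_C, fun h => h.1⟩, ⟨?_, ?_⟩, H62.HallSym.alt_C, fun h => h.1⟩
  · rintro ⟨H, hH⟩
    exact ⟨_, H62.HallSym.hall_normal hH _⟩
  · rintro ⟨H, hH⟩
    obtain ⟨M, hM, -⟩ := H62.HallSym.alt_hall hH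
    exact ⟨M, hM⟩

end Cfsg.Agent.S2535
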