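import Cfsg.Statements.S2536
import Cfsg.Agent.H62.HallSym4

set_option autoImplicit false
open Cfsg

namespace Cfsg.Agent.S2536

/-- Let `π` be a set of primes and `n` a natural number such that at least two primes of `π` divide `n!` but not every prime dividing `n!` lies in `π`. Then the symmetric group of degree `n` has a Hall `π`-subgroup if and only if either `n` is prime and the primes of `π` dividing `n!` are exactly the primes smaller than `n` (a point stabilizer is then such a subgroup), or `n ∈ {7, 8}` and the primes of `π` dividing `n!` are exactly 2 and 3. -/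
theorem result (n : ℕ) (π : Set ℕ)
    (h2 : ∃ r s : ℕ, r.Prime ∧ s.Prime ∧ r ≠ s ∧ r ∈ π ∧ s ∈ π ∧ r ≤ n ∧ s ≤ n)
    (hns : ∃ r : ℕ, r.Prime ∧ r ≤ n ∧ r ∉ π) :
    Cfsg.IsEPiGroup π (Equiv.Perm (Fin n)) ↔
      ((n.Prime ∧ ∀ r : ℕ, r.Prime → r ≤ n → (r ∈ π ↔ r < n)) ∨
       ((n = 7 ∨ n = 8) ∧ ∀ r : ℕ, r.Prime → r ≤ n → (r ∈ π ↔ (r = 2 ∨ r = 3)))) := by
  have hm : H62.HallSym.Mid π (Fintype.card (Fin n)) := by rw [Fintype.card_fin]; exact ⟨h2, hns⟩
  constructor
  · rintro ⟨H, hH⟩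
    obtain ⟨-, Γ, c1, -⟩ := hm.sym hH
    rw [Fintype.card_fin] at c1
    rcases c1 with ⟨a, -, b⟩ | ⟨a, -, b⟩
    · exact Or.inl ⟨a, b⟩
    · exact Or.inr ⟨a, b⟩
  · rintro (⟨a, b⟩ | ⟨a, b⟩)
    · obtain ⟨r, s, hr, hs, hne, h1, h3, h4, h5⟩ := h2
      have h6 := (b r hr h4).1 h1
      have h7 := (b s hs h5).1 h3
      have h8 := hr.two_le
      have h9 := hs.two_le
      have h10 : n ≠ 4 := by rintro rfl; exact absurd a (by norm_num)
      obtain ⟨Γ, -, hΓ⟩ := Finset.exists_subset_card_eq (s := (Finset.univ : Finset (Fin n))) (n := n - 1) (by simp)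
      exact ⟨_, H62.HallSym.hall_T (Γ := Γ) (by rw [Fintype.card_fin]; omega)
        (by rw [Fintype.card_fin]; exact Or.inl ⟨a, by omega, b⟩)⟩
    · obtain ⟨Γ, -, hΓ⟩ := Finset.exists_subset_card_eq (s := (Finset.univ : Finset (Fin n))) (n := 4) (by simp; omega)
      exact ⟨_, H62.HallSym.hall_T (Γ := Γ) (by rw [Fintype.card_fin]; omega)
        (by rw [Fintype.card_fin]; exact Or.inr ⟨a, hΓ, b⟩)⟩

end Cfsg.Agent.S2536
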