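import Cfsg.Statements.S2541
import Mathlib

set_option autoImplicit false
open Cfsg

namespace Cfsg.Agent.S2541

theorem order_dvd (σ : Equiv.Perm (Fin 6)) : orderOf σ ∣ 60 := by
  rw [← Equiv.Perm.lcm_cycleType, Multiset.lcm_dvd]
  intro b hb
  have h1 := Equiv.Perm.two_le_of_mem_cycleType hb
  have h2 : b ≤ 6 := by
    have h3 := Multiset.le_sum_of_mem hb
    have h4 := Equiv.Perm.sum_cycleType_le σ
    simp at h4
    omega
  interval_cases b <;> norm_num


/-- Let F be a field with 9 elements. The symmetric group S_6 is not isomorphic to PGL_2(F) (although both have index-2 subgroups isomorphic to A_6). -/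
theorem result {F : Type*} [Field F] [Fintype F] (hF : Fintype.card F = 9) : ¬ Nonempty (Equiv.Perm (Fin 6) ≃* Matrix.ProjGenLinGroup (Fin 2) F) := by
  classical
  rintro ⟨e⟩
  obtain ⟨g, hg⟩ := IsCyclic.exists_ofOrder_eq_natCard (α := Fˣ)
  rw [Nat.card_units, Nat.card_eq_fintype_card, hF] at hg
  let d : GL (Fin 2) F := Matrix.GeneralLinearGroup.mkOfDetNeZero (Matrix.diagonal ![(g : F), 1])
    (by simp [Matrix.det_diagonal])
  have h1 : (Matrix.ProjGenLinGroup.mk d) ^ 60 = 1 := by
    have := order_dvd (e.symm (Matrix.ProjGenLinGroup.mk d))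
    rw [MulEquiv.orderOf_eq, orderOf_dvd_iff_pow_eq_one] at this
    exact this
  rw [← map_pow, Matrix.ProjGenLinGroup.mk_eq_one,
    Matrix.GeneralLinearGroup.mem_center_iff_val_mem_range_scalar] at h1
  obtain ⟨r, hr⟩ := h1
  have h2 : ((d ^ 60 : GL (Fin 2) F) : Matrix (Fin 2) (Fin 2) F) = Matrix.diagonal ![(g : F) ^ 60, 1] := by
    rw [Units.val_pow_eq_pow_val]
    change (Matrix.diagonal ![(g : F), 1]) ^ 60 = _
    rw [Matrix.diagonal_pow]
    congr 1
    funext i
    fin_cases i <;> simp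
  rw [h2] at hr
  have h3 := congrFun (congrFun hr 0) 0
  have h4 := congrFun (congrFun hr 1) 1
  simp at h3 h4
  have h5 : g ^ 60 = 1 := by
    ext
    simp [← h3, h4]
  rw [← orderOf_dvd_iff_pow_eq_one, hg] at h5
  omega

end Cfsg.Agent.S2541
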