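import Cfsg.Statements.S2542
import Cfsg.Agent.H56.L211A5

set_option autoImplicit false
open Cfsg

namespace Cfsg.Agent.S2542

open H56 MulAction

theorem two_trans {G α : Type*} [Group G] [MulAction G α] (a : α)
    (h : ∀ x y z w : G, x • a ≠ y • a → z • a ≠ w • a → ∃ g : G, g • x • a = z • a ∧ g • y • a = w • a) :
    IsMultiplyPretransitive G (G ⧸ stabilizer G a) 2 := by
  have key : ∀ x y : G, (x : G ⧸ stabilizer G a) = y ↔ x • a = y • a := fun x y => by
    rw [QuotientGroup.eq, mem_stabilizer_iff, mul_smul, inv_smul_eq_iff, eq_comm]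
  refine is_two_pretransitive_iff.2 ?_
  rintro ⟨a⟩ ⟨b⟩ ⟨c⟩ ⟨d⟩ hab hcd
  obtain ⟨g, h8, h9⟩ := h a b c d (fun h => hab ((key _ _).2 h)) fun h => hcd ((key _ _).2 h)
  exact ⟨g, (key (g * a) c).2 (by rw [mul_smul, h8]), (key (g * b) d).2 (by rw [mul_smul, h9])⟩

/-- Let F be a field with 11 elements. PSL_2(F) has a subgroup H of index 11 isomorphic to the alternating group A_5, and the action of PSL_2(F) on the cosets of H is 2-transitive (of degree 11). -/
theorem result {F : Type*} [Field F] [Fintype F] (hF : Fintype.card F = 11) : ∃ H : Subgroup (Matrix.ProjectiveSpecialLinearGroup (Fin 2) F), H.index = 11 ∧ Nonempty (H ≃* alternatingGroup (Fin 5)) ∧ MulAction.IsMultiplyPretransitive (Matrix.ProjectiveSpecialLinearGroup (Fin 2) F) ((Matrix.ProjectiveSpecialLinearGroup (Fin 2) F) ⧸ H) 2 := by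
  obtain ⟨i, hc, h1, -, -, h5, h6⟩ := L211A5.exists_action hF
  have h7 := (h1 _).2 ⟨0, rfl⟩
  refine ⟨stabilizer _ (0 : Fin 22), ?_, h7, two_trans _ fun a b c d =>
    h6 _ _ _ _ (h5 a) (h5 b) (h5 c) (h5 d)⟩
  have := (stabilizer (Matrix.ProjectiveSpecialLinearGroup (Fin 2) F) (0 : Fin 22)).card_mul_index
  rw [hc, Nat.card_congr h7.some.toEquiv, Alt.a5_card] at this
  omega

end Cfsg.Agent.S2542
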