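import Cfsg.Statements.S2543
import Cfsg.Agent.H56.L211A5

set_option autoImplicit false
open scoped Pointwise
open Cfsg

namespace Cfsg.Agent.S2543

open H56 MulAction

/-- Let F be a field with 11 elements. PSL_2(F) has exactly 22 subgroups isomorphic to the alternating group A_5, and they form two conjugacy classes: there are two such subgroups that are not conjugate, and every such subgroup is conjugate to one of these two. -/
theorem result {F : Type*} [Field F] [Fintype F] (hF : Fintype.card F = 11) : Nat.card {H : Subgroup (Matrix.ProjectiveSpecialLinearGroup (Fin 2) F) // Nonempty (H ≃* alternatingGroup (Fin 5))} = 22 ∧ ∃ H K : Subgroup (Matrix.ProjectiveSpecialLinearGroup (Fin 2) F), Nonempty (H ≃* alternatingGroup (Fin 5)) ∧ Nonempty (K ≃* alternatingGroup (Fin 5)) ∧ (∀ g : Matrix.ProjectiveSpecialLinearGroup (Fin 2) F, MulAut.conj g • H ≠ K) ∧ ∀ L : Subgroup (Matrix.ProjectiveSpecialLinearGroup (Fin 2) F), Nonempty (L ≃* alternatingGroup (Fin 5)) → ∃ g : Matrix.ProjectiveSpecialLinearGroup (Fin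 2) F, MulAut.conj g • L = H ∨ MulAut.conj g • L = K := by
  obtain ⟨i, -, h1, h3, h4, h5, -⟩ := L211A5.exists_action hF
  have key : ∀ (g : Matrix.ProjectiveSpecialLinearGroup (Fin 2) F) (i : Fin 22),
      MulAut.conj g • stabilizer (Matrix.ProjectiveSpecialLinearGroup (Fin 2) F) i =
        stabilizer _ (g • i) := fun g i =>
    (stabilizer_smul_eq_stabilizer_map_conj g i).symm
  refine ⟨?_, _, _, (h1 _).2 ⟨0, rfl⟩, (h1 _).2 ⟨11, rfl⟩, fun g h => ?_, fun L hL => ?_⟩
  · rw [Nat.card_congr (Equiv.subtypeEquivRight h1)]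
    exact (Nat.card_congr (Equiv.ofInjective _ h3)).symm.trans (Nat.card_fin 22)
  · have := h5 g
    rw [h3 ((key g 0).symm.trans h)] at this
    exact absurd this (by decide)
  · obtain ⟨j, rfl⟩ := (h1 L).1 hL
    obtain ⟨g, h⟩ := h4 j
    exact ⟨g, h.imp (fun h => by rw [key, h]) fun h => by rw [key, h]⟩

end Cfsg.Agent.S2543
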