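import Cfsg.Statements.S2547
import Cfsg.Agent.H38.HasSt
import Cfsg.Agent.H38.ClBCD
import Cfsg.Agent.S2544
import Cfsg.Agent.S0298

set_option autoImplicit false
open Cfsg

namespace Cfsg.Agent.S2547

/-- Let F be a finite field of characteristic p and consider the group PΩ_{2m+1}(F) of the quadratic form x₀² + Σ x_i y_i, where m ≥ 1 and #F is odd. This group has an irreducible complex character χ whose degree equals the order of a Sylow p-subgroup (namely q^(m²) when #F = q) and whose restriction to any Sylow p-subgroup P is the regular character of P: χ vanishes on the non-identity elements of P. (This is the Steinberg character.) -/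
theorem result {F : Type*} [Field F] [Fintype F] (p : ℕ) [Fact p.Prime] [CharP F p] (hodd : Odd (Fintype.card F)) (m : ℕ) (hm : 1 ≤ m) : ∃ χ : Cfsg.POmega F (Cfsg.quadFormOdd m F) → ℂ, Cfsg.IsIrrCharacter (Cfsg.POmega F (Cfsg.quadFormOdd m F)) χ ∧ ∀ P : Sylow p (Cfsg.POmega F (Cfsg.quadFormOdd m F)), χ 1 = Nat.card P ∧ ∀ x : Cfsg.POmega F (Cfsg.quadFormOdd m F), x ∈ P → x ≠ 1 → χ x = 0 := by
  obtain ⟨n, rfl⟩ : ∃ k, m = k + 1 := ⟨m - 1, by omega⟩
  rcases n.eq_zero_or_pos with rfl | hn
  · obtain ⟨e⟩ := S0298.result hodd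
    exact H38.HasSt.of_equiv (S2544.result p 2 le_rfl) e
  have h : 2 ≤ n ∨ ∃ a : F, a ≠ 0 ∧ a ≠ 1 := by
    refine Or.inr ⟨-1, by simp, fun h => ?_⟩
    have h2 : ringChar F = 2 := ringChar.eq_iff.2 (CharTwo.of_one_ne_zero_of_two_eq_zero one_ne_zero (by
      rw [← one_add_one_eq_two]; nth_rw 1 [← h]; simp))
    have := FiniteField.even_card_of_char_two h2
    rw [Nat.odd_iff] at hodd
    omega
  have := Fintype.ofFinite (H38.frB (n + 1)).Rt
  exact H33.rg_st_quot p ((H38.baseB n).rgΩ_faithful (H38.grpB_eq hn h)) ((H38.baseB n).rgΩ_grp (H38.grpB_eq hn h))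

end Cfsg.Agent.S2547
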