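import Cfsg.Statements.S2548
import Cfsg.Agent.H38.OmFour
import Cfsg.Agent.H38.ClBCD
import Cfsg.Agent.S0305
import Cfsg.Agent.H29.Transport

set_option autoImplicit false
open Cfsg

namespace Cfsg.Agent.S2548

theorem comm_dihedral {n : ℕ} {x y : DihedralGroup n} (hx : x ∈ commutator (DihedralGroup n))
    (hy : y ∈ commutator (DihedralGroup n)) : x * y = y * x := by
  let ε : DihedralGroup n →* ℤˣ := MonoidHom.mk' (fun g => match g with | .r _ => 1 | .sr _ => -1) (by
    rintro (a | a) (b | b) <;> simp)
  have h : ∀ x ∈ commutator (DihedralGroup n), ∃ a, x = .r a := by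
    rintro (a | a) hx
    · exact ⟨a, rfl⟩
    · exact absurd (show ε (.sr a) = 1 from Abelianization.commutator_subset_ker ε hx) (by simp [ε])
  obtain ⟨a, rfl⟩ := h x hx
  obtain ⟨b, rfl⟩ := h y hy
  simp [add_comm]


/-- Let F be a finite field of characteristic p and consider the group PΩ⁺_{2m}(F) of the hyperbolic quadratic form Σ x_i y_i with m ≥ 1, where Ω denotes the commutator subgroup of the full isometry group. This group has an irreducible complex character χ whose degree equals the order of a Sylow p-subgroup (equal to q^(m(m−1)) when #F = q, except in the degenerate case m = 2, q = 2, where this commutator subgroup has order 18 and its Sylow 2-subgroups have order 2) and whose restriction to any Sylow p-subgroup P is the regular character of P: χ vanishes on the non-identity elements of P. (This is the Steinberg character.) -/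
theorem result {F : Type*} [Field F] [Fintype F] (p : ℕ) [Fact p.Prime] [CharP F p] (m : ℕ) (hm : 1 ≤ m) : ∃ χ : Cfsg.POmega F (Cfsg.quadFormPlus m F) → ℂ, Cfsg.IsIrrCharacter (Cfsg.POmega F (Cfsg.quadFormPlus m F)) χ ∧ ∀ P : Sylow p (Cfsg.POmega F (Cfsg.quadFormPlus m F)), χ 1 = Nat.card P ∧ ∀ x : Cfsg.POmega F (Cfsg.quadFormPlus m F), x ∈ P → x ≠ 1 → χ x = 0 := by
  obtain rfl | ⟨n, rfl⟩ : m = 1 ∨ ∃ k, m = k + 2 := by
    rcases hm.eq_or_lt with h | h
    exacts [Or.inl h.symm, Or.inr ⟨m - 2, by omega⟩]
  · obtain ⟨e⟩ := S0305.result (F := F) rfl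
    have hZ : Subgroup.center (Omega F (quadFormPlus 1 F)) = ⊤ := by
      rw [eq_top_iff]
      intro x _
      rw [Subgroup.mem_center_iff]
      intro y
      apply (H29.commutatorEquiv e).injective
      rw [map_mul, map_mul]
      exact Subtype.ext (comm_dihedral (Subtype.prop _) (Subtype.prop _))
    have : Subsingleton (POmega F (quadFormPlus 1 F)) := by
      rw [POmega, hZ]; exact QuotientGroup.subsingleton_quotient_top
    exact H38.HasSt.of_subsingleton
  by_cases h : 1 ≤ n ∨ ∃ a : F, a ≠ 0 ∧ a ≠ 1
  · have := Fintype.ofFinite (H38.frE (n + 2) false).Rt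
    exact H33.rg_st_quot p ((H38.baseD n).rgΩ_faithful (H38.grpD_eq h)) ((H38.baseD n).rgΩ_grp (H38.grpD_eq h))
  push Not at h
  obtain rfl : n = 0 := by omega
  have hc : Fintype.card F = 2 := by
    classical
    rw [← Finset.card_univ, Finset.card_eq_two]
    exact ⟨0, 1, zero_ne_one, by ext a; by_cases ha : a = 0 <;> simp [ha, h.2 a]⟩
  obtain ⟨k, hp, hk⟩ := FiniteField.card F p
  obtain rfl : p = 2 := (Nat.prime_dvd_prime_iff_eq hp Nat.prime_two).1 (hc ▸ hk ▸ dvd_pow_self p k.2.ne')
  let e := (ZMod.ringEquivOfPrime F Nat.prime_two hc).symm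
  exact H38.OmFour.hasSt.of_equiv (H29.pomegaEquiv e _ _ (H29.quadFormPlus_comp 2 e))

end Cfsg.Agent.S2548
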