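import Cfsg.Statements.S2549
import Cfsg.Agent.H38.SBNCl
import Cfsg.Agent.S2548
import Cfsg.Agent.S0306
import Cfsg.Agent.S0300

set_option autoImplicit false
open Cfsg

namespace Cfsg.Agent.S2549

/-- Let F be a finite field of characteristic p and consider the group PΩ⁻_{2m+2}(F) of the quadratic form Σ_{i<m} x_i y_i + (z₁² + a z₁ z₂ + b z₂²) with anisotropic binary part, m ≥ 0. This group has an irreducible complex character χ whose degree equals the order of a Sylow p-subgroup (namely q^(m(m+1)) when #F = q) and whose restriction to any Sylow p-subgroup P is the regular character of P: χ vanishes on the non-identity elements of P. (This is the Steinberg character.) -/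
theorem result {F : Type*} [Field F] [Fintype F] (p : ℕ) [Fact p.Prime] [CharP F p] (m : ℕ) (a b : F) (hab : ∀ z₁ z₂ : F, z₁ ^ 2 + a * z₁ * z₂ + b * z₂ ^ 2 = 0 → z₁ = 0 ∧ z₂ = 0) : ∃ χ : Cfsg.POmega F (Cfsg.quadFormMinus m F a b) → ℂ, Cfsg.IsIrrCharacter (Cfsg.POmega F (Cfsg.quadFormMinus m F a b)) χ ∧ ∀ P : Sylow p (Cfsg.POmega F (Cfsg.quadFormMinus m F a b)), χ 1 = Nat.card P ∧ ∀ x : Cfsg.POmega F (Cfsg.quadFormMinus m F a b), x ∈ P → x ≠ 1 → χ x = 0 := by
  obtain rfl | rfl | ⟨n, rfl⟩ : m = 0 ∨ m = 1 ∨ ∃ k, m = k + 2 := by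
    by_cases h : 2 ≤ m
    exacts [Or.inr (Or.inr ⟨m - 2, by omega⟩), by omega]
  · obtain ⟨e⟩ := S0306.result (F := F) rfl a b hab
    have hZ : Subgroup.center (Omega F (quadFormMinus 0 F a b)) = ⊤ := by
      rw [eq_top_iff]
      intro x _
      rw [Subgroup.mem_center_iff]
      intro y
      apply (H29.commutatorEquiv e).injective
      rw [map_mul, map_mul]
      exact Subtype.ext (S2548.comm_dihedral (Subtype.prop _) (Subtype.prop _))
    have : Subsingleton (POmega F (quadFormMinus 0 F a b)) := by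
      rw [POmega, hZ]; exact QuotientGroup.subsingleton_quotient_top
    exact H38.HasSt.of_subsingleton
  · have := H38.fact_of_aniso hab
    have := H11.finite_quadAlg a b
    have := Fintype.ofFinite (QuadraticAlgebra F (-b) a)
    have : CharP (QuadraticAlgebra F (-b) a) p := charP_of_injective_algebraMap (algebraMap F _).injective p
    obtain ⟨e⟩ := S0300.result (K := QuadraticAlgebra F (-b) a) rfl (by
      rw [Fintype.card_congr (QuadraticAlgebra.equivProd (-b) a), Fintype.card_prod, sq]) a b hab
    obtain ⟨I, S, -⟩ := ((H38.lie0_sl (F := QuadraticAlgebra F (-b) a) p 0).quot).equiv e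
    exact S.hasSt
  · obtain ⟨I, S, -⟩ := (H38.lie0_minus p hab (n + 1) (by omega)).quot
    exact S.hasSt

end Cfsg.Agent.S2549
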