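import Cfsg.Statements.S2550
import Cfsg.Agent.H56.Mod.L42
import Cfsg.Agent.H56.Mod.L34
import Cfsg.Agent.S0819

set_option autoImplicit false
open Cfsg

namespace Cfsg.Agent.S2550

open H14 H56

/-- Let F be a field with 2 elements and K a field with 4 elements. PSL_4(F) and PSL_3(K) have the same order (20160) but are not isomorphic. -/
theorem result {F K : Type*} [Field F] [Fintype F] [Field K] [Fintype K] (hF : Fintype.card F = 2) (hK : Fintype.card K = 4) : Nat.card (Matrix.ProjectiveSpecialLinearGroup (Fin 4) F) = Nat.card (Matrix.ProjectiveSpecialLinearGroup (Fin 3) K) ∧ ¬ Nonempty (Matrix.ProjectiveSpecialLinearGroup (Fin 4) F ≃* Matrix.ProjectiveSpecialLinearGroup (Fin 3) K) := by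
  obtain ⟨e1⟩ := L42.equiv hF
  obtain ⟨e2⟩ := L34.equiv hK
  refine ⟨by rw [Nat.card_congr e1.toEquiv, Nat.card_congr e2.toEquiv, L42.card, L34.card],
    fun ⟨e⟩ => ?_⟩
  obtain ⟨g, -, hg⟩ := exists_orderOf L42.chain (X := L42.c15a.X) (o := 15) (by decide +kernel)
  exact S0819.result hK (e (e1.symm g)) (by rw [e.orderOf_eq, e1.symm.orderOf_eq, hg])

end Cfsg.Agent.S2550
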