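import Cfsg.Statements.S2551
import Cfsg.Agent.H56.Mod.GL42

set_option autoImplicit false
open Cfsg

namespace Cfsg.Agent.S2551

open H14 H56 Matrix

theorem chk : allL [Alt.a8_7a.X, Alt.a8_7b.X] (fun Q => anyN 8 fun i => Nat.beq (app 3 8 Q i) i &&
    allElts 3 8 8 (fun P => bimp (Nat.beq (powP 3 8 8 P 3) (idP 3 8)) (force (comp 3 8 8 P Q) fun R =>
      bimp (Nat.beq (powP 3 8 8 R 7) (idP 3 8)) (force (comp 3 8 8 R Q) fun R =>
        bimp (Nat.beq (powP 3 8 8 R 3) (idP 3 8)) (Nat.beq (app 3 8 P i) i)))) Alt.a8CL (idP 3 8)) =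
      true := by decide +kernel

theorem fix (ρ : alternatingGroup (Fin 7) →* alternatingGroup (Fin 8)) (hρ : Function.Injective ρ) :
    ∃ u : alternatingGroup (Fin 8), ∀ x, (u * ρ x * u⁻¹).1 0 = 0 := by
  have : Fact (Nat.Prime 7) := ⟨by norm_num⟩
  have hg := inG_of_memOK Alt.a7_chain (l := Alt.a7G) (by decide +kernel)
  obtain ⟨a, ha, ea⟩ := hg _ List.mem_cons_self
  obtain ⟨b, hb, eb⟩ := hg _ (List.mem_cons_of_mem _ List.mem_cons_self)
  have r : ∀ (x : alternatingGroup (Fin 7)) (n : ℕ),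
      powP 3 8 7 (Alt.a7E.pk x) n = idP 3 7 → x ^ n = 1 := fun x n h =>
    Subtype.ext (Alt.a7E.pk_injective (by rw [Subgroup.coe_pow, Enc.pk_pow, h]; exact (Enc.pk_one _).symm))
  have h1 := r ⟨a, ha⟩ 3 (by rw [ea]; decide +kernel)
  have h2 := r (⟨a, ha⟩ * ⟨b, hb⟩) 7 (by rw [Subgroup.coe_mul, Enc.pk_mul, ea, eb]; decide +kernel)
  have h3 := r (⟨a, ha⟩ * ⟨b, hb⟩ * ⟨b, hb⟩) 3 (by
    rw [Subgroup.coe_mul, Subgroup.coe_mul, Enc.pk_mul, Enc.pk_mul, ea, eb]; decide +kernel)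
  have h4 : orderOf (ρ ⟨b, hb⟩) = 7 := by
    rw [orderOf_injective ρ hρ, ← Subgroup.orderOf_coe]
    exact Alt.a7E.orderOf_eq_of_ordP (by norm_num) (by rw [eb]; decide +kernel)
  obtain ⟨t, ht, h5⟩ := exists_isConj_of_order Alt.a8_classes (fuel := 15)
    (Xs := [Alt.a8_7a.X, Alt.a8_7b.X]) (by decide +kernel) _ h4
  obtain ⟨u, hu⟩ := isConj_iff.1 h5.symm
  let σ := (MulAut.conj u).toMonoidHom.comp ρ
  have r2 : ∀ (x : alternatingGroup (Fin 7)) (n : ℕ), x ^ n = 1 →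
      Nat.beq (powP 3 8 8 (Alt.a8E.pk (σ x)) n) (idP 3 8) = true := fun x n h => by
    rw [← Enc.pk_pow, ← Subgroup.coe_pow, ← map_pow, h, map_one, beq_iff]; exact Enc.pk_one _
  obtain ⟨i, hi, h6⟩ := anyN_iff.1 (allL_iff.1 chk _ ht)
  rw [Bool.and_eq_true, beq_iff, ← show σ ⟨b, hb⟩ = t from hu] at h6
  have h7 := bimp_iff.1 (Alt.a8_chain.forall_of_allElts h6.2 _ (σ ⟨a, ha⟩).2) (r2 _ _ h1)
  rw [force_eq, ← Alt.a8E.pk_mul, ← Subgroup.coe_mul, ← map_mul] at h7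
  have h8 := bimp_iff.1 h7 (r2 _ _ h2)
  rw [force_eq, ← Alt.a8E.pk_mul, ← Subgroup.coe_mul, ← map_mul] at h8
  have h9 := beq_iff.1 (bimp_iff.1 h8 (r2 _ _ h3))
  obtain ⟨v, hv, e⟩ := (Alt.a8_chain.exists_apply (Alt.a8E.pt i)).2
    ((by decide +kernel : ∀ j : Fin 8, tb Alt.a8CL0.O j.val = true) _)
  have h10 : alternatingGroup (Fin 7) ≤ ((MulAction.stabilizer _ (Alt.a8E.pt i)).comap
      ((Subgroup.subtype _).comp σ)).map (Subgroup.subtype _) := by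
    refine (Alt.a7_chain.eq_grp (cs := Alt.a7C) hg (by decide +kernel)).le.trans
      (Enc.grp_le fun P hP => ?_)
    rcases List.mem_pair.1 hP with rfl | rfl
    · exact ⟨a, ⟨⟨a, ha⟩, (Alt.a8E.apply_pt _ hi).trans (congrArg _ h9), rfl⟩, ea⟩
    · exact ⟨b, ⟨⟨b, hb⟩, (Alt.a8E.apply_pt _ hi).trans (congrArg _ h6.1), rfl⟩, eb⟩
  refine ⟨(⟨v, hv⟩ : alternatingGroup _)⁻¹ * u, fun x => ?_⟩
  have h11 : (σ x : Equiv.Perm (Fin 8)) (v 0) = v 0 := by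
    rw [show v 0 = Alt.a8E.pt i from e]
    exact (Subgroup.mem_map_iff_mem (Subgroup.subtype_injective _)).1 (h10 x.2)
  change v⁻¹ ((u : Equiv.Perm (Fin 8)) ((ρ x : Equiv.Perm (Fin 8)) ((v⁻¹ * u)⁻¹ 0))) = 0
  rw [Equiv.Perm.inv_eq_iff_eq, _root_.mul_inv_rev, inv_inv]
  exact h11

/-- Let F be the field with 2 elements. GL_4(F) (≅ A_8) has a subgroup isomorphic to the alternating group A_7, and every such subgroup acts 2-transitively on the 15 non-zero vectors of F⁴: any ordered pair of distinct non-zero vectors is carried to any other by some element of the subgroup. -/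
theorem result {F : Type*} [Field F] [Fintype F] (hF : Fintype.card F = 2) : (∃ H : Subgroup (Matrix.GeneralLinearGroup (Fin 4) F), Nonempty (H ≃* alternatingGroup (Fin 7))) ∧ ∀ H : Subgroup (Matrix.GeneralLinearGroup (Fin 4) F), Nonempty (H ≃* alternatingGroup (Fin 7)) → ∀ v w v' w' : Fin 4 → F, v ≠ 0 → w ≠ 0 → v ≠ w → v' ≠ 0 → w' ≠ 0 → v' ≠ w' → ∃ g ∈ H, (g : Matrix (Fin 4) (Fin 4) F).mulVec v = v' ∧ (g : Matrix (Fin 4) (Fin 4) F).mulVec w = w' := by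
  obtain ⟨ι, hι⟩ := exists_hom F2 hF
  obtain ⟨φ, hφ⟩ := GL42.model hF ι
  obtain ⟨e, he⟩ := hφ.exists_equiv
  obtain ⟨ψ, hψ⟩ := GL42.exists_a8
  obtain ⟨T, f, -, hT⟩ := exists_subgroup_equiv e
    (grp_le_of_memOK GL42.chain (l := GL42.TG) (by decide +kernel))
  refine ⟨⟨T, ⟨f.trans GL42.j_equiv.some⟩⟩, fun H ⟨f'⟩ v w v' w' hv hw hvw hv' hw' hvw' => ?_⟩
  obtain ⟨u, hu⟩ := fix (((e.trans ψ).toMonoidHom.comp H.subtype).comp f'.symm.toMonoidHom)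
    (((e.trans ψ).injective.comp Subtype.val_injective).comp f'.symm.injective)
  obtain ⟨u, rfl⟩ := (e.trans ψ).surjective u
  have h1 : H.map (MulAut.conj u).toMonoidHom = T := by
    refine Subgroup.eq_of_le_of_card_ge ?_ ?_
    · rintro _ ⟨g, hg, rfl⟩
      rw [hT, hψ]
      simpa using hu (f' ⟨g, hg⟩)
    · rw [Subgroup.card_map_of_injective (MulAut.conj u).injective, Nat.card_congr f.toEquiv,
        Nat.card_congr f'.toEquiv, GL42.T_card, Alt.a7_card]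
  have h2 : ∀ x : Fin 4 → F, x ≠ 0 → ∃ a, ptv ι (Equiv.refl _) GL42.E GL42.VT a = u.1 *ᵥ x := by
    intro x hx
    obtain ⟨a, c, hc, h⟩ := exists_ptv_of_ne_zero (Equiv.refl _) hι GL42.E (VT := GL42.VT) (R := GL42.R)
      (pr := false) (by decide +kernel) (x := u.1 *ᵥ x) fun h => hx (by
        rw [← one_mulVec x, ← u.inv_mul, ← mulVec_mulVec, h, mulVec_zero])
    exact ⟨a, by rw [h, hc.2 rfl, one_smul]⟩
  have h3 : ∀ x y : Fin 4 → F, u.1 *ᵥ x = u.1 *ᵥ y → x = y := fun x y h => by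
    rw [← one_mulVec x, ← one_mulVec y, ← u.inv_mul, ← mulVec_mulVec, h, mulVec_mulVec]
  obtain ⟨a, ha⟩ := h2 v hv
  obtain ⟨b, hb⟩ := h2 w hw
  obtain ⟨c, hc⟩ := h2 v' hv'
  obtain ⟨d, hd⟩ := h2 w' hw'
  have hab : a ≠ b := fun h => hvw (h3 _ _ (by rw [← ha, h, hb]))
  have hcd : c ≠ d := fun h => hvw' (h3 _ _ (by rw [← hc, h, hd]))
  obtain ⟨x, hx, h5⟩ := GL42.T_chain.preChain.exists_forall_apply_eq Set.univ (fun _ _ _ _ => trivial)
    32767 (by decide +kernel) 2 (by decide +kernel) ![a, b] ![c, d]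
    (by simp [Function.Injective, Fin.forall_fin_two, hab, hab.symm])
    (by simp [Function.Injective, Fin.forall_fin_two, hcd, hcd.symm])
    (fun _ => trivial) fun _ => trivial
  obtain ⟨g, rfl⟩ := (grp_le_of_memOK GL42.chain (l := GL42.TG) (by decide +kernel)).trans
    hφ.range.ge hx
  rw [← he, ← hT, ← h1] at hx
  obtain ⟨g, hg, rfl⟩ := hx
  have h6 : ∀ p q x y, ptv ι (Equiv.refl _) GL42.E GL42.VT p = u.1 *ᵥ x →
      ptv ι (Equiv.refl _) GL42.E GL42.VT q = u.1 *ᵥ y → φ (u * g * u⁻¹) p = q → g.1 *ᵥ x = y := by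
    intro p q x y hp hq h
    obtain ⟨c, hc, h7⟩ := hφ.act (u * g * u⁻¹) p
    rw [hc.2 rfl, one_smul, h, hp, hq, mulVec_mulVec, ← Units.coeHom_apply u, ← map_mul,
      inv_mul_cancel_right, map_mul, ← mulVec_mulVec] at h7
    exact h3 _ _ h7
  exact ⟨g, hg, h6 _ _ _ _ ha hc (h5 0), h6 _ _ _ _ hb hd (h5 1)⟩

end Cfsg.Agent.S2551
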