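import Cfsg.Statements.S2564
import Mathlib
import Cfsg.Agent.H67.Embed

set_option autoImplicit false
open Cfsg

namespace Cfsg.Agent.S2564

theorem exists_quad {m : ℕ} (q : (Fin m ⊕ Fin m → ZMod 2) → ZMod 2)
    (hq : ∀ u v : (Fin m ⊕ Fin m → ZMod 2), q (u + v) = q u + q v +
      (Cfsg.quadFormPlus m (ZMod 2) (u + v) - Cfsg.quadFormPlus m (ZMod 2) u -
        Cfsg.quadFormPlus m (ZMod 2) v)) :
    ∃ Q : QuadraticForm (ZMod 2) (Fin m ⊕ Fin m → ZMod 2), ⇑Q = q ∧
      QuadraticMap.polarBilin Q = QuadraticMap.polarBilin (H67.QPlus (ZMod 2) m) := by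
  have h0 : q 0 = 0 := by simpa [Cfsg.quadFormPlus] using hq 0 0
  have h1 : ∀ u v, q (u + v) = q u + q v + QuadraticMap.polarBilin (H67.QPlus (ZMod 2) m) u v :=
    fun u v => by rw [hq, QuadraticMap.polarBilin_apply_apply, H67.coe_QPlus]; rfl
  refine ⟨⟨q, fun a x => ?_, _, h1⟩, rfl, ?_⟩
  · rcases (by decide : ∀ a : ZMod 2, a = 0 ∨ a = 1) a with rfl | rfl
    · simpa using h0
    · simp
  · refine LinearMap.ext fun u => LinearMap.ext fun v => ?_
    change q (_ + _) - q _ - q _ = _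
    rw [h1]
    ring


/-- On the 2m-dimensional space over the field of two elements (m ≥ 1) let f be the alternating form obtained by polarizing the plus-type form Σ xᵢyᵢ, and let q be any quadratic form polarizing to f. For a vector w, the function q + f(·, w) again polarizes to f, and it is equivalent to q under an invertible linear map (that is, has the same type) if and only if q(w) = 0. -/
theorem result (m : ℕ) (hm : 1 ≤ m) (q : (Fin m ⊕ Fin m → ZMod 2) → ZMod 2) (hq : (∀ u v : (Fin m ⊕ Fin m → ZMod 2), q (u + v) = q u + q v + (Cfsg.quadFormPlus m (ZMod 2) (u + v) - Cfsg.quadFormPlus m (ZMod 2) u - Cfsg.quadFormPlus m (ZMod 2) v))) (w : (Fin m ⊕ Fin m → ZMod 2)) :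
    (∀ u v : (Fin m ⊕ Fin m → ZMod 2), (q (u + v) + (Cfsg.quadFormPlus m (ZMod 2) (u + v + w) - Cfsg.quadFormPlus m (ZMod 2) (u + v) - Cfsg.quadFormPlus m (ZMod 2) w)) =
        (q u + (Cfsg.quadFormPlus m (ZMod 2) (u + w) - Cfsg.quadFormPlus m (ZMod 2) u - Cfsg.quadFormPlus m (ZMod 2) w)) + (q v + (Cfsg.quadFormPlus m (ZMod 2) (v + w) - Cfsg.quadFormPlus m (ZMod 2) v - Cfsg.quadFormPlus m (ZMod 2) w)) +
        (Cfsg.quadFormPlus m (ZMod 2) (u + v) - Cfsg.quadFormPlus m (ZMod 2) u - Cfsg.quadFormPlus m (ZMod 2) v)) ∧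
    ((∃ g : (Fin m ⊕ Fin m → ZMod 2) ≃ₗ[ZMod 2] (Fin m ⊕ Fin m → ZMod 2), ∀ v, q v + (Cfsg.quadFormPlus m (ZMod 2) (v + w) - Cfsg.quadFormPlus m (ZMod 2) v - Cfsg.quadFormPlus m (ZMod 2) w) = q (g v)) ↔ q w = 0) := by
  obtain ⟨Q, rfl, hQ⟩ := exists_quad q hq
  have hf : ∀ u v, Cfsg.quadFormPlus m (ZMod 2) (u + v) - Cfsg.quadFormPlus m (ZMod 2) u -
      Cfsg.quadFormPlus m (ZMod 2) v = QuadraticMap.polarBilin Q u v := fun u v => by
    rw [hQ, QuadraticMap.polarBilin_apply_apply, H67.coe_QPlus]; rfl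
  simp only [hf] at hq ⊢
  refine ⟨fun u v => by rw [hq, map_add, LinearMap.add_apply]; ring, ?_, fun hw => ?_⟩
  · rintro ⟨g, hg⟩
    by_contra hw
    have h2 : ∀ x : ZMod 2, x ≠ 0 → x = 1 := by decide
    have h3 : ∀ x y : ZMod 2, x = y + 1 → (x = 0 ↔ ¬ y = 0) := by decide
    have h4 : Nat.card {v // Q v = 0} = Nat.card {v // ¬ Q v = 0} :=
      Nat.card_congr ((g.symm.toEquiv.trans (Equiv.addRight w)).subtypeEquiv fun v => h3 _ _ (by
        obtain ⟨v, rfl⟩ := g.surjective v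
        simp only [Equiv.trans_apply, LinearEquiv.coe_toEquiv, g.symm_apply_apply,
          Equiv.coe_addRight, hq, ← hg, h2 _ hw]
        generalize Q v = x
        generalize QuadraticMap.polarBilin Q v w = y
        revert x y
        decide))
    have h5 : Nat.card {v // Q v = 0} + Nat.card {v // ¬ Q v = 0} = 2 ^ (2 * m) := by
      rw [← Nat.card_sum, Nat.card_congr (Equiv.sumCompl _)]
      simp [Nat.card_fun, two_mul]
    have hnd : (QuadraticMap.polarBilin Q).SeparatingLeft := hQ ▸ (H67.QPlus_nondegenerate m).1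
    have hV : Module.finrank (ZMod 2) (Fin m ⊕ Fin m → ZMod 2) = 2 * m := by simp [two_mul]
    obtain ⟨φ, hφ⟩ := H67.quad_equiv_plus_of_card hnd hV (by rw [Nat.card_zmod]; omega)
    obtain ⟨k, rfl⟩ : ∃ k, m = k + 1 := ⟨m - 1, by omega⟩
    have h6 := H11.card_zeros_qPlus (F := ZMod 2) k
    have h7 : Nat.card {v // Q v = 0} = Nat.card {v // H11.qPlus (ZMod 2) (k + 1) v = 0} :=
      Nat.card_congr (φ.toEquiv.subtypeEquiv fun v => by rw [hφ, H11.qPlus_eq]; rfl)
    rw [← h7, Nat.card_zmod, pow_succ 2 k] at h6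
    rw [show 2 * (k + 1) = 2 * k + 1 + 1 by ring, pow_succ] at h5
    have := Nat.two_pow_pos k
    omega
  · let T : Module.End (ZMod 2) (Fin m ⊕ Fin m → ZMod 2) :=
      1 + ((QuadraticMap.polarBilin Q).flip w).smulRight w
    have hT : ∀ v, T v = v + QuadraticMap.polarBilin Q v w • w := fun _ => rfl
    have hww : QuadraticMap.polarBilin Q w w = 0 := by
      rw [QuadraticMap.polarBilin_apply_apply, QuadraticMap.polar_self, hw, smul_zero]
    refine ⟨LinearEquiv.ofInvolutive T fun v => ?_, fun v => ?_⟩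
    · rw [hT, hT, map_add, map_smul, LinearMap.add_apply, LinearMap.smul_apply, hww, smul_zero,
        add_zero, add_assoc, ← add_smul, CharTwo.add_self_eq_zero, zero_smul, add_zero]
    · change _ = Q (T v)
      rw [hT, hq, QuadraticMap.map_smul, hw, map_smul, smul_zero, add_zero]
      generalize QuadraticMap.polarBilin Q v w = y
      congr 1
      revert y
      decide

end Cfsg.Agent.S2564
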