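import Cfsg.Statements.S2561
import Mathlib
import Cfsg.Agent.S2564
import Cfsg.Agent.S2617

set_option autoImplicit false
open Cfsg

namespace Cfsg.Agent.S2561


/-- Fix the non-singular alternating form on the 2m-dimensional space over the field of two elements obtained by polarizing the plus-type form Σ xᵢyᵢ (m ≥ 1). The functions q on the space with q(u + v) = q(u) + q(v) + f(u, v) (the quadratic forms polarizing to f) number 2^(2m); each is equivalent under an invertible linear map either to the plus-type form or to the minus-type form Σ xᵢyᵢ + (z₁² + z₁z₂ + z₂²); and those of plus type number 2^(2m−1) + 2^(m−1), those of minus type 2^(2m−1) − 2^(m−1). -/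
theorem result (m : ℕ) (hm : 1 ≤ m) :
    Nat.card {q : (Fin m ⊕ Fin m → ZMod 2) → ZMod 2 // (∀ u v : (Fin m ⊕ Fin m → ZMod 2), q (u + v) = q u + q v + (Cfsg.quadFormPlus m (ZMod 2) (u + v) - Cfsg.quadFormPlus m (ZMod 2) u - Cfsg.quadFormPlus m (ZMod 2) v))} = 2 ^ (2 * m) ∧
    (∀ q : (Fin m ⊕ Fin m → ZMod 2) → ZMod 2, (∀ u v : (Fin m ⊕ Fin m → ZMod 2), q (u + v) = q u + q v + (Cfsg.quadFormPlus m (ZMod 2) (u + v) - Cfsg.quadFormPlus m (ZMod 2) u - Cfsg.quadFormPlus m (ZMod 2) v)) →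
      (∃ g : (Fin m ⊕ Fin m → ZMod 2) ≃ₗ[ZMod 2] (Fin m ⊕ Fin m → ZMod 2), ∀ v, q v = Cfsg.quadFormPlus m (ZMod 2) (g v)) ∨
      (∃ g : (Fin m ⊕ Fin m → ZMod 2) ≃ₗ[ZMod 2] ((Fin (m - 1) ⊕ Fin (m - 1)) ⊕ Fin 2 → ZMod 2), ∀ v, q v = Cfsg.quadFormMinus (m - 1) (ZMod 2) 1 1 (g v))) ∧
    Nat.card {q : (Fin m ⊕ Fin m → ZMod 2) → ZMod 2 // (∀ u v : (Fin m ⊕ Fin m → ZMod 2), q (u + v) = q u + q v + (Cfsg.quadFormPlus m (ZMod 2) (u + v) - Cfsg.quadFormPlus m (ZMod 2) u - Cfsg.quadFormPlus m (ZMod 2) v)) ∧ ∃ g : (Fin m ⊕ Fin m → ZMod 2) ≃ₗ[ZMod 2] (Fin m ⊕ Fin m → ZMod 2), ∀ v, q v = Cfsg.quadFormPlus m (ZMod 2) (g v)} = 2 ^ (2 * m - 1) + 2 ^ (m - 1) ∧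
    Nat.card {q : (Fin m ⊕ Fin m → ZMod 2) → ZMod 2 // (∀ u v : (Fin m ⊕ Fin m → ZMod 2), q (u + v) = q u + q v + (Cfsg.quadFormPlus m (ZMod 2) (u + v) - Cfsg.quadFormPlus m (ZMod 2) u - Cfsg.quadFormPlus m (ZMod 2) v)) ∧ ∃ g : (Fin m ⊕ Fin m → ZMod 2) ≃ₗ[ZMod 2] ((Fin (m - 1) ⊕ Fin (m - 1)) ⊕ Fin 2 → ZMod 2), ∀ v, q v = Cfsg.quadFormMinus (m - 1) (ZMod 2) 1 1 (g v)} = 2 ^ (2 * m - 1) - 2 ^ (m - 1) := by
  classical
  have hV : Module.finrank (ZMod 2) (Fin m ⊕ Fin m → ZMod 2) = 2 * m := by simp [two_mul]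
  set R := Cfsg.quadFormPlus m (ZMod 2) with hR
  let P : ((Fin m ⊕ Fin m → ZMod 2) → ZMod 2) → Prop := fun q =>
    ∀ u v, q (u + v) = q u + q v + (R (u + v) - R u - R v)
  have hP : P R := fun u v => by ring
  have hf : ∀ u v, R (u + v) - R u - R v =
      QuadraticMap.polarBilin (H67.QPlus (ZMod 2) m) u v := fun u v => by
    rw [QuadraticMap.polarBilin_apply_apply, H67.coe_QPlus]; rfl
  let e : (Fin m ⊕ Fin m → ZMod 2) ≃ {q // P q} := Equiv.ofBijective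
    (fun w => ⟨fun v => R v + (R (v + w) - R v - R w), (S2564.result m hm R hP w).1⟩) ⟨by
      intro w w' h
      rw [← sub_eq_zero]
      refine (H67.QPlus_nondegenerate m).2 _ fun v => ?_
      have := congrFun (congrArg Subtype.val h) v
      simp only [hf, add_right_inj] at this
      rw [map_sub, this, sub_self], by
      rintro ⟨q, hq⟩
      obtain ⟨Q, rfl, hQ⟩ := S2564.exists_quad q hq
      let l : Module.Dual (ZMod 2) (Fin m ⊕ Fin m → ZMod 2) :=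
        AddMonoidHom.toZModLinearMap 2 (AddMonoidHom.mk' (fun v => Q v - R v) fun u v => by
          rw [hq]; ring)
      obtain ⟨w, hw⟩ := (LinearMap.BilinForm.toDual _ (H67.QPlus_nondegenerate m)).surjective l
      refine ⟨w, Subtype.ext (funext fun v => ?_)⟩
      have := congrArg (fun f => f v) hw
      simp only [LinearMap.BilinForm.toDual_def] at this
      change R v + _ = Q v
      rw [hf, QuadraticMap.polarBilin_apply_apply, QuadraticMap.polar_comm,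
        ← QuadraticMap.polarBilin_apply_apply, this]
      change R v + (Q v - R v) = Q v
      ring⟩
  have h1 : Nat.card {q // P q} = 2 ^ (2 * m) := by
    rw [← Nat.card_congr e]
    simp [Nat.card_fun, two_mul]
  have h2 : ∀ q, P q → (∃ g : (Fin m ⊕ Fin m → ZMod 2) ≃ₗ[ZMod 2] (Fin m ⊕ Fin m → ZMod 2),
      ∀ v, q v = R (g v)) ∨ (∃ g : (Fin m ⊕ Fin m → ZMod 2) ≃ₗ[ZMod 2]
        ((Fin (m - 1) ⊕ Fin (m - 1)) ⊕ Fin 2 → ZMod 2),
        ∀ v, q v = Cfsg.quadFormMinus (m - 1) (ZMod 2) 1 1 (g v)) := by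
    intro q hq
    obtain ⟨Q, rfl, hQ⟩ := S2564.exists_quad q hq
    exact (H27.quad_equiv_plus_or_minus (hQ ▸ (H67.QPlus_nondegenerate m).1) hV
      (by decide)).imp_right And.right
  have h3 : Nat.card {q // P q ∧ ∃ g : (Fin m ⊕ Fin m → ZMod 2) ≃ₗ[ZMod 2]
      (Fin m ⊕ Fin m → ZMod 2), ∀ v, q v = R (g v)} = 2 ^ (2 * m - 1) + 2 ^ (m - 1) := by
    rw [← Nat.card_congr (Equiv.subtypeSubtypeEquivSubtypeInter P _),
      ← Nat.card_congr (e.subtypeEquiv (p := fun w => R w = 0)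
        fun w => (S2564.result m hm R hP w).2.symm)]
    obtain ⟨k, rfl⟩ : ∃ k, m = k + 1 := ⟨m - 1, by omega⟩
    have h6 := H11.card_zeros_qPlus (F := ZMod 2) k
    simp only [← H11.qPlus_eq] at h6
    rw [Nat.card_zmod, pow_succ 2 k] at h6
    rw [show 2 * (k + 1) - 1 = 2 * k + 1 by omega, Nat.add_sub_cancel]
    change Nat.card {a // R a = 0} + _ = _ at h6
    omega
  refine ⟨h1, h2, h3, ?_⟩
  rw [← Nat.card_congr (Equiv.subtypeSubtypeEquivSubtypeInter P _)] at h3 ⊢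
  have h4 := Nat.card_congr (Equiv.sumCompl fun q : {q // P q} =>
    ∃ g : (Fin m ⊕ Fin m → ZMod 2) ≃ₗ[ZMod 2] (Fin m ⊕ Fin m → ZMod 2), ∀ v, q.1 v = R (g v))
  rw [Nat.card_sum, h3, h1] at h4
  rw [Nat.card_congr (Equiv.subtypeEquivRight (q := fun q : {q // P q} =>
    ¬∃ g : (Fin m ⊕ Fin m → ZMod 2) ≃ₗ[ZMod 2] (Fin m ⊕ Fin m → ZMod 2), ∀ v, q.1 v = R (g v))
    fun q => ⟨?_, (h2 q.1 q.2).resolve_left⟩)]
  · rw [show 2 * m = 2 * m - 1 + 1 by omega, pow_succ] at h4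
    rw [show 2 * m - 1 + 1 - 1 = 2 * m - 1 by omega] at h4
    omega
  · rintro ⟨g, hg⟩ ⟨g', hg'⟩
    exact S2617.result hm 1 (by decide) (g'.symm.trans g) fun v => by
      rw [LinearEquiv.trans_apply, ← hg, hg', g'.apply_symm_apply]

end Cfsg.Agent.S2561
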