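import Cfsg.Statements.S2563
import Mathlib
import Cfsg.Agent.H11.Deleted
import Cfsg.Agent.H67.Embed

set_option autoImplicit false
open Cfsg

namespace Cfsg.Agent.S2563

/-- the weight modulo four -/
def T {ι : Type*} [Fintype ι] (v : ι → ZMod 2) : ZMod 4 := ∑ i, ((v i).val : ZMod 4)

/-- doubling -/
def tw : ZMod 2 →+ ZMod 4 := ⟨⟨fun a => 2 * a.val, rfl⟩, by decide⟩

/-- halving -/
def hf (x : ZMod 4) : ZMod 2 := if x = 0 then 0 else 1

theorem T_add {ι : Type*} [Fintype ι] (u v : ι → ZMod 2) : T (u + v) = T u + T v + tw (u ⬝ᵥ v) := by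
  rw [T, T, T, dotProduct, map_sum, ← Finset.sum_add_distrib, ← Finset.sum_add_distrib]
  exact Finset.sum_congr rfl fun i _ =>
    (by decide : ∀ a b : ZMod 2, (((a + b).val : ℕ) : ZMod 4) = a.val + b.val + tw (a * b)) _ _

theorem cast_T {ι : Type*} [Fintype ι] (v : ι → ZMod 2) :
    ZMod.castHom (by norm_num : 2 ∣ 4) (ZMod 2) (T v) = ∑ i, v i := by
  simp only [T, map_sum, map_natCast, ZMod.natCast_zmod_val]

theorem sum_T (k : ℕ) : 2 * (Nat.card {v : Fin (4 * k + 3) → ZMod 2 // T v = 0} : ℤ) -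
    Nat.card {v : Fin (4 * k + 3) → ZMod 2 // ∑ i, v i = 0} = -2 * (-4) ^ k := by
  have h1 : ∀ v : Fin (4 * k + 3) → ZMod 2, (∏ i, (⟨0, 1⟩ : GaussianInt) ^ (v i).val).re =
      2 * (if T v = 0 then 1 else 0) - if ∑ i, v i = 0 then 1 else 0 := fun v => by
    rw [Finset.prod_pow_eq_pow_sum, pow_eq_pow_mod _ (by decide : (⟨0, 1⟩ : GaussianInt) ^ 4 = 1),
      ← ZMod.val_natCast, ← cast_T, Nat.cast_sum, ← T]
    generalize T v = x
    revert x
    decide
  have h2 := Finset.prod_univ_sum (fun _ : Fin (4 * k + 3) => (Finset.univ : Finset (ZMod 2)))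
    fun _ a => (⟨0, 1⟩ : GaussianInt) ^ a.val
  rw [Fintype.piFinset_univ, Finset.prod_const, Finset.card_univ, Fintype.card_fin, pow_add, pow_mul,
    show (∑ a : ZMod 2, (⟨0, 1⟩ : GaussianInt) ^ a.val) = ⟨1, 1⟩ by decide,
    show (⟨1, 1⟩ : GaussianInt) ^ 4 = ((-4 : ℤ) : GaussianInt) by decide, ← Int.cast_pow,
    show (⟨1, 1⟩ : GaussianInt) ^ 3 = ⟨-2, 2⟩ by decide] at h2
  have h3 := congrArg (AddMonoidHom.mk' Zsqrtd.re Zsqrtd.re_add) h2
  simp only [map_sum, AddMonoidHom.mk'_apply, h1, Zsqrtd.smul_val, Finset.sum_sub_distrib,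
    ← Finset.mul_sum, Finset.sum_boole] at h3
  rw [Nat.card_eq_fintype_card, Nat.card_eq_fintype_card, Fintype.card_subtype,
    Fintype.card_subtype, ← h3, mul_comm]


/-- For k ≥ 1 the symmetric group of degree 4k + 4 embeds in a full orthogonal group in dimension 4k + 2 over the field of two elements: in the isometry group of the plus-type form Σ xᵢyᵢ when k is odd, and in that of the minus-type form Σ xᵢyᵢ + (z₁² + z₁z₂ + z₂²) when k is even (through its action on even partitions of a (4k+4)-set, with the form 'half the size of a part, modulo 2'). -/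
theorem result (k : ℕ) (hk : 1 ≤ k) :
    (Odd k → ∃ φ : Equiv.Perm (Fin (4 * k + 4)) →* ↥(Cfsg.isometryGroup (ZMod 2) (Cfsg.quadFormPlus (2 * k + 1) (ZMod 2))), Function.Injective φ) ∧
    (Even k → ∃ φ : Equiv.Perm (Fin (4 * k + 4)) →* ↥(Cfsg.isometryGroup (ZMod 2) (Cfsg.quadFormMinus (2 * k) (ZMod 2) 1 1)), Function.Injective φ) := by
  have hN : ((4 * k + 3 + 1 : ℕ) : ZMod 2) = 0 := (ZMod.natCast_eq_zero_iff _ _).2 ⟨2 * k + 2, by ring⟩
  let s : (Fin (4 * k + 3) → ZMod 2) →ₗ[ZMod 2] ZMod 2 := ∑ i, LinearMap.proj i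
  have hs : ∀ v, v ∈ LinearMap.ker s ↔ ∑ i, v i = 0 := fun v => by simp [s]
  let B : LinearMap.BilinForm (ZMod 2) (LinearMap.ker s) :=
    LinearMap.BilinForm.restrict (Matrix.toBilin' 1) _
  have hB : ∀ u v, B u v = u.1 ⬝ᵥ v.1 := fun u v => by simp [B, Matrix.toBilin'_apply']
  have ev : ∀ v : LinearMap.ker s, ZMod.castHom (by norm_num : 2 ∣ 4) (ZMod 2) (T v.1) = 0 :=
    fun v => (cast_T _).trans ((hs _).1 v.2)
  have hadd : ∀ u v : LinearMap.ker s, hf (T (u + v).1) = hf (T u.1) + hf (T v.1) + B u v :=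
    fun u v => by
      rw [Submodule.coe_add, T_add, hB]
      exact (by decide : ∀ (x y : ZMod 4) (z : ZMod 2),
        ZMod.castHom (by norm_num : 2 ∣ 4) (ZMod 2) x = 0 →
        ZMod.castHom (by norm_num : 2 ∣ 4) (ZMod 2) y = 0 →
        hf (x + y + tw z) = hf x + hf y + z) _ _ _ (ev u) (ev v)
  let Q : QuadraticForm (ZMod 2) (LinearMap.ker s) :=
    { toFun := fun v => hf (T v.1)
      toFun_smul := fun a v => by
        rcases (by decide : ∀ a : ZMod 2, a = 0 ∨ a = 1) a with rfl | rfl <;> simp [T, hf]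
      exists_companion' := ⟨B, hadd⟩ }
  have m1 : ∀ i j, Pi.single i 1 - Pi.single j 1 ∈ LinearMap.ker s := fun i j => by simp [hs]
  have hQ : (QuadraticMap.polarBilin Q).SeparatingLeft := fun u hu => by
    have h1 : ∀ i, u.1 i = u.1 0 := fun i => by
      have := hu ⟨_, m1 i 0⟩
      rw [QuadraticMap.polarBilin_apply_apply, QuadraticMap.polar] at this
      change hf _ - hf _ - hf _ = 0 at this
      rw [hadd, hB, add_assoc, add_sub_cancel_left, add_sub_cancel_left] at this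
      simpa [sub_eq_zero] using this
    have h2 := (hs _).1 u.2
    simp only [h1, Finset.sum_const, Finset.card_univ, Fintype.card_fin, nsmul_eq_mul] at h2
    rw [eq_neg_of_add_eq_zero_left ((Nat.cast_succ _).symm.trans hN)] at h2
    exact Subtype.ext (funext fun i => (h1 i).trans (by simpa using h2))
  have hd : Module.finrank (ZMod 2) (LinearMap.ker s) = 2 * (2 * k + 1) := by
    have := s.finrank_range_add_finrank_ker
    rw [LinearMap.range_eq_top.2 fun c => ⟨Pi.single 0 c, by simp [s]⟩] at this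
    simp at this; omega
  let ρ : Equiv.Perm (Fin (4 * k + 3 + 1)) →* Module.End (ZMod 2) (LinearMap.ker s) :=
    { toFun := fun σ => (H11.delRep (ZMod 2) _ σ).restrict fun v hv =>
        (hs _).2 (H11.dot_delRep hN σ ((hs _).1 hv) ((hs _).1 hv)).1
      map_one' := LinearMap.ext fun v => Subtype.ext (LinearMap.congr_fun (map_one (H11.delRep _ _)) _)
      map_mul' := fun σ τ => LinearMap.ext fun v =>
        Subtype.ext (LinearMap.congr_fun (map_mul (H11.delRep (ZMod 2) _) σ τ) _) }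
  have hρ : Function.Injective ρ := (injective_iff_map_eq_one _).2 fun σ h =>
    H11.eq_one_of_delRep (F := ZMod 2) (c := 1) (by omega) fun i j => by
      rw [one_smul]
      exact congrArg Subtype.val (LinearMap.congr_fun h ⟨_, m1 i j⟩)
  have inv : ∀ σ v, Q (ρ σ v) = Q v := fun σ v => by
    have c0 : ∀ w : Fin (4 * k + 3) → ZMod 2,
        T (Fin.cons 0 w : Fin (4 * k + 3 + 1) → ZMod 2) = T w := fun w => by
      simp [T, Fin.sum_univ_succ]
    refine congrArg hf ?_
    change T (H11.delRep (ZMod 2) _ σ v.1) = _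
    rw [← c0, ← c0 v.1]
    have e := (hs _).1 v.2
    have e2 : ∑ a, (Fin.cons 0 v.1 : Fin (4 * k + 3 + 1) → ZMod 2) a = 0 := by
      simp [Fin.sum_univ_succ, e]
    rw [funext (H11.cons_delRep σ v.1)]
    generalize (Fin.cons 0 v.1 : Fin (4 * k + 3 + 1) → ZMod 2) = w at e2 ⊢
    have e3 := T_add (fun a => w (σ⁻¹ a)) fun _ => -w (σ⁻¹ 0)
    rw [dotProduct, ← Finset.sum_mul, Equiv.sum_comp σ⁻¹ w, e2, zero_mul, tw.map_zero] at e3
    simp only [T, Finset.sum_const, Finset.card_univ, Fintype.card_fin, nsmul_eq_mul,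
      (ZMod.natCast_eq_zero_iff (4 * k + 3 + 1) 4).2 ⟨k + 1, by ring⟩, zero_mul, add_zero,
      Equiv.sum_comp σ⁻¹ fun a => ((w a).val : ZMod 4)] at e3 ⊢
    simpa only [Pi.add_apply, sub_eq_add_neg] using e3
  have cnt := sum_T k
  rw [← Nat.card_congr (show {v // Q v = 0} ≃ _ from ⟨fun v => ⟨v.1.1, by
      have : hf (T v.1.1) = 0 := v.2
      simpa [hf] using this⟩, fun v => ⟨⟨v.1, (hs _).2 (by rw [← cast_T, v.2, map_zero])⟩,
      if_pos v.2⟩, fun _ => rfl, fun _ => rfl⟩),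
    ← Nat.card_congr (Equiv.subtypeEquivRight hs), Module.natCard_eq_pow_finrank (K := ZMod 2)
      (V := LinearMap.ker s), hd] at cnt
  rw [Nat.card_zmod] at cnt
  refine ⟨fun ho => ?_, fun he => ?_⟩
  · obtain ⟨φ, hφ⟩ := H67.quad_equiv_plus_of_card hQ hd (by
      rw [ho.neg_pow] at cnt
      have : (0 : ℤ) < 4 ^ k := by positivity
      rw [Nat.card_zmod]; zify at cnt ⊢; linarith)
    obtain ⟨ψ, h, -⟩ := H67.exists_hom_isometryGroup ρ hρ _ φ fun g v =>
      (hφ _).symm.trans ((inv g v).trans (hφ v))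
    exact ⟨ψ, h⟩
  · obtain ⟨φ, hφ⟩ := H67.quad_equiv_minus_of_card hQ (by omega) hd (a := 1) (b := 1) (by decide) (by
      rw [he.neg_pow] at cnt
      have : (0 : ℤ) < 4 ^ k := by positivity
      rw [Nat.card_zmod]; zify at cnt ⊢; linarith)
    obtain ⟨ψ, h, -⟩ := H67.exists_hom_isometryGroup ρ hρ _ φ fun g v =>
      (hφ _).symm.trans ((inv g v).trans (hφ v))
    exact ⟨ψ, h⟩

end Cfsg.Agent.S2563
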