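import Cfsg.Statements.S2566
import Cfsg.Agent.H56.GrpTools
import Cfsg.Agent.H56.Mod.Alt
import Cfsg.Agent.H14.Local

set_option autoImplicit false
open Cfsg

namespace Cfsg.Agent.S2566

open H14 H56

def VT : ℕ := nat_lit 0xbde75a
def R : BT := (.node (nat_lit 11) (.node (nat_lit 7) (.leaf (nat_lit 1)) (.node (nat_lit 10) (.leaf (nat_lit 2)) (.leaf (nat_lit 0)))) (.node (nat_lit 13) (.leaf (nat_lit 5)) (.node (nat_lit 14) (.leaf (nat_lit 4)) (.leaf (nat_lit 3)))))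
def gs : List (ℕ × ℕ) := [(nat_lit 0x4896, nat_lit 0xc62a), (nat_lit 0x6219, nat_lit 0x182ac), (nat_lit 0x4218, nat_lit 0x158c1)]
def gens : List ℕ := [nat_lit 0xc62a, nat_lit 0x182ac, nat_lit 0x158c1]
def certL0 : Lev := ⟨nat_lit 0, nat_lit 63, (.node (nat_lit 3) (.node (nat_lit 1) (.leaf (nat_lit 0x2c688)) (.node (nat_lit 2) (.leaf (nat_lit 0x158c1)) (.leaf (nat_lit 0xc62a)))) (.node (nat_lit 4) (.leaf (nat_lit 0x13065)) (.node (nat_lit 5) (.leaf (nat_lit 0x182ac)) (.leaf (nat_lit 0x18d5)))))⟩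
def certC0 : LevCert := ⟨certL0,
    [(nat_lit 2, nat_lit 0), (nat_lit 4, nat_lit 1), (nat_lit 1, nat_lit 2), (nat_lit 5, nat_lit 2), (nat_lit 3, nat_lit 2)],
    [[nat_lit 2, nat_lit 0, nat_lit 4, nat_lit 0, nat_lit 0, nat_lit 4, nat_lit 2, nat_lit 0], [nat_lit 4, nat_lit 6, nat_lit 6, nat_lit 6, nat_lit 2, nat_lit 6]],
    [nat_lit 0xa728, nat_lit 0x2c298]⟩
def certL1 : Lev := ⟨nat_lit 1, nat_lit 42, (.node (nat_lit 3) (.leaf (nat_lit 0x2c688)) (.node (nat_lit 5) (.leaf (nat_lit 0x2c298)) (.leaf (nat_lit 0xa728))))⟩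
def certC1 : LevCert := ⟨certL1,
    [(nat_lit 5, nat_lit 0), (nat_lit 3, nat_lit 1)],
    [[nat_lit 2, nat_lit 2, nat_lit 2, nat_lit 0, nat_lit 2], [nat_lit 2, nat_lit 4, nat_lit 2, nat_lit 2, nat_lit 2]],
    [nat_lit 0x1ab08, nat_lit 0x1ca88]⟩
def certL2 : Lev := ⟨nat_lit 2, nat_lit 20, (.node (nat_lit 4) (.leaf (nat_lit 0x2c688)) (.leaf (nat_lit 0x1ab08)))⟩
def certC2 : LevCert := ⟨certL2,
    [(nat_lit 4, nat_lit 0)],
    [[nat_lit 0, nat_lit 0, nat_lit 2]],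
    [nat_lit 0x1ca88]⟩
def certL3 : Lev := ⟨nat_lit 3, nat_lit 40, (.node (nat_lit 5) (.leaf (nat_lit 0x2c688)) (.leaf (nat_lit 0x1ca88)))⟩
def certC3 : LevCert := ⟨certL3,
    [(nat_lit 5, nat_lit 0)],
    [],
    []⟩
def cert : List LevCert := [certC0, certC1, certC2, certC3]
def certL : List Lev := [certL0, certL1, certL2, certL3]
/-- the numbering of the points -/
abbrev E : Enc (Fin 6) 6 3 8 := finEnc 6 3 8 rfl (by decide)
theorem ok : modelOK F2 4 6 3 8 VT R false gs cert 72 = true := by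
  decide +kernel
def AG : List ℕ := [nat_lit 0x2a60c, nat_lit 0x2a708]
def ACL0 : Lev := ⟨nat_lit 0, nat_lit 21, (.node (nat_lit 2) (.leaf (nat_lit 0x2c688)) (.node (nat_lit 4) (.leaf (nat_lit 0x2a60c)) (.leaf (nat_lit 0x2870a))))⟩
def ACC0 : LevCert := ⟨ACL0,
    [(nat_lit 2, nat_lit 0), (nat_lit 4, nat_lit 0)],
    [[nat_lit 2]],
    [nat_lit 0x2a708]⟩
def ACL1 : Lev := ⟨nat_lit 2, nat_lit 20, (.node (nat_lit 4) (.leaf (nat_lit 0x2c688)) (.leaf (nat_lit 0x2a708)))⟩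
def ACC1 : LevCert := ⟨ACL1,
    [(nat_lit 4, nat_lit 0)],
    [],
    []⟩
def AC : List LevCert := [ACC0, ACC1]
def ACL : List Lev := [ACL0, ACL1]
theorem A_chain : E.IsChain ACL (E.grp AG) := chain_grp (cert := AC) (by decide +kernel)
theorem A_card : Nat.card (E.grp AG) = 6 := A_chain.card.trans (by decide +kernel)
def BG : List ℕ := [nat_lit 0xca98, nat_lit 0x2c298]
def BCL0 : Lev := ⟨nat_lit 1, nat_lit 42, (.node (nat_lit 3) (.leaf (nat_lit 0x2c688)) (.node (nat_lit 5) (.leaf (nat_lit 0x2c298)) (.leaf (nat_lit 0xca98))))⟩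
def BCC0 : LevCert := ⟨BCL0,
    [(nat_lit 5, nat_lit 0), (nat_lit 3, nat_lit 1)],
    [[nat_lit 0, nat_lit 0, nat_lit 2]],
    [nat_lit 0x1ca88]⟩
def BCL1 : Lev := ⟨nat_lit 3, nat_lit 40, (.node (nat_lit 5) (.leaf (nat_lit 0x2c688)) (.leaf (nat_lit 0x1ca88)))⟩
def BCC1 : LevCert := ⟨BCL1,
    [(nat_lit 5, nat_lit 0)],
    [],
    []⟩
def BC : List LevCert := [BCC0, BCC1]
def BCL : List Lev := [BCL0, BCL1]
theorem B_chain : E.IsChain BCL (E.grp BG) := chain_grp (cert := BC) (by decide +kernel)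
theorem B_card : Nat.card (E.grp BG) = 6 := B_chain.card.trans (by decide +kernel)
def CG : List ℕ := [nat_lit 0x2a60c, nat_lit 0x2a708, nat_lit 0xca98, nat_lit 0x2c298]
def CCL0 : Lev := ⟨nat_lit 0, nat_lit 21, (.node (nat_lit 2) (.leaf (nat_lit 0x2c688)) (.node (nat_lit 4) (.leaf (nat_lit 0x2a60c)) (.leaf (nat_lit 0x2870a))))⟩
def CCC0 : LevCert := ⟨CCL0,
    [(nat_lit 2, nat_lit 0), (nat_lit 4, nat_lit 0)],
    [[nat_lit 6, nat_lit 6, nat_lit 4, nat_lit 2], [nat_lit 2, nat_lit 2, nat_lit 2, nat_lit 8, nat_lit 4, nat_lit 4, nat_lit 4, nat_lit 6]],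
    [nat_lit 0xab18, nat_lit 0x1ab08]⟩
def CCL1 : Lev := ⟨nat_lit 2, nat_lit 20, (.node (nat_lit 4) (.leaf (nat_lit 0x2c688)) (.leaf (nat_lit 0xab18)))⟩
def CCC1 : LevCert := ⟨CCL1,
    [(nat_lit 4, nat_lit 0)],
    [[nat_lit 0, nat_lit 0, nat_lit 0, nat_lit 2], [nat_lit 2, nat_lit 2, nat_lit 4, nat_lit 2]],
    [nat_lit 0x1ca88, nat_lit 0x2c298]⟩
def CCL2 : Lev := ⟨nat_lit 1, nat_lit 42, (.node (nat_lit 3) (.leaf (nat_lit 0x2c688)) (.node (nat_lit 5) (.leaf (nat_lit 0x2c298)) (.leaf (nat_lit 0xca98))))⟩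
def CCC2 : LevCert := ⟨CCL2,
    [(nat_lit 3, nat_lit 1), (nat_lit 5, nat_lit 0)],
    [[nat_lit 2, nat_lit 0, nat_lit 2, nat_lit 2, nat_lit 2, nat_lit 2, nat_lit 2, nat_lit 0, nat_lit 2]],
    [nat_lit 0x1ca88]⟩
def CCL3 : Lev := ⟨nat_lit 3, nat_lit 40, (.node (nat_lit 5) (.leaf (nat_lit 0x2c688)) (.leaf (nat_lit 0x1ca88)))⟩
def CCC3 : LevCert := ⟨CCL3,
    [(nat_lit 5, nat_lit 0)],
    [],
    []⟩
def CC : List LevCert := [CCC0, CCC1, CCC2, CCC3]
def CCL : List Lev := [CCL0, CCL1, CCL2, CCL3]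
theorem C_chain : E.IsChain CCL (E.grp CG) := chain_grp (cert := CC) (by decide +kernel)
theorem C_card : Nat.card (E.grp CG) = 36 := C_chain.card.trans (by decide +kernel)
def iA : List ℕ := [nat_lit 18, nat_lit 24]
def iB : List ℕ := [nat_lit 0x2a60c, nat_lit 0x2a708]
def iS : List ℕ := [nat_lit 0x856347102, nat_lit 0x856743120]
def iCertL0 : Lev := ⟨nat_lit 3, nat_lit 168, (.node (nat_lit 5) (.leaf (nat_lit 0x876543210)) (.node (nat_lit 7) (.leaf (nat_lit 0x856347102)) (.leaf (nat_lit 0x836745021))))⟩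
def iCertC0 : LevCert := ⟨iCertL0,
    [(nat_lit 5, nat_lit 0), (nat_lit 7, nat_lit 0)],
    [[nat_lit 0, nat_lit 0, nat_lit 2, nat_lit 0, nat_lit 2, nat_lit 2, nat_lit 2, nat_lit 2, nat_lit 0]],
    [nat_lit 0x856743120]⟩
def iCertL1 : Lev := ⟨nat_lit 5, nat_lit 160, (.node (nat_lit 7) (.leaf (nat_lit 0x876543210)) (.leaf (nat_lit 0x856743120)))⟩
def iCertC1 : LevCert := ⟨iCertL1,
    [(nat_lit 7, nat_lit 0)],
    [],
    []⟩
def iCert : List LevCert := [iCertC0, iCertC1]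
def iCertL : List Lev := [iCertL0, iCertL1]
def iCertAL0 : Lev := ⟨nat_lit 0, nat_lit 7, (.node (nat_lit 1) (.leaf (nat_lit 36)) (.node (nat_lit 2) (.leaf (nat_lit 18)) (.leaf (nat_lit 9))))⟩
def iCertAC0 : LevCert := ⟨iCertAL0,
    [(nat_lit 1, nat_lit 0), (nat_lit 2, nat_lit 0)],
    [[nat_lit 0, nat_lit 0, nat_lit 2, nat_lit 2, nat_lit 0, nat_lit 2]],
    [nat_lit 24]⟩
def iCertAL1 : Lev := ⟨nat_lit 1, nat_lit 6, (.node (nat_lit 2) (.leaf (nat_lit 36)) (.leaf (nat_lit 24)))⟩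
def iCertAC1 : LevCert := ⟨iCertAL1,
    [(nat_lit 2, nat_lit 0)],
    [],
    []⟩
def iCertA : List LevCert := [iCertAC0, iCertAC1]
def iCertAL : List Lev := [iCertAL0, iCertAL1]
theorem i_ok : isoOK 3 2 4 6 3 8 9 4 Alt.s3CL ACL iA iB iS iCert iCertA = true := by
  decide +kernel
theorem i_ss : ssOK 4 16 9 iCert iS = true := by
  decide +kernel
theorem i_equiv : Nonempty (E.grp AG ≃* (⊤ : Subgroup (Equiv.Perm (Fin 3)))) :=
  equiv_of_isoOK A_chain Alt.s3_chain 9 4 16 rfl rfl (by decide) i_ok i_ss (by decide +kernel)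
def gP : ℕ := nat_lit 0x14e5

/-- The full orthogonal group of the plus-type form x₁y₁ + x₂y₂ in dimension 4 over the field of two elements has order 72 and is isomorphic to the wreath product of the symmetric group of degree 3 by a group of order 2: it has a normal subgroup isomorphic to the direct product of two symmetric groups of degree 3, of index 2, whose two direct factors are interchanged by conjugation by some element. -/
theorem result :
    Nat.card ↥(Cfsg.isometryGroup (ZMod 2) (Cfsg.quadFormPlus 2 (ZMod 2))) = 72 ∧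
    ∃ (A B : Subgroup ↥(Cfsg.isometryGroup (ZMod 2) (Cfsg.quadFormPlus 2 (ZMod 2)))),
      Nonempty (↥A ≃* Equiv.Perm (Fin 3)) ∧ Nonempty (↥B ≃* Equiv.Perm (Fin 3)) ∧ A ⊓ B = ⊥ ∧ (∀ a ∈ A, ∀ b ∈ B, a * b = b * a) ∧
      (A ⊔ B).index = 2 ∧ ∃ g : ↥(Cfsg.isometryGroup (ZMod 2) (Cfsg.quadFormPlus 2 (ZMod 2))), A.map (MulAut.conj g).toMonoidHom = B := by
  have hc : Nat.card (isometryGroup (ZMod 2) (quadFormPlus 2 (ZMod 2))) = 72 := by
    rw [card_isoPlus 1, Nat.card_zmod]; decide +kernel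
  obtain ⟨ι, -⟩ := exists_hom F2 (F := ZMod 2) rfl
  obtain ⟨φ, h⟩ := model_iso ι finSumFinEquiv E (quadFormPlus_eq ι 2) (m := 11) ok
    (by decide +kernel) hc.le
  obtain ⟨e⟩ := h.equiv
  obtain ⟨A, fA, -, hA⟩ := exists_subgroup_equiv e (grp_le_of_memOK h.chain (l := AG) (by decide +kernel))
  obtain ⟨B, fB, -, hB⟩ := exists_subgroup_equiv e (grp_le_of_memOK h.chain (l := BG) (by decide +kernel))
  obtain ⟨C, fC, -, hC⟩ := exists_subgroup_equiv e (grp_le_of_memOK h.chain (l := CG) (by decide +kernel))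
  obtain ⟨i⟩ := i_equiv
  obtain ⟨g, hg, hgP⟩ := h.chain.inG_of_sift (P := gP) (by decide +kernel) (by decide +kernel)
  have h1 : A.map (MulAut.conj (e.symm ⟨g, hg⟩)).toMonoidHom = B := by
    refine Subgroup.eq_of_le_of_card_ge ?_ ?_
    · rintro _ ⟨a, ha, rfl⟩
      have := A_chain.forall_of_allElts (f := fun P => sift 3 8 6 BCL (comp3 3 8 6 gP P (inv 3 8 6 gP)))
        (by decide +kernel) _ ((hA a).1 ha)
      rw [← hgP, ← E.pk_inv, ← E.pk_mul3, ← B_chain.mem_iff_sift] at this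
      simpa [hB] using this
    · rw [Subgroup.card_map_of_injective (MulAut.conj _).injective, Nat.card_congr fA.toEquiv,
        Nat.card_congr fB.toEquiv, A_card, B_card]
  have f := (fA.trans i).trans Subgroup.topEquiv
  refine ⟨hc, A, B, ⟨f⟩, ⟨((MulEquiv.subgroupCongr h1).symm.trans
    ((MulAut.conj _).subgroupMap A).symm).trans f⟩, ?_, fun a ha b hb => ?_, ?_, _, h1⟩
  · rw [eq_bot_iff]
    rintro a ⟨ha, hb⟩
    have := A_chain.forall_of_allElts (f := fun P => bimp (sift 3 8 6 BCL P) (Nat.beq P (idP 3 6)))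
      (by decide +kernel) _ ((hA a).1 ha)
    rw [bimp_iff, ← B_chain.mem_iff_sift, beq_iff, ← E.pk_one, E.pk_inj] at this
    exact e.map_eq_one_iff.1 (Subtype.ext (this ((hB a).1 hb)))
  · have := B_chain.forall_of_allElts (A_chain.forall_of_allElts (f := fun P => allElts 3 8 6
      (fun Q => Nat.beq (comp 3 8 6 P Q) (comp 3 8 6 Q P)) BCL (idP 3 6)) (by decide +kernel) _
      ((hA a).1 ha)) _ ((hB b).1 hb)
    rw [beq_iff, ← E.pk_mul, ← E.pk_mul, E.pk_inj] at this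
    exact e.injective (Subtype.ext (by simpa using this))
  · have h2 : A ⊔ B = C := by
      refine le_antisymm (sup_le (fun a ha => (hC a).2 (grp_le_of_memOK C_chain (by decide +kernel)
        ((hA a).1 ha))) fun a ha => (hC a).2 (grp_le_of_memOK C_chain (by decide +kernel)
        ((hB a).1 ha))) fun a ha => ?_
      have h3 : E.grp CG ≤ ((A ⊔ B).map e.toMonoidHom).map (Subgroup.subtype _) := by
        refine Enc.grp_le fun P hP => ?_
        obtain ⟨x, hx, rfl⟩ := inG_of_memOK h.chain (l := CG) (by decide +kernel) P hP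
        refine ⟨x, ⟨⟨x, hx⟩, ⟨e.symm ⟨x, hx⟩, ?_, by simp⟩, rfl⟩, rfl⟩
        rcases List.mem_append.1 (show E.pk x ∈ AG ++ BG from hP) with h4 | h4
        · exact Subgroup.mem_sup_left ((hA _).2 (by
            rw [e.apply_symm_apply]; exact Subgroup.subset_closure h4))
        · exact Subgroup.mem_sup_right ((hB _).2 (by
            rw [e.apply_symm_apply]; exact Subgroup.subset_closure h4))
      obtain ⟨_, ⟨y, hy, rfl⟩, h5⟩ := h3 ((hC a).1 ha)
      exact e.injective (Subtype.ext h5) ▸ hy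
    have h3 := C.card_mul_index
    rw [hc, Nat.card_congr fC.toEquiv, C_card] at h3
    rw [h2]; omega

end Cfsg.Agent.S2566
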