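import Cfsg.Statements.S2567

set_option autoImplicit false
open Cfsg

namespace Cfsg.Agent.S2567

theorem aux {G : Type*} [Group G] (Z : Subgroup G) [Z.Normal] (hZ : Z ≤ Subgroup.center G)
    (m r : ℕ) (hm : ∀ z ∈ Z, z ^ m = 1) (hr : r.Prime) (hc : Nat.Coprime r m)
    (x : G ⧸ Z) (hx : orderOf x = r) :
    ∃! g : G, (QuotientGroup.mk g : G ⧸ Z) = x ∧ orderOf g = r := by
  haveI := Fact.mk hr
  obtain ⟨g0, rfl⟩ := QuotientGroup.mk_surjective x
  have h1 : g0 ^ r ∈ Z := by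
    rw [← QuotientGroup.eq_one_iff, QuotientGroup.mk_pow, ← hx, pow_orderOf_eq_one]
  obtain ⟨k, hk1, hk2⟩ := Nat.chineseRemainder hc 1 0
  have hx1 : (QuotientGroup.mk g0 : G ⧸ Z) ≠ 1 := by
    intro h
    rw [h, orderOf_one] at hx
    exact hr.one_lt.ne hx
  have hmk : (QuotientGroup.mk (g0 ^ k) : G ⧸ Z) = QuotientGroup.mk g0 := by
    rw [QuotientGroup.mk_pow]
    conv_rhs => rw [← pow_one (QuotientGroup.mk g0 : G ⧸ Z)]
    rw [pow_eq_pow_iff_modEq, hx]
    exact hk1
  obtain ⟨j, hj⟩ : m ∣ k := (Nat.modEq_zero_iff_dvd).1 hk2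
  have hord : orderOf (g0 ^ k) = r := by
    apply orderOf_eq_prime
    · rw [← pow_mul, mul_comm, pow_mul, hj, pow_mul, hm _ h1, one_pow]
    · intro h
      apply hx1
      rw [← hmk, h]
      rfl
  refine ⟨g0 ^ k, ⟨hmk, hord⟩, ?_⟩
  rintro g ⟨hg1, hg2⟩
  rw [← hmk, QuotientGroup.eq] at hg1
  set z := g⁻¹ * g0 ^ k with hz
  have hgz : g0 ^ k = g * z := by rw [hz]; group
  have hcomm : Commute g z := (Subgroup.mem_center_iff.1 (hZ hg1)) g
  have hzr : z ^ r = 1 := by
    have h2 : (g0 ^ k) ^ r = 1 := by rw [← hord, pow_orderOf_eq_one]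
    have h3 : g ^ r = 1 := by rw [← hg2, pow_orderOf_eq_one]
    rw [hgz, hcomm.mul_pow, h3, one_mul] at h2
    exact h2
  have hz1 : z = 1 := by
    have := (pow_gcd_eq_one (a := z) (m := r) (n := m)).2 ⟨hzr, hm z hg1⟩
    rwa [hc, pow_one] at this
  rw [hgz, hz1, mul_one]


/-- Lifting elements of prime order from PGL to GL: let F be a finite field with q elements, r a prime not dividing q − 1, and x an element of order r in GL_n(F) modulo its centre (the scalar matrices). Then x has exactly one preimage in GL_n(F) of order r. -/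
theorem result {F : Type*} [Field F] [Fintype F] {q n r : ℕ} (hF : Fintype.card F = q) (hr : r.Prime) (hdiv : ¬ r ∣ q - 1) (x : GL (Fin n) F ⧸ Subgroup.center (GL (Fin n) F)) (hx : orderOf x = r) : ∃! g : GL (Fin n) F, (QuotientGroup.mk g : GL (Fin n) F ⧸ Subgroup.center (GL (Fin n) F)) = x ∧ orderOf g = r := by
  classical
  refine aux _ le_rfl (q - 1) r ?_ hr ((Nat.Prime.coprime_iff_not_dvd hr).2 hdiv) x hx
  intro z hz
  rw [Matrix.GeneralLinearGroup.center_eq_range_scalar] at hz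
  obtain ⟨u, rfl⟩ := hz
  rw [← map_pow, ← hF, ← Fintype.card_units, pow_card_eq_one, map_one]

end Cfsg.Agent.S2567
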