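import Cfsg.Statements.S2569
import Mathlib
import Cfsg.Agent.H66.Semisimple

set_option autoImplicit false
open Cfsg

namespace Cfsg.Agent.S2569


/-- In GL_n over a finite field of characteristic p, the conjugacy class of a semisimple element (an element of order prime to p) under the special linear group is its whole GL-conjugacy class: for every such x and every invertible g there is h of determinant one with h x h⁻¹ = g x g⁻¹. -/
theorem result {F : Type*} [Field F] [Fintype F] {p : ℕ} [Fact p.Prime] [CharP F p] {n : ℕ} (x g : GL (Fin n) F) (hx : (orderOf x).Coprime p) : ∃ h : GL (Fin n) F, (h : Matrix (Fin n) (Fin n) F).det = 1 ∧ h * x * h⁻¹ = g * x * g⁻¹ := by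
  rcases isEmpty_or_nonempty (Fin n) with hι | hι
  · exact ⟨1, by simp, Subsingleton.elim _ _⟩
  have hss := H66.isSS_of_orderOf (Units.coeHom (Matrix (Fin n) (Fin n) F)) p hx
  have hd : (g : Matrix (Fin n) (Fin n) F).det ≠ 0 := (Matrix.GeneralLinearGroup.det g).ne_zero
  obtain ⟨C, hC, hCd⟩ := hss.exists_commute_det_eq (inv_ne_zero hd)
  have hC' : C * x = x * C := Units.ext hC
  refine ⟨g * C, by rw [Units.val_mul, Matrix.det_mul, hCd, mul_inv_cancel₀ hd], ?_⟩
  calc g * C * x * (g * C)⁻¹ = g * (C * x) * C⁻¹ * g⁻¹ := by group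
    _ = g * x * g⁻¹ := by rw [hC']; group

end Cfsg.Agent.S2569
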