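import Cfsg.Statements.S2570
import Mathlib
import Cfsg.Agent.H67.Regular
import Cfsg.Agent.H67.ClassCount

set_option autoImplicit false
open Cfsg

namespace Cfsg.Agent.S2570

open Polynomial Module

theorem pow_eq_one_iff {F : Type*} [Field F] {p : ℕ} [Fact p.Prime] [CharP F p] {n : ℕ}
    (g : GL (Fin n) F) :
    g ^ p = 1 ↔ (Matrix.toLin' (g : Matrix (Fin n) (Fin n) F) - 1) ^ p = 0 := by
  have h1 : (X - 1 : F[X]) ^ p = X ^ p - 1 := by rw [sub_pow_char, one_pow]
  rw [← H67.aeval_X_sub_one_pow (F := F), h1, map_sub, map_pow, aeval_X, map_one, sub_eq_zero,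
    H67.toLin'_pow', Units.ext_iff, Units.val_pow_eq_pow_val, Units.val_one,
    ← Matrix.toLin'.injective.eq_iff, Matrix.toLin'_one]
  rfl


/-- Number of conjugacy classes of elements of order p in GL_n over a finite field of characteristic p: they correspond to the Jordan types, that is, to the partitions of n with all parts at most p other than the partition into ones, so there are (number of partitions of n with parts ≤ p) − 1 of them. -/
theorem result {F : Type*} [Field F] [Fintype F] {p : ℕ} [Fact p.Prime] [CharP F p] (n : ℕ) : Nat.card {C : ConjClasses (GL (Fin n) F) // ∃ g : GL (Fin n) F, ConjClasses.mk g = C ∧ orderOf g = p} = (Finset.univ.filter (fun μ : Nat.Partition n => ∀ a ∈ μ.parts, a ≤ p)).card - 1 := by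
  classical
  rw [H67.card_conjClasses_orderOf_prime Fact.out]
  congr 1
  rw [← Fintype.card_subtype, ← Nat.card_eq_fintype_card]
  refine H67.card_conjClasses_eq_of_rel _ (fun (μ : {μ : Nat.Partition n // ∀ a ∈ μ.parts, a ≤ p}) g =>
    ∀ k, finrank F (LinearMap.ker ((Matrix.toLin' (g : Matrix (Fin n) (Fin n) F) - 1) ^ k)) =
      (μ.1.parts.map (min · k)).sum) ?_ ?_ ?_ ?_
  · rintro ⟨μ, hμ⟩
    obtain ⟨t, e, he⟩ := H67.exists_fin_enum μ.parts
    haveI := H67.finite_model (F := F) (f := fun i => (X - 1 : F[X]) ^ e i)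
      fun i => pow_ne_zero _ H67.irreducible_X_sub_one.ne_zero
    obtain ⟨A, hA⟩ := H67.exists_matrix_sim (ι := Fin n) (H67.modT fun i => (X - 1 : F[X]) ^ e i) (by
      rw [H67.finrank_model_unipotent, Fintype.card_fin, ← μ.parts_sum, ← he]; rfl)
    have h0 : (H67.modT (fun i => (X - 1 : F[X]) ^ e i) - 1) ^ p = 0 :=
      (H67.aeval_X_sub_one_pow (F := F) _ _).symm.trans
        ((H67.aeval_modT_eq_zero_iff _ _).2 fun i => pow_dvd_pow _ (hμ _ (by
          rw [← he]; exact Multiset.mem_map_of_mem _ (Finset.mem_univ_val i))))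
    have h1 : (Matrix.toLin' A - 1) ^ p = 0 := (hA.sub_one.pow p).eq_zero_iff.1 h0
    have hu : IsUnit A := by
      have h2 : (A - 1) ^ p = 0 := by
        rw [H67.toLin'_sub_one_pow] at h1
        exact Matrix.toLin'.map_eq_zero_iff.1 h1
      have := IsNilpotent.isUnit_add_one (R := Matrix (Fin n) (Fin n) F) ⟨p, h2⟩
      simpa using this
    refine ⟨hu.unit, (pow_eq_one_iff _).2 h1, fun k => ?_⟩
    rw [IsUnit.unit_spec, ← (hA.sub_one.pow k).finrank_ker, H67.finrank_ker_modT_unipotent, ← he,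
      Multiset.map_map]
    rfl
  · intro g hg
    obtain ⟨t, e, h1, h2, h3, h4⟩ := H67.exists_sim_unipotent _ ((pow_eq_one_iff g).1 hg)
    refine ⟨⟨⟨Finset.univ.val.map e, ?_, ?_⟩, ?_⟩, fun k => ?_⟩
    · intro a ha
      obtain ⟨i, -, rfl⟩ := Multiset.mem_map.1 ha
      exact h1 i
    · rw [Module.finrank_fin_fun] at h3
      exact h3
    · intro a ha
      obtain ⟨i, -, rfl⟩ := Multiset.mem_map.1 (show a ∈ Finset.univ.val.map e from ha)
      exact h2 i
    · rw [(h4.sub_one.pow k).finrank_ker, H67.finrank_ker_modT_unipotent, Multiset.map_map]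
      rfl
  · intro μ g h hg hh h1 h2
    rw [H67.isConj_gl_iff_sim]
    exact H67.sim_of_unipotent _ _ ((pow_eq_one_iff g).1 hg) ((pow_eq_one_iff h).1 hh)
      fun k => (h1 k).trans (h2 k).symm
  · intro μ ν g h hg hh h1 h2 h3
    rw [H67.isConj_gl_iff_sim] at h3
    refine Subtype.ext (Nat.Partition.ext (H67.multiset_eq_of_sum_min (fun a ha => μ.1.parts_pos ha)
      (fun a ha => ν.1.parts_pos ha) fun k => ?_))
    rw [← h1, ← h2, (h3.sub_one.pow k).finrank_ker]

end Cfsg.Agent.S2570
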