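import Cfsg.Statements.S2571
import Mathlib
import Cfsg.Agent.H67.Regular

set_option autoImplicit false
open Cfsg

namespace Cfsg.Agent.S2571


/-- Centraliser of a regular unipotent element in GL_n(q): if u is an invertible n × n matrix over the field with q elements, n ≥ 1, with (u − 1)^n = 0 and rank(u − 1) = n − 1 (a single unipotent Jordan block), then its centraliser in GL_n(q) has order (q − 1) q^(n−1). -/
theorem result {F : Type*} [Field F] [Fintype F] {q n : ℕ} (hF : Fintype.card F = q) (hn : 1 ≤ n) (u : GL (Fin n) F) (hnil : ((u : Matrix (Fin n) (Fin n) F) - 1) ^ n = 0) (hreg : ((u : Matrix (Fin n) (Fin n) F) - 1).rank = n - 1) : Nat.card ↥(Subgroup.centralizer ({u} : Set (GL (Fin n) F))) = (q - 1) * q ^ (n - 1) := by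
  rw [H67.card_centralizer_gl,
    (H67.sim_regular_matrix hnil (by simpa using hreg)).centCard_eq, H67.centCard_mulLeft_root,
    H67.card_units_adjoinRoot_pow H67.irreducible_X_sub_one (by simp; omega),
    H67.natDegree_X_sub_one, Nat.card_eq_fintype_card, hF, Fintype.card_fin, mul_one, mul_one]
  obtain ⟨k, rfl⟩ : ∃ k, n = k + 1 := ⟨n - 1, by omega⟩
  rw [Nat.add_sub_cancel, Nat.sub_mul, pow_succ', one_mul]

end Cfsg.Agent.S2571
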