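import Cfsg.Statements.S2574
import Mathlib
import Cfsg.Agent.H67.Regular
import Cfsg.Agent.H27.Sp

set_option autoImplicit false
open Cfsg

namespace Cfsg.Agent.S2574


/-- A regular unipotent element of the symplectic group has totally isotropic small invariant subspaces: over a finite field, if u ∈ Sp_2m(F) satisfies (u − 1)^(2m) = 0 and rank(u − 1) = 2m − 1, and W is a u-invariant subspace with 2 dim W ≤ 2m, then the alternating form vanishes identically on W. -/
theorem result {F : Type*} [Field F] [Finite F] {m : ℕ} (u : Matrix.symplecticGroup (Fin m) F) (hnil : ((u : Matrix (Fin m ⊕ Fin m) (Fin m ⊕ Fin m) F) - 1) ^ (2 * m) = 0) (hreg : ((u : Matrix (Fin m ⊕ Fin m) (Fin m ⊕ Fin m) F) - 1).rank = 2 * m - 1) (W : Submodule F (Fin m ⊕ Fin m → F)) (hW : ∀ v ∈ W, (u : Matrix (Fin m ⊕ Fin m) (Fin m ⊕ Fin m) F).mulVec v ∈ W) (hdim : 2 * Module.finrank F W ≤ 2 * m) : ∀ v ∈ W, ∀ w ∈ W, Cfsg.sympForm m F v w = 0 := by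
  classical
  set A : Matrix (Fin m ⊕ Fin m) (Fin m ⊕ Fin m) F := u.1 with hA
  have h1 := H67.toLin'_sub_one_pow_eq_zero hnil
  have h2 := H67.finrank_ker_le_one_of_rank (A := A) (by rw [hreg]; simp [two_mul])
  have hsurj : ∀ x ∈ W, ∃ y ∈ W, A.mulVec y = x := by
    intro x hx
    let f : W → W := fun w => ⟨A.mulVec w, hW w w.2⟩
    have hf : Function.Injective f := by
      intro a b hab
      have h3 : A.mulVec a = A.mulVec b := congrArg Subtype.val hab
      apply Subtype.ext
      rw [← H27.sp_inv_mulVec_mulVec u a, ← H27.sp_inv_mulVec_mulVec u b]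
      exact congrArg _ h3
    obtain ⟨w, hw⟩ := Finite.injective_iff_surjective.1 hf ⟨x, hx⟩
    exact ⟨w, w.2, congrArg Subtype.val hw⟩
  have hW' : ∀ v ∈ (H27.sympBilin m F).orthogonal W, Matrix.toLin' A v ∈ (H27.sympBilin m F).orthogonal W := by
    intro v hv x hx
    obtain ⟨y, hy, rfl⟩ := hsurj x hx
    have := hv y hy
    change H27.sympBilin m F _ _ = 0 at this ⊢
    rw [H27.sympBilin_apply] at this ⊢
    exact (H27.sp_sympForm u y v).trans this
  have h3 := H67.invariant_eq_ker_pow_of_regular _ h1 h2 W hW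
  have h4 := H67.invariant_eq_ker_pow_of_regular _ h1 h2 _ hW'
  have h5 := LinearMap.BilinForm.finrank_orthogonal (H27.sympBilin_nondegenerate (m := m) (F := F)) W
  have h6 : W ≤ (H27.sympBilin m F).orthogonal W := by
    rw [h4]
    conv_lhs => rw [h3]
    apply (LinearMap.iterateKer (Matrix.toLin' A - 1)).monotone
    rw [h5]
    simp only [Module.finrank_fintype_fun_eq_card, Fintype.card_sum, Fintype.card_fin]
    omega
  intro v hv w hw
  have := h6 hw v hv
  change H27.sympBilin m F _ _ = 0 at this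
  rwa [H27.sympBilin_apply] at this

end Cfsg.Agent.S2574
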