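import Cfsg.Statements.S2575
import Mathlib
import Cfsg.Agent.H67.FinField

set_option autoImplicit false
open Cfsg

namespace Cfsg.Agent.S2575


/-- Which diagonal involutions of PGL_n(q) lie in PSL_n(q), q odd: for the diagonal matrix t with i entries −1 and n − i entries 1, some non-zero scalar multiple of t has determinant one if and only if i is even or the 2-part of q − 1 exceeds the 2-part of n (that is, −1 is an n-th power in the field exactly in the latter case). -/
theorem result {F : Type*} [Field F] [Fintype F] {q : ℕ} (hF : Fintype.card F = q) (hq : Odd q) {n : ℕ} (hn : 1 ≤ n) (i : ℕ) (hi : i ≤ n) : (∃ c : F, c ≠ 0 ∧ (c • Matrix.diagonal (fun j : Fin n => if (j : ℕ) < i then (-1 : F) else 1)).det = 1) ↔ (Even i ∨ padicValNat 2 n < padicValNat 2 (q - 1)) := by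
  have hq1 : 1 < q := hF ▸ Fintype.one_lt_card
  have hq0 : q - 1 ≠ 0 := by omega
  have hne : (-1 : F) ≠ 1 := H67.neg_one_ne_one_of_odd (hF ▸ hq)
  have hdet : ∀ c : F, (c • Matrix.diagonal (fun j : Fin n => if (j : ℕ) < i then (-1 : F) else 1)).det
      = c ^ n * (-1) ^ i := by
    intro c
    rw [Matrix.det_smul, Fintype.card_fin, Matrix.det_diagonal, Finset.prod_ite, Finset.prod_const,
      Finset.prod_const_one, mul_one, Fin.card_filter_val_lt, min_eq_right hi]
  simp only [hdet]
  rcases Nat.even_or_odd i with hi2 | hi2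
  · simp only [hi2, true_or, iff_true]
    exact ⟨1, one_ne_zero, by simp [hi2.neg_one_pow]⟩
  · have : ¬ Even i := Nat.not_even_iff_odd.2 hi2
    simp only [this, false_or, hi2.neg_one_pow, mul_neg_one, neg_eq_iff_eq_neg]
    rw [H67.field_isPow_iff hF n (-1) (neg_ne_zero.2 one_ne_zero), neg_one_pow_eq_one_iff_even hne,
      even_iff_two_dvd]
    have := H67.two_pow_dvd_mul_div_gcd_iff (s := 1) hq0 (show n ≠ 0 by omega) one_ne_zero
    rw [pow_one, one_mul] at this
    rw [this, padicValNat.one]
    have h2 : 1 ≤ padicValNat 2 (q - 1) := by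
      rw [← padicValNat_dvd_iff_le hq0, pow_one]
      obtain ⟨k, hk⟩ := hq
      exact ⟨k, by omega⟩
    omega

end Cfsg.Agent.S2575
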