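import Cfsg.Statements.S2576
import Mathlib
import Cfsg.Agent.H67.FinField

set_option autoImplicit false
open Cfsg

namespace Cfsg.Agent.S2576


/-- Which involutions of PGL_2m(q) coming from a scalar of the quadratic extension field lie in PSL_2m(q), q odd: let μ generate the Sylow 2-subgroup of the multiplicative group of the field with q elements (μ has order the 2-part of q − 1) and let t be the block-diagonal matrix with m diagonal blocks [[0, 1], [μ, 0]] (so t² is the scalar μ and t is an involution modulo scalars). Then some non-zero scalar multiple of t has determinant one if and only if q ≡ 3 (mod 4) or the 2-part of q − 1 is less than the 2-part of 2m. -/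
theorem result {F : Type*} [Field F] [Fintype F] {q : ℕ} (hF : Fintype.card F = q) (hq : Odd q) {m : ℕ} (hm : 1 ≤ m) (μ : F) (hμ : orderOf μ = 2 ^ padicValNat 2 (q - 1)) : (∃ c : F, c ≠ 0 ∧ (c • Matrix.blockDiagonal (fun _ : Fin m => !![(0 : F), 1; μ, 0])).det = 1) ↔ (q % 4 = 3 ∨ padicValNat 2 (q - 1) < padicValNat 2 (2 * m)) := by
  have hq1 : 1 < q := hF ▸ Fintype.one_lt_card
  have hq0 : q - 1 ≠ 0 := by omega
  have hne : (-1 : F) ≠ 1 := H67.neg_one_ne_one_of_odd (hF ▸ hq)
  have hdet : ∀ c : F, (c • Matrix.blockDiagonal (fun _ : Fin m => !![(0 : F), 1; μ, 0])).det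
      = c ^ (2 * m) * (-μ) ^ m := by
    intro c
    rw [Matrix.det_smul, Matrix.det_blockDiagonal]
    simp [Matrix.det_fin_two]
  simp only [hdet]
  have h2 : 1 ≤ padicValNat 2 (q - 1) := by
    rw [← padicValNat_dvd_iff_le hq0, pow_one]
    obtain ⟨k, hk⟩ := hq
    exact ⟨k, by omega⟩
  have hμ0 : μ ≠ 0 := by
    rintro rfl
    rw [orderOf_zero] at hμ
    exact (pow_pos two_pos _).ne hμ
  have hμ1 : (-μ) ^ m ≠ 0 := pow_ne_zero _ (neg_ne_zero.2 hμ0)
  have hiff : (∃ c : F, c ≠ 0 ∧ c ^ (2 * m) * (-μ) ^ m = 1) ↔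
      ∃ c : F, c ≠ 0 ∧ c ^ (2 * m) = (-μ) ^ m := by
    constructor
    · rintro ⟨c, hc, h⟩
      refine ⟨c⁻¹, inv_ne_zero hc, ?_⟩
      rw [inv_pow]
      exact (eq_inv_of_mul_eq_one_right h).symm
    · rintro ⟨c, hc, h⟩
      refine ⟨c⁻¹, inv_ne_zero hc, ?_⟩
      rw [inv_pow, h, inv_mul_cancel₀ hμ1]
  rw [hiff, H67.field_isPow_iff hF _ _ hμ1, ← pow_mul, ← orderOf_dvd_iff_pow_eq_one]
  by_cases h3 : q % 4 = 3
  · simp only [h3, true_or, iff_true]
    have h4 : padicValNat 2 (q - 1) = 1 := by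
      by_contra hcon
      have : 2 ^ 2 ∣ q - 1 := by
        rw [padicValNat_dvd_iff_le hq0]
        omega
      omega
    rw [h4, pow_one] at hμ
    have h5 : μ * μ = 1 := by rw [← sq, ← hμ, pow_orderOf_eq_one]
    rcases mul_self_eq_one_iff.1 h5 with h6 | h6
    · rw [h6, orderOf_one] at hμ
      omega
    · simp [h6]
  · simp only [h3, false_or]
    have h4 : 2 ≤ padicValNat 2 (q - 1) := by
      rw [← padicValNat_dvd_iff_le hq0]
      obtain ⟨k, hk⟩ := hq
      omega
    obtain ⟨s, hs⟩ : ∃ s, padicValNat 2 (q - 1) = s + 2 := ⟨padicValNat 2 (q - 1) - 2, by omega⟩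
    have h5 : orderOf (-μ) = 2 ^ (s + 2) := by
      rw [hs] at hμ
      apply orderOf_eq_prime_pow
      · rw [Even.neg_pow (by simp [Nat.even_pow]), ← orderOf_dvd_iff_pow_eq_one, hμ,
          Nat.pow_dvd_pow_iff_le_right one_lt_two]
        omega
      · rw [Even.neg_pow (by simp [Nat.even_pow]), ← hμ, pow_orderOf_eq_one]
    rw [h5, H67.two_pow_dvd_mul_div_gcd_iff hq0 (by omega) (by omega), hs,
      padicValNat.mul (by omega) (by omega), padicValNat_self]
    omega

end Cfsg.Agent.S2576
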