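import Cfsg.Statements.S2578
import Mathlib
import Cfsg.Agent.H67.Transv
import Cfsg.Agent.H67.ClassCount

set_option autoImplicit false
open Cfsg

namespace Cfsg.Agent.S2578

open Polynomial Module


/-- Regular unipotent classes of SL_n(q): for n ≥ 2 over the field with q elements, the matrices u of determinant one with (u − 1)^n = 0 and rank(u − 1) = n − 1 form a single GL_n(q)-class which splits into exactly gcd(n, q − 1) conjugacy classes of SL_n(q). -/
theorem result {F : Type*} [Field F] [Fintype F] {q : ℕ} (hF : Fintype.card F = q) {n : ℕ} (hn : 2 ≤ n) : Nat.card {C : ConjClasses (Matrix.SpecialLinearGroup (Fin n) F) // ∃ u : Matrix.SpecialLinearGroup (Fin n) F, ConjClasses.mk u = C ∧ ((u : Matrix (Fin n) (Fin n) F) - 1) ^ n = 0 ∧ ((u : Matrix (Fin n) (Fin n) F) - 1).rank = n - 1} = Nat.gcd n (q - 1) := by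
  classical
  obtain ⟨hJ1, hJ2⟩ := H67.jordanBlock_regular (F := F) n
  set J := Cfsg.jordanBlock n F with hJ
  have hJ2' : (J - 1).rank = Fintype.card (Fin n) - 1 := by rw [hJ2, Fintype.card_fin]
  have hdJ : J.det = 1 := by
    have := H67.det_aeval_of_unipotent hJ1 X
    simpa using this
  have hcard : Nat.card (Fˣ ⧸ (powMonoidHom n : Fˣ →* Fˣ).range) = Nat.gcd n (q - 1) := by
    rw [← Subgroup.index_eq_card, IsCyclic.index_powMonoidHom_range, Nat.card_units,
      Nat.card_eq_fintype_card, hF, Nat.gcd_comm]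
  rw [← hcard]
  haveI : Nonempty (Fin n) := ⟨⟨0, by omega⟩⟩
  refine H67.card_conjClasses_eq_of_rel _ (fun c u => ∃ P : GL (Fin n) F,
    (P : Matrix (Fin n) (Fin n) F) * J * (P⁻¹ : GL (Fin n) F) = u ∧
      QuotientGroup.mk (Matrix.GeneralLinearGroup.det P) = c) ?_ ?_ ?_ ?_
  · intro c
    obtain ⟨a, rfl⟩ := QuotientGroup.mk_surjective c
    obtain ⟨P, rfl⟩ := Matrix.GeneralLinearGroup.det_surjective (n := Fin n) a
    refine ⟨⟨P * J * (P⁻¹ : GL (Fin n) F), ?_⟩, ⟨?_, ?_⟩, P, rfl, rfl⟩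
    · rw [Matrix.det_units_conj, hdJ]
    · rw [Matrix.SpecialLinearGroup.coe_mk, H67.conj_sub_one, Units.conj_pow, hJ1]
      simp
    · rw [Matrix.SpecialLinearGroup.coe_mk, H67.conj_sub_one, H67.rank_conj, hJ2]
  · rintro u ⟨h1, h2⟩
    obtain ⟨P, hP⟩ := H67.isConj_of_regular hJ1 hJ2' h1 (by rw [h2, Fintype.card_fin])
    exact ⟨_, P, by rw [hP.eq, Units.mul_inv_cancel_right], rfl⟩
  · rintro c u v - - ⟨P, hP, hPc⟩ ⟨Q, hQ, hQc⟩
    obtain ⟨a, ha⟩ := QuotientGroup.eq.1 (hQc.trans hPc.symm)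
    rw [powMonoidHom_apply] at ha
    let S : GL (Fin n) F := Q * Matrix.GeneralLinearGroup.scalar (Fin n) a * P⁻¹
    have hS : Matrix.GeneralLinearGroup.det S = 1 := by
      simp only [S, map_mul, map_inv, Matrix.GeneralLinearGroup.det_scalar, Fintype.card_fin, ha]
      group
    refine ⟨toUnits ⟨S, congrArg Units.val hS⟩, Subtype.ext ?_⟩
    change (S : Matrix (Fin n) (Fin n) F) * u = v * S
    rw [← hP, ← hQ]
    simp only [S, Units.val_mul, mul_assoc, Units.inv_mul_cancel_left]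
    congr 1
    rw [← mul_assoc, ← mul_assoc]
    congr 1
    exact (Matrix.scalar_commute _ (fun r => Commute.all _ _) J).eq
  · rintro c d u v - - ⟨P, hP, rfl⟩ ⟨Q, hQ, rfl⟩ ⟨S, hS⟩
    have hS' : ((S : Matrix.SpecialLinearGroup (Fin n) F) : Matrix (Fin n) (Fin n) F) * u =
        v * (S : Matrix.SpecialLinearGroup (Fin n) F) := congrArg Subtype.val hS.eq
    let C : GL (Fin n) F := Q⁻¹ * Matrix.SpecialLinearGroup.toGL (S : Matrix.SpecialLinearGroup (Fin n) F) * P
    have hC : (C : Matrix (Fin n) (Fin n) F) * J = J * C := by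
      have e1 : (P : Matrix (Fin n) (Fin n) F) * J = u * P := by
        rw [← hP, Units.inv_mul_cancel_right]
      have e2 : J * (Q⁻¹ : GL (Fin n) F) = (Q⁻¹ : GL (Fin n) F) * v := by
        rw [← hQ, mul_assoc, Units.inv_mul_cancel_left]
      simp only [C, Units.val_mul, Matrix.SpecialLinearGroup.coe_GL_coe_matrix]
      rw [mul_assoc, e1, ← mul_assoc, mul_assoc _ _ (u : Matrix (Fin n) (Fin n) F), hS',
        ← mul_assoc, ← e2]
      simp only [mul_assoc]
    obtain ⟨g, hg⟩ := H67.exists_aeval_of_comm_regular hJ1 hJ2' hC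
    have hd := H67.det_aeval_of_unipotent hJ1 g
    rw [← hg, Fintype.card_fin] at hd
    have hg0 : g.eval 1 ≠ 0 := by
      intro h
      rw [h, zero_pow (by omega)] at hd
      exact (Matrix.isUnits_det_units C).ne_zero hd
    symm
    rw [QuotientGroup.eq]
    refine ⟨Units.mk0 _ hg0, Units.ext ?_⟩
    have : Matrix.GeneralLinearGroup.det C = (Matrix.GeneralLinearGroup.det Q)⁻¹ *
        Matrix.GeneralLinearGroup.det P := by
      simp [C]
    rw [← this, powMonoidHom_apply, Units.val_pow_eq_pow_val, Units.val_mk0, ← hd]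
    rfl

end Cfsg.Agent.S2578
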