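import Cfsg.Statements.S2579
import Mathlib
import Cfsg.Agent.H67.Transv

set_option autoImplicit false
open Cfsg

namespace Cfsg.Agent.S2579


/-- In SL_n(F) with n ≥ 3, over a finite field F, any two transvections (matrices t with t − 1 of rank one and square zero) are conjugate by an element of SL_n(F). -/
theorem result {F : Type*} [Field F] [Finite F] {n : ℕ} (hn : 3 ≤ n) (s t : Matrix.SpecialLinearGroup (Fin n) F) (hs : Cfsg.IsTransvection (s : Matrix (Fin n) (Fin n) F)) (ht : Cfsg.IsTransvection (t : Matrix (Fin n) (Fin n) F)) : IsConj s t := by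
  classical
  let i0 : Fin n := ⟨0, by omega⟩
  let i1 : Fin n := ⟨1, by omega⟩
  let i2 : Fin n := ⟨2, by omega⟩
  have h01 : i0 ≠ i1 := by simp [i0, i1]
  have h02 : i0 ≠ i2 := by simp [i0, i2]
  have h12 : i1 ≠ i2 := by simp [i1, i2]
  obtain ⟨h1, h2⟩ := H67.isTransvection_transvection (F := F) h01 one_ne_zero
  obtain ⟨P, hP⟩ := H67.isConj_of_sq_zero hs.2 h2 (hs.1.trans h1.symm)
  obtain ⟨Q, hQ⟩ := H67.isConj_of_sq_zero h2 ht.2 (h1.trans ht.1.symm)
  have hP0 : (P : Matrix (Fin n) (Fin n) F).det ≠ 0 := (Matrix.isUnits_det_units P).ne_zero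
  have hQ0 : (Q : Matrix (Fin n) (Fin n) F).det ≠ 0 := (Matrix.isUnits_det_units Q).ne_zero
  set a := ((Q : Matrix (Fin n) (Fin n) F).det * (P : Matrix (Fin n) (Fin n) F).det)⁻¹ with ha
  let D : Matrix (Fin n) (Fin n) F := Matrix.diagonal (Function.update 1 i2 a)
  have hD : D.det = a := by
    rw [Matrix.det_diagonal, Finset.prod_update_of_mem (Finset.mem_univ _)]
    simp
  have hDt : D * Matrix.transvection i0 i1 1 = Matrix.transvection i0 i1 1 * D := by
    rw [Matrix.transvection, mul_add, add_mul, mul_one, one_mul]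
    congr 1
    ext i j
    simp only [D, Matrix.diagonal_mul, Matrix.mul_diagonal, Matrix.single_apply]
    split_ifs with h
    · rw [← h.1, ← h.2]
      simp [h02, h12]
    · simp
  refine ⟨toUnits ⟨Q * D * P, ?_⟩, Subtype.ext ?_⟩
  · rw [Matrix.det_mul, Matrix.det_mul, hD, ha]
    field_simp
  · change (Q : Matrix (Fin n) (Fin n) F) * D * P * s = t * (Q * D * P)
    rw [mul_assoc, hP.eq, ← mul_assoc, mul_assoc _ D, hDt, ← mul_assoc, hQ.eq]
    simp only [mul_assoc]

end Cfsg.Agent.S2579
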