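import Cfsg.Statements.S2581
import Mathlib
import Cfsg.Agent.H67.CentUnip

set_option autoImplicit false
open Cfsg

namespace Cfsg.Agent.S2581

theorem sum_sum_fiber {ι : Type*} [Fintype ι] (d : ι → ℕ) (M : ℕ) (hM : ∀ i, d i < M)
    (g : ℕ → ℕ → ℕ) :
    ∑ k, ∑ l, g (d k) (d l) = ∑ i ∈ Finset.range M, ∑ j ∈ Finset.range M,
      (Finset.univ.filter (fun k => d k = i)).card * (Finset.univ.filter (fun k => d k = j)).card *
        g i j := by
  have key : ∀ h : ℕ → ℕ, ∑ k, h (d k) =
      ∑ i ∈ Finset.range M, (Finset.univ.filter (fun k => d k = i)).card * h i := by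
    intro h
    rw [← Finset.sum_fiberwise_of_maps_to (s := Finset.univ) (t := Finset.range M) (g := d)
      fun k _ => Finset.mem_range.2 (hM k)]
    refine Finset.sum_congr rfl fun i _ => ?_
    rw [Finset.sum_congr rfl fun k hk => by rw [(Finset.mem_filter.1 hk).2]]
    simp
  rw [key fun i => ∑ l, g i (d l)]
  refine Finset.sum_congr rfl fun i _ => ?_
  rw [key fun j => g i j, Finset.mul_sum]
  exact Finset.sum_congr rfl fun j _ => by ring

theorem sum_split (M : ℕ) (a : ℕ → ℕ) :
    ∑ i ∈ Finset.range M, ∑ j ∈ Finset.range M, a i * a j * (min i j - if i = j then 1 else 0) =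
      2 * (∑ i ∈ Finset.range M, ∑ j ∈ Finset.range M, if i < j then i * a i * a j else 0) +
        ∑ i ∈ Finset.range M, (i - 1) * a i ^ 2 := by
  have h1 : ∀ i j, a i * a j * (min i j - if i = j then 1 else 0) =
      (if i < j then i * a i * a j else 0) + (if j < i then j * a j * a i else 0) +
        if i = j then (i - 1) * a i ^ 2 else 0 := by
    intro i j
    rcases lt_trichotomy i j with h | rfl | h
    · simp [h, h.ne, h.not_gt, min_eq_left h.le]; ring
    · simp; ring
    · simp [h, h.ne', h.not_gt, min_eq_right h.le]; ring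
  simp only [h1, Finset.sum_add_distrib]
  rw [two_mul]
  congr 1
  · congr 1
    exact Finset.sum_comm
  · refine Finset.sum_congr rfl fun i hi => ?_
    rw [Finset.sum_ite_eq, if_pos hi]


/-- Order of the centraliser in GL of a unipotent matrix of given Jordan type over the field with q elements: if the type has a_i blocks of size i (all block sizes at least 1), the invertible matrices commuting with it number q^γ · Π_i |GL_(a_i)(q)| with γ = 2 Σ_(i<j) i a_i a_j + Σ_i (i − 1) a_i² (a group of order q^γ extended by Π GL_(a_i)(q)). -/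
theorem result {F : Type*} [Field F] [Fintype F] {q : ℕ} (hF : Fintype.card F = q) {t : ℕ} (d : Fin t → ℕ) (hd : ∀ k, 1 ≤ d k) : Nat.card {g : GL ((k : Fin t) × Fin (d k)) F // (g : Matrix ((k : Fin t) × Fin (d k)) ((k : Fin t) × Fin (d k)) F) * Cfsg.jordanTypeMatrix d F = Cfsg.jordanTypeMatrix d F * (g : Matrix ((k : Fin t) × Fin (d k)) ((k : Fin t) × Fin (d k)) F)} = q ^ (2 * (∑ i ∈ Finset.range (Finset.univ.sup d + 1), ∑ j ∈ Finset.range (Finset.univ.sup d + 1), if i < j then i * (Finset.univ.filter (fun k : Fin t => d k = i)).card * (Finset.univ.filter (fun k : Fin t => d k = j)).card else 0) + ∑ i ∈ Finset.range (Finset.univ.sup d + 1), (i - 1) * (Finset.univ.filter (fun k : Fin t => d k = i)).card ^ 2) * ∏ i ∈ Finset.range (Finset.univ.sup d + 1), ∏ j : Fin ((Finset.univ.filter (fun k : Fin t => d k = i)).card), (q ^ (Finset.univ.filter (fun k : Fin t => d k = i)).card - q ^ (j : ℕ)) := by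
  have hM : ∀ k, d k < Finset.univ.sup d + 1 := fun k =>
    Nat.lt_succ_of_le (Finset.le_sup (Finset.mem_univ k))
  rw [H67.card_comm_gl_eq_centCard, (H67.sim_jordanTypeMatrix d).centCard_eq,
    H67.centCard_modT_unipotent d hd hM, hF,
    sum_sum_fiber d _ hM fun i j => min i j - if i = j then 1 else 0, sum_split]
  congr 1
  refine Finset.prod_congr rfl fun s _ => ?_
  rw [← Fintype.card_subtype, ← hF, ← Matrix.card_GL_field]
  exact Nat.card_congr (Units.mapEquiv
    (Matrix.reindexAlgEquiv F F (Fintype.equivFin _)).toMulEquiv).toEquiv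

end Cfsg.Agent.S2581
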