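import Cfsg.Statements.S2583
import Mathlib
import Cfsg.Agent.H67.UnipType

set_option autoImplicit false
open Cfsg

namespace Cfsg.Agent.S2583


/-- Which unipotent Jordan types occur in a finite orthogonal group in odd characteristic: over a finite field of odd order, a unipotent matrix with Jordan block sizes d_1, …, d_t (sum n, all at least 1) is similar to an isometry of some quadratic form on F^n with non-degenerate polar form if and only if every even block size occurs an even number of times. -/
theorem result {F : Type*} [Field F] [Fintype F] (h2 : (2 : F) ≠ 0) {n t : ℕ} (d : Fin t → ℕ) (hd : ∀ k, 1 ≤ d k) (hsum : ∑ k, d k = n) : (∃ Q : QuadraticForm F (Fin n → F), (QuadraticMap.polarBilin Q).Nondegenerate ∧ ∃ e : ((k : Fin t) × Fin (d k)) ≃ Fin n, ∃ A : ↥(Cfsg.isometryGroup F ⇑Q), IsConj (Matrix.reindex e e (Cfsg.jordanTypeMatrix d F)) ((A : Matrix.GeneralLinearGroup (Fin n) F) : Matrix (Fin n) (Fin n) F)) ↔ ∀ j : ℕ, Even j → 0 < j → Even (Finset.univ.filter (fun k : Fin t => d k = j)).card := by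
  classical
  rw [← H67.pres_false_jordanType_iff h2]
  constructor
  · rintro ⟨Q, hQ, e, A, h⟩
    exact (H67.pres_of_quad hQ (T := Matrix.toLin' A.1.1) fun x => A.2 x x).sim
      (((H67.sim_reindex e _).trans ((H67.isConj_iff_sim _ _).1 h)).symm)
  · intro h
    let e : ((k : Fin t) × Fin (d k)) ≃ Fin n := Fintype.equivOfCardEq (by simp [hsum])
    obtain ⟨Q, hQ, hA⟩ := (h.sim (H67.sim_reindex e _)).exists_quad h2
    obtain ⟨g, hg⟩ := H67.exists_mem_isometryGroup hQ hA
    exact ⟨Q, hQ, e, g, hg ▸ IsConj.refl _⟩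

end Cfsg.Agent.S2583
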