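import Cfsg.Statements.S2586
import Mathlib
import Cfsg.Agent.H67.SimKer

set_option autoImplicit false
open Cfsg

namespace Cfsg.Agent.S2586


/-- Over a finite field, every element of the symplectic group Sp_2m(F) is conjugate by an invertible matrix to its inverse. -/
theorem result {F : Type*} [Field F] [Finite F] {m : ℕ} (A : Matrix.symplecticGroup (Fin m) F) : IsConj (A : Matrix (Fin m ⊕ Fin m) (Fin m ⊕ Fin m) F) ((A⁻¹ : Matrix.symplecticGroup (Fin m) F) : Matrix (Fin m ⊕ Fin m) (Fin m ⊕ Fin m) F) := by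
  refine (H67.isConj_transpose _).trans ?_
  rw [SymplecticGroup.coe_inv]
  refine ⟨⟨-Matrix.J (Fin m) F, Matrix.J (Fin m) F, ?_, ?_⟩, ?_⟩
  · rw [neg_mul, Matrix.J_squared, neg_neg]
  · rw [mul_neg, Matrix.J_squared, neg_neg]
  · change _ * _ = _ * _
    simp only [mul_assoc, mul_neg, Matrix.J_squared, neg_neg, mul_one]

end Cfsg.Agent.S2586
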