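import Cfsg.Statements.S2590
import Mathlib
import Cfsg.Agent.H67.FormConj

set_option autoImplicit false
open Cfsg

namespace Cfsg.Agent.S2590


/-- Two semisimple elements of odd order of a finite orthogonal group (isometry group of a quadratic form on F^n with non-degenerate polar form, F finite of characteristic p; the elements have odd order prime to p) are conjugate in the orthogonal group if and only if they are conjugate in GL_n(F). -/
theorem result {F : Type*} [Field F] [Fintype F] {p : ℕ} [Fact p.Prime] [CharP F p] {n : ℕ} (Q : QuadraticForm F (Fin n → F)) (hQ : (QuadraticMap.polarBilin Q).Nondegenerate) (A B : ↥(Cfsg.isometryGroup F ⇑Q)) (hodd : Odd (orderOf A)) (hA : (orderOf A).Coprime p) : IsConj A B ↔ IsConj ((A : Matrix.GeneralLinearGroup (Fin n) F) : Matrix (Fin n) (Fin n) F) ((B : Matrix.GeneralLinearGroup (Fin n) F) : Matrix (Fin n) (Fin n) F) := by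
  classical
  refine ⟨fun h => ((Units.coeHom _).comp (Cfsg.isometryGroup F ⇑Q).subtype).map_isConj h, ?_⟩
  rintro ⟨g, hg⟩
  have hn : ((orderOf A : ℕ) : F) ≠ 0 := by
    rw [Ne, CharP.cast_eq_zero_iff F p]
    exact (Nat.Prime.coprime_iff_not_dvd Fact.out).1 hA.symm
  obtain ⟨k, hk, hk'⟩ := H67.exists_isometry_conj_quad hQ (A := Matrix.toLinAlgEquiv' A.1.1)
    (B := Matrix.toLinAlgEquiv' B.1.1) (g := Matrix.toLinAlgEquiv' g.1)
    (fun x => A.2 x x) (fun x => B.2 x x)
    (g.isUnit.map _) (by rw [← map_mul, ← map_mul, hg.eq]) (n := orderOf A)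
    (by rw [← map_pow, ← Units.val_pow_eq_pow_val, ← SubgroupClass.coe_pow, pow_orderOf_eq_one]
        simp) hn hodd
  have hu : IsUnit (Matrix.toLinAlgEquiv'.symm k.toLinearMap) :=
    ((Module.End.isUnit_iff _).2 k.bijective).map _
  refine isConj_iff.2 ⟨⟨hu.unit, fun u _ => ?_⟩, ?_⟩
  · change Q (Matrix.toLinAlgEquiv' (Matrix.toLinAlgEquiv'.symm k.toLinearMap) u) = Q u
    rw [AlgEquiv.apply_symm_apply]
    exact hk u
  · rw [mul_inv_eq_iff_eq_mul]
    refine Subtype.ext (Units.ext (Matrix.toLinAlgEquiv'.injective ?_))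
    change Matrix.toLinAlgEquiv' (Matrix.toLinAlgEquiv'.symm k.toLinearMap * A.1.1) =
      Matrix.toLinAlgEquiv' (B.1.1 * Matrix.toLinAlgEquiv'.symm k.toLinearMap)
    rw [map_mul, map_mul, AlgEquiv.apply_symm_apply, hk']

end Cfsg.Agent.S2590
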