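import Cfsg.Statements.S2591
import Mathlib
import Cfsg.Agent.H67.RegSp
import Cfsg.Agent.H67.FinField
import Cfsg.Agent.H67.ClassCount

set_option autoImplicit false
open Cfsg

namespace Cfsg.Agent.S2591

open Matrix H67

variable {F : Type*} [Field F] {m : ℕ}

theorem adj_smul_inv {P Q : GL (Fin m ⊕ Fin m) F} {e : F} (h : spAdj m F Q.1 * Q.1 = e • 1) :
    spAdj m F (Q⁻¹ * P).1 * e • (Q⁻¹ * P).1 = spAdj m F P.1 * P.1 := by
  rw [Units.val_mul, spAdj_mul, ← one_mul (Q⁻¹.1 * P.1), ← smul_mul_assoc, ← h]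
  simp only [mul_assoc, Units.mul_inv_cancel_left]
  rw [← mul_assoc (spAdj m F Q⁻¹.1), ← spAdj_mul, Units.mul_inv,
    anti_map_one _ spAdj_mul spAdj_spAdj, one_mul]

theorem adj_mul_inv {P Q : GL (Fin m ⊕ Fin m) F} (h : spAdj m F Q.1 * Q.1 = spAdj m F P.1 * P.1) :
    spAdj m F (Q * P⁻¹).1 * (Q * P⁻¹).1 = 1 := by
  rw [Units.val_mul, spAdj_mul, mul_assoc, ← mul_assoc _ Q.1, h, mul_assoc, Units.mul_inv, mul_one,
    ← spAdj_mul, Units.mul_inv, anti_map_one _ spAdj_mul spAdj_spAdj]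

theorem exists_similitude (e : Fˣ) :
    ∃ P : GL (Fin m ⊕ Fin m) F, spAdj m F P.1 * P.1 = (e : F) • 1 := by
  have h : spAdj m F (fromBlocks 1 0 0 ((e : F) • 1)) * fromBlocks 1 0 0 ((e : F) • 1) =
      (e : F) • 1 := by
    simp [spAdj_apply, J, fromBlocks_transpose, fromBlocks_neg, fromBlocks_multiply,
      ← fromBlocks_one, fromBlocks_smul]
  have hu := e.isUnit.map (algebraMap F (Matrix (Fin m ⊕ Fin m) (Fin m ⊕ Fin m) F))
  rw [Algebra.algebraMap_eq_smul_one, ← h] at hu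
  exact ⟨(isUnit_of_mul_isUnit_right hu).unit, h⟩

/-- Over a finite field of odd order and for m ≥ 1, the regular unipotent elements of Sp_2m(F) (u − 1 nilpotent of rank 2m − 1, a single Jordan block) form exactly two conjugacy classes of Sp_2m(F) (one class under the similarity group, which splits in two). -/
theorem result {F : Type*} [Field F] [Fintype F] {q : ℕ} (hF : Fintype.card F = q) (hq : Odd q) {m : ℕ} (hm : 1 ≤ m) : Nat.card {C : ConjClasses ↥(Matrix.symplecticGroup (Fin m) F) // ∃ u : Matrix.symplecticGroup (Fin m) F, ConjClasses.mk u = C ∧ ((u : Matrix (Fin m ⊕ Fin m) (Fin m ⊕ Fin m) F) - 1) ^ (2 * m) = 0 ∧ ((u : Matrix (Fin m ⊕ Fin m) (Fin m ⊕ Fin m) F) - 1).rank = 2 * m - 1} = 2 := by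
  classical
  have h2 := two_ne_zero_of_odd (hF ▸ hq)
  have hc : Fintype.card (Fin m ⊕ Fin m) = 2 * m := by simp [two_mul]
  obtain ⟨T, hT1, hT2, hT3⟩ := exists_regular_alt (F := F) m
  obtain ⟨J, hJ⟩ := hT1.exists_sp (m := m) (by simp [two_mul])
  have hJ1 : (J.1 - 1) ^ (2 * m) = 0 := by
    have := (hJ.sub_one.pow _).eq_zero_iff.1 hT2
    rwa [toLin'_sub_one_pow, LinearEquiv.map_eq_zero_iff, ← two_mul] at this
  have hJ2 : (J.1 - 1).rank = 2 * m - 1 := by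
    have h3 := finrank_ker_pow_of_regular _ hT2 hT3 1
    have h4 := finrank_ker_toLin' (J.1 - 1)
    rw [pow_one, hJ.sub_one.finrank_ker, toLin'_sub_one] at h3
    simp only [Module.finrank_prod, Module.finrank_fin_fun] at h3
    omega
  obtain ⟨R, _, _, σ, ε, a, ψ, h, hψ, hcm, hσ⟩ := exists_regular_model hm h2 J hJ1 hJ2
  have hcard : Nat.card (Fˣ ⧸ (powMonoidHom 2 : Fˣ →* Fˣ).range) = 2 := by
    rw [← Subgroup.index_eq_card, IsCyclic.index_powMonoidHom_range, Nat.card_units,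
      Nat.card_eq_fintype_card, hF]
    exact Nat.gcd_eq_right (hq.tsub_odd odd_one).two_dvd
  have hε : ∀ x, IsUnit (ψ x) → ε x ≠ 0 := fun x hx h0 => by
    haveI : Nonempty (Fin m) := ⟨⟨0, hm⟩⟩
    have := hx.pow (2 * m)
    rw [← map_pow, h.pow_eq_zero h0, map_zero] at this
    exact not_isUnit_zero this
  refine (card_conjClasses_eq_of_rel _ (fun c u => ∃ (P : GL (Fin m ⊕ Fin m) F) (e : Fˣ),
    P.1 * J.1 = u.1 * P.1 ∧ spAdj m F P.1 * P.1 = (e : F) • 1 ∧ QuotientGroup.mk e = c)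
    ?_ ?_ ?_ ?_).trans hcard
  · intro c
    obtain ⟨e, rfl⟩ := QuotientGroup.mk_surjective c
    obtain ⟨P, hP⟩ := exists_similitude (m := m) e
    obtain ⟨J', hJ'⟩ := (Group.isUnit J).map (spHom m F)
    change J'.1 = J.1 at hJ'
    refine ⟨⟨P * J.1 * (P⁻¹ : GL _ F), mem_sp_iff_spAdj.2 ?_⟩, ⟨?_, ?_⟩, P, e, by simp, hP, rfl⟩
    · rw [← hJ']
      refine adj_mul_inv (Q := P * J') ?_
      rw [Units.val_mul, spAdj_mul, mul_assoc, ← mul_assoc _ P.1, hP, smul_mul_assoc, one_mul,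
        Matrix.mul_smul, hJ', mem_sp_iff_spAdj.1 J.2]
    · rw [conj_sub_one, Units.conj_pow, hJ1]
      simp
    · rw [conj_sub_one, rank_conj, hJ2]
  · rintro u ⟨h3, h4⟩
    obtain ⟨P, hP⟩ := isConj_of_regular hJ1 (hc ▸ hJ2) h3 (hc ▸ h4)
    obtain ⟨x, hx⟩ := (hcm (spAdj m F P.1 * P.1)).1 (by
      have h5 : spAdj m F J.1 * (spAdj m F P.1 * P.1 * J.1) = spAdj m F P.1 * P.1 := by
        rw [← mul_assoc, ← mul_assoc, ← spAdj_mul, mul_assoc, hP.eq, spAdj_mul, mul_assoc,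
          ← mul_assoc _ u.1, mem_sp_iff_spAdj.1 u.2, one_mul]
      conv_rhs => rw [← h5, ← mul_assoc, mul_eq_one_comm.1 (mem_sp_iff_spAdj.1 J.2), one_mul])
    have hx' : ε x ≠ 0 := hε x (by
      rw [hx]
      refine IsUnit.mul (IsUnit.of_mul_eq_one_right (spAdj m F P⁻¹.1) ?_) P.isUnit
      rw [← spAdj_mul, Units.mul_inv, anti_map_one _ spAdj_mul spAdj_spAdj])
    obtain ⟨d, hd⟩ := h.exists_norm h2 (hψ (by rw [hσ, hx, spAdj_mul, spAdj_spAdj])) hx'
    have hd' := congrArg ψ hd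
    rw [map_mul, map_mul, hσ, hx, AlgHom.commutes, Algebra.algebraMap_eq_smul_one] at hd'
    obtain ⟨D, hD⟩ : IsUnit (ψ d) := (h.isUnit fun h0 => hx' (by
      rw [← hd, map_mul, map_mul, h0, mul_zero, zero_mul])).map ψ
    refine ⟨_, P * D⁻¹, Units.mk0 _ hx', ?_, ?_, rfl⟩
    · have := (hcm D.1).2 ⟨d, hD.symm⟩
      rw [Units.val_mul, ← mul_assoc, ← hP.eq, mul_assoc, mul_assoc]
      congr 1
      rw [Units.inv_mul_eq_iff_eq_mul, ← mul_assoc, this, Units.mul_inv_cancel_right]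
    · rw [Units.val_mul, spAdj_mul, mul_assoc, ← mul_assoc _ P.1, ← hd', ← hD, Units.val_mk0]
      simp only [Matrix.mul_smul, smul_mul_assoc, mul_one, Units.mul_inv_cancel_right]
      rw [← spAdj_mul, Units.mul_inv, anti_map_one _ spAdj_mul spAdj_spAdj]
  · rintro c u v - - ⟨P, e, hP, hP', rfl⟩ ⟨Q, e', hQ, hQ', he⟩
    obtain ⟨d, hd⟩ := QuotientGroup.eq.1 he
    rw [powMonoidHom_apply, eq_inv_mul_iff_mul_eq] at hd
    have h3 := adj_mul_inv (P := P) (Q := Q * GeneralLinearGroup.scalar _ d) (by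
      rw [Units.val_mul, hP', ← hd]
      change spAdj m F (Q.1 * scalar _ d.1) * (Q.1 * scalar _ d.1) = _
      rw [scalar_apply, ← smul_one_eq_diagonal]
      simp [spAdj_smul, hQ', smul_smul, sq, mul_comm, mul_left_comm])
    refine isConj_iff.2 ⟨⟨_, mem_sp_iff_spAdj.2 h3⟩, mul_inv_eq_iff_eq_mul.2 (Subtype.ext ?_)⟩
    change Q.1 * scalar _ d.1 * P⁻¹.1 * u.1 = v.1 * (Q.1 * scalar _ d.1 * P⁻¹.1)
    rw [scalar_apply, ← smul_one_eq_diagonal]
    simp only [Matrix.mul_smul, smul_mul_assoc, mul_one]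
    rw [← mul_assoc, ← hQ, mul_assoc, mul_assoc, (Units.inv_mul_eq_iff_eq_mul _).2 (show
      u.1 = P.1 * (J.1 * P⁻¹.1) by rw [← mul_assoc, hP, Units.mul_inv_cancel_right])]
  · rintro c d u v - - ⟨P, e, hP, hP', rfl⟩ ⟨Q, e', hQ, hQ', rfl⟩ hS
    obtain ⟨S, hS⟩ := isConj_iff.1 hS
    have hS' : S.1 * u.1 = v.1 * S.1 := congrArg Subtype.val (mul_inv_eq_iff_eq_mul.1 hS)
    obtain ⟨S', hS''⟩ := (Group.isUnit S).map (spHom m F)
    change S'.1 = S.1 at hS''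
    obtain ⟨x, hx⟩ := (hcm (Q⁻¹ * (S' * P)).1).1 (by
      simp only [Units.val_mul, hS'', mul_assoc]
      rw [hP, ← mul_assoc S.1, hS', Units.inv_mul_eq_iff_eq_mul, ← mul_assoc Q.1, hQ]
      simp [mul_assoc])
    have h3 := adj_smul_inv (P := S' * P) hQ'
    rw [← hx, Units.val_mul, spAdj_mul, mul_assoc, ← mul_assoc _ S'.1, hS'',
      mem_sp_iff_spAdj.1 S.2, one_mul, hP', ← hσ, ← map_smul, ← map_mul, ← map_one ψ, ← map_smul,
      hψ.eq_iff] at h3
    have h4 := congrArg ε h3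
    rw [map_mul, h.ev, map_smul, map_smul, map_one] at h4
    symm
    rw [QuotientGroup.eq]
    refine ⟨Units.mk0 _ (hε x (hx ▸ Units.isUnit _)), ?_⟩
    rw [powMonoidHom_apply, eq_inv_mul_iff_mul_eq]
    ext
    simp only [Units.val_mul, Units.val_pow_eq_pow_val, Units.val_mk0, smul_eq_mul] at h4 ⊢
    linear_combination h4

end Cfsg.Agent.S2591
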