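import Cfsg.Statements.S2592
import Mathlib
import Cfsg.Agent.H67.RegSp
import Cfsg.Agent.H67.FinField

set_option autoImplicit false
open Cfsg

namespace Cfsg.Agent.S2592


/-- Over a finite field with q elements, q odd, the centraliser in Sp_2m(F) (m ≥ 1) of a regular unipotent element (u − 1 nilpotent of rank 2m − 1) has order 2 q^m. -/
theorem result {F : Type*} [Field F] [Fintype F] {q : ℕ} (hF : Fintype.card F = q) (hq : Odd q) {m : ℕ} (hm : 1 ≤ m) (u : Matrix.symplecticGroup (Fin m) F) (hnil : ((u : Matrix (Fin m ⊕ Fin m) (Fin m ⊕ Fin m) F) - 1) ^ (2 * m) = 0) (hreg : ((u : Matrix (Fin m ⊕ Fin m) (Fin m ⊕ Fin m) F) - 1).rank = 2 * m - 1) : Nat.card ↥(Subgroup.centralizer ({u} : Set ↥(Matrix.symplecticGroup (Fin m) F))) = 2 * q ^ m := by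
  have h2 := H67.two_ne_zero_of_odd (hF ▸ hq)
  obtain ⟨R, _, _, σ, ε, a, ψ, h, hψ, hc, hσ⟩ := H67.exists_regular_model hm h2 u hnil hreg
  haveI := Finite.of_injective ψ hψ
  rw [← hF, ← Nat.card_eq_fintype_card, ← h.card_skew h2 rfl, ← h.card_unitary h2]
  symm
  refine Nat.card_congr (Equiv.ofBijective (fun c => ⟨⟨ψ c.1, H67.mem_sp_iff_spAdj.2 (by
    rw [← hσ, ← map_mul, c.2, map_one])⟩, Subgroup.mem_centralizer_singleton_iff.2
      (Subtype.ext ((hc _).2 ⟨_, rfl⟩))⟩) ⟨fun c d hcd => Subtype.ext (hψ ?_), ?_⟩)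
  · exact congrArg (fun x => x.1.1) hcd
  · rintro ⟨g, hg⟩
    obtain ⟨c, hc'⟩ := (hc g.1).1 (congrArg Subtype.val
      (Subgroup.mem_centralizer_singleton_iff.1 hg))
    exact ⟨⟨c, hψ (by rw [map_mul, hσ, hc', map_one, H67.mem_sp_iff_spAdj.1 g.2])⟩,
      Subtype.ext (Subtype.ext hc')⟩

end Cfsg.Agent.S2592
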