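import Cfsg.Statements.S2593
import Mathlib
import Cfsg.Agent.H67.Inv2Count
import Cfsg.Agent.H67.QuadIndex

set_option autoImplicit false
open Cfsg

namespace Cfsg.Agent.S2593


/-- Number of conjugacy classes of involutions in the symplectic group Sp_2m(F) over a finite field of characteristic two (m ≥ 1): for each s with 1 ≤ s ≤ m there is one class with rank(t − 1) = s if s is odd and two if s is even (according as v ↦ f(v, tv), f the symplectic form, vanishes identically or not), so m + ⌊m/2⌋ classes in all. -/
theorem result {F : Type*} [Field F] [Fintype F] [CharP F 2] {m : ℕ} (hm : 1 ≤ m) : Nat.card {C : ConjClasses ↥(Matrix.symplecticGroup (Fin m) F) // ∃ g : Matrix.symplecticGroup (Fin m) F, ConjClasses.mk g = C ∧ orderOf g = 2} = m + m / 2 := by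
  have h := H67.wittG_sp (F := F) m
  have h1 : ∀ u v : Fin m → F, H27.sympBilin m F (H67.inlEmb F _ _ u) (H67.inlEmb F _ _ v) = 0 :=
    fun u v => by simp [H27.sympBilin_apply, H27.sympForm_eq, H67.inlEmb_apply]
  refine h.card_classes (H67.exists_emb_alt_iff (q := fun _ => 0) _ (H67.inlEmb_injective _ _) h1 (fun _ => rfl)
    fun W hW _ => ?_) (H67.exists_emb_dot_iff (q := fun _ => 0) h.nd h.alt (by simp [two_mul]) _
      (H67.inlEmb_injective _ _) h1 fun _ => by simp)
  have := H67.two_mul_finrank_le h.nd h.alt.isRefl W.subtype_injective fun u v => hW _ u.2 _ v.2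
  simp at this
  omega

end Cfsg.Agent.S2593
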