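import Cfsg.Statements.S2680
import Mathlib
import Cfsg.Agent.H67.Inv2Count

set_option autoImplicit false
open Cfsg

namespace Cfsg.Agent.S2680


/-- Centraliser order of an involution t of Sp_2m(q), q even, with s = rank(t − 1) odd (type b_s): |C(t)| = q^(2ms − (3s² − s)/2) · |Sp_(s−1)(q)| · |Sp_(2m−2s)(q)|, where |Sp_2k(q)| = q^(k²) Π_(i=1)^k (q^(2i) − 1). -/
theorem result {F : Type*} [Field F] [Fintype F] [CharP F 2] {q : ℕ} (hF : Fintype.card F = q) {m s : ℕ} (t : Matrix.symplecticGroup (Fin m) F) (ht : t ^ 2 = 1) (hs : ((t : Matrix (Fin m ⊕ Fin m) (Fin m ⊕ Fin m) F) - 1).rank = s) (hodd : Odd s) : Nat.card ↥(Subgroup.centralizer ({t} : Set ↥(Matrix.symplecticGroup (Fin m) F))) = q ^ (2 * m * s - (3 * s ^ 2 - s) / 2) * ((q : ℕ) ^ (((s - 1) / 2) ^ 2) * ∏ i : Fin ((s - 1) / 2), (q ^ (2 * ((i : ℕ) + 1)) - 1)) * ((q : ℕ) ^ ((m - s) ^ 2) * ∏ i : Fin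 (m - s), (q ^ (2 * ((i : ℕ) + 1)) - 1)) := by
  obtain ⟨U, _, _, _, γ, h1, h2, h3, -, h5, h6⟩ := H67.exists_data_sp ht hs
  obtain ⟨n, rfl⟩ := Nat.exists_eq_add_of_le h5
  rw [h6 (2 * (s + n) * s - (3 * s ^ 2 - s) / 2) ?_, (H67.card_isom_cases h2 h3 h1).1 hodd,
    H67.spOrd_eq, H67.spOrd_eq, hF]
  obtain ⟨k, rfl⟩ := hodd
  rw [Nat.add_sub_cancel_left, show 3 * (2 * k + 1) ^ 2 = 2 * (6 * k ^ 2 + 5 * k + 1) + (2 * k + 1)
    by ring, Nat.add_sub_cancel, Nat.mul_div_cancel_left _ two_pos,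
    show 2 * (2 * k + 1 + n) * (2 * k + 1) = (2 * k ^ 2 + 3 * k + 1 + 2 * n * (2 * k + 1)) +
      (6 * k ^ 2 + 5 * k + 1) by ring, Nat.add_sub_cancel]
  ring

end Cfsg.Agent.S2680
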