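import Cfsg.Statements.S2594
import Mathlib
import Cfsg.Agent.S2680

set_option autoImplicit false
open Cfsg

namespace Cfsg.Agent.S2594


/-- Over a finite field with q elements, q even, an element t of Sp_2m(F) with rank(t − 1) = 1 (a symplectic transvection) has centraliser in Sp_2m(F) of order q^(2m−1) · |Sp_(2m−2)(q)| = q^(2m−1) · q^((m−1)²) · Π_(i=1)^(m−1) (q^(2i) − 1). -/
theorem result {F : Type*} [Field F] [Fintype F] [CharP F 2] {q : ℕ} (hF : Fintype.card F = q) {m : ℕ} (hm : 1 ≤ m) (t : Matrix.symplecticGroup (Fin m) F) (ht : ((t : Matrix (Fin m ⊕ Fin m) (Fin m ⊕ Fin m) F) - 1).rank = 1) : Nat.card ↥(Subgroup.centralizer ({t} : Set ↥(Matrix.symplecticGroup (Fin m) F))) = q ^ (2 * m - 1) * (q ^ ((m - 1) ^ 2) * ∏ i : Fin (m - 1), (q ^ (2 * ((i : ℕ) + 1)) - 1)) := by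
  have h := H67.wittG_sp (F := F) m
  have h1 : Module.finrank F (LinearMap.range (H67.spRho m F t - 1)) = 1 := by
    rw [H67.spRho_sub_one]; exact ht
  obtain ⟨⟨v, hv⟩, hv0, h2⟩ := finrank_eq_one_iff'.1 h1
  have h3 : ∀ x, ∃ c : F, H67.spRho m F t x = x + c • v := fun x => by
    obtain ⟨c, hc⟩ := h2 ⟨_, x, rfl⟩
    exact ⟨c, by rw [show c • v = _ from congrArg Subtype.val hc]; simp⟩
  have h4 : H67.spRho m F t v = v := by
    obtain ⟨c, hc⟩ := h3 v
    by_contra h5
    have hc0 : c ≠ 0 := by rintro rfl; exact h5 (by simpa using hc)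
    refine hv0 (Subtype.ext (h.nd.1 v fun y => ?_))
    obtain ⟨d, hd⟩ := h3 y
    have := h.pres t v y
    rw [hc, hd] at this
    simpa [h.alt v, hc0] using this
  have h5 : t ^ 2 = 1 := h.inj (LinearMap.ext fun x => by
    obtain ⟨c, hc⟩ := h3 x
    rw [sq, map_mul, map_one, Module.End.mul_apply, hc, map_add, map_smul, hc, h4, add_assoc,
      H67.add_self_two F, add_zero, Module.End.one_apply])
  rw [S2680.result hF t h5 ht odd_one]
  simp

end Cfsg.Agent.S2594
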