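import Cfsg.Statements.S2599
import Mathlib

set_option autoImplicit false
open Cfsg

namespace Cfsg.Agent.S2599


/-- An irreducible invariant subspace of a semisimple isometry is non-degenerate or totally singular: let Q be a quadratic form on F^n (F finite of characteristic p) with non-degenerate polar form f, x an isometry of Q of order prime to p, and U a non-zero x-invariant subspace containing no x-invariant subspace other than 0 and U. Then U meets its f-orthogonal trivially, or Q vanishes on U, or p = 2, U is a line spanned by a non-singular vector and x fixes U pointwise. -/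
theorem result {F : Type*} [Field F] [Fintype F] {p : ℕ} [Fact p.Prime] [CharP F p] {n : ℕ} (Q : QuadraticForm F (Fin n → F)) (hQ : (QuadraticMap.polarBilin Q).Nondegenerate) (x : ↥(Cfsg.isometryGroup F ⇑Q)) (hx : (orderOf x).Coprime p) (U : Submodule F (Fin n → F)) (hU0 : U ≠ ⊥) (hUx : ∀ u ∈ U, ((x : Matrix.GeneralLinearGroup (Fin n) F) : Matrix (Fin n) (Fin n) F).mulVec u ∈ U) (hirr : ∀ W : Submodule F (Fin n → F), W ≤ U → (∀ w ∈ W, ((x : Matrix.GeneralLinearGroup (Fin n) F) : Matrix (Fin n) (Fin n) F).mulVec w ∈ W) → W = ⊥ ∨ W = U) : U ⊓ LinearMap.BilinForm.orthogonal (QuadraticMap.polarBilin Q) U = ⊥ ∨ (∀ u ∈ U, Q u = 0) ∨ (p = 2 ∧ Module.finrank F U = 1 ∧ (∃ u ∈ U, Q u ≠ 0) ∧ ∀ u ∈ U, ((x : Matrix.GeneralLinearGroup (Fin n) F) : Matrix (Fin n) (Fin n) F).mulVec u = u) := by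
  classical
  set A : Matrix (Fin n) (Fin n) F := ((x : Matrix.GeneralLinearGroup (Fin n) F) : Matrix (Fin n) (Fin n) F) with hA
  have hQA : ∀ v, Q (A.mulVec v) = Q v := fun v => x.2 v v
  have hpol : ∀ u v, QuadraticMap.polar Q (A.mulVec u) (A.mulVec v) = QuadraticMap.polar Q u v := by
    intro u v
    simp only [QuadraticMap.polar, ← Matrix.mulVec_add, hQA]
  have hinj : Function.Injective A.mulVec :=
    Matrix.mulVec_injective_iff_isUnit.2 (x : Matrix.GeneralLinearGroup (Fin n) F).isUnit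
  have hsurj : ∀ u ∈ U, ∃ u' ∈ U, A.mulVec u' = u := by
    intro u hu
    let f : U → U := fun w => ⟨A.mulVec w, hUx w w.2⟩
    have hf : Function.Injective f := fun a b hab => Subtype.ext (hinj (congrArg Subtype.val hab))
    obtain ⟨w, hw⟩ := Finite.injective_iff_surjective.1 hf ⟨u, hu⟩
    exact ⟨w, w.2, congrArg Subtype.val hw⟩
  have hinv : ∀ w ∈ U ⊓ LinearMap.BilinForm.orthogonal (QuadraticMap.polarBilin Q) U,
      A.mulVec w ∈ U ⊓ LinearMap.BilinForm.orthogonal (QuadraticMap.polarBilin Q) U := by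
    rintro w ⟨hw1, hw2⟩
    refine ⟨hUx w hw1, ?_⟩
    intro u hu
    obtain ⟨u', hu', rfl⟩ := hsurj u hu
    exact (hpol u' w).trans (hw2 u' hu')
  rcases hirr _ inf_le_left hinv with h | h
  · exact Or.inl h
  right
  have hz : ∀ u ∈ U, ∀ v ∈ U, QuadraticMap.polar Q u v = 0 := by
    intro u hu v hv
    rw [← h] at hv
    exact hv.2 u hu
  have hadd : ∀ u ∈ U, ∀ v ∈ U, Q (u + v) = Q u + Q v := by
    intro u hu v hv
    have := hz u hu v hv
    rw [QuadraticMap.polar] at this
    linear_combination this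
  let S : Submodule F (Fin n → F) :=
    { carrier := {u | u ∈ U ∧ Q u = 0}
      add_mem' := by
        rintro a b ⟨ha, ha'⟩ ⟨hb, hb'⟩
        exact ⟨U.add_mem ha hb, by rw [hadd a ha b hb, ha', hb', add_zero]⟩
      zero_mem' := ⟨U.zero_mem, Q.map_zero⟩
      smul_mem' := by
        rintro c a ⟨ha, ha'⟩
        exact ⟨U.smul_mem c ha, by rw [QuadraticMap.map_smul, ha', smul_zero]⟩ }
  rcases hirr S (fun u hu => hu.1) (fun w hw => ⟨hUx w hw.1, (hQA w).trans hw.2⟩) with hS | hS
  swap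
  · left
    intro u hu
    rw [← hS] at hu
    exact hu.2
  right
  have hS' : ∀ u ∈ U, Q u = 0 → u = 0 := by
    intro u hu hq
    have : u ∈ S := ⟨hu, hq⟩
    rw [hS] at this
    exact this
  obtain ⟨u₀, hu₀, hu₀0⟩ := Submodule.exists_mem_ne_zero_of_ne_bot hU0
  have hq₀ : Q u₀ ≠ 0 := fun h => hu₀0 (hS' _ hu₀ h)
  have h2 : (2 : F) = 0 := by
    have := hz u₀ hu₀ u₀ hu₀
    rw [QuadraticMap.polar_self, two_smul, ← two_mul] at this
    exact (mul_eq_zero.1 this).resolve_right hq₀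
  have hp2 : p = 2 := by
    have := (CharP.cast_eq_zero_iff F p 2).1 (by exact_mod_cast h2)
    exact (Nat.prime_dvd_prime_iff_eq Fact.out Nat.prime_two).1 this
  subst hp2
  have hsub : ∀ u ∈ U, ∀ v ∈ U, Q u = Q v → u = v := by
    intro u hu v hv huv
    have := hS' (u + -v) (U.add_mem hu (U.neg_mem hv))
      (by rw [hadd u hu _ (U.neg_mem hv), QuadraticMap.map_neg, huv]; linear_combination Q v * h2)
    rwa [add_neg_eq_zero] at this
  refine ⟨rfl, ?_, ⟨u₀, hu₀, hq₀⟩, fun u hu => hsub _ (hUx u hu) _ hu (hQA u)⟩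
  rw [finrank_eq_one_iff']
  refine ⟨⟨u₀, hu₀⟩, fun h => hu₀0 (congrArg Subtype.val h), ?_⟩
  intro w
  obtain ⟨c, hc⟩ := FiniteField.isSquare_of_char_two (ringChar.eq F 2) (Q w / Q u₀)
  refine ⟨c, Subtype.ext (hsub _ (U.smul_mem c hu₀) _ w.2 ?_)⟩
  rw [QuadraticMap.map_smul, ← hc, smul_eq_mul, div_mul_cancel₀ _ hq₀]

end Cfsg.Agent.S2599
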