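import Cfsg.Statements.S2610
import Cfsg.Agent.H28.SpinorCalc

set_option autoImplicit false
open Cfsg

namespace Cfsg.Agent.S2610

/-- For a quadratic form Q on F^n with non-degenerate polar form, F finite of odd order and n ≥ 2 even, the isometry −1 lies in Ω (the commutator subgroup of the orthogonal group) if and only if the discriminant of Q (the determinant of the Gram matrix of its polar form) is a square. -/
theorem result {F : Type*} [Field F] [Fintype F] (h2 : (2 : F) ≠ 0) {n : ℕ} (hn : 2 ≤ n) (he : Even n) (Q : QuadraticForm F (Fin n → F)) (hQ : (QuadraticMap.polarBilin Q).Nondegenerate) : (∃ g : ↥(Cfsg.isometryGroup F ⇑Q), g ∈ Cfsg.Omega F ⇑Q ∧ ((g : Matrix.GeneralLinearGroup (Fin n) F) : Matrix (Fin n) (Fin n) F) = -1) ↔ IsSquare (Matrix.of (fun i j : Fin n => QuadraticMap.polar ⇑Q (Pi.single i 1) (Pi.single j 1))).det := by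
  have hok : H28.EichOK Q := H28.eichOK_of_two_ne_zero h2
  have := invertibleOfNonzero h2
  obtain ⟨b, hb⟩ := LinearMap.BilinForm.exists_orthogonal_basis
    (B := QuadraticMap.polarBilin Q) ⟨fun x y => QuadraticMap.polar_comm Q x y⟩
  have hb' : ∀ i j, i ≠ j → QuadraticMap.polar Q (b i) (b j) = 0 := fun i j hij => hb hij
  have hb0 : ∀ i, Q (b i) ≠ 0 := by
    intro i hi
    apply b.ne_zero i
    apply H28.eq_zero_of_polar hQ
    intro y
    rw [← b.sum_repr y, ← QuadraticMap.polarBilin_apply_apply, map_sum]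
    refine Finset.sum_eq_zero fun j _ => ?_
    rw [map_smul, QuadraticMap.polarBilin_apply_apply]
    by_cases hij : i = j
    · subst hij; rw [H28.B_self, hi]; simp
    · rw [hb' i j hij, smul_zero]
  obtain ⟨g, hg1, hg2, -⟩ := H28.exists_prod_refl Finset.univ b (fun i _ => hb0 i)
    (fun i _ j _ hij => hb' i j hij)
  have hg : H28.mat g = -1 := by
    apply H28.mat_eq_of_rho
    intro v
    rw [Matrix.neg_mulVec, Matrix.one_mulVec]
    conv_lhs => rw [← b.sum_repr v]
    conv_rhs => rw [← b.sum_repr v]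
    rw [map_sum, ← Finset.sum_neg_distrib]
    exact Finset.sum_congr rfl fun i _ => by rw [map_smul, hg2 i (Finset.mem_univ i), smul_neg]
  refine (H28.exists_mem_omega_iff hQ hok hg hg1).trans ?_
  have hn' : Module.finrank F (Fin n → F) = n := by simp
  set G : Matrix (Fin n) (Fin n) F := Matrix.of (fun i j : Fin n =>
    QuadraticMap.polar ⇑Q (Pi.single i 1) (Pi.single j 1)) with hG
  have hG' : G = LinearMap.BilinForm.toMatrix (Pi.basisFun F (Fin n))
      (QuadraticMap.polarBilin Q) := by
    ext i j; simp [hG, LinearMap.BilinForm.toMatrix_apply]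
  set c := b.reindex (finCongr hn') with hc
  have hD : LinearMap.BilinForm.toMatrix c (QuadraticMap.polarBilin Q) =
      Matrix.diagonal fun i => 2 * Q (c i) := by
    ext i j
    rw [LinearMap.BilinForm.toMatrix_apply, QuadraticMap.polarBilin_apply_apply]
    by_cases hij : i = j
    · subst hij; rw [H28.B_self, Matrix.diagonal_apply_eq]
    · rw [Matrix.diagonal_apply_ne _ hij, hc, Module.Basis.reindex_apply,
        Module.Basis.reindex_apply, hb' _ _ (by simpa using hij)]
  have h3 := LinearMap.BilinForm.toMatrix_mul_basis_toMatrix c (Pi.basisFun F (Fin n))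
    (QuadraticMap.polarBilin Q)
  rw [← hG', hD] at h3
  have h4 := congrArg Matrix.det h3
  rw [Matrix.det_mul, Matrix.det_mul, Matrix.det_transpose, Matrix.det_diagonal,
    Finset.prod_mul_distrib, Finset.prod_const, Finset.card_univ, Fintype.card_fin] at h4
  have h5 : ∏ i, Q (c i) = ∏ i, Q (b i) := by
    simp only [hc, Module.Basis.reindex_apply]
    exact Equiv.prod_comp (finCongr hn').symm (fun i => Q (b i))
  have h6 : (c.toMatrix (Pi.basisFun F (Fin n))).det ≠ 0 := by
    have := c.invertibleToMatrix (Pi.basisFun F (Fin n))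
    exact (Matrix.isUnit_det_of_invertible _).ne_zero
  obtain ⟨k, hk⟩ := he
  have h7 : ((Finset.univ : Finset (Fin (Module.finrank F (Fin n → F)))).card : ZMod 2) = 0 := by
    rw [Finset.card_univ, Fintype.card_fin, hn', hk, ← two_mul, Nat.cast_mul]
    exact mul_eq_zero_of_left rfl _
  rw [h7, ← h4, h5, eq_self, true_and]
  set d := (c.toMatrix (Pi.basisFun F (Fin n))).det
  set P := ∏ i, Q (b i)
  have h8 : d * 2 ^ k ≠ 0 := mul_ne_zero h6 (pow_ne_zero _ h2)
  constructor
  · rintro ⟨s, hs⟩
    exact ⟨d * 2 ^ k * s, by rw [hs, hk]; ring⟩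
  · rintro ⟨s, hs⟩
    refine ⟨s / (d * 2 ^ k), ?_⟩
    rw [hk] at hs
    field_simp
    linear_combination hs

end Cfsg.Agent.S2610
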