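import Cfsg.Statements.S2612
import Cfsg.Agent.H28.PlusLevi

set_option autoImplicit false
open Cfsg

namespace Cfsg.Agent.S2612

/-- For the hyperbolic quadratic form Σ x_i y_i on F^(2m) (F finite, m ≥ 1, excluding m = 2 over the field of two elements), Ω⁺_2m(F) (the commutator subgroup of the orthogonal group) contains an element interchanging the two complementary maximal totally singular subspaces {y = 0} and {x = 0} if and only if m is even (dimension divisible by 4). -/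
theorem result {F : Type*} [Field F] [Fintype F] {m : ℕ} (hm : 1 ≤ m) (h : Fintype.card F ≠ 2 ∨ m ≠ 2) : (∃ g : ↥(Cfsg.isometryGroup F (Cfsg.quadFormPlus m F)), g ∈ Cfsg.Omega F (Cfsg.quadFormPlus m F) ∧ (∀ v : Fin m ⊕ Fin m → F, (∀ i, v (Sum.inr i) = 0) → ∀ i, (((g : Matrix.GeneralLinearGroup (Fin m ⊕ Fin m) F) : Matrix (Fin m ⊕ Fin m) (Fin m ⊕ Fin m) F).mulVec v) (Sum.inl i) = 0) ∧ (∀ v : Fin m ⊕ Fin m → F, (∀ i, v (Sum.inl i) = 0) → ∀ i, (((g : Matrix.GeneralLinearGroup (Fin m ⊕ Fin m) F) : Matrix (Fin m ⊕ Fin m) (Fin m ⊕ Fin m) F).mulVec v) (Sum.inr i) = 0)) ↔ Even m := by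
  have hQ := H28.qPlus_nondeg (F := F) m
  have hok := H28.eichOK_qPlus h
  have key : ∀ g : H28.O (H28.qPlus m F), (∀ v : Fin m ⊕ Fin m → F, (∀ i, v (Sum.inr i) = 0) →
      ∀ i, H28.rho _ g v (Sum.inl i) = 0) → (H28.dickson hQ hok g = 1 ↔ Even m) := by
    intro g h1
    have h2 := (H28.maxTS_ker_inr (F := F) m).dickson_eq_one_iff hQ hok g
    rw [H28.finrank_ker_inr] at h2
    have h3 : LinearMap.ker (LinearMap.funLeft F F (Sum.inr : Fin m → Fin m ⊕ Fin m)) ⊓
        (LinearMap.ker (LinearMap.funLeft F F (Sum.inr : Fin m → Fin m ⊕ Fin m))).map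
          (H28.rho (H28.qPlus m F) g) = ⊥ := by
      rw [eq_bot_iff]
      rintro _ ⟨hx, v, hv, rfl⟩
      funext k
      rcases k with k | k
      · exact h1 v (fun i => congrFun (LinearMap.mem_ker.1 hv) i) k
      · exact congrFun (LinearMap.mem_ker.1 hx) k
    rw [h3] at h2
    simpa using h2
  constructor
  · rintro ⟨g, hg, h1, -⟩
    exact (key g h1).1 ((H28.mem_omega_iff hQ hok g).1 hg).1
  · intro hm2
    let σ : H28.O (H28.qPlus m F) := H28.mkO (H28.qPlus m F) (Matrix.fromBlocks 0 1 1 0)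
      (Matrix.fromBlocks 0 1 1 0) (by simp [Matrix.fromBlocks_multiply])
      (fun v => by rw [Matrix.fromBlocks_mulVec]; simp [H28.qPlus_apply, dotProduct_comm])
    obtain ⟨p, hp⟩ := H28.exists_isLift hQ hok σ
    have : Nonempty (Fin m) := ⟨⟨0, hm⟩⟩
    obtain ⟨A, hA⟩ := Matrix.GeneralLinearGroup.det_surjective (n := Fin m) (Units.mk0 p.2 hp.1)
    have hA' : (A : Matrix (Fin m) (Fin m) F).det = p.2 := congrArg Units.val hA
    have hx : ∀ v, H28.rho _ (σ * H28.leviHom m F A) v = Sum.elim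
        ((((A : Matrix (Fin m) (Fin m) F)⁻¹).transpose).mulVec (v ∘ Sum.inr))
        ((A : Matrix (Fin m) (Fin m) F).mulVec (v ∘ Sum.inl)) := by
      intro v
      rw [H28.rho_mul, H28.rho_apply, H28.rho_apply, H28.mat_leviHom, H28.mat_mkO,
        Matrix.fromBlocks_mulVec, Matrix.fromBlocks_mulVec]
      simp
    have h1 : ∀ v : Fin m ⊕ Fin m → F, (∀ i, v (Sum.inr i) = 0) →
        ∀ i, H28.rho _ (σ * H28.leviHom m F A) v (Sum.inl i) = 0 := by
      intro v hv i
      rw [hx, show v ∘ Sum.inr = 0 from funext hv]; simp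
    refine ⟨σ * H28.leviHom m F A, (H28.mem_omega_iff hQ hok _).2 ⟨(key _ h1).2 hm2, ?_⟩, h1, ?_⟩
    · rw [map_mul, (H28.levi_dickson_spinor hok A).2, hA', H28.spinor_of_isLift hQ hok hp,
        Int.units_mul_self]
    · intro v hv i
      show H28.rho _ (σ * H28.leviHom m F A) v (Sum.inr i) = 0
      rw [hx, show v ∘ Sum.inl = 0 from funext hv]; simp

end Cfsg.Agent.S2612
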