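import Cfsg.Statements.S2615
import Cfsg.Agent.H28.SpinorCalc
import Cfsg.Agent.H28.StdForms

set_option autoImplicit false
open Cfsg

namespace Cfsg.Agent.S2615

/-- For an elliptic form Σ_(j<m−1) x_j y_j + (z₁² + a z₁z₂ + b z₂²) (anisotropic binary part) on F^(2m), F finite with q elements, q odd, and 1 ≤ i ≤ m − 1: the involution negating the first i hyperbolic pairs and fixing the rest lies in Ω⁻_2m(q) (commutator subgroup of the orthogonal group) if and only if q^i ≡ 1 (mod 4). -/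
theorem result {F : Type*} [Field F] [Fintype F] {q : ℕ} (hF : Fintype.card F = q) (hq : Odd q) {m : ℕ} (a b : F) (hab : ∀ z₁ z₂ : F, z₁ ^ 2 + a * z₁ * z₂ + b * z₂ ^ 2 = 0 → z₁ = 0 ∧ z₂ = 0) (i : ℕ) (hi : 1 ≤ i) (him : i + 1 ≤ m) : (∃ g : ↥(Cfsg.isometryGroup F (Cfsg.quadFormMinus (m - 1) F a b)), g ∈ Cfsg.Omega F (Cfsg.quadFormMinus (m - 1) F a b) ∧ ((g : Matrix.GeneralLinearGroup ((Fin (m - 1) ⊕ Fin (m - 1)) ⊕ Fin 2) F) : Matrix ((Fin (m - 1) ⊕ Fin (m - 1)) ⊕ Fin 2) ((Fin (m - 1) ⊕ Fin (m - 1)) ⊕ Fin 2) F) = Matrix.diagonal (fun k : (Fin (m - 1) ⊕ Fin (m - 1)) ⊕ Fin 2 => if (Sum.elim (Sum.elim (fun j : Fin (m - 1) => (j : ℕ)) (fun j : Fin (m - 1) => (j : ℕ))) (fun _ : Fin 2 => i) k) < i then (-1 : F) else 1)) ↔ q ^ i % 4 = 1 := by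
  subst hF
  have h2 : (2 : F) ≠ 0 := H28.two_ne_zero_of_odd_card hq
  have hQ := H28.qMinus_nondeg (F := F) (m - 1) hab
  have hok : H28.EichOK (H28.qMinus (m - 1) F a b) := H28.eichOK_of_two_ne_zero h2
  obtain ⟨g, hg1, hg2⟩ := H28.exists_torus_lift (Q := H28.qMinus (m - 1) F a b)
    (Finset.univ.filter fun j : Fin (m - 1) => (j : ℕ) < i) (fun j => Sum.inl (Sum.inl j))
    (fun j => Sum.inl (Sum.inr j))
    (fun k : (Fin (m - 1) ⊕ Fin (m - 1)) ⊕ Fin 2 => if (Sum.elim (Sum.elim (fun j : Fin (m - 1) => (j : ℕ)) (fun j : Fin (m - 1) => (j : ℕ))) (fun _ : Fin 2 => i) k) < i then (-1 : F) else 1)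
    (H28.qMinus_polar_inl _ a b) (H28.qMinus_polar_inr _ a b) (fun j => H28.qMinus_single _ a b _)
    (fun j => H28.qMinus_single _ a b _) (by simp) (fun _ _ h => by simpa using h)
    (fun _ _ h => by simpa using h)
    (fun j hj => by simp at hj; simp [hj]) (fun j hj => by simp at hj; simp [hj])
    (fun k hk => by
      rcases k with (j | j) | j
      · have : ¬ (j : ℕ) < i := fun h => (hk j (by simpa using h)).1 rfl
        simp [this]
      · have : ¬ (j : ℕ) < i := fun h => (hk j (by simpa using h)).2 rfl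
        simp [this]
      · simp)
  rw [Finset.prod_congr rfl (g := fun _ => (-1 : F)) (fun j hj => by simp at hj; simp [hj]),
    Finset.prod_const, Fin.card_filter_val_lt, min_eq_right (by omega)] at hg2
  refine (H28.exists_mem_omega_iff hQ hok hg1 hg2).trans ?_
  rw [H28.isSquare_neg_one_pow_iff hq]; simp

end Cfsg.Agent.S2615
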