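import Cfsg.Statements.S2618
import Mathlib
import Cfsg.Agent.H27.QuadClass
import Cfsg.Agent.H67.QuadStd

set_option autoImplicit false
open Cfsg

namespace Cfsg.Agent.S2618


/-- Standard (parabolic) basis of a non-degenerate quadratic space of odd dimension 2m + 1 over a finite field (the non-degeneracy of the polar form forces the characteristic to be odd): there is a basis e_i, f_i (i < m), x with Q(e_i) = Q(f_i) = 0, B(e_i, f_j) = δ_ij (B the polar form), the e's pairwise orthogonal and the f's pairwise orthogonal, x orthogonal to all of them and Q(x) ≠ 0. -/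
theorem result {F V : Type*} [Field F] [Finite F] [AddCommGroup V] [Module F V] [FiniteDimensional F V] {m : ℕ} (hV : Module.finrank F V = 2 * m + 1) (Q : QuadraticForm F V) (hQ : (QuadraticMap.polarBilin Q).Nondegenerate) : ∃ b : Module.Basis (Unit ⊕ (Fin m ⊕ Fin m)) F V, Q (b (Sum.inl ())) ≠ 0 ∧ (∀ i, QuadraticMap.polar ⇑Q (b (Sum.inl ())) (b (Sum.inr (Sum.inl i))) = 0 ∧ QuadraticMap.polar ⇑Q (b (Sum.inl ())) (b (Sum.inr (Sum.inr i))) = 0) ∧ (∀ i, Q (b (Sum.inr (Sum.inl i))) = 0 ∧ Q (b (Sum.inr (Sum.inr i))) = 0) ∧ (∀ i j, QuadraticMap.polar ⇑Q (b (Sum.inr (Sum.inl i))) (b (Sum.inr (Sum.inr j))) = if i = j then 1 else 0) ∧ (∀ i j, QuadraticMap.polar ⇑Q (b (Sum.inr (Sum.inl i))) (b (Sum.inr (Sum.inl j))) = 0 ∧ QuadraticMap.polar ⇑Q (b (Sum.inr (Sum.inr i))) (b (Sum.inr (Sum.inr j))) = 0) := by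
  obtain ⟨c, φ, hc, hφ⟩ := H27.quad_equiv_odd hQ.1 hV
  have hp : ∀ x y, QuadraticMap.polar Q (φ.symm x) (φ.symm y) =
      c * QuadraticMap.polar (Cfsg.quadFormOdd m F) x y := by
    intro x y
    simp only [QuadraticMap.polar, hφ, ← map_add, φ.apply_symm_apply]
    ring
  let u : Unit ⊕ (Fin m ⊕ Fin m) → Fˣ :=
    Sum.elim (fun _ => 1) (Sum.elim (fun _ => (Units.mk0 c hc)⁻¹) fun _ => 1)
  refine ⟨((Pi.basisFun F _).unitsSMul u).map φ.symm, ?_, fun i => ?_, fun i => ?_,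
    fun i j => ?_, fun i j => ?_⟩ <;>
    simp only [Module.Basis.map_apply, Module.Basis.unitsSMul_apply, Pi.basisFun_apply, hp, hφ,
      φ.apply_symm_apply, H67.polar_quadFormOdd] <;>
    simp [Cfsg.quadFormOdd, Pi.single_apply, u, hc, Units.smul_def, eq_comm]

end Cfsg.Agent.S2618
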