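import Cfsg.Statements.S2620
import Mathlib
import Cfsg.Agent.H67.QuadIndex
import Cfsg.Agent.H67.FinField

set_option autoImplicit false
open Cfsg

namespace Cfsg.Agent.S2620


/-- Discriminant of the hyperbolic quadratic form Σ_(i<m) x_i y_i over a field with q elements, q odd, m ≥ 1: the determinant of the Gram matrix of its polar form in any basis is a square if and only if m(q − 1)/2 is even (equivalently q^m ≡ 1 (mod 4)). -/
theorem result {F : Type*} [Field F] [Fintype F] {q : ℕ} (hF : Fintype.card F = q) (hq : Odd q) {m : ℕ} (hm : 1 ≤ m) {ι : Type*} [Fintype ι] [DecidableEq ι] (b : Module.Basis ι F (Fin m ⊕ Fin m → F)) : IsSquare (Matrix.of (fun i j : ι => QuadraticMap.polar (Cfsg.quadFormPlus m F) (b i) (b j))).det ↔ Even (m * (q - 1) / 2) := by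
  have h := H67.isSquare_det_gram_iff (QuadraticMap.polarBilin (H67.QPlus F m)) b
    (Pi.basisFun F (Fin m ⊕ Fin m))
  simp only [QuadraticMap.polarBilin_apply_apply, H67.coe_QPlus, Pi.basisFun_apply] at h
  rw [h, H67.det_gram_plus, H67.isSquare_neg_one_pow_iff hF hq]

end Cfsg.Agent.S2620
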