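import Cfsg.Statements.S2621
import Mathlib
import Cfsg.Agent.H67.QuadIndex
import Cfsg.Agent.H67.FinField

set_option autoImplicit false
open Cfsg

namespace Cfsg.Agent.S2621


/-- Discriminant of an elliptic quadratic form Σ_(i<m−1) x_i y_i + z₁² + a z₁z₂ + c z₂² (binary part anisotropic) in dimension 2m over a field with q elements, q odd, m ≥ 1: the determinant of the Gram matrix of its polar form in any basis is a square if and only if m(q − 1)/2 is odd (equivalently q^m ≡ 3 (mod 4)). -/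
theorem result {F : Type*} [Field F] [Fintype F] {q : ℕ} (hF : Fintype.card F = q) (hq : Odd q) {m : ℕ} (hm : 1 ≤ m) (a c : F) (hac : ∀ z₁ z₂ : F, z₁ ^ 2 + a * z₁ * z₂ + c * z₂ ^ 2 = 0 → z₁ = 0 ∧ z₂ = 0) {ι : Type*} [Fintype ι] [DecidableEq ι] (b : Module.Basis ι F ((Fin (m - 1) ⊕ Fin (m - 1)) ⊕ Fin 2 → F)) : IsSquare (Matrix.of (fun i j : ι => QuadraticMap.polar (Cfsg.quadFormMinus (m - 1) F a c) (b i) (b j))).det ↔ ¬ Even (m * (q - 1) / 2) := by
  classical
  have h := H67.isSquare_det_gram_iff (QuadraticMap.polarBilin (H67.QMinus F (m - 1) a c)) b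
    (Pi.basisFun F ((Fin (m - 1) ⊕ Fin (m - 1)) ⊕ Fin 2))
  simp only [QuadraticMap.polarBilin_apply_apply, H67.coe_QMinus, Pi.basisFun_apply] at h
  rw [h, H67.det_gram_minus, ← H67.isSquare_neg_one_pow_iff hF hq, Nat.sub_add_cancel hm]
  have h2 := H67.two_ne_zero_of_odd (F := F) (hF ▸ hq)
  have hd := H67.disc_not_isSquare_of_anisotropic h2 hac
  have h1 : ((-1 : F) ^ m) ≠ 0 := pow_ne_zero _ (neg_ne_zero.2 one_ne_zero)
  have hd0 := H67.disc_ne_zero_of_anisotropic hac
  rw [← quadraticChar_one_iff_isSquare (mul_ne_zero h1 hd0), map_mul,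
    quadraticChar_neg_one_iff_not_isSquare.2 hd, ← quadraticChar_neg_one_iff_not_isSquare]
  constructor
  · intro h
    linarith
  · intro h
    rw [h]
    norm_num

end Cfsg.Agent.S2621
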