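import Cfsg.Statements.S2623
import Mathlib
import Cfsg.Agent.H27.Orth
import Cfsg.Agent.H67.FinField

set_option autoImplicit false
open Cfsg

namespace Cfsg.Agent.S2623


/-- Over a finite field of odd order, two quadratic forms on F^n with non-degenerate polar forms are isometric (related by an invertible linear change of variables) if and only if their discriminants (determinants of the Gram matrices of their polar forms) lie in the same square class. -/
theorem result {F : Type*} [Field F] [Fintype F] (h2 : (2 : F) ≠ 0) {n : ℕ} (Q₁ Q₂ : QuadraticForm F (Fin n → F)) (h₁ : (QuadraticMap.polarBilin Q₁).Nondegenerate) (h₂ : (QuadraticMap.polarBilin Q₂).Nondegenerate) : (∃ g : (Fin n → F) ≃ₗ[F] (Fin n → F), ∀ v, Q₂ (g v) = Q₁ v) ↔ IsSquare ((Matrix.of (fun i j : Fin n => QuadraticMap.polar ⇑Q₁ (Pi.single i 1) (Pi.single j 1))).det * (Matrix.of (fun i j : Fin n => QuadraticMap.polar ⇑Q₂ (Pi.single i 1) (Pi.single j 1))).det) := by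
  classical
  have hb : ∀ Q : QuadraticForm F (Fin n → F), (Matrix.of fun i j : Fin n =>
      QuadraticMap.polar Q (Pi.single i 1) (Pi.single j 1)) = Matrix.of fun i j =>
      QuadraticMap.polarBilin Q (Pi.basisFun F (Fin n) i) (Pi.basisFun F (Fin n) j) := by
    intro Q; ext; simp
  rw [hb, hb]
  constructor
  · rintro ⟨g, hg⟩
    obtain ⟨t, ht, h⟩ := H27.gram_det_eq_sq_mul (QuadraticMap.polarBilin Q₂)
      (Pi.basisFun F (Fin n)) ((Pi.basisFun F (Fin n)).map g)
    have h1 : (Matrix.of fun i j => QuadraticMap.polarBilin Q₂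
        (((Pi.basisFun F (Fin n)).map g) i) (((Pi.basisFun F (Fin n)).map g) j)) =
        Matrix.of fun i j => QuadraticMap.polarBilin Q₁
          (Pi.basisFun F (Fin n) i) (Pi.basisFun F (Fin n) j) := by
      ext i j
      simp only [Matrix.of_apply, Module.Basis.map_apply, QuadraticMap.polarBilin_apply_apply,
        QuadraticMap.polar, ← map_add, hg]
    rw [← h1, h, mul_assoc, ← sq, ← mul_pow]
    exact ⟨_, sq _⟩
  · intro h
    cases n with
    | zero => exact ⟨LinearEquiv.refl _ _, fun v => by rw [Subsingleton.elim v 0, map_zero, map_zero, map_zero]⟩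
    | succ n =>
      obtain ⟨α, hα⟩ := FiniteField.exists_nonsquare
        (H67.ringChar_ne_two_of_odd (H67.odd_card_of_two_ne_zero h2))
      have hs : ∀ Q : QuadraticForm F (Fin (n + 1) → F),
          LinearMap.BilinForm.IsSymm (QuadraticMap.polarBilin Q) := fun Q =>
        ⟨fun x y => QuadraticMap.polar_comm _ _ _⟩
      obtain ⟨b, b1, b2, b3⟩ := H27.symm_exists_basis h2 (hs Q₁) h₁.1 (n := n) (by simp) α hα
      obtain ⟨c, c1, c2, c3⟩ := H27.symm_exists_basis h2 (hs Q₂) h₂.1 (n := n) (by simp) α hα
      have hdet : ∀ (Q : QuadraticForm F (Fin (n + 1) → F))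
          (b : Module.Basis (Fin (n + 1)) F (Fin (n + 1) → F)),
          (∀ i j, i ≠ j → QuadraticMap.polarBilin Q (b i) (b j) = 0) →
          (∀ i, i ≠ Fin.last n → QuadraticMap.polarBilin Q (b i) (b i) = 1) →
          (Matrix.of fun i j => QuadraticMap.polarBilin Q (b i) (b j)).det =
            QuadraticMap.polarBilin Q (b (Fin.last n)) (b (Fin.last n)) := by
        intro Q b b1 b2
        have : (Matrix.of fun i j => QuadraticMap.polarBilin Q (b i) (b j)) =
            Matrix.diagonal fun i => QuadraticMap.polarBilin Q (b i) (b i) := by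
          ext i j
          by_cases hij : i = j
          · subst hij; simp
          · rw [Matrix.diagonal_apply_ne _ hij, Matrix.of_apply, b1 i j hij]
        rw [this, Matrix.det_diagonal, Finset.prod_eq_single (Fin.last n) (fun i _ hi => b2 i hi)
          (by simp)]
      obtain ⟨s, hs0, hs1⟩ := H27.gram_det_eq_sq_mul (QuadraticMap.polarBilin Q₁)
        (Pi.basisFun F (Fin (n + 1))) b
      obtain ⟨t, ht0, ht1⟩ := H27.gram_det_eq_sq_mul (QuadraticMap.polarBilin Q₂)
        (Pi.basisFun F (Fin (n + 1))) c
      rw [hdet _ _ b1 b2] at hs1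
      rw [hdet _ _ c1 c2] at ht1
      have hsq : IsSquare (QuadraticMap.polarBilin Q₁ (b (Fin.last n)) (b (Fin.last n)) *
          QuadraticMap.polarBilin Q₂ (c (Fin.last n)) (c (Fin.last n))) := by
        obtain ⟨r, hr⟩ := h
        exact ⟨s * t * r, by rw [hs1, ht1]; linear_combination (s * t) ^ 2 * hr⟩
      have hlast : QuadraticMap.polarBilin Q₁ (b (Fin.last n)) (b (Fin.last n)) =
          QuadraticMap.polarBilin Q₂ (c (Fin.last n)) (c (Fin.last n)) := by
        rcases b3 with b3 | b3 <;> rcases c3 with c3 | c3 <;> rw [b3, c3] at hsq ⊢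
        · exact absurd (by simpa using hsq) hα
        · exact absurd (by simpa using hsq) hα
      let g := b.equiv c (Equiv.refl _)
      have hg : (QuadraticMap.polarBilin Q₂).compl₁₂ g.toLinearMap g.toLinearMap =
          QuadraticMap.polarBilin Q₁ := by
        refine b.ext fun i => b.ext fun j => ?_
        simp only [LinearMap.compl₁₂_apply, LinearEquiv.coe_coe, g, Module.Basis.equiv_apply,
          Equiv.refl_apply]
        by_cases hij : i = j
        · subst hij
          by_cases hi : i = Fin.last n
          · rw [hi, hlast]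
          · rw [b2 i hi, c2 i hi]
        · rw [b1 i j hij, c1 i j hij]
      refine ⟨g, fun v => mul_left_cancel₀ h2 ?_⟩
      have := congrArg (fun B => B v v) hg
      simpa [QuadraticMap.polar_self, two_mul, two_smul] using this

end Cfsg.Agent.S2623
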