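import Cfsg.Statements.S2624
import Mathlib
import Cfsg.Agent.H27.QuadClass
import Cfsg.Agent.H67.QuadIndex

set_option autoImplicit false
open Cfsg

namespace Cfsg.Agent.S2624


/-- For a quadratic form Q on F^n with non-degenerate polar form, F finite and n ≥ 2 even, every non-zero scalar c is the multiplier of some similarity: there is an invertible linear map g with Q(g v) = c·Q(v) for all v. -/
theorem result {F : Type*} [Field F] [Fintype F] {n : ℕ} (hn : 2 ≤ n) (he : Even n) (Q : QuadraticForm F (Fin n → F)) (hQ : (QuadraticMap.polarBilin Q).Nondegenerate) (c : F) (hc : c ≠ 0) : ∃ g : (Fin n → F) ≃ₗ[F] (Fin n → F), ∀ v, Q (g v) = c * Q v := by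
  obtain ⟨ζ, hζ⟩ : ∃ ζ : F, ∀ t : F, t ^ 2 + t + ζ ≠ 0 := by
    by_contra h
    push Not at h
    have h1 : Function.Surjective fun t : F => -(t ^ 2 + t) := fun ζ => by
      obtain ⟨t, ht⟩ := h ζ
      exact ⟨t, by linear_combination -ht⟩
    have := Finite.injective_iff_surjective.2 h1 (a₁ := 0) (a₂ := -1) (by simp)
    simp at this
  have hab := H67.anisotropic_of_no_root hζ
  obtain ⟨m, rfl⟩ := he
  have hV : Module.finrank F (Fin (m + m) → F) = 2 * m := by simp [two_mul]
  have hQ' : (QuadraticMap.polarBilin (c • Q)).SeparatingLeft := fun x hx => hQ.1 x fun y => by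
    have := hx y
    simp only [QuadraticMap.polarBilin_apply_apply, QuadraticMap.polar, QuadraticMap.smul_apply,
      smul_eq_mul] at this ⊢
    exact mul_left_cancel₀ hc (by linear_combination this)
  have key : ∀ (d : F) (φ : (Fin (m + m) → F) ≃ₗ[F] (Fin m ⊕ Fin m → F))
      (ψ : (Fin (m + m) → F) ≃ₗ[F] ((Fin (m - 1) ⊕ Fin (m - 1)) ⊕ Fin 2 → F)),
      ¬∀ v, Cfsg.quadFormMinus (m - 1) F 1 ζ (ψ v) = d * Cfsg.quadFormPlus m F (φ v) := by
    intro d φ ψ h
    obtain ⟨U, hU, hdim⟩ := H67.exists_totally_singular_plus (F := F) m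
    have := H67.finrank_le_of_totally_singular_minus (m - 1) hab
      (U.map (φ.symm.trans ψ).toLinearMap) (by
        rintro _ ⟨u, hu, rfl⟩
        exact (h (φ.symm u)).trans (by rw [φ.apply_symm_apply, hU u hu, mul_zero]))
    rw [LinearEquiv.finrank_map_eq, hdim] at this
    omega
  rcases H27.quad_equiv_plus_or_minus hQ.1 hV hab with ⟨φ, hφ⟩ | ⟨-, φ, hφ⟩ <;>
    rcases H27.quad_equiv_plus_or_minus hQ' hV hab with ⟨ψ, hψ⟩ | ⟨-, ψ, hψ⟩
  · exact ⟨ψ.trans φ.symm, fun v => by rw [hφ]; simpa using (hψ v).symm⟩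
  · exact absurd (fun v => by rw [← hψ, ← hφ]; rfl) (key c φ ψ)
  · exact absurd (fun v => by rw [← hψ, ← hφ]; simp [hc]) (key c⁻¹ ψ φ)
  · exact ⟨ψ.trans φ.symm, fun v => by rw [hφ]; simpa using (hψ v).symm⟩

end Cfsg.Agent.S2624
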