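import Cfsg.Statements.S2625
import Mathlib
import Cfsg.Agent.H27.Orth

set_option autoImplicit false
open Cfsg

namespace Cfsg.Agent.S2625


/-- For a quadratic form Q on F^n with non-degenerate polar form, F finite and n odd (so |F| is odd), the multiplier of any similarity is a square: if g is an invertible linear map with Q(g v) = c·Q(v) for all v then c is a square. -/
theorem result {F : Type*} [Field F] [Fintype F] {n : ℕ} (hn : Odd n) (Q : QuadraticForm F (Fin n → F)) (hQ : (QuadraticMap.polarBilin Q).Nondegenerate) (g : (Fin n → F) ≃ₗ[F] (Fin n → F)) (c : F) (hg : ∀ v, Q (g v) = c * Q v) : IsSquare c := by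
  classical
  obtain ⟨t, ht, h⟩ := H27.gram_det_eq_sq_mul (QuadraticMap.polarBilin Q) (Pi.basisFun F (Fin n))
    ((Pi.basisFun F (Fin n)).map g)
  have h1 : (Matrix.of fun i j => QuadraticMap.polarBilin Q (((Pi.basisFun F (Fin n)).map g) i)
      (((Pi.basisFun F (Fin n)).map g) j)) = c • Matrix.of fun i j => QuadraticMap.polarBilin Q
        (Pi.basisFun F (Fin n) i) (Pi.basisFun F (Fin n) j) := by
    ext i j
    simp only [Matrix.of_apply, Module.Basis.map_apply, QuadraticMap.polarBilin_apply_apply,
      QuadraticMap.polar, ← map_add, hg, Matrix.smul_apply, smul_eq_mul]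
    ring
  have h2 : (Matrix.of fun i j => QuadraticMap.polarBilin Q
        (Pi.basisFun F (Fin n) i) (Pi.basisFun F (Fin n) j)).det ≠ 0 := by
    have := (LinearMap.BilinForm.nondegenerate_iff_det_ne_zero (Pi.basisFun F (Fin n))).1 hQ
    convert this using 2
    ext i j
    simp [LinearMap.BilinForm.toMatrix_apply]
  rw [h1, Matrix.det_smul, Fintype.card_fin, mul_left_inj' h2] at h
  obtain ⟨k, rfl⟩ := hn
  have hc : c ≠ 0 := by
    rintro rfl
    exact ht (pow_eq_zero_iff two_ne_zero |>.1 (by simpa using h.symm))
  refine ⟨t / c ^ k, ?_⟩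
  field_simp
  linear_combination h

end Cfsg.Agent.S2625
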