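import Cfsg.Statements.S2627
import Cfsg.Agent.H28.OrthSum

set_option autoImplicit false
open Cfsg

namespace Cfsg.Agent.S2627

/-- For an orthogonal direct sum Q = Q₁ ⊕ Q₂ of quadratic forms with non-degenerate polar forms over a finite field, an isometry g₁ of Q₁ extended by the identity on the second summand lies in Ω(Q) (the commutator subgroup of the orthogonal group of Q) if and only if g₁ lies in Ω(Q₁). (Excluded: the field of two elements when the first summand or the whole space has dimension 4, where the commutator subgroup of O⁺₄(2) is smaller than the group usually called Ω.) -/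
theorem result {F : Type*} [Field F] [Fintype F] {k l : ℕ} (h : Fintype.card F ≠ 2 ∨ (k ≠ 4 ∧ k + l ≠ 4)) (Q₁ : QuadraticForm F (Fin k → F)) (Q₂ : QuadraticForm F (Fin l → F)) (h₁ : (QuadraticMap.polarBilin Q₁).Nondegenerate) (h₂ : (QuadraticMap.polarBilin Q₂).Nondegenerate) (g₁ : ↥(Cfsg.isometryGroup F ⇑Q₁)) : (∃ g : ↥(Cfsg.isometryGroup F (fun v : Fin k ⊕ Fin l → F => Q₁ (v ∘ Sum.inl) + Q₂ (v ∘ Sum.inr))), g ∈ Cfsg.Omega F (fun v : Fin k ⊕ Fin l → F => Q₁ (v ∘ Sum.inl) + Q₂ (v ∘ Sum.inr)) ∧ ((g : Matrix.GeneralLinearGroup (Fin k ⊕ Fin l) F) : Matrix (Fin k ⊕ Fin l) (Fin k ⊕ Fin l) F) = Matrix.fromBlocks ((g₁ : Matrix.GeneralLinearGroup (Fin k) F) : Matrix (Fin k) (Fin k) F) 0 0 1) ↔ g₁ ∈ Cfsg.Omega F ⇑Q₁ := by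
  have hQ := H28.qSum_nondeg h₁ h₂
  have hok₁ : H28.EichOK Q₁ := H28.eichOK_of_card h₁ (by simp; tauto)
  have hok : H28.EichOK (H28.qSum Q₁ Q₂) := H28.eichOK_of_card hQ (by simp; tauto)
  obtain ⟨ε, c, H1, H2⟩ := H28.isLift_sumHom_left (Q₂ := Q₂) h₁ hok₁ g₁
  refine (H28.exists_mem_omega_iff hQ hok (H28.mat_sumHom g₁ 1) H2).trans ?_
  rw [← H28.exists_mem_omega_iff h₁ hok₁ rfl H1]
  constructor
  · rintro ⟨g, h1, h2⟩
    rwa [← H28.O_ext_mat h2]
  · exact fun h => ⟨g₁, h, rfl⟩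

end Cfsg.Agent.S2627
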