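import Cfsg.Statements.S2628
import Cfsg.Agent.H28.OrthSum

set_option autoImplicit false
open Cfsg

namespace Cfsg.Agent.S2628

/-- For the orthogonal direct sum Q ⊕ Q of two copies of a quadratic form Q with non-degenerate polar form on F^k (F finite), every isometry g of Q acting diagonally, diag(g, g), lies in Ω(Q ⊕ Q), the commutator subgroup of the orthogonal group of Q ⊕ Q. (Excluded: k = 2 over the field of two elements, where Q ⊕ Q is the hyperbolic 4-space whose orthogonal group's commutator subgroup is smaller than the group usually called Ω.) -/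
theorem result {F : Type*} [Field F] [Fintype F] {k : ℕ} (h : Fintype.card F ≠ 2 ∨ k ≠ 2) (Q : QuadraticForm F (Fin k → F)) (hQ : (QuadraticMap.polarBilin Q).Nondegenerate) (g : ↥(Cfsg.isometryGroup F ⇑Q)) : ∃ x : ↥(Cfsg.isometryGroup F (fun v : Fin k ⊕ Fin k → F => Q (v ∘ Sum.inl) + Q (v ∘ Sum.inr))), x ∈ Cfsg.Omega F (fun v : Fin k ⊕ Fin k → F => Q (v ∘ Sum.inl) + Q (v ∘ Sum.inr)) ∧ ((x : Matrix.GeneralLinearGroup (Fin k ⊕ Fin k) F) : Matrix (Fin k ⊕ Fin k) (Fin k ⊕ Fin k) F) = Matrix.fromBlocks ((g : Matrix.GeneralLinearGroup (Fin k) F) : Matrix (Fin k) (Fin k) F) 0 0 ((g : Matrix.GeneralLinearGroup (Fin k) F) : Matrix (Fin k) (Fin k) F) := by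
  have hQ' := H28.qSum_nondeg hQ hQ
  have hok : H28.EichOK (H28.qSum Q Q) := H28.eichOK_of_card hQ' (by simp; omega)
  refine ⟨H28.sumHom Q Q (g, g), ?_, rfl⟩
  let σ : H28.O (H28.qSum Q Q) := H28.mkO (H28.qSum Q Q) (Matrix.fromBlocks 0 1 1 0)
    (Matrix.fromBlocks 0 1 1 0) (by simp [Matrix.fromBlocks_multiply])
    (fun v => by rw [Matrix.fromBlocks_mulVec]; simp [H28.qSum_apply, add_comm])
  have e1 : H28.sumHom Q Q (1, g) * σ = σ * H28.sumHom Q Q (g, 1) := by
    apply H28.O_ext_mat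
    simp only [H28.mat_mul, H28.mat_sumHom, σ, H28.mat_mkO, Matrix.fromBlocks_multiply,
      H28.mat_one]
    simp
  have e2 : (g, g) = (g, 1) * (1, g) := by simp
  have e3 : ∀ φ : H28.O (H28.qSum Q Q) →* ℤˣ, φ (H28.sumHom Q Q (g, g)) = 1 := by
    intro φ
    have := congrArg φ e1
    rw [map_mul, map_mul, mul_comm, mul_right_inj] at this
    rw [e2, map_mul, map_mul, this, Int.units_mul_self]
  exact (H28.mem_omega_iff hQ' hok _).2 ⟨e3 _, e3 _⟩

end Cfsg.Agent.S2628
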