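import Cfsg.Statements.S2631
import Cfsg.Agent.H28.PlusLevi

set_option autoImplicit false
open Cfsg

namespace Cfsg.Agent.S2631

/-- For the hyperbolic form Σ x_i y_i on F^(2m) over a finite field (m ≥ 1, excluding m = 2 over the field of two elements), Ω (the commutator subgroup of the orthogonal group) acts transitively on each of the two classes of maximal totally singular subspaces: if U and W are m-dimensional totally singular subspaces with m − dim(U ∩ W) even, some element of Ω carries U to W. -/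
theorem result {F : Type*} [Field F] [Fintype F] {m : ℕ} (hm : 1 ≤ m) (h : Fintype.card F ≠ 2 ∨ m ≠ 2) (U W : Submodule F (Fin m ⊕ Fin m → F)) (hU : Module.finrank F U = m) (hW : Module.finrank F W = m) (hU0 : ∀ u ∈ U, Cfsg.quadFormPlus m F u = 0) (hW0 : ∀ w ∈ W, Cfsg.quadFormPlus m F w = 0) (he : Even (m - Module.finrank F ↥(U ⊓ W))) : ∃ g : ↥(Cfsg.isometryGroup F (Cfsg.quadFormPlus m F)), g ∈ Cfsg.Omega F (Cfsg.quadFormPlus m F) ∧ U.map (Matrix.mulVecLin ((g : Matrix.GeneralLinearGroup (Fin m ⊕ Fin m) F) : Matrix (Fin m ⊕ Fin m) (Fin m ⊕ Fin m) F)) = W := by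
  have hQ := H28.qPlus_nondeg (F := F) m
  have hok := H28.eichOK_qPlus h
  have hUm : H28.MaxTS (H28.qPlus m F) U := ⟨by simp [hU, two_mul], hU0⟩
  obtain ⟨g, hg⟩ := H28.exists_map_eq_of_singular hQ (hU.trans hW.symm) hU0 hW0
  have h1 : H28.dickson hQ hok g = 1 := by
    rw [hUm.dickson_eq_one_iff hQ hok, hg, hU]; exact he
  obtain ⟨s, hs1, hs2, hs3⟩ := H28.exists_stab_spinor hQ hok hU0 (by
    rintro rfl; simp at hU; omega) g
  refine ⟨g * s, (H28.mem_omega_iff hQ hok _).2 ⟨?_, ?_⟩, ?_⟩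
  · rw [map_mul, h1, hs2, one_mul]
  · rw [map_mul, hs3, Int.units_mul_self]
  · exact (H28.map_rho_mul (Q := H28.qPlus m F) g s U).trans (by rw [hs1, hg])

end Cfsg.Agent.S2631
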