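import Cfsg.Statements.S2632
import Cfsg.Agent.H28.MaxSing

set_option autoImplicit false
open Cfsg

namespace Cfsg.Agent.S2632

/-- Ω is transitive on non-degenerate subspaces of each isometry type: for a quadratic form Q on F^n, n ≥ 3, with non-degenerate polar form (F finite; excluding dimension 4 over the field of two elements), if U and W are subspaces on which the polar form is non-degenerate and there is a Q-preserving linear isomorphism U → W, then some element of Ω (the commutator subgroup of the orthogonal group) carries U to W. (In dimension 2 this fails: Ω can be {±1}, which fixes every line.) -/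
theorem result {F : Type*} [Field F] [Fintype F] {n : ℕ} (hn : 3 ≤ n) (h : Fintype.card F ≠ 2 ∨ n ≠ 4) (Q : QuadraticForm F (Fin n → F)) (hQ : (QuadraticMap.polarBilin Q).Nondegenerate) (U W : Submodule F (Fin n → F)) (hU : U ⊓ LinearMap.BilinForm.orthogonal (QuadraticMap.polarBilin Q) U = ⊥) (hW : W ⊓ LinearMap.BilinForm.orthogonal (QuadraticMap.polarBilin Q) W = ⊥) (e : U ≃ₗ[F] W) (he : ∀ u : U, Q (e u : Fin n → F) = Q (u : Fin n → F)) : ∃ g : ↥(Cfsg.isometryGroup F ⇑Q), g ∈ Cfsg.Omega F ⇑Q ∧ U.map (Matrix.mulVecLin ((g : Matrix.GeneralLinearGroup (Fin n) F) : Matrix (Fin n) (Fin n) F)) = W := by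
  have hok : H28.EichOK Q := H28.eichOK_of_card hQ (by simpa using h)
  obtain ⟨g, -, hg⟩ := H28.exists_witt hQ U W e he
  have hstab : ∀ c : F, ∃ v, Q v = c ∧ U.map (H28.rho Q (H28.refl Q v)) = U := by
    intro c
    have h1 := H28.finrank_perp hQ U
    by_cases h2 : 2 ≤ Module.finrank F U
    · have hN : H28.NondegOn Q U := fun x hx hx' => by
        have : x ∈ U ⊓ H28.perp Q U := ⟨hx, H28.mem_perp.2 fun y hy => by
          rw [QuadraticMap.polar_comm]; exact hx' y hy⟩
        rwa [hU, Submodule.mem_bot] at this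
      obtain ⟨v, hv, hvc⟩ := hN.exists_eq h2 c
      refine ⟨v, hvc, H28.map_rho_eq_of_le fun u hu => ?_⟩
      rw [H28.rho_refl]
      exact U.sub_mem hu (U.smul_mem _ hv)
    · have hN : H28.NondegOn Q (H28.perp Q U) := fun x hx hx' => by
        have : x ∈ U ⊓ H28.perp Q U := ⟨H28.mem_of_perp_perp hQ U hx', hx⟩
        rwa [hU, Submodule.mem_bot] at this
      obtain ⟨v, hv, hvc⟩ := hN.exists_eq (by rw [h1]; simp; omega) c
      refine ⟨v, hvc, H28.map_rho_eq_of_le fun u hu => ?_⟩
      rwa [H28.rho_refl_of_orth (by rw [QuadraticMap.polar_comm]; exact H28.mem_perp.1 hv u hu)]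
  obtain ⟨g', hg', hd⟩ : ∃ g : H28.O Q, U.map (H28.rho Q g) = W ∧ H28.dickson hQ hok g = -1 := by
    rcases Int.units_eq_one_or (H28.dickson hQ hok g) with h1 | h1
    · obtain ⟨v, hv, hvU⟩ := hstab 1
      refine ⟨g * H28.refl Q v, by rw [H28.map_rho_mul, hvU, hg], ?_⟩
      rw [map_mul, h1, H28.dickson_refl hQ hok (by rw [hv]; exact one_ne_zero), one_mul]
    · exact ⟨g, hg, h1⟩
  obtain ⟨p, hp⟩ := H28.exists_isLift hQ hok g'
  obtain ⟨v, hv, hvU⟩ := hstab p.2
  have hv0 : Q v ≠ 0 := by rw [hv]; exact hp.1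
  refine ⟨g' * H28.refl Q v, (H28.mem_omega_iff hQ hok _).2 ⟨?_, ?_⟩, ?_⟩
  · rw [map_mul, hd, H28.dickson_refl hQ hok hv0]; simp
  · rw [map_mul, H28.spinor_of_isLift hQ hok hp, H28.spinor_refl hQ hok hv0, hv, Int.units_mul_self]
  · exact (H28.map_rho_mul g' _ U).trans (by rw [hvU, hg'])

end Cfsg.Agent.S2632
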