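import Cfsg.Statements.S2633
import Cfsg.Agent.H28.MaxSing

set_option autoImplicit false
open Cfsg

namespace Cfsg.Agent.S2633

/-- Ω is transitive on totally singular subspaces of each dimension less than half the dimension: for a quadratic form Q on F^n with non-degenerate polar form (F finite; excluding dimension 4 over the field of two elements), if U and W are subspaces of the same dimension k with 2k < n on which Q vanishes, then some element of Ω (the commutator subgroup of the orthogonal group) carries U to W. -/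
theorem result {F : Type*} [Field F] [Fintype F] {n : ℕ} (h : Fintype.card F ≠ 2 ∨ n ≠ 4) (Q : QuadraticForm F (Fin n → F)) (hQ : (QuadraticMap.polarBilin Q).Nondegenerate) (U W : Submodule F (Fin n → F)) {k : ℕ} (hk : 2 * k < n) (hU : Module.finrank F U = k) (hW : Module.finrank F W = k) (hU0 : ∀ u ∈ U, Q u = 0) (hW0 : ∀ w ∈ W, Q w = 0) : ∃ g : ↥(Cfsg.isometryGroup F ⇑Q), g ∈ Cfsg.Omega F ⇑Q ∧ U.map (Matrix.mulVecLin ((g : Matrix.GeneralLinearGroup (Fin n) F) : Matrix (Fin n) (Fin n) F)) = W := by
  have hok : H28.EichOK Q := H28.eichOK_of_card hQ (by simpa using h)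
  by_cases hU1 : U = ⊥
  · subst hU1
    have : W = ⊥ := by
      rw [← Submodule.finrank_eq_zero, hW, ← hU]; simp
    exact ⟨1, Subgroup.one_mem _, by rw [this, Submodule.map_bot]⟩
  obtain ⟨g, hg, hd⟩ : ∃ g : H28.O Q, U.map (H28.rho Q g) = W ∧ H28.dickson hQ hok g = 1 := by
    obtain ⟨g, hg⟩ := H28.exists_map_eq_of_singular hQ (hU.trans hW.symm) hU0 hW0
    rcases Int.units_eq_one_or (H28.dickson hQ hok g) with h1 | h1
    · exact ⟨g, hg, h1⟩
    obtain ⟨v, hv, hv0⟩ : ∃ v ∈ H28.perp Q U, Q v ≠ 0 := by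
      by_contra hcon
      push Not at hcon
      have hle : H28.perp Q U ≤ U := fun x hx => H28.mem_of_perp_perp hQ U fun y hy =>
        H28.polar_eq_zero_of_singular hcon hx hy
      have := Submodule.finrank_mono hle
      rw [H28.finrank_perp hQ, hU] at this
      simp at this
      omega
    refine ⟨g * H28.refl Q v, ?_, by rw [map_mul, h1, H28.dickson_refl hQ hok hv0]; simp⟩
    rw [H28.map_rho_mul, H28.map_rho_eq_of_le (g := H28.refl Q v), hg]
    intro u hu
    rwa [H28.rho_refl_of_orth (by rw [QuadraticMap.polar_comm]; exact H28.mem_perp.1 hv u hu)]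
  obtain ⟨s, hs1, hs2, hs3⟩ := H28.exists_stab_spinor hQ hok hU0 hU1 g
  refine ⟨g * s, (H28.mem_omega_iff hQ hok _).2 ⟨?_, ?_⟩, ?_⟩
  · rw [map_mul, hd, hs2, one_mul]
  · rw [map_mul, hs3, Int.units_mul_self]
  · exact (H28.map_rho_mul g s U).trans (by rw [hs1, hg])

end Cfsg.Agent.S2633
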