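import Cfsg.Statements.S2634
import Cfsg.Agent.H28.OmegaIndex

set_option autoImplicit false
open Cfsg

namespace Cfsg.Agent.S2634

/-- Over a finite field of characteristic two, Ω (the commutator subgroup of the orthogonal group of a quadratic form Q on F^n with non-degenerate polar form; excluding dimension 4 over the field of two elements) acts transitively on the non-singular 1-spaces: for u, v with Q(u) ≠ 0 and Q(v) ≠ 0 some element of Ω carries the line through u to the line through v. -/
theorem result {F : Type*} [Field F] [Fintype F] [CharP F 2] {n : ℕ} (h : Fintype.card F ≠ 2 ∨ n ≠ 4) (Q : QuadraticForm F (Fin n → F)) (hQ : (QuadraticMap.polarBilin Q).Nondegenerate) (u v : Fin n → F) (hu : Q u ≠ 0) (hv : Q v ≠ 0) : ∃ g : ↥(Cfsg.isometryGroup F ⇑Q), g ∈ Cfsg.Omega F ⇑Q ∧ (F ∙ ((g : Matrix.GeneralLinearGroup (Fin n) F) : Matrix (Fin n) (Fin n) F).mulVec u) = F ∙ v := by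
  have hok : H28.EichOK Q := H28.eichOK_of_card hQ (by simpa using h)
  rw [H28.omega_eq_ker_dickson hQ hok (ringChar.eq F 2)]
  obtain ⟨t, ht, htu⟩ := H28.exists_smul_Q_eq hu hv
    (FiniteField.isSquare_of_char_two (ringChar.eq F 2) _)
  obtain ⟨g, hg⟩ := H28.exists_rho_eq hQ htu (htu ▸ hv)
  have e : (F ∙ H28.rho Q g u) = F ∙ v := by
    rw [← hg, map_smul, Submodule.span_singleton_smul_eq (IsUnit.mk0 t ht)]
  rcases Int.units_eq_one_or (H28.dickson hQ hok g) with h1 | h1
  · exact ⟨g, h1, e⟩
  · refine ⟨g * H28.refl Q u, ?_, ?_⟩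
    · rw [MonoidHom.mem_ker, map_mul, h1, H28.dickson_refl hQ hok hu]; simp
    · show (F ∙ H28.rho Q (g * H28.refl Q u) u) = F ∙ v
      rw [H28.rho_mul, H28.rho_refl_self hu, map_neg, ← e, ← neg_one_smul F,
        Submodule.span_singleton_smul_eq (by simp)]

end Cfsg.Agent.S2634
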