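import Cfsg.Statements.S2635
import Cfsg.Agent.H28.OmegaIndex

set_option autoImplicit false
open Cfsg

namespace Cfsg.Agent.S2635

/-- Over a finite field of characteristic two, for a quadratic form Q on F^n with non-degenerate polar form, n ≥ 2, other than dimension 4 over the field of two elements, Ω (the commutator subgroup of the orthogonal group) is exactly the subgroup generated by the products of two reflections (orthogonal transvections) x ↦ x − Q(v)⁻¹ f(x, v) v, Q(v) ≠ 0: the products of an even number of reflections. -/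
theorem result {F : Type*} [Field F] [Fintype F] [CharP F 2] {n : ℕ} (hn : 2 ≤ n) (h : Fintype.card F ≠ 2 ∨ n ≠ 4) (Q : QuadraticForm F (Fin n → F)) (hQ : (QuadraticMap.polarBilin Q).Nondegenerate) : Cfsg.Omega F ⇑Q = Subgroup.closure {g : ↥(Cfsg.isometryGroup F ⇑Q) | ∃ u v : Fin n → F, Q u ≠ 0 ∧ Q v ≠ 0 ∧ ((g : Matrix.GeneralLinearGroup (Fin n) F) : Matrix (Fin n) (Fin n) F) = Cfsg.reflectionMatrix ⇑Q u * Cfsg.reflectionMatrix ⇑Q v} := by
  have hok : H28.EichOK Q := H28.eichOK_of_card hQ (by simpa using h)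
  rw [H28.omega_eq_ker_dickson hQ hok (ringChar.eq F 2)]
  apply le_antisymm
  · set N := Subgroup.closure {g : ↥(Cfsg.isometryGroup F ⇑Q) | ∃ u v : Fin n → F, Q u ≠ 0 ∧ Q v ≠ 0 ∧ ((g : Matrix.GeneralLinearGroup (Fin n) F) : Matrix (Fin n) (Fin n) F) = Cfsg.reflectionMatrix ⇑Q u * Cfsg.reflectionMatrix ⇑Q v} with hN
    have key : ∀ g : H28.O Q, (H28.dickson hQ hok g = 1 → g ∈ N) ∧
        (H28.dickson hQ hok g = -1 → ∀ v, Q v ≠ 0 → H28.refl Q v * g ∈ N) := by
      refine H28.refl_induction hQ hok ⟨fun _ => N.one_mem, fun h => ?_⟩ ?_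
      · rw [map_one] at h; exact absurd h (by decide)
      · rintro v g hv ⟨ih1, ih2⟩
        rw [map_mul, H28.dickson_refl hQ hok hv]
        refine ⟨fun h => ih2 ?_ v hv, fun h u hu => ?_⟩
        · simpa [neg_eq_iff_eq_neg] using h
        · rw [← mul_assoc]
          exact N.mul_mem (Subgroup.subset_closure ⟨u, v, hu, hv, rfl⟩) (ih1 (by simpa using h))
    exact fun g hg => (key g).1 hg
  · rw [Subgroup.closure_le]
    rintro g ⟨u, v, hu, hv, hg⟩
    have : g = H28.refl Q u * H28.refl Q v := H28.O_ext_mat hg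
    rw [SetLike.mem_coe, MonoidHom.mem_ker, this, map_mul, H28.dickson_refl hQ hok hu,
      H28.dickson_refl hQ hok hv]
    simp

end Cfsg.Agent.S2635
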