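import Cfsg.Statements.S2636
import Cfsg.Agent.H68.FixCount

set_option autoImplicit false
open Cfsg

namespace Cfsg.Agent.S2636

/-- Centraliser of a field automorphism in PGL_n: let F be the field with q = q₀^r elements, σ a field automorphism of F of prime order r (so its fixed field has q₀ elements) and n ≥ 1. The invertible matrices g whose entrywise image under σ is a scalar multiple of g — those whose coset modulo scalars is fixed by σ — number (q − 1)/(q₀ − 1) · |GL_n(q₀)|; equivalently the centraliser in PGL_n(q) of the induced automorphism has the order of PGL_n(q₀). -/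
theorem result {F : Type*} [Field F] [Fintype F] {q₀ r n : ℕ} (hr : r.Prime) (hn : 1 ≤ n) (hF : Fintype.card F = q₀ ^ r) (σ : F ≃+* F) (hσ : orderOf σ = r) : Nat.card {g : GL (Fin n) F // ∃ c : F, c ≠ 0 ∧ (g : Matrix (Fin n) (Fin n) F).map σ = c • (g : Matrix (Fin n) (Fin n) F)} = (q₀ ^ r - 1) / (q₀ - 1) * ∏ i : Fin n, (q₀ ^ n - q₀ ^ (i : ℕ)) := by
  have : Nonempty (Fin n) := ⟨⟨0, hn⟩⟩
  have hj := H68.fixEmb_fixF (σ : RingAut F)
  have := Fintype.ofFinite (H68.fixF σ)
  have h0 : Nat.card (H68.fixF σ) = q₀ := by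
    apply Nat.pow_left_injective hr.ne_zero
    simp only
    rw [← hF, ← Nat.card_eq_fintype_card, hj.card, hσ]
  have h1 := H68.card_scMap (ι := Fin n) (H68.fixF σ).subtype ⊤ ⊤ ⊤ (by simp)
  rw [Subgroup.card_top, Subgroup.card_top, Subgroup.card_top, Nat.card_units, Nat.card_units,
    Matrix.card_GL_field, ← Nat.card_eq_fintype_card, h0, Nat.card_eq_fintype_card (α := F),
    hF] at h1
  have h2 : 2 ≤ q₀ := h0 ▸ Finite.one_lt_card
  have h3 : q₀ - 1 ∣ q₀ ^ r - 1 := Nat.sub_one_dvd_pow_sub_one q₀ r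
  apply Nat.eq_of_mul_eq_mul_left (show 0 < q₀ - 1 by omega)
  rw [← mul_assoc, Nat.mul_div_cancel' h3, ← h1]
  congr 1
  refine Nat.card_congr (Equiv.subtypeEquivRight fun g => ⟨?_, ?_⟩)
  · rintro ⟨c, -, hc⟩
    obtain ⟨μ, g₀, h⟩ := hj.exists_GL g hc
    exact ⟨(⟨μ, trivial⟩, ⟨g₀, trivial⟩), h.symm⟩
  · rintro ⟨⟨μ, g₀⟩, rfl⟩
    exact hj.map_scMap μ.1 g₀.1

end Cfsg.Agent.S2636
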