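import Cfsg.Statements.S2637
import Mathlib
import Cfsg.Agent.H67.Embed
import Cfsg.Agent.H67.Regular
import Cfsg.Agent.H67.SimSqf
import Cfsg.Agent.H10.GUCard
import Cfsg.Agent.S2589

set_option autoImplicit false
open Cfsg

namespace Cfsg.Agent.S2637

open Polynomial Matrix

theorem card_centralizer_eq {G : Type*} [Group G] {x y : G} (h : IsConj x y) :
    Nat.card (Subgroup.centralizer {x}) = Nat.card (Subgroup.centralizer {y}) := by
  obtain ⟨c, rfl⟩ := isConj_iff.1 h
  refine Nat.card_congr ((MulAut.conj c).toEquiv.subtypeEquiv fun g => ?_)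
  rw [Subgroup.mem_centralizer_singleton_iff, Subgroup.mem_centralizer_singleton_iff]
  change _ ↔ MulAut.conj c g * MulAut.conj c x = MulAut.conj c x * MulAut.conj c g
  rw [← map_mul, ← map_mul, (MulAut.conj c).injective.eq_iff]

theorem card_GU_int {K : Type*} [Field K] [Fintype K] {q : ℕ} [hK : Fact (Fintype.card K = q ^ 2)]
    (m : ℕ) : (Nat.card (Cfsg.GU m K q) : ℤ) = (q : ℤ) ^ (m * (m - 1) / 2) *
      ∏ i : Fin m, ((q : ℤ) ^ ((i : ℕ) + 1) - (-1) ^ ((i : ℕ) + 1)) := by
  rw [H10.card_GU, Fin.prod_univ_eq_prod_range fun i => (q : ℤ) ^ (i + 1) - (-1) ^ (i + 1)]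
  push_cast
  congr 1
  refine Finset.prod_congr rfl fun i _ => ?_
  split_ifs with h
  · simp [h.add_one.neg_one_pow]
  · rw [Nat.cast_sub (Nat.one_le_pow _ _ (by have := H10.two_le_q K q; omega)),
      (Nat.not_even_iff_odd.1 h).add_one.neg_one_pow]
    simp

/-- Centraliser of a fixed-point-free element of order three in Sp_2m(q) when q ≡ 2 (mod 3): if x ∈ Sp_2m(F) (|F| = q, m ≥ 1) satisfies x³ = 1 and x − 1 is invertible, then its centraliser in Sp_2m(F) has the order of the unitary group GU_m(q), namely q^(m(m−1)/2) Π_(i=1)^m (q^i − (−1)^i) (x lies in the centre of a subgroup GU_m(q) of Sp_2m(q)). -/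
theorem result {F : Type*} [Field F] [Fintype F] {q : ℕ} (hF : Fintype.card F = q) (hq : q % 3 = 2) {m : ℕ} (hm : 1 ≤ m) (x : Matrix.symplecticGroup (Fin m) F) (hx3 : x ^ 3 = 1) (hfpf : IsUnit ((x : Matrix (Fin m ⊕ Fin m) (Fin m ⊕ Fin m) F) - 1)) : (Nat.card ↥(Subgroup.centralizer ({x} : Set ↥(Matrix.symplecticGroup (Fin m) F))) : ℤ) = (q : ℤ) ^ (m * (m - 1) / 2) * ∏ i : Fin m, ((q : ℤ) ^ ((i : ℕ) + 1) - (-1) ^ ((i : ℕ) + 1)) := by
  classical
  obtain ⟨p, hp⟩ := CharP.exists F
  obtain ⟨k, hpp, hk⟩ := FiniteField.card F p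
  haveI := Fact.mk hpp
  have hp3 : Nat.Coprime 3 p := (Nat.coprime_primes Nat.prime_three hpp).2 (by
    rintro rfl
    have : 3 ∣ q := by rw [← hF, hk]; exact dvd_pow_self 3 k.ne_zero
    omega)
  have h30 : ((3 : ℕ) : F) ≠ 0 := H66.natCast_ne_zero_of_coprime p hp3
  let f : F[X] := X ^ 2 + X + 1
  have hd : f.natDegree = 2 := by
    simp only [f]
    compute_degree!
  have hfm : f.Monic := by
    simp only [f]
    monicity!
  obtain ⟨j, hj⟩ : ∃ j, q = 3 * j + 2 := ⟨q / 3, by omega⟩
  haveI hirr : Fact (Irreducible f) := ⟨irreducible_of_degree_le_three_of_not_isRoot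
    (by simp [hd]) fun t ht => by
      have h1 : t ^ 2 + t + 1 = 0 := by simpa [f] using ht
      have h2 : t ^ 3 = 1 := by linear_combination (t - 1) * h1
      have h3 := FiniteField.pow_card t
      rw [hF, hj, pow_add, pow_mul, h2, one_pow, one_mul] at h3
      apply h30
      push_cast
      linear_combination (3 - 2 * t) * h1 + (2 * t + 1) * h3⟩
  haveI := H67.finite_adjoinRoot' hirr.out.ne_zero
  letI := Fintype.ofFinite (AdjoinRoot f)
  haveI hK : Fact (Fintype.card (AdjoinRoot f) = q ^ 2) := ⟨by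
    rw [← Nat.card_eq_fintype_card, H67.card_adjoinRoot hirr.out.ne_zero, hd,
      Nat.card_eq_fintype_card, hF]⟩
  have hr : Module.finrank F (AdjoinRoot f) = 2 := by rw [H67.finrank_adjoinRoot, hd]
  obtain ⟨τ, hτ0, hτ⟩ := Submodule.exists_le_ker_of_lt_top
    (Submodule.span F {(1 : AdjoinRoot f)}) (by
    rw [lt_top_iff_ne_top]
    intro h
    have := finrank_span_singleton (K := F) (one_ne_zero (α := AdjoinRoot f))
    rw [h, finrank_top, hr] at this
    omega)
  obtain ⟨ψ, e, hψ, he, he'⟩ := H67.exists_hom_sp ((H67.resHom F (AdjoinRoot f) (Fin m)).comp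
    ((Units.coeHom _).comp (Cfsg.GU m _ q).subtype))
    (H67.resHom_injective.comp (Units.val_injective.comp Subtype.val_injective))
    (H67.hermBilin_nondegenerate hF m hτ0) (fun v => by
      obtain ⟨c, hc⟩ := H67.exists_algebraMap_of_cj hF (H10.cj_herm (q := q) v v)
      rw [H67.hermBilin_apply, ← hc, Algebra.algebraMap_eq_smul_one]
      exact hτ (Submodule.smul_mem _ _ (Submodule.mem_span_singleton_self _)))
    (fun g x y => congrArg τ (g.2 x y)) (m := m) (by rw [H67.finrank_res, hr, Fintype.card_fin])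
  set ω := AdjoinRoot.root f with hω
  have h1 : ω ^ 2 + ω + 1 = 0 := by
    have := AdjoinRoot.aeval_eq (f := f) (X ^ 2 + X + 1)
    rw [map_add, map_add, map_pow, aeval_X, map_one] at this
    exact this.trans AdjoinRoot.mk_self
  have h2 : ω ^ 3 = 1 := by linear_combination (ω - 1) * h1
  have h3 : ω * H10.cj _ q ω = 1 := by
    rw [H10.mul_cj_eq_pow, hj, show 3 * j + 2 + 1 = 3 * (j + 1) by ring, pow_mul, h2, one_pow]
  let w : Cfsg.GU m (AdjoinRoot f) q := H10.mkGU (ω • 1) fun u v => by
    rw [smul_mulVec, smul_mulVec, one_mulVec, one_mulVec, H10.herm_smul_left, H10.herm_smul_right,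
      ← mul_assoc, h3, one_mul]
  have hw : ∀ v, (ψ w).1 *ᵥ e v = e (ω • v) := fun v => by
    rw [he']
    change e ((ω • 1 : Matrix _ _ _) *ᵥ v) = _
    rw [smul_mulVec, one_mulVec]
  have hx3' : x.1 ^ 3 = 1 := congrArg Subtype.val hx3
  have hc : IsConj x (ψ w) := by
    refine (S2589.result (p := p) x _ (hp3.coprime_dvd_left
      (orderOf_dvd_of_pow_eq_one hx3))).2 ((H67.isConj_iff_sim _ _).2
      (H67.sim_of_aeval_irreducible hirr.out hfm ?_ ?_ rfl))
    · rw [H67.aeval_toLin', LinearEquiv.map_eq_zero_iff, ← hfpf.mul_right_eq_zero]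
      simp only [f, map_add, map_pow, aeval_X, map_one]
      rw [← sub_eq_zero] at hx3'
      rw [← hx3']
      noncomm_ring
    · refine LinearMap.ext fun v => ?_
      obtain ⟨v, rfl⟩ := e.surjective v
      simp only [f, map_add, sq, aeval_X, map_one, map_mul, LinearMap.add_apply,
        Module.End.mul_apply, toLin'_apply, hw, Module.End.one_apply, LinearMap.zero_apply]
      rw [← map_add, ← map_add, smul_smul, ← add_smul, ← one_smul (AdjoinRoot f) v, smul_smul,
        ← add_smul, mul_one, ← sq, h1, zero_smul, map_zero]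
  rw [card_centralizer_eq hc, ← card_GU_int (K := AdjoinRoot f), ← Subgroup.card_top (G := GU _ _ _),
    ← Subgroup.card_map_of_injective hψ, ← MonoidHom.range_eq_map]
  congr 3
  ext g
  rw [Subgroup.mem_centralizer_singleton_iff]
  constructor
  · intro hg
    have h4 : ∀ v, e.symm (g.1 *ᵥ e (ω • v)) = ω • e.symm (g.1 *ᵥ e v) := fun v => by
      rw [← hw, e.symm_apply_eq, ← hw, e.apply_symm_apply, mulVec_mulVec, mulVec_mulVec]
      exact congrArg (fun y => y.1 *ᵥ e v) hg
    have h5 : ∀ (a : AdjoinRoot f) v, e.symm (g.1 *ᵥ e (a • v)) = a • e.symm (g.1 *ᵥ e v) := by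
      intro a
      have ha : a ∈ Algebra.adjoin F {ω} := by rw [AdjoinRoot.adjoinRoot_eq_top]; trivial
      induction ha using Algebra.adjoin_induction with
      | mem a ha => exact ha ▸ h4
      | algebraMap c => intro v; simp only [algebraMap_smul, map_smul, mulVec_smul]
      | add a b _ _ ha hb => intro v; simp only [add_smul, map_add, mulVec_add, ha, hb]
      | mul a b _ _ ha hb => intro v; simp only [mul_smul, ha, hb]
    let T : Module.End (AdjoinRoot f) (Fin m → AdjoinRoot f) :=
      { toFun := fun v => e.symm (g.1 *ᵥ e v)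
        map_add' := fun u v => by simp only [map_add, mulVec_add]
        map_smul' := h5 }
    refine ⟨H10.mkGU (LinearMap.toMatrix' T) fun u v => ?_, H27.sp_ext fun v => ?_⟩
    · rw [LinearMap.toMatrix'_mulVec, LinearMap.toMatrix'_mulVec, ← sub_eq_zero]
      by_contra h
      refine hτ0 (LinearMap.ext fun a => ?_)
      obtain ⟨b, rfl⟩ := mul_right_surjective₀ h a
      have h6 := H27.sp_sympForm g (e (b • u)) (e v)
      rw [he, ← e.apply_symm_apply (g.1 *ᵥ _), ← e.apply_symm_apply (g.1 *ᵥ e v), he, h5,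
        H67.hermBilin_apply, H67.hermBilin_apply, H10.herm_smul_left, H10.herm_smul_left] at h6
      rw [LinearMap.zero_apply]
      simp only [mul_sub, map_sub]
      exact sub_eq_zero.2 h6
    · obtain ⟨v, rfl⟩ := e.surjective v
      rw [he']
      change e (LinearMap.toMatrix' T *ᵥ v) = _
      rw [LinearMap.toMatrix'_mulVec]
      exact e.apply_symm_apply _
  · rintro ⟨g, rfl⟩
    rw [← map_mul, ← map_mul]
    congr 1
    refine H10.gm_injective ?_
    change g.1.1 * (ω • 1) = (ω • 1) * g.1.1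
    simp

end Cfsg.Agent.S2637
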