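import Cfsg.Statements.S2638
import Mathlib
import Cfsg.Agent.H67.Regular
import Cfsg.Agent.H67.SimSqf
import Cfsg.Agent.H66.Semisimple

set_option autoImplicit false
open Cfsg

namespace Cfsg.Agent.S2638

open Polynomial

/-- If an element x of GL_n(q), n ≥ 1, has prime order r and the multiplicative order of q modulo r is n (r is a primitive prime divisor of q^n − 1, so x acts irreducibly), then the centraliser of x in GL_n(q) is cyclic of order q^n − 1 (the multiplicative group of the field with q^n elements, a Singer cycle). -/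
theorem result {F : Type*} [Field F] [Fintype F] {p q : ℕ} [Fact p.Prime] [CharP F p] (hF : Fintype.card F = q) {n r : ℕ} (hn : 1 ≤ n) (hr : r.Prime) (hrp : r ≠ p) (hi : orderOf (q : ZMod r) = n) (x : GL (Fin n) F) (hx : orderOf x = r) : IsCyclic ↥(Subgroup.centralizer ({x} : Set (GL (Fin n) F))) ∧ Nat.card ↥(Subgroup.centralizer ({x} : Set (GL (Fin n) F))) = q ^ n - 1 := by
  classical
  haveI := Fact.mk hr
  haveI : Nonempty (Fin n) := ⟨⟨0, hn⟩⟩
  have hp : p.Prime := Fact.out
  obtain ⟨f, -, hf⟩ := FiniteField.card F p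
  have hcop : p.Coprime r := (Nat.coprime_primes hp hr).2 hrp.symm
  set A : Matrix (Fin n) (Fin n) F := x.1 with hA
  have h1 : A ^ r = 1 := by rw [hA, ← Units.val_pow_eq_pow_val, ← hx, pow_orderOf_eq_one]; rfl
  have hss := H66.isSS_of_pow_eq_one (H66.natCast_ne_zero_of_coprime p hcop.symm) h1
  obtain ⟨π, h2, h3, h4⟩ : ∃ π : F[X], Irreducible π ∧ π ∣ A.charpoly ∧ ¬ π ∣ X - 1 := by
    by_contra h
    push Not at h
    have h5 := (hss.aeval_eq_zero_iff _).2 h
    rw [map_sub, aeval_X, map_one, sub_eq_zero] at h5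
    rw [show x = 1 from Units.ext h5, orderOf_one] at hx
    exact hr.one_lt.ne hx
  have h5 := (hss.aeval_eq_zero_iff (X ^ r - 1)).1 (by simp [h1]) π h2 h3
  rw [← cyclotomic_prime_mul_X_sub_one] at h5
  have h6 := natDegree_of_dvd_cyclotomic_of_irreducible hf hcop
    ((h2.prime.dvd_or_dvd h5).resolve_right h4) h2
  rw [← orderOf_units, ZMod.coe_unitOfCoprime, ← hf, hF, hi] at h6
  have hd : A.charpoly.natDegree = n := by simp
  have hirr : Irreducible A.charpoly :=
    (associated_of_dvd_of_natDegree_le h3 A.charpoly_monic.ne_zero (by omega)).irreducible h2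
  haveI := Fact.mk hirr
  haveI := H67.finite_adjoinRoot hirr.ne_zero
  haveI := H67.finite_adjoinRoot' hirr.ne_zero
  have hs : H67.Sim (Matrix.toLin' A) (LinearMap.mulLeft F (AdjoinRoot.root A.charpoly)) :=
    H67.sim_of_aeval_irreducible hirr A.charpoly_monic
      (by rw [H67.aeval_toLin', Matrix.aeval_self_charpoly, map_zero])
      (by rw [H67.aeval_mulLeft, AdjoinRoot.aeval_eq, AdjoinRoot.mk_self]; simp)
      (by rw [H67.finrank_adjoinRoot, hd]; simp)
  constructor
  · let ψ : AdjoinRoot A.charpoly →ₐ[F] Matrix (Fin n) (Fin n) F :=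
      Ideal.Quotient.liftₐ _ (aeval A) fun a ha => by
        obtain ⟨b, rfl⟩ := Ideal.mem_span_singleton.1 ha
        rw [map_mul, Matrix.aeval_self_charpoly, zero_mul]
    have hψ : ∀ a, ψ (AdjoinRoot.mk _ a) = aeval A a := fun a => rfl
    refine isCyclic_of_surjective ((Units.map ψ.toMonoidHom).codRestrict
      (Subgroup.centralizer {x}) fun u => ?_) ?_
    · rw [Subgroup.mem_centralizer_singleton_iff, Units.ext_iff]
      change ψ u * A = A * ψ u
      have : ψ (AdjoinRoot.root _) = A := (hψ X).trans (aeval_X A)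
      have h7 := congrArg ψ (mul_comm (u : AdjoinRoot A.charpoly) (AdjoinRoot.root _))
      rwa [map_mul, map_mul, this] at h7
    · rintro ⟨g, hg⟩
      rw [Subgroup.mem_centralizer_singleton_iff, Units.ext_iff] at hg
      obtain ⟨R, hR⟩ := H67.exists_aeval_of_comm_of_sim hs (Matrix.toLin' g.1) (by
        change _ ∘ₗ _ = _ ∘ₗ _
        rw [← Matrix.toLin'_mul, ← Matrix.toLin'_mul]
        exact congrArg _ hg)
      rw [H67.aeval_toLin', Matrix.toLin'.injective.eq_iff, ← hψ] at hR
      exact ⟨Units.mk0 (AdjoinRoot.mk _ R) fun h => g.ne_zero (by rw [hR, h, map_zero]),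
        Subtype.ext (Units.ext hR.symm)⟩
  · rw [H67.card_centralizer_gl, hs.centCard_eq, H67.centCard_mulLeft_root, Nat.card_units,
      H67.card_adjoinRoot hirr.ne_zero, hd, Nat.card_eq_fintype_card, hF]

end Cfsg.Agent.S2638
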