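import Cfsg.Statements.S2639
import Mathlib
import Cfsg.Agent.H67.Embed

set_option autoImplicit false
open Cfsg

namespace Cfsg.Agent.S2639


/-- The unitary group embeds in the symplectic group of twice the dimension over the subfield: for a field K with q² elements and a field F with q elements (isomorphic to the subfield of K of order q), there is an injective homomorphism GU_m(q) → Sp_2m(F). -/
theorem result {K F : Type*} [Field K] [Fintype K] [Field F] [Fintype F] {q : ℕ} (hK : Fintype.card K = q ^ 2) (hF : Fintype.card F = q) (m : ℕ) : ∃ φ : ↥(Cfsg.GU m K q) →* ↥(Matrix.symplecticGroup (Fin m) F), Function.Injective φ := by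
  haveI : Fact (Fintype.card K = q ^ 2) := ⟨hK⟩
  obtain ⟨inst, hr⟩ := H67.exists_algebra_of_card_pow (K := K) (F := F) (hF ▸ hK)
  obtain ⟨τ, hτ0, hτ⟩ := Submodule.exists_le_ker_of_lt_top (Submodule.span F {(1 : K)}) (by
    rw [lt_top_iff_ne_top]
    intro h
    have := finrank_span_singleton (K := F) (one_ne_zero (α := K))
    rw [h, finrank_top, hr] at this
    omega)
  obtain ⟨ψ, -, hψ, -⟩ := H67.exists_hom_sp ((H67.resHom F K (Fin m)).comp
    ((Units.coeHom _).comp (Cfsg.GU m K q).subtype))
    (H67.resHom_injective.comp (Units.val_injective.comp Subtype.val_injective))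
    (H67.hermBilin_nondegenerate hF m hτ0) (fun v => by
      obtain ⟨c, hc⟩ := H67.exists_algebraMap_of_cj hF (H10.cj_herm (q := q) v v)
      rw [H67.hermBilin_apply, ← hc, Algebra.algebraMap_eq_smul_one]
      exact hτ (Submodule.smul_mem _ _ (Submodule.mem_span_singleton_self _)))
    (fun g x y => congrArg τ (g.2 x y)) (m := m) (by rw [H67.finrank_res, hr, Fintype.card_fin])
  exact ⟨ψ, hψ⟩

end Cfsg.Agent.S2639
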