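import Cfsg.Statements.S2640
import Mathlib
import Cfsg.Agent.H67.Embed

set_option autoImplicit false
open Cfsg

namespace Cfsg.Agent.S2640


/-- For m even, the unitary group GU_m(q) (over the field with q² elements) embeds in the orthogonal group O⁺_2m(q) of the hyperbolic form Σ x_i y_i over the field with q elements (there is an injective homomorphism). -/
theorem result {K F : Type*} [Field K] [Fintype K] [Field F] [Fintype F] {q : ℕ} (hK : Fintype.card K = q ^ 2) (hF : Fintype.card F = q) (m : ℕ) (hm : Even m) : ∃ φ : ↥(Cfsg.GU m K q) →* ↥(Cfsg.isometryGroup F (Cfsg.quadFormPlus m F)), Function.Injective φ := by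
  haveI : Fact (Fintype.card K = q ^ 2) := ⟨hK⟩
  obtain ⟨inst, hr⟩ := H67.exists_algebra_of_card_pow (K := K) (F := F) (hF ▸ hK)
  obtain ⟨Q, hQ1, hQ2⟩ := H67.exists_quad_herm (K := K) hF m
  obtain ⟨φ, hφ⟩ := H67.quad_equiv_plus_of_card hQ1 (m := m)
    (by rw [H67.finrank_res, hr, Fintype.card_fin]) (by
      have h1 := H10.card_norm_int (F := K) (q := q) m 0 (map_zero _)
      have h2 := H10.two_le_q K q
      simp only [← hQ2, map_eq_zero, hm.neg_pow, if_true] at h1
      rw [Nat.card_eq_fintype_card, hF]
      zify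
      rw [h1, le_add_iff_nonneg_right]
      exact mul_nonneg (by positivity) (by omega))
  obtain ⟨ψ, hψ, -⟩ := H67.exists_hom_isometryGroup ((H67.resHom F K (Fin m)).comp
    ((Units.coeHom _).comp (Cfsg.GU m K q).subtype))
    (H67.resHom_injective.comp (Units.val_injective.comp Subtype.val_injective))
    (Cfsg.quadFormPlus m F) φ
    (fun g v => by
      rw [← hφ, ← hφ]
      apply (algebraMap F K).injective
      rw [hQ2, hQ2]
      exact g.2 v v)
  exact ⟨ψ, hψ⟩

end Cfsg.Agent.S2640
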