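import Cfsg.Statements.S2642
import Mathlib
import Cfsg.Agent.H67.SUConj
import Cfsg.Agent.S2570

set_option autoImplicit false
open Cfsg

namespace Cfsg.Agent.S2642


/-- Number of conjugacy classes of elements of order p in the general unitary group GU_n(q), q a power of p: every unipotent Jordan type occurs and the classes correspond to the partitions of n with all parts at most p other than the all-ones partition, exactly as in GL_n; so there are (number of partitions of n with parts ≤ p) − 1 classes. -/
theorem result {K : Type*} [Field K] [Fintype K] {p q n : ℕ} [Fact p.Prime] [CharP K p] (hK : Fintype.card K = q ^ 2) : Nat.card {C : ConjClasses ↥(Cfsg.GU n K q) // ∃ g : ↥(Cfsg.GU n K q), ConjClasses.mk g = C ∧ orderOf g = p} = (Finset.univ.filter (fun μ : Nat.Partition n => ∀ a ∈ μ.parts, a ≤ p)).card - 1 := by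
  haveI : Fact (Fintype.card K = q ^ 2) := ⟨hK⟩
  rw [← S2570.result (F := K) n]
  refine H67.card_conjClasses_eq_of_hom (Cfsg.GU n K q).subtype _ _
    (fun h hh => (Subgroup.orderOf_coe h).trans hh) (fun g hg => ?_)
    fun a b _ _ h => (S2587.result hK a b).2 h
  have h1 := (S2570.pow_eq_one_iff g).1 (hg ▸ pow_orderOf_eq_one g)
  rw [H67.toLin'_sub_one_pow, LinearEquiv.map_eq_zero_iff] at h1
  obtain ⟨B, hB, hc⟩ := H67.exists_isIsom_unipotent (q := q) h1
  have hc' : IsConj g (H10.mkGU B hB : GL (Fin n) K) := (H67.isConj_units_iff _ _).2 hc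
  refine ⟨H10.mkGU B hB, ?_, hc'⟩
  rw [← Subgroup.orderOf_coe, ← hg]
  obtain ⟨c, hc⟩ := hc'
  exact (SemiconjBy.orderOf_eq _ hc).symm

end Cfsg.Agent.S2642
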