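import Cfsg.Statements.S2643
import Mathlib
import Cfsg.Agent.H67.SUConj
import Cfsg.Agent.H67.Spec
import Cfsg.Agent.H10.Isotropic

set_option autoImplicit false
open Cfsg

namespace Cfsg.Agent.S2643


/-- Regular unipotent classes of SU_n(q), n ≥ 2: the elements u of the special unitary group (isometries of Σ u_i v_i^q of determinant one over the field with q² elements) with (u − 1)^n = 0 and rank(u − 1) = n − 1 form exactly gcd(n, q + 1) conjugacy classes of SU_n(q). -/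
theorem result {K : Type*} [Field K] [Fintype K] {q n : ℕ} (hK : Fintype.card K = q ^ 2) (hn : 2 ≤ n) : Nat.card {C : ConjClasses ↥(Cfsg.SU n K q) // ∃ u : ↥(Cfsg.SU n K q), ConjClasses.mk u = C ∧ (((u : GL (Fin n) K) : Matrix (Fin n) (Fin n) K) - 1) ^ n = 0 ∧ (((u : GL (Fin n) K) : Matrix (Fin n) (Fin n) K) - 1).rank = n - 1} = Nat.gcd n (q + 1) := by
  classical
  haveI : Fact (Fintype.card K = q ^ 2) := ⟨hK⟩
  obtain ⟨hJ1, hJ2⟩ := H67.jordanBlock_regular (F := K) n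
  obtain ⟨J, hJ0, hJc⟩ := H67.exists_isIsom_unipotent (q := q) hJ1
  replace hJ1 : (J - 1) ^ n = 0 := by
    rw [← H67.rank_eq_zero_iff', ← H67.rank_sub_one_pow_of_isConj hJc, hJ1, Matrix.rank_zero]
  replace hJ2 : (J - 1).rank = n - 1 := by
    rw [← hJ2, ← pow_one (J - 1), ← H67.rank_sub_one_pow_of_isConj hJc, pow_one]
  have hJ2' : (J - 1).rank = Fintype.card (Fin n) - 1 := by rw [hJ2, Fintype.card_fin]
  have hdJ : J.det = 1 := H67.det_eq_one_of_unipotent hJ1
  let N := (powMonoidHom (q + 1) : Kˣ →* Kˣ).ker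
  have hN : ∀ x : Kˣ, x ∈ N ↔ (x : K) * H10.cj K q x = 1 := fun x => by
    rw [H10.mul_cj_eq_pow, MonoidHom.mem_ker, Units.ext_iff]
    simp
  let D : Cfsg.GU n K q →* N := (Matrix.GeneralLinearGroup.det.comp
    (Cfsg.GU n K q).subtype).codRestrict N fun g => (hN _).2 (H10.gm_isIsom g).det_mul_cj
  have hD : ∀ g, ((D g : Kˣ) : K) = (H10.gm g).det := fun _ => rfl
  have hcard : Nat.card (N ⧸ (powMonoidHom n : N →* N).range) = Nat.gcd n (q + 1) := by
    rw [← Subgroup.index_eq_card, IsCyclic.index_powMonoidHom_range, H10.card_ker_pow_succ,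
      Nat.gcd_comm]
  rw [← hcard]
  haveI : Nonempty (Fin n) := ⟨⟨0, by omega⟩⟩
  have hconj : ∀ P : Cfsg.GU n K q, H10.gm P⁻¹ = ((P : GL (Fin n) K)⁻¹ : GL (Fin n) K) :=
    fun _ => rfl
  refine H67.card_conjClasses_eq_of_rel _ (fun c u => ∃ P : Cfsg.GU n K q,
    H10.gm P * J * H10.gm P⁻¹ = H10.sm u ∧ QuotientGroup.mk (D P) = c) ?_ ?_ ?_ ?_
  · intro c
    obtain ⟨a, rfl⟩ := QuotientGroup.mk_surjective c
    obtain ⟨P, rfl⟩ : ∃ P, D P = a := by
      have h1 : hermForm n K q (Pi.single ⟨0, by omega⟩ 1) (Pi.single ⟨0, by omega⟩ 1) = 1 := by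
        rw [H10.herm_single_single, if_pos rfl]
      refine ⟨H10.mkGU _ (H10.isIsom_quasi (h1 ▸ one_ne_zero) ((hN _).1 a.2)),
        Subtype.ext (Units.ext ?_)⟩
      rw [hD]
      erw [H10.det_ut]
      rw [h1]
      ring
    refine ⟨H10.mkSU (H10.gm P * J * H10.gm P⁻¹)
      (((H10.gm_isIsom P).mul hJ0).mul (H10.gm_isIsom _)) ?_, ⟨?_, ?_⟩, P, rfl, rfl⟩
    · rw [hconj, Matrix.det_units_conj, hdJ]
    · change (H10.gm P * J * H10.gm P⁻¹ - 1) ^ n = 0
      rw [hconj, H67.conj_sub_one, Units.conj_pow, hJ1]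
      simp
    · change (H10.gm P * J * H10.gm P⁻¹ - 1).rank = _
      rw [hconj, H67.conj_sub_one, H67.rank_conj, hJ2]
  · rintro u ⟨h1, h2⟩
    obtain ⟨k, hk, hP⟩ := H67.exists_isIsom_conj hJ0 (H10.sm_isIsom u)
      (H67.isConj_of_regular hJ1 hJ2' h1 (by rw [Fintype.card_fin]; exact h2))
    refine ⟨_, H10.mkGU k hk, ?_, rfl⟩
    change k * J * _ = _
    rw [hP, mul_assoc]
    erw [H10.gm_mul_inv (H10.mkGU k hk)]
    rw [mul_one]
  · rintro c u v - - ⟨P, hP, hPc⟩ ⟨Q, hQ, hQc⟩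
    obtain ⟨a, ha⟩ := QuotientGroup.eq.1 (hQc.trans hPc.symm)
    rw [powMonoidHom_apply] at ha
    let Z := H10.mkGU _ ((H10.isIsom_smul_one_iff (n := n) (by omega)).2 ((hN _).1 a.2))
    have hZ : D Z = a ^ n := Subtype.ext (Units.ext (by
      rw [hD]
      change (((a : Kˣ) : K) • (1 : Matrix (Fin n) (Fin n) K)).det = _
      simp))
    have hS : (H10.gm (Q * Z * P⁻¹)).det = 1 := by
      rw [← hD]
      simp only [map_mul, map_inv, hZ, ha]
      simp
    refine isConj_iff.2 ⟨H10.mkSU _ (H10.gm_isIsom _) hS, ?_⟩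
    rw [mul_inv_eq_iff_eq_mul]
    apply H10.sm_injective
    change H10.gm Q * (((a : Kˣ) : K) • 1) * H10.gm P⁻¹ * H10.sm u =
      H10.sm v * (H10.gm Q * (((a : Kˣ) : K) • 1) * H10.gm P⁻¹)
    rw [← hP, ← hQ]
    simp only [mul_smul_comm, smul_mul_assoc, mul_one, mul_assoc]
    rw [← mul_assoc (H10.gm P⁻¹), H10.gm_inv_mul, ← mul_assoc (H10.gm Q⁻¹), H10.gm_inv_mul,
      one_mul, one_mul]
  · rintro c d u v - - ⟨P, hP, rfl⟩ ⟨Q, hQ, rfl⟩ ⟨S, hS⟩
    have hS' : H10.sm S.1 * H10.sm u = H10.sm v * H10.sm S.1 := congrArg H10.sm hS.eq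
    let C : Cfsg.GU n K q := Q⁻¹ * H10.suToGU n K q S.1 * P
    have hC : H10.gm C * J = J * H10.gm C := by
      have e1 : H10.gm P * J = H10.sm u * H10.gm P := by
        rw [← hP, mul_assoc, H10.gm_inv_mul, mul_one]
      have e2 : J * H10.gm Q⁻¹ = H10.gm Q⁻¹ * H10.sm v := by
        rw [← hQ, ← mul_assoc, ← mul_assoc, H10.gm_inv_mul, one_mul]
      simp only [C, H10.gm_mul, H10.gm_suToGU]
      rw [mul_assoc, e1, ← mul_assoc, mul_assoc _ _ (H10.sm u), hS', ← mul_assoc, ← e2]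
      simp only [mul_assoc]
    obtain ⟨g, hg⟩ := H67.exists_aeval_of_comm_regular hJ1 hJ2' hC
    have hd := H67.det_aeval_of_unipotent hJ1 g
    rw [← hg, Fintype.card_fin] at hd
    have hg1 : g.eval 1 * H10.cj K q (g.eval 1) = 1 := by
      obtain ⟨x, hx⟩ : ∃ x, x ∈ H67.ev (AlgebraicClosure K) (H10.gm C) :=
        Multiset.card_pos_iff_exists_mem.1 (by rw [H67.card_ev, Fintype.card_fin]; omega)
      have h1 : ∀ y ∈ H67.ev (AlgebraicClosure K) (H10.gm C),
          y = algebraMap K _ (g.eval 1) := by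
        intro y hy
        obtain ⟨h, hh⟩ := Polynomial.X_sub_C_dvd_sub_C_eval (a := (1 : K)) (p := g)
        have h2 : H10.gm C - algebraMap K _ (g.eval 1) =
            Polynomial.aeval J ((Polynomial.X - Polynomial.C 1) * h) := by
          rw [← hh, map_sub, Polynomial.aeval_C, hg]
        have := H67.aeval_eq_zero_of_mem_ev
          (R := (Polynomial.X - Polynomial.C (g.eval 1)) ^ n) (by
            rw [map_pow, map_sub, Polynomial.aeval_X, Polynomial.aeval_C, h2, ← map_pow, mul_pow,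
              map_mul, map_pow]
            simp [hJ1]) hy
        simpa [sub_eq_zero, show n ≠ 0 by omega] using this
      have h3 := h1 _ (H67.ev_map_twist (Ω := AlgebraicClosure K) ((H67.isIsom_iff_cjT _).1 (H10.gm_isIsom C)) ▸
        Multiset.mem_map_of_mem _ hx)
      have h0 := H67.ne_zero_of_mem_ev (Units.isUnit _) hx
      apply (algebraMap K (AlgebraicClosure K)).injective
      rw [H10.cj_apply, map_mul, map_pow, map_one]
      nth_rewrite 1 [← h3]
      rw [← h1 x hx, zpow_neg, zpow_natCast, inv_mul_cancel₀ (pow_ne_zero _ h0)]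
    have hg0 : g.eval 1 ≠ 0 := by
      intro h
      simp [h] at hg1
    symm
    rw [QuotientGroup.eq]
    refine ⟨⟨Units.mk0 _ hg0, (hN _).2 hg1⟩, Subtype.ext (Units.ext ?_)⟩
    have : D C = (D Q)⁻¹ * D P := by
      have : D (H10.suToGU n K q S.1) = 1 := Subtype.ext (Units.ext (H10.sm_det S.1))
      simp [C, this]
    rw [← this, hD, hd]
    simp

end Cfsg.Agent.S2643
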