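import Cfsg.Statements.S2644
import Mathlib
import Cfsg.Agent.H67.SUConj
import Cfsg.Agent.S2579

set_option autoImplicit false
open Cfsg

namespace Cfsg.Agent.S2644


/-- In the special unitary group SU_n(q) with n ≥ 3 (isometries of Σ u_i v_i^q of determinant one over the field with q² elements), any two transvections (elements t with t − 1 of rank one and square zero) are conjugate. -/
theorem result {K : Type*} [Field K] [Fintype K] {q n : ℕ} (hK : Fintype.card K = q ^ 2) (hn : 3 ≤ n) (s t : ↥(Cfsg.SU n K q)) (hs : Cfsg.IsTransvection (((s : GL (Fin n) K) : Matrix (Fin n) (Fin n) K))) (ht : Cfsg.IsTransvection (((t : GL (Fin n) K) : Matrix (Fin n) (Fin n) K))) : IsConj s t := by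
  haveI : Fact (Fintype.card K = q ^ 2) := ⟨hK⟩
  haveI : Nonempty (Fin n) := ⟨⟨0, by omega⟩⟩
  refine H67.isConj_SU_of_det s t (H67.isConj_of_sq_zero hs.2 ht.2 (hs.1.trans ht.1.symm))
    fun a ha => ?_
  obtain ⟨P, hP⟩ := Matrix.GeneralLinearGroup.det_surjective (n := Fin n) (Units.mk0 a ha)
  obtain ⟨S, hS⟩ := S2579.result hn ⟨P.1 * H10.sm s * P⁻¹.1, by
    rw [Matrix.det_units_conj, H10.sm_det]⟩ s.1 (by
      constructor
      · rw [Matrix.SpecialLinearGroup.coe_mk, H67.conj_sub_one, H67.rank_conj]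
        exact hs.1
      · rw [Matrix.SpecialLinearGroup.coe_mk, H67.conj_sub_one, ← sq, Units.conj_pow, sq]
        erw [hs.2]
        simp) hs
  have h1 : (S.1 : Matrix (Fin n) (Fin n) K) * (P.1 * H10.sm s * P⁻¹.1) =
      H10.sm s * S.1 := congrArg Subtype.val hS.eq
  refine ⟨S.1 * P, ?_, ?_⟩
  · rw [← mul_assoc, ← h1]
    simp only [mul_assoc, Units.inv_mul, mul_one]
  · rw [Matrix.det_mul, S.1.2, one_mul]
    exact congrArg Units.val hP

end Cfsg.Agent.S2644
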