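import Cfsg.Statements.S2645
import Mathlib
import Cfsg.Agent.H67.RootClass
import Cfsg.Agent.H67.SpSpec
import Cfsg.Agent.S2589

set_option autoImplicit false
open Cfsg

namespace Cfsg.Agent.S2645


/-- Number of conjugacy classes of elements of odd prime order r, r different from the characteristic, in the symplectic group Sp_2m(q): let i be the multiplicative order of q modulo r and t = (r − 1)/i. If i is odd the eigenvalue orbits pair off (Λ ≠ Λ⁻¹) and the classes correspond to the non-zero (t/2)-tuples (a_j) with 2i Σ a_j ≤ 2m, giving C(⌊m/i⌋ + t/2, t/2) − 1 classes; if i is even (Λ = Λ⁻¹) they correspond to the non-zero t-tuples with i Σ a_j ≤ 2m, giving C(⌊2m/i⌋ + t, t) − 1 classes. -/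
theorem result {F : Type*} [Field F] [Fintype F] {p q : ℕ} [Fact p.Prime] [CharP F p] (hF : Fintype.card F = q) (m r i t : ℕ) (hr : r.Prime) (hr2 : r ≠ 2) (hrp : r ≠ p) (hi : i = orderOf (q : ZMod r)) (ht : t * i = r - 1) : Nat.card {C : ConjClasses ↥(Matrix.symplecticGroup (Fin m) F) // ∃ g : Matrix.symplecticGroup (Fin m) F, ConjClasses.mk g = C ∧ orderOf g = r} = if Odd i then Nat.choose (m / i + t / 2) (t / 2) - 1 else Nat.choose (2 * m / i + t) t - 1 := by
  classical
  subst hF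
  have hr0 : (r : F) ≠ 0 :=
    H66.natCast_ne_zero_of_coprime p ((Nat.coprime_primes hr Fact.out).2 hrp)
  obtain ⟨c', d, k, h1, h2, h3, h4⟩ := H67.order_data (Ω := AlgebraicClosure F) hr hr2 hi ht
  haveI := Fact.mk hr
  haveI : Fact (2 < r) := ⟨lt_of_le_of_ne hr.two_le hr2.symm⟩
  have hi0 : i ≠ 0 := by rintro rfl; have := hr.one_lt; omega
  have hq1 : (Fintype.card F : ZMod r) ^ i = 1 := hi ▸ pow_orderOf_eq_one _
  have hq0 : (Fintype.card F : ZMod r) ≠ 0 := fun h => by simp [h, hi0] at hq1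
  have hr1 : (r : AlgebraicClosure F) ≠ 0 := by
    rw [← map_natCast (algebraMap F (AlgebraicClosure F))]
    exact (_root_.map_ne_zero _).2 hr0
  rw [H67.card_classes_of_ev (AlgebraicClosure F) (H67.spHom m F) hr hr0
    (fun g h hg _ hc => (S2589.result g h (Nat.Coprime.coprime_dvd_left
      (orderOf_dvd_of_pow_eq_one hg) ((Nat.coprime_primes hr Fact.out).2 hrp))).2 hc)
    {t | (∀ x ∈ t, x ^ r = 1) ∧ t.map (fun x => x ^ c') = t ∧ t.card = 2 * m} ?_ ?_,
    (H67.card_root_multisets hr hr1 h1 h2 _).1]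
  · split_ifs at h3 ⊢ <;> obtain ⟨rfl, rfl⟩ := h3
    · rw [Nat.mul_div_mul_left _ _ two_pos]
    · rfl
  · rintro s ⟨h5, h6, h7⟩
    exact H67.exists_sp_ev_eq (hr.odd_of_ne_two hr2) h5 ((h4 s h5).1 h6).1 ((h4 s h5).1 h6).2 h7
  · intro g hg
    have h5 : ∀ x ∈ H67.ev (AlgebraicClosure F) g.1, x ^ r = 1 := fun x hx =>
      H67.pow_eq_one_of_mem_ev (congrArg Subtype.val hg) hx
    exact ⟨h5, (h4 _ h5).2 ⟨H67.ev_map_frob _, H67.ev_map_inv_of_sp g⟩,
      (H67.card_ev _ _).trans (by simp [two_mul])⟩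

end Cfsg.Agent.S2645
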