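import Cfsg.Statements.S2646
import Mathlib
import Cfsg.Agent.H67.UCent
import Cfsg.Agent.S2581

set_option autoImplicit false
open Cfsg

namespace Cfsg.Agent.S2646

theorem gu_cast {K : Type*} [Field K] [Fintype K] {q : ℕ} [Fact (Fintype.card K = q ^ 2)] (a : ℕ) :
    (Nat.card (GU a K q) : ℤ) =
      (q : ℤ) ^ (a * (a - 1) / 2) * ∏ j : Fin a, ((q : ℤ) ^ ((j : ℕ) + 1) - (-1) ^ ((j : ℕ) + 1)) := by
  have hq : 1 ≤ q := by have := H10.two_le_q K q; omega
  rw [H10.card_GU, Fin.prod_univ_eq_prod_range (fun j => (q : ℤ) ^ (j + 1) - (-1) ^ (j + 1))]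
  push_cast
  congr 1
  refine Finset.prod_congr rfl fun i _ => ?_
  split_ifs with h
  · rw [h.add_one.neg_one_pow]; ring
  · rw [(Nat.not_even_iff_odd.1 h).add_one.neg_one_pow, Nat.cast_sub (Nat.one_le_pow _ _ hq)]
    push_cast; ring


/-- Order of the centraliser in the general unitary group GU_n(q) of a unipotent element of given Jordan type: if u ∈ GU_n(q) (isometries of Σ u_i v_i^q over the field with q² elements) is similar to the unipotent matrix with a_i Jordan blocks of size i (all sizes at least 1), then its centraliser in GU_n(q) has order q^γ · Π_i |GU_(a_i)(q)| with γ = 2 Σ_(i<j) i a_i a_j + Σ_i (i − 1) a_i², the same exponent as in GL_n(q), where |GU_a(q)| = q^(a(a−1)/2) Π_(k=1)^a (q^k − (−1)^k). -/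
theorem result {K : Type*} [Field K] [Fintype K] {q n t : ℕ} (hK : Fintype.card K = q ^ 2) (d : Fin t → ℕ) (hd : ∀ k, 1 ≤ d k) (e : ((k : Fin t) × Fin (d k)) ≃ Fin n) (u : ↥(Cfsg.GU n K q)) (hu : IsConj (Matrix.reindex e e (Cfsg.jordanTypeMatrix d K)) ((u : GL (Fin n) K) : Matrix (Fin n) (Fin n) K)) : (Nat.card ↥(Subgroup.centralizer ({u} : Set ↥(Cfsg.GU n K q))) : ℤ) = (q : ℤ) ^ (2 * (∑ i ∈ Finset.range (Finset.univ.sup d + 1), ∑ j ∈ Finset.range (Finset.univ.sup d + 1), if i < j then i * (Finset.univ.filter (fun k : Fin t => d k = i)).card * (Finset.univ.filter (fun k : Fin t => d k = j)).card else 0) + ∑ i ∈ Finset.range (Finset.univ.sup d + 1), (i - 1) * (Finset.univ.filter (fun k : Fin t => d k = i)).card ^ 2) * ∏ i ∈ Finset.range (Finset.univ.sup d + 1), ((q : ℤ) ^ ((Finset.univ.filter (fun k : Fin t => d k = i)).card * ((Finset.univ.filter (fun k : Fin t => d k = i)).card - 1) / 2) * ∏ j : Fin (Finset.univ.filter (fun k : Fin t => d k = i)).card,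 ((q : ℤ) ^ ((j : ℕ) + 1) - (-1) ^ ((j : ℕ) + 1))) := by
  haveI : Fact (Fintype.card K = q ^ 2) := ⟨hK⟩
  have hM : ∀ k, d k < Finset.univ.sup d + 1 := fun k =>
    Nat.lt_succ_of_le (Finset.le_sup (Finset.mem_univ k))
  have hs := ((H67.isConj_iff_sim _ _).1 hu).symm.trans
    ((H67.sim_reindex e _).symm.trans (H67.sim_jordanTypeMatrix d))
  have h1 := H67.card_unitary_comm ((H67.isIsom_iff_cjT _).1 (H10.gm_isIsom u)) hd hs hM
  have h2 : Nat.card ↥(Subgroup.centralizer ({u} : Set ↥(Cfsg.GU n K q))) =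
      Nat.card {w : Matrix (Fin n) (Fin n) K // w * H10.gm u = H10.gm u * w ∧ H67.cjT q w * w = 1} := by
    refine Nat.card_congr (Equiv.ofBijective (fun g => ⟨H10.gm g.1, congrArg H10.gm
      (Subgroup.mem_centralizer_singleton_iff.1 g.2), (H67.isIsom_iff_cjT _).1 (H10.gm_isIsom _)⟩)
      ⟨fun g h e => Subtype.ext (H10.gm_injective (congrArg Subtype.val e)), fun w => ?_⟩)
    exact ⟨⟨H10.mkGU w.1 ((H67.isIsom_iff_cjT _).2 w.2.2),
      Subgroup.mem_centralizer_singleton_iff.2 (H10.gm_injective w.2.1)⟩, rfl⟩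
  rw [h2, h1, S2581.sum_sum_fiber d _ hM fun i j => min i j - if i = j then 1 else 0, S2581.sum_split]
  push_cast
  congr 1
  refine Finset.prod_congr rfl fun s _ => ?_
  rw [gu_cast, Fintype.card_subtype]

end Cfsg.Agent.S2646
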