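import Cfsg.Statements.S2655
import Cfsg.Agent.H63.E7.Main
import Cfsg.Agent.H63.E7.Alt

set_option autoImplicit false
open scoped MatrixGroups
open Cfsg

namespace Cfsg.Agent.S2655

open Cfsg.Agent.H13 Cfsg.Agent.H63.E7 Cfsg.Lie Cfsg.Agent.H37 Cfsg.Agent.H38 Subgroup Multiplicative

theorem card_ext {F : Type*} [Field F] [Finite F] (p : ℕ) [Fact p.Prime] [CharP F p] (n : ℕ) [NeZero n] {l : ℕ}
    (hp : p.Coprime l) (h : l.totient = n) : Nat.card (FiniteField.Extension F p n) ≡ 1 [MOD l] := by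
  obtain ⟨k, -, hk⟩ := exists_card_eq_pow F p
  rw [FiniteField.natCard_extension, hk, ← h]
  exact Nat.ModEq.pow_totient (hp.pow_left k)

theorem hD : IsChev chevE7 := by simp

section
variable [Chev chevE7] {K : Type*} [Field K] [Finite K]

theorem not_dvd {l : ℕ} (hl : ¬ l ∣ 2903040) (hq : Nat.card K ≡ 1 [MOD l]) : ¬ l ∣ (adjCov hD K).X.H.index := by
  rw [index_adj_H, H39.poin_E7]
  intro h
  have := (hq.pow (chevE7.nroots / 2)).mul (((((((qInt_modEq hq 2).mul (qInt_modEq hq 6)).mul
    (qInt_modEq hq 8)).mul (qInt_modEq hq 10)).mul (qInt_modEq hq 12)).mul (qInt_modEq hq 14)).mul (qInt_modEq hq 18))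
  rw [one_pow] at this
  exact hl ((this.dvd_iff dvd_rfl).1 h)

omit [Chev chevE7] in
theorem exists_root {s : ℕ} [Fact s.Prime] (hq : Nat.card K ≡ 1 [MOD s * s]) : ∃ ζ : Kˣ, IsPrimitiveRoot ζ s := by
  obtain ⟨ζ, h⟩ := exists_prime_orderOf_dvd_card' (G := Kˣ) s (by
    rw [Nat.card_units]
    exact (Dvd.intro _ rfl).trans ((Nat.modEq_iff_dvd' Nat.card_pos).1 hq.symm))
  exact ⟨ζ, h ▸ IsPrimitiveRoot.orderOf ζ⟩

omit K in
theorem pow_wd {l : List (Fin 7)} {n : ℕ} (h : ∀ u : Fin 7 → ℤ, (act l)^[n] u = u) : wd7 l ^ n = 1 := by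
  have : ∀ n, ∃ l', wd7 l ^ n = wd7 l' ∧ ∀ u : Fin 7 → ℤ, act l' u = (act l)^[n] u := fun n => by
    induction n with
    | zero => exact ⟨[], rfl, fun _ => rfl⟩
    | succ n ih =>
      obtain ⟨l', a, b⟩ := ih
      refine ⟨l' ++ l, by rw [pow_succ, a, wd7_append], fun u => ?_⟩
      rw [Function.iterate_succ_apply, ← b]
      exact List.foldr_append
  obtain ⟨l', a, b⟩ := this n
  exact a.trans (wd_eq_one fun u => (b u).trans (h u))

omit K in
theorem w5 : wd7 [0, 2, 3, 4] ^ 5 = 1 := pow_wd fun u => by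
  simp only [Function.iterate_succ_apply', Function.iterate_zero_apply, act5]
  funext j; fin_cases j <;> simp <;> ring

omit K in
theorem w7 : wd7 [0, 2, 3, 4, 5, 6] ^ 7 = 1 := pow_wd fun u => by
  simp only [Function.iterate_succ_apply', Function.iterate_zero_apply, act7]
  funext j; fin_cases j <;> simp <;> ring

end

/-- restriction of a section to a smaller alternating group -/
theorem exists_res {n r : ℕ} (h : n ≤ r) {G : Type*} [Group G] (φ : G →* alternatingGroup (Fin r))
    (hφ : Function.Surjective φ) : ∃ (L : Subgroup G) (ψ : L →* alternatingGroup (Fin n)), Function.Surjective ψ := by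
  obtain ⟨ι, hι⟩ := exists_alt_hom h
  refine ⟨ι.range.comap φ, (MonoidHom.ofInjective hι).symm.toMonoidHom.comp (φ.subgroupComap ι.range),
    (MonoidHom.ofInjective hι).symm.surjective.comp (φ.subgroupComap_surjective_of_surjective _ hφ)⟩

local instance : Fact (Nat.Prime 5) := ⟨by norm_num⟩
local instance i7p : Fact (Nat.Prime 7) := ⟨by norm_num⟩

/-- Alternating sections of the groups of type E₇. Let `F` be a finite field of characteristic `p` and let `G` be the Chevalley group of type E₇ over `F`. If some subgroup of `G` has a quotient isomorphic to the alternating group of degree `r`, then `r` is at most 13, or 14 in characteristic 7. (Only an upper bound is asserted.) -/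
theorem result {F : Type*} [Field F] [Fintype F] (p : ℕ) [Fact p.Prime] [CharP F p]
    (r : ℕ) (H : Subgroup ↥(Cfsg.Lie.chevE7.group F)) (K : Subgroup ↥H) [K.Normal]
    (h : Nonempty (↥H ⧸ K ≃* ↥(alternatingGroup (Fin r)))) :
    r ≤ 13 + (if p = 7 then 1 else 0) := by
  by_contra hr
  obtain ⟨e⟩ := h
  obtain ⟨_⟩ := nonempty_chev hD
  have hφ : Function.Surjective (e.toMonoidHom.comp (QuotientGroup.mk' K)) :=
    e.surjective.comp (QuotientGroup.mk'_surjective K)
  by_cases hp : p = 7
  · obtain ⟨L, φ, h1⟩ := exists_res (show 15 ≤ r by rw [if_pos hp] at hr; omega) _ hφ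
    have hq := card_ext (F := F) p 20 (l := 5 * 5) (by rw [hp]; norm_num) (by decide +kernel)
    obtain ⟨ζ, hζ⟩ := exists_root hq
    exact main (adjCov hD _) hζ (by decide) (not_dvd (by norm_num) hq) w5 (by decide +kernel) (fun _ => fix5)
      (by decide +kernel) f5 irr5 (fun v => ⟨_, rT5_ok v⟩) (by simp) (e₁ := (1, 0, 0)) (e₂ := (0, 1, 0))
      (fun j h => by simpa using congrArg (·.2.1) h) (by decide) (by simp) cnt5
      (((H39.groupMap chevE7 (algebraMap F (FiniteField.Extension F p 20))).comp H.subtype).comp L.subtype)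
      (((groupMap_injective _).comp H.subtype_injective).comp L.subtype_injective) φ h1 i5 i5_inj i5_ind
      fun j => ⟨⟨m5 j, a5_ok.2 j⟩, fun v => Subtype.ext (mul_inv_eq_iff_eq_mul.2 ((tr5_ok v).2 j))⟩
  · obtain ⟨L, φ, h1⟩ := exists_res (show 14 ≤ r by rw [if_neg hp] at hr; omega) _ hφ
    have h7 := (Nat.coprime_primes Fact.out i7p.out).2 hp
    have hq := card_ext (F := F) p 42 (l := 7 * 7) (h7.mul_right h7) (by decide +kernel)
    obtain ⟨ζ, hζ⟩ := exists_root hq
    exact main (adjCov hD _) hζ (by decide) (not_dvd (by norm_num) hq) w7 (by decide +kernel) (fun _ => fix7)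
      (by decide +kernel) f7 irr7 (fun v => ⟨_, rT7_ok v⟩) (by simp) (e₁ := (1, 0)) (e₂ := (0, 1))
      (fun j h => by simpa using congrArg (·.2) h) (by decide) (fun _ => ⟨fun v => ⟨_, _, gen7 v⟩, 0, by decide⟩) cnt7
      (((H39.groupMap chevE7 (algebraMap F (FiniteField.Extension F p 42))).comp H.subtype).comp L.subtype)
      (((groupMap_injective _).comp H.subtype_injective).comp L.subtype_injective) φ h1 i7 i7_inj i7_ind
      fun j => ⟨⟨m7 j, a7_ok.2 j⟩, fun v => Subtype.ext (mul_inv_eq_iff_eq_mul.2 ((tr7_ok v).2 j))⟩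

end Cfsg.Agent.S2655
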