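import Cfsg.Statements.S2654
import Cfsg.Agent.E8A.Main
import Cfsg.Agent.E8A.P3
import Cfsg.Agent.E8A.Lie1
import Cfsg.Agent.E8A.Lie2
import Cfsg.Agent.E8A.Lie3
import Cfsg.Agent.S2655

set_option autoImplicit false
open scoped MatrixGroups
open Cfsg

namespace Cfsg.Agent.S2654

/-- Alternating sections of the groups of type E₈. Let `F` be a finite field of characteristic `p` and let `G` be the Chevalley group of type E₈ over `F`. If some subgroup of `G` has a quotient isomorphic to the alternating group of degree `r`, then `r` is at most 17, or 18 in characteristic 3. (Only an upper bound is asserted.) -/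
theorem result {F : Type*} [Field F] [Fintype F] (p : ℕ) [Fact p.Prime] [CharP F p]
    (r : ℕ) (H : Subgroup ↥(Cfsg.Lie.chevE8.group F)) (K : Subgroup ↥H) [K.Normal]
    (h : Nonempty (↥H ⧸ K ≃* ↥(alternatingGroup (Fin r)))) :
    r ≤ 17 + (if p = 3 then 1 else 0) := by
  by_contra hr
  obtain ⟨e⟩ := h
  have hφ : Function.Surjective (e.toMonoidHom.comp (QuotientGroup.mk' K)) :=
    e.surjective.comp (QuotientGroup.mk'_surjective K)
  by_cases hp : p = 3
  · obtain ⟨L, φ, h1⟩ := S2655.exists_res (show 19 ≤ r by rw [if_pos hp] at hr; omega) _ hφ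
    have hi : Function.Injective (H.subtype.comp L.subtype) :=
      H.subtype_injective.comp L.subtype_injective
    refine E8A.no_a19 φ h1 (fun P hP x hx y hy => hi ?_) fun g n h2 h3 => hi ?_
    · rw [map_mul, map_mul]
      exact E8A.comm17 p (by omega) _ (hP.map _) _ ⟨x, hx, rfl⟩ _ ⟨y, hy, rfl⟩
    · rw [map_one]
      refine E8A.no17 p (by omega) _ (H.subtype.comp L.subtype n) ?_ ?_
      · rw [← map_pow, h2, map_one]
      · rw [← map_pow, ← h3, map_mul, map_mul, map_inv]
  · obtain ⟨L, φ, h1⟩ := S2655.exists_res (show 18 ≤ r by rw [if_neg hp] at hr; omega) _ hφ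
    have hi : Function.Injective (H.subtype.comp L.subtype) :=
      H.subtype_injective.comp L.subtype_injective
    obtain ⟨ρ, h2, h3⟩ := E8A.exists_rho (F := F) p hp
    have hk : (3 : AlgebraicClosure F) ≠ 0 := fun h => hp
      ((Nat.prime_dvd_prime_iff_eq Fact.out Nat.prime_three).1
        ((CharP.cast_eq_zero_iff (AlgebraicClosure F) p 3).1 (by exact_mod_cast h)))
    exact E8A.no_a18 hk _ h2 (h3.of_inj _ hi) ((E8A.sr_E8 p hp).of_inj _ hi) φ h1

end Cfsg.Agent.S2654
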