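import Cfsg.Statements.S2657
import Cfsg.Agent.H13.ChevFus

set_option autoImplicit false
open scoped MatrixGroups
open Cfsg

namespace Cfsg.Agent.S2657

open Cfsg.Agent.H13
set_option linter.style.haveILetI false

open Cfsg.Lie Cfsg.Agent.H37 Cfsg.Agent.H38 Cfsg.Agent.H40 Subgroup

section
variable {K : Type*} [Field K] [Finite K]

theorem not_dvd {l : ℕ} (hl : l.Coprime 1152) (h1 : l ≠ 1) (hq : Nat.card K ≡ 1 [MOD l]) :
    ¬ l ∣ (adjCov isChev_F4 K).X.H.index := by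
  rw [index_adj_H, H39.poin_F4]
  intro h
  have := (hq.pow (chevF4.nroots / 2)).mul ((((qInt_modEq hq 2).mul (qInt_modEq hq 6)).mul
    (qInt_modEq hq 8)).mul (qInt_modEq hq 12))
  rw [one_pow] at this
  exact h1 (hl.eq_one_of_dvd ((this.dvd_iff dvd_rfl).1 h))

theorem w24 {w : Equiv.Perm (Fin chevF4.nroots)} (hw : w ∈ (rs chevF4).W) : w ^ 24 = 1 := by
  rcases weyl_F4 hw with h | h | h
  · rw [show 24 = 6 * 4 from rfl, pow_mul, h, one_pow]
  · rw [show 24 = 8 * 3 from rfl, pow_mul, h, one_pow]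
  · have : (w ^ 6) ^ 2 = 1 := Equiv.ext fun r => by
      rw [sq, Equiv.Perm.mul_apply, h, h, RS.neg_neg]; rfl
    rw [show 24 = 6 * 2 * 2 from rfl, pow_mul, pow_mul, this, one_pow]

variable {G S : Type*} [Group G] [Finite G] [Group S] (j : G →* chevF4.group K) (hj : Function.Injective j)
  (φ : G →* S) (hφ : Function.Surjective φ)
include hj

theorem pow24 {l : ℕ} [Fact l.Prime] (hl : l.Coprime 1152) (hq : Nat.card K ≡ 1 [MOD l]) (Q : Subgroup G)
    (hQ : IsPGroup l Q) (g : G) (hg : ∀ x ∈ Q, g * x * g⁻¹ ∈ Q) : ∀ x ∈ Q, g ^ 24 * x * (g ^ 24)⁻¹ = x := by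
  obtain ⟨c, -, hc⟩ := exists_conj_le (not_dvd hl (Fact.out : l.Prime).ne_one hq) le_top (hQ.map j) le_top
  obtain ⟨w, hw, h⟩ := cov_pow_hom (adjCov isChev_F4 K) j hj c (Q := Q) (fun x hx => hc _ ⟨x, hx, rfl⟩) hg
  exact (h 24).1 (w24 hw)

include hφ

theorem two_primes (h5 : Nat.card K ≡ 1 [MOD 5]) (h7 : Nat.card K ≡ 1 [MOD 7]) {a a' b : S} (ha : a ^ 5 = 1)
    (ha' : a' ^ 7 = 1) (hc : a * a' * a⁻¹ = a') (hb : b * a * b⁻¹ = a ^ 2) (hb' : b * a' * b⁻¹ = a' ^ 3) :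
    a = 1 ∨ a' = 1 := by
  haveI : Fact (Nat.Prime 5) := ⟨by norm_num⟩
  haveI : Fact (Nat.Prime 7) := ⟨by norm_num⟩
  have hz : ∀ {x y : S} {k : ℕ}, y * x * y⁻¹ = x ^ k → ∀ e ∈ zpowers x, y * e * y⁻¹ ∈ zpowers x := by
    rintro x y k h _ ⟨i, rfl⟩
    exact ⟨k * i, by simp only; rw [zpow_mul, zpow_natCast, ← h, conj_zpow]⟩
  obtain ⟨Q', hQ', hm', hn'⟩ := lift_norm φ ⊤ (isPGroup_zpowers_of_pow ha') fun x _ => (hφ x).imp fun _ h => ⟨trivial, h⟩
  have hL : ∀ {y : S} {k : ℕ}, y * a' * y⁻¹ = a' ^ k → ∃ g ∈ normalizer (Q' : Set G), φ g = y := by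
    intro y k h
    obtain ⟨g, rfl⟩ := hφ y
    obtain ⟨g', -, h1, h2⟩ := hn' g trivial (hz h)
    exact ⟨g', H4.mem_normalizer_of_conj_mem h1, h2⟩
  obtain ⟨Q, hQ, hm, hn⟩ := lift_norm φ (normalizer (Q' : Set G)) (isPGroup_zpowers_of_pow ha)
    (zpowers_le.2 (hL (k := 1) (by rw [hc, pow_one])))
  obtain ⟨g₀, hg₀, rfl⟩ := hL hb'
  obtain ⟨g, hg, hgQ, e⟩ := hn g₀ hg₀ (hz hb)
  rw [← e] at hb hb'
  have hcomm : ∀ x ∈ Q, ∀ y ∈ Q', y * x = x * y := fun x hx y hy => by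
    have h1 := pow24 j hj (by norm_num) h7 Q' hQ'.isPGroup x (fun z hz => (mem_normalizer_iff.1 (hQ.le hx).1 z).1 hz) y hy
    obtain ⟨k, hk⟩ := hQ.isPGroup ⟨x, hx⟩
    have h2 : x ^ 5 ^ k = 1 := congrArg Subtype.val hk
    obtain ⟨i, hi⟩ := exists_pow_eq_self_of_coprime (x := x) (n := 24)
      (Nat.Coprime.coprime_dvd_right (orderOf_dvd_of_pow_eq_one h2) (Nat.Coprime.pow_right _ (by norm_num)))
    have h3 : Commute (x ^ 24) y := mul_inv_eq_iff_eq_mul.1 h1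
    exact (hi ▸ h3.pow_left i).symm
  obtain ⟨c, -, hc⟩ := exists_conj_le (not_dvd (l := 7) (by norm_num) (by norm_num) h7) le_top
    (hQ'.isPGroup.map j) le_top
  let j' : G →* chevF4.group K := (MulAut.conj c).toMonoidHom.comp j
  obtain ⟨c', hc', hc''⟩ := exists_conj_le (C := centralizer (Q'.map j' : Set (chevF4.group K)))
    (not_dvd (l := 5) (by norm_num) (by norm_num) h5)
    (Cov.H_le_cent (by rintro _ ⟨x, hx, rfl⟩; exact hc _ ⟨x, hx, rfl⟩)) (hQ.isPGroup.map j') (by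
      rintro _ ⟨x, hx, rfl⟩ _ ⟨y, hy, rfl⟩
      rw [← map_mul, ← map_mul, hcomm x hx y hy])
  obtain ⟨w, hw, h⟩ := cov_pow_hom (adjCov isChev_F4 K) j' ((MulAut.conj c).injective.comp hj) c' (g := g)
    (Q := Q ∪ Q') (by
      rintro x (hx | hx)
      · exact hc'' _ ⟨x, hx, rfl⟩
      · rw [← hc' _ ⟨x, hx, rfl⟩, mul_inv_cancel_right]; exact hc _ ⟨x, hx, rfl⟩) (by
      rintro x (hx | hx)
      · exact .inl (hgQ x hx)
      · exact .inr ((mem_normalizer_iff.1 hg x).1 hx))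
  obtain ⟨x, hx, rfl⟩ := hm.ge (mem_zpowers a)
  obtain ⟨x', hx', rfl⟩ := hm'.ge (mem_zpowers a')
  have hp : ∀ (i : ℕ) (y : G), φ (g ^ i * y * (g ^ i)⁻¹) = φ g ^ i * φ y * (φ g ^ i)⁻¹ := fun i y => by
    rw [map_mul, map_mul, map_inv, map_pow]
  have key : ∀ {z : S} {m n : ℕ}, z ^ m = 1 → z ^ n = 1 → Nat.gcd m n = 1 → z = 1 := fun h1 h2 h3 => by
    have := pow_gcd_eq_one.2 ⟨h1, h2⟩
    rwa [h3, pow_one] at this
  rcases weyl_F4 hw with h0 | h0 | h0
  · have := congrArg φ ((h 6).1 h0 x (.inl hx))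
    rw [hp, conj_pow_pow hb] at this
    refine .inl (key ha (n := 63) (mul_right_cancel (b := φ x) ?_) (by norm_num))
    rw [← pow_succ, one_mul]; exact this
  · have := congrArg φ ((h 8).1 h0 x' (.inr hx'))
    rw [hp, conj_pow_pow hb'] at this
    refine .inr (key ha' (n := 6560) (mul_right_cancel (b := φ x') ?_) (by norm_num))
    rw [← pow_succ, one_mul]; exact this
  · have := congrArg φ ((h 6).2 h0 x' (.inr hx'))
    rw [hp, conj_pow_pow hb', map_inv] at this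
    refine .inr (key ha' (n := 730) ?_ (by norm_num))
    rw [pow_succ, show 729 = 3 ^ 6 from rfl, this, inv_mul_cancel]

end

theorem ex12 : ∃ a a' b : alternatingGroup (Fin 12), a ^ 5 = 1 ∧ a' ^ 7 = 1 ∧ a * a' * a⁻¹ = a' ∧
    b * a * b⁻¹ = a ^ 2 ∧ b * a' * b⁻¹ = a' ^ 3 ∧ a ≠ 1 ∧ a' ≠ 1 := by
  refine ⟨⟨c[0, 1, 2, 3, 4], Equiv.Perm.mem_alternatingGroup.2 (by decide +kernel)⟩,
    ⟨c[5, 6, 7, 8, 9, 10, 11], Equiv.Perm.mem_alternatingGroup.2 (by decide +kernel)⟩,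
    ⟨c[1, 2, 4, 3] * c[6, 8, 7, 11, 9, 10], Equiv.Perm.mem_alternatingGroup.2 (by decide +kernel)⟩, ?_⟩
  simp only [ne_eq, Subtype.ext_iff, Subgroup.coe_mul, Subgroup.coe_pow, Subgroup.coe_inv, Subgroup.coe_one]
  decide +kernel

theorem ex11 : ∃ a b : alternatingGroup (Fin 11), a ^ 11 = 1 ∧ b * a * b⁻¹ = a ^ 3 ∧ a ^ 4 ≠ a := by
  refine ⟨⟨c[0, 1, 2, 3, 4, 5, 6, 7, 8, 9, 10], Equiv.Perm.mem_alternatingGroup.2 (by decide +kernel)⟩,
    ⟨c[1, 3, 9, 5, 4] * c[2, 6, 7, 10, 8], Equiv.Perm.mem_alternatingGroup.2 (by decide +kernel)⟩, ?_⟩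
  simp only [ne_eq, Subtype.ext_iff, Subgroup.coe_mul, Subgroup.coe_pow, Subgroup.coe_inv, Subgroup.coe_one]
  decide +kernel

theorem card_ext {F : Type*} [Field F] [Finite F] (p : ℕ) [Fact p.Prime] [CharP F p] (n : ℕ) [NeZero n] {l : ℕ}
    (hl : l.Prime) (hp : p ≠ l) (h : (l - 1) ∣ n) : Nat.card (FiniteField.Extension F p n) ≡ 1 [MOD l] := by
  obtain ⟨k, -, hk⟩ := exists_card_eq_pow F p
  obtain ⟨m, rfl⟩ := h
  rw [FiniteField.natCard_extension, hk, pow_mul, ← Nat.totient_prime hl]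
  simpa using (Nat.ModEq.pow_totient (((Nat.coprime_primes Fact.out hl).2 hp).pow_left k)).pow m

/-- Alternating sections of the groups of type F₄. Let `F` be a finite field of characteristic `p` and let `G` be the Chevalley group of type F₄ over `F`. If some subgroup of `G` has a quotient isomorphic to the alternating group of degree `r`, then `r` is at most 10, or 11 in characteristic 11. (Only an upper bound is asserted.) -/
theorem result {F : Type*} [Field F] [Fintype F] (p : ℕ) [Fact p.Prime] [CharP F p]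
    (r : ℕ) (H : Subgroup ↥(Cfsg.Lie.chevF4.group F)) (K : Subgroup ↥H) [K.Normal]
    (h : Nonempty (↥H ⧸ K ≃* ↥(alternatingGroup (Fin r)))) :
    r ≤ 10 + (if p = 11 then 1 else 0) := by
  by_contra hr
  obtain ⟨ψ⟩ := h
  let φ := ψ.toMonoidHom.comp (QuotientGroup.mk' K)
  have hφ : Function.Surjective φ := ψ.surjective.comp (QuotientGroup.mk'_surjective K)
  by_cases hp : p = 11
  · obtain ⟨ι, hι⟩ := exists_alt_hom (show 12 ≤ r by rw [if_pos hp] at hr; omega)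
    obtain ⟨a, a', b, h1, h2, h3, h4, h5, h6, h7⟩ := ex12
    have := two_primes ((H39.groupMap chevF4 (algebraMap F (FiniteField.Extension F p 12))).comp H.subtype)
      ((groupMap_injective _).comp H.subtype_injective) φ hφ
      (card_ext p 12 (by norm_num) (by omega) (by norm_num)) (card_ext p 12 (by norm_num) (by omega) (by norm_num))
      (a := ι a) (a' := ι a') (b := ι b) (by rw [← map_pow, h1, map_one]) (by rw [← map_pow, h2, map_one])
      (by rw [← map_inv, ← map_mul, ← map_mul, h3]) (by rw [← map_inv, ← map_mul, ← map_mul, ← map_pow, h4])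
      (by rw [← map_inv, ← map_mul, ← map_mul, ← map_pow, h5])
    rw [← map_one ι, hι.eq_iff, hι.eq_iff] at this
    exact this.elim h6 h7
  · haveI : Fact (Nat.Prime 11) := ⟨by norm_num⟩
    obtain ⟨ι, hι⟩ := exists_alt_hom (show 11 ≤ r by rw [if_neg hp] at hr; omega)
    obtain ⟨a, b, ha, h2, h3⟩ := ex11
    have := sec_fus (p := 11) (e := 24) (pow24 (H39.groupMap chevF4 (algebraMap F (FiniteField.Extension F p 10)))
      (groupMap_injective _) (by norm_num) (card_ext p 10 (by norm_num) hp (by norm_num))) H φ hφ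
      (a := ι a) (b := ι b) (k := 3) (by rw [← map_pow, ha, map_one])
      (by rw [← map_inv, ← map_mul, ← map_mul, ← map_pow, h2])
    rw [← map_pow, hι.eq_iff, show 3 ^ 24 = 11 * 25675412407 + 4 by norm_num, pow_add, pow_mul, ha, one_pow,
      one_mul] at this
    exact h3 this

end Cfsg.Agent.S2657
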