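import Cfsg.Statements.S2658
import Cfsg.Agent.H13.D4Sec
import Cfsg.Agent.H64.FoldData

set_option autoImplicit false
open scoped MatrixGroups
open Cfsg

namespace Cfsg.Agent.S2658

open Cfsg.Agent.H13
set_option linter.style.haveILetI false

/-- Alternating sections of the groups of type G₂. Let `F` be a finite field of characteristic `p` and let `G` be the Chevalley group of type G₂ over `F`. If some subgroup of `G` has a quotient isomorphic to the alternating group of degree `r`, then `r` is at most 6, or 7 in characteristic 5. (Only an upper bound is asserted.) -/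
theorem result {F : Type*} [Field F] [Fintype F] (p : ℕ) [Fact p.Prime] [CharP F p]
    (r : ℕ) (H : Subgroup ↥(Cfsg.Lie.chevG2.group F)) (K : Subgroup ↥H) [K.Normal]
    (h : Nonempty (↥H ⧸ K ≃* ↥(alternatingGroup (Fin r)))) :
    r ≤ 6 + (if p = 5 then 1 else 0) := by
  obtain ⟨ψ⟩ := h
  obtain ⟨e⟩ := H64.fold_G2 F
  obtain ⟨a, ha, hF⟩ := H37.exists_card_eq_pow F p
  have h1 := H40.Fix_D4 (φ := RingHom.id F) (fun _ => rfl) (q := 1) fun t => (pow_one t).symm
  let j := ((MulEquiv.subgroupCongr h1).toMonoidHom.comp e.symm.toMonoidHom).comp H.subtype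
  refine d4_alt p (n := 12) (e := p ^ a) (by rw [hF]; ring) ⟨a, ha, rfl⟩ (fun t => ?_) j
    (((MulEquiv.subgroupCongr h1).injective.comp e.symm.injective).comp H.subtype_injective)
    (ψ.toMonoidHom.comp (QuotientGroup.mk' K)) (ψ.surjective.comp (QuotientGroup.mk'_surjective K))
  rw [← hF, Nat.card_eq_fintype_card, FiniteField.pow_card_pow, pow_one]

end Cfsg.Agent.S2658
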