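import Cfsg.Statements.S2659
import Cfsg.Agent.ALT6.Main
import Cfsg.Agent.S2370
-- import your own Cfsg.Agent.* helpers here

set_option autoImplicit false
open scoped MatrixGroups
open Cfsg

namespace Cfsg.Agent.S2659

/-- Alternating sections of the twisted groups of type ²E₆. Let `q = p^a` be a prime power and `K` a field with `q²` elements, and let `G` be the twisted group ²E₆(q) realised over `K`. If some subgroup of `G` has a quotient isomorphic to the alternating group of degree `r`, then `r ≤ 12`, and `r ≤ 11` unless the characteristic is 2, 3 or 5. (Only an upper bound is asserted; characteristic 3 is admitted among the exceptions to match the statement for the untwisted groups of type E₆, so for these twisted groups the bound may be weaker than the truth.) -/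
theorem result {K : Type*} [Field K] [Fintype K] (p a : ℕ) [Fact p.Prime] [CharP K p]
    (ha : 1 ≤ a) (hK : Fintype.card K = (p ^ a) ^ 2) (r : ℕ) (H : Subgroup ↥(Cfsg.Lie.twistedE6 K (p ^ a))) (N : Subgroup ↥H) [N.Normal]
    (h : Nonempty (↥H ⧸ N ≃* ↥(alternatingGroup (Fin r)))) :
    r ≤ 11 + (if p = 2 ∨ p = 3 ∨ p = 5 then 1 else 0) := by
  obtain ⟨ψ⟩ := h
  obtain ⟨_⟩ := H37.nonempty_chev H40.isChev_E6
  have h1 : Lie.twistedE6 K (p ^ a) ≤ Lie.chevE6.group K :=
    (S2370.genSubgroup_le H40.isChev_E6 K _).trans (H38.mg_grp H40.isChev_E6 K).le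
  exact ALT6.alt_bound p ((Subgroup.inclusion h1).comp H.subtype)
    ((Subgroup.inclusion_injective h1).comp H.subtype_injective) (ψ.toMonoidHom.comp (QuotientGroup.mk' N))
    (ψ.surjective.comp (QuotientGroup.mk'_surjective N))

end Cfsg.Agent.S2659
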