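import Cfsg.Statements.S2660
import Cfsg.Agent.H13.D4Sec

set_option autoImplicit false
open scoped MatrixGroups
open Cfsg

namespace Cfsg.Agent.S2660

open Cfsg.Agent.H13
set_option linter.style.haveILetI false

/-- Alternating sections of the triality-twisted groups ³D₄. Let `q = p^a` be a prime power and `K` a field with `q³` elements, and let `G` be the twisted group ³D₄(q) realised over `K`. If some subgroup of `G` has a quotient isomorphic to the alternating group of degree `r`, then `r` is at most 6, or 7 in characteristic 5. (Only an upper bound is asserted.) -/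
theorem result {K : Type*} [Field K] [Fintype K] (p a : ℕ) [Fact p.Prime] [CharP K p]
    (ha : 1 ≤ a) (hK : Fintype.card K = (p ^ a) ^ 3) (r : ℕ) (H : Subgroup ↥(Cfsg.Lie.twistedD4 K (p ^ a))) (N : Subgroup ↥H) [N.Normal]
    (h : Nonempty (↥H ⧸ N ≃* ↥(alternatingGroup (Fin r)))) :
    r ≤ 6 + (if p = 5 then 1 else 0) := by
  obtain ⟨ψ⟩ := h
  refine d4_alt p (n := 4) (e := p ^ a) (by rw [Nat.card_eq_fintype_card, hK]; ring) ⟨a, by omega, rfl⟩
    (fun t => ?_) H.subtype H.subtype_injective (ψ.toMonoidHom.comp (QuotientGroup.mk' N))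
    (ψ.surjective.comp (QuotientGroup.mk'_surjective N))
  rw [pow_succ, pow_mul, ← hK, FiniteField.pow_card]

end Cfsg.Agent.S2660
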