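import Cfsg.Statements.S2669
import Cfsg.Agent.H8.Shintani

set_option autoImplicit false
open Cfsg

namespace Cfsg.Agent.S2669

/-- Shintani descent preserves numbers of fixed points on coset spaces (abstract form). Let `σ` be an automorphism of a group `X` and `e ≥ 1`; write `G` for the fixed points of `σᵉ` and `H` for the fixed points of `σ`, and assume `G` is finite. Let `Y` be a `σ`-stable subgroup of `X` on which the maps `a ↦ a σ(a)⁻¹` and `a ↦ a σᵉ(a)⁻¹` are surjective (as for a closed connected `σ`-stable subgroup of an algebraic group). Let `g ∈ G`, let `a ∈ X` satisfy `g = a σ(a)⁻¹` and put `x = σᵉ(a)⁻¹ a` (the Shintani image, an element of `H`). The element `g σ` of the semidirect product acts on the cosets of `Y ∩ G` in `G` by `k (Y ∩ G) ↦ g σ(k) (Y ∩ G)`, fixing that coset exactly when `k⁻¹ g σ(k) ∈ Y`; and `x` fixes the coset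 `h (Y ∩ H)` of `H` exactly when `h⁻¹ x h ∈ Y`. Then the two numbers of fixed cosets agree; in cross-multiplied form, `#{k ∈ G : k⁻¹ g σ(k) ∈ Y} · |Y ∩ H| = #{h ∈ H : h⁻¹ x h ∈ Y} · |Y ∩ G|`. -/
theorem result {X : Type*} [Group X] (σ : MulAut X) (e : ℕ) (he : 1 ≤ e)
    [Finite ↥((MulEquiv.toMonoidHom (σ ^ e)).eqLocus (MonoidHom.id X))]
    (Y : Subgroup X) (hY : ∀ y : X, y ∈ Y ↔ σ y ∈ Y)
    (hYL : ∀ y ∈ Y, ∃ a ∈ Y, y = a * (σ a)⁻¹) (hYLe : ∀ y ∈ Y, ∃ a ∈ Y, y = a * ((σ ^ e) a)⁻¹)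
    (g : X) (hg : g ∈ (MulEquiv.toMonoidHom (σ ^ e)).eqLocus (MonoidHom.id X)) (a : X) (ha : g = a * (σ a)⁻¹) :
    Nat.card {k : ↥((MulEquiv.toMonoidHom (σ ^ e)).eqLocus (MonoidHom.id X)) // (k : X)⁻¹ * g * σ k ∈ Y} *
        Nat.card ↥(Y ⊓ (MulEquiv.toMonoidHom σ).eqLocus (MonoidHom.id X)) =
      Nat.card {h : ↥((MulEquiv.toMonoidHom σ).eqLocus (MonoidHom.id X)) // (h : X)⁻¹ * (((σ ^ e) a)⁻¹ * a) * h ∈ Y} *
        Nat.card ↥(Y ⊓ (MulEquiv.toMonoidHom (σ ^ e)).eqLocus (MonoidHom.id X)) := by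
  subst ha
  have hg' : (σ ^ e) (a * (σ a)⁻¹) = a * (σ a)⁻¹ := hg
  have hYe : ∀ (n : ℕ) (y : X), y ∈ Y → (σ ^ n) y ∈ Y := by
    intro n y hy
    induction n with
    | zero => simpa using hy
    | succ n ih => rw [pow_succ', MulAut.mul_apply]; exact (hY _).1 ih
  let S := {p : X × X // ((σ ^ e) p.1 = p.1 ∧ p.2 ∈ Y) ∧
    p.1⁻¹ * (a * (σ a)⁻¹) * σ p.1 = p.2 * (σ p.2)⁻¹}
  let T := {p : X × X // (σ p.1 = p.1 ∧ p.2 ∈ Y) ∧
    p.1⁻¹ * (((σ ^ e) a)⁻¹ * a) * p.1 = ((σ ^ e) p.2)⁻¹ * p.2}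
  have hS : Nat.card S = Nat.card {k : ↥((MulEquiv.toMonoidHom (σ ^ e)).eqLocus (MonoidHom.id X)) //
      (k : X)⁻¹ * (a * (σ a)⁻¹) * σ k ∈ Y} *
      Nat.card ↥(Y ⊓ (MulEquiv.toMonoidHom σ).eqLocus (MonoidHom.id X)) := by
    refine H8.card_eq_of_fibers (fun p : S => ⟨⟨p.1.1, p.2.1.1⟩, by
      show p.1.1⁻¹ * (a * (σ a)⁻¹) * σ p.1.1 ∈ Y
      rw [p.2.2]; exact Y.mul_mem p.2.1.2 (Y.inv_mem ((hY _).1 p.2.1.2))⟩) ?_
    rintro ⟨⟨k, hk⟩, hkY⟩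
    obtain ⟨b, hb, hbk⟩ := hYL _ hkY
    have hk' : (σ ^ e) k = k := hk
    simp only at hbk
    refine ⟨⟨fun s => ⟨b⁻¹ * s.1.1.2, Y.mul_mem (Y.inv_mem hb) s.1.2.1.2, ?_⟩,
      fun y => ⟨⟨(k, b * y.1), ⟨hk', Y.mul_mem hb y.2.1⟩, ?_⟩, rfl⟩, ?_, ?_⟩⟩
    · show σ (b⁻¹ * s.1.1.2) = b⁻¹ * s.1.1.2
      have h1 : s.1.1.1 = k := congrArg (fun z => z.1.1) s.2
      have h2 := s.1.2.2
      rw [h1, hbk] at h2
      rw [map_mul, map_inv]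
      have : (σ b)⁻¹ = b⁻¹ * (s.1.1.2 * (σ s.1.1.2)⁻¹) := by rw [← h2]; group
      rw [this]; group
    · have hy : σ y.1 = y.1 := y.2.2
      show k⁻¹ * (a * (σ a)⁻¹) * σ k = b * y.1 * (σ (b * y.1))⁻¹
      rw [hbk, map_mul, hy]; group
    · rintro ⟨⟨⟨k', b'⟩, h⟩, h'⟩
      have h1 : k' = k := congrArg (fun z => z.1.1) h'
      subst h1
      apply Subtype.ext; apply Subtype.ext
      simp
    · intro y
      apply Subtype.ext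
      simp
  have hT : Nat.card T = Nat.card {h : ↥((MulEquiv.toMonoidHom σ).eqLocus (MonoidHom.id X)) //
      (h : X)⁻¹ * (((σ ^ e) a)⁻¹ * a) * h ∈ Y} *
      Nat.card ↥(Y ⊓ (MulEquiv.toMonoidHom (σ ^ e)).eqLocus (MonoidHom.id X)) := by
    refine H8.card_eq_of_fibers (fun p : T => ⟨⟨p.1.1, p.2.1.1⟩, by
      show p.1.1⁻¹ * (((σ ^ e) a)⁻¹ * a) * p.1.1 ∈ Y
      rw [p.2.2]; exact Y.mul_mem (Y.inv_mem (hYe e _ p.2.1.2)) p.2.1.2⟩) ?_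
    rintro ⟨⟨k, hk⟩, hkY⟩
    obtain ⟨c, hc, hck⟩ := hYLe _ (Y.inv_mem hkY)
    have hk' : σ k = k := hk
    simp only at hck
    have hbk : k⁻¹ * (((σ ^ e) a)⁻¹ * a) * k = (σ ^ e) c * c⁻¹ := by
      rw [← inv_inj, hck]; group
    refine ⟨⟨fun s => ⟨s.1.1.2 * c, Y.mul_mem s.1.2.1.2 hc, ?_⟩,
      fun y => ⟨⟨(k, y.1 * c⁻¹), ⟨hk', Y.mul_mem y.2.1 (Y.inv_mem hc)⟩, ?_⟩, rfl⟩, ?_, ?_⟩⟩
    · show (σ ^ e) (s.1.1.2 * c) = s.1.1.2 * c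
      have h1 : s.1.1.1 = k := congrArg (fun z => z.1.1) s.2
      have h2 := s.1.2.2
      rw [h1, hbk] at h2
      rw [map_mul]
      have : (σ ^ e) c = (((σ ^ e) s.1.1.2)⁻¹ * s.1.1.2) * c := by rw [← h2]; group
      rw [this]; group
    · have hy : (σ ^ e) y.1 = y.1 := y.2.2
      show k⁻¹ * (((σ ^ e) a)⁻¹ * a) * k = ((σ ^ e) (y.1 * c⁻¹))⁻¹ * (y.1 * c⁻¹)
      rw [hbk, map_mul, hy, map_inv]; group
    · rintro ⟨⟨⟨k', b'⟩, h⟩, h'⟩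
      have h1 : k' = k := congrArg (fun z => z.1.1) h'
      subst h1
      apply Subtype.ext; apply Subtype.ext
      simp
    · intro y
      apply Subtype.ext
      simp
  rw [← hS, ← hT]
  refine Nat.card_congr ⟨fun p => ⟨(a⁻¹ * p.1.1 * p.1.2, p.1.2), ?_⟩,
    fun p => ⟨(a * p.1.1 * p.1.2⁻¹, p.1.2), ?_⟩, ?_, ?_⟩
  · obtain ⟨⟨k, b⟩, ⟨hk, hb⟩, h⟩ := p
    simp only at hk hb h ⊢
    have hh : σ (a⁻¹ * k * b) = a⁻¹ * k * b := by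
      simp only [map_mul, map_inv]
      have : (σ a)⁻¹ = a⁻¹ * k * (b * (σ b)⁻¹) * (σ k)⁻¹ := by rw [← h]; group
      rw [this]; group
    refine ⟨⟨hh, hb⟩, ?_⟩
    have h2 := H8.shin_pow_fix σ e hh
    simp only [map_mul, map_inv, hk] at h2
    have : ((σ ^ e) a)⁻¹ = a⁻¹ * k * b * ((σ ^ e) b)⁻¹ * k⁻¹ := by rw [← h2]; group
    rw [this]; group
  · obtain ⟨⟨k, b⟩, ⟨hk, hb⟩, h⟩ := p
    simp only at hk hb h ⊢
    have h2 := H8.shin_pow_fix σ e hk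
    refine ⟨⟨?_, hb⟩, ?_⟩
    · simp only [map_mul, map_inv, h2]
      have : ((σ ^ e) b)⁻¹ = k⁻¹ * (((σ ^ e) a)⁻¹ * a) * k * b⁻¹ := by rw [h]; group
      rw [this]; group
    · simp only [map_mul, map_inv, hk]; group
  · rintro ⟨⟨k, b⟩, h⟩
    apply Subtype.ext
    simp [mul_assoc]
  · rintro ⟨⟨k, b⟩, h⟩
    apply Subtype.ext
    simp [mul_assoc]

end Cfsg.Agent.S2669
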