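import Cfsg.Statements.S2670
import Mathlib
import Cfsg.Agent.H67.ProjCount

set_option autoImplicit false
open Cfsg

namespace Cfsg.Agent.S2670


/-- Number of conjugacy classes of elements of prime order r in PGL_n(q) = GL_n(q)/scalars when r divides q − 1 (n ≥ 2): the classes of elements with a diagonalisable lift correspond to the orbits of the cyclic rotation on the r-tuples of eigenvalue multiplicities (a_0, …, a_(r−1)) summing to n with every a_j < n, and when r divides n there are r − 1 further classes (lifts acting irreducibly on blocks of size r); in all (C(n+r−1, r−1) − r − [r ∣ n])/r + r·[r ∣ n] classes. -/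
theorem result {F : Type*} [Field F] [Fintype F] {q : ℕ} (hF : Fintype.card F = q) {n r : ℕ} (hn : 2 ≤ n) (hr : r.Prime) (hrq : r ∣ q - 1) : Nat.card {C : ConjClasses (GL (Fin n) F ⧸ Subgroup.center (GL (Fin n) F)) // ∃ g : GL (Fin n) F ⧸ Subgroup.center (GL (Fin n) F), ConjClasses.mk g = C ∧ orderOf g = r} = (Nat.choose (n + r - 1) (r - 1) - r - (if r ∣ n then 1 else 0)) / r + r * (if r ∣ n then 1 else 0) := by
  classical
  subst hF
  haveI : Nonempty (Fin n) := ⟨⟨0, by omega⟩⟩
  have h1 := Fintype.one_lt_card (α := F)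
  have hr0 : (r : F) ≠ 0 := fun e => by
    obtain ⟨k, hk⟩ := hrq
    have := congrArg (Nat.cast : ℕ → F) hk
    rw [Nat.cast_sub h1.le, Nat.cast_mul, e, FiniteField.cast_card_eq_zero] at this
    simp at this
  have := H67.card_proj_classes (AlgebraicClosure F) (Units.coeHom (Matrix (Fin n) (Fin n) F))
    (Subgroup.center (GL (Fin n) F)) hr hr0 (e := Fintype.card F)
    (by simpa [Nat.cast_sub h1.le] using Int.natCast_dvd_natCast.2 hrq) (by exact_mod_cast h1.ne') (fun g => ?_)
    (fun l l0 hl => ?_) (fun g => by simpa using H67.ev_map_frob _) (fun s hs hc h0 => ?_)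
    fun g h ⟨c, hc⟩ => isConj_iff.2 ⟨c, mul_inv_eq_iff_eq_mul.2 (Units.ext hc)⟩
  · simpa using this
  · rw [Subgroup.mem_center_iff]
    refine ⟨fun h => ?_, fun ⟨c, hc⟩ k => Units.ext (by
      simp only [Units.coeHom_apply] at hc; simp [hc])⟩
    rw [← Subgroup.mem_center_iff, Matrix.GeneralLinearGroup.center_eq_range_scalar] at h
    obtain ⟨c, rfl⟩ := h
    exact ⟨c, by simp [Matrix.smul_one_eq_diagonal]⟩
  · obtain ⟨c, rfl⟩ := H67.exists_algebraMap_eq_of_pow_card (F := F) (by simpa using hl)
    exact ⟨Matrix.GeneralLinearGroup.scalar (Fin n) (Units.mk0 c (by simpa using l0)), c,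
      by simp [Matrix.smul_one_eq_diagonal], rfl⟩
  · obtain ⟨A, h2, h3⟩ := H67.exists_isSS_ev_eq (F := F) (ι := Fin n) (by simpa using hs) hc
    have hu : IsUnit A := (Matrix.isUnit_iff_isUnit_det A).2 (Ne.isUnit fun e => h0 (by
      rw [← Multiset.prod_eq_zero_iff, ← h3, H67.prod_ev, e, map_zero]))
    exact ⟨hu.unit, h2, h3⟩

end Cfsg.Agent.S2670
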