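import Cfsg.Statements.S2671
import Mathlib
import Cfsg.Agent.H67.RootClass
import Cfsg.Agent.S2587

set_option autoImplicit false
open Cfsg

namespace Cfsg.Agent.S2671

theorem order_neg {r q i b s : ℕ} (hr : r.Prime) (hr2 : r ≠ 2) (hi : i = orderOf (q : ZMod r))
    (hb : b = if Odd i then i else i / 2) (hs : s * b = r - 1) :
    orderOf ((-(q : ℤ) : ℤ) : ZMod r) = if i % 4 = 2 then b else 2 * b := by
  haveI := Fact.mk hr
  have h1 : orderOf (-1 : ZMod r) = 2 := by
    rw [orderOf_neg_one, ZMod.ringChar_zmod_n, if_neg hr2]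
  have hb0 : b ≠ 0 := by rintro rfl; have := hr.one_lt; omega
  have hq : (q : ZMod r) ^ i = 1 := hi ▸ pow_orderOf_eq_one _
  rw [Int.cast_neg, Int.cast_natCast]
  split_ifs at hb with ho
  · rw [if_neg (by rw [Nat.odd_iff] at ho; omega), ← neg_one_mul,
      (Commute.all _ _).orderOf_mul_eq_mul_orderOf_of_coprime, h1, hb, hi]
    rw [h1, ← hi]
    exact ho.coprime_two_left
  · obtain ⟨u, hu⟩ := Nat.not_odd_iff_even.1 ho
    obtain rfl : b = u := by omega
    have h2 : (q : ZMod r) ^ b = -1 := by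
      refine (mul_self_eq_one_iff.1 (by rw [← pow_add, ← hu, hq])).resolve_left ?_
      exact pow_ne_one_of_lt_orderOf (by omega) (by omega)
    rw [show -(q : ZMod r) = q ^ (b + 1) by rw [pow_succ, h2, neg_one_mul],
      orderOf_pow' _ (Nat.succ_ne_zero b), ← hi, hu]
    have h3 : Nat.gcd (b + b) (b + 1) = Nat.gcd 2 (b + 1) := by
      rw [← two_mul, Nat.Coprime.gcd_mul_right_cancel]
      simp
    rw [h3]
    split_ifs with h4
    · rw [Nat.gcd_eq_left (by omega)]
      omega
    · rw [Nat.Coprime.gcd_eq_one (Nat.coprime_two_left.2 (Nat.odd_iff.2 (by omega)))]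
      omega

/-- Number of conjugacy classes of elements of odd prime order r in the general unitary group GU_n(q), for r not dividing q(q + 1): let i be the multiplicative order of q modulo r, b = i if i is odd and b = i/2 if i is even, and s = (r − 1)/b. If i ≢ 2 (mod 4) the eigenvalue orbits pair off into dual pairs of totally isotropic blocks and there are C(⌊n/(2b)⌋ + s/2, s/2) − 1 classes; if i ≡ 2 (mod 4) each orbit gives a non-degenerate block of dimension i/2 and there are C(⌊2n/i⌋ + s, s) − 1 classes. -/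
theorem result {K : Type*} [Field K] [Fintype K] {p q n r i b s : ℕ} [Fact p.Prime] [CharP K p] (hK : Fintype.card K = q ^ 2) (hr : r.Prime) (hr2 : r ≠ 2) (hrp : r ≠ p) (hi : i = orderOf (q : ZMod r)) (hi2 : i ≠ 2) (hb : b = if Odd i then i else i / 2) (hs : s * b = r - 1) : Nat.card {C : ConjClasses ↥(Cfsg.GU n K q) // ∃ g : ↥(Cfsg.GU n K q), ConjClasses.mk g = C ∧ orderOf g = r} = if i % 4 = 2 then Nat.choose (2 * n / i + s) s - 1 else Nat.choose (n / (2 * b) + s / 2) (s / 2) - 1 := by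
  classical
  haveI := Fact.mk hK
  have hr0 : (r : K) ≠ 0 :=
    H66.natCast_ne_zero_of_coprime p ((Nat.coprime_primes hr Fact.out).2 hrp)
  have hr1 : (r : AlgebraicClosure K) ≠ 0 := by
    rw [← map_natCast (algebraMap K (AlgebraicClosure K))]
    exact (_root_.map_ne_zero _).2 hr0
  have h1 := order_neg hr hr2 hi hb hs
  rw [H67.card_classes_of_ev (AlgebraicClosure K)
    ((Units.coeHom _).comp (Cfsg.GU n K q).subtype) hr hr0
    (fun g h _ _ hc => (S2587.result hK g h).2 ((H67.isConj_units_iff _ _).2 hc))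
    {t | (∀ x ∈ t, x ^ r = 1) ∧ t.map (fun x => x ^ (-(q : ℤ))) = t ∧ t.card = n} ?_ ?_]
  · split_ifs at h1 ⊢ with h2
    · rw [(H67.card_root_multisets hr hr1 h1 hs _).1]
      rw [if_neg (by rw [Nat.odd_iff]; omega)] at hb
      rw [show i = 2 * b by omega, Nat.mul_div_mul_left _ _ two_pos]
    · haveI := Fact.mk hr
      have hb0 : b ≠ 0 := by rintro rfl; have := hr.one_lt; omega
      have h3 : 2 * b ∣ s * b := by
        rw [hs, ← h1]
        refine ZMod.orderOf_dvd_card_sub_one fun h => ?_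
        have := pow_orderOf_eq_one ((-(q : ℤ) : ℤ) : ZMod r)
        rw [h1, h, zero_pow (by omega)] at this
        exact zero_ne_one this
      obtain ⟨u, rfl⟩ := Nat.dvd_of_mul_dvd_mul_right (Nat.pos_of_ne_zero hb0) h3
      rw [(H67.card_root_multisets hr hr1 h1 (k := 2 * u / 2) (by
        rw [← hs, Nat.mul_div_cancel_left _ two_pos]; ring) _).1]
  · rintro t ⟨h5, h6, h7⟩
    obtain ⟨B, hB1, hB2, hB3⟩ := H67.exists_isIsom_ev_eq (K := K) h6 h7 fun h => by
      simpa [hr.ne_zero] using h5 0 h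
    have hB4 : B ^ r = 1 := H67.IsSS_pow_eq_one hB2 (hB3 ▸ h5)
    exact ⟨⟨(IsUnit.of_pow_eq_one hB4 hr.ne_zero).unit, hB1⟩, Subtype.ext (Units.ext hB4), hB3⟩
  · intro g hg
    exact ⟨fun x hx => H67.pow_eq_one_of_mem_ev (congrArg (fun y => y.1.1) hg) hx,
      H67.ev_map_twist ((H67.isIsom_iff_cjT _).1 g.2), (H67.card_ev _ _).trans (by simp)⟩

end Cfsg.Agent.S2671
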