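import Cfsg.Statements.S2672
import Mathlib
import Cfsg.Agent.H67.ProjCount
import Cfsg.Agent.H67.SUConj
import Cfsg.Agent.H10.Isotropic

set_option autoImplicit false
open Cfsg

namespace Cfsg.Agent.S2672


/-- Number of conjugacy classes of elements of odd prime order r in PGU_n(q) = GU_n(q)/scalars (n ≥ 3) when r divides q + 1: as in the linear case with q − 1 replaced by q + 1, the classes correspond to the rotation orbits on r-tuples of eigenvalue multiplicities summing to n with every entry < n, plus r − 1 further classes when r divides n; in all (C(n+r−1, r−1) − r − [r ∣ n])/r + r·[r ∣ n]. -/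
theorem result {K : Type*} [Field K] [Fintype K] {q n r : ℕ} (hK : Fintype.card K = q ^ 2) (hn : 3 ≤ n) (hr : r.Prime) (hr2 : r ≠ 2) (hrq : r ∣ q + 1) : Nat.card {C : ConjClasses (↥(Cfsg.GU n K q) ⧸ Subgroup.center ↥(Cfsg.GU n K q)) // ∃ g : ↥(Cfsg.GU n K q) ⧸ Subgroup.center ↥(Cfsg.GU n K q), ConjClasses.mk g = C ∧ orderOf g = r} = (Nat.choose (n + r - 1) (r - 1) - r - (if r ∣ n then 1 else 0)) / r + r * (if r ∣ n then 1 else 0) := by
  classical
  haveI := Fact.mk hK
  haveI : Nonempty (Fin n) := ⟨⟨0, by omega⟩⟩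
  have hr0 : (r : K) ≠ 0 := fun e => by
    obtain ⟨k, hk⟩ := hrq
    have h1 := congrArg (Nat.cast : ℕ → K) hk
    have h2 := FiniteField.cast_card_eq_zero K
    rw [hK, Nat.cast_pow, pow_eq_zero_iff two_ne_zero] at h2
    simp [e, h2] at h1
  have := H67.card_proj_classes (AlgebraicClosure K)
    ((Units.coeHom (Matrix (Fin n) (Fin n) K)).comp (Cfsg.GU n K q).subtype)
    (Subgroup.center (Cfsg.GU n K q)) hr hr0 (e := -(q : ℤ))
    (by rw [← neg_add', dvd_neg]; exact_mod_cast hrq) (by omega)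
    (H10.mem_center_GU_iff (by omega)) (fun l l0 hl => ?_)
    (fun g => H67.ev_map_twist ((H67.isIsom_iff_cjT _).1 (H10.gm_isIsom g))) (fun s hs hc h0 => ?_)
    fun g h hc => ?_
  · simpa using this
  · obtain ⟨c, rfl⟩ := H67.exists_algebraMap_eq_of_pow_card (F := K) (x := l)
      (by rw [← H67.twist_twist K (q := q), hl, hl])
    refine ⟨H10.mkGU (c • 1) ((H10.isIsom_smul_one_iff (by omega)).2
      ((algebraMap K (AlgebraicClosure K)).injective ?_)), c, rfl, rfl⟩
    rw [zpow_neg, zpow_natCast] at hl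
    rw [H10.cj_apply, map_mul, map_pow, map_one]
    nth_rewrite 1 [← hl]
    exact inv_mul_cancel₀ (pow_ne_zero _ l0)
  · obtain ⟨B, h1, h2, h3⟩ := H67.exists_isIsom_ev_eq (K := K) hs (by simpa using hc) h0
    exact ⟨H10.mkGU B h1, h2, h3⟩
  · obtain ⟨k, h1, h2⟩ := H67.exists_isIsom_conj (H10.gm_isIsom g) (H10.gm_isIsom h) hc
    exact isConj_iff.2 ⟨H10.mkGU k h1, mul_inv_eq_iff_eq_mul.2 (H10.gm_injective h2)⟩

end Cfsg.Agent.S2672
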