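import Cfsg.Statements.S2673
import Mathlib
import Cfsg.Agent.H67.OrthClass

set_option autoImplicit false
open Cfsg

namespace Cfsg.Agent.S2673


/-- Number of conjugacy classes of elements of odd prime order r ≠ p in the orthogonal group O_(2m+1)(q) of x_0² + Σ x_j y_j, q odd: with i the multiplicative order of q mod r and t = (r − 1)/i, there are C(⌊m/i⌋ + t/2, t/2) − 1 classes if i is odd (dual pairs of totally singular i-blocks) and C(⌊(2m+1)/i⌋ + t, t) − 1 if i is even (elliptic i-blocks). -/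
theorem result {F : Type*} [Field F] [Fintype F] {p q : ℕ} [Fact p.Prime] [CharP F p] (hF : Fintype.card F = q) (hq : Odd q) (m r i t : ℕ) (hr : r.Prime) (hr2 : r ≠ 2) (hrp : r ≠ p) (hi : i = orderOf (q : ZMod r)) (ht : t * i = r - 1) : Nat.card {C : ConjClasses ↥(Cfsg.isometryGroup F (Cfsg.quadFormOdd m F)) // ∃ g : ↥(Cfsg.isometryGroup F (Cfsg.quadFormOdd m F)), ConjClasses.mk g = C ∧ orderOf g = r} = if Odd i then Nat.choose (m / i + t / 2) (t / 2) - 1 else Nat.choose ((2 * m + 1) / i + t) t - 1 := by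
  classical
  subst hF
  have hr0 : (r : F) ≠ 0 :=
    H66.natCast_ne_zero_of_coprime p ((Nat.coprime_primes hr Fact.out).2 hrp)
  obtain ⟨c', d, k, h1, h2, h3, h4⟩ := H67.order_data (Ω := AlgebraicClosure F) hr hr2 hi ht
  haveI := Fact.mk hr
  haveI : Fact (2 < r) := ⟨lt_of_le_of_ne hr.two_le hr2.symm⟩
  have hi0 : i ≠ 0 := by rintro rfl; have := hr.one_lt; omega
  have hq1 : (Fintype.card F : ZMod r) ^ i = 1 := hi ▸ pow_orderOf_eq_one _
  have hq0 : (Fintype.card F : ZMod r) ≠ 0 := fun h => by simp [h, hi0] at hq1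
  have h20 : (2 : F) ≠ 0 := fun h => by
    have := FiniteField.even_card_of_char_two
      (ringChar.eq_iff.2 (CharTwo.of_one_ne_zero_of_two_eq_zero one_ne_zero h))
    rw [Nat.odd_iff] at hq
    omega
  rw [← H67.coe_QOdd, H67.card_orth_classes (AlgebraicClosure F) _ (H67.QOdd_nondegenerate h20 m)
    hr hr2 hr0 (n := 2 * m + 1) (by simp; ring) h1 h2 h4 True (fun _ _ _ => trivial) ?_]
  · rw [if_pos trivial, Nat.sub_zero]
    split_ifs at h3 ⊢ <;> obtain ⟨rfl, rfl⟩ := h3
    · rw [← Nat.div_div_eq_div_mul, show (2 * m + 1) / 2 = m by omega]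
    · rfl
  · intro l A Q _ _ hQ _ hl _
    obtain ⟨a, φ, ha, hφ⟩ := H27.quad_equiv_odd (Q := Q.prod (H67.QOdd F (m - l))) (m := m)
      (fun u hu => Prod.ext (hQ.1 _ fun v => by simpa using hu (v, 0))
        ((H67.QOdd_nondegenerate h20 _).1 _ fun v => by simpa using hu (0, v))) (by simp; omega)
    refine ⟨a⁻¹, inv_ne_zero ha, φ.toLinearMap ∘ₗ LinearMap.inl F _ _, fun v => ?_⟩
    have := hφ (v, 0)
    rw [QuadraticMap.prod_apply, map_zero, add_zero] at this
    rw [QuadraticMap.smul_apply, this, H67.coe_QOdd, smul_eq_mul, inv_mul_cancel_left₀ ha]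
    rfl

end Cfsg.Agent.S2673
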