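import Cfsg.Statements.S2674
import Mathlib
import Cfsg.Agent.H67.OrthClass

set_option autoImplicit false
open Cfsg

namespace Cfsg.Agent.S2674


/-- Number of conjugacy classes of elements of odd prime order r ≠ p in the orthogonal group O⁺_2m(q) of Σ x_j y_j (m ≥ 1): with i the multiplicative order of q mod r and t = (r − 1)/i — if i is odd, C(⌊m/i⌋ + t/2, t/2) − 1; if i is even, C(⌊2m/i⌋ + t, t) − 1 minus, when i divides 2m with odd quotient, the C(2m/i + t − 1, t − 1) tuples using the whole space (an odd number of elliptic i-blocks fills an elliptic, not a hyperbolic, space). -/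
theorem result {F : Type*} [Field F] [Fintype F] {p q : ℕ} [Fact p.Prime] [CharP F p] (hF : Fintype.card F = q) (m r i t : ℕ) (hm : 1 ≤ m) (hr : r.Prime) (hr2 : r ≠ 2) (hrp : r ≠ p) (hi : i = orderOf (q : ZMod r)) (ht : t * i = r - 1) : Nat.card {C : ConjClasses ↥(Cfsg.isometryGroup F (Cfsg.quadFormPlus m F)) // ∃ g : ↥(Cfsg.isometryGroup F (Cfsg.quadFormPlus m F)), ConjClasses.mk g = C ∧ orderOf g = r} = if Odd i then Nat.choose (m / i + t / 2) (t / 2) - 1 else Nat.choose (2 * m / i + t) t - 1 - (if i ∣ 2 * m ∧ Odd (2 * m / i) then Nat.choose (2 * m / i + t - 1) (t - 1) else 0) := by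
  classical
  subst hF
  have hr0 : (r : F) ≠ 0 :=
    H66.natCast_ne_zero_of_coprime p ((Nat.coprime_primes hr Fact.out).2 hrp)
  obtain ⟨c', d, k, h1, h2, h3, h4⟩ := H67.order_data (Ω := AlgebraicClosure F) hr hr2 hi ht
  haveI := Fact.mk hr
  haveI : Fact (2 < r) := ⟨lt_of_le_of_ne hr.two_le hr2.symm⟩
  have hi0 : i ≠ 0 := by rintro rfl; have := hr.one_lt; omega
  have hq1 : (Fintype.card F : ZMod r) ^ i = 1 := hi ▸ pow_orderOf_eq_one _
  have hq0 : (Fintype.card F : ZMod r) ≠ 0 := fun h => by simp [h, hi0] at hq1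
  rw [← H67.coe_QPlus, H67.card_orth_classes (AlgebraicClosure F) _ (H67.QPlus_nondegenerate m)
    hr hr2 hr0 (n := 2 * m) (by simp; ring) h1 h2 h4 ((Fintype.card F : ZMod r) ^ m = 1) ?_ ?_]
  · by_cases ho : Odd i
    · rw [if_pos ho] at h3 ⊢
      obtain ⟨rfl, rfl⟩ := h3
      rw [Nat.mul_div_mul_left _ _ two_pos]
      split_ifs with h5 h6
      · rfl
      · exact absurd (by
          obtain ⟨e, rfl⟩ := Nat.dvd_of_mul_dvd_mul_left two_pos h6
          rw [pow_mul, hq1, one_pow]) h5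
      · rfl
    · rw [if_neg ho] at h3 ⊢
      obtain ⟨rfl, rfl⟩ := h3
      congr 1
      by_cases h6 : d ∣ 2 * m
      · rw [H67.pow_half_order hr hi hi0 (Nat.not_odd_iff_even.1 ho) h6]
        rcases Nat.even_or_odd (2 * m / d) with h | h
        · simp [h.neg_one_pow, Nat.not_odd_iff_even.2 h]
        · simp [h.neg_one_pow, h, h6, ZMod.neg_one_ne_one]
      · simp [h6]
  · intro g hg h5
    exact H67.fpf_plus hr hr2 hq0 (congrArg (fun y => y.1.1) hg) h5 (fun x => g.2 x x)
      (LinearEquiv.refl _ _) fun v => by rw [H67.coe_QPlus]; rfl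
  · intro l A Q hA hA1 hQ hQA hl hl'
    obtain ⟨ζ, hζ⟩ := H67.exists_anisotropic F
    have hab := H67.anisotropic_of_no_root hζ
    rw [H67.coe_QPlus]
    rcases H27.quad_equiv_plus_or_minus hQ.1 (m := l) (by simp) hab with ⟨φ, hφ⟩ | ⟨hl1, φ, hφ⟩
    · exact H67.qEmb_of_equiv φ hφ (H67.qEmb_plus_plus (by omega))
    · refine H67.qEmb_of_equiv φ hφ ((H67.qEmb_minus_plus _ _ _).trans (H67.qEmb_plus_plus ?_))
      by_contra h
      have h5 := H67.fpf_minus hr hr2 hq0 hA hA1 hQA hab φ hφ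
      rw [show l - 1 + 1 = m by omega, hl' (by omega)] at h5
      exact ZMod.neg_one_ne_one h5.symm

end Cfsg.Agent.S2674
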