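import Cfsg.Statements.S2675
import Mathlib
import Cfsg.Agent.H67.OrthClass

set_option autoImplicit false
open Cfsg

namespace Cfsg.Agent.S2675


/-- Number of conjugacy classes of elements of odd prime order r ≠ p in the orthogonal group O⁻_2m(q) of an elliptic form Σ_(j<m−1) x_j y_j + z₁² + a z₁z₂ + c z₂² (binary part anisotropic, m ≥ 1): with i the multiplicative order of q mod r and t = (r − 1)/i — if i is odd, C(⌊m/i⌋ + t/2, t/2) − 1 minus, when i divides m, the C(m/i + t/2 − 1, t/2 − 1) tuples filling the whole space (dual pairs of totally singular blocks fill a hyperbolic space); if i is even, C(⌊2m/i⌋ + t, t) − 1 minus, when i divides 2m with even quotient, the C(2m/i + t − 1, t − 1) tuples filling the whole space with an even number of elliptic blocks. -/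
theorem result {F : Type*} [Field F] [Fintype F] {p q : ℕ} [Fact p.Prime] [CharP F p] (hF : Fintype.card F = q) (m r i t : ℕ) (hm : 1 ≤ m) (a c : F) (hac : ∀ z₁ z₂ : F, z₁ ^ 2 + a * z₁ * z₂ + c * z₂ ^ 2 = 0 → z₁ = 0 ∧ z₂ = 0) (hr : r.Prime) (hr2 : r ≠ 2) (hrp : r ≠ p) (hi : i = orderOf (q : ZMod r)) (ht : t * i = r - 1) : Nat.card {C : ConjClasses ↥(Cfsg.isometryGroup F (Cfsg.quadFormMinus (m - 1) F a c)) // ∃ g : ↥(Cfsg.isometryGroup F (Cfsg.quadFormMinus (m - 1) F a c)), ConjClasses.mk g = C ∧ orderOf g = r} = if Odd i then Nat.choose (m / i + t / 2) (t / 2) - 1 - (if i ∣ m then Nat.choose (m / i + t / 2 - 1) (t / 2 - 1) else 0) else Nat.choose (2 * m / i + t) t - 1 - (if i ∣ 2 * m ∧ Even (2 * m / i) then Nat.choose (2 * m / i + t - 1) (t - 1) else 0) := by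
  classical
  subst hF
  have hr0 : (r : F) ≠ 0 :=
    H66.natCast_ne_zero_of_coprime p ((Nat.coprime_primes hr Fact.out).2 hrp)
  obtain ⟨c', d, k, h1, h2, h3, h4⟩ := H67.order_data (Ω := AlgebraicClosure F) hr hr2 hi ht
  haveI := Fact.mk hr
  haveI : Fact (2 < r) := ⟨lt_of_le_of_ne hr.two_le hr2.symm⟩
  have hi0 : i ≠ 0 := by rintro rfl; have := hr.one_lt; omega
  have hq1 : (Fintype.card F : ZMod r) ^ i = 1 := hi ▸ pow_orderOf_eq_one _
  have hq0 : (Fintype.card F : ZMod r) ≠ 0 := fun h => by simp [h, hi0] at hq1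
  rw [← H67.coe_QMinus, H67.card_orth_classes (AlgebraicClosure F) _
    (H67.QMinus_nondegenerate (m - 1) hac) hr hr2 hr0 (n := 2 * m) (by simp; omega) h1 h2 h4
    ((Fintype.card F : ZMod r) ^ m = -1) ?_ ?_]
  · by_cases ho : Odd i
    · rw [if_pos ho] at h3 ⊢
      obtain ⟨rfl, rfl⟩ := h3
      simp only [Nat.mul_div_mul_left _ _ two_pos, Nat.mul_dvd_mul_iff_left two_pos]
      congr 1
      by_cases h6 : i ∣ m
      · obtain ⟨e, rfl⟩ := h6
        rw [pow_mul, hq1, one_pow, if_neg ZMod.neg_one_ne_one.symm]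
      · simp [h6]
    · rw [if_neg ho] at h3 ⊢
      obtain ⟨rfl, rfl⟩ := h3
      congr 1
      by_cases h6 : d ∣ 2 * m
      · rw [H67.pow_half_order hr hi hi0 (Nat.not_odd_iff_even.1 ho) h6]
        rcases Nat.even_or_odd (2 * m / d) with h | h
        · simp [h.neg_one_pow, h, h6, ZMod.neg_one_ne_one.symm]
        · simp [h.neg_one_pow, Nat.not_even_iff_odd.2 h]
      · simp [h6]
  · intro g hg h5
    have := H67.fpf_minus hr hr2 hq0 (congrArg (fun y => y.1.1) hg) h5 (fun x => g.2 x x) hac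
      (LinearEquiv.refl _ _) fun v => by rw [H67.coe_QMinus]; rfl
    rwa [Nat.sub_add_cancel hm] at this
  · intro l A Q hA hA1 hQ hQA hl hl'
    rw [H67.coe_QMinus]
    rcases H27.quad_equiv_plus_or_minus hQ.1 (m := l) (by simp) hac with ⟨φ, hφ⟩ | ⟨hl1, φ, hφ⟩
    · refine H67.qEmb_of_equiv φ hφ ((H67.qEmb_plus_plus ?_).trans (H67.qEmb_plus_minus _ _ _))
      by_contra h
      have h5 := H67.fpf_plus hr hr2 hq0 hA hA1 hQA φ hφ
      rw [show l = m by omega, hl' (by omega)] at h5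
      exact ZMod.neg_one_ne_one h5
    · exact H67.qEmb_of_equiv φ hφ (H67.qEmb_minus_minus _ _ (by omega))

end Cfsg.Agent.S2675
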