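import Cfsg.Statements.S2676
import Cfsg.Agent.H64.NilCh
import Cfsg.Agent.H67.ClassCount
import Cfsg.Agent.H27.Sp
import Cfsg.Agent.H3.SympBasis

set_option autoImplicit false
open Classical
open Cfsg

namespace Cfsg.Agent.S2676


open Module Finset Cfsg.Agent.H29 Cfsg.Agent.H64

section
variable {F V : Type*} [Field F] [AddCommGroup V] [Module F V] {β : LinearMap.BilinForm F V}
  {n : End F V} {ν : F} {e N : ℕ} {a a' : ℕ → ℕ} {s s' : ℕ → Bool} {v : ℕ → ℕ → V}

theorem ch_congr (h : Ch β ν e n ⊤ N a s v) (ha : ∀ i < N, a i = a' i) (hs : ∀ i < N, s i = s' i) :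
    Ch β ν e n ⊤ N a' s' v := by
  refine ⟨fun i hi => ha i hi ▸ hs i hi ▸ h.valid i hi, ?_,
    fun i hi k hk => h.nil i hi k (ha i hi ▸ hk), fun i hi k hk i' hi' k' hk' j =>
      hs i hi ▸ h.gram i hi k (ha i hi ▸ hk) i' hi' k' (ha i' hi' ▸ hk') j⟩
  rw [← h.span]
  congr 1
  ext x
  exact ⟨fun ⟨i, hi, k, hk, hx⟩ => ⟨i, hi, k, ha i hi ▸ hk, hx⟩,
    fun ⟨i, hi, k, hk, hx⟩ => ⟨i, hi, k, (ha i hi).symm ▸ hk, hx⟩⟩

variable (p : ℕ) [Fact p.Prime] [CharP F p]

theorem cay_pow' {g n : End F V} (hN : n ^ p = 0) (hg : g * (1 - n) = 1 + n) : g ^ p = 1 := by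
  rcases subsingleton_or_nontrivial (End F V) with h | h
  · exact Subsingleton.elim _ _
  · have := charP_of_injective_algebraMap (algebraMap F (End F V)).injective p
    exact cay_pow p hN hg

theorem isUnit_add_one' (h2 : (2 : F) ≠ 0) {g : End F V} (hg : g ^ p = 1) : IsUnit (g + 1) := by
  rcases subsingleton_or_nontrivial (End F V) with h | h
  · exact isUnit_of_subsingleton _
  · have := charP_of_injective_algebraMap (algebraMap F (End F V)).injective p
    refine isUnit_add_one p ?_ hg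
    have := (Ne.isUnit h2).map (algebraMap F (End F V))
    rwa [map_ofNat] at this

theorem cay_of_pow' (h2 : (2 : F) ≠ 0) {g : End F V}
    (hg : ∀ x y, β (g x) (g y) = β x y) (hp : g ^ p = 1) :
    ∃ n : End F V, Skew β n ⊤ ∧ n ^ p = 0 ∧ g * (1 - n) = 1 + n := by
  rcases subsingleton_or_nontrivial (End F V) with h | h
  · exact ⟨0, ⟨fun _ _ => trivial, fun x _ y _ => by simp⟩, Subsingleton.elim _ _,
      Subsingleton.elim _ _⟩
  · have := charP_of_injective_algebraMap (algebraMap F (End F V)).injective p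
    exact cay_of_pow p h2 hg hp

end

theorem sum_parts {M p : ℕ} (μ : Nat.Partition M) (h : ∀ a ∈ μ.parts, a ≤ p) :
    ∑ i ∈ range p, (i + 1) * μ.parts.count (i + 1) = M := by
  have := Finset.sum_multiset_count_of_subset μ.parts (range (p + 1)) fun a ha =>
    mem_range.2 (Nat.lt_succ_of_le (h a (Multiset.mem_toFinset.1 ha)))
  rw [μ.parts_sum, sum_range_succ'] at this
  refine Eq.trans ?_ this.symm
  simp [mul_comm]

theorem count_parts (p : ℕ) (a : ℕ → ℕ) (j : ℕ) :
    (∑ i ∈ range p, Multiset.replicate (a i) (i + 1)).count j =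
      if 0 < j ∧ j ≤ p then a (j - 1) else 0 := by
  rw [Multiset.count_sum']
  simp only [Multiset.count_replicate]
  split_ifs with h
  · rw [sum_eq_single (j - 1) (fun i _ hi => if_neg (by omega)) (fun h' => by
      rw [mem_range] at h'; omega), if_pos (by omega)]
  · exact sum_eq_zero fun i hi => if_neg (by rw [mem_range] at hi; omega)

/-- Number of conjugacy classes of elements of order p in Sp_2m(q), q a power of the odd prime p: the classes correspond to the signed partitions of 2m — partitions with all parts at most p in which every odd part has even multiplicity, each even part size that occurs carrying a sign — other than the all-ones partition; so the count is the sum over such partitions of 2^(number of distinct even parts), minus one. -/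
theorem result {F : Type*} [Field F] [Fintype F] {p : ℕ} [Fact p.Prime] [CharP F p] (hp : p ≠ 2) (m : ℕ) : Nat.card {C : ConjClasses ↥(Matrix.symplecticGroup (Fin m) F) // ∃ g : Matrix.symplecticGroup (Fin m) F, ConjClasses.mk g = C ∧ orderOf g = p} = (∑ μ ∈ Finset.univ.filter (fun μ : Nat.Partition (2 * m) => (∀ a ∈ μ.parts, a ≤ p) ∧ ∀ j : ℕ, Odd j → Even (μ.parts.count j)), 2 ^ ((μ.parts.toFinset.filter (fun j : ℕ => Even j)).card)) - 1 := by

  classical
  have h2 : (2 : F) ≠ 0 := by
    intro h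
    have := (CharP.cast_eq_zero_iff F p 2).1 (by exact_mod_cast h)
    exact hp ((Nat.prime_dvd_prime_iff_eq Fact.out Nat.prime_two).1 this)
  obtain ⟨ν, hν⟩ := FiniteField.exists_nonsquare (F := F) (by
    rw [ringChar.eq F p]; exact hp)
  have hν0 : ν ≠ 0 := fun h => hν (h ▸ IsSquare.zero)
  set β := H27.sympBilin m F with hβ
  have hs : ∀ x y, β y x = (-1) ^ 1 * β x y := fun x y => by
    rw [pow_one, neg_one_mul, hβ, H27.sympBilin_apply, H27.sympBilin_apply, H27.sympForm_neg_comm]
  let ρ : Matrix.symplecticGroup (Fin m) F →* End F (Fin m ⊕ Fin m → F) :=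
    (Matrix.toLinAlgEquiv' (R := F) (n := Fin m ⊕ Fin m)).toMonoidHom.comp
      (Matrix.symplecticGroup (Fin m) F).subtype
  have hρ : ∀ g x, ρ g x = g.1.mulVec x := fun g x => rfl
  have hiso : ∀ g x y, β (ρ g x) (ρ g y) = β x y := fun g x y => by
    simpa [hβ, H27.sympBilin_apply, hρ] using H27.sp_sympForm g x y
  have hinj : Function.Injective ρ := fun g h e => H27.sp_ext fun u => by
    rw [← hρ, ← hρ, e]
  have hsurj : ∀ T : End F (Fin m ⊕ Fin m → F), (∀ x y, β (T x) (T y) = β x y) → ∃ g, ρ g = T :=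
    fun T hT => by
    obtain ⟨C, hC⟩ := H27.exists_sp_of_isometry T (fun u v => by
      simpa [hβ, H27.sympBilin_apply] using hT u v)
    exact ⟨C, LinearMap.ext fun x => by rw [hρ, hC]⟩
  rw [H67.card_conjClasses_orderOf_prime Fact.out]
  congr 1
  let S := Finset.univ.filter (fun μ : Nat.Partition (2 * m) =>
    (∀ a ∈ μ.parts, a ≤ p) ∧ ∀ j : ℕ, Odd j → Even (μ.parts.count j))
  let I := (μ : S) × ((μ.1.parts.toFinset.filter (fun j : ℕ => Even j)).powerset)
  have hI : Nat.card I = ∑ μ ∈ S, 2 ^ ((μ.parts.toFinset.filter (fun j : ℕ => Even j)).card) := by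
    rw [Nat.card_eq_fintype_card, Fintype.card_sigma, ← Finset.sum_coe_sort S]
    simp only [Fintype.card_coe, Finset.card_powerset]
  rw [← hI]
  have hval : ∀ i : I, ∀ j < p, Valid (1 + j) (i.1.1.parts.count (j + 1)) (decide (j + 1 ∈ i.2.1)) :=
    fun i j _ => by
    have h1 := mem_powerset.1 i.2.2
    have h3 := (mem_filter.1 i.1.2).2.2
    refine ⟨fun h => decide_eq_false fun h' => ?_, fun h => ⟨?_, decide_eq_false fun h' => ?_⟩⟩
    · exact Multiset.count_eq_zero.1 h (Multiset.mem_toFinset.1 (mem_filter.1 (h1 h')).1)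
    · exact Nat.even_iff.1 (h3 _ (Nat.odd_iff.2 (by omega)))
    · have := Nat.even_iff.1 (mem_filter.1 (h1 h')).2
      omega
  refine H67.card_conjClasses_eq_of_rel (fun g : Matrix.symplecticGroup (Fin m) F => g ^ p = 1)
    (fun (i : I) g => ∃ n v, Skew β n ⊤ ∧ ρ g * (1 - n) = 1 + n ∧
      Ch β ν 1 n ⊤ p (fun j => i.1.1.parts.count (j + 1)) (fun j => decide (j + 1 ∈ i.2.1)) v)
    ?_ ?_ ?_ ?_
  · intro i
    obtain ⟨β₀, n₀, v₀, h3, h4, h5, h6⟩ := exists_model hν0 (hval i)
    obtain ⟨E, hE⟩ := H3.exists_isometry_of_isAlt β₀ β (fun x => by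
      have := h4 x x
      rw [pow_one, neg_one_mul] at this
      exact (mul_eq_zero.1 (by linear_combination this : 2 * β₀ x x = 0)).resolve_left h2)
      H27.sympBilin_isAlt h3 H27.sympBilin_nondegenerate (by
        rw [finrank_fintype_fun_eq_card, finrank_fintype_fun_eq_card, card_CI,
          sum_parts _ (mem_filter.1 i.1.2).2.1]
        simp [two_mul])
    have hc : ∀ x, E (n₀ x) = E.conj n₀ (E x) := fun x => by simp [LinearEquiv.conj_apply_apply]
    have h7 := ch_transport E hE hc h6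
    have h8 := skew_transport E hE hc h5
    have h9 := ch_pow_eq_zero h7
    obtain ⟨T, hT⟩ := cay_exists h9
    obtain ⟨g, rfl⟩ := hsurj T (cay_iso h8 h9 hT)
    exact ⟨g, hinj (by rw [map_pow, map_one, cay_pow' p h9 hT]), _, _, h8, hT, h7⟩
  · intro g hg
    obtain ⟨n, h3, h4, h5⟩ := cay_of_pow' p h2 (hiso g) (by rw [← map_pow, hg, map_one])
    obtain ⟨a, s, v, h6⟩ := exists_ch h2 hν hs p h3
      (fun x _ hx => H27.sympBilin_nondegenerate.1 x fun y => hx y trivial)
      (fun x _ => by rw [h4, LinearMap.zero_apply])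
    have h7 := (h6.disc h3 hν0).finrank_eq
    rw [finrank_top, finrank_fintype_fun_eq_card] at h7
    let μ : Nat.Partition (2 * m) :=
      { parts := ∑ i ∈ range p, Multiset.replicate (a i) (i + 1)
        parts_pos := fun {j} hj => by
          have := Multiset.count_ne_zero.2 hj
          rw [count_parts] at this
          by_contra h
          exact this (if_neg (by omega))
        parts_sum := by
          rw [Multiset.sum_sum]
          simp only [Multiset.sum_replicate, smul_eq_mul]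
          simpa [← two_mul, mul_comm] using h7.symm }
    have hμ : ∀ j, μ.parts.count j = if 0 < j ∧ j ≤ p then a (j - 1) else 0 := count_parts p a
    have hμS : μ ∈ S := by
      refine mem_filter.2 ⟨mem_univ _, fun j hj => ?_, fun j hj => ?_⟩
      · have := Multiset.count_ne_zero.2 hj
        rw [hμ] at this
        by_contra h
        exact this (if_neg (by omega))
      · rw [hμ]
        split_ifs with h
        · rw [Nat.odd_iff] at hj
          exact Nat.even_iff.2 ((h6.valid (j - 1) (by omega)).2 (by omega)).1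
        · exact Even.zero
    refine ⟨⟨⟨μ, hμS⟩, ⟨((range p).filter fun j => s j).image (· + 1), mem_powerset.2 ?_⟩⟩, n, v,
      h3, h5, ch_congr h6 (fun j hj => ?_) (fun j hj => ?_)⟩
    · intro j hj
      obtain ⟨j, hj', rfl⟩ := mem_image.1 hj
      obtain ⟨hj1, hj2⟩ := mem_filter.1 hj'
      rw [mem_range] at hj1
      have h8 := h6.valid j hj1
      refine mem_filter.2 ⟨Multiset.mem_toFinset.2 (Multiset.count_ne_zero.1 ?_), ?_⟩
      · change μ.parts.count (j + 1) ≠ 0
        rw [hμ, if_pos (by omega), Nat.add_sub_cancel]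
        intro h
        simp [h8.1 h] at hj2
      · by_contra h
        rw [Nat.not_even_iff_odd, Nat.odd_iff] at h
        simp [(h8.2 (by omega)).2] at hj2
    · change a j = μ.parts.count (j + 1)
      rw [hμ, if_pos (by omega), Nat.add_sub_cancel]
    · simp [hj]
  · rintro i g h - - ⟨n, v, h3, h4, h5⟩ ⟨n', v', h3', h4', h5'⟩
    obtain ⟨E, h6, h7⟩ := ch_conj H27.sympBilin_nondegenerate h5 h3 h5' h3'
    obtain ⟨c, hc⟩ := hsurj E.toLinearMap h6
    refine isConj_iff.2 ⟨c, ?_⟩
    rw [mul_inv_eq_iff_eq_mul]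
    apply hinj
    have hu : IsUnit (1 - n) := IsNilpotent.isUnit_one_sub ⟨p, ch_pow_eq_zero h5⟩
    have h8 : E.toLinearMap * n = n' * E.toLinearMap := LinearMap.ext h7
    refine hu.mul_right_cancel ?_
    rw [map_mul, map_mul, hc, mul_assoc, h4, mul_assoc, mul_sub, h8, mul_one, mul_add, mul_one, h8,
      ← one_sub_mul, ← mul_assoc, h4', add_mul, one_mul]
  · rintro ⟨⟨μ, hμ⟩, ⟨T, hT⟩⟩ ⟨⟨μ', hμ'⟩, ⟨T', hT'⟩⟩ g h hg hh ⟨n, v, h3, h4, h5⟩
      ⟨n', v', h3', h4', h5'⟩ hc
    obtain ⟨c, rfl⟩ := isConj_iff.1 hc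
    let E : (Fin m ⊕ Fin m → F) ≃ₗ[F] (Fin m ⊕ Fin m → F) :=
      LinearEquiv.ofLinear (ρ c) (ρ c⁻¹) (by rw [← End.mul_eq_comp, ← map_mul]; simp [End.one_eq_id])
        (by rw [← End.mul_eq_comp, ← map_mul]; simp [End.one_eq_id])
    have e1 : ρ c⁻¹ * ρ c = 1 := by rw [← map_mul]; simp
    have e2 : ρ c * ρ c⁻¹ = 1 := by rw [← map_mul]; simp
    have h6 : ρ c * n * ρ c⁻¹ = n' := by
      refine cay_unique (isUnit_add_one' p h2 (by rw [← map_pow, hh, map_one])) ?_ h4'
      calc ρ (c * g * c⁻¹) * (1 - ρ c * n * ρ c⁻¹) = ρ c * (ρ g * (1 - n)) * ρ c⁻¹ := by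
            rw [map_mul, map_mul, mul_sub, mul_sub, mul_sub, sub_mul, mul_one, mul_one]
            congr 1
            simp only [mul_assoc]
            rw [← mul_assoc (ρ c⁻¹), e1, one_mul]
        _ = _ := by rw [h4, mul_add, add_mul, mul_one, e2]
    have h7 := ch_transport (n' := n') E (hiso c) (fun x => by
      change ρ c (n x) = n' (ρ c x)
      rw [← h6, ← End.mul_apply, ← End.mul_apply, mul_assoc, e1, mul_one]) h5
    have h8 := fun j hj => ch_unique (i := j) hν hs h7 h5' h3' hj
    have hb : ∀ {μ : Nat.Partition (2 * m)}, μ ∈ S → ∀ j ∈ μ.parts, ∃ k < p, j = k + 1 :=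
      fun {μ} hμ j hj => by
      have := μ.parts_pos hj
      have := (mem_filter.1 hμ).2.1 j hj
      exact ⟨j - 1, by omega, by omega⟩
    obtain rfl : μ = μ' := by
      refine Nat.Partition.ext (Multiset.ext.2 fun j => ?_)
      by_cases hj : ∃ k < p, j = k + 1
      · obtain ⟨k, hk, rfl⟩ := hj
        exact (h8 k hk).1
      · rw [Multiset.count_eq_zero.2 fun h => hj (hb hμ j h),
          Multiset.count_eq_zero.2 fun h => hj (hb hμ' j h)]
    obtain rfl : T = T' := by
      have hb' : ∀ {T}, T ∈ (μ.parts.toFinset.filter (fun j : ℕ => Even j)).powerset →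
          ∀ j ∈ T, ∃ k < p, j = k + 1 := fun {T} hT j hj =>
        hb hμ j (Multiset.mem_toFinset.1 (mem_filter.1 (mem_powerset.1 hT hj)).1)
      ext j
      by_cases hj : ∃ k < p, j = k + 1
      · obtain ⟨k, hk, rfl⟩ := hj
        simpa using (h8 k hk).2
      · exact ⟨fun h => absurd (hb' hT j h) hj, fun h => absurd (hb' hT' j h) hj⟩
    rfl


end Cfsg.Agent.S2676
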