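import Cfsg.Statements.S2677
import Cfsg.Agent.H68.FixCount
import Cfsg.Agent.H10.GUCard

set_option autoImplicit false
open Cfsg

namespace Cfsg.Agent.S2677

/-- Centraliser of a field automorphism of odd prime order in PGU_n(q): let q = q₀^r with r an odd prime, K the field with q² elements and σ a field automorphism of K of order r (fixed field of order q₀²). The elements g of GU_n(q) whose entrywise image under σ is a scalar multiple of g — those whose coset modulo the q + 1 unitary scalars is fixed by σ — number (q + 1)/(q₀ + 1) · |GU_n(q₀)|; equivalently the centraliser in PGU_n(q) of the induced automorphism has the order of PGU_n(q₀). -/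
theorem result {K : Type*} [Field K] [Fintype K] {q₀ q r n : ℕ} (hr : r.Prime) (hr2 : r ≠ 2) (hn : 1 ≤ n) (hq : q = q₀ ^ r) (hK : Fintype.card K = q ^ 2) (σ : K ≃+* K) (hσ : orderOf σ = r) : (Nat.card {g : ↥(Cfsg.GU n K q) // ∃ c : K, c ≠ 0 ∧ ((g : GL (Fin n) K) : Matrix (Fin n) (Fin n) K).map σ = c • ((g : GL (Fin n) K) : Matrix (Fin n) (Fin n) K)} : ℤ) = ((q + 1) / (q₀ + 1) : ℕ) * ((q₀ : ℤ) ^ (n * (n - 1) / 2) * ∏ i : Fin n, ((q₀ : ℤ) ^ ((i : ℕ) + 1) - (-1) ^ ((i : ℕ) + 1))) := by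
  have : Nonempty (Fin n) := ⟨⟨0, hn⟩⟩
  haveI : Fact (Fintype.card K = q ^ 2) := ⟨hK⟩
  have hro : Odd r := hr.odd_of_ne_two hr2
  have hj := H68.fixEmb_fixF (σ : RingAut K)
  have := Fintype.ofFinite (H68.fixF σ)
  obtain ⟨q₁, h1, h2⟩ := H68.exists_sqrt_card_fixF (q := q) (σ := σ) (hσ ▸ hro)
  obtain rfl : q₁ = q₀ := by
    apply Nat.pow_left_injective hr.ne_zero
    simp only
    rw [← hq, h1, hσ]
  haveI : Fact (Fintype.card (H68.fixF σ) = q₁ ^ 2) := ⟨by rw [← h2, Nat.card_eq_fintype_card]⟩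
  have hτ := H68.cjE_map hro hq (H68.fixF σ).subtype
  have h3 := H68.card_scMap (ι := Fin n) (H68.fixF σ).subtype (powMonoidHom (q + 1)).ker
    (GU n _ q₁) (powMonoidHom (q₁ + 1)).ker (fun ν => by
      rw [H68.scGL_mem_gu_iff hn]
      exact ⟨fun h => ⟨h, (H68.normOneMap hτ ⟨ν, h⟩).2⟩, fun h => h.1⟩)
  rw [H10.card_ker_pow_succ, H10.card_ker_pow_succ, H10.card_GU] at h3
  have h4 : q₁ + 1 ∣ q + 1 := by simpa [hq] using hro.nat_add_dvd_pow_add_pow q₁ 1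
  have h5 : Nat.card {g : ↥(Cfsg.GU n K q) // ∃ c : K, c ≠ 0 ∧
      ((g : GL (Fin n) K) : Matrix (Fin n) (Fin n) K).map σ =
        c • ((g : GL (Fin n) K) : Matrix (Fin n) (Fin n) K)} =
      Nat.card (H68.scMap (H68.fixF σ).subtype (powMonoidHom (q + 1)).ker (GU n _ q₁)).range := by
    refine Nat.card_eq_of_bijective (fun g => ⟨g.1.1, ?_⟩) ⟨fun a b h => ?_, ?_⟩
    · obtain ⟨g, c, -, hc⟩ := g
      obtain ⟨μ, g₀, h⟩ := hj.exists_GL g.1 hc
      obtain ⟨μ', g₁, hg₁, h'⟩ := H68.gu_hC hτ hn μ g₀ (h ▸ g.2)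
      refine ⟨(⟨μ', (H68.scGL_mem_gu_iff hn μ').mp ?_⟩, ⟨g₁, hg₁⟩), (h.trans h').symm⟩
      exact (Subgroup.mul_mem_cancel_right _ (H68.map_mem_gu hτ g₁ hg₁)).mp (h' ▸ h ▸ g.2)
    · exact Subtype.ext (Subtype.ext (congrArg (fun x => x.1) h))
    · rintro ⟨_, ⟨μ, g₀⟩, rfl⟩
      exact ⟨⟨⟨_, Subgroup.mul_mem _ ((H68.scGL_mem_gu_iff hn μ.1).mpr μ.2)
        (H68.map_mem_gu hτ g₀.1 g₀.2)⟩, hj.map_scMap μ.1 g₀.1⟩, rfl⟩
  rw [← h5] at h3
  obtain ⟨t, ht⟩ := h4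
  rw [ht, mul_assoc] at h3
  rw [Nat.eq_of_mul_eq_mul_left (Nat.succ_pos q₁) h3, ht, Nat.mul_div_cancel_left _ (Nat.succ_pos q₁),
    Finset.prod_range]
  have hq1 : 2 ≤ q₁ := H10.two_le_q (H68.fixF σ) q₁
  push_cast
  congr 2
  refine Finset.prod_congr rfl fun i _ => ?_
  split_ifs with h
  · rw [(Even.add_one h).neg_one_pow]; ring
  · rw [(Odd.add_one (Nat.not_even_iff_odd.mp h)).neg_one_pow,
      Nat.cast_sub (Nat.one_le_pow _ _ (by omega))]
    push_cast; ring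

end Cfsg.Agent.S2677
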