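import Cfsg.Statements.S2678
import Mathlib
import Cfsg.Agent.H67.Embed

set_option autoImplicit false
open Cfsg

namespace Cfsg.Agent.S2678


/-- Field-extension embedding of symplectic groups: for a field K with q² elements and a field F with q elements there is an injective homomorphism Sp_2a(K) → Sp_4a(F). -/
theorem result {K F : Type*} [Field K] [Fintype K] [Field F] [Fintype F] {q : ℕ} (hK : Fintype.card K = q ^ 2) (hF : Fintype.card F = q) (a : ℕ) : ∃ φ : ↥(Matrix.symplecticGroup (Fin a) K) →* ↥(Matrix.symplecticGroup (Fin (2 * a)) F), Function.Injective φ := by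
  obtain ⟨inst, hr⟩ := H67.exists_algebra_of_card_pow (K := K) (F := F) (hF ▸ hK)
  obtain ⟨τ, hτ⟩ := Module.Projective.exists_dual_eq_one F (one_ne_zero (α := K))
  let β : LinearMap.BilinForm F (Fin a ⊕ Fin a → K) :=
    ((H27.sympBilin a K).restrictScalars₁₂ F F).compr₂ τ
  have hβ : ∀ x y, β x y = τ (Cfsg.sympForm a K x y) := fun x y =>
    congrArg τ (H27.sympBilin_apply x y)
  have h1 : ∀ x, (∀ y, β x y = 0) → x = 0 := fun x hx =>
    H27.eq_zero_of_sympForm_left fun y => by
      by_contra h0
      have := hx ((Cfsg.sympForm a K x y)⁻¹ • y)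
      rw [hβ, H27.sympForm_smul_right, inv_mul_cancel₀ h0, hτ] at this
      exact one_ne_zero this
  obtain ⟨ψ, -, hψ, -⟩ := H67.exists_hom_sp ((H67.resHom F K (Fin a ⊕ Fin a)).comp
    (Matrix.symplecticGroup (Fin a) K).subtype)
    (H67.resHom_injective.comp Subtype.val_injective) (β := β)
    ⟨h1, fun x hx => h1 x fun y => by
      rw [hβ, H27.sympForm_neg_comm, map_neg, ← hβ, hx, neg_zero]⟩
    (fun v => by rw [hβ, H27.sympForm_self, map_zero])
    (fun g x y => by rw [hβ, hβ]; exact congrArg τ (H27.sp_sympForm g x y)) (m := 2 * a)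
    (by rw [H67.finrank_res, hr]; simp [two_mul])
  exact ⟨ψ, hψ⟩

end Cfsg.Agent.S2678
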