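import Cfsg.Statements.S2679
import Mathlib
import Cfsg.Agent.H67.Embed

set_option autoImplicit false
open Cfsg

namespace Cfsg.Agent.S2679

open Polynomial

theorem exists_root {F K : Type*} [Field F] [Finite F] [Field K] [Finite K] [Algebra F K]
    (hr : Module.finrank F K = 2) (a c : F) :
    ∃ θ : K, θ ^ 2 + algebraMap F K a * θ + algebraMap F K c = 0 := by
  by_cases h : ∃ t : F, t ^ 2 + a * t + c = 0
  · obtain ⟨t, ht⟩ := h
    exact ⟨algebraMap F K t, by simpa using congrArg (algebraMap F K) ht⟩
  let f : F[X] := X ^ 2 + C a * X + C c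
  have hd : f.natDegree = 2 := by
    simp only [f]
    compute_degree!
  haveI : Fact (Irreducible f) := ⟨irreducible_of_degree_le_three_of_not_isRoot
    (by simp [hd]) fun t ht => h ⟨t, by simpa [f] using ht⟩⟩
  obtain ⟨g⟩ := FiniteField.nonempty_algHom_of_finrank_dvd (F := F) (K := AdjoinRoot f) (L := K)
    (by rw [(AdjoinRoot.powerBasis (Fact.out : Irreducible f).ne_zero).finrank,
      AdjoinRoot.powerBasis_dim, hd, hr])
  refine ⟨g (AdjoinRoot.root f), ?_⟩
  have := aeval_algHom_apply g (AdjoinRoot.root f) f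
  rw [AdjoinRoot.aeval_eq, AdjoinRoot.mk_self, map_zero] at this
  generalize g (AdjoinRoot.root f) = y at this
  simpa [f] using this


/-- An elliptic orthogonal group embeds in the hyperbolic orthogonal group of the same dimension over the quadratic extension: for a field F with q elements and a field K with q² elements there is an injective homomorphism from O⁻_2m(F) (isometries of Σ_(j<m−1) x_j y_j + z₁² + a z₁z₂ + c z₂², binary part anisotropic) to O⁺_2m(K) (isometries of Σ_(j<m) x_j y_j over K). -/
theorem result {F K : Type*} [Field F] [Fintype F] [Field K] [Fintype K] {q : ℕ} (hF : Fintype.card F = q) (hK : Fintype.card K = q ^ 2) {m : ℕ} (hm : 1 ≤ m) (a c : F) (hac : ∀ z₁ z₂ : F, z₁ ^ 2 + a * z₁ * z₂ + c * z₂ ^ 2 = 0 → z₁ = 0 ∧ z₂ = 0) : ∃ φ : ↥(Cfsg.isometryGroup F (Cfsg.quadFormMinus (m - 1) F a c)) →* ↥(Cfsg.isometryGroup K (Cfsg.quadFormPlus m K)), Function.Injective φ := by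
  classical
  obtain ⟨inst, hr⟩ := H67.exists_algebra_of_card_pow (K := K) (F := F) (hF ▸ hK)
  obtain ⟨θ, hθ⟩ := exists_root hr a c
  let Q := H67.QMinus K (m - 1) (algebraMap F K a) (algebraMap F K c)
  have hQ : ∀ v, Q v = Cfsg.quadFormMinus (m - 1) K (algebraMap F K a) (algebraMap F K c) v :=
    fun v => congrFun (H67.coe_QMinus K _ _ _) v
  have hd : algebraMap F K a ^ 2 - 4 * algebraMap F K c ≠ 0 := by
    have := (map_ne_zero (algebraMap F K)).2 (H67.disc_ne_zero_of_anisotropic hac)
    simpa [map_ofNat] using this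
  have hnd : (QuadraticMap.polarBilin Q).SeparatingLeft := by
    intro u hu
    simp only [QuadraticMap.polarBilin_apply_apply, Q, H67.coe_QMinus] at hu
    have h0 := hu (Pi.single (.inr 0) 1)
    have h1 := hu (Pi.single (.inr 1) 1)
    rw [H67.polar_minus_single_inr_zero] at h0
    rw [H67.polar_minus_single_inr_one] at h1
    funext i
    rcases i with (i | i) | i
    · exact (H67.polar_minus_single_inl_inr _ _ _ u i).symm.trans (hu _)
    · exact (H67.polar_minus_single_inl_inl _ _ _ u i).symm.trans (hu _)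
    · apply mul_left_cancel₀ hd
      fin_cases i
      · simp only [Fin.zero_eta, Pi.zero_apply, mul_zero]
        linear_combination algebraMap F K a * h1 - 2 * algebraMap F K c * h0
      · simp only [Fin.mk_one, Pi.zero_apply, mul_zero]
        linear_combination algebraMap F K a * h0 - 2 * h1
  let L : ((Fin (m - 1) → K) × K) →ₗ[K] ((Fin (m - 1) ⊕ Fin (m - 1)) ⊕ Fin 2 → K) :=
    { toFun := fun x => Sum.elim (Sum.elim x.1 0) ![x.2 * θ, x.2]
      map_add' := fun x y => by
        funext i
        rcases i with (i | i) | i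
        · rfl
        · simp
        · fin_cases i <;> simp [add_mul]
      map_smul' := fun t y => by
        funext i
        rcases i with (i | i) | i
        · rfl
        · simp
        · fin_cases i <;> simp [mul_assoc] }
  have hL : Function.Injective L := fun x y h =>
    Prod.ext (funext fun i => congrFun h (.inl (.inl i))) (congrFun h (.inr 1))
  obtain ⟨φ, hφ⟩ := H27.quad_equiv_plus_of_singular hnd (m := m) (by simp; omega)
    (LinearMap.range L) (by rw [LinearMap.finrank_range_of_inj hL]; simp; omega) (by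
      rintro _ ⟨x, rfl⟩
      rw [hQ]
      simp [L, Cfsg.quadFormMinus]
      linear_combination x.2 ^ 2 * hθ)
  have hmap : ∀ v, Q (algebraMap F K ∘ v) =
      algebraMap F K (Cfsg.quadFormMinus (m - 1) F a c v) := fun v => by
    rw [hQ]
    simp [Cfsg.quadFormMinus]
  let ρ : Cfsg.isometryGroup F (Cfsg.quadFormMinus (m - 1) F a c) →* Module.End K _ :=
    (Matrix.toLinAlgEquiv' (R := K)).toMonoidHom.comp
      (((algebraMap F K).mapMatrix.toMonoidHom).comp ((Units.coeHom _).comp (Subgroup.subtype _)))
  have hρ : ∀ g v, ρ g (algebraMap F K ∘ v) = algebraMap F K ∘ (g.1.1.mulVec v) := fun g v =>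
    funext fun i => (RingHom.map_mulVec (algebraMap F K) g.1.1 v i).symm
  have hρQ : ∀ g v, Q (ρ g (algebraMap F K ∘ v)) = Q (algebraMap F K ∘ v) := fun g v => by
    rw [hρ, hmap, hmap]
    exact congrArg _ (g.2 v v)
  obtain ⟨ψ, hψ, -⟩ := H67.exists_hom_isometryGroup ρ ((Matrix.toLinAlgEquiv' (R := K)).injective.comp
    ((Matrix.map_injective (algebraMap F K).injective).comp
      (Units.val_injective.comp Subtype.val_injective))) (Cfsg.quadFormPlus m K) φ (fun g v => by
    rw [← hφ, ← hφ]
    refine H27.quad_eq_on_span Q Q (ρ g) (Set.range fun v => algebraMap F K ∘ v) ?_ ?_ v ?_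
    · rintro _ ⟨v, rfl⟩
      exact hρQ g v
    · rintro _ ⟨v, rfl⟩ _ ⟨w, rfl⟩
      have : algebraMap F K ∘ v + algebraMap F K ∘ w = algebraMap F K ∘ (v + w) := by
        funext i; simp
      simp only [QuadraticMap.polar, ← map_add, this, hρQ]
    · rw [pi_eq_sum_univ' v]
      refine Submodule.sum_mem _ fun i _ => Submodule.smul_mem _ _ (Submodule.subset_span
        ⟨Pi.single i 1, ?_⟩)
      funext j
      simp [Pi.single_apply])
  exact ⟨ψ, hψ⟩

end Cfsg.Agent.S2679
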