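import Cfsg.Statements.S2681
import Mathlib
import Cfsg.Agent.H67.Inv2Count

set_option autoImplicit false
open Cfsg

namespace Cfsg.Agent.S2681


/-- Centraliser order of an involution t of Sp_2m(q), q even, with s = rank(t − 1) even and f(v, tv) = 0 for every v, f the symplectic form (type a_s): |C(t)| = q^(2ms − (3s² − s)/2) · |Sp_s(q)| · |Sp_(2m−2s)(q)|. -/
theorem result {F : Type*} [Field F] [Fintype F] [CharP F 2] {q : ℕ} (hF : Fintype.card F = q) {m s : ℕ} (t : Matrix.symplecticGroup (Fin m) F) (ht : t ^ 2 = 1) (ht1 : t ≠ 1) (hs : ((t : Matrix (Fin m ⊕ Fin m) (Fin m ⊕ Fin m) F) - 1).rank = s) (heven : Even s) (halt : ∀ v : Fin m ⊕ Fin m → F, Cfsg.sympForm m F v ((t : Matrix (Fin m ⊕ Fin m) (Fin m ⊕ Fin m) F).mulVec v) = 0) : Nat.card ↥(Subgroup.centralizer ({t} : Set ↥(Matrix.symplecticGroup (Fin m) F))) = q ^ (2 * m * s - (3 * s ^ 2 - s) / 2) * ((q : ℕ)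 ^ ((s / 2) ^ 2) * ∏ i : Fin (s / 2), (q ^ (2 * ((i : ℕ) + 1)) - 1)) * ((q : ℕ) ^ ((m - s) ^ 2) * ∏ i : Fin (m - s), (q ^ (2 * ((i : ℕ) + 1)) - 1)) := by
  obtain ⟨U, _, _, _, γ, h1, h2, h3, h4, h5, h6⟩ := H67.exists_data_sp ht hs
  obtain ⟨n, rfl⟩ := Nat.exists_eq_add_of_le h5
  rw [h6 (2 * (s + n) * s - (3 * s ^ 2 - s) / 2) ?_, (H67.card_isom_cases h2 h3 h1).2.1 (h4.2 halt),
    H67.spOrd_eq, H67.spOrd_eq, hF]
  obtain ⟨k, rfl⟩ := heven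
  rcases k with _ | k
  · simp
  rw [Nat.add_sub_cancel_left, show 3 * (k + 1 + (k + 1)) ^ 2 = 2 * (6 * k ^ 2 + 11 * k + 5) +
    (k + 1 + (k + 1)) by ring, Nat.add_sub_cancel, Nat.mul_div_cancel_left _ two_pos,
    show 2 * (k + 1 + (k + 1) + n) * (k + 1 + (k + 1)) = (2 * k ^ 2 + 5 * k + 3 + 4 * n * (k + 1)) +
      (6 * k ^ 2 + 11 * k + 5) by ring, Nat.add_sub_cancel]
  ring

end Cfsg.Agent.S2681
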