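import Cfsg.Statements.S2682
import Mathlib
import Cfsg.Agent.H67.Inv2Count

set_option autoImplicit false
open Cfsg

namespace Cfsg.Agent.S2682


/-- Centraliser order of an involution t of Sp_2m(q), q even, with s = rank(t − 1) even and f(v, tv) ≠ 0 for some v, f the symplectic form (type c_s): |C(t)| = q^(2ms − (3s² − 3s)/2 − 1) · |Sp_(s−2)(q)| · |Sp_(2m−2s)(q)|. -/
theorem result {F : Type*} [Field F] [Fintype F] [CharP F 2] {q : ℕ} (hF : Fintype.card F = q) {m s : ℕ} (t : Matrix.symplecticGroup (Fin m) F) (ht : t ^ 2 = 1) (hs : ((t : Matrix (Fin m ⊕ Fin m) (Fin m ⊕ Fin m) F) - 1).rank = s) (heven : Even s) (hna : ∃ v : Fin m ⊕ Fin m → F, Cfsg.sympForm m F v ((t : Matrix (Fin m ⊕ Fin m) (Fin m ⊕ Fin m) F).mulVec v) ≠ 0) : Nat.card ↥(Subgroup.centralizer ({t} : Set ↥(Matrix.symplecticGroup (Fin m) F))) = q ^ (2 * m * s - (3 * s ^ 2 - 3 * s) / 2 -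 1) * ((q : ℕ) ^ (((s - 2) / 2) ^ 2) * ∏ i : Fin ((s - 2) / 2), (q ^ (2 * ((i : ℕ) + 1)) - 1)) * ((q : ℕ) ^ ((m - s) ^ 2) * ∏ i : Fin (m - s), (q ^ (2 * ((i : ℕ) + 1)) - 1)) := by
  obtain ⟨U, _, _, _, γ, h1, h2, h3, h4, h5, h6⟩ := H67.exists_data_sp ht hs
  obtain ⟨n, rfl⟩ := Nat.exists_eq_add_of_le h5
  obtain ⟨h7, h8⟩ := (H67.card_isom_cases h2 h3 h1).2.2 heven (h4.not.2 (not_forall.2 hna))
  obtain ⟨k, hk⟩ := heven
  obtain ⟨k, rfl⟩ : ∃ k, s = 2 * k + 2 := ⟨k - 1, by omega⟩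
  rw [h6 (2 * k ^ 2 + 5 * k + 3 + 4 * n * (k + 1)) (by rw [Nat.add_sub_cancel_left]; ring), h8,
    H67.spOrd_eq, H67.spOrd_eq, hF, ← mul_assoc (q ^ _), ← pow_add]
  congr 3
  ring_nf
  omega

end Cfsg.Agent.S2682
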