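import Cfsg.Statements.S2683
import Mathlib
import Cfsg.Agent.H67.Inv2Plus

set_option autoImplicit false
open Cfsg

namespace Cfsg.Agent.S2683


/-- For the hyperbolic form Σ x_j y_j on F^(2m) over a finite field with q elements, q even (excluding m = 2 over the field of two elements), and an involution x of the orthogonal group with s = rank(x − 1) odd (type b_s; such x lie outside Ω): the elements of Ω (the commutator subgroup of the orthogonal group) commuting with x number q^(2m(s−1) − (3s² − 3s)/2) · |Sp_(s−1)(q)| · |Sp_(2m−2s)(q)|, where |Sp_2k(q)| = q^(k²) Π_(i=1)^k (q^(2i) − 1). -/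
theorem result {F : Type*} [Field F] [Fintype F] [CharP F 2] {q : ℕ} (hF : Fintype.card F = q) {m s : ℕ} (h : Fintype.card F ≠ 2 ∨ m ≠ 2) (x : ↥(Cfsg.isometryGroup F (Cfsg.quadFormPlus m F))) (hx : x ^ 2 = 1) (hs : (((x : Matrix.GeneralLinearGroup (Fin m ⊕ Fin m) F) : Matrix (Fin m ⊕ Fin m) (Fin m ⊕ Fin m) F) - 1).rank = s) (hodd : Odd s) : Nat.card {g : ↥(Cfsg.Omega F (Cfsg.quadFormPlus m F)) // (g : ↥(Cfsg.isometryGroup F (Cfsg.quadFormPlus m F))) * x = x * (g : ↥(Cfsg.isometryGroup F (Cfsg.quadFormPlus m F)))} = q ^ (2 * m * (s - 1) - (3 * s ^ 2 - 3 * s) / 2) * ((q : ℕ) ^ (((s - 1) / 2) ^ 2) * ∏ i : Fin ((s - 1) / 2), (q ^ (2 * ((i : ℕ) + 1)) - 1)) * ((q : ℕ) ^ ((m - s) ^ 2) * ∏ i : Fin (m - s), (q ^ (2 * ((i : ℕ) + 1)) - 1)) := by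
  obtain ⟨U, _, _, _, γ, h1, h2, h3, -, h5, h6, -⟩ := H67.exists_data_plus h hx hs hodd.pos
  obtain ⟨n, rfl⟩ := Nat.exists_eq_add_of_le h5
  obtain ⟨k, rfl⟩ := hodd
  refine (h6 (fun ha => ?_) (2 * k ^ 2 + k + 4 * k * n) (by simp; ring)).trans ?_
  · obtain ⟨j, hj⟩ := H3.even_finrank_of_isAlt γ ha h2
    omega
  rw [(H67.card_isom_cases h2 h3 h1).1 ⟨k, rfl⟩, H67.spOrd_eq, H67.spOrd_eq, hF, Nat.add_sub_cancel]
  congr 3
  ring_nf
  omega

end Cfsg.Agent.S2683
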