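import Cfsg.Statements.S2685
import Mathlib
import Cfsg.Agent.H67.Inv2Plus

set_option autoImplicit false
open Cfsg

namespace Cfsg.Agent.S2685


/-- For the hyperbolic form Q = Σ x_j y_j on F^(2m) over a finite field with q elements, q even (excluding m = 2 over the field of two elements), and an involution x of the orthogonal group with s = rank(x − 1) even and Q not vanishing on the image of x − 1 (f(v, xv) ≠ 0 for some v, where f(u, w) = Q(u + w) − Q(u) − Q(w) is the bilinear form of Q; type c_s, which lies in Ω): its centraliser in Ω (the commutator subgroup of the orthogonal group) has order q^(2m(s−1) − (3s² − 5s)/2 − 1) · |Sp_(s−2)(q)| · |Sp_(2m−2s)(q)|. -/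
theorem result {F : Type*} [Field F] [Fintype F] [CharP F 2] {q : ℕ} (hF : Fintype.card F = q) {m s : ℕ} (h : Fintype.card F ≠ 2 ∨ m ≠ 2) (x : ↥(Cfsg.isometryGroup F (Cfsg.quadFormPlus m F))) (hx : x ^ 2 = 1) (hs : (((x : Matrix.GeneralLinearGroup (Fin m ⊕ Fin m) F) : Matrix (Fin m ⊕ Fin m) (Fin m ⊕ Fin m) F) - 1).rank = s) (heven : Even s) (hna : ∃ v : Fin m ⊕ Fin m → F, Cfsg.quadFormPlus m F ((((x : Matrix.GeneralLinearGroup (Fin m ⊕ Fin m) F) : Matrix (Fin m ⊕ Fin m) (Fin m ⊕ Fin m) F) - 1).mulVec v) ≠ 0) : Nat.card {g : ↥(Cfsg.Omega F (Cfsg.quadFormPlus m F)) // (g : ↥(Cfsg.isometryGroup F (Cfsg.quadFormPlus m F))) * x = x * (g : ↥(Cfsg.isometryGroup F (Cfsg.quadFormPlus m F)))} = q ^ (2 * m * (s - 1) - (3 * s ^ 2 - 5 * s) / 2 - 1) * ((q : ℕ) ^ (((s - 2) / 2) ^ 2) * ∏ i : Fin ((s - 2) / 2), (q ^ (2 * ((i : ℕ) + 1)) - 1)) * ((q : ℕ) ^ ((m - s) ^ 2) * ∏ i : Fin (m - s), (q ^ (2 * ((i : ℕ) + 1)) -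 1)) := by
  have hs0 : 0 < s := Nat.pos_of_ne_zero (by
    rintro rfl
    obtain ⟨v, hv⟩ := hna
    rw [Matrix.rank, Submodule.finrank_eq_zero, LinearMap.range_eq_bot] at hs
    exact hv ((congrArg _ (LinearMap.congr_fun hs v)).trans (map_zero (H28.qPlus m F))))
  obtain ⟨U, _, _, _, γ, h1, h2, h3, h4, h5, h6, -⟩ := H67.exists_data_plus h hx hs hs0
  obtain ⟨n, rfl⟩ := Nat.exists_eq_add_of_le h5
  have ha := h4.not.2 (not_forall.2 hna)
  obtain ⟨h7, h8⟩ := (H67.card_isom_cases h2 h3 h1).2.2 heven ha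
  obtain ⟨k, hk⟩ := heven
  obtain ⟨k, rfl⟩ : ∃ k, s = 2 * k + 2 := ⟨k - 1, by omega⟩
  refine (h6 ha (2 * k ^ 2 + 3 * k + 1 + 4 * k * n + 2 * n) (by simp; ring)).trans ?_
  rw [h8, H67.spOrd_eq, H67.spOrd_eq, hF, ← mul_assoc (q ^ _), ← pow_add,
    show 2 * k + 2 - 1 = 2 * k + 1 from rfl]
  congr 3
  ring_nf
  omega

end Cfsg.Agent.S2685
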