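import Cfsg.Statements.S2704
import Cfsg.Agent.H68.CorHerm

set_option autoImplicit false
open Cfsg

namespace Cfsg.Agent.S2704

/-- Let T = PSL_n(F) over the field F with p^f elements, n ≥ 3, and G = Inndiag(T) the image of PGL_n(F). If x is an involutory graph-field automorphism of T then f is even; x is G-conjugate to every other involutory graph-field automorphism; C_G(x) is isomorphic to the projective general unitary group PGU_n(q₀) with q₀² = p^f, realised over F itself through the Hermitian form Σ uᵢ vᵢ^{q₀}; and the G-class of x is the union of exactly gcd(n, q₀ − 1) T-classes. -/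
theorem result {F : Type*} [Field F] [Fintype F] {p f : ℕ} [Fact p.Prime] (hF : Fintype.card F = p ^ f) (hf : 1 ≤ f) {n : ℕ} (hn : 3 ≤ n) (x : MulAut (Matrix.ProjectiveSpecialLinearGroup (Fin n) F)) (hx : Cfsg.IsGraphFieldAutClassPSL x) (hx2 : orderOf x = 2) :
    Even f ∧ (∀ y : MulAut (Matrix.ProjectiveSpecialLinearGroup (Fin n) F), Cfsg.IsGraphFieldAutClassPSL y → orderOf y = 2 → Cfsg.IsConjUnder (Cfsg.inndiagPSL n F) x y) ∧ Nonempty (↥(Cfsg.inndiagPSL n F ⊓ Subgroup.centralizer {x}) ≃* Cfsg.PGU n F (p ^ (f / 2))) ∧ Cfsg.splitClassCount (Cfsg.inndiagPSL n F) (Cfsg.Inn (Matrix.ProjectiveSpecialLinearGroup (Fin n) F)) x = Nat.gcd n (p ^ (f / 2) - 1) := by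
  have hN := H29.pslConj_range_normal (F := F) (n := n) (by omega)
  have h3' : 3 ≤ Fintype.card (Fin n) := by simpa using hn
  have key : ∀ y : MulAut (Matrix.ProjectiveSpecialLinearGroup (Fin n) F),
      IsGraphFieldAutClassPSL y → orderOf y = 2 → ∃ (α : MulAut _) (σ : RingAut F), σ ≠ 1 ∧
        (∀ a, σ (σ a) = a) ∧ α * y * α⁻¹ = H68.cor σ 1 := fun y hy hy2 => by
    obtain ⟨-, α, σ, h1, h⟩ := H68.graphField_iff hy
    exact ⟨α, σ, h1, ((H68.orderOf_cor_eq_two_iff h3' σ 1).mp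
      ((H68.conj_orderOf h).symm.trans hy2)).1, h⟩
  obtain ⟨α, σ, h1, h2, h⟩ := key x hx hx2
  have hf2 : 2 ∣ f := H68.orderOf_invol h1 h2 ▸ (H68.orderOf_dvd_of_card Fact.out
    (by rw [Nat.card_eq_fintype_card, hF]) σ).1
  haveI : Fact (Fintype.card F = (p ^ (f / 2)) ^ 2) :=
    ⟨by rw [hF, ← pow_mul, Nat.div_mul_cancel hf2]⟩
  obtain rfl := H68.invol_eq_cjE (q := p ^ (f / 2)) h1 h2
  rw [H68.inndiagPSL_eq]
  refine ⟨even_iff_two_dvd.mpr hf2, fun y hy hy2 => ?_, ?_, ?_⟩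
  · obtain ⟨β, τ, h1', h2', h'⟩ := key y hy hy2
    obtain rfl := H68.invol_eq_cjE (q := p ^ (f / 2)) h1' h2'
    have e1 := H68.isConjUnder_cor_one (n := n) (by omega) (H68.cjE F (p ^ (f / 2))) α⁻¹
    have e2 := H68.isConjUnder_cor_one (n := n) (by omega) (H68.cjE F (p ^ (f / 2))) β⁻¹
    rw [show α⁻¹ * H68.cor (H68.cjE F (p ^ (f / 2))) 1 * α⁻¹⁻¹ = x by rw [← h]; group] at e1
    rw [show β⁻¹ * H68.cor (H68.cjE F (p ^ (f / 2))) 1 * β⁻¹⁻¹ = y by rw [← h']; group] at e2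
    exact (H68.isConjUnder_equivalence _).trans ((H68.isConjUnder_equivalence _).symm e1) e2
  · obtain ⟨e1⟩ := H68.conj_cent hN h
    obtain ⟨e2⟩ := H68.cent_cor (ι := Fin n) (by omega) (H68.cjE F (p ^ (f / 2))) 1
    rw [H68.gform_cjE] at e2
    obtain ⟨e3⟩ := H68.projQuot_sim_herm (F := F) (q := p ^ (f / 2)) (n := n) (by omega)
    exact ⟨e1.trans (e2.trans e3)⟩
  · rw [H68.conj_split hN inferInstance h, H68.split_cor (by omega), H68.gform_cjE,
      H68.index_det_sim_herm (by omega)]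

end Cfsg.Agent.S2704
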