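import Cfsg.Statements.S2705
import Cfsg.Agent.H68.DictU

set_option autoImplicit false
open Cfsg

namespace Cfsg.Agent.S2705

/-- Let T = PSU_n(q) be simple (n ≥ 3, (n, q) ≠ (3, 2), q = p^f), realised over the field F with q² elements, G = Inndiag(T) the image of PGU_n(q) in Aut(T), and x a field automorphism of T (conjugate to a standard field automorphism of odd order) of odd prime order r. Then r divides f; C_G(x) is isomorphic to PGU_n(q₀) with q₀ = p^(f/r), realised over a field F₀ with q₀² elements; and the G-class of x is the union of exactly gcd(n, (q + 1)/(q₀ + 1)) T-classes. -/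
theorem result {F : Type*} [Field F] [Fintype F] {p f q : ℕ} [Fact p.Prime] (hq : q = p ^ f) (hf : 1 ≤ f) (hF : Fintype.card F = q ^ 2) {n : ℕ} (hn : 3 ≤ n) (hs : ¬ (n = 3 ∧ q = 2)) (x : MulAut (Cfsg.PSU n F q)) (hx : Cfsg.IsFieldAutClassPSU x) {r : ℕ} (hr : r.Prime) (hro : Odd r) (hxr : orderOf x = r) (F₀ : Type*) [Field F₀] [Fintype F₀] (hF₀ : Fintype.card F₀ = p ^ (2 * (f / r))) :
    r ∣ f ∧ Nonempty (↥(Cfsg.inndiagPSU n F q ⊓ Subgroup.centralizer {x}) ≃* Cfsg.PGU n F₀ (p ^ (f / r))) ∧ Cfsg.splitClassCount (Cfsg.inndiagPSU n F q) (Cfsg.Inn (Cfsg.PSU n F q)) x = Nat.gcd n ((q + 1) / (p ^ (f / r) + 1)) := by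
  obtain ⟨α, φ, σ, -, ho, hφ, h⟩ := hx
  haveI : Fact (Fintype.card F = q ^ 2) := ⟨hF⟩
  rw [H68.isFieldAutPSUOf_iff hn] at hφ
  replace h := h.trans hφ
  have hr' : orderOf (σ : RingAut F) = r := by
    rw [← (H68.dictU (q := q) hn).orderOf_π_inr (H29.inr_mem_gamU σ), ← H68.conj_orderOf h, hxr]
  have hF' : Nat.card F = p ^ (2 * f) := by
    rw [Nat.card_eq_fintype_card, hF, hq, ← pow_mul, mul_comm]
  have hd : r ∣ f := (Nat.coprime_two_right.mpr hro).dvd_of_dvd_mul_left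
    (hr' ▸ (H68.orderOf_dvd_of_card Fact.out hF' σ).1)
  obtain ⟨l, rfl⟩ := hd
  rw [Nat.mul_div_cancel_left _ hr.pos] at hF₀ ⊢
  haveI : Fact (Fintype.card F₀ = (p ^ l) ^ 2) := ⟨by rw [hF₀, ← pow_mul, mul_comm]⟩
  obtain ⟨j, hj⟩ := H68.exists_fixEmb σ F₀ (by
    rw [hF', hr', Nat.card_eq_fintype_card, hF₀, ← pow_mul]; congr 1; ring)
  have hτ := H68.cjE_map (F := F) (q := q) (q₀ := p ^ l) hro (by rw [hq, ← pow_mul, mul_comm]) j
  have hN := H68.dictU_normal (F := F) hn hs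
  rw [H68.inndiagPSU_eq hn]
  refine ⟨dvd_mul_right _ _, ?_, ?_⟩
  · obtain ⟨e⟩ := H68.conj_cent hN h
    obtain ⟨e'⟩ := (H68.dictU hn).cent_equiv (H29.inr_mem_gamU σ) hj (H68.map_mem_gu hτ)
      (H68.gu_hC hτ (by omega))
    exact ⟨e.trans e'⟩
  · rw [H68.conj_split hN inferInstance h, H68.split_psu hτ hn hj]

end Cfsg.Agent.S2705
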