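import Cfsg.Statements.S2712
import Cfsg.Agent.H68.DictSp

set_option autoImplicit false
open Cfsg

namespace Cfsg.Agent.S2712

/-- Let T = PSp_{2m}(F) be simple over the field F with p^f elements (m ≥ 2, (2m, |F|) ≠ (4, 2)), G = Inndiag(T) the image of the projective conformal symplectic group PGSp_{2m}(F), and x a field automorphism of T of prime order r. Then r divides f; C_G(x) is isomorphic to PGSp_{2m}(F₀) for a field F₀ with p^(f/r) elements; and the G-class of x is the union of exactly gcd(gcd(2, p^f − 1), r) T-classes. -/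
theorem result {F : Type*} [Field F] [Fintype F] {p f : ℕ} [Fact p.Prime] (hF : Fintype.card F = p ^ f) (hf : 1 ≤ f) {m : ℕ} (hm : 2 ≤ m) (hs : m = 2 → 3 ≤ Fintype.card F) (x : MulAut (Cfsg.PSp m F)) (hx : Cfsg.IsFieldAutClassPSp x) {r : ℕ} (hr : r.Prime) (hxr : orderOf x = r) (F₀ : Type*) [Field F₀] [Fintype F₀] (hF₀ : Fintype.card F₀ = p ^ (f / r)) :
    r ∣ f ∧ Nonempty (↥(Cfsg.inndiagPSp m F ⊓ Subgroup.centralizer {x}) ≃* Cfsg.PGSp m F₀) ∧ Cfsg.splitClassCount (Cfsg.inndiagPSp m F) (Cfsg.Inn (Cfsg.PSp m F)) x = Nat.gcd (Nat.gcd 2 (p ^ f - 1)) r := by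
  obtain ⟨α, σ, -, h⟩ := hx
  have hm1 : 1 ≤ m := by omega
  rw [H68.isStdFieldAutPSp_iff hm1] at h
  have hr' : orderOf (σ : RingAut F) = r := by
    rw [← (H68.dictSp hm1).orderOf_π_inr (H29.inr_mem_gamSp σ), ← H68.conj_orderOf h, hxr]
  have hF' : Nat.card F = p ^ f := by rw [Nat.card_eq_fintype_card, hF]
  have hF₀' : Nat.card F₀ = p ^ (f / r) := by rw [Nat.card_eq_fintype_card, hF₀]
  obtain ⟨j, hj⟩ := H68.exists_fixEmb_of_card Fact.out hF' σ F₀ (by rw [hr', hF₀'])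
  have hN := H68.dictSp_normal (F := F) hm
  have hd : r ∣ f := hr' ▸ (H68.orderOf_dvd_of_card Fact.out hF' σ).1
  rw [H68.inndiagPSp_eq hm1]
  refine ⟨hd, ?_, ?_⟩
  · obtain ⟨e⟩ := H68.conj_cent hN h
    obtain ⟨e'⟩ := (H68.dictSp hm1).cent_equiv (H29.inr_mem_gamSp σ) hj (H68.map_mem_gsp j)
      (H68.gsp_hC hm1 j)
    exact ⟨e.trans e'⟩
  · rw [H68.conj_split hN inferInstance h, H68.split_psp hm1 hj, ← hF', hj.card, hr',
      H68.geom_parity Finite.one_lt_card hr.one_le]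

end Cfsg.Agent.S2712
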