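import Cfsg.Statements.S2714
import Cfsg.Agent.H68.QOdd

set_option autoImplicit false
open Cfsg

namespace Cfsg.Agent.S2714

/-- Let T = Ω_{2m+1}(F) (m ≥ 3, |F| = p^f odd; realised as PΩ of the form x₀² + Σ xᵢ yᵢ), G = Inndiag(T) the image of the conformal orthogonal group in Aut(T), and x a field automorphism of T of prime order r. Then r divides f; C_G(x) is isomorphic to Inndiag(Ω_{2m+1}(F₀)) for a field F₀ with p^(f/r) elements; and the G-class of x is a single T-class when r is odd and the union of exactly two T-classes when r = 2. -/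
theorem result {F : Type*} [Field F] [Fintype F] {p f : ℕ} [Fact p.Prime] (hF : Fintype.card F = p ^ f) (hf : 1 ≤ f) (hodd : Odd (Fintype.card F)) {m : ℕ} (hm : 3 ≤ m) (x : MulAut (Cfsg.POmega F (Cfsg.quadFormOdd m F))) (hx : Cfsg.IsFieldAutClassPOmega (Cfsg.quadFormOdd m F) x) {r : ℕ} (hr : r.Prime) (hxr : orderOf x = r) (F₀ : Type*) [Field F₀] [Fintype F₀] (hF₀ : Fintype.card F₀ = p ^ (f / r)) :
    r ∣ f ∧ Nonempty (↥(Cfsg.inndiagPOmegaOdd m F ⊓ Subgroup.centralizer {x}) ≃* ↥(Cfsg.inndiagPOmegaOdd m F₀)) ∧ (Odd r → Cfsg.splitClassCount (Cfsg.inndiagPOmegaOdd m F) (Cfsg.Inn (Cfsg.POmega F (Cfsg.quadFormOdd m F))) x = 1) ∧ (r = 2 → Cfsg.splitClassCount (Cfsg.inndiagPOmegaOdd m F) (Cfsg.Inn (Cfsg.POmega F (Cfsg.quadFormOdd m F))) x = 2) := by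
  have h2 := H27.two_ne_zero_of_odd_card hodd
  have hm2 : 2 ≤ m := by omega
  have hQ := H28.qOdd_nondeg m h2
  have h5 := H68.five_odd hm2
  have M := H68.dSim hQ h5
  obtain ⟨α, σ, -, h⟩ := H68.fieldClass_iff (Q := H28.qOdd m F) M H68.inr_mem_odd hx
  have hr' : orderOf (σ : RingAut F) = r :=
    (M.orderOf_π_inr (H68.inr_mem_odd σ)).symm.trans ((H68.conj_orderOf h).symm.trans hxr)
  have hF' : Nat.card F = p ^ f := by rw [Nat.card_eq_fintype_card, hF]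
  obtain ⟨j, hj⟩ := H68.exists_fixEmb_of_card Fact.out hF' σ F₀
    (by rw [hr', Nat.card_eq_fintype_card, hF₀])
  have h2₀ := H68.two_ne_zero_of_map j h2
  have hQ₀ := H28.qOdd_nondeg m h2₀
  have hN := H68.normal_odd h2 hm2
  have E := H68.qExt_odd m j
  have h3 := (H68.conj_split hN inferInstance h).trans
    (H68.split_sim hQ h5 hQ₀ h5 (x := ⟨_, H68.inr_mem_odd σ⟩) (H68.isCoord_inr σ) hj E)
  have h4 := H68.index_oddDim hQ h5 hQ₀ h5 hj E h2 (by simp [parity_simps])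
  rw [← h3, hr'] at h4
  rw [H68.inndiagOdd_eq h2 hm2]
  refine ⟨hr' ▸ (H68.orderOf_dvd_of_card Fact.out hF' σ).1, ?_, h4⟩
  obtain ⟨e⟩ := H68.conj_cent hN h
  obtain ⟨e'⟩ := H68.cent_sim hQ h5 hQ₀ h5 (x := ⟨_, H68.inr_mem_odd σ⟩) (H68.isCoord_inr σ) hj E
  exact ⟨(e.trans e').trans (MulEquiv.subgroupCongr (H68.inndiagOdd_eq h2₀ hm2).symm)⟩

end Cfsg.Agent.S2714
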