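import Cfsg.Statements.S2715
import Cfsg.Agent.H68.QFin
import Cfsg.Agent.H29.Triality5

set_option autoImplicit false
open Cfsg

namespace Cfsg.Agent.S2715

/-- Let T = PΩ⁺_{2m}(F) (m ≥ 4, |F| = p^f; the form Σ xᵢ yᵢ), G = Inndiag(T) the image of the class-preserving similarities in Aut(T), and x a field automorphism of T of prime order r. Then r divides f; C_G(x) is isomorphic to Inndiag(PΩ⁺_{2m}(F₀)) for a field F₀ with p^(f/r) elements; and the G-class of x is the union of exactly c T-classes, where c = 1 if r is odd or p = 2, and otherwise (r = 2, p odd) c = 2 when m is odd and p^(f/2) ≡ 1 (mod 4), and c = 4 in the remaining cases. -/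
theorem result {F : Type*} [Field F] [Fintype F] {p f : ℕ} [Fact p.Prime] (hF : Fintype.card F = p ^ f) (hf : 1 ≤ f) {m : ℕ} (hm : 4 ≤ m) (x : MulAut (Cfsg.POmega F (Cfsg.quadFormPlus m F))) (hx : Cfsg.IsFieldAutClassPOmega (Cfsg.quadFormPlus m F) x) {r : ℕ} (hr : r.Prime) (hxr : orderOf x = r) (F₀ : Type*) [Field F₀] [Fintype F₀] (hF₀ : Fintype.card F₀ = p ^ (f / r)) :
    r ∣ f ∧ Nonempty (↥(Cfsg.inndiagPOmegaPlus m F ⊓ Subgroup.centralizer {x}) ≃* ↥(Cfsg.inndiagPOmegaPlus m F₀)) ∧ ((Odd r ∨ p = 2) → Cfsg.splitClassCount (Cfsg.inndiagPOmegaPlus m F) (Cfsg.Inn (Cfsg.POmega F (Cfsg.quadFormPlus m F))) x = 1) ∧ ((r = 2 ∧ p ≠ 2 ∧ Odd m ∧ p ^ (f / 2) % 4 = 1) → Cfsg.splitClassCount (Cfsg.inndiagPOmegaPlus m F) (Cfsg.Inn (Cfsg.POmega F (Cfsg.quadFormPlus m F))) x = 2) ∧ ((r = 2 ∧ p ≠ 2 ∧ ¬ (Odd m ∧ p ^ (f / 2) % 4 = 1)) → Cfsg.splitClassCount (Cfsg.inndiagPOmegaPlus m F) (Cfsg.Inn (Cfsg.POmega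 F (Cfsg.quadFormPlus m F))) x = 4) := by
  have hm3 : 3 ≤ m := by omega
  have hQ := H28.qPlus_nondeg (F := F) m
  have hQ₀ := H28.qPlus_nondeg (F := F₀) m
  have h5 := H68.five_plus hm3
  have hn := H68.even_plus m
  have M := H68.dSim hQ h5
  obtain ⟨α, σ, -, h⟩ := H68.fieldClass_iff (Q := H28.qPlus m F) M H68.inr_mem_plus hx
  have hr' : orderOf (σ : RingAut F) = r :=
    (M.orderOf_π_inr (H68.inr_mem_plus σ)).symm.trans ((H68.conj_orderOf h).symm.trans hxr)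
  have hF' : Nat.card F = p ^ f := by rw [Nat.card_eq_fintype_card, hF]
  have hF₀' : Nat.card F₀ = p ^ (f / r) := by rw [Nat.card_eq_fintype_card, hF₀]
  obtain ⟨j, hj⟩ := H68.exists_fixEmb_of_card Fact.out hF' σ F₀ (by rw [hr', hF₀'])
  have hN : (H68.dP hQ h5 hn).πD.range.Normal := by
    rcases hm.eq_or_lt with rfl | h4
    · exact H29.dP_normal8
    · exact H68.normal_plus hm3 h4
  have E := H68.qExt_plus m j
  have h3 := (H68.conj_split hN inferInstance h).trans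
    (H68.split_simP hQ h5 hQ₀ h5 (x := H68.fld m σ) (H68.isCoord_inr σ) hj E hn hn)
  have h6 := fun (h7 : r = 2) (h8 : p ≠ 2) => h3.trans (H68.index_fld hm3 hQ₀ h5 hn E
    (H68.isCoord_inr σ) hj (fun H => h8 ((H68.two_eq_zero_iff_of_card hF).mp H)) (hr'.trans h7))
  rw [hF₀'] at h6
  rw [H68.inndiagPlus_eq hm3]
  refine ⟨hr' ▸ (H68.orderOf_dvd_of_card Fact.out hF' σ).1, ?_, fun h7 => h3.trans
    (H68.index_simP_one hQ h5 hQ₀ h5 hj E hn hn (h7.symm.imp (H68.two_eq_zero_iff_of_card hF).mpr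
      (hr' ▸ id)) fun h => H29.exists_delta_plus h hm3),
    fun h7 => (h6 h7.1 h7.2.1).trans (if_pos (h7.1 ▸ h7.2.2)),
    fun h7 => (h6 h7.1 h7.2.1).trans (if_neg (h7.1 ▸ h7.2.2))⟩
  obtain ⟨e⟩ := H68.conj_cent hN h
  obtain ⟨e'⟩ := H68.cent_simP hQ h5 hQ₀ h5 (x := H68.fld m σ) (H68.isCoord_inr σ) hj E hn hn
  exact ⟨(e.trans e').trans (MulEquiv.subgroupCongr (H68.inndiagPlus_eq hm3).symm)⟩

end Cfsg.Agent.S2715
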