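import Cfsg.Statements.S2716
import Cfsg.Agent.H68.QMinus

set_option autoImplicit false
open Cfsg

namespace Cfsg.Agent.S2716

/-- Let T = PΩ⁻_{2m+2}(F) (m ≥ 3, |F| = p^f; the form Σ xᵢ yᵢ + z₁² + a z₁ z₂ + b z₂² with anisotropic binary part), G = Inndiag(T), and x a field automorphism of T of prime order r. Then r is odd and divides f; C_G(x) is isomorphic to Inndiag(PΩ⁻_{2m+2}(F₀)) for a field F₀ with p^(f/r) elements and some anisotropic binary part over F₀; and the G-class of x is a single T-class. -/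
theorem result {F : Type*} [Field F] [Fintype F] {p f : ℕ} [Fact p.Prime] (hF : Fintype.card F = p ^ f) (hf : 1 ≤ f) {m : ℕ} (hm : 3 ≤ m) (a b : F) (hab : (∀ z₁ z₂ : F, z₁ ^ 2 + a * z₁ * z₂ + b * z₂ ^ 2 = 0 → z₁ = 0 ∧ z₂ = 0)) (x : MulAut (Cfsg.POmega F (Cfsg.quadFormMinus m F a b))) (hx : Cfsg.IsFieldAutClassPOmegaMinus m x) {r : ℕ} (hr : r.Prime) (hxr : orderOf x = r) (F₀ : Type*) [Field F₀] [Fintype F₀] (hF₀ : Fintype.card F₀ = p ^ (f / r)) :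
    Odd r ∧ r ∣ f ∧ (∃ a₀ b₀ : F₀, (∀ z₁ z₂ : F₀, z₁ ^ 2 + a₀ * z₁ * z₂ + b₀ * z₂ ^ 2 = 0 → z₁ = 0 ∧ z₂ = 0) ∧ Nonempty (↥(Cfsg.inndiagPOmegaMinus m F a b ⊓ Subgroup.centralizer {x}) ≃* ↥(Cfsg.inndiagPOmegaMinus m F₀ a₀ b₀))) ∧ Cfsg.splitClassCount (Cfsg.inndiagPOmegaMinus m F a b) (Cfsg.Inn (Cfsg.POmega F (Cfsg.quadFormMinus m F a b))) x = 1 := by
  have hm2 : 2 ≤ m := by omega
  obtain ⟨y, rfl, h1, h2⟩ := H68.minus_rep hm2 hab hx hr hxr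
  have hF' : Nat.card F = p ^ f := by rw [Nat.card_eq_fintype_card, hF]
  obtain ⟨j, hj⟩ := H68.exists_fixEmb_of_card Fact.out hF' y.1.right F₀
    (by rw [h1, Nat.card_eq_fintype_card, hF₀])
  obtain ⟨b₀, h₀⟩ := H27.exists_anisotropic_binary F₀
  obtain ⟨φ, c, h3, E⟩ := H68.desc_minus hm2 hab y hj (hxr.trans h1.symm) h₀
  have hQ := H28.qMinus_nondeg m hab
  have hQ₀ := H28.qMinus_nondeg m h₀
  have h5 := H68.five_minus hm2
  have hn := H68.even_minus m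
  rw [H68.inndiagMinus_eq hm2 hab]
  refine ⟨h2, h1 ▸ (H68.orderOf_dvd_of_card Fact.out hF' y.1.right).1, ⟨1, b₀, h₀, ?_⟩,
    (H68.split_simP hQ h5 hQ₀ h5 h3 hj E hn hn).trans (H68.index_simP_one hQ h5 hQ₀ h5 hj E hn hn
      (Or.inr (h1 ▸ h2)) fun h => H29.exists_delta_minus h₀ h hm2)⟩
  obtain ⟨e⟩ := H68.cent_simP hQ h5 hQ₀ h5 h3 hj E hn hn
  exact ⟨e.trans (MulEquiv.subgroupCongr (H68.inndiagMinus_eq hm2 h₀).symm)⟩

end Cfsg.Agent.S2716
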