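import Cfsg.Statements.S2717
import Cfsg.Agent.H68.QFin

set_option autoImplicit false
open Cfsg

namespace Cfsg.Agent.S2717

/-- Let T = PΩ⁺_{2m}(F) with m ≥ 5 (dimension 2m ≠ 8) and |F| = p^f, G = Inndiag(T), and x an involutory graph-field automorphism of T. Then f is even; any two involutory graph-field automorphisms of T are G-conjugate; C_G(x) is isomorphic to Inndiag(PΩ⁻_{2m}(F₀)) for a field F₀ with p^(f/2) elements (some anisotropic binary part over F₀); and the G-class of x is the union of exactly c T-classes with c = 1 if p = 2, c = 4 if p is odd, m is odd and p^(f/2) ≡ 1 (mod 4), and c = 2 otherwise. -/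
theorem result {F : Type*} [Field F] [Fintype F] {p f : ℕ} [Fact p.Prime] (hF : Fintype.card F = p ^ f) (hf : 1 ≤ f) {m : ℕ} (hm : 5 ≤ m) (x : MulAut (Cfsg.POmega F (Cfsg.quadFormPlus m F))) (hx : Cfsg.IsGraphFieldAutClassPOmegaPlus m x) (hx2 : orderOf x = 2) (F₀ : Type*) [Field F₀] [Fintype F₀] (hF₀ : Fintype.card F₀ = p ^ (f / 2)) :
    Even f ∧ (∀ y : MulAut (Cfsg.POmega F (Cfsg.quadFormPlus m F)), Cfsg.IsGraphFieldAutClassPOmegaPlus m y → orderOf y = 2 → Cfsg.IsConjUnder (Cfsg.inndiagPOmegaPlus m F) x y) ∧ (∃ a₀ b₀ : F₀, (∀ z₁ z₂ : F₀, z₁ ^ 2 + a₀ * z₁ * z₂ + b₀ * z₂ ^ 2 = 0 → z₁ = 0 ∧ z₂ = 0) ∧ Nonempty (↥(Cfsg.inndiagPOmegaPlus m F ⊓ Subgroup.centralizer {x}) ≃* ↥(Cfsg.inndiagPOmegaMinus (m - 1) F₀ a₀ b₀))) ∧ (p = 2 → Cfsg.splitClassCount (Cfsg.inndiagPOmegaPlus m F) (Cfsg.Inn (Cfsg.POmega F (Cfsg.quadFormPlus m F))) x = 1) ∧ ((p ≠ 2 ∧ Odd m ∧ p ^ (f / 2) % 4 = 1) → Cfsg.splitClassCount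 (Cfsg.inndiagPOmegaPlus m F) (Cfsg.Inn (Cfsg.POmega F (Cfsg.quadFormPlus m F))) x = 4) ∧ ((p ≠ 2 ∧ ¬ (Odd m ∧ p ^ (f / 2) % 4 = 1)) → Cfsg.splitClassCount (Cfsg.inndiagPOmegaPlus m F) (Cfsg.Inn (Cfsg.POmega F (Cfsg.quadFormPlus m F))) x = 2) := by
  have hm3 : 3 ≤ m := by omega
  obtain ⟨y, rfl, h1, h2⟩ := H68.gf_rep hm3 hm hx hx2
  have hF' : Nat.card F = p ^ f := by rw [Nat.card_eq_fintype_card, hF]
  have hF₀' : Nat.card F₀ = p ^ (f / 2) := by rw [Nat.card_eq_fintype_card, hF₀]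
  obtain ⟨j, hj⟩ := H68.exists_fixEmb_of_card Fact.out hF' y.1.right F₀ (by rw [h1, hF₀'])
  obtain ⟨b₀, h₀⟩ := H27.exists_anisotropic_binary F₀
  have hQ := H28.qPlus_nondeg (F := F) m
  have hQ₀ := H28.qMinus_nondeg (m - 1) h₀
  have h5 := H68.five_plus hm3
  have h5₀ := H68.five_minus (m := m - 1) (by omega)
  have hn := H68.even_plus m
  have hn₀ := H68.even_minus (m - 1)
  have ho := hx2.trans h1.symm
  have hN := H68.normal_plus (F := F) hm3 hm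
  let i : Fin m := ⟨0, by omega⟩
  let z := H68.gfld y.1.right (H68.swapV F i)
  have hz := H68.orderOf_gfld hm3 (H68.swapV_fix y.1.right i) (h1 ▸ even_two)
  have hz' := H68.gcls_gfld hm3 y.1.right (v := H68.swapV F i) (by rw [H68.swapV_Q]; simp)
  have hj' : H68.FixEmb z.1.right j := by rwa [H68.gfld_right]
  obtain ⟨α, -, h⟩ := H68.conj_of_gcls hm3 y ho hz (H68.gfld_right _ _) (hz'.trans h2.symm)
  obtain ⟨φ, c, h3, E⟩ := H68.desc_of_neg hm3 z hj' hz hz' h₀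
  have h4 := (H68.conj_split hN inferInstance h.symm).trans
    (H68.split_simP hQ h5 hQ₀ h5₀ h3 hj' E hn hn₀)
  have h6 := fun h7 : p ≠ 2 => h4.trans (H68.index_gfld hm3 hQ₀ h5₀ hn₀ E i h3 hj
    (fun H => h7 ((H68.two_eq_zero_iff_of_card hF).mp H)) h1)
  rw [hF₀'] at h6
  rw [H68.inndiagPlus_eq hm3]
  refine ⟨even_iff_two_dvd.mpr (h1 ▸ (H68.orderOf_dvd_of_card Fact.out hF' y.1.right).1),
    fun y' hy hy2 => ?_, ⟨1, b₀, h₀, ?_⟩, fun h7 => h4.trans (H68.index_simP_one hQ h5 hQ₀ h5₀ hj E hn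
      hn₀ (Or.inl ((H68.two_eq_zero_iff_of_card hF).mpr h7)) fun h => H29.exists_delta_minus h₀ h
        (by omega)), fun h7 => (h6 h7.1).trans (if_pos h7.2), fun h7 => (h6 h7.1).trans (if_neg h7.2)⟩
  · obtain ⟨y', rfl, h8, h9⟩ := H68.gf_rep hm3 hm hy hy2
    refine H68.conj_of_gcls hm3 y ho (hy2.trans h8.symm) (H68.invol_unique (fun H => ?_) (fun H => ?_)
      (H68.invol_of_orderOf h8) (H68.invol_of_orderOf h1)) (h9.trans h2.symm)
    · simp [H] at h8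
    · simp [H] at h1
  · obtain ⟨e⟩ := H68.conj_cent hN h.symm
    obtain ⟨e'⟩ := H68.cent_simP hQ h5 hQ₀ h5₀ h3 hj' E hn hn₀
    exact ⟨(e.trans e').trans (MulEquiv.subgroupCongr (H68.inndiagMinus_eq (by omega) h₀).symm)⟩

end Cfsg.Agent.S2717
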