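import Cfsg.Statements.S2724
import Cfsg.Agent.H29.OInd

set_option autoImplicit false
open Cfsg

namespace Cfsg.Agent.S2724

/-- Let T = PΩ⁺_{2m}(F) with m ≥ 4 and |F| = q odd. The image G̃ of the conformal orthogonal group in Aut(T), taken modulo the inner automorphism group T, is elementary abelian of order 4 when m is odd and q ≡ 3 (mod 4), and dihedral of order 8 otherwise. -/
theorem result {F : Type*} [Field F] [Fintype F] (hodd : Odd (Fintype.card F)) {m : ℕ} (hm : 4 ≤ m) :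
    ((Odd m ∧ Fintype.card F % 4 = 3) → (∃ φ : ↥(Cfsg.pgoAut F (Cfsg.quadFormPlus m F)) →* Multiplicative (ZMod 2 × ZMod 2), Function.Surjective φ ∧ φ.ker = (Cfsg.Inn (Cfsg.POmega F (Cfsg.quadFormPlus m F))).subgroupOf (Cfsg.pgoAut F (Cfsg.quadFormPlus m F)))) ∧ (¬ (Odd m ∧ Fintype.card F % 4 = 3) → (∃ φ : ↥(Cfsg.pgoAut F (Cfsg.quadFormPlus m F)) →* DihedralGroup 4, Function.Surjective φ ∧ φ.ker = (Cfsg.Inn (Cfsg.POmega F (Cfsg.quadFormPlus m F))).subgroupOf (Cfsg.pgoAut F (Cfsg.quadFormPlus m F)))) := by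
----
  have h2 := H28.two_ne_zero_of_odd_card hodd
  have hQ := H28.qPlus_nondeg (F := F) m
  have h5 := H68.five_plus (m := m) (by omega)
  obtain ⟨δ, h7, h8⟩ := H29.exists_delta_plus h2 (m := m) (by omega)
  have hn := H29.negO_plus_iff hodd (m := m) (by omega)
  refine ⟨fun h => H29.hom_pgo hQ h5 (H29.simOut_klein hQ h5 h2 (m := m) (by simp; ring)
    (fun k => hn.1 k h) h7 h8), fun h => ?_⟩
  obtain ⟨_, _, _, H⟩ := H29.simOut_d8 hQ h5 (hn.2 h) h7 h8
  exact H29.hom_pgo hQ h5 H.equiv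

end Cfsg.Agent.S2724
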