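import Cfsg.Statements.S2725
import Cfsg.Agent.H29.OInd

set_option autoImplicit false
open Cfsg

namespace Cfsg.Agent.S2725

/-- Let T = PΩ⁺_{2m}(F) with m ≥ 4 and |F| = q odd. The inner-diagonal group G = Inndiag(T) (image of the class-preserving similarities) taken modulo the inner automorphism group T is cyclic of order 2 when m is odd and q ≡ 3 (mod 4), cyclic of order 4 when m is odd and q ≡ 1 (mod 4), and elementary abelian of order 4 when m is even. -/
theorem result {F : Type*} [Field F] [Fintype F] (hodd : Odd (Fintype.card F)) {m : ℕ} (hm : 4 ≤ m) :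
    ((Odd m ∧ Fintype.card F % 4 = 3) → (∃ φ : ↥(Cfsg.inndiagPOmegaPlus m F) →* Multiplicative (ZMod 2), Function.Surjective φ ∧ φ.ker = (Cfsg.Inn (Cfsg.POmega F (Cfsg.quadFormPlus m F))).subgroupOf (Cfsg.inndiagPOmegaPlus m F))) ∧ ((Odd m ∧ Fintype.card F % 4 = 1) → (∃ φ : ↥(Cfsg.inndiagPOmegaPlus m F) →* Multiplicative (ZMod 4), Function.Surjective φ ∧ φ.ker = (Cfsg.Inn (Cfsg.POmega F (Cfsg.quadFormPlus m F))).subgroupOf (Cfsg.inndiagPOmegaPlus m F))) ∧ (Even m → (∃ φ : ↥(Cfsg.inndiagPOmegaPlus m F) →* Multiplicative (ZMod 2 × ZMod 2), Function.Surjective φ ∧ φ.ker = (Cfsg.Inn (Cfsg.POmega F (Cfsg.quadFormPlus m F))).subgroupOf (Cfsg.inndiagPOmegaPlus m F))) := by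
----
  have h2 := H28.two_ne_zero_of_odd_card hodd
  have hQ := H28.qPlus_nondeg (F := F) m
  have h5 := H68.five_plus (m := m) (by omega)
  obtain ⟨δ, h7, h8⟩ := H29.exists_delta_plus h2 (m := m) (by omega)
  have hn := H29.negO_plus_iff hodd (m := m) (by omega)
  have k := fun h => H29.ind_four hQ h5 (H68.even_plus m) h2 (hn.2 h) (H29.hasRoot_plus h2 m)
    (n := m) (by simp; ring)
  rw [H68.inndiagPlus_eq (by omega)]
  exact ⟨fun h => H29.hom_dP hQ h5 _ (H29.ind_c2 hQ h5 (H68.even_plus m) (fun k => hn.1 k h) h7 h8),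
    fun h => H29.hom_dP hQ h5 _ ((k (by omega)).1 h.1),
    fun h => H29.hom_dP hQ h5 _ ((k fun h' => Nat.not_odd_iff_even.2 h h'.1).2 h)⟩

end Cfsg.Agent.S2725
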