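import Cfsg.Statements.S2729
import Cfsg.Agent.H29.OInd

set_option autoImplicit false
open Cfsg

namespace Cfsg.Agent.S2729

/-- Let T = PΩ⁻_{2m+2}(F) with m ≥ 3 and |F| = q odd (form with anisotropic binary part). The inner-diagonal group G = Inndiag(T) (image of the class-preserving similarities) taken modulo the inner automorphism group T is cyclic of order 4 when m is even and q ≡ 3 (mod 4), and of order 2 otherwise. -/
theorem result {F : Type*} [Field F] [Fintype F] (hodd : Odd (Fintype.card F)) {m : ℕ} (hm : 3 ≤ m) (a b : F) (hab : (∀ z₁ z₂ : F, z₁ ^ 2 + a * z₁ * z₂ + b * z₂ ^ 2 = 0 → z₁ = 0 ∧ z₂ = 0)) :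
    ((Even m ∧ Fintype.card F % 4 = 3) → (∃ φ : ↥(Cfsg.inndiagPOmegaMinus m F a b) →* Multiplicative (ZMod 4), Function.Surjective φ ∧ φ.ker = (Cfsg.Inn (Cfsg.POmega F (Cfsg.quadFormMinus m F a b))).subgroupOf (Cfsg.inndiagPOmegaMinus m F a b))) ∧ (¬ (Even m ∧ Fintype.card F % 4 = 3) → (∃ φ : ↥(Cfsg.inndiagPOmegaMinus m F a b) →* Multiplicative (ZMod 2), Function.Surjective φ ∧ φ.ker = (Cfsg.Inn (Cfsg.POmega F (Cfsg.quadFormMinus m F a b))).subgroupOf (Cfsg.inndiagPOmegaMinus m F a b))) := by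
----
  have h2 := H28.two_ne_zero_of_odd_card hodd
  have hQ := H28.qMinus_nondeg m hab
  have h5 := H68.five_minus (m := m) (by omega)
  obtain ⟨δ, h7, h8⟩ := H29.exists_delta_minus (k := m) hab h2 (by omega)
  have hn := H29.negO_minus_iff hodd m hab
  rw [H68.inndiagMinus_eq (by omega) hab]
  exact ⟨fun h => H29.hom_dP hQ h5 _ ((H29.ind_four hQ h5 (H68.even_minus m) h2 (hn.2 h)
      (H29.hasRoot_minus h2 m hab) (n := m + 1) (by simp; ring)).1 h.1.add_one),
    fun h => H29.hom_dP hQ h5 _ (H29.ind_c2 hQ h5 (H68.even_minus m) (mt hn.1 h) h7 h8)⟩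

end Cfsg.Agent.S2729
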