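import Cfsg.Statements.S2734
import Cfsg.Agent.H64.FoldData

set_option autoImplicit false
open Cfsg

namespace Cfsg.Agent.S2734

open Cfsg.Agent.H40

/-- In the Chevalley group of type D₄ over a finite field F (the matrix group generated by the root elements), a graph automorphism attached to a symmetry π of the Dynkin diagram (sending each fundamental root element x_p(t) to x_{π(p)}(t) and each x_{−p}(t) to x_{−π(p)}(t)) that has order 3 — a standard triality graph automorphism, π being a 3-cycle of the three outer nodes — has fixed-point subgroup isomorphic to the Chevalley group of type G₂ over F. -/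
theorem result {F : Type*} [Field F] [Fintype F] (τ : MulAut ↥(Cfsg.Lie.chevD4.group F)) (hτ : Cfsg.Lie.chevD4.IsGraphAut τ) (hτ3 : orderOf τ = 3) :
    Nonempty (↥(MonoidHom.eqLocus τ.toMonoidHom (MonoidHom.id ↥(Cfsg.Lie.chevD4.group F))) ≃* ↥(Cfsg.Lie.chevG2.group F)) := by
  obtain ⟨π, h2, h3⟩ := (H64.isGraphAut_iff isChev_D4).1 hτ
  have h4 := H64.gσ_eq_one (F := F) H64.diagFacts_D4.long_eq
  have h5 : ∀ π : Equiv.Perm (Fin Lie.chevD4.rank), (π ⟨1, by decide⟩ : ℕ) = 1 → π * π = 1 ∨ (∀ i, (π i : ℕ) = [2, 1, 3, 0].getD i 0) ∨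
      ∀ i, (π⁻¹ i : ℕ) = [2, 1, 3, 0].getD i 0 := by decide +kernel
  obtain ⟨e'⟩ := H64.fold_G2 F
  rcases h5 π (H64.sym_D4 h2) with h6 | h6 | h6
  · have h7 : τ * τ = 1 := (h3.mul h3).ext (H64.gg_top _ F) (θ' := 1) (by
      convert H64.Pin.one (X := H64.gg isChev_D4 F)
      · simp
      · simp [h4])
    have := orderOf_dvd_of_pow_eq_one ((pow_two τ).trans h7)
    rw [hτ3] at this
    omega
  · obtain ⟨e⟩ := H64.pin_fix (TD (RingHom.id F)) (TD_e _) h3 (fun _ => rfl) (h4 π) (fun i => by
      rw [h6]; revert i; decide +kernel) (K := MonoidHom.eqLocus τ.toMonoidHom (MonoidHom.id _)) fun _ => Iff.rfl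
    exact ⟨e.trans e'⟩
  · obtain ⟨e⟩ := H64.pin_fix (TD (RingHom.id F)) (TD_e _) h3.inv (fun _ => by simp) (fun _ => by simp [h4])
      (fun i => by rw [h6]; revert i; decide +kernel) (K := MonoidHom.eqLocus τ.toMonoidHom (MonoidHom.id _))
      fun g => (MulEquiv.symm_apply_eq τ).trans eq_comm |>.symm
    exact ⟨e.trans e'⟩

end Cfsg.Agent.S2734
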