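import Cfsg.Statements.S2736
import Cfsg.Agent.H68.QPlus

set_option autoImplicit false
open Cfsg

namespace Cfsg.Agent.S2736

/-- Let T = PΩ⁺_{2m}(F) with m ≥ 5 (dimension ≠ 8) and x a field automorphism or a graph-field automorphism of T of prime order r. Then an element y of the coset Inndiag(T)·x (y = δ x with δ induced by a class-preserving similarity) has order r if and only if y is conjugate to x by an element of Inndiag(T). -/
theorem result {F : Type*} [Field F] [Fintype F] {m : ℕ} (hm : 5 ≤ m) (x δ : MulAut (Cfsg.POmega F (Cfsg.quadFormPlus m F))) (hx : Cfsg.IsFieldAutClassPOmega (Cfsg.quadFormPlus m F) x ∨ Cfsg.IsGraphFieldAutClassPOmegaPlus m x) {r : ℕ} (hr : r.Prime) (hxr : orderOf x = r) (hδ : δ ∈ Cfsg.inndiagPOmegaPlus m F) :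
    orderOf (δ * x) = r ↔ Cfsg.IsConjUnder (Cfsg.inndiagPOmegaPlus m F) x (δ * x) := by
  have hm3 : 3 ≤ m := by omega
  have M := H68.dSim (H28.qPlus_nondeg (F := F) m) (H68.five_plus hm3)
  obtain ⟨α, y, h1, h⟩ : ∃ (α : MulAut (Cfsg.POmega F (Cfsg.quadFormPlus m F)))
      (y : H29.GamO (H28.qPlus m F)), y.1.right ≠ 1 ∧ α * x * α⁻¹ = H29.poAut _ y := by
    rcases hx with hx | hx
    · obtain ⟨α, σ, h1, h⟩ := H68.fieldClass_iff (Q := H28.qPlus m F) M H68.inr_mem_plus hx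
      exact ⟨α, _, h1, h⟩
    · obtain ⟨α, σ, v, h1, -, h⟩ := H68.gfClass_rep hm3 hx
      exact ⟨α, _, by rwa [H68.gfld_right], h⟩
  have h2 : orderOf (H29.poAut _ y) = r := (H68.conj_orderOf h).symm.trans hxr
  have h3 := H68.orderOf_eq_of_prime_dvd hr h1 (h2 ▸ M.orderOf_right_dvd y)
  rw [H68.inndiagPlus_eq hm3] at hδ ⊢
  rw [← hxr]
  exact H68.conj_lang (H68.normal_plus hm3 hm) h (H68.lang_plus hm3 y (h2.trans h3.symm)) hδ

end Cfsg.Agent.S2736
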