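import Cfsg.Statements.S2737
import Cfsg.Agent.H68.QMinus

set_option autoImplicit false
open Cfsg

namespace Cfsg.Agent.S2737

/-- Let T = PΩ⁻_{2m+2}(F) (m ≥ 3; form with anisotropic binary part) and x a field automorphism of T of prime order r. Then an element y of the coset Inndiag(T)·x has order r if and only if y is conjugate to x by an element of Inndiag(T). (T has no graph-field automorphisms.) -/
theorem result {F : Type*} [Field F] [Fintype F] {m : ℕ} (hm : 3 ≤ m) (a b : F) (hab : (∀ z₁ z₂ : F, z₁ ^ 2 + a * z₁ * z₂ + b * z₂ ^ 2 = 0 → z₁ = 0 ∧ z₂ = 0)) (x δ : MulAut (Cfsg.POmega F (Cfsg.quadFormMinus m F a b))) (hx : Cfsg.IsFieldAutClassPOmegaMinus m x) {r : ℕ} (hr : r.Prime) (hxr : orderOf x = r) (hδ : δ ∈ Cfsg.inndiagPOmegaMinus m F a b) :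
    orderOf (δ * x) = r ↔ Cfsg.IsConjUnder (Cfsg.inndiagPOmegaMinus m F a b) x (δ * x) := by
  have hm2 : 2 ≤ m := by omega
  obtain ⟨y, rfl, h1, -⟩ := H68.minus_rep hm2 hab hx hr hxr
  rw [H68.inndiagMinus_eq hm2 hab] at hδ ⊢
  rw [← hxr]
  exact ⟨H68.lang_minus hm2 hab y (hxr.trans h1.symm) δ hδ, H68.IsConjUnder.orderOf_eq⟩

end Cfsg.Agent.S2737
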