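import Cfsg.Statements.S2738
import Cfsg.Agent.H9.SLBasic

set_option autoImplicit false
open Cfsg

namespace Cfsg.Agent.S2738



/-- The special linear group SL(3, 4) has centre of order 3 and does not split over it: no subgroup is a complement to the centre (so SL(3, 4) is a non-split central extension of PSL(3, 4) by a group of order 3). -/
theorem result (F : Type*) [Field F] [Fintype F] (hF : Fintype.card F = 4) : Nat.card ↥(Subgroup.center (Matrix.SpecialLinearGroup (Fin 3) F)) = 3 ∧ ¬ ∃ K : Subgroup (Matrix.SpecialLinearGroup (Fin 3) F), Subgroup.IsComplement' (Subgroup.center (Matrix.SpecialLinearGroup (Fin 3) F)) K := by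
  have hc : Nat.card ↥(Subgroup.center (Matrix.SpecialLinearGroup (Fin 3) F)) = 3 := by
    rw [H9.card_center_sl, hF]; simp
  refine ⟨hc, fun ⟨K, hK⟩ => ?_⟩
  have h1 : commutator (Matrix.SpecialLinearGroup (Fin 3) F) ≤ K := by
    rw [commutator_def, Subgroup.commutator_le]
    intro a _ b _
    obtain ⟨⟨⟨z, hz⟩, ⟨x, hx⟩⟩, rfl⟩ := hK.2 a
    obtain ⟨⟨⟨w, hw⟩, ⟨y, hy⟩⟩, rfl⟩ := hK.2 b
    have h2 := Subgroup.mem_center_iff.1 hz
    have h3 := Subgroup.mem_center_iff.1 hw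
    have : z * x * (w * y) * (z * x)⁻¹ * (w * y)⁻¹ = x * y * x⁻¹ * y⁻¹ := by
      calc z * x * (w * y) * (z * x)⁻¹ * (w * y)⁻¹
          = z * ((x * w) * y * x⁻¹) * z⁻¹ * y⁻¹ * w⁻¹ := by group
        _ = ((x * w) * y * x⁻¹) * z * z⁻¹ * y⁻¹ * w⁻¹ := by rw [h2]
        _ = (w * x) * y * x⁻¹ * y⁻¹ * w⁻¹ := by rw [h3]; group
        _ = w * (x * y * x⁻¹ * y⁻¹) * w⁻¹ := by group
        _ = _ := by rw [← h3]; group
    change z * x * (w * y) * (z * x)⁻¹ * (w * y)⁻¹ ∈ K
    rw [this]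
    exact K.mul_mem (K.mul_mem (K.mul_mem hx hy) (K.inv_mem hx)) (K.inv_mem hy)
  rw [H9.commutator_sl_eq_top (by simp), top_le_iff] at h1
  have h4 := hK.disjoint
  rw [h1, disjoint_top] at h4
  rw [h4, Subgroup.card_bot] at hc
  omega

end Cfsg.Agent.S2738
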