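import Cfsg.Statements.S2739
import Cfsg.Agent.H56.Mod.L34
import Cfsg.Agent.H56.ClsTools

set_option autoImplicit false
open scoped Pointwise
open Cfsg

namespace Cfsg.Agent.S2739

open H14 H56

/-- In the projective special linear group PSL(3, 4) all subgroups of order 3 are conjugate. -/
theorem result (F : Type*) [Field F] [Fintype F] (hF : Fintype.card F = 4) (X Y : Subgroup (Matrix.ProjectiveSpecialLinearGroup (Fin 3) F)) (hX : Nat.card ↥X = 3) (hY : Nat.card ↥Y = 3) : ∃ g : Matrix.ProjectiveSpecialLinearGroup (Fin 3) F, MulAut.conj g • X = Y := by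
  obtain ⟨e⟩ := L34.equiv hF
  obtain ⟨x, hx, rfl⟩ := exists_zpowers_of_prime Nat.prime_three hX
  obtain ⟨y, hy, rfl⟩ := exists_zpowers_of_prime Nat.prime_three hY
  obtain ⟨g, rfl⟩ := isConj_iff.1 (isConj_of_equiv e (isConj_of_order L34.classes (fuel := 10)
    (o := 3) (X := L34.c3a.X) (by decide +kernel) (e x) (e y) (by rw [e.orderOf_eq, hx])
    (by rw [e.orderOf_eq, hy])))
  exact ⟨g, conj_smul_zpowers g x⟩

end Cfsg.Agent.S2739
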