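import Cfsg.Statements.S2763
import Cfsg.Agent.H60.QdSylow

set_option autoImplicit false
open Cfsg

namespace Cfsg.Agent.S2763

/-- In the group Qd(p) (p prime; the natural semidirect product of an elementary abelian group of order p² by SL₂(p)), the normalizer of every nontrivial characteristic subgroup of a Sylow p-subgroup S equals the normalizer of S, which is a proper subgroup; in particular no such characteristic subgroup is normal. -/
theorem result {p : ℕ} [Fact p.Prime] (S : Sylow p ↥(Cfsg.qd p)) (T : Subgroup ↥(S : Subgroup ↥(Cfsg.qd p))) (hT : T ≠ ⊥) (hTc : T.Characteristic) : Subgroup.normalizer ((T.map (S : Subgroup ↥(Cfsg.qd p)).subtype : Subgroup ↥(Cfsg.qd p)) : Set ↥(Cfsg.qd p)) = Subgroup.normalizer ((S : Subgroup ↥(Cfsg.qd p)) : Set ↥(Cfsg.qd p)) ∧ Subgroup.normalizer ((S : Subgroup ↥(Cfsg.qd p)) : Set ↥(Cfsg.qd p)) ≠ ⊤ := by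
  refine ⟨H60.normalizer_char_of_qd (MulEquiv.refl _) S T hT, fun h => ?_⟩
  obtain ⟨ψ, hψ⟩ := H60.exists_equiv_map_eq_qdS (MulEquiv.refl _) S
  apply H60.normalizer_qdS_ne_top (p := p)
  rw [← hψ, ← H60.map_normalizer_equiv, h, Subgroup.map_top_of_surjective _ ψ.surjective]

end Cfsg.Agent.S2763
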