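import Cfsg.Statements.S2779
import Cfsg.Agent.H69.NatMod

set_option autoImplicit false
open Cfsg

namespace Cfsg.Agent.S2779

/-- Let L act on the elementary abelian p-group V (inside a finite group, by conjugation, faithfully) as SL₂(F) on its natural module, F a field with p^n elements, and let S be a Sylow p-subgroup of L. Then [V, S, S] = 1; |V| = p^(2n) and |C_V(S)| = p^n; and for every nonidentity s ∈ S and every v ∈ V outside C_V(S): C_V(s) = C_V(S) = [V, S] = [V, s] = the subgroup generated by the commutators [v, t], t ∈ S. -/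
theorem result {G : Type*} [Group G] [Finite G] {p : ℕ} [Fact p.Prime] {F : Type*} [Field F] [Fintype F] (n : ℕ) (hF : Fintype.card F = p ^ n) (V L : Subgroup G) (hnat : Cfsg.IsNaturalSL2Module F V L) (hf : L ⊓ Subgroup.centralizer (V : Set G) = ⊥) (S : Sylow p ↥L) (T : Subgroup G) (hT : T = ((S : Subgroup ↥L).map L.subtype)) : ⁅⁅V, T⁆, T⁆ = ⊥ ∧ Nat.card V = p ^ (2 * n) ∧ Nat.card ↥(V ⊓ Subgroup.centralizer ((T : Subgroup G) : Set G)) = p ^ n ∧ ∀ s ∈ T, s ≠ 1 → (V ⊓ Subgroup.centralizer ({s} : Set G)) = (V ⊓ Subgroup.centralizer ((T : Subgroup G) : Set G)) ∧ ⁅V, T⁆ = (V ⊓ Subgroup.centralizer ((T : Subgroup G) : Set G)) ∧ ⁅V, Subgroup.zpowers s⁆ = (V ⊓ Subgroup.centralizer ((T : Subgroup G) : Set G)) ∧ ∀ v ∈ V, v ∉ Subgroup.centralizer (T : Set G) → Subgroup.closure {x : G | ∃ t ∈ T, x = v * t * v⁻¹ * t⁻¹} = (V ⊓ Subgroup.centralizer ((T : Subgroup G) : Set G)) := by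
  obtain ⟨N⟩ := H69.exists_natN hF hnat hf S
  rw [← hT] at N
  refine ⟨?_, by rw [N.card_V, hF, ← pow_mul, mul_comm], by rw [N.card_C, hF], fun s hs hs1 => ?_⟩
  · rw [Subgroup.commutator_eq_bot_iff_le_centralizer]
    exact N.commutator_le_C.trans inf_le_right
  obtain ⟨c, hc⟩ := (N.memT ⟨s, N.TL hs⟩).1 hs
  have hc0 : c ≠ 0 := by
    rintro rfl
    rw [H69.up_zero, map_eq_one_iff _ N.bij.1] at hc
    exact hs1 (congrArg Subtype.val hc)
  have h3 : V ⊓ Subgroup.centralizer (T : Set G) ≤ ⁅V, Subgroup.zpowers s⁆ := fun x hx => by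
    obtain ⟨v, hv, e⟩ := N.surj ![0, -N.ψ x 0 / c]
    rw [N.eq_comm_of_mem_C hx hv hc (by rw [e]; simp; field_simp)]
    exact Subgroup.commutator_mem_commutator hv (Subgroup.mem_zpowers s)
  have h4 : ⁅V, Subgroup.zpowers s⁆ ≤ ⁅V, T⁆ :=
    Subgroup.commutator_mono le_rfl (Subgroup.zpowers_le.2 hs)
  refine ⟨le_antisymm (fun v hv => N.mem_C.2 ⟨hv.1, ?_⟩)
    fun v hv => ⟨hv.1, Subgroup.mem_centralizer_singleton_iff.2 (hv.2 s hs).symm⟩,
    le_antisymm N.commutator_le_C (h3.trans h4), le_antisymm (h4.trans N.commutator_le_C) h3,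
    fun v hv hvc => le_antisymm ?_ fun x hx => ?_⟩
  · exact (mul_eq_zero.1 ((N.comm_up_iff hc hv.1).1
      (Subgroup.mem_centralizer_singleton_iff.1 hv.2).symm)).resolve_left hc0
  · rw [Subgroup.closure_le]
    rintro _ ⟨t, ht, rfl⟩
    exact N.commutator_le_C (Subgroup.commutator_mem_commutator hv ht)
  · have h0 : N.ψ v 1 ≠ 0 := fun e => hvc (N.mem_C.2 ⟨hv, e⟩).2
    obtain ⟨l, h1, h2⟩ := N.exists_up (-N.ψ x 0 / N.ψ v 1)
    exact Subgroup.subset_closure ⟨l, h1, N.eq_comm_of_mem_C hx hv h2 (by field_simp)⟩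

end Cfsg.Agent.S2779
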