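import Cfsg.Statements.S2780
import Cfsg.Agent.H69.NatMod
import Cfsg.Agent.H69.PSLRankOne
import Cfsg.Agent.H66.SL2Order

set_option autoImplicit false
open Cfsg

namespace Cfsg.Agent.S2780

/-- Let L act on the elementary abelian p-group V (inside a finite group, faithfully) as SL₂(F) on its natural module, F a field with p^n elements, S a Sylow p-subgroup of L. Then: for every g ∈ L not normalizing S, V is the internal direct product of C_V(S) and C_V(gSg⁻¹); every nonidentity element of L of order prime to p acts on V without nonidentity fixed points; and C_V(S) and V/C_V(S) are irreducible for N_L(S): the only N_L(S)-invariant subgroups of C_V(S) are 1 and C_V(S), and the only N_L(S)-invariant subgroups between C_V(S) and V are those two. -/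
theorem result {G : Type*} [Group G] [Finite G] {p : ℕ} [Fact p.Prime] {F : Type*} [Field F] [Fintype F] (n : ℕ) (hF : Fintype.card F = p ^ n) (V L : Subgroup G) (hnat : Cfsg.IsNaturalSL2Module F V L) (hf : L ⊓ Subgroup.centralizer (V : Set G) = ⊥) (S : Sylow p ↥L) (T : Subgroup G) (hT : T = ((S : Subgroup ↥L).map L.subtype)) : (∀ g ∈ L, g ∉ Subgroup.normalizer (T : Set G) → Cfsg.IsInternalDirectProduct (V ⊓ Subgroup.centralizer ((T : Subgroup G) : Set G)) (V ⊓ Subgroup.centralizer ((T.map (MulAut.conj g).toMonoidHom : Subgroup G) : Set G)) V) ∧ (∀ x ∈ L, x ≠ 1 → (orderOf x).Coprime p → (V ⊓ Subgroup.centralizer ({x} : Set G)) = ⊥) ∧ (∀ U : Subgroup G, U ≤ (V ⊓ Subgroup.centralizer ((T : Subgroup G) : Set G)) → L ⊓ Subgroup.normalizer (T : Set G) ≤ Subgroup.normalizer (U : Set G) → U = ⊥ ∨ U = (V ⊓ Subgroup.centralizer ((T : Subgroup G) : Set G))) ∧ (∀ U : Subgroup G, (V ⊓ Subgroup.centralizer ((T : Subgroup G) :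 Set G)) ≤ U → U ≤ V → L ⊓ Subgroup.normalizer (T : Set G) ≤ Subgroup.normalizer (U : Set G) → U = (V ⊓ Subgroup.centralizer ((T : Subgroup G) : Set G)) ∨ U = V) := by
  obtain ⟨N⟩ := H69.exists_natN hF hnat hf S
  rw [← hT] at N
  haveI : CharP F p := charP_of_card_eq_prime_pow hF
  have hdg : ∀ (a : F), a ≠ 0 → ∃ l : L, (l : G) ∈ L ⊓ Subgroup.normalizer (T : Set G) ∧
      ∀ v ∈ V, N.ψ (l * v * (l : G)⁻¹) = ![a * N.ψ v 0, a⁻¹ * N.ψ v 1] := fun a ha => by
    obtain ⟨l, hl⟩ := N.bij.2 (H69.dg a ha)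
    refine ⟨l, ⟨l.2, N.mem_normalizer_of_lower (by rw [hl]; rfl)⟩, fun v hv => ?_⟩
    rw [N.equiv l v hv, hl]
    ext i; fin_cases i <;> simp [H69.mulVec_two, H69.dg00, H69.dg01, H69.dg10, H69.dg11]
  refine ⟨fun g hg hgn => ?_, fun x hx h1 hc => ?_, fun U hU hn => ?_, fun U hU hUV hn => ?_⟩
  · have h0 : (N.ρ ⟨g, hg⟩).1 1 0 ≠ 0 := fun e => hgn (N.mem_normalizer_of_lower e)
    have hm : ∀ v, v ∈ V ⊓ Subgroup.centralizer ((T.map (MulAut.conj g).toMonoidHom : Subgroup G) : Set G) ↔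
        v ∈ V ∧ (N.ρ ⟨g, hg⟩).1 1 0 * N.ψ v 0 = (N.ρ ⟨g, hg⟩).1 0 0 * N.ψ v 1 := fun v => by
      rw [H69.map_conj_eq_cj, ← H69.cj_centralizer]
      refine and_congr_right fun hv => ?_
      have e := N.equiv ⟨g, hg⟩⁻¹ v hv
      have e' := N.conj_mem ⟨g, hg⟩⁻¹ hv
      simp only [InvMemClass.coe_inv, inv_inv] at e e'
      have := N.mem_C (v := g⁻¹ * v * g)
      rw [Subgroup.mem_inf, and_iff_right e', and_iff_right e', e, H69.mulVec_two, map_inv,
        H69.sl2_inv10, H69.sl2_inv11] at this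
      refine H69.mem_cj.trans (this.trans ⟨fun h => ?_, fun h => ?_⟩)
      · linear_combination -h
      · linear_combination -h
    refine ⟨inf_le_left, inf_le_left, fun a ha b hb => N.comm ha.1 hb.1, eq_bot_iff.2 fun v hv => ?_,
      le_antisymm (sup_le inf_le_left inf_le_left) fun v hv => ?_⟩
    · obtain ⟨h1, h2⟩ := N.mem_C.1 hv.1
      have h3 := ((hm v).1 hv.2).2
      rw [h2, mul_zero, mul_eq_zero] at h3
      exact N.eq_one h1 (by ext i; fin_cases i; exacts [h3.resolve_left h0, h2])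
    · obtain ⟨w, hw, e⟩ := N.surj ![(N.ρ ⟨g, hg⟩).1 0 0 * N.ψ v 1 / (N.ρ ⟨g, hg⟩).1 1 0, N.ψ v 1]
      rw [← inv_mul_cancel_right v w, mul_assoc v, ← mul_assoc]
      refine Subgroup.mul_mem _ (Subgroup.mem_sup_left (N.mem_C.2 ⟨V.mul_mem hv (V.inv_mem hw), ?_⟩))
        (Subgroup.mem_sup_right ((hm w).2 ⟨hw, ?_⟩))
      · rw [N.mul _ hv _ (V.inv_mem hw), N.inv hw, e]; simp
      · rw [e]; simp; field_simp
  · rw [eq_bot_iff]
    intro v hv
    by_contra hv1
    have e := (N.comm_iff ⟨x, hx⟩ hv.1).1 (Subgroup.mem_centralizer_singleton_iff.1 hv.2).symm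
    have e0 := congrFun e 0
    have e1 := congrFun e 1
    rw [H69.mulVec_two] at e0 e1
    have hd := H69.sl2_det (N.ρ ⟨x, hx⟩)
    have ht : H66.tr2 (N.ρ ⟨x, hx⟩) = 2 := by
      by_contra ht
      refine hv1 (N.eq_one hv.1 ?_)
      rw [H66.tr2, ← Ne, ← sub_ne_zero] at ht
      ext i; fin_cases i
      · exact mul_left_cancel₀ ht (show _ * N.ψ v 0 = _ * 0 by
          linear_combination (N.ψ v 0) * hd - ((N.ρ ⟨x, hx⟩).1 1 1 - 1) * e0 + (N.ρ ⟨x, hx⟩).1 0 1 * e1)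
      · exact mul_left_cancel₀ ht (show _ * N.ψ v 1 = _ * 0 by
          linear_combination (N.ψ v 1) * hd - ((N.ρ ⟨x, hx⟩).1 0 0 - 1) * e1 + (N.ρ ⟨x, hx⟩).1 1 0 * e0)
    have h2 := H66.pow_char_of_tr2_eq_two p ht
    rw [← map_pow, map_eq_one_iff _ N.bij.1] at h2
    have h3 : orderOf x ∣ p := orderOf_dvd_of_pow_eq_one (congrArg Subtype.val h2)
    exact h1 (orderOf_eq_one_iff.1 (Nat.eq_one_of_dvd_coprimes hc dvd_rfl h3))
  · rw [or_iff_not_imp_left]
    intro h1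
    obtain ⟨⟨u, hu⟩, hu1⟩ := Subgroup.ne_bot_iff_exists_ne_one.1 h1
    obtain ⟨a1, a2⟩ := N.mem_C.1 (hU hu)
    have a3 : N.ψ u 0 ≠ 0 := fun e => hu1 (Subtype.ext (N.eq_one a1 (by
      ext i; fin_cases i; exacts [e, a2])))
    refine le_antisymm hU fun w hw => ?_
    obtain ⟨b1, b2⟩ := N.mem_C.1 hw
    by_cases b3 : N.ψ w 0 = 0
    · rw [N.eq_one b1 (by ext i; fin_cases i; exacts [b3, b2])]; exact U.one_mem
    obtain ⟨l, hl, e⟩ := hdg _ (div_ne_zero b3 a3)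
    rw [N.inj w b1 _ (N.conj_mem l a1) (by
      rw [e u a1]; ext i; fin_cases i <;> simp [a2, b2, a3])]
    exact H69.conj_mem_of_mem_normalizer (hn hl) hu
  · rw [or_iff_not_imp_left]
    intro h1
    obtain ⟨u, hu, hu1⟩ := SetLike.exists_of_lt (lt_of_le_of_ne hU (Ne.symm h1))
    have a3 : N.ψ u 1 ≠ 0 := fun e => hu1 (N.mem_C.2 ⟨hUV hu, e⟩)
    refine le_antisymm hUV fun w hw => ?_
    by_cases b3 : N.ψ w 1 = 0
    · exact hU (N.mem_C.2 ⟨hw, b3⟩)
    obtain ⟨l, hl, e⟩ := hdg _ (div_ne_zero a3 b3)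
    have c1 := N.conj_mem l (hUV hu)
    rw [← inv_mul_cancel_right w (l * u * (l : G)⁻¹)]
    refine U.mul_mem (hU (N.mem_C.2 ⟨V.mul_mem hw (V.inv_mem c1), ?_⟩))
      (H69.conj_mem_of_mem_normalizer (hn hl) hu)
    rw [N.mul _ hw _ (V.inv_mem c1), N.inv c1, e u (hUV hu)]
    simp [a3]

end Cfsg.Agent.S2780
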