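import Cfsg.Statements.S2788
import Cfsg.Agent.H69.GenPSL
-- import your own Cfsg.Agent.* helpers here

set_option autoImplicit false
open Cfsg

namespace Cfsg.Agent.S2788
open Subgroup Matrix

/-- Let H act faithfully by conjugation on the elementary abelian p-subgroup V of a finite group with H ≅ SL₂(F), F a field with p^n elements, S a Sylow p-subgroup of H, and A ≤ S a subgroup of order at least 3 acting quadratically on V ([V, A, A] = 1). Then |V/C_V(a)| ≥ p^n for every nonidentity a ∈ A. -/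
theorem result {G : Type*} [Group G] [Finite G] {p : ℕ} [Fact p.Prime] (V H : Subgroup G) (hV : Cfsg.IsElementaryAbelian p V) (hHV : H ≤ Subgroup.normalizer (V : Set G)) (hf : H ⊓ Subgroup.centralizer (V : Set G) = ⊥) {F : Type*} [Field F] [Fintype F] (n : ℕ) (hF : Fintype.card F = p ^ n) (hiso : Nonempty (↥H ≃* Matrix.SpecialLinearGroup (Fin 2) F)) (S : Sylow p ↥H) (T : Subgroup G) (hT : T = ((S : Subgroup ↥H).map H.subtype)) (A : Subgroup G) (hA : A ≤ T) (hA3 : 3 ≤ Nat.card A) (hquad : ⁅⁅V, A⁆, A⁆ = ⊥) : ∀ a ∈ A, a ≠ 1 → p ^ n ≤ ((V ⊓ Subgroup.centralizer ({a} : Set G))).relIndex V := by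
  obtain ⟨e⟩ := hiso
  subst hT
  intro a ha h1
  have hp : p.Prime := Fact.out
  have hVp : IsPGroup p V := H69.isPGroup_of_elemAb hV.2
  haveI : CharP F p := charP_of_card_eq_prime_pow hF
  obtain ⟨s, hs, rfl⟩ := hA ha
  rcases Nat.lt_or_ge n 2 with hn | hn
  · have hne : (V ⊓ centralizer ({H.subtype s} : Set G)).relIndex V ≠ 1 := by
      intro h
      rw [relIndex_eq_one] at h
      have : H.subtype s ∈ H ⊓ centralizer (V : Set G) :=
        ⟨s.2, fun v hv => mem_centralizer_singleton_iff.1 (h hv).2⟩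
      rw [hf] at this
      exact h1 this
    obtain ⟨k, hk⟩ := hVp.exists_card_eq
    have hd : (V ⊓ centralizer ({H.subtype s} : Set G)).relIndex V ∣ p ^ k := by
      rw [← hk]; exact relIndex_dvd_card _ _
    obtain ⟨d, -, hd⟩ := (Nat.dvd_prime_pow hp).1 hd
    rw [hd] at hne ⊢
    refine Nat.pow_le_pow_right hp.pos ?_
    rcases d with _ | d
    · simp at hne
    · omega
  · obtain ⟨m, h, hm, ho⟩ := H69.exists_primPow hp hn
    rw [← hF, ← Nat.card_eq_fintype_card] at hm
    obtain ⟨k, hk⟩ := S.isPGroup' ⟨s, hs⟩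
    have hk' : s ^ p ^ k = 1 := congrArg Subtype.val hk
    have hs1 : s ≠ 1 := fun h => h1 (by rw [h, map_one])
    obtain ⟨j, hj⟩ := H69.exists_pow_orderOf_eq hs1 hk'
    let φ : H →* ProjectiveSpecialLinearGroup (Fin 2) F := (H66.toPSL F).comp e.toMonoidHom
    have hφ : Function.Surjective φ := H66.toPSL_surjective.comp e.surjective
    have ho' : orderOf (φ (s ^ j)) = p := by
      refine orderOf_eq_prime (by
        rw [← map_pow, show (s ^ j) ^ p = 1 from hj ▸ pow_orderOf_eq_one _, map_one]) fun h2 => ?_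
      have h3 : orderOf (e (s ^ j)) = p := by rw [MulEquiv.orderOf_eq, hj]
      have h4 : e (s ^ j) ≠ 1 := fun h5 => hp.one_lt.ne (by rw [← h3, h5, orderOf_one])
      rcases (H66.toPSL_eq_one_iff _).1 h2 with h5 | h5
      · exact h4 h5
      · have h6 : e (s ^ j) = -1 := h5
        have h7 : p ∣ 2 := by
          rw [← h3]; apply orderOf_dvd_of_pow_eq_one; rw [h6]; simp
        obtain rfl : p = 2 := (Nat.prime_dvd_prime_iff_eq hp Nat.prime_two).1 h7
        apply h4
        rw [h6]
        ext i j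
        simp [CharTwo.neg_eq]
    obtain ⟨l, hl, hml⟩ := H69.psl2_pair p hm ho h.one_lt _ ho'
    have := h.bound_list hVp hHV hf φ hφ (s ^ j) l hml
    rw [hl, mul_comm, pow_mul] at this
    exact ((Nat.pow_le_pow_iff_left two_ne_zero).1 this).trans (H69.relIndex_cent_pow_le V s j)


end Cfsg.Agent.S2788
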