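import Cfsg.Statements.S2856
import Cfsg.Agent.H69.VIter

set_option autoImplicit false
open Cfsg

namespace Cfsg.Agent.S2856

/-- Let (M₁, M₂) be an amalgam pair in X satisfying the rank-two standing hypothesis (characteristic p, the normalizers in M₁ and in M₂ of a Sylow p-subgroup of M₁ ∩ M₂ equal and contained in M₁ ∩ M₂, and strongly p-embedded residues), λ a vertex of the coset graph, L_λ the subgroup of its stabilizer generated by the p-elements, Q_λ = O_p of the stabilizer, O^p(L_λ) the subgroup of L_λ generated by its elements of order prime to p, and V_λ^{(k)} the subgroup generated by the Z_μ over the vertices μ at distance at most k from λ (Z_μ being generated by the Ω₁(Z(S)), S a Sylow p-subgroup of the stabilizer of μ). If n ≥ 1 and V_λ^{(n)} ≤ Q_λ, then O^p(L_λ) does not centralize V_λ^{(n)}/[V_λ^{(n)}, Q_λ], that is, [V_λ^{(n)}, O^p(L_λ)] is not contained in [V_λ^{(n)}, Q_λ]. -/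
theorem result {X : Type*} [Group X] {p : ℕ} [Fact p.Prime] (M₁ M₂ : Subgroup X) (h : Cfsg.IsSpeAmalgamPair p M₁ M₂) (lam : Cfsg.CosetVertex M₁ M₂) (n : ℕ) (hn : 1 ≤ n) (V : Subgroup X) (hV : V = Cfsg.vertexVIter p M₁ M₂ n lam) (hVQ : V ≤ Cfsg.vertexQ p lam) : ¬ ⁅V, ((Cfsg.pResidual p ↥(Cfsg.pElementClosure p (MulAction.stabilizer X lam))).map (Cfsg.pElementClosure p (MulAction.stabilizer X lam)).subtype)⁆ ≤ ⁅V, Cfsg.vertexQ p lam⁆ := by
  intro hc
  obtain ⟨n, rfl⟩ : ∃ k, n = k + 1 := ⟨n - 1, by omega⟩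
  have hcon := H69.connected h.1.1.1
  obtain ⟨μ, hμ⟩ := H69.exists_adj lam
  have h1 := H69.vIter_le_of_adj (p := p) hcon hμ n
  have nV := H69.norm_vIter (p := p) (n + 1) lam
  have nU := H69.norm_vIter (p := p) n μ
  rw [← hV] at h1 nV
  have hQ := H69.vertexQ_le_neighbourKernel h.1 lam
  have hQ1 := hQ.trans (H69.neighbourKernel_le _)
  have hQ2 := hQ.trans (H69.neighbourKernel_le_of_adj hμ)
  have := H69.finite_stabilizer h.1 lam
  have := H69.finite_of_le hQ1
  have hC : ⁅V, vertexQ p lam⁆ ≤ V := Subgroup.le_normalizer_iff_commutator_le_left.1 (hQ1.trans nV)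
  have nW : MulAction.stabilizer X lam ≤
      Subgroup.normalizer ((vertexVIter p M₁ M₂ n μ ⊔ ⁅V, vertexQ p lam⁆ : Subgroup X) : Set X) := by
    refine H69.spe_stabilizer_le h hμ
      (H69.le_normalizer_of_comm_le (sup_le h1 hC) (hc.trans le_sup_right)) fun g hg => ?_
    rw [← H69.cj_eq_self_iff, H69.cj_sup, H69.cj_commutator, H69.cj_eq_of_mem_normalizer (nU hg.2),
      H69.cj_eq_of_mem_normalizer (nV hg.1),
      H69.cj_eq_of_mem_normalizer (H69.le_normalizer_pCoreOf _ hg.1)]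
  have h2 : V ≤ vertexVIter p M₁ M₂ n μ ⊔ ⁅V, vertexQ p lam⁆ := by
    conv_lhs => rw [hV]
    refine H69.vIter_succ_le h.1 fun ν hν => ?_
    obtain ⟨g, hg, rfl⟩ := H69.exists_smul_eq_of_adj hμ hν
    have h3 := H69.cj_vIter_le (p := p) g⁻¹ n (g • μ)
    rw [inv_smul_smul, H69.cj_le_iff, inv_inv] at h3
    exact h3.trans (H69.cj_le_of_mem_normalizer (nW hg) le_sup_left)
  have h3 := le_antisymm (H69.le_of_le_sup_comm (H69.isPGroup_pCoreOf _) hVQ h1 (hQ2.trans nU)
    (hQ1.trans nV) h2) h1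
  exact H69.vIter_ne_bot h.1 n μ (h3 ▸ H69.eq_bot_of_normalized h.1.1 hμ
    (le_inf (hVQ.trans hQ1) (hVQ.trans hQ2)) nV (h3 ▸ nU))

end Cfsg.Agent.S2856
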