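import Cfsg.Statements.S2857
import Cfsg.Agent.H69.VIter

set_option autoImplicit false
open Cfsg

namespace Cfsg.Agent.S2857

/-- Let (M₁, M₂) be an amalgam pair in X satisfying the rank-two standing hypothesis (characteristic p, the normalizers in M₁ and in M₂ of a Sylow p-subgroup of M₁ ∩ M₂ equal and contained in M₁ ∩ M₂, and strongly p-embedded residues), λ a vertex of the coset graph, L_λ the subgroup of its stabilizer generated by the p-elements, Q_λ = O_p of the stabilizer, O^p(L_λ) the subgroup of L_λ generated by its elements of order prime to p, and V_λ^{(k)} the subgroup generated by the Z_μ over the vertices μ at distance at most k from λ (Z_μ being generated by the Ω₁(Z(S)), S a Sylow p-subgroup of the stabilizer of μ). If n ≥ 2 and V_λ^{(n)} ≤ Q_λ, then O^p(L_λ) does not centralize V_λ^{(n)}/V_λ^{(n-2)}, that is, [V_λ^{(n)}, O^p(L_λ)] is not contained in V_λ^{(n-2)}. -/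
theorem result {X : Type*} [Group X] {p : ℕ} [Fact p.Prime] (M₁ M₂ : Subgroup X) (h : Cfsg.IsSpeAmalgamPair p M₁ M₂) (lam : Cfsg.CosetVertex M₁ M₂) (n : ℕ) (hn : 2 ≤ n) (hVQ : Cfsg.vertexVIter p M₁ M₂ n lam ≤ Cfsg.vertexQ p lam) : ¬ ⁅Cfsg.vertexVIter p M₁ M₂ n lam, ((Cfsg.pResidual p ↥(Cfsg.pElementClosure p (MulAction.stabilizer X lam))).map (Cfsg.pElementClosure p (MulAction.stabilizer X lam)).subtype)⁆ ≤ Cfsg.vertexVIter p M₁ M₂ (n - 2) lam := by
  intro hc
  obtain ⟨n, rfl⟩ : ∃ k, n = k + 2 := ⟨n - 2, by omega⟩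
  rw [Nat.add_sub_cancel] at hc
  have hcon := H69.connected h.1.1.1
  obtain ⟨μ, hμ⟩ := H69.exists_adj lam
  have h1 := H69.vIter_le_of_adj (p := p) hcon hμ (n + 1)
  have h2 := H69.vIter_le_of_adj (p := p) hcon hμ.symm n
  have hQ := h1.trans (hVQ.trans (H69.vertexQ_le_neighbourKernel h.1 lam))
  refine H69.vIter_ne_bot h.1 (n + 1) μ (H69.eq_bot_of_normalized h.1.1 hμ
    (le_inf (hQ.trans (H69.neighbourKernel_le _)) (hQ.trans (H69.neighbourKernel_le_of_adj hμ)))
    (H69.spe_stabilizer_le h hμ (H69.le_normalizer_of_comm_le h1 (hc.trans h2))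
      (inf_le_right.trans (H69.norm_vIter _ _))) (H69.norm_vIter _ _))

end Cfsg.Agent.S2857
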