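import Cfsg.Statements.S2946
import Cfsg.Agent.H4.JC1

set_option autoImplicit false
open Cfsg

namespace Cfsg.Agent.S2946

/-- Let G be a finite group of characteristic 2 type in which every 2-local subgroup is solvable and the centralizer of Ω₁(Z(S)) lies in N_G(S) for every Sylow 2-subgroup S, and let T be a nontrivial 2-subgroup (below, J is the Thompson subgroup generated by the elementary abelian 2-subgroups of largest order), K a J(T)-component and Z₀ = Ω₁(Z(J(T))). Then Z₀ meets W_K = [Ω₁(Z(O₂(K))), K] in a subgroup of order 2, and Z₀ is the product of Z₀ ∩ Z(⟨K, J(T)⟩) and Z₀ ∩ W_K. -/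
theorem result {G : Type*} [Group G] [Finite G] (hL : Cfsg.IsCharacteristicTwoType G) (hN : ∀ N : Subgroup G, Cfsg.IsTwoLocal N → Group.IsSolvable ↥N)
    (hZ : ∀ S : Sylow 2 G, Subgroup.centralizer (Cfsg.omegaCenterOf (S : Subgroup G) : Set G) ≤ Subgroup.normalizer ((S : Subgroup G) : Set G)) (T : Subgroup G) (hT : IsPGroup 2 ↥T) (hT1 : T ≠ ⊥) (K : Subgroup G) (hK : Cfsg.IsJComponent T K)
    (Z₀ : Subgroup G) (hZ₀ : Z₀ = Cfsg.omegaCenterOf (Cfsg.thompsonSubgroupOf 2 T)) :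
    Nat.card ↥(Z₀ ⊓ Cfsg.wOf K) = 2 ∧
      (Z₀ ⊓ ((K ⊔ Cfsg.thompsonSubgroupOf 2 T) ⊓ Subgroup.centralizer ((K ⊔ Cfsg.thompsonSubgroupOf 2 T) : Set G))) ⊔ (Z₀ ⊓ Cfsg.wOf K) = Z₀ := by
  have h := (H4.isJComponent_iff hT).1 hK
  subst hZ₀
  refine ⟨h.card_oz_inf_w, ?_⟩
  have e : Subgroup.centralizer ((K ⊔ Cfsg.thompsonSubgroupOf 2 T) : Set G) =
      Subgroup.centralizer (K : Set G) ⊓
        Subgroup.centralizer (Cfsg.thompsonSubgroupOf 2 T : Set G) := by
    ext x
    simp only [Subgroup.mem_centralizer_iff, Subgroup.mem_inf, Set.sup_eq_union, Set.mem_union]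
    exact ⟨fun hx => ⟨fun g hg => hx g (Or.inl hg), fun g hg => hx g (Or.inr hg)⟩,
      fun hx g hg => hg.elim (hx.1 g) (hx.2 g)⟩
  rw [e]
  refine le_antisymm (sup_le inf_le_left inf_le_left) (h.oz_eq_sup.ge.trans ?_)
  refine sup_le_sup_right (le_inf inf_le_left (le_inf ?_ (le_inf inf_le_right ?_))) _
  · exact inf_le_left.trans ((H70.oz_le _).trans le_sup_right)
  · exact inf_le_left.trans (H70.oz_le_cent _)

end Cfsg.Agent.S2946
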