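import Cfsg.Statements.S2953
import Cfsg.Agent.H4.JC5

set_option autoImplicit false
open Cfsg

namespace Cfsg.Agent.S2953

open Subgroup Cfsg.Agent.H4 Cfsg.Agent.H70 in
theorem side {G : Type*} [Group G] [Finite G] (hG : ZN G) {T K₁ K₂ : Subgroup G}
    (f : Fin2 T K₁ K₂) :
    centralizer (pCoreOf 2 (K₁ ⊔ T) : Set G) ≤ pCoreOf 2 (K₁ ⊔ T) ∧ IsSylowTwoIn T (K₁ ⊔ T) ∧
    (pCoreOf 2 (K₁ ⊔ T)).relIndex (K₁ ⊔ T) = 6 ∧ ¬ ⁅K₁ ⊔ T, K₁ ⊔ T⁆ ≤ pCoreOf 2 (K₁ ⊔ T) ∧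
    ⁅omegaCenterOf T, K₁ ⊔ T⁆ ≠ ⊥ ∧
    ∃ L : Subgroup G, IsMaximalTwoLocal L ∧ K₁ ⊔ T ≤ L ∧ IsSylowTwoIn T L ∧
      ∀ L' : Subgroup G, IsMaximalTwoLocal L' → K₁ ⊔ T ≤ L' → L' = L := by
  refine ⟨f.t1.cent_core_le hG, sylIn_iff_two.2 f.t1.syl, ?_, fun a => ?_, fun a => ?_,
    K₁ ⊔ T, f.t1.max, le_rfl, sylIn_iff_two.2 f.t1.syl, fun L' a b => f.t1.max.2 L' a.1 b⟩
  · rw [← relIndex_mul_relIndex _ T _ f.pair.p1.core_le le_sup_right, f.pair.p1.i2, f.pair.p1.i3]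
  · refine f.t1.jc.k3.not_isPGroup ((pCoreOf_isPGroup (K₁ ⊔ T)).to_le (le_trans ?_ a))
    conv_lhs => rw [← f.t1.jc.comm]
    exact commutator_mono le_sup_left ((thom_le T).trans le_sup_right)
  · exact f.t1.not_le_cent f.oz (le_sup_left.trans (comm_eq_bot_iff'.1 a))

/-- Let G be a finite group of characteristic 2 type in which every 2-local subgroup is solvable and the centralizer of Ω₁(Z(S)) lies in N_G(S) for every Sylow 2-subgroup S; suppose O₂(G) = 1, fix a Sylow 2-subgroup S and a 2-local subgroup M containing N_G(J(S)) (J the Thompson subgroup generated by the elementary abelian 2-subgroups of largest order). Let T be maximal (for the order of a largest elementary abelian subgroup, then the order of J(T), then the order of T) among the nontrivial 2-subgroups of M lying in a 2-local subgroup not inside M. Then there are two distinct J(T)-components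 K₁, K₂ such that, with Pᵢ = ⟨Kᵢ, T⟩: C_G(O₂(Pᵢ)) ≤ O₂(Pᵢ), T is a Sylow 2-subgroup of Pᵢ, O₂(Pᵢ) has index 6 in Pᵢ with Pᵢ/O₂(Pᵢ) non-abelian, [Ω₁(Z(T)), Pᵢ] ≠ 1, O₂(⟨P₁, P₂⟩) = 1, and each Pᵢ lies in exactly one maximal 2-local subgroup Lᵢ of G, in which T is a Sylow 2-subgroup. -/
theorem result {G : Type*} [Group G] [Finite G] (hL : Cfsg.IsCharacteristicTwoType G) (hN : ∀ N : Subgroup G, Cfsg.IsTwoLocal N → Group.IsSolvable ↥N)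
    (hZ : ∀ S : Sylow 2 G, Subgroup.centralizer (Cfsg.omegaCenterOf (S : Subgroup G) : Set G) ≤ Subgroup.normalizer ((S : Subgroup G) : Set G)) (hO : Cfsg.pCore 2 G = ⊥) (S : Sylow 2 G) (M : Subgroup G) (hM : Cfsg.IsTwoLocal M)
    (hMJ : Subgroup.normalizer (Cfsg.thompsonSubgroupOf 2 (S : Subgroup G) : Set G) ≤ M) (T : Subgroup G) (hT : T ∈ Cfsg.maxStraddlingTwoSubgroups M) :
    ∃ K₁ K₂ : Subgroup G, K₁ ≠ K₂ ∧ Cfsg.IsJComponent T K₁ ∧ Cfsg.IsJComponent T K₂ ∧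
      Cfsg.pCoreOf 2 ((K₁ ⊔ T) ⊔ (K₂ ⊔ T)) = ⊥ ∧
      ∀ P ∈ [K₁ ⊔ T, K₂ ⊔ T],
        Subgroup.centralizer (Cfsg.pCoreOf 2 P : Set G) ≤ Cfsg.pCoreOf 2 P ∧ Cfsg.IsSylowTwoIn T P ∧
        (Cfsg.pCoreOf 2 P).relIndex P = 6 ∧ ¬ ⁅P, P⁆ ≤ Cfsg.pCoreOf 2 P ∧ ⁅Cfsg.omegaCenterOf T, P⁆ ≠ ⊥ ∧
        ∃ L : Subgroup G, Cfsg.IsMaximalTwoLocal L ∧ P ≤ L ∧ Cfsg.IsSylowTwoIn T L ∧
          ∀ L' : Subgroup G, Cfsg.IsMaximalTwoLocal L' → P ≤ L' → L' = L := by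
  have hG := H4.zn_of hL hN hZ
  have h := H4.tmax_of_mem (H92.sylIn_top S) hMJ hT
  obtain ⟨K₁, K₂, f⟩ := h.exists_fin2 hG hO
  refine ⟨K₁, K₂, fun e => f.ne (by rw [e]), (H4.isJComponent_iff h.pT).2 f.t1.jc,
    (H4.isJComponent_iff h.pT).2 f.t2.jc, ?_, fun P hP => ?_⟩
  · exact f.t1.core_eq_bot f.t2 f.ne (H70.pCoreOf_isPGroup _)
      (le_sup_left.trans (H70.le_norm_pCoreOf _)) (le_sup_right.trans (H70.le_norm_pCoreOf _))
  · simp only [List.mem_cons, List.not_mem_nil, or_false] at hP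
    rcases hP with rfl | rfl
    · exact side hG f
    · exact side hG f.symm

end Cfsg.Agent.S2953
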