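import Cfsg.Statements.S3084
import Cfsg.Agent.H62.Cliff
import Cfsg.Agent.H57.ES

set_option autoImplicit false
open Cfsg

namespace Cfsg.Agent.S3084

open Matrix Cfsg.Agent.H62.Cliff

section
variable {K : Type*} [Group K] {V : Type} [AddCommGroup V] [Module (ZMod 2) V] [Fintype V]
  [DecidableEq V] (β : V →ₗ[ZMod 2] V →ₗ[ZMod 2] ZMod 2) (ρ : Representation (ZMod 2) K V)

/-- `g` induces `k` -/
def Ind (g : Matrix V V ℝ) (k : K) : Prop := ∀ u, ∃ ε, g * L β u = sg ε • (L β (ρ k u) * g)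

theorem Ind.mul {g h : Matrix V V ℝ} {k l : K} (hg : Ind β ρ g k) (hh : Ind β ρ h l) :
    Ind β ρ (g * h) (k * l) := by
  intro u
  obtain ⟨ε, h1⟩ := hh u
  obtain ⟨ε', h2⟩ := hg (ρ l u)
  refine ⟨ε + ε', ?_⟩
  rw [mul_assoc, h1, mul_smul_comm, ← mul_assoc, h2, smul_mul_assoc, smul_smul, ← sg_add, map_mul,
    Module.End.mul_apply, mul_assoc]

theorem Ind.unique (hρ : Function.Injective ρ) {g : Matrix V V ℝ} (ho : gᵀ * g = 1) {k l : K}
    (hk : Ind β ρ g k) (hl : Ind β ρ g l) : k = l := by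
  apply hρ
  ext u
  obtain ⟨ε, h1⟩ := hk u
  obtain ⟨ε', h2⟩ := hl u
  have h3 := congrArg (· * gᵀ) (h1.symm.trans h2)
  simp only [smul_mul_assoc, mul_assoc, mul_eq_one_comm.1 ho, mul_one] at h3
  exact (L_inj β h3).2

/-- the group -/
def R : Subgroup (GL V ℝ) where
  carrier := {g | (g : Matrix V V ℝ) ∈ A β ∧ (g : Matrix V V ℝ)ᵀ * g = 1 ∧ ∃ k, Ind β ρ g k}
  one_mem' := ⟨one_mem _, by simp, 1, fun u => ⟨0, by simp⟩⟩
  mul_mem' := by
    rintro g h ⟨g1, g2, k, g3⟩ ⟨h1, h2, l, h3⟩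
    refine ⟨mul_mem g1 h1, ?_, k * l, g3.mul β ρ h3⟩
    rw [Units.val_mul, transpose_mul, mul_assoc, ← mul_assoc _ (g : Matrix V V ℝ), g2, one_mul, h2]
  inv_mem' := by
    rintro g ⟨g1, g2, k, g3⟩
    have e : ((g⁻¹ : GL V ℝ) : Matrix V V ℝ) = (g : Matrix V V ℝ)ᵀ :=
      Units.inv_eq_of_mul_eq_one_left g2
    have g4 := mul_eq_one_comm.1 g2
    refine ⟨e ▸ transpose_mem g1, by rw [e, transpose_transpose, g4], k⁻¹, fun u => ?_⟩
    obtain ⟨ε, h⟩ := g3 (ρ k⁻¹ u)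
    refine ⟨ε, ?_⟩
    rw [← Module.End.mul_apply, ← map_mul, mul_inv_cancel, map_one, Module.End.one_apply] at h
    have h2 := congrArg (fun x => (g : Matrix V V ℝ)ᵀ * x * (g : Matrix V V ℝ)ᵀ) h
    simp only [smul_mul_assoc, mul_smul_comm, mul_assoc, g4, mul_one] at h2
    rw [← mul_assoc, g2, one_mul] at h2
    rw [e, h2, smul_smul, sg_mul_self, one_smul]

/-- the map onto `K` -/
noncomputable def pi (hρ : Function.Injective ρ) : R β ρ →* K :=
  MonoidHom.mk' (fun g => g.2.2.2.choose) fun g h =>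
    Ind.unique β ρ hρ (g * h).2.2.1 (g * h).2.2.2.choose_spec
      (g.2.2.2.choose_spec.mul β ρ h.2.2.2.choose_spec)

theorem pi_spec (hρ : Function.Injective ρ) (g : R β ρ) :
    Ind β ρ ((g : GL V ℝ) : Matrix V V ℝ) (pi β ρ hρ g) := g.2.2.2.choose_spec

theorem pi_eq (hρ : Function.Injective ρ) {g : R β ρ} {k : K}
    (h : Ind β ρ ((g : GL V ℝ) : Matrix V V ℝ) k) : pi β ρ hρ g = k :=
  Ind.unique β ρ hρ g.2.2.1 (pi_spec β ρ hρ g) h

theorem orth (ε : ZMod 2) (w : V) : (sg ε • L β w)ᵀ * (sg ε • L β w) = 1 := by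
  rw [transpose_smul, smul_mul_smul_comm, L_tm, sg_mul_self, one_smul]

theorem ind_one (ε : ZMod 2) (w : V) : Ind β ρ (sg ε • L β w) 1 := fun u =>
  ⟨β w u + β u w, by
    rw [smul_mul_assoc, L_comm β w u, map_one, Module.End.one_apply, mul_smul_comm, smul_comm]⟩

/-- elements of the extraspecial group -/
noncomputable def E (hρ : Function.Injective ρ) (x : ZMod 2 × V) : (pi β ρ hρ).ker :=
  ⟨⟨⟨sg x.1 • L β x.2, (sg x.1 • L β x.2)ᵀ, mul_eq_one_comm.1 (orth β _ _), orth β _ _⟩,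
    Subalgebra.smul_mem _ (L_mem β _) _, orth β _ _, 1, ind_one β ρ _ _⟩,
    pi_eq β ρ hρ (ind_one β ρ _ _)⟩

theorem E_val (hρ : Function.Injective ρ) (x : ZMod 2 × V) :
    (((E β ρ hρ x : R β ρ) : GL V ℝ) : Matrix V V ℝ) = sg x.1 • L β x.2 := rfl

theorem E_mul (hρ : Function.Injective ρ) (x y : ZMod 2 × V) :
    E β ρ hρ x * E β ρ hρ y = E β ρ hρ (x.1 + y.1 + β x.2 y.2, x.2 + y.2) := by
  refine Subtype.ext (Subtype.ext (Units.ext ?_))
  show sg x.1 • L β x.2 * sg y.1 • L β y.2 = sg _ • L β _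
  rw [smul_mul_smul_comm, H62.Cliff.L_mul, smul_smul, sg_add, sg_add]

theorem E_zero (hρ : Function.Injective ρ) : E β ρ hρ (0, 0) = 1 := by
  refine Subtype.ext (Subtype.ext (Units.ext ?_))
  show sg 0 • L β 0 = 1
  simp [L_zero]

theorem E_bij (hρ : Function.Injective ρ) (hnd : ∀ u, (∀ v, β u v + β v u = 0) → u = 0) :
    Function.Bijective (E β ρ hρ) := by
  constructor
  · intro x y h
    have := L_inj β ((E_val β ρ hρ x).symm.trans ((congrArg _ (congrArg _ (congrArg _ h))).trans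
      (E_val β ρ hρ y)))
    exact Prod.ext this.1 this.2
  · rintro ⟨g, hg⟩
    have h1 := pi_spec β ρ hρ g
    rw [MonoidHom.mem_ker.1 hg] at h1
    obtain ⟨ε, w, h⟩ := eq_L hnd g.2.1 g.2.2.1 (by simpa [Ind] using h1)
    exact ⟨(ε, w), Subtype.ext (Subtype.ext (Units.ext h.symm))⟩

theorem core (hρ : Function.Injective ρ) (hnd : ∀ u, (∀ v, β u v + β v u = 0) → u = 0)
    (hq : ∀ k u, β (ρ k u) (ρ k u) = β u u) (m : ℕ) (hV : Nat.card V = 2 ^ m) (hm : 1 ≤ m) :
    ∃ (R : Type) (_ : Group R) (_ : Finite R) (Q : Subgroup R) (hN : Q.Normal) (e : R ⧸ Q ≃* K)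
      (χ : ↥Q →* Multiplicative V), Cfsg.IsExtraspecial 2 ↥Q ∧ Nat.card ↥Q = 2 ^ (m + 1) ∧
      Function.Surjective χ ∧ χ.ker = Subgroup.center ↥Q ∧
      (∀ (r : R) (a : ↥Q), χ ⟨r * a * r⁻¹, hN.conj_mem (a : R) a.2 r⟩ =
        Multiplicative.ofAdd (ρ (e (r : R ⧸ Q)) (Multiplicative.toAdd (χ a)))) ∧
      ∀ a : ↥Q, a * a = 1 ↔ β (Multiplicative.toAdd (χ a)) (Multiplicative.toAdd (χ a)) = 0 := by
  have hb := E_bij β ρ hρ hnd
  let η := Equiv.ofBijective _ hb
  have hη : ∀ x, η.symm (E β ρ hρ x) = x := fun x => η.symm_apply_apply x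
  have hsurj : Function.Surjective (pi β ρ hρ) := by
    intro k
    obtain ⟨g, g1, g2, g3⟩ := exists_inter hnd (ρ k) (hq k)
    exact ⟨⟨⟨g, gᵀ, mul_eq_one_comm.1 g2, g2⟩, g1, g2, k, g3⟩, pi_eq β ρ hρ g3⟩
  haveI : Finite K := by
    haveI : Finite (V →ₗ[ZMod 2] V) := Finite.of_injective _ DFunLike.coe_injective
    exact Finite.of_injective _ hρ
  haveI : Finite (pi β ρ hρ).ker := Finite.of_surjective _ hb.2
  let e := QuotientGroup.quotientKerEquivOfSurjective _ hsurj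
  haveI : Finite (R β ρ ⧸ (pi β ρ hρ).ker) := Finite.of_equiv _ e.symm.toEquiv
  haveI : Finite (R β ρ) := Finite.of_subgroup_quotient (pi β ρ hρ).ker
  let χ : (pi β ρ hρ).ker →* Multiplicative V :=
    MonoidHom.mk' (fun a => Multiplicative.ofAdd (η.symm a).2) fun a b => by
      obtain ⟨x, rfl⟩ := hb.2 a
      obtain ⟨y, rfl⟩ := hb.2 b
      rw [E_mul, hη, hη, hη]; rfl
  have hχ : ∀ x, χ (E β ρ hρ x) = Multiplicative.ofAdd x.2 := fun x => by
    show Multiplicative.ofAdd (η.symm _).2 = _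
    rw [hη]
  have hcard : Nat.card (pi β ρ hρ).ker = 2 ^ (m + 1) := by
    rw [← Nat.card_eq_of_bijective _ hb, Nat.card_prod, hV, Nat.card_zmod, pow_succ']
  have hcomm : ∀ x y, E β ρ hρ x * E β ρ hρ y = E β ρ hρ y * E β ρ hρ x ↔
      β x.2 y.2 + β y.2 x.2 = 0 := by
    intro x y
    rw [E_mul, E_mul, hb.1.eq_iff, Prod.ext_iff, CharTwo.add_eq_zero]
    simp only [add_comm y.1, add_comm y.2, add_right_inj, and_true]
  have hcen : ∀ x, E β ρ hρ x ∈ Subgroup.center _ ↔ x.2 = 0 := by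
    intro x
    rw [Subgroup.mem_center_iff]
    constructor
    · intro h
      exact hnd _ fun v => (hcomm x (0, v)).1 (h _).symm
    · intro h g
      obtain ⟨y, rfl⟩ := hb.2 g
      rw [hcomm, h]; simp
  have hsq : ∀ x, E β ρ hρ x * E β ρ hρ x = E β ρ hρ (β x.2 x.2, 0) := fun x => by
    rw [E_mul, add_self x.2, CharTwo.add_self_eq_zero, zero_add]
  refine ⟨R β ρ, inferInstance, inferInstance, (pi β ρ hρ).ker, inferInstance, e, χ, ?_, hcard, ?_,
    ?_, ?_, ?_⟩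
  · refine H57.isExtraspecial_of (IsPGroup.of_card hcard) (z := E β ρ hρ (1, 0)) ?_ ?_ ?_ ?_
    · rw [← E_zero β ρ hρ, hb.1.ne_iff]; simp
    · intro g
      obtain ⟨⟨ε, w⟩, rfl⟩ := hb.2 g
      rw [hcen, ← E_zero β ρ hρ, hb.1.eq_iff, hb.1.eq_iff]
      rcases zcases ε with rfl | rfl <;> simp
    · intro g
      obtain ⟨x, rfl⟩ := hb.2 g
      rw [pow_two, hsq, ← E_zero β ρ hρ]
      rcases zcases (β x.2 x.2) with h | h <;> simp [h]
    · haveI : Nontrivial V := Finite.one_lt_card_iff_nontrivial.1 (by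
        rw [hV]; exact Nat.one_lt_two_pow (by omega))
      obtain ⟨u, hu⟩ := exists_ne (0 : V)
      by_contra h
      push Not at h
      exact hu (hnd u fun v => (hcomm (0, u) (0, v)).1 (h _ _))
  · intro v
    exact ⟨E β ρ hρ (0, v.toAdd), hχ _⟩
  · ext g
    obtain ⟨x, rfl⟩ := hb.2 g
    rw [hcen, MonoidHom.mem_ker, hχ, ofAdd_eq_one]
  · intro r a
    obtain ⟨x, rfl⟩ := hb.2 a
    obtain ⟨ε, h⟩ := pi_spec β ρ hρ r x.2
    have : (⟨r * E β ρ hρ x * r⁻¹, (MonoidHom.normal_ker _).conj_mem _ (E β ρ hρ x).2 r⟩ :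
        (pi β ρ hρ).ker) = E β ρ hρ (x.1 + ε, ρ (pi β ρ hρ r) x.2) := by
      refine Subtype.ext ?_
      show r * _ * r⁻¹ = _
      rw [mul_inv_eq_iff_eq_mul]
      refine Subtype.ext (Units.ext ?_)
      show ((r : GL V ℝ) : Matrix V V ℝ) * (sg x.1 • L β x.2) = (sg _ • L β _) * _
      rw [mul_smul_comm, h, smul_smul, sg_add, smul_mul_assoc]
    rw [this, hχ, hχ]; rfl
  · intro a
    obtain ⟨x, rfl⟩ := hb.2 a
    rw [hsq, ← E_zero β ρ hρ, hb.1.eq_iff, hχ]; simp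

end


/-- Let K be a group acting faithfully and linearly on a finite-dimensional vector space U of dimension 2n ≥ 2 over the field with two elements, preserving a quadratic form q whose polar bilinear form is non-degenerate and which vanishes on some n-dimensional subspace (a non-singular form of plus type). Then there is a finite group R with a normal extraspecial 2-subgroup Q of order 2^(2n+1), an isomorphism of R/Q with K, and a surjective homomorphism χ from Q onto (the additive group of) U with kernel the centre of Q, such that χ carries conjugation by any r in R to the action of the image of r in K, and an element a of Q squares to the identity exactly when q vanishes at χ(a). -/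
theorem result {K : Type*} [Group K] {U : Type*} [AddCommGroup U] [Module (ZMod 2) U] [Module.Finite (ZMod 2) U] (n : ℕ) (hn1 : 1 ≤ n) (hn : Module.finrank (ZMod 2) U = 2 * n) (ρ : Representation (ZMod 2) K U) (hρ : Function.Injective ρ) (q : QuadraticForm (ZMod 2) U) (hq : ∀ (k : K) (u : U), q (ρ k u) = q u) (hnd : (QuadraticMap.polarBilin q).Nondegenerate) (hplus : ∃ W : Submodule (ZMod 2) U, Module.finrank (ZMod 2) ↥W = n ∧ ∀ w ∈ W, q w = 0) : ∃ (R : Type) (_ : Group R) (_ : Finite R) (Q : Subgroup R) (hN : Q.Normal) (e : R ⧸ Q ≃* K) (χ : ↥Q →* Multiplicative U), Cfsg.IsExtraspecial 2 ↥Q ∧ Nat.card ↥Q = 2 ^ (2 * n + 1) ∧ Function.Surjective χ ∧ χ.ker = Subgroup.center ↥Q ∧ (∀ (r : R) (a : ↥Q), χ ⟨r * a * r⁻¹, hN.conj_mem (a : R) a.2 r⟩ = Multiplicative.ofAdd (ρ (e (r : R ⧸ Q)) (Multiplicative.toAdd (χ a)))) ∧ ∀ a : ↥Q, a * a = 1 ↔ q (Multiplicative.toAdd (χ a)) = 0 := by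
  classical
  let bm : Module.Basis (Fin (2 * n)) (ZMod 2) U := Module.finBasisOfFinrankEq _ _ hn
  let f := bm.equivFun
  let ρ' : Representation (ZMod 2) K (Fin (2 * n) → ZMod 2) :=
    f.conjRingEquiv.toMonoidHom.comp ρ
  have hρ' : ∀ k v, ρ' k v = f (ρ k (f.symm v)) := fun k v => rfl
  obtain ⟨B, hB⟩ := LinearMap.BilinMap.toQuadraticMap_surjective q
  have hBq : ∀ u, B u u = q u := fun u => by rw [← hB]; rfl
  let β := LinearMap.compl₁₂ B f.symm.toLinearMap f.symm.toLinearMap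
  have hβ : ∀ u v, β u v = B (f.symm u) (f.symm v) := fun u v => rfl
  obtain ⟨R, i1, i2, Q, hN, e, χ, h1, h2, h3, h4, h5, h6⟩ := core β ρ'
    (f.conjRingEquiv.injective.comp hρ) (fun u hu => by
      apply f.symm.injective
      rw [map_zero]
      refine hnd.1 _ fun y => ?_
      have := hu (f y)
      rw [hβ, hβ, f.symm_apply_apply] at this
      rw [← this, ← hB, QuadraticMap.polarBilin_apply_apply, LinearMap.BilinMap.polar_toQuadraticMap])
    (fun k u => by rw [hβ, hβ, hρ', f.symm_apply_apply, hBq, hBq, hq]) (2 * n) (by simp) (by omega)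
  let g : Multiplicative (Fin (2 * n) → ZMod 2) ≃* Multiplicative U :=
    AddEquiv.toMultiplicative f.symm.toAddEquiv
  have hg : ∀ v, g v = Multiplicative.ofAdd (f.symm v.toAdd) := fun v => rfl
  refine ⟨R, i1, i2, Q, hN, e, g.toMonoidHom.comp χ, h1, h2, g.surjective.comp h3, ?_, ?_, ?_⟩
  · rw [← h4]; ext a; simp
  · intro r a
    show g _ = Multiplicative.ofAdd (ρ _ (Multiplicative.toAdd (g _)))
    rw [h5, hg, hg, toAdd_ofAdd, toAdd_ofAdd, hρ', f.symm_apply_apply]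
  · intro a
    rw [h6, hβ, hBq]; rfl

end Cfsg.Agent.S3084
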