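import Cfsg.Statements.S3085
import Cfsg.Agent.H3.Extraspecial2

set_option autoImplicit false
open Cfsg

namespace Cfsg.Agent.S3085

open Cfsg.Agent.H3
open scoped commutatorElement

section
variable {Q : Type*} [Group Q] {V : Type*} [AddCommGroup V] [Module (ZMod 2) V] (D : ESData 2 Q V)

theorem zmod_two_cases (s : ZMod 2) : s = 0 ∨ s = 1 := by
  fin_cases s
  · exact Or.inl rfl
  · exact Or.inr rfl

theorem two_v (v : V) : v + v = 0 := by
  have : (1 + 1 : ZMod 2) • v = 0 := by
    have h : (1 + 1 : ZMod 2) = 0 := by decide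
    rw [h, zero_smul]
  rwa [add_smul, one_smul] at this

theorem Bsymm (u v : V) : D.B u v = D.B v u := by
  have h := D.isAlt.neg_eq u v
  rw [← h]
  rcases zmod_two_cases (D.B u v) with h' | h' <;> rw [h'] <;> decide

theorem comm_of_B {x y : Q} (h : D.B (D.π x) (D.π y) = 0) : x * y = y * x :=
  ((D.commute_iff x y).mpr h).eq

theorem comm_of_B1 {x y : Q} (h : D.B (D.π x) (D.π y) = 1) : x * y = D.ζ 1 * (y * x) := by
  have := D.comm_eq x y
  rw [h, commutatorElement_def] at this
  rw [← this]; group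

theorem zz : D.ζ 1 * D.ζ 1 = 1 := by
  rw [← D.ζ_add]
  have h : (1 + 1 : ZMod 2) = 0 := by decide
  rw [h, D.ζ_zero]

open Classical in
/-- The lift of a transvection. -/
noncomputable def tv (a : Q) (ha : D.f (D.π a) = 1) : MulAut Q where
  toFun x := if D.B (D.π x) (D.π a) = 0 then x else x * a
  invFun x := if D.B (D.π x) (D.π a) = 0 then x else x * a⁻¹
  left_inv x := by
    by_cases h : D.B (D.π x) (D.π a) = 0
    · simp [h]
    · have : D.B (D.π (x * a)) (D.π a) ≠ 0 := by
        rw [D.π_mul, map_add, LinearMap.add_apply, D.isAlt.self_eq_zero, add_zero]; exact h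
      simp [h, this]
  right_inv x := by
    by_cases h : D.B (D.π x) (D.π a) = 0
    · simp [h]
    · have : D.B (D.π (x * a⁻¹)) (D.π a) ≠ 0 := by
        rw [D.π_mul, D.π_inv, map_add, LinearMap.add_apply, map_neg, LinearMap.neg_apply,
          D.isAlt.self_eq_zero, neg_zero, add_zero]; exact h
      simp [h, this]
  map_mul' x y := by
    have hxy : D.B (D.π (x * y)) (D.π a) = D.B (D.π x) (D.π a) + D.B (D.π y) (D.π a) := by
      rw [D.π_mul, map_add, LinearMap.add_apply]
    have haa : a * a = D.ζ 1 := by rw [← ha, ← D.pow_eq, pow_two]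
    rcases zmod_two_cases (D.B (D.π x) (D.π a)) with hx | hx <;>
      rcases zmod_two_cases (D.B (D.π y) (D.π a)) with hy | hy
    · simp [hxy, hx, hy]
    · simp [hxy, hx, hy, mul_assoc]
    · have := comm_of_B D hy
      simp [hxy, hx, hy, mul_assoc, this]
    · have h1 := comm_of_B1 D (x := a) (y := y) (by rw [Bsymm, hy])
      have h2 : (1 + 1 : ZMod 2) = 0 := by decide
      simp only [hxy, hx, hy, h2, if_true, one_ne_zero, if_false]
      calc x * y = x * (D.ζ 1 * D.ζ 1 * y) := by rw [zz, one_mul]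
        _ = x * (D.ζ 1 * (y * D.ζ 1)) := by rw [mul_assoc (D.ζ 1), D.ζ_comm 1 y]
        _ = x * ((D.ζ 1 * (y * a)) * a) := by rw [← haa]; simp only [mul_assoc]
        _ = x * a * (y * a) := by rw [← h1]; simp only [mul_assoc]

open Classical in
theorem tv_apply (a : Q) (ha : D.f (D.π a) = 1) (x : Q) :
    tv D a ha x = if D.B (D.π x) (D.π a) = 0 then x else x * a := rfl

theorem π_tv (a : Q) (ha : D.f (D.π a) = 1) (x : Q) :
    D.π (tv D a ha x) = D.π x + D.B (D.π x) (D.π a) • D.π a := by
  rw [tv_apply]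
  rcases zmod_two_cases (D.B (D.π x) (D.π a)) with hx | hx
  · simp [hx]
  · simp [hx, D.π_mul]

theorem tv_sq (a : Q) (ha : D.f (D.π a) = 1) : tv D a ha * tv D a ha = MulAut.conj a := by
  ext x
  have haa : a * a = D.ζ 1 := by rw [← ha, ← D.pow_eq, pow_two]
  rw [MulAut.mul_apply, MulAut.conj_apply]
  rcases zmod_two_cases (D.B (D.π x) (D.π a)) with hx | hx
  · have := comm_of_B D hx
    simp [tv_apply, hx, ← this]
  · have h1 := comm_of_B1 D (x := a) (y := x) (by rw [Bsymm, hx])
    have h2 : D.B (D.π (x * a)) (D.π a) = 1 := by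
      rw [D.π_mul, map_add, LinearMap.add_apply, D.isAlt.self_eq_zero, add_zero]; exact hx
    simp only [tv_apply, hx, h2, one_ne_zero, if_false]
    rw [h1, mul_assoc, haa, ← D.ζ_comm]; group

theorem tv_comm (a b : Q) (ha : D.f (D.π a) = 1) (hb : D.f (D.π b) = 1)
    (hab : D.B (D.π a) (D.π b) = 0) : tv D a ha * tv D b hb = tv D b hb * tv D a ha := by
  ext x
  have hba : D.B (D.π b) (D.π a) = 0 := by rw [Bsymm, hab]
  have h1 : D.B (D.π (x * a)) (D.π b) = D.B (D.π x) (D.π b) := by
    rw [D.π_mul, map_add, LinearMap.add_apply, hab, add_zero]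
  have h2 : D.B (D.π (x * b)) (D.π a) = D.B (D.π x) (D.π a) := by
    rw [D.π_mul, map_add, LinearMap.add_apply, hba, add_zero]
  have h3 := comm_of_B D hab
  rw [MulAut.mul_apply, MulAut.mul_apply]
  by_cases hxa : D.B (D.π x) (D.π a) = 0 <;> by_cases hxb : D.B (D.π x) (D.π b) = 0 <;>
    simp [tv_apply, hxa, hxb, h1, h2, mul_assoc, h3]

theorem conj_mul_aut (α : MulAut Q) (y : Q) :
    α * MulAut.conj y = MulAut.conj (α y) * α := by
  ext x; simp

theorem exists_perp [Finite V] (hV : 16 < Nat.card V) (u v : V) (s : Finset V) (hs : s.card ≤ 4) :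
    ∃ x, x ∉ s ∧ D.B x u = 0 ∧ D.B x v = 0 := by
  classical
  by_contra! hcon
  let φ : V →+ ZMod 2 × ZMod 2 := ((D.B.flip u).prod (D.B.flip v)).toAddMonoidHom
  have h1 : Nat.card φ.ker ≤ 4 := by
    refine le_trans ?_ hs
    rw [← Nat.card_eq_finsetCard]
    refine Nat.card_le_card_of_injective (fun x : φ.ker => (⟨x.1, ?_⟩ : s)) ?_
    · by_contra hx
      have h := x.2
      rw [AddMonoidHom.mem_ker, Prod.ext_iff] at h
      exact hcon x.1 hx h.1 h.2
    · intro x y h
      exact Subtype.ext (congrArg (fun t : s => (t : V)) h)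
  have h2 : φ.ker.index ≤ 4 := by
    rw [AddSubgroup.index_ker]
    refine le_trans (Nat.card_le_card_of_injective _ Subtype.val_injective) ?_
    simp
  have h3 := φ.ker.card_mul_index
  have := Nat.mul_le_mul h1 h2
  omega

theorem exists_three [Finite V] (hV : 16 < Nat.card V) (hB : D.B.Nondegenerate) :
    ∃ u v w : V, D.f u = 1 ∧ D.f v = 1 ∧ D.f w = 1 ∧ D.B u v = 0 ∧ D.B u w = 0 ∧ D.B v w = 0 ∧
      u ≠ v ∧ u ≠ w ∧ v ≠ w := by
  classical
  have hf : ∀ x y, D.f (x + y) = D.f x + D.f y + D.B y x := by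
    intro x y; rw [D.f_add]; simp
  have : ∃ u, D.f u = 1 := by
    by_contra! h
    have h0 : ∀ u, D.f u = 0 := fun u => (zmod_two_cases _).resolve_right (h u)
    have : Subsingleton V := ⟨fun a b => by
      have : ∀ c : V, c = 0 := fun c => hB.1 c fun y => by
        have := hf y c
        simpa [h0] using this.symm
      rw [this a, this b]⟩
    have := Nat.card_of_subsingleton (0 : V)
    omega
  obtain ⟨u, hu⟩ := this
  have key : ∀ v : V, ∃ w, D.f w = 1 ∧ D.B u w = 0 ∧ (D.B u v = 0 → D.B v w = 0) ∧ u ≠ w ∧ v ≠ w := by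
    intro v
    obtain ⟨x, hx, hxu, hxv⟩ := exists_perp D hV u v {0, u, v, v + u} Finset.card_le_four
    simp only [Finset.mem_insert, Finset.mem_singleton, not_or] at hx
    rcases zmod_two_cases (D.f x) with h | h
    · refine ⟨x + u, ?_, ?_, ?_, ?_, ?_⟩
      · rw [hf, h, hu, Bsymm, hxu]; simp
      · rw [map_add, Bsymm, hxu, D.isAlt.self_eq_zero, add_zero]
      · intro h'
        rw [map_add, Bsymm, hxv, Bsymm, h', add_zero]
      · intro h'
        exact hx.1 (by simpa using h')
      · intro h'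
        apply hx.2.2.2
        rw [h', add_assoc, two_v, add_zero]
    · exact ⟨x, h, by rw [Bsymm, hxu], fun _ => by rw [Bsymm, hxv], fun h' => hx.2.1 h'.symm,
        fun h' => hx.2.2.1 h'.symm⟩
  obtain ⟨v, hv, huv, -, huv', -⟩ := key u
  obtain ⟨w, hw, huw, hvw, huw', hvw'⟩ := key v
  exact ⟨u, v, w, hu, hv, hw, huv, huw, hvw huv, huv', huw', hvw'⟩

end

/-- Let Q be an extraspecial 2-group of order 2^(2n+1) with n ≥ 3 that is of plus type (it contains an elementary abelian subgroup of order 2^(n+1)). Then the group of inner automorphisms of Q has no complement in the full automorphism group of Q: the extension of the inner automorphism group (elementary abelian of order 2^(2n)) by the outer automorphism group (the orthogonal group of plus type) does not split. -/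
theorem result {Q : Type*} [Group Q] [Finite Q] (n : ℕ) (hn : 3 ≤ n) (hQ : Cfsg.IsExtraspecial 2 Q) (hcard : Nat.card Q = 2 ^ (2 * n + 1)) (hplus : ∃ E : Subgroup Q, Cfsg.IsElementaryAbelian 2 E ∧ Nat.card ↥E = 2 ^ (n + 1)) (L : Subgroup (MulAut Q)) : ¬ (Cfsg.Inn Q).IsComplement' L := by
  intro hL
  obtain ⟨V, _, _, _, _, D, hB, hπ⟩ := exists_esData_of_isExtraspecial hQ
  have hV : 16 < Nat.card V := by
    have h1 := D.card_eq
    have h2 : 2 ^ 7 ≤ 2 ^ (2 * n + 1) := Nat.pow_le_pow_right (by norm_num) (by omega)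
    omega
  have hinn : ∀ y : Q, MulAut.conj y ∈ L → D.π y = 0 := by
    intro y hy
    have h1 : MulAut.conj y = 1 := by
      have := hL.disjoint
      rw [Subgroup.disjoint_def] at this
      exact this ⟨y, rfl⟩ hy
    rw [hπ, Subgroup.mem_center_iff]
    intro g
    have := congrArg (fun t : MulAut Q => t g) h1
    simp only [MulAut.conj_apply, MulAut.one_apply] at this
    rw [← mul_inv_eq_iff_eq_mul.mp this]
  have hlift : ∀ α : MulAut Q, ∃ y : Q, MulAut.conj y * α ∈ L := by
    intro α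
    obtain ⟨⟨⟨_, y, rfl⟩, l⟩, h⟩ := hL.2 α
    refine ⟨y⁻¹, ?_⟩
    simp only at h
    rw [← h, map_inv, inv_mul_cancel_left]
    exact l.2
  have hne : ∀ v : V, D.f v = 1 → v ≠ 0 := by
    rintro v hv rfl
    rw [D.f_zero] at hv
    exact zero_ne_one hv
  have hsq : ∀ (a : Q) (ha : D.f (D.π a) = 1) (y : Q), MulAut.conj y * tv D a ha ∈ L →
      D.B (D.π y) (D.π a) = 1 := by
    intro a ha y hy
    have h1 := L.mul_mem hy hy
    have h2 : MulAut.conj y * tv D a ha * (MulAut.conj y * tv D a ha)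
        = MulAut.conj (y * tv D a ha y * a) := by
      rw [mul_assoc, ← mul_assoc (tv D a ha), conj_mul_aut, mul_assoc, tv_sq, map_mul, map_mul,
        mul_assoc]
    rw [h2] at h1
    have h3 := hinn _ h1
    rw [D.π_mul, D.π_mul, π_tv, ← add_assoc, two_v, zero_add] at h3
    rcases zmod_two_cases (D.B (D.π y) (D.π a)) with h | h
    · rw [h, zero_smul, zero_add] at h3
      exact absurd h3 (hne _ ha)
    · exact h
  have hcm : ∀ (a b : Q) (ha : D.f (D.π a) = 1) (hb : D.f (D.π b) = 1) (y z : Q),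
      D.B (D.π a) (D.π b) = 0 → D.π a ≠ D.π b → MulAut.conj y * tv D a ha ∈ L →
      MulAut.conj z * tv D b hb ∈ L → D.B (D.π y) (D.π b) = 0 := by
    intro a b ha hb y z hab hne' hy hz
    have h1 := L.mul_mem (L.mul_mem hy hz) (L.inv_mem (L.mul_mem hz hy))
    have h2 : MulAut.conj y * tv D a ha * (MulAut.conj z * tv D b hb) *
        (MulAut.conj z * tv D b hb * (MulAut.conj y * tv D a ha))⁻¹
        = MulAut.conj (y * tv D a ha z * (z * tv D b hb y)⁻¹) := by
      rw [mul_inv_eq_iff_eq_mul, mul_assoc, ← mul_assoc (tv D a ha), conj_mul_aut,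
        mul_assoc (MulAut.conj z), ← mul_assoc (tv D b hb), conj_mul_aut, mul_assoc, mul_assoc,
        tv_comm D a b ha hb hab]
      simp only [map_mul, map_inv, mul_inv_rev, mul_assoc, inv_mul_cancel_left]
    rw [h2] at h1
    have h3 := hinn _ h1
    rw [D.π_mul, D.π_mul, D.π_inv, D.π_mul, π_tv, π_tv] at h3
    have h4 : D.B (D.π z) (D.π a) • D.π a = D.B (D.π y) (D.π b) • D.π b := by
      rw [← sub_eq_zero, ← h3]; abel
    rcases zmod_two_cases (D.B (D.π y) (D.π b)) with h | h
    · exact h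
    · rw [h, one_smul] at h4
      rcases zmod_two_cases (D.B (D.π z) (D.π a)) with h' | h'
      · rw [h', zero_smul] at h4
        exact absurd h4.symm (hne _ hb)
      · rw [h', one_smul] at h4
        exact absurd h4 hne'
  obtain ⟨u, v, w, hu, hv, hw, huv, huw, hvw, huv', huw', hvw'⟩ := exists_three D hV hB
  obtain ⟨a, rfl⟩ := D.π_surj u
  obtain ⟨b, rfl⟩ := D.π_surj v
  obtain ⟨c, rfl⟩ := D.π_surj w
  have hf : ∀ x y, D.f (x + y) = D.f x + D.f y + D.B y x := by
    intro x y; rw [D.f_add]; simp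
  have hba := (Bsymm D _ _).trans huv
  have hca := (Bsymm D _ _).trans huw
  have hcb := (Bsymm D _ _).trans hvw
  have hd : D.π (a * b * c) = D.π a + D.π b + D.π c := by rw [D.π_mul, D.π_mul]
  have hfd : D.f (D.π (a * b * c)) = 1 := by
    rw [hd, hf, hf, hu, hv, hw, map_add, hba, hca, hcb]; decide
  obtain ⟨y, hy⟩ := hlift (tv D _ hfd)
  obtain ⟨za, hza⟩ := hlift (tv D _ hu)
  obtain ⟨zb, hzb⟩ := hlift (tv D _ hv)
  obtain ⟨zc, hzc⟩ := hlift (tv D _ hw)
  have hneq : ∀ s t : V, s + t = 0 → s = t := fun s t h => by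
    rw [← add_zero s, ← two_v t, ← add_assoc, h, zero_add]
  have e1 := hcm _ _ hfd hu y za (by
    rw [hd, map_add, map_add, LinearMap.add_apply, LinearMap.add_apply, hba, hca,
      D.isAlt.self_eq_zero]; simp) (by
    rw [hd]; intro h; apply hvw'; apply hneq
    rwa [add_assoc, add_eq_left] at h) hy hza
  have e2 := hcm _ _ hfd hv y zb (by
    rw [hd, map_add, map_add, LinearMap.add_apply, LinearMap.add_apply, huv, hcb,
      D.isAlt.self_eq_zero]; simp) (by
    rw [hd]; intro h; apply huw'; apply hneq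
    rwa [add_right_comm, add_eq_right] at h) hy hzb
  have e3 := hcm _ _ hfd hw y zc (by
    rw [hd, map_add, map_add, LinearMap.add_apply, LinearMap.add_apply, huw, hvw,
      D.isAlt.self_eq_zero]; simp) (by
    rw [hd]; intro h; apply huv'; apply hneq
    rwa [add_eq_right] at h) hy hzc
  have e4 := hsq _ hfd y hy
  rw [hd, map_add, map_add, e1, e2, e3] at e4
  exact absurd e4 (by decide)

end Cfsg.Agent.S3085
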