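import Cfsg.Statements.S3106
import Cfsg.Agent.SR4.IC
import Cfsg.Agent.H42.Index2

set_option autoImplicit false
open Cfsg

namespace Cfsg.Agent.S3106

open Subgroup
open scoped commutatorElement

theorem aux {P : Type*} [Group P] {z : P} {e : Fin 5 → P} (z1 : z ≠ 1) (zz : z * z = 1)
    (cz : ∀ q, q * z = z * q) (sq : ∀ i, e i * e i = 1) (cm : ∀ i j, i ≠ j → ⁅e i, e j⁆ = z)
    (sqz : ∀ q : P, q * q = 1 ∨ q * q = z)
    (inv : ∀ q : P, q * q = 1 → q = 1 ∨ q = z ∨ ∃ i, q = e i ∨ q = e i * z)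
    (prod : e 0 * e 1 * e 2 * e 3 * e 4 = 1 ∨ e 0 * e 1 * e 2 * e 3 * e 4 = z)
    (gen : ⊤ ≤ closure (Set.range e)) : ∃ A B : Subgroup P,
      Nonempty (↥A ≃* QuaternionGroup 2) ∧ Nonempty (↥B ≃* DihedralGroup 4) ∧
        (∀ a ∈ A, ∀ b ∈ B, a * b = b * a) ∧ A ⊔ B = ⊤ ∧ A ⊓ B = center P := by
  have : Fact (Nat.Prime 2) := ⟨Nat.prime_two⟩
  have iv : ∀ i, (e i)⁻¹ = e i := fun i => inv_eq_of_mul_eq_one_right (sq i)
  have sw : ∀ i j, i ≠ j → e i * e j = z * (e j * e i) := fun i j h => by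
    rw [← cm i j h, commutatorElement_def]; group
  have s2 : ∀ i j, i ≠ j → e i * e j * (e i * e j) = z := fun i j h => by
    rw [← cm i j h, commutatorElement_def, iv, iv, mul_assoc (e i * e j)]
  have o4 : ∀ i j, i ≠ j → orderOf (e i * e j) = 4 := fun i j h =>
    orderOf_eq_prime_pow (p := 2) (n := 1) (by rw [pow_one, pow_two, s2 i j h]; exact z1)
      (by rw [pow_succ 2, pow_mul, pow_one, pow_two (e i * e j), s2 i j h, pow_two, zz])
  have c3 : ∀ k i j, k ≠ i → k ≠ j → e k * (e i * e j) = e i * e j * e k := fun k i j h1 h2 => by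
    rw [← mul_assoc, sw k i h1, mul_assoc, mul_assoc, sw k j h2, ← mul_assoc (e i), cz,
      ← mul_assoc, ← mul_assoc, ← mul_assoc, zz, one_mul]
  have nz : ∀ i j b, i ≠ j → b * (e i * e j) * b⁻¹ = (e i * e j)⁻¹ →
      b * (e i * e j) ≠ e i * e j * b := fun i j b h h1 h2 => z1 (by
    rw [h2, mul_inv_cancel_right] at h1
    rw [← s2 i j h]; exact mul_eq_one_iff_eq_inv.2 h1)
  have nz' : ∀ a b : P, b * a ≠ a * b → b ∉ zpowers a := by
    rintro a _ h ⟨k, rfl⟩
    exact h (Commute.zpow_left rfl k)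
  have r1 : e 1 * e 2 * (e 0 * e 1) * (e 1 * e 2)⁻¹ = (e 0 * e 1)⁻¹ := by
    rw [mul_assoc (e 1) (e 2), c3 2 0 1 (by decide) (by decide), mul_inv_rev (e 0), iv 0]
    rw [show e 1 * (e 0 * e 1 * e 2) * (e 1 * e 2)⁻¹ = e 1 * e 0 by group, iv]
  have r2 : e 3 * (e 3 * e 4) * (e 3)⁻¹ = (e 3 * e 4)⁻¹ := by
    rw [← mul_assoc, sq, one_mul, mul_inv_rev, iv 4]
  have n1 := nz 0 1 _ (by decide) r1
  have b4 : e 4 ∈ zpowers (e 3 * e 4) ⊔ zpowers (e 3) := by
    simpa using mul_mem (inv_mem (mem_sup_right (mem_zpowers (e 3))))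
      (mem_sup_left (mem_zpowers (e 3 * e 4)))
  have zp : ∀ i j, i ≠ j → z ∈ zpowers (e i * e j) := fun i j h =>
    s2 i j h ▸ mul_mem (mem_zpowers _) (mem_zpowers _)
  have ab : zpowers (e 0 * e 1) ⊔ zpowers (e 1 * e 2) ≤
      centralizer (zpowers (e 3 * e 4) ⊔ zpowers (e 3) : Subgroup P) := by
    have : ∀ i j, 3 ≠ i → 3 ≠ j → 4 ≠ i → 4 ≠ j → zpowers (e i * e j) ≤
        centralizer (zpowers (e 3 * e 4) ⊔ zpowers (e 3) : Subgroup P) := fun i j h1 h2 h3 h4 =>
      le_centralizer_iff.1 (sup_le (zpowers_le.2 (by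
        rw [H49.cent_zpowers]
        exact mul_mem (H49.mem_cent1.2 (c3 3 i j h1 h2)) (H49.mem_cent1.2 (c3 4 i j h3 h4))))
        (zpowers_le.2 (by rw [H49.cent_zpowers]; exact H49.mem_cent1.2 (c3 3 i j h1 h2))))
    exact sup_le (this 0 1 (by decide) (by decide) (by decide) (by decide))
      (this 1 2 (by decide) (by decide) (by decide) (by decide))
  have top : zpowers (e 0 * e 1) ⊔ zpowers (e 1 * e 2) ⊔ (zpowers (e 3 * e 4) ⊔ zpowers (e 3)) = ⊤ := by
    set U := zpowers (e 0 * e 1) ⊔ zpowers (e 1 * e 2) ⊔ (zpowers (e 3 * e 4) ⊔ zpowers (e 3))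
    have a : e 0 * e 1 ∈ U := mem_sup_left (mem_sup_left (mem_zpowers _))
    have b : e 1 * e 2 ∈ U := mem_sup_left (mem_sup_right (mem_zpowers _))
    have m3 : e 3 ∈ U := mem_sup_right (mem_sup_right (mem_zpowers _))
    have m4 : e 4 ∈ U := mem_sup_right b4
    have m : e 0 * e 1 * e 2 * e 3 * e 4 ∈ U := by
      rcases prod with h | h <;> rw [h]
      exacts [one_mem _, mem_sup_left (mem_sup_left (zp 0 1 (by decide)))]
    have m2 : e 2 ∈ U := (mul_mem_cancel_left a).1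
      ((mul_mem_cancel_right m3).1 ((mul_mem_cancel_right m4).1 m))
    have m1 : e 1 ∈ U := (mul_mem_cancel_right m2).1 b
    refine eq_top_iff.2 (gen.trans ((closure_le _).2 ?_))
    rintro _ ⟨i, rfl⟩
    fin_cases i
    exacts [(mul_mem_cancel_right m1).1 a, m1, m2, m3, m4]
  have key : ∀ y, y * y = 1 → e 3 * y = y * e 3 → e 4 * y = y * e 4 → y = 1 ∨ y = z := by
    intro y yy h3 h4
    refine (inv y yy).imp_right fun h => h.resolve_right ?_
    rintro ⟨i, h⟩
    have : ∀ k, e k * y = y * e k → k = i := fun k hk => by_contra fun ne => z1 (by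
      rw [← cm k i ne, commutatorElement_eq_one_iff_mul_comm]
      rcases h with rfl | rfl
      · exact hk
      · rwa [← mul_assoc, mul_assoc (e i), ← cz, ← mul_assoc, mul_left_inj] at hk)
    exact absurd ((this 3 h3).trans (this 4 h4).symm) (by decide)
  refine ⟨_, _, H42.quaternion_recog two_ne_zero (o4 0 1 (by decide))
    (by rw [pow_two, s2 0 1 (by decide), s2 1 2 (by decide)]) r1 (nz' _ _ n1),
    H42.dihedral_recog four_ne_zero (o4 3 4 (by decide)) (sq 3) r2
      (nz' _ _ (nz 3 4 _ (by decide) r2)), fun a ha b hb => (ab ha b hb).symm, top,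
    le_antisymm (fun x hx => mem_center_iff.2 fun g => ?_) fun x hx => ?_⟩
  · exact H49.mem_cent1.1 ((top.ge.trans (sup_le (H49.le_cent1_iff.2 (le_centralizer_iff.1 ab hx.2))
      (H49.le_cent1_iff.2 (ab hx.1)))) (mem_top g))
  · have c := mem_center_iff.1 hx
    rcases sqz x with h | h
    · rcases key x h (c _) (c _) with rfl | rfl
      exacts [one_mem _, ⟨mem_sup_left (zp 0 1 (by decide)), mem_sup_left (zp 3 4 (by decide))⟩]
    · have k : ∀ g, g * (e 0 * e 1) = e 0 * e 1 * g →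
          g * (x * (e 0 * e 1)) = x * (e 0 * e 1) * g := fun g hg => by
        rw [← mul_assoc, c, mul_assoc, hg, mul_assoc x]
      have : e 1 * e 2 * (x * (e 0 * e 1)) = x * (e 0 * e 1) * (e 1 * e 2) := by
        rcases key (x * (e 0 * e 1)) (by
          rw [mul_assoc, ← mul_assoc _ x, c, mul_assoc, s2 0 1 (by decide), ← mul_assoc, h, zz])
          (k _ (c3 3 0 1 (by decide) (by decide))) (k _ (c3 4 0 1 (by decide) (by decide))) with h | h
        · rw [h, mul_one, one_mul]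
        · rw [h, cz]
      rw [← mul_assoc, c, mul_assoc, mul_assoc x, mul_right_inj] at this
      exact (n1 this).elim

/-- Let X be a finite nonsolvable 2-constrained group with no nontrivial normal subgroup of odd order and of sectional 2-rank at most 4, and suppose X/O₂(X) contains a subgroup isomorphic to the alternating group of degree 5. Then O₂(X) is elementary abelian of order 16, or O₂(X) is a central product of a quaternion group of order 8 and a dihedral group of order 8 (it has order 32 and is generated by two elementwise-commuting subgroups, one quaternion of order 8 and one dihedral of order 8, meeting in the centre). -/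
theorem result {X : Type*} [Group X] [Finite X] (hns : ¬ Group.IsSolvable X) (hc : Cfsg.IsPConstrained 2 X) (hO : Cfsg.oddCore X = ⊥)
    (h4 : Cfsg.SectionalPRankLE 2 4 X)
    (hQ : ∃ A : Subgroup (X ⧸ Cfsg.pCore 2 X), Nonempty (↥A ≃* ↥(alternatingGroup (Fin 5)))) :
    (Cfsg.IsElementaryAbelian 2 (Cfsg.pCore 2 X) ∧ Nat.card ↥(Cfsg.pCore 2 X) = 16) ∨
      (Nat.card ↥(Cfsg.pCore 2 X) = 32 ∧ ∃ A B : Subgroup ↥(Cfsg.pCore 2 X),
        Nonempty (↥A ≃* QuaternionGroup 2) ∧ Nonempty (↥B ≃* DihedralGroup 4) ∧ (∀ a ∈ A, ∀ b ∈ B, a * b = b * a) ∧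
          A ⊔ B = ⊤ ∧ A ⊓ B = Subgroup.center ↥(Cfsg.pCore 2 X)) := by
  have h := SR4.CX.of_constrained hc hO
  rcases h.of_a5 (SR4.S4.of_sec h4) hQ with ⟨h1, h2, -⟩ | ⟨z, e, k⟩
  · exact Or.inl ⟨⟨⟨⟨fun a b => Subtype.ext (SR4.IC.comm_of_sq h1 a.2 b.2)⟩⟩,
      fun a ha => (pow_two a).trans (h1 a ha)⟩, h2⟩
  · refine Or.inr ⟨k.card, aux (z := ⟨z, k.zQ⟩) (e := fun i => ⟨e i, k.mem i⟩)
      (fun c => k.z1 (congrArg Subtype.val c)) (Subtype.ext k.zz) (fun q => Subtype.ext (k.cz q q.2))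
      (fun i => Subtype.ext (k.sq i)) (fun i j h => Subtype.ext (k.cm i j h))
      (fun q => (k.sqz q q.2).imp Subtype.ext Subtype.ext)
      (fun q qq => (k.inv q q.2 (congrArg Subtype.val qq)).imp Subtype.ext
        (Or.imp Subtype.ext (Exists.imp fun i => Or.imp Subtype.ext Subtype.ext)))
      (k.prod.imp Subtype.ext Subtype.ext) fun q _ => ?_⟩
    rw [← mem_map_iff_mem (Subgroup.subtype_injective _), MonoidHom.map_closure, ← Set.range_comp]
    exact k.gen.le q.2

end Cfsg.Agent.S3106
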