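import Cfsg.Statements.S3356
import Cfsg.Agent.H26.HalfTrans

set_option autoImplicit false
open Cfsg

namespace Cfsg.Agent.S3356

open Cfsg.Agent.H26 MulAction Subgroup

/-- Let G be a finite 3/2-transitive permutation group: G acts faithfully and transitively on a finite set, the point stabilizers are non-trivial, and for each point a all orbits of G_a on the remaining points have the same size. Suppose G has a regular normal subgroup N and G is not a Frobenius group (some two-point stabilizer is non-trivial). Then N is an elementary abelian p-group for some prime p, and every non-trivial normal subgroup of G contains N (so N is the unique minimal normal subgroup). -/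
theorem result {G Ω : Type*} [Group G] [Finite G]
    [MulAction G Ω] [FaithfulSMul G Ω] [Finite Ω] (htrans : MulAction.IsPretransitive G Ω)
    (hne : ∀ a : Ω, MulAction.stabilizer G a ≠ ⊥)
    (hhalf : ∀ a b c : Ω, b ≠ a → c ≠ a →
      Nat.card (MulAction.orbit (MulAction.stabilizer G a) b) = Nat.card (MulAction.orbit (MulAction.stabilizer G a) c))
    (N : Subgroup G) [hN : N.Normal] (hNt : MulAction.IsPretransitive N Ω) (hNr : ∀ a : Ω, MulAction.stabilizer N a = ⊥)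
    (hnotF : ∃ a b : Ω, a ≠ b ∧ MulAction.stabilizer G a ⊓ MulAction.stabilizer G b ≠ ⊥) :
    (∃ p : ℕ, p.Prime ∧ IsMulCommutative N ∧ ∀ x ∈ N, x ^ p = 1) ∧
    (∀ M : Subgroup G, M.Normal → M ≠ ⊥ → N ≤ M) := by
  obtain ⟨a, b, hab, hD⟩ := hnotF
  set H := stabilizer G a with hH
  set m := Nat.card (orbit H b) with hm
  have hreg : ∀ x ∈ N, ∀ y ∈ N, x • a = y • a → x = y := by
    intro x hx y hy h
    have : (⟨y⁻¹ * x, N.mul_mem (N.inv_mem hy) hx⟩ : N) ∈ stabilizer N a := by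
      change (y⁻¹ * x) • a = a
      rw [mul_smul, h, inv_smul_smul]
    rw [hNr, mem_bot] at this
    exact (inv_mul_eq_one.1 (congrArg Subtype.val this)).symm
  have hne1 : ∀ x ∈ N, x ≠ 1 → x • a ≠ a := fun x hx h1 h =>
    h1 (hreg x hx 1 N.one_mem (by rw [h, one_smul]))
  have hcard : Nat.card N = Nat.card Ω := Nat.card_congr (Equiv.ofBijective (fun x => (x : G) • a)
    ⟨fun x y h => Subtype.ext (hreg _ x.2 _ y.2 h), fun c => hNt.exists_smul_eq a c⟩)
  have hcop : m.Coprime (Nat.card N) := by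
    have h1 : m ∣ ({a}ᶜ : Set Ω).ncard := dvd_ncard_of_orbits (G := H) (S := {a}ᶜ) (Set.toFinite _)
      (fun g y hy h => hy (by
        rw [Set.mem_singleton_iff] at h ⊢
        exact MulAction.injective g (h.trans g.2.symm)))
      fun y hy => hhalf a y b hy hab.symm
    have h2 := Set.ncard_add_ncard_compl ({a} : Set Ω)
    rw [Set.ncard_singleton] at h2
    rw [hcard, ← h2]
    exact (Nat.coprime_add_iff_left h1).2 (Nat.coprime_one_right _)
  let cz : G → Subgroup G := fun x => H ⊓ stabilizer G (x • a)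
  have hcz : ∀ x ∈ N, ∀ h, h ∈ cz x ↔ h ∈ H ∧ Commute h x := by
    intro x hx h
    refine and_congr_right fun hh => ?_
    have e : (h * x * h⁻¹) • a = h • x • a := by
      rw [mul_smul, mul_smul, (H.inv_mem hh : h⁻¹ • a = a)]
    change h • x • a = x • a ↔ _
    rw [← e]
    exact ⟨fun h1 => mul_inv_eq_iff_eq_mul.1 (hreg _ (hN.conj_mem x hx h) _ hx h1),
      fun h1 => by rw [h1.eq, mul_inv_cancel_right]⟩
  have hm0 : 0 < m := by
    rw [hm, card_orbit_eq_relIndex]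
    exact Nat.pos_of_ne_zero index_ne_zero_of_finite
  have F1 : ∀ x ∈ N, x ≠ 1 → Nat.card (cz x) = Nat.card (H ⊓ stabilizer G b : Subgroup G) := by
    intro x hx h1
    have a1 := card_orbit_mul_card_inf H (x • a)
    rw [hhalf a _ b (hne1 x hx h1) hab.symm] at a1
    exact Nat.eq_of_mul_eq_mul_left hm0 (a1.trans (card_orbit_mul_card_inf H b).symm)
  have F2 : ∀ x ∈ N, x ≠ 1 → ∀ y ∈ N, y ≠ 1 → cz x ≤ cz y → cz x = cz y :=
    fun x hx h1 y hy h2 h => eq_of_le_of_card_ge h (by rw [F1 x hx h1, F1 y hy h2])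
  have F0 : ∀ h ∈ H, (∀ y ∈ N, Commute h y) → h = 1 := by
    intro h hh hc
    refine eq_of_smul_eq_smul (α := Ω) fun c => ?_
    obtain ⟨y, rfl⟩ := hNt.exists_smul_eq a c
    rw [one_smul]
    exact ((hcz y y.2 h).2 ⟨hh, hc y y.2⟩).2
  have F3 : ∀ x ∈ N, x ≠ 1 → ∃ y ∈ N, ¬ cz x ≤ cz y := by
    intro x hx h1
    by_contra hcon
    push Not at hcon
    have : cz x = ⊥ := eq_bot_iff.2 fun h hh =>
      F0 h hh.1 fun y hy => ((hcz y hy h).1 (hcon y hy hh)).2
    apply hD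
    rw [← card_eq_one, ← F1 x hx h1, this, card_bot]
  have F5 : ∀ x ∈ N, ∀ y ∈ N, cz x ⊓ cz y ≤ cz (x * y) := fun x hx y hy h hh =>
    (hcz _ (N.mul_mem hx hy) h).2 ⟨hh.1.1, ((hcz x hx h).1 hh.1).2.mul_right ((hcz y hy h).1 hh.2).2⟩
  have F6 : ∀ x ∈ N, cz x ≤ cz x⁻¹ := fun x hx h hh =>
    (hcz _ (N.inv_mem hx) h).2 ⟨hh.1, ((hcz x hx h).1 hh).2.inv_right⟩
  have F7 : ∀ x ∈ N, ∀ n : ℕ, cz x ≤ cz (x ^ n) := fun x hx n h hh =>
    (hcz _ (N.pow_mem hx n) h).2 ⟨hh.1, ((hcz x hx h).1 hh).2.pow_right n⟩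
  have F8 : ∀ x, cz x ≤ cz 1 := fun x h hh => (hcz _ N.one_mem h).2 ⟨hh.1, Commute.one_right _⟩
  have F9 : ∀ z, ∀ x ∈ N, ∀ y ∈ N, cz z ≤ cz x → cz z ≤ cz (x * y) → cz z ≤ cz y := by
    intro z x hx y hy h1 h2
    have := F5 x⁻¹ (N.inv_mem hx) _ (N.mul_mem hx hy)
    rw [inv_mul_cancel_left] at this
    exact (le_inf (h1.trans (F6 x hx)) h2).trans this
  have F4 : ∀ x ∈ N, ∀ u ∈ N, cz x ≤ cz (u * x * u⁻¹) := by
    intro x hx u hu
    by_cases h1 : x = 1
    · rw [h1, mul_one, mul_inv_cancel]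
    let L : Subgroup G :=
      { carrier := {h | h ∈ H ∧ ∃ v ∈ N, h * x * h⁻¹ = v * x * v⁻¹}
        one_mem' := ⟨H.one_mem, 1, N.one_mem, rfl⟩
        mul_mem' := by
          rintro g h ⟨hg, v, hv, e1⟩ ⟨hh, w, hw, e2⟩
          refine ⟨H.mul_mem hg hh, g * w * g⁻¹ * v, N.mul_mem (hN.conj_mem w hw g) hv, ?_⟩
          calc g * h * x * (g * h)⁻¹ = g * (h * x * h⁻¹) * g⁻¹ := by group
            _ = g * w * g⁻¹ * (g * x * g⁻¹) * (g * w * g⁻¹)⁻¹ := by rw [e2]; group
            _ = _ := by rw [e1]; group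
        inv_mem' := by
          rintro g ⟨hg, v, hv, e1⟩
          refine ⟨H.inv_mem hg, g⁻¹ * v⁻¹ * g⁻¹⁻¹, hN.conj_mem _ (N.inv_mem hv) _, ?_⟩
          calc g⁻¹ * x * g⁻¹⁻¹ = g⁻¹ * v⁻¹ * (v * x * v⁻¹) * v * g := by group
            _ = _ := by rw [← e1]; group }
    let S : Set Ω := (fun z : N => (z : G) • a) '' orbit (ConjAct N) (⟨x, hx⟩ : N)
    have hS : ∀ y, y ∈ S ↔ ∃ v ∈ N, (v * x * v⁻¹) • a = y := by
      intro y
      constructor
      · rintro ⟨_, ⟨v, rfl⟩, rfl⟩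
        exact ⟨_, (ConjAct.ofConjAct v).2, rfl⟩
      · rintro ⟨v, hv, rfl⟩
        exact ⟨_, ⟨ConjAct.toConjAct ⟨v, hv⟩, rfl⟩, rfl⟩
    have hSc : S.ncard ∣ Nat.card N := by
      rw [Set.ncard_image_of_injective _ fun y z h => Subtype.ext (hreg _ y.2 _ z.2 h),
        ← index_stabilizer]
      exact index_dvd_card _
    have := le_stabilizer_of_coprime (H := H) (L := L) (fun h hh => hh.1) (S := S) (Set.toFinite _)
      (m := m) (by
        intro y hy
        obtain ⟨v, hv, rfl⟩ := (hS y).1 hy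
        exact hhalf a _ b (hne1 _ (hN.conj_mem x hx v) (by simpa using h1)) hab.symm)
      (hcop.coprime_dvd_right hSc) (by
        rintro g ⟨hg, w, hw, e⟩ y hy
        obtain ⟨v, hv, rfl⟩ := (hS y).1 hy
        refine (hS _).2 ⟨g * v * g⁻¹ * w, N.mul_mem (hN.conj_mem v hv g) hw, ?_⟩
        have : g * v * g⁻¹ * w * x * (g * v * g⁻¹ * w)⁻¹ = g * (v * x * v⁻¹) * g⁻¹ := by
          calc _ = g * v * g⁻¹ * (w * x * w⁻¹) * (g * v * g⁻¹)⁻¹ := by group
            _ = _ := by rw [← e]; group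
        rw [this, mul_smul, mul_smul, (H.inv_mem hg : g⁻¹ • a = a)])
      (by
        intro y hy h hh
        obtain ⟨v, hv, rfl⟩ := (hS y).1 hy
        have e := ((hcz _ (hN.conj_mem x hx v) h).1 hh).2.eq
        refine ⟨hh.1, h * v⁻¹ * h⁻¹ * v, N.mul_mem (hN.conj_mem _ (N.inv_mem hv) h) hv, ?_⟩
        calc h * x * h⁻¹ = h * v⁻¹ * h⁻¹ * (h * (v * x * v⁻¹)) * v * h⁻¹ := by group
          _ = _ := by rw [e]; group)
      ((hS _).2 ⟨u, hu, rfl⟩)
    intro h hh
    exact ⟨hh.1, this ⟨hh.1, 1, N.one_mem, by rw [((hcz x hx h).1 hh).2.eq]; group⟩⟩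
  have C1 : ∀ x ∈ N, x ≠ 1 → ∀ y ∈ N, ¬ cz x ≤ cz y → x * y = y * x := by
    intro x hx h1 y hy h
    have h2 : y ≠ 1 := by rintro rfl; exact h (F8 x)
    by_contra hc
    have hw : x * y * x⁻¹ * y⁻¹ ≠ 1 := by
      rwa [Ne, mul_inv_eq_one, mul_inv_eq_iff_eq_mul]
    have hwN := N.mul_mem (hN.conj_mem y hy x) (N.inv_mem hy)
    have e1 := F2 y hy h2 _ hwN hw
      ((le_inf (F4 y hy x hx) (F6 y hy)).trans (F5 _ (hN.conj_mem y hy x) _ (N.inv_mem hy)))
    have e2 : cz x ≤ cz (x * y * x⁻¹ * y⁻¹) := by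
      have := (le_inf le_rfl ((F6 x hx).trans (F4 _ (N.inv_mem hx) y hy))).trans
        (F5 _ hx _ (hN.conj_mem _ (N.inv_mem hx) y))
      rwa [← mul_assoc, ← mul_assoc] at this
    exact h (e1 ▸ e2)
  have hcomm : ∀ x ∈ N, ∀ y ∈ N, x * y = y * x := by
    intro x hx y hy
    by_cases h1 : x = 1
    · rw [h1, one_mul, mul_one]
    by_cases h2 : cz x ≤ cz y
    · obtain ⟨z, hz, h3⟩ := F3 x hx h1
      have e1 := C1 x hx h1 z hz h3
      have e2 := C1 x hx h1 (y * z) (N.mul_mem hy hz) fun h => h3 (F9 x y hy z hz h2 h)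
      apply mul_right_cancel (b := z)
      rw [mul_assoc, e2, mul_assoc, mul_assoc, e1]
    · exact C1 x hx h1 y hy h2
  refine ⟨?_, fun M hM hM1 => ?_⟩
  · have hN1 : Nat.card N ≠ 1 := by
      rw [hcard]
      intro h
      exact hab ((Nat.card_eq_one_iff_unique.1 h).1.elim _ _)
    obtain ⟨p, hp, hpd⟩ := Nat.exists_prime_and_dvd hN1
    have := Fact.mk hp
    obtain ⟨⟨x, hx⟩, hxo⟩ := exists_prime_orderOf_dvd_card' p hpd
    rw [← orderOf_coe] at hxo
    change orderOf x = p at hxo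
    have h1 : x ≠ 1 := fun h => by
      rw [h, orderOf_one] at hxo
      exact hp.one_lt.ne hxo
    have hxp : x ^ p = 1 := by rw [← hxo, pow_orderOf_eq_one]
    have E1 : ∀ y ∈ N, ¬ cz x ≤ cz y → y ^ p = 1 := by
      intro y hy h
      have h2 : y ≠ 1 := by rintro rfl; exact h (F8 x)
      by_contra hc
      have h3 : y * x ≠ 1 := fun h' => h (by rw [eq_inv_of_mul_eq_one_left h']; exact F6 x hx)
      have e1 := F2 y hy h2 _ (N.pow_mem hy p) hc (F7 y hy p)
      have e2 := F7 _ (N.mul_mem hy hx) p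
      rw [Commute.mul_pow (hcomm y hy x hx), hxp, mul_one] at e2
      have e3 := F2 _ (N.mul_mem hy hx) h3 _ (N.pow_mem hy p) hc e2
      exact h (F2 y hy h2 x hx h1 (F9 y y hy x hx le_rfl (e1.trans e3.symm).le)).ge
    refine ⟨p, hp, ⟨⟨fun x y => Subtype.ext (hcomm _ x.2 _ y.2)⟩⟩, fun y hy => ?_⟩
    by_cases h2 : cz x ≤ cz y
    · obtain ⟨z, hz, h3⟩ := F3 x hx h1
      have e2 := E1 (y * z) (N.mul_mem hy hz) fun h => h3 (F9 x y hy z hz h2 h)
      rwa [Commute.mul_pow (hcomm y hy z hz), E1 z hz h3, mul_one] at e2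
    · exact E1 y hy h2
  · have hU : M ⊓ N ≠ ⊥ := by
      intro hU
      refine hM1 (eq_bot_iff.2 fun g hg => ?_)
      obtain ⟨n, hn⟩ := hNt.exists_smul_eq a (g • a)
      have h1 : (n : G)⁻¹ * g = 1 := F0 _ (by
        change ((n : G)⁻¹ * g) • a = a
        rw [mul_smul, ← hn]
        exact inv_smul_smul _ _) fun y hy =>
          Commute.mul_left (hcomm _ (N.inv_mem n.2) y hy)
            (commute_of_normal_of_disjoint M N hM hN (disjoint_iff.2 hU) g y hg hy)
      rw [← hU]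
      exact ⟨hg, inv_mul_eq_one.1 h1 ▸ n.2⟩
    by_contra hcon
    have key : ∀ x ∈ N, x ∉ M → ∀ u ∈ M ⊓ N, cz x ≤ cz u := by
      intro x hx hxM u hu
      let L : Subgroup G :=
        { carrier := {h | h ∈ H ∧ x⁻¹ * (h * x * h⁻¹) ∈ M}
          one_mem' := ⟨H.one_mem, by simp⟩
          mul_mem' := by
            rintro g h ⟨hg, e1⟩ ⟨hh, e2⟩
            refine ⟨H.mul_mem hg hh, ?_⟩
            have := M.mul_mem e1 (hM.conj_mem _ e2 g)
            convert this using 1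
            group
          inv_mem' := by
            rintro g ⟨hg, e1⟩
            refine ⟨H.inv_mem hg, ?_⟩
            have := hM.conj_mem _ (M.inv_mem e1) g⁻¹
            convert this using 1
            group }
      let S : Set Ω := (fun z : G => (x * z) • a) '' (M ⊓ N : Subgroup G)
      have hSc : S.ncard ∣ Nat.card N := by
        rw [Set.InjOn.ncard_image fun y hy z hz h =>
          mul_left_cancel (hreg _ (N.mul_mem hx hy.2) _ (N.mul_mem hx hz.2) h)]
        exact card_dvd_of_le (inf_le_right : M ⊓ N ≤ N)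
      have := le_stabilizer_of_coprime (H := H) (L := L) (fun h hh => hh.1) (S := S)
        (Set.toFinite _) (m := m) (by
          rintro _ ⟨v, hv, rfl⟩
          refine hhalf a _ b (hne1 _ (N.mul_mem hx hv.2) fun h => hxM ?_) hab.symm
          rw [eq_inv_of_mul_eq_one_left h]
          exact M.inv_mem hv.1)
        (hcop.coprime_dvd_right hSc) (by
          rintro g ⟨hg, e⟩ _ ⟨v, hv, rfl⟩
          refine ⟨x⁻¹ * (g * x * g⁻¹) * (g * v * g⁻¹), ⟨M.mul_mem e (hM.conj_mem v hv.1 g),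
            N.mul_mem (N.mul_mem (N.inv_mem hx) (hN.conj_mem x hx g)) (hN.conj_mem v hv.2 g)⟩, ?_⟩
          have : x * (x⁻¹ * (g * x * g⁻¹) * (g * v * g⁻¹)) = g * (x * v) * g⁻¹ := by group
          change (x * _) • a = _
          rw [this, mul_smul, mul_smul, (H.inv_mem hg : g⁻¹ • a = a)])
        (by
          rintro _ ⟨v, hv, rfl⟩ h hh
          have e := ((hcz _ (N.mul_mem hx hv.2) h).1 hh).2.eq
          refine ⟨hh.1, ?_⟩
          have : x⁻¹ * (h * x * h⁻¹) = v * (h * v⁻¹ * h⁻¹) := by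
            calc _ = x⁻¹ * (h * (x * v)) * v⁻¹ * h⁻¹ := by group
              _ = _ := by rw [e]; group
          rw [this]
          exact M.mul_mem hv.1 (hM.conj_mem _ (M.inv_mem hv.1) h))
        (y := (x * u) • a) ⟨u, hu, rfl⟩
      refine F9 x x hx u hu.2 le_rfl fun h hh => ⟨hh.1, this ⟨hh.1, ?_⟩⟩
      rw [((hcz x hx h).1 hh).2.eq]
      simp
    obtain ⟨x, hx, hxM⟩ := SetLike.not_le_iff_exists.1 hcon
    obtain ⟨⟨u, hu⟩, hu1⟩ := ne_bot_iff_exists_ne_one.1 hU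
    have hu1' : u ≠ 1 := fun h => hu1 (Subtype.ext h)
    have e : ∀ x ∈ N, x ∉ M → cz x = cz u := fun x hx hxM =>
      F2 x hx (fun h => hxM (h ▸ M.one_mem)) u hu.2 hu1' (key x hx hxM u hu)
    obtain ⟨y, hy, h⟩ := F3 u hu.2 hu1'
    by_cases hyM : y ∈ M
    · exact h (e x hx hxM ▸ key x hx hxM y ⟨hyM, hy⟩)
    · exact h (e y hy hyM).ge

end Cfsg.Agent.S3356
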