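import Cfsg.Statements.S3357
import Cfsg.Agent.H24.FpfBasic

set_option autoImplicit false
open Cfsg

namespace Cfsg.Agent.S3357

theorem aux {G : Type*} [Group G] {F : Type*} [Field F] {V : Type*} [AddCommGroup V] [Module F V]
    [FiniteDimensional F V] [Nontrivial V] (σ : G →* Module.End F V)
    (hσ : ∀ g : G, g ≠ 1 → ∀ v : V, σ g v = v → v = 0) :
    ∃ (n : ℕ) (ρ : G →* GL (Fin n) F), 0 < n ∧ Function.Injective ρ ∧
      (∀ W : Submodule F (Fin n → F),
        (∀ g : G, ∀ w ∈ W, ((ρ g : GL (Fin n) F) : Matrix (Fin n) (Fin n) F).mulVec w ∈ W) →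
          W = ⊥ ∨ W = ⊤) ∧
      ∀ g : G, g ≠ 1 → ∀ v : Fin n → F,
        ((ρ g : GL (Fin n) F) : Matrix (Fin n) (Fin n) F).mulVec v = v → v = 0 := by
  classical
  let S : Set (Submodule F V) := {U | U ≠ ⊥ ∧ ∀ g, ∀ u ∈ U, σ g u ∈ U}
  have hS : S.Nonempty := ⟨⊤, top_ne_bot, fun _ _ _ => trivial⟩
  obtain ⟨U, ⟨hU0, hU⟩, hmin⟩ := (wellFounded_lt (α := Submodule F V)).has_min S hS
  let τ : Representation F G U := Representation.subrepresentation σ U (fun g u hu => hU g u hu)
  let b := Module.finBasis F U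
  let ρ0 : G →* Matrix (Fin (Module.finrank F U)) (Fin (Module.finrank F U)) F :=
    (LinearMap.toMatrixAlgEquiv b).toMonoidHom.comp τ
  have hρ : ∀ g (u : U), (ρ0 g).mulVec (b.equivFun u) = b.equivFun (τ g u) := by
    intro g u
    exact LinearMap.toMatrix_mulVec_repr b b (τ g) u
  have hfix : ∀ g : G, g ≠ 1 → ∀ v, (ρ0 g).mulVec v = v → v = 0 := by
    intro g hg v hv
    obtain ⟨u, rfl⟩ := b.equivFun.surjective v
    rw [hρ] at hv
    have h1 := b.equivFun.injective hv
    have h2 : u = 0 := Subtype.ext (hσ g hg u (congrArg Subtype.val h1))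
    rw [h2, map_zero]
  have hUnt : Nontrivial U := Submodule.nontrivial_iff_ne_bot.mpr hU0
  have hpos : 0 < Module.finrank F U := Module.finrank_pos
  refine ⟨_, ρ0.toHomUnits, hpos, ?_, ?_, hfix⟩
  · rw [injective_iff_map_eq_one]
    intro g hg
    by_contra h1
    obtain ⟨u, hu⟩ := exists_ne (0 : U)
    have h2 : ρ0 g = 1 := congrArg Units.val hg
    have := hfix g h1 (b.equivFun u) (by rw [h2, Matrix.one_mulVec])
    exact hu (b.equivFun.map_eq_zero_iff.mp this)
  · intro W hW
    by_contra hcon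
    push Not at hcon
    let W' : Submodule F V := (W.comap b.equivFun.toLinearMap).map U.subtype
    apply hmin W'
    · constructor
      · obtain ⟨w, hw, hw0⟩ := (Submodule.ne_bot_iff W).mp hcon.1
        rw [Submodule.ne_bot_iff]
        refine ⟨b.equivFun.symm w, ⟨b.equivFun.symm w, by
          change b.equivFun (b.equivFun.symm w) ∈ W
          rwa [LinearEquiv.apply_symm_apply], rfl⟩, fun e => hw0 ?_⟩
        have : b.equivFun.symm w = 0 := Subtype.ext e
        exact b.equivFun.symm.map_eq_zero_iff.mp this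
      · rintro g _ ⟨u, hu, rfl⟩
        refine ⟨τ g u, ?_, rfl⟩
        have := hW g _ hu
        change (ρ0 g).mulVec (b.equivFun u) ∈ W at this
        rw [hρ] at this
        exact this
    · refine lt_of_le_of_ne (Submodule.map_subtype_le _ _) fun e => hcon.2 ?_
      rw [eq_top_iff]
      intro w _
      have : ((b.equivFun.symm w : U) : V) ∈ W' := by
        rw [e]; exact (b.equivFun.symm w).2
      obtain ⟨u, hu, hu'⟩ := this
      have h3 : u = b.equivFun.symm w := Subtype.ext hu'
      rw [h3] at hu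
      change b.equivFun (b.equivFun.symm w) ∈ W at hu
      rwa [LinearEquiv.apply_symm_apply] at hu

/-- Let G be a finite group that occurs as a Frobenius complement. Then G has a faithful irreducible representation over an algebraic closure of the rationals in which no non-identity element of G has 1 as an eigenvalue: there are n ≥ 1 and an injective homomorphism ρ from G to GL(n) over that field, with no invariant subspace other than 0 and the whole space, such that for g ≠ 1 the only vector fixed by ρ(g) is 0. -/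
theorem result {G : Type*} [Group G] [Finite G]
    (hFC : ∃ (L : Type) (_ : Group L) (_ : Finite L) (H : Subgroup L), Cfsg.IsFrobeniusComplement H ∧ Nonempty (G ≃* H)) :
    ∃ (n : ℕ) (ρ : G →* GL (Fin n) (AlgebraicClosure ℚ)), 0 < n ∧ Function.Injective ρ ∧
      (∀ W : Submodule (AlgebraicClosure ℚ) (Fin n → AlgebraicClosure ℚ),
        (∀ g : G, ∀ w ∈ W, ((ρ g : GL (Fin n) (AlgebraicClosure ℚ)) : Matrix (Fin n) (Fin n) (AlgebraicClosure ℚ)).mulVec w ∈ W) → W = ⊥ ∨ W = ⊤) ∧
      ∀ g : G, g ≠ 1 → ∀ v : Fin n → AlgebraicClosure ℚ,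
        ((ρ g : GL (Fin n) (AlgebraicClosure ℚ)) : Matrix (Fin n) (Fin n) (AlgebraicClosure ℚ)).mulVec v = v → v = 0 :=
  have := (H24.fpf_of_exists_frob hFC).nontrivial_fpfSpace (AlgebraicClosure ℚ)
  aux (H24.fpfRep (AlgebraicClosure ℚ) G) (H24.fpfRep_fpf _ (by exact_mod_cast Nat.card_pos.ne'))

end Cfsg.Agent.S3357
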