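import Mathlib
import Cfsg.Statements.S3379

set_option autoImplicit false
open Cfsg
open scoped commutatorElement

namespace Cfsg.Agent.S3379

theorem conj_pow_pow {G : Type*} [Group G] {x y : G} {r : ℕ} (h : x⁻¹ * y * x = y ^ r) (k : ℕ) :
    (x ^ k)⁻¹ * y * x ^ k = y ^ r ^ k := by
  induction k with
  | zero => simp
  | succ k ih =>
    have : (x ^ (k + 1))⁻¹ * y * x ^ (k + 1) = x⁻¹ * ((x ^ k)⁻¹ * y * x ^ k) * x⁻¹⁻¹ := by
      rw [pow_succ]; group
    rw [this, ih, ← conj_pow, inv_inv, h, ← pow_mul, ← pow_succ']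

/-- Let G be a finite group all of whose Sylow subgroups are cyclic. Then G is generated by two elements x and y of coprime orders n and m with x⁻¹yx = y^r, where gcd(r − 1, m) = 1 and r^n ≡ 1 (mod m). -/
theorem result {G : Type*} [Group G] [Finite G]
    (hZ : ∀ (p : ℕ) [Fact p.Prime] (P : Sylow p G), IsCyclic (P : Subgroup G)) :
    ∃ (x y : G) (n m r : ℕ), Subgroup.closure {x, y} = ⊤ ∧ orderOf x = n ∧ orderOf y = m ∧
      x⁻¹ * y * x = y ^ r ∧ Nat.Coprime (r - 1) m ∧ Nat.Coprime n m ∧ 1 ≤ r ∧ r ^ n % m = 1 % m := by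
  haveI : IsZGroup G := ⟨fun p hp P => @hZ p ⟨hp⟩ P⟩
  have hco := IsZGroup.coprime_commutator_index G
  obtain ⟨H, hH⟩ := Subgroup.exists_right_complement'_of_coprime hco
  haveI : IsCyclic (G ⧸ commutator G) := IsZGroup.isCyclic_abelianization
  have hHc : IsCyclic H :=
    isCyclic_of_surjective _ hH.symm.QuotientMulEquiv.surjective
  have hNc := IsZGroup.isCyclic_commutator G
  obtain ⟨x, hx⟩ := (Subgroup.isCyclic_iff_exists_zpowers_eq_top H).mp hHc
  obtain ⟨y, hy⟩ := (Subgroup.isCyclic_iff_exists_zpowers_eq_top _).mp hNc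
  have hyN : y ∈ commutator G := hy ▸ Subgroup.mem_zpowers y
  have hgen : Subgroup.closure {x, y} = ⊤ := by
    rw [eq_top_iff, ← hH.sup_eq_top, ← hx, ← hy]
    exact sup_le (Subgroup.zpowers_le.mpr (Subgroup.subset_closure (by simp)))
      (Subgroup.zpowers_le.mpr (Subgroup.subset_closure (by simp)))
  have hm : 0 < orderOf y := orderOf_pos y
  obtain ⟨r, hr1, hr⟩ : ∃ r : ℕ, 1 ≤ r ∧ x⁻¹ * y * x = y ^ r := by
    have h1 : x⁻¹ * y * x ∈ Subgroup.zpowers y := by
      rw [hy]
      simpa using (inferInstance : (commutator G).Normal).conj_mem y hyN x⁻¹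
    rw [← mem_powers_iff_mem_zpowers] at h1
    obtain ⟨k, hk⟩ := h1
    refine ⟨k + orderOf y, by omega, ?_⟩
    rw [pow_add, pow_orderOf_eq_one, mul_one]
    exact hk.symm
  refine ⟨x, y, _, _, r, hgen, rfl, rfl, hr, ?_, ?_, hr1, ?_⟩
  · set K := Subgroup.zpowers (y ^ (r - 1)) with hK
    have hKn : K.Normal := by
      rw [← Subgroup.normalizer_eq_top_iff, eq_top_iff, ← hgen, Subgroup.closure_le]
      rintro z (rfl | rfl)
      · apply Subgroup.inv_mem_iff _ |>.mp
        apply Subgroup.mem_normalizer_fintype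
        rintro _ ⟨k, rfl⟩
        simp only
        rw [← conj_zpow, ← conj_pow, inv_inv, hr, ← pow_mul, mul_comm, pow_mul]
        exact K.zpow_mem (K.pow_mem (Subgroup.mem_zpowers _) _) _
      · apply Subgroup.mem_normalizer_fintype
        rintro _ ⟨k, rfl⟩
        simp only
        rw [← conj_zpow, ← conj_pow, mul_inv_cancel_right]
        exact K.zpow_mem (Subgroup.mem_zpowers _) _
    have hle : commutator G ≤ K := by
      rw [← Subgroup.Normal.quotient_commutative_iff_commutator_le]
      have h1 : Subgroup.closure {(x : G ⧸ K), (y : G ⧸ K)} = ⊤ := by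
        have := congrArg (Subgroup.map (QuotientGroup.mk' K)) hgen
        rwa [MonoidHom.map_closure, Set.image_pair, Subgroup.map_top_of_surjective _
          (QuotientGroup.mk'_surjective K)] at this
      have h2 : (y : G ⧸ K) * x = x * y := by
        rw [← QuotientGroup.mk_mul, ← QuotientGroup.mk_mul, eq_comm, QuotientGroup.eq]
        have : (x * y)⁻¹ * (y * x) = y ^ (r - 1) := by
          obtain ⟨s, rfl⟩ : ∃ s, r = s + 1 := ⟨r - 1, by omega⟩
          rw [mul_inv_rev, mul_assoc, ← mul_assoc x⁻¹, hr, pow_succ', inv_mul_cancel_left]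
          rfl
        rw [this]
        exact Subgroup.mem_zpowers _
      have h3 : IsMulCommutative (Subgroup.closure {(x : G ⧸ K), (y : G ⧸ K)}) := by
        apply Subgroup.isMulCommutative_closure
        rintro a (rfl | rfl) b (rfl | rfl)
        · rfl
        · exact h2.symm
        · exact h2
        · rfl
      rw [h1] at h3
      exact ⟨⟨fun a b => congrArg Subtype.val
        (h3.is_comm.comm (⟨a, trivial⟩ : (⊤ : Subgroup (G ⧸ K))) ⟨b, trivial⟩)⟩⟩
    have h4 := Subgroup.card_dvd_of_le hle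
    rw [← hy, hK, Nat.card_zpowers, Nat.card_zpowers, orderOf_pow] at h4
    have h5 := Nat.le_of_dvd (Nat.div_pos (Nat.gcd_le_left _ hm) (Nat.gcd_pos_of_pos_left _ hm)) h4
    rw [Nat.Coprime, Nat.gcd_comm]
    by_contra hne
    have h6 : 1 < (orderOf y).gcd (r - 1) := by
      have := Nat.gcd_pos_of_pos_left (r - 1) hm
      omega
    exact absurd (Nat.div_lt_self hm h6) (not_lt.mpr h5)
  · rw [← Nat.card_zpowers, ← Nat.card_zpowers, hx, hy, ← hH.symm.index_eq_card]
    exact hco.symm
  · have := conj_pow_pow hr (orderOf x)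
    rw [pow_orderOf_eq_one, inv_one, one_mul, mul_one] at this
    exact (pow_eq_pow_iff_modEq.mp (this.symm.trans (pow_one y).symm))

end Cfsg.Agent.S3379
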