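import Cfsg.Statements.S3358
import Cfsg.Agent.H24.FpfSolv
import Cfsg.Agent.S3379

set_option autoImplicit false
open Cfsg

namespace Cfsg.Agent.S3358

open H24

theorem modEq_of_geom {m s R : ℕ} (hs : 1 ≤ s) (hR : R.Coprime m) (h1 : s ^ R ≡ 1 [MOD m])
    (h2 : ∀ q : ℕ, q.Prime → q ∣ m → s ≡ 1 [MOD q]) : s ≡ 1 [MOD m] := by
  have h3 : (∑ i ∈ Finset.range R, s ^ i).Coprime m := by
    apply Nat.coprime_of_dvd
    intro q hq h4 h5
    have h6 : (s : ZMod q) = 1 := by
      have := (ZMod.natCast_eq_natCast_iff _ _ _).mpr (h2 q hq h5)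
      simpa using this
    rw [← ZMod.natCast_eq_zero_iff] at h4
    push_cast at h4
    simp only [h6, one_pow, Finset.sum_const, Finset.card_range, nsmul_eq_mul, mul_one,
      ZMod.natCast_eq_zero_iff] at h4
    exact hq.one_lt.ne' (Nat.eq_one_of_dvd_coprimes hR h4 h5)
  have h7 := geom_sum_mul_of_one_le hs R
  have h8 : m ∣ s ^ R - 1 := (Nat.modEq_iff_dvd' (Nat.one_le_pow _ _ hs)).mp h1.symm
  rw [← h7] at h8
  exact ((Nat.modEq_iff_dvd' hs).mpr (h3.symm.dvd_of_dvd_mul_left h8)).symm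

theorem modEq_rad {n m r : ℕ} (hn : 0 < n) (hr : 1 ≤ r) (hnm : n.Coprime m)
    (h1 : r ^ n ≡ 1 [MOD m])
    (h2 : ∀ p q : ℕ, p.Prime → q.Prime → p ∣ n → q ∣ m → r ^ (n / p) ≡ 1 [MOD q]) :
    r ^ (n / ∏ p ∈ n.primeFactors, p) ≡ 1 [MOD m] := by
  classical
  obtain ⟨t, ht⟩ := Nat.prod_primeFactors_dvd n
  set R := ∏ p ∈ n.primeFactors, p with hR
  have hR0 : 0 < R := Nat.pos_of_mul_pos_right (ht ▸ hn) |> fun _ =>
    Nat.pos_of_ne_zero fun e => by rw [e] at ht; omega
  have e1 : n / R = t := by rw [ht, Nat.mul_div_cancel_left _ hR0]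
  rw [e1]
  have h3 : (r ^ t) ^ R ≡ 1 [MOD m] := by rwa [← pow_mul, mul_comm, ← ht]
  refine modEq_of_geom (Nat.one_le_pow _ _ hr) (hnm.coprime_dvd_left ⟨t, ht⟩) h3 fun q hq hqm => ?_
  rw [← ZMod.natCast_eq_natCast_iff, Nat.cast_one, ← orderOf_eq_one_iff]
  by_contra hd
  obtain ⟨p, hp, hpd⟩ := Nat.exists_prime_and_dvd hd
  have h4 : orderOf ((r ^ t : ℕ) : ZMod q) ∣ R := by
    apply orderOf_dvd_of_pow_eq_one
    have := (ZMod.natCast_eq_natCast_iff _ _ _).mpr (h3.of_dvd hqm)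
    simpa using this
  have hpn : p ∣ n := hpd.trans (h4.trans ⟨t, ht⟩)
  have hpm : p ∈ n.primeFactors := Nat.mem_primeFactors.mpr ⟨hp, hpn, hn.ne'⟩
  have e2 := Finset.mul_prod_erase n.primeFactors (fun p => p) hpm
  set R' := ∏ x ∈ n.primeFactors.erase p, x with hR'
  have h5 : orderOf ((r ^ t : ℕ) : ZMod q) ∣ R' := by
    apply orderOf_dvd_of_pow_eq_one
    have := (ZMod.natCast_eq_natCast_iff _ _ _).mpr (h2 p q hp hq hpn hqm)
    have e3 : n / p = t * R' := by
      conv_lhs => rw [ht, hR, ← e2, mul_assoc, Nat.mul_div_cancel_left _ hp.pos, mul_comm]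
    rw [e3, pow_mul] at this
    simpa using this
  obtain ⟨a, ha, hpa⟩ := (hp.prime.dvd_finset_prod_iff _).mp (hpd.trans h5)
  rw [Finset.mem_erase] at ha
  exact ha.1 ((Nat.prime_dvd_prime_iff_eq hp (Nat.prime_of_mem_primeFactors ha.2)).mp hpa).symm

theorem card_le_meta {P : Type*} [Group P] {x y : P} {n m r : ℕ} (hn : 0 < n) (hm : 0 < m)
    (hx : x ^ n = 1) (hy : y ^ m = 1) (hxy : x⁻¹ * y * x = y ^ r)
    (hS : Subgroup.closure {x, y} = ⊤) : Finite P ∧ Nat.card P ≤ n * m := by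
  refine card_le_of_index_le hn hx ?_
  have hT : ∀ j : ℕ, ((y ^ j : P) : P ⧸ Subgroup.zpowers x) ∈
      (List.range m).map fun j => ((y ^ j : P) : P ⧸ Subgroup.zpowers x) := fun j =>
    List.mem_map.mpr ⟨j % m, List.mem_range.mpr (Nat.mod_lt _ hm), by
      rw [← pow_eq_pow_mod j hy]⟩
  have := index_le_of_list (Subgroup.zpowers x) {x⁻¹, y} (by
      rw [eq_top_iff, ← hS, Subgroup.closure_le]
      rintro s (rfl | rfl)
      · exact inv_mem_iff.mp (Subgroup.subset_closure (by simp))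
      · exact Subgroup.subset_closure (by simp))
    ((List.range m).map fun j => ((y ^ j : P) : P ⧸ Subgroup.zpowers x))
    (by simpa using hT 0) (by
      rintro s (rfl | rfl) q hq
      · obtain ⟨j, -, rfl⟩ := List.mem_map.mp hq
        convert hT (r * j) using 1
        rw [MulAction.Quotient.smul_mk, QuotientGroup.eq, smul_eq_mul, pow_mul, ← hxy,
          show x⁻¹ * y * x = x⁻¹ * y * x⁻¹⁻¹ by rw [inv_inv], conj_pow]
        simp [mul_assoc]
      · obtain ⟨j, -, rfl⟩ := List.mem_map.mp hq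
        convert hT (j + 1) using 1
        rw [MulAction.Quotient.smul_mk, smul_eq_mul, pow_succ'])
  simpa using this

theorem zpart {G : Type*} [Group G] [Finite G] (h : Fpf G) [IsZGroup G] :
    ∃ n m r : ℕ, 0 < n ∧ 0 < m ∧ Nat.Coprime (r - 1) m ∧ Nat.Coprime n m ∧ 1 ≤ r ∧
        r ^ (n / ∏ p ∈ n.primeFactors, p) % m = 1 % m ∧
        Nonempty (G ≃* PresentedGroup
          ({FreeGroup.of (0 : Fin 2) ^ n, FreeGroup.of (1 : Fin 2) ^ m,
            (FreeGroup.of (0 : Fin 2))⁻¹ * FreeGroup.of 1 * FreeGroup.of 0 * (FreeGroup.of (1 : Fin 2) ^ r)⁻¹} :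
            Set (FreeGroup (Fin 2)))) := by
  obtain ⟨x, y, n, m, r, hgen, hx, hy, hxy, hr, hnm, hr1, hrn⟩ :=
    S3379.result (G := G) fun p _ P => inferInstance
  have hn : 0 < n := hx ▸ orderOf_pos x
  have hm : 0 < m := hy ▸ orderOf_pos y
  refine ⟨n, m, r, hn, hm, hr, hnm, hr1, modEq_rad hn hr1 hnm hrn fun p q hp hq hpn hqm => ?_, ?_⟩
  · have o1 : orderOf (x ^ (n / p))⁻¹ = p := by
      rw [orderOf_inv, ← hx]
      exact orderOf_pow_orderOf_div (hx ▸ hn.ne') (hx ▸ hpn)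
    have o2 : orderOf (y ^ (m / q)) = q := by
      rw [← hy]
      exact orderOf_pow_orderOf_div (hy ▸ hm.ne') (hy ▸ hqm)
    have e1 : (x ^ (n / p))⁻¹ * y ^ (m / q) * (x ^ (n / p))⁻¹⁻¹ = (y ^ (m / q)) ^ r ^ (n / p) := by
      rw [← conj_pow, inv_inv, S3379.conj_pow_pow hxy, ← pow_mul, ← pow_mul, mul_comm]
    have e2 := h.commute_of_prime (o1 ▸ hp) (o2 ▸ hq) (by
      apply Subgroup.mem_normalizer_fintype
      rintro _ ⟨k, rfl⟩
      simp only
      rw [← conj_zpow, e1]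
      exact zpow_mem (pow_mem (Subgroup.mem_zpowers _) _) _)
    rw [e2, mul_inv_cancel_right] at e1
    rw [← o2]
    exact (pow_eq_pow_iff_modEq.mp (e1.symm.trans (pow_one _).symm))
  · set rels := ({FreeGroup.of (0 : Fin 2) ^ n, FreeGroup.of (1 : Fin 2) ^ m,
            (FreeGroup.of (0 : Fin 2))⁻¹ * FreeGroup.of 1 * FreeGroup.of 0 *
              (FreeGroup.of (1 : Fin 2) ^ r)⁻¹} : Set (FreeGroup (Fin 2))) with hrels
    have hf : ∀ w ∈ rels, FreeGroup.lift ![x, y] w = 1 := by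
      rintro w (rfl | rfl | rfl) <;>
        simp only [map_pow, map_mul, map_inv, FreeGroup.lift_apply_of, Matrix.cons_val_zero,
          Matrix.cons_val_one]
      · rw [← hx, pow_orderOf_eq_one]
      · rw [← hy, pow_orderOf_eq_one]
      · rw [hxy, mul_inv_cancel]
    let φ := PresentedGroup.toGroup hf
    have hsurj : Function.Surjective φ := by
      rw [← MonoidHom.range_eq_top, eq_top_iff, ← hgen, Subgroup.closure_le]
      rintro s (rfl | rfl)
      · exact ⟨PresentedGroup.of 0, PresentedGroup.toGroup.of hf⟩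
      · exact ⟨PresentedGroup.of 1, PresentedGroup.toGroup.of hf⟩
    obtain ⟨h1, h2⟩ := card_le_meta (P := PresentedGroup rels) (x := PresentedGroup.of 0)
      (y := PresentedGroup.of 1) (r := r) hn hm
      (PresentedGroup.one_of_mem (x := FreeGroup.of (0 : Fin 2) ^ n) (by simp [hrels]))
      (PresentedGroup.one_of_mem (x := FreeGroup.of (1 : Fin 2) ^ m) (by simp [hrels]))
      (mul_inv_eq_one.mp (PresentedGroup.one_of_mem (x := (FreeGroup.of (0 : Fin 2))⁻¹ *
        FreeGroup.of 1 * FreeGroup.of 0 * (FreeGroup.of (1 : Fin 2) ^ r)⁻¹) (by simp [hrels])))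
      (by
        rw [← PresentedGroup.closure_range_of]
        congr 1
        ext g
        simp [Fin.exists_fin_two, eq_comm])
    have h3 : n * m ≤ Nat.card G := Nat.le_of_dvd Nat.card_pos
      (hnm.mul_dvd_of_dvd_of_dvd (hx ▸ orderOf_dvd_natCard x) (hy ▸ orderOf_dvd_natCard y))
    exact ⟨(MulEquiv.ofBijective φ (hsurj.bijective_of_nat_card_le (h2.trans h3))).symm⟩

/-- Structure of solvable Frobenius complements. Let G be a finite solvable group that occurs as a Frobenius complement. Then G has a normal subgroup G₀ such that G/G₀ is isomorphic to a subgroup of Sym(4) (G₀ is the kernel of a homomorphism to Sym(4)), all Sylow subgroups of G₀ are cyclic, and G₀ has a presentation ⟨x, y | x^n = 1, y^m = 1, x⁻¹ y x = y^r⟩ with n, m ≥ 1, gcd(r − 1, m) = gcd(n, m) = 1 and r^(n/n′) ≡ 1 (mod m), where n′ is the product of the distinct primes dividing n. -/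
theorem result {G : Type*} [Group G] [Finite G] (hsol : Group.IsSolvable G)
    (hFC : ∃ (L : Type) (_ : Group L) (_ : Finite L) (H : Subgroup L), Cfsg.IsFrobeniusComplement H ∧ Nonempty (G ≃* H)) :
    ∃ G₀ : Subgroup G, G₀.Normal ∧
      (∃ f : G →* Equiv.Perm (Fin 4), f.ker = G₀) ∧
      (∀ (p : ℕ) [Fact p.Prime] (P : Sylow p G₀), IsCyclic P) ∧
      ∃ n m r : ℕ, 0 < n ∧ 0 < m ∧ Nat.Coprime (r - 1) m ∧ Nat.Coprime n m ∧ 1 ≤ r ∧
        r ^ (n / ∏ p ∈ n.primeFactors, p) % m = 1 % m ∧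
        Nonempty (G₀ ≃* PresentedGroup
          ({FreeGroup.of (0 : Fin 2) ^ n, FreeGroup.of (1 : Fin 2) ^ m,
            (FreeGroup.of (0 : Fin 2))⁻¹ * FreeGroup.of 1 * FreeGroup.of 0 * (FreeGroup.of (1 : Fin 2) ^ r)⁻¹} :
            Set (FreeGroup (Fin 2)))) := by
  have h := fpf_of_exists_frob hFC
  obtain ⟨f, hZ⟩ : ∃ f : G →* Equiv.Perm (Fin 4), IsZGroup f.ker := by
    rcases h.solvable_cases with h1 | ⟨f, hf, -⟩
    · rcases h.nilpotent_cases h1 with h2 | ⟨f, -, h2⟩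
      · exact ⟨1, inferInstance⟩
      · let e : DihedralGroup 2 ≃ Fin 4 := Finite.equivFinOfCardEq DihedralGroup.nat_card
        let ι : DihedralGroup 2 →* Equiv.Perm (Fin 4) :=
          e.permCongrHom.toMonoidHom.comp (MulAction.toPermHom (DihedralGroup 2) (DihedralGroup 2))
        have hι : Function.Injective ι := e.permCongrHom.injective.comp MulAction.toPerm_injective
        refine ⟨ι.comp f, ?_⟩
        rwa [← MonoidHom.comap_ker, (MonoidHom.ker_eq_bot_iff ι).mpr hι]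
    · exact ⟨f, (h.subgroup _).isZGroup_of_no_four fun c hc =>
        Subtype.ext (hf c c.2 (congrArg Subtype.val hc))⟩
  exact ⟨f.ker, inferInstance, ⟨f, rfl⟩, fun p _ P => inferInstance, zpart (h.subgroup _)⟩

end Cfsg.Agent.S3358
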