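import Cfsg.Statements.S3362
import Cfsg.Agent.H14.PermSimple

set_option autoImplicit false
open Cfsg

namespace Cfsg.Agent.S3362

open Cfsg.Agent.H14

def gens : List ℕ := [nat_lit 0x9ba687354210, nat_lit 0x543ba9876210, nat_lit 0xa74b85963210, nat_lit 0x49865ab73210, nat_lit 0x95746b8a3210, nat_lit 0x98ba67540213, nat_lit 0x876ba9543201, nat_lit 0x687a9b543120]
def gens11 : List ℕ := [nat_lit 0x9ba687354210, nat_lit 0x543ba9876210, nat_lit 0xa74b85963210, nat_lit 0x49865ab73210, nat_lit 0x95746b8a3210, nat_lit 0x98ba67540213, nat_lit 0x876ba9543201]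
def c12L0 : Lev := ⟨nat_lit 2, nat_lit 0xfff, (.node (nat_lit 6) (.node (nat_lit 3) (.node (nat_lit 1) (.leaf (nat_lit 0xa9b687543102)) (.node (nat_lit 2) (.leaf (nat_lit 0x687a9b543120)) (.leaf (nat_lit 0xba9876543210)))) (.node (nat_lit 4) (.leaf (nat_lit 0xb6a978542103)) (.node (nat_lit 5) (.leaf (nat_lit 0x6ab789425103)) (.leaf (nat_lit 0xab6897254103))))) (.node (nat_lit 9) (.node (nat_lit 7) (.leaf (nat_lit 0xb95a82674103)) (.node (nat_lit 8) (.leaf (nat_lit 0x56872ba94103)) (.leaf (nat_lit 0xb482967a5103)))) (.node (nat_lit 10) (.leaf (nat_lit 0x542b6a978103)) (.node (nat_lit 11) (.leaf (nat_lit 0x62957a8b4103)) (.leaf (nat_lit 0x254ab6897103))))))⟩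
def c12C0 : LevCert := ⟨c12L0,
    [(nat_lit 1, nat_lit 7), (nat_lit 0, nat_lit 6), (nat_lit 3, nat_lit 5), (nat_lit 5, nat_lit 0), (nat_lit 9, nat_lit 1), (nat_lit 4, nat_lit 0), (nat_lit 11, nat_lit 1), (nat_lit 6, nat_lit 2), (nat_lit 7, nat_lit 3), (nat_lit 10, nat_lit 4), (nat_lit 8, nat_lit 4)],
    [[nat_lit 8, nat_lit 10, nat_lit 4, nat_lit 8, nat_lit 8, nat_lit 4, nat_lit 2, nat_lit 10], [nat_lit 6, nat_lit 10, nat_lit 10, nat_lit 10, nat_lit 12, nat_lit 14]],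
    [nat_lit 0x78a945b3216, nat_lit 0x684a957b0231]⟩
def c12L1 : Lev := ⟨nat_lit 1, nat_lit 0xffb, (.node (nat_lit 6) (.node (nat_lit 3) (.node (nat_lit 1) (.leaf (nat_lit 0x684a957b0231)) (.leaf (nat_lit 0xba9876543210))) (.node (nat_lit 4) (.leaf (nat_lit 0x5ab847961203)) (.node (nat_lit 5) (.leaf (nat_lit 0x5489a671023b)) (.leaf (nat_lit 0x59684a1372b0))))) (.node (nat_lit 9) (.node (nat_lit 7) (.leaf (nat_lit 0xba9481750236)) (.node (nat_lit 8) (.leaf (nat_lit 0x384915a6b207)) (.leaf (nat_lit 0x548193a7b206)))) (.node (nat_lit 10) (.leaf (nat_lit 0x691487a5b203)) (.node (nat_lit 11) (.leaf (nat_lit 0x719846a3b205)) (.leaf (nat_lit 0x19a84b760235))))))⟩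
def c12C1 : LevCert := ⟨c12L1,
    [(nat_lit 0, nat_lit 1), (nat_lit 11, nat_lit 0), (nat_lit 3, nat_lit 1), (nat_lit 4, nat_lit 0), (nat_lit 6, nat_lit 0), (nat_lit 9, nat_lit 1), (nat_lit 7, nat_lit 0), (nat_lit 10, nat_lit 0), (nat_lit 5, nat_lit 1), (nat_lit 8, nat_lit 0)],
    [[nat_lit 2, nat_lit 0, nat_lit 0, nat_lit 0, nat_lit 0, nat_lit 2, nat_lit 0, nat_lit 2, nat_lit 0], [nat_lit 2, nat_lit 2]],
    [nat_lit 0x84a53b67219, nat_lit 0x69a78b503214]⟩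
def c12L2 : Lev := ⟨nat_lit 0, nat_lit 0xff9, (.node (nat_lit 7) (.node (nat_lit 4) (.node (nat_lit 3) (.leaf (nat_lit 0xba9876543210)) (.leaf (nat_lit 0x6a789b450213))) (.node (nat_lit 5) (.leaf (nat_lit 0x69a78b503214)) (.node (nat_lit 6) (.leaf (nat_lit 0x9a68b7035214)) (.leaf (nat_lit 0x3485a0b97216))))) (.node (nat_lit 9) (.node (nat_lit 8) (.leaf (nat_lit 0x483a0597b216)) (.leaf (nat_lit 0x5380a496b217))) (.node (nat_lit 10) (.leaf (nat_lit 0x4709536b821a)) (.node (nat_lit 11) (.leaf (nat_lit 0x3075946a821b)) (.leaf (nat_lit 0x84a53b67219))))))⟩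
def c12C2 : LevCert := ⟨c12L2,
    [(nat_lit 11, nat_lit 0), (nat_lit 4, nat_lit 1), (nat_lit 5, nat_lit 0), (nat_lit 6, nat_lit 1), (nat_lit 9, nat_lit 0), (nat_lit 7, nat_lit 0), (nat_lit 10, nat_lit 1), (nat_lit 3, nat_lit 0), (nat_lit 8, nat_lit 1)],
    [[nat_lit 0, nat_lit 2, nat_lit 2, nat_lit 0, nat_lit 0, nat_lit 2, nat_lit 0, nat_lit 2, nat_lit 0], [nat_lit 2, nat_lit 4, nat_lit 2, nat_lit 4]],
    [nat_lit 0x49865ab73210, nat_lit 0x795b4638a210]⟩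
def c12L3 : Lev := ⟨nat_lit 3, nat_lit 0xff8, (.node (nat_lit 7) (.node (nat_lit 5) (.node (nat_lit 4) (.leaf (nat_lit 0xba9876543210)) (.leaf (nat_lit 0x4b697583a210))) (.node (nat_lit 6) (.leaf (nat_lit 0x795b4638a210)) (.leaf (nat_lit 0x876543ba9210)))) (.node (nat_lit 9) (.node (nat_lit 8) (.leaf (nat_lit 0x85b63974a210)) (.leaf (nat_lit 0x47a36958b210))) (.node (nat_lit 10) (.leaf (nat_lit 0x453786ab9210)) (.node (nat_lit 11) (.leaf (nat_lit 0xb376a5489210)) (.leaf (nat_lit 0x3b7849a65210))))))⟩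
def c12C3 : LevCert := ⟨c12L3,
    [(nat_lit 5, nat_lit 1), (nat_lit 7, nat_lit 0), (nat_lit 9, nat_lit 1), (nat_lit 4, nat_lit 0), (nat_lit 11, nat_lit 1), (nat_lit 10, nat_lit 0), (nat_lit 8, nat_lit 1), (nat_lit 6, nat_lit 0)],
    [[nat_lit 2, nat_lit 0, nat_lit 2, nat_lit 2, nat_lit 0, nat_lit 0, nat_lit 2], [nat_lit 4, nat_lit 4, nat_lit 2, nat_lit 4, nat_lit 2, nat_lit 2, nat_lit 2]],
    [nat_lit 0x49865ab73210, nat_lit 0x95746b8a3210]⟩
def c12L4 : Lev := ⟨nat_lit 4, nat_lit 0xff0, (.node (nat_lit 8) (.node (nat_lit 6) (.node (nat_lit 5) (.leaf (nat_lit 0xba9876543210)) (.leaf (nat_lit 0x786ab9453210))) (.node (nat_lit 7) (.leaf (nat_lit 0x8b57a4693210)) (.leaf (nat_lit 0x56a9487b3210)))) (.node (nat_lit 10) (.node (nat_lit 9) (.leaf (nat_lit 0x95746b8a3210)) (.leaf (nat_lit 0xa74b85963210))) (.node (nat_lit 11) (.leaf (nat_lit 0x64b597a83210)) (.leaf (nat_lit 0x49865ab73210)))))⟩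
def c12C4 : LevCert := ⟨c12L4,
    [(nat_lit 11, nat_lit 0), (nat_lit 8, nat_lit 1), (nat_lit 5, nat_lit 0), (nat_lit 6, nat_lit 1), (nat_lit 9, nat_lit 0), (nat_lit 7, nat_lit 0), (nat_lit 10, nat_lit 1)],
    [],
    []⟩
def c12 : List LevCert := [c12C0, c12C1, c12C2, c12C3, c12C4]
def c12L : List Lev := [c12L0, c12L1, c12L2, c12L3, c12L4]
def c11L0 : Lev := ⟨nat_lit 1, nat_lit 0xffb, (.node (nat_lit 6) (.node (nat_lit 3) (.node (nat_lit 1) (.leaf (nat_lit 0x876ba9543201)) (.leaf (nat_lit 0xba9876543210))) (.node (nat_lit 4) (.leaf (nat_lit 0x6b879a541203)) (.node (nat_lit 5) (.leaf (nat_lit 0xb869a7415203)) (.leaf (nat_lit 0x86ba79154203))))) (.node (nat_lit 9) (.node (nat_lit 7) (.leaf (nat_lit 0x6758a1b94203)) (.node (nat_lit 8) (.leaf (nat_lit 0x5ba916874203)) (.leaf (nat_lit 0x64a17b985203)))) (.node (nat_lit 10) (.leaf (nat_lit 0x5416b879a203)) (.node (nat_lit 11) (.leaf (nat_lit 0xb17598a64203))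 (.leaf (nat_lit 0x15486ba79203))))))⟩
def c11C0 : LevCert := ⟨c11L0,
    [(nat_lit 0, nat_lit 6), (nat_lit 3, nat_lit 5), (nat_lit 5, nat_lit 0), (nat_lit 9, nat_lit 1), (nat_lit 4, nat_lit 0), (nat_lit 11, nat_lit 1), (nat_lit 6, nat_lit 2), (nat_lit 7, nat_lit 3), (nat_lit 10, nat_lit 4), (nat_lit 8, nat_lit 4)],
    [[nat_lit 12, nat_lit 10, nat_lit 12, nat_lit 10, nat_lit 2, nat_lit 12, nat_lit 8, nat_lit 6, nat_lit 10], [nat_lit 14, nat_lit 10, nat_lit 14, nat_lit 10, nat_lit 6, nat_lit 12]],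
    [nat_lit 0x8a649570321b, nat_lit 0x98ba67540213]⟩
def c11L1 : Lev := ⟨nat_lit 0, nat_lit 0xff9, (.node (nat_lit 7) (.node (nat_lit 4) (.node (nat_lit 3) (.leaf (nat_lit 0xba9876543210)) (.leaf (nat_lit 0x98ba67540213))) (.node (nat_lit 5) (.leaf (nat_lit 0x8a649570321b)) (.node (nat_lit 6) (.leaf (nat_lit 0x8b635907421a)) (.leaf (nat_lit 0x58ab60937214))))) (.node (nat_lit 9) (.node (nat_lit 8) (.leaf (nat_lit 0xab5806934217)) (.leaf (nat_lit 0x4a50679b3218))) (.node (nat_lit 10) (.leaf (nat_lit 0x7b0a95684213)) (.node (nat_lit 11) (.leaf (nat_lit 0x504a769b8213)) (.leaf (nat_lit 0xa7b59683214))))))⟩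
def c11C1 : LevCert := ⟨c11L1,
    [(nat_lit 4, nat_lit 0), (nat_lit 3, nat_lit 1), (nat_lit 8, nat_lit 0), (nat_lit 11, nat_lit 0), (nat_lit 10, nat_lit 1), (nat_lit 9, nat_lit 1), (nat_lit 7, nat_lit 0), (nat_lit 5, nat_lit 0), (nat_lit 6, nat_lit 1)],
    [[nat_lit 2, nat_lit 0, nat_lit 2], [nat_lit 2, nat_lit 2, nat_lit 2, nat_lit 4, nat_lit 2, nat_lit 4, nat_lit 4, nat_lit 4, nat_lit 2, nat_lit 4, nat_lit 2, nat_lit 4, nat_lit 2, nat_lit 4]],
    [nat_lit 0x74a85b639210, nat_lit 0xb7349865a210]⟩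
def c11L2 : Lev := ⟨nat_lit 3, nat_lit 0xff8, (.node (nat_lit 7) (.node (nat_lit 5) (.node (nat_lit 4) (.leaf (nat_lit 0xba9876543210)) (.leaf (nat_lit 0x74a85b639210))) (.node (nat_lit 6) (.leaf (nat_lit 0x9ba687354210)) (.leaf (nat_lit 0x7a46938b5210)))) (.node (nat_lit 9) (.node (nat_lit 8) (.leaf (nat_lit 0xb9a534867210)) (.leaf (nat_lit 0x7593a8b64210))) (.node (nat_lit 10) (.leaf (nat_lit 0xb7349865a210)) (.node (nat_lit 11) (.leaf (nat_lit 0x534867b9a210)) (.leaf (nat_lit 0x36958b47a210))))))⟩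
def c11C2 : LevCert := ⟨c11L2,
    [(nat_lit 4, nat_lit 0), (nat_lit 9, nat_lit 1), (nat_lit 10, nat_lit 0), (nat_lit 8, nat_lit 1), (nat_lit 7, nat_lit 1), (nat_lit 6, nat_lit 1), (nat_lit 11, nat_lit 0), (nat_lit 5, nat_lit 0)],
    [[nat_lit 0, nat_lit 2, nat_lit 0, nat_lit 2, nat_lit 0, nat_lit 2, nat_lit 0, nat_lit 0, nat_lit 0], [nat_lit 2, nat_lit 2, nat_lit 4, nat_lit 4, nat_lit 2]],
    [nat_lit 0x49865ab73210, nat_lit 0xa74b85963210]⟩
def c11L3 : Lev := ⟨nat_lit 4, nat_lit 0xff0, (.node (nat_lit 8) (.node (nat_lit 6) (.node (nat_lit 5) (.leaf (nat_lit 0xba9876543210)) (.leaf (nat_lit 0x786ab9453210))) (.node (nat_lit 7) (.leaf (nat_lit 0x8b57a4693210)) (.leaf (nat_lit 0x56a9487b3210)))) (.node (nat_lit 10) (.node (nat_lit 9) (.leaf (nat_lit 0x95746b8a3210)) (.leaf (nat_lit 0xa74b85963210))) (.node (nat_lit 11) (.leaf (nat_lit 0x64b597a83210)) (.leaf (nat_lit 0x49865ab73210)))))⟩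
def c11C3 : LevCert := ⟨c11L3,
    [(nat_lit 11, nat_lit 0), (nat_lit 9, nat_lit 1), (nat_lit 5, nat_lit 0), (nat_lit 8, nat_lit 1), (nat_lit 10, nat_lit 0), (nat_lit 7, nat_lit 0), (nat_lit 6, nat_lit 1)],
    [],
    []⟩
def c11 : List LevCert := [c11C0, c11C1, c11C2, c11C3]
def c11L : List Lev := [c11L0, c11L1, c11L2, c11L3]

def E : Enc (Fin 12) (nat_lit 12) (nat_lit 4) (nat_lit 16) := finEnc 12 4 16 rfl (by decide)

theorem c12_ok : ssOK (nat_lit 4) (nat_lit 16) (nat_lit 12) c12 gens = true := by decide +kernel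
theorem c11_ok : preOK (nat_lit 4) (nat_lit 16) (nat_lit 12) c11 gens11 = true := by decide +kernel
theorem gens_valid : allL gens (valid (nat_lit 4) (nat_lit 16) (nat_lit 12)) = true := by
  decide +kernel
theorem gens11_valid : allL gens11 (valid (nat_lit 4) (nat_lit 16) (nat_lit 12)) = true := by
  decide +kernel

theorem chain12 : E.IsChain c12L (E.grp gens) :=
  Enc.isChain_of_ssOK (fun P hP => E.exists_pk_of_valid (allL_iff.1 gens_valid P hP)) c12_ok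

theorem card12 : Nat.card (E.grp gens) = 95040 := by rw [chain12.card]; decide +kernel

theorem card11' : Nat.card ↥(E.grp gens ⊓ MulAction.stabilizer (Equiv.Perm (Fin 12)) (2 : Fin 12)) =
    7920 := by
  have h : E.IsChain c12L.tail
    (E.grp gens ⊓ MulAction.stabilizer (Equiv.Perm (Fin 12)) (2 : Fin 12)) := chain12.2.2
  rw [h.card]; decide +kernel

theorem eq11 : E.grp gens11 =
    E.grp gens ⊓ MulAction.stabilizer (Equiv.Perm (Fin 12)) (2 : Fin 12) := by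
  have hp := (Enc.preChain_of_preOK (E := E) (Enc.inG_grp_of_valid gens11_valid) c11_ok).le_card
  have hc : chainCard (nat_lit 12) (c11.map LevCert.L) = 7920 := by decide +kernel
  apply Subgroup.eq_of_le_of_card_ge _ (by rw [card11', ← hc]; exact hp)
  apply Enc.grp_le
  have h1 : ∀ P ∈ gens11, P ∈ gens ∧ app (nat_lit 4) (nat_lit 16) P 2 = 2 := by decide +kernel
  exact fun P hP => (Enc.inG_grp_of_valid gens_valid P (h1 P hP).1).stab (b := 2) (by decide)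
    (h1 P hP).2


/-- An explicit construction of the Mathieu groups of degrees 11 and 12. On the points 0, …, 11 let s = (3 4 5)(6 7 8)(9 10 11), t = (3 6 9)(4 7 10)(5 8 11), u = (4 6 5 9)(7 8 11 10), v = (4 7 5 11)(6 10 9 8), w = (4 10 5 8)(6 11 9 7), x₁ = (0 3)(6 7)(8 10)(9 11), x₂ = (0 1)(6 9)(7 10)(8 11), x₃ = (1 2)(6 11)(7 9)(8 10) (each written as a product of transpositions). Then the group M₁₂ generated by all eight permutations is sharply 5-transitive on the 12 points and has order 95040, and the group M₁₁ generated by the first seven has order 7920 and is the stabilizer of the point 2 in M₁₂. -/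
theorem result
    (s t u v w x₁ x₂ x₃ : Equiv.Perm (Fin 12))
    (hs : s = Equiv.swap (3 : Fin 12) 5 * Equiv.swap (3 : Fin 12) 4 * Equiv.swap (6 : Fin 12) 8 * Equiv.swap (6 : Fin 12) 7 * Equiv.swap (9 : Fin 12) 11 * Equiv.swap (9 : Fin 12) 10) (ht : t = Equiv.swap (3 : Fin 12) 9 * Equiv.swap (3 : Fin 12) 6 * Equiv.swap (4 : Fin 12) 10 * Equiv.swap (4 : Fin 12) 7 * Equiv.swap (5 : Fin 12) 11 * Equiv.swap (5 : Fin 12) 8)
    (hu : u = Equiv.swap (4 : Fin 12) 9 * Equiv.swap (4 : Fin 12) 5 * Equiv.swap (4 : Fin 12) 6 * Equiv.swap (7 : Fin 12) 10 * Equiv.swap (7 : Fin 12) 11 * Equiv.swap (7 : Fin 12) 8) (hv : v = Equiv.swap (4 : Fin 12) 11 * Equiv.swap (4 : Fin 12) 5 * Equiv.swap (4 : Fin 12) 7 * Equiv.swap (6 : Fin 12) 8 * Equiv.swap (6 : Fin 12) 9 * Equiv.swap (6 : Fin 12) 10) (hw : w = Equiv.swap (4 : Fin 12) 8 * Equiv.swap (4 : Fin 12) 5 * Equiv.swap (4 : Fin 12) 10 * Equiv.swap (6 : Fin 12) 7 *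 Equiv.swap (6 : Fin 12) 9 * Equiv.swap (6 : Fin 12) 11)
    (hx₁ : x₁ = Equiv.swap (0 : Fin 12) 3 * Equiv.swap (6 : Fin 12) 7 * Equiv.swap (8 : Fin 12) 10 * Equiv.swap (9 : Fin 12) 11) (hx₂ : x₂ = Equiv.swap (0 : Fin 12) 1 * Equiv.swap (6 : Fin 12) 9 * Equiv.swap (7 : Fin 12) 10 * Equiv.swap (8 : Fin 12) 11)
    (hx₃ : x₃ = Equiv.swap (1 : Fin 12) 2 * Equiv.swap (6 : Fin 12) 11 * Equiv.swap (7 : Fin 12) 9 * Equiv.swap (8 : Fin 12) 10)
    (M₁₂ M₁₁ : Subgroup (Equiv.Perm (Fin 12))) (hM₁₂ : M₁₂ = Subgroup.closure {s, t, u, v, w, x₁, x₂, x₃})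
    (hM₁₁ : M₁₁ = Subgroup.closure {s, t, u, v, w, x₁, x₂}) :
    MulAction.IsMultiplyPretransitive M₁₂ (Fin 12) 5 ∧ (∀ y : Fin 5 ↪ Fin 12, MulAction.stabilizer M₁₂ y = ⊥) ∧
    Nat.card M₁₂ = 95040 ∧ Nat.card M₁₁ = 7920 ∧
    M₁₁ = M₁₂ ⊓ MulAction.stabilizer (Equiv.Perm (Fin 12)) (2 : Fin 12) := by
  have e1 : E.pk s = nat_lit 0x9ba687354210 := by rw [hs]; decide +kernel
  have e2 : E.pk t = nat_lit 0x543ba9876210 := by rw [ht]; decide +kernel
  have e3 : E.pk u = nat_lit 0xa74b85963210 := by rw [hu]; decide +kernel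
  have e4 : E.pk v = nat_lit 0x49865ab73210 := by rw [hv]; decide +kernel
  have e5 : E.pk w = nat_lit 0x95746b8a3210 := by rw [hw]; decide +kernel
  have e6 : E.pk x₁ = nat_lit 0x98ba67540213 := by rw [hx₁]; decide +kernel
  have e7 : E.pk x₂ = nat_lit 0x876ba9543201 := by rw [hx₂]; decide +kernel
  have e8 : E.pk x₃ = nat_lit 0x687a9b543120 := by rw [hx₃]; decide +kernel
  have h12 : M₁₂ = E.grp gens := by
    rw [hM₁₂, Enc.grp, gens, ← e1, ← e2, ← e3, ← e4, ← e5, ← e6, ← e7, ← e8]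
    congr 1
    ext g
    simp [E.pk_inj]
  have h11 : M₁₁ = E.grp gens11 := by
    rw [hM₁₁, Enc.grp, gens11, ← e1, ← e2, ← e3, ← e4, ← e5, ← e6, ← e7]
    congr 1
    ext g
    simp [E.pk_inj]
  rw [h12, h11, eq11]
  refine ⟨chain12.preChain.isMultiplyPretransitive 5 (by decide +kernel), fun y => ?_, card12,
    card11', rfl⟩
  rw [eq_bot_iff]
  rintro ⟨g, hg⟩ hgy
  obtain ⟨h, hh, hy⟩ := chain12.preChain.exists_forall_apply_eq Set.univ (fun _ _ _ _ => trivial)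
    4095 (fun a _ => by revert a; decide) 5 (by decide +kernel) y ![2, 1, 0, 3, 4] y.injective
    (by decide) (fun _ => trivial) (fun _ => trivial)
  have hfix : ∀ i, (h * g * h⁻¹) (![2, 1, 0, 3, 4] i) = ![2, 1, 0, 3, 4] i := fun i => by
    have : g (y i) = y i := congrArg (fun f : Fin 5 ↪ Fin 12 => f i) hgy
    rw [← hy i]
    simp [this]
  have := chain12.eq_one_of_fix (g := h * g * h⁻¹)
    (Subgroup.mul_mem _ (Subgroup.mul_mem _ hh hg) (Subgroup.inv_mem _ hh)) (by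
      intro L hL
      simp only [c12L, List.mem_cons, List.not_mem_nil, or_false] at hL
      rcases hL with rfl | rfl | rfl | rfl | rfl
      exacts [hfix 0, hfix 1, hfix 2, hfix 3, hfix 4])
  rw [Subgroup.mem_bot]
  exact Subtype.ext (by simpa [mul_inv_eq_one] using this)

end Cfsg.Agent.S3362
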