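import Cfsg.Statements.S3374
import Cfsg.Agent.H24.SL5A5
import Cfsg.Agent.H84.Frob

set_option autoImplicit false
open Cfsg

namespace Cfsg.Agent.S3374

open H24 H24.SL5

theorem fact11 : Fact (Nat.Prime 11) := ⟨by norm_num⟩

attribute [local instance] fact11

/-- First generator. -/
def a : Matrix.SpecialLinearGroup (Fin 2) (ZMod 11) := ⟨!![0, 1; 10, 10], by decide +kernel⟩
/-- Second generator. -/
def b : Matrix.SpecialLinearGroup (Fin 2) (ZMod 11) := ⟨!![1, 4; 2, 9], by decide +kernel⟩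
/-- Third generator. -/
def c : Matrix.SpecialLinearGroup (Fin 2) (ZMod 11) := ⟨!![5, 3; 8, 5], by decide +kernel⟩

theorem val_ev (w : List ℕ) : (ev a b c w).1 =
    toMat 11 (evalW 11 [(0, 1, 10, 10), (1, 4, 2, 9), (5, 3, 8, 5)] w) := by
  induction w with
  | nil => exact (toMat_one4 11).symm
  | cons i w ih =>
    change ([a, b, c].getD i 1).1 * (ev a b c w).1 = toMat 11 (mul4 11 _ (evalW 11 _ w))
    rw [toMat_mul4, ih]
    congr 1
    rcases i with _ | _ | _ | i
    · decide +kernel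
    · decide +kernel
    · decide +kernel
    · exact (toMat_one4 11).symm

theorem exists_rep : ∃ ψ : SL5 →* Matrix.SpecialLinearGroup (Fin 2) (ZMod 11),
    ∀ g : SL5, g ≠ 1 → ∀ v : Fin 2 → ZMod 11, (ψ g).1.mulVec v = v → v = 0 := by
  obtain ⟨ψ, hA, hB, hC, -⟩ := exists_hom (a := a) (b := b) (c := c) (z := -1)
    (by decide +kernel) (by decide +kernel) (by decide +kernel) (by simp) (by simp) (by simp)
    (by simp) (by decide +kernel) (by decide +kernel) (by decide +kernel)
  refine ⟨ψ, fun g hg v hv => ?_⟩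
  obtain ⟨w, hw, rfl⟩ := exists_word g
  rw [map_ev, hA, hB, hC, val_ev] at hv
  have key : words.all (fun w =>
      beq4 (evalW 5 [(0, 1, 4, 4), (2, 1, 3, 2), (4, 3, 3, 0)] w) one4 ||
      noFix4 11 (evalW 11 [(0, 1, 10, 10), (1, 4, 2, 9), (5, 3, 8, 5)] w)) = true := by
    decide +kernel
  simp only [List.all_eq_true, Bool.or_eq_true, beq4_iff] at key
  rcases key w hw with h | h
  · rw [← enc_A, ← enc_B, ← enc_C, ← enc_ev, ← enc_one, enc_inj] at h
    exact absurd h hg
  · exact eq_zero_of_noFix4 h v hv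

/-- SL(2,5) occurs as a Frobenius complement: there is a finite group L with a subgroup H isomorphic to SL(2,5) which is a non-trivial proper subgroup meeting each conjugate gHg⁻¹ with g outside H trivially. -/
theorem result :
    ∃ (L : Type) (_ : Group L) (_ : Finite L) (H : Subgroup L),
      Cfsg.IsFrobeniusComplement H ∧ Nonempty (H ≃* Matrix.SpecialLinearGroup (Fin 2) (ZMod 5)) := by
  obtain ⟨ψ, hψ⟩ := exists_rep
  have : Nontrivial SL5 := ⟨⟨_, _, neg_one_ne_one⟩⟩
  let ρ : SL5 →* Module.End (ZMod 11) (Fin 2 → ZMod 11) :=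
    { toFun := fun g => Matrix.toLin' (ψ g).1
      map_one' := by simp [Module.End.one_eq_id]
      map_mul' := fun g h => by simp [Module.End.mul_eq_comp] }
  obtain ⟨L, i1, i2, H, h1, ⟨e⟩, -⟩ := H84.exists_frob_of_fpf_rep ρ hψ
  exact ⟨L, i1, i2, H, h1, ⟨e.symm⟩⟩

end Cfsg.Agent.S3374
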