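import Mathlib
import Cfsg.Statements.S3375

set_option autoImplicit false
open Cfsg

namespace Cfsg.Agent.S3375

theorem aux {H : Type*} [Group H] [Finite H] (γ : MulAut H) (hinv : ∀ h, γ (γ h) = h)
    (hc : Nat.card {h : H // γ h = h} = 2) (M : Subgroup H) (hM : M.index = 2)
    (hMγ : ∀ h, h ∈ M ↔ γ h ∈ M) : ∀ a ∈ M, γ a = a⁻¹ := by
  let C : Subgroup H := MonoidHom.eqLocus γ.toMonoidHom (MonoidHom.id H)
  have hC : Nat.card C = 2 := hc
  have hmem : ∀ h : H, h * (γ h)⁻¹ ∈ M := fun h => by
    rw [Subgroup.mul_mem_iff_of_index_two hM, Subgroup.inv_mem_iff]; exact hMγ h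
  let f : H ⧸ C → M := Quotient.lift (fun h => (⟨h * (γ h)⁻¹, hmem h⟩ : M)) (by
    intro a b hab
    have h1 : a⁻¹ * b ∈ C := QuotientGroup.leftRel_apply.mp hab
    have h2 : γ (a⁻¹ * b) = a⁻¹ * b := h1
    rw [map_mul, map_inv] at h2
    apply Subtype.ext
    show a * (γ a)⁻¹ = b * (γ b)⁻¹
    calc a * (γ a)⁻¹ = a * ((γ a)⁻¹ * γ b) * (γ b)⁻¹ := by group
      _ = b * (γ b)⁻¹ := by rw [h2]; group)
  have hf : Function.Injective f := by
    intro a b
    induction a using QuotientGroup.induction_on with | H a => ?_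
    induction b using QuotientGroup.induction_on with | H b => ?_
    intro hab
    have h1 : a * (γ a)⁻¹ = b * (γ b)⁻¹ := congrArg Subtype.val hab
    rw [QuotientGroup.eq]
    show γ (a⁻¹ * b) = a⁻¹ * b
    rw [map_mul, map_inv]
    calc (γ a)⁻¹ * γ b = a⁻¹ * (a * (γ a)⁻¹) * γ b := by group
      _ = a⁻¹ * b := by rw [h1]; group
  have hcard : Nat.card (H ⧸ C) = Nat.card M := by
    have h1 := C.card_mul_index
    have h2 := M.card_mul_index
    rw [hC] at h1
    rw [hM] at h2
    show C.index = _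
    omega
  have hsurj := ((Nat.bijective_iff_injective_and_card f).mpr ⟨hf, hcard⟩).2
  intro a ha
  obtain ⟨q, hq⟩ := hsurj ⟨a, ha⟩
  induction q using QuotientGroup.induction_on with | H h => ?_
  have : h * (γ h)⁻¹ = a := congrArg Subtype.val hq
  rw [← this, map_mul, map_inv, hinv]
  group

/-- Let γ be an automorphism of order 2 of a finite group H. (i) If γ fixes only the identity, then H is abelian and γ inverts every element. (ii) If γ has exactly two fixed points and H has a subgroup of index 2, then H has a γ-invariant abelian subgroup of index 2 on which γ acts by inversion. -/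
theorem result {H : Type*} [Group H] [Finite H] (γ : MulAut H) (hγ : orderOf γ = 2) :
    ((∀ h : H, γ h = h → h = 1) → (∀ a b : H, a * b = b * a) ∧ ∀ h : H, γ h = h⁻¹) ∧
    ((Nat.card {h : H // γ h = h} = 2 ∧ ∃ M : Subgroup H, M.index = 2) →
      ∃ A : Subgroup H, A.index = 2 ∧ IsMulCommutative A ∧ (∀ a ∈ A, γ a ∈ A) ∧ ∀ a ∈ A, γ a = a⁻¹) := by
  have hinv : ∀ h, γ (γ h) = h := fun h => by
    have := pow_orderOf_eq_one γ
    rw [hγ, sq] at this
    rw [← MulAut.mul_apply, this, MulAut.one_apply]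
  constructor
  · intro hfp
    have h1 : MonoidHom.FixedPointFree γ := hfp
    have h2 := h1.coe_eq_inv_of_involutive hinv
    exact ⟨fun a b => h1.commute_all_of_involutive hinv a b, fun h => congrFun h2 h⟩
  · rintro ⟨hc, M, hM⟩
    obtain ⟨A, hA, hAγ⟩ : ∃ A : Subgroup H, A.index = 2 ∧ ∀ h, h ∈ A ↔ γ h ∈ A := by
      by_cases hMγ : ∀ h, h ∈ M ↔ γ h ∈ M
      · exact ⟨M, hM, hMγ⟩
      · push Not at hMγ
        obtain ⟨a, ha⟩ := hMγ
        let A : Subgroup H :=
          { carrier := {h | h ∈ M ↔ γ h ∈ M}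
            mul_mem' := by
              intro x y hx hy
              simp only [Set.mem_ofPred_eq, map_mul, Subgroup.mul_mem_iff_of_index_two hM] at *
              tauto
            one_mem' := by simp
            inv_mem' := by
              intro x hx
              simpa using hx }
        refine ⟨A, ?_, fun h => ?_⟩
        · rw [Subgroup.index_eq_two_iff]
          refine ⟨a, fun b => ?_⟩
          show Xor (b * a ∈ M ↔ γ (b * a) ∈ M) (b ∈ M ↔ γ b ∈ M)
          simp only [map_mul, Subgroup.mul_mem_iff_of_index_two hM, Xor]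
          tauto
        · show (h ∈ M ↔ γ h ∈ M) ↔ (γ h ∈ M ↔ γ (γ h) ∈ M)
          rw [hinv]; tauto
    have key := aux γ hinv hc A hA hAγ
    refine ⟨A, hA, ⟨⟨fun a b => Subtype.ext ?_⟩⟩, fun a ha => (hAγ a).mp ha, key⟩
    have h1 := key _ (A.mul_mem a.2 b.2)
    rw [map_mul, key _ a.2, key _ b.2, ← mul_inv_rev, inv_inj] at h1
    exact h1.symm

end Cfsg.Agent.S3375
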