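import Cfsg.Statements.S3377
import Cfsg.Agent.H24.SL5A5

set_option autoImplicit false
open Cfsg

namespace Cfsg.Agent.S3377

open H24 H24.SL5

/-- The alternating group of degree 5 has the presentation ⟨x, y | x³ = 1, y⁵ = 1, (xy)² = 1⟩: the group so presented is isomorphic to Alt(5). -/
theorem result :
    Nonempty (PresentedGroup ({FreeGroup.of (0 : Fin 2) ^ 3, FreeGroup.of (1 : Fin 2) ^ 5,
        (FreeGroup.of (0 : Fin 2) * FreeGroup.of 1) ^ 2} : Set (FreeGroup (Fin 2))) ≃* alternatingGroup (Fin 5)) := by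
  set rels := ({FreeGroup.of (0 : Fin 2) ^ 3, FreeGroup.of (1 : Fin 2) ^ 5,
        (FreeGroup.of (0 : Fin 2) * FreeGroup.of 1) ^ 2} : Set (FreeGroup (Fin 2))) with hrels
  have hf : ∀ r ∈ rels, FreeGroup.lift ![projA A, projA Y] r = 1 := by
    rintro r (rfl | rfl | rfl)
    · simp only [map_pow, FreeGroup.lift_apply_of, Matrix.cons_val_zero]
      rw [← map_pow, A3, map_one]
    · simp only [map_pow, FreeGroup.lift_apply_of, Matrix.cons_val_zero, Matrix.cons_val_one]
      rw [← map_pow, Y5, map_one]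
    · simp only [map_pow, map_mul, FreeGroup.lift_apply_of, Matrix.cons_val_zero,
        Matrix.cons_val_one]
      rw [← map_mul, ← map_pow, AY, projA_eq_one_iff]
      exact Or.inr rfl
  let φ := PresentedGroup.toGroup hf
  have hsurj : Function.Surjective φ := by
    rw [← MonoidHom.range_eq_top, eq_top_iff, ← MonoidHom.range_eq_top.mpr projA_surjective,
      MonoidHom.range_eq_map projA, ← closure_AY, MonoidHom.map_closure, Subgroup.closure_le]
    rintro _ ⟨s, rfl | rfl, rfl⟩
    · exact ⟨PresentedGroup.of 0, PresentedGroup.toGroup.of hf⟩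
    · exact ⟨PresentedGroup.of 1, PresentedGroup.toGroup.of hf⟩
  obtain ⟨h1, h2⟩ := card_le_235' (G := PresentedGroup rels) (x := PresentedGroup.of 0)
    (y := PresentedGroup.of 1)
    (PresentedGroup.one_of_mem (x := FreeGroup.of (0 : Fin 2) ^ 3) (by simp [hrels]))
    (PresentedGroup.one_of_mem (x := FreeGroup.of (1 : Fin 2) ^ 5) (by simp [hrels]))
    (PresentedGroup.one_of_mem (x := (FreeGroup.of (0 : Fin 2) * FreeGroup.of 1) ^ 2)
      (by simp [hrels]))
    (by
      rw [← PresentedGroup.closure_range_of]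
      congr 1
      ext g
      simp [Fin.exists_fin_two, eq_comm])
  exact ⟨MulEquiv.ofBijective φ (hsurj.bijective_of_nat_card_le (card_A5 ▸ h2))⟩

end Cfsg.Agent.S3377
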