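import Cfsg.Statements.S3381
import Cfsg.Agent.H11.SubCount

set_option autoImplicit false
open Cfsg

namespace Cfsg.Agent.S3381


open Module

theorem two_elt {α : Type*} {P : α → Prop} (h : Nat.card {a // P a} = 2) {o : α} (ho : P o) :
    (∃ t, P t ∧ t ≠ o) ∧ ∀ s t, P s → P t → s ≠ o → t ≠ o → s = t := by
  obtain ⟨x, hx, hu⟩ := (Nat.card_eq_two_iff' (⟨o, ho⟩ : {a // P a})).1 h
  refine ⟨⟨x.1, x.2, fun e => hx (Subtype.ext e)⟩, fun s t hs ht hso hto => ?_⟩
  have h1 := hu ⟨s, hs⟩ fun e => hso (congrArg Subtype.val e)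
  have h2 := hu ⟨t, ht⟩ fun e => hto (congrArg Subtype.val e)
  exact congrArg Subtype.val (h1.trans h2.symm)


/-- Let G be a finite group acting faithfully and linearly on a non-trivial finite vector space V over the field with q elements (q prime) so that every non-zero vector has a stabilizer of order 2, and suppose G has a central involution. Then V has q^(2r) elements for some r and G contains exactly q^r + 1 non-central involutions. -/
theorem result
    (q : ℕ) [Fact q.Prime] {V : Type*} [AddCommGroup V] [Module (ZMod q) V] [Finite V] [Nontrivial V]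
    {G : Type*} [Group G] [Finite G] (ρ : G →* (V ≃ₗ[ZMod q] V)) (hρ : Function.Injective ρ)
    (hstab : ∀ v : V, v ≠ 0 → Nat.card {g : G // ρ g v = v} = 2)
    (z : G) (hz : orderOf z = 2) (hzc : z ∈ Subgroup.center G) :
    ∃ r : ℕ, Nat.card V = q ^ (2 * r) ∧
      Nat.card {g : G // orderOf g = 2 ∧ g ∉ Subgroup.center G} = q ^ r + 1 := by
  classical
  have hq : q.Prime := Fact.out
  have hex : ∀ v : V, v ≠ 0 → ∃ t : G, ρ t v = v ∧ t ≠ 1 := fun v hv =>
    (two_elt (hstab v hv) (o := 1) (by simp)).1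
  have huniq : ∀ v : V, v ≠ 0 → ∀ s t : G, ρ s v = v → ρ t v = v → s ≠ 1 → t ≠ 1 → s = t :=
    fun v hv => (two_elt (hstab v hv) (o := 1) (by simp)).2
  have hmul : ∀ (a b : G) (v : V), ρ (a * b) v = ρ a (ρ b v) := fun a b v => by
    rw [map_mul]; rfl
  have hmove : ∀ a : G, a ≠ 1 → ∃ v, ρ a v ≠ v := by
    intro a ha
    by_contra h
    push Not at h
    apply ha
    apply hρ
    rw [map_one]
    exact LinearEquiv.ext h
  have hsq : ∀ a : G, orderOf a = 2 → a * a = 1 := fun a ha => by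
    rw [← pow_two, ← ha, pow_orderOf_eq_one]
  have hne : ∀ a : G, orderOf a = 2 → a ≠ 1 := fun a ha h => by
    rw [h, orderOf_one] at ha; omega
  -- a central involution acts as `-1`
  have hcen : ∀ y : G, orderOf y = 2 → y ∈ Subgroup.center G → ∀ v, ρ y v = -v := by
    intro y hy hyc
    have h1 : ∀ v, ρ y v ≠ v → ρ y v = -v := by
      intro v hv
      have hv0 : v ≠ 0 := by rintro rfl; simp at hv
      obtain ⟨t, ht, ht1⟩ := hex v hv0
      by_contra hcon
      have h0 : v + ρ y v ≠ 0 := fun h => hcon (eq_neg_of_add_eq_zero_right h)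
      have h2 : ρ y (v + ρ y v) = v + ρ y v := by
        rw [map_add, ← hmul, hsq y hy, map_one, add_comm]; rfl
      have h3 : ρ t (v + ρ y v) = v + ρ y v := by
        rw [map_add, ← hmul, Subgroup.mem_center_iff.1 hyc t, hmul, ht]
      have := huniq _ h0 y t h2 h3 (hne y hy) ht1
      exact hv (this ▸ ht)
    obtain ⟨u, hu⟩ := hmove y (hne y hy)
    intro w
    by_cases hw : ρ y w = w
    · have h2 : ρ y (u + w) ≠ u + w := by
        rw [map_add, hw]
        exact fun h => hu (add_right_cancel h)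
      have h3 := h1 _ h2
      rw [map_add, h1 u hu, neg_add] at h3
      exact add_left_cancel h3
    · exact h1 w hw
  have hzv := hcen z hz hzc
  have h2 : (2 : ZMod q) ≠ 0 := by
    intro h
    obtain ⟨u, hu⟩ := hmove z (hne z hz)
    apply hu
    rw [hzv, neg_eq_iff_add_eq_zero, ← two_smul (ZMod q), h, zero_smul]
  have h2v : ∀ v : V, -v = v → v = 0 := by
    intro v hv
    rw [neg_eq_iff_add_eq_zero, ← two_smul (ZMod q)] at hv
    exact (smul_eq_zero.1 hv).resolve_left h2
  -- noncentral involutions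
  let P : G → Prop := fun g => orderOf g = 2 ∧ g ∉ Subgroup.center G
  have hP : ∀ (t : G) (v : V), v ≠ 0 → ρ t v = v → t ≠ 1 → P t := by
    intro t v hv ht ht1
    have h3 : orderOf t = 2 := by
      apply orderOf_eq_prime _ ht1
      by_contra h
      have := huniq v hv (t ^ 2) t (by rw [pow_two, hmul, ht, ht]) ht h ht1
      rw [pow_two] at this
      exact ht1 (mul_eq_left.1 this)
    refine ⟨h3, fun hc => hv (h2v v ?_)⟩
    rw [← hcen t h3 hc, ht]
  have hPz : ∀ t, P t → P (z * t) := by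
    rintro t ⟨ht, htc⟩
    have h3 : z * t ∉ Subgroup.center G := fun h => htc (by
      have := Subgroup.mul_mem _ hzc h
      rwa [← mul_assoc, hsq z hz, one_mul] at this)
    refine ⟨orderOf_eq_prime ?_ fun h => h3 (h ▸ Subgroup.one_mem _), h3⟩
    rw [pow_two, mul_assoc, ← mul_assoc t, Subgroup.mem_center_iff.1 hzc t, mul_assoc, hsq t ht,
      mul_one, hsq z hz]
  let C : G → Submodule (ZMod q) V := fun t =>
    LinearMap.ker ((ρ t).toLinearMap - LinearMap.id)
  have hC : ∀ t v, v ∈ C t ↔ ρ t v = v := fun t v => by simp [C, sub_eq_zero]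
  have hdisj : ∀ s t, s ≠ 1 → t ≠ 1 → s ≠ t → C s ⊓ C t = ⊥ := by
    intro s t hs ht hst
    rw [eq_bot_iff]
    rintro v ⟨h3, h4⟩
    by_contra hv
    exact hst (huniq v hv s t ((hC _ _).1 h3) ((hC _ _).1 h4) hs ht)
  have hle : ∀ s t, s ≠ 1 → t ≠ 1 → s ≠ t →
      finrank (ZMod q) (C s) + finrank (ZMod q) (C t) ≤ finrank (ZMod q) V := by
    intro s t hs ht hst
    rw [← Submodule.finrank_sup_add_finrank_inf_eq, hdisj s t hs ht hst, finrank_bot, add_zero]
    exact Submodule.finrank_le _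
  have hzne : ∀ t : G, z * t ≠ t := fun t h => hne z hz (mul_eq_right.1 h)
  have hsum : ∀ t, P t →
      finrank (ZMod q) (C t) + finrank (ZMod q) (C (z * t)) = finrank (ZMod q) V := by
    intro t ht
    have h3 : C t ⊔ C (z * t) = ⊤ := by
      rw [eq_top_iff]
      intro v _
      have h4 : v = (2 : ZMod q)⁻¹ • (v + ρ t v) + (2 : ZMod q)⁻¹ • (v - ρ t v) := by
        rw [← smul_add, add_add_sub_cancel, ← two_smul (ZMod q), smul_smul, inv_mul_cancel₀ h2,
          one_smul]
      rw [h4]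
      refine Submodule.add_mem_sup (Submodule.smul_mem _ _ ((hC _ _).2 ?_))
        (Submodule.smul_mem _ _ ((hC _ _).2 ?_))
      · rw [map_add, ← hmul, hsq t ht.1, map_one, add_comm]; rfl
      · rw [hmul, hzv, map_sub, ← hmul, hsq t ht.1, map_one, neg_sub]; rfl
    rw [← Submodule.finrank_sup_add_finrank_inf_eq, h3,
      hdisj t (z * t) (hne _ ht.1) (hne _ (hPz t ht).1) (hzne t).symm, finrank_bot, add_zero,
      finrank_top]
  have hhalf : ∀ t, P t → 2 * finrank (ZMod q) (C t) = finrank (ZMod q) V := by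
    intro t ht
    have ht1 := hne _ ht.1
    have ht2 := hne _ (hPz t ht).1
    obtain ⟨a, ha⟩ := hmove _ ht1
    obtain ⟨b, hb⟩ := hmove _ ht2
    obtain ⟨v, hv1, hv2⟩ : ∃ v, ρ t v ≠ v ∧ ρ (z * t) v ≠ v := by
      by_cases h3 : ρ (z * t) a = a
      · by_cases h4 : ρ t b = b
        · refine ⟨a + b, ?_, ?_⟩
          · rw [map_add, h4]; exact fun h => ha (add_right_cancel h)
          · rw [map_add, h3]; exact fun h => hb (add_left_cancel h)
        · exact ⟨b, h4, hb⟩
      · exact ⟨a, ha, h3⟩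
    have hv0 : v ≠ 0 := by rintro rfl; simp at hv1
    obtain ⟨s, hs, hs1⟩ := hex v hv0
    have hPs := hP s v hv0 hs hs1
    have hs2 := hne _ (hPz s hPs).1
    have e1 : s ≠ t := fun h => hv1 (h ▸ hs)
    have e2 : s ≠ z * t := fun h => hv2 (h ▸ hs)
    have e3 : z * s ≠ t := fun h => e2 (by rw [← h, ← mul_assoc, hsq z hz, one_mul])
    have e4 : z * s ≠ z * t := fun h => e1 (mul_left_cancel h)
    have f1 := hle _ _ hs1 ht1 e1
    have f2 := hle _ _ hs1 ht2 e2
    have f3 := hle _ _ hs2 ht1 e3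
    have f4 := hle _ _ hs2 ht2 e4
    have f5 := hsum s hPs
    have f6 := hsum t ht
    omega
  obtain ⟨v₀, hv₀⟩ := exists_ne (0 : V)
  obtain ⟨t₀, ht₀, ht₀1⟩ := hex v₀ hv₀
  have hP₀ := hP t₀ v₀ hv₀ ht₀ ht₀1
  set r := finrank (ZMod q) (C t₀) with hr
  have hV : Nat.card V = q ^ (2 * r) := by
    rw [Module.natCard_eq_pow_finrank (K := ZMod q), Nat.card_zmod, hhalf t₀ hP₀]
  refine ⟨r, hV, ?_⟩
  have hr0 : 0 < r := by
    have := Module.finrank_pos (R := ZMod q) (M := V)
    have := hhalf t₀ hP₀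
    omega
  choose τ hτ hτ1 using hex
  have hcount := H11.card_eq_mul_of_fiber (α := {v : V // v ≠ 0}) (β := {g : G // P g})
    (fun v => ⟨τ v.1 v.2, hP _ v.1 v.2 (hτ _ _) (hτ1 _ _)⟩) (c := q ^ r - 1) (by
      rintro ⟨t, ht⟩
      have h3 := H11.card_diff (F := ZMod q) (U := ⊥) (W := C t) bot_le
      have h4 : finrank (ZMod q) (C t) = r := by
        have := hhalf t ht
        have := hhalf t₀ hP₀
        omega
      rw [h4, finrank_bot, pow_zero, ZMod.card] at h3
      rw [← h3]
      refine Nat.card_congr ⟨fun x => ⟨x.1.1, (hC _ _).2 ?_, x.1.2⟩,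
        fun x => ⟨⟨x.1, x.2.2⟩, Subtype.ext ?_⟩, fun _ => rfl, fun _ => rfl⟩
      · have := congrArg Subtype.val x.2
        simp only at this
        have h5 := hτ x.1.1 x.1.2
        rw [this] at h5
        exact h5
      · exact huniq x.1 x.2.2 _ _ (hτ _ _) ((hC _ _).1 x.2.1) (hτ1 _ _) (hne _ ht.1))
  have hV' : Nat.card {v : V // v ≠ 0} = q ^ (2 * r) - 1 := by
    haveI := Fintype.ofFinite V
    rw [← hV, Nat.card_eq_fintype_card, Fintype.card_subtype_compl, Fintype.card_subtype_eq,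
      Nat.card_eq_fintype_card]
  have h1 : 1 < q ^ r := Nat.one_lt_pow hr0.ne' hq.one_lt
  have h5 : q ^ (2 * r) - 1 = (q ^ r + 1) * (q ^ r - 1) := by
    rw [pow_mul', ← Nat.sq_sub_sq, one_pow]
  rw [hV', h5] at hcount
  exact (Nat.eq_of_mul_eq_mul_right (by omega) hcount).symm

end Cfsg.Agent.S3381
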