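import Cfsg.Statements.S3382
import Cfsg.Agent.H4.CoprimeAut

set_option autoImplicit false
open Cfsg

namespace Cfsg.Agent.S3382

open Subgroup

section
variable {F : Type*} [Field F]

abbrev L (F : Type*) [Field F] := (Fin 2 → F) ≃ₗ[F] (Fin 2 → F)

def IsD (f : L F) (a s : F) : Prop := ∀ v, f v = ![a * v 0, s * a⁻¹ * v 1]
def IsA (f : L F) (a s : F) : Prop := ∀ v, f v = ![s * a⁻¹ * v 1, a * v 0]

theorem IsD.eq {f g : L F} {a s : F} (h : IsD f a s) (h' : IsD g a s) : f = g :=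
  LinearEquiv.ext fun v => (h v).trans (h' v).symm

theorem isD_one : IsD (1 : L F) 1 1 := fun v => by
  ext i; fin_cases i <;> simp

theorem IsD.mul {f g : L F} {a s b r : F} (h : IsD f a s) (h' : IsD g b r) :
    IsD (f * g) (a * b) (s * r) := fun v => by
  rw [LinearEquiv.mul_apply, h, h']
  ext i; fin_cases i <;> simp <;> ring

theorem IsD.comm {f g : L F} {a s b r : F} (h : IsD f a s) (h' : IsD g b r) : f * g = g * f :=
  (h.mul h').eq (by rw [mul_comm a, mul_comm s]; exact h'.mul h)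

theorem IsD.pow {f : L F} {a s : F} (h : IsD f a s) (n : ℕ) : IsD (f ^ n) (a ^ n) (s ^ n) := by
  induction n with
  | zero => simpa using isD_one
  | succ n ih => rw [pow_succ, pow_succ, pow_succ]; exact ih.mul h

theorem IsA.mul {f g : L F} {a s b r : F} (h : IsA f a s) (h' : IsA g b r) (ha : a ≠ 0)
    (hb : b ≠ 0) (hs : s * s = 1) : IsD (f * g) (s * a⁻¹ * b) (s * r) := fun v => by
  have hs0 : s ≠ 0 := by rintro rfl; simp at hs
  rw [LinearEquiv.mul_apply, h, h']
  ext i; fin_cases i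
  · simp; ring
  · simp; field_simp

theorem IsA.sq {f : L F} {a s : F} (h : IsA f a s) (ha : a ≠ 0) (hs : s * s = 1) :
    IsD (f * f) s 1 := by
  have := h.mul h ha ha hs
  rwa [inv_mul_cancel_right₀ ha, hs] at this

theorem IsD.inj {f : L F} {a s b r : F} (h : IsD f a s) (h' : IsD f b r) (ha : a ≠ 0) :
    a = b ∧ s = r := by
  have h1 := (h ![1, 1]).symm.trans (h' ![1, 1])
  have h2 := congrFun h1 0
  have h3 := congrFun h1 1
  simp at h2 h3
  subst h2
  exact ⟨rfl, by simpa [ha] using h3⟩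

theorem IsA.comm {f g : L F} {a s b r : F} (h : IsA f a s) (h' : IsD g b r) (ha : a ≠ 0)
    (hb : b ≠ 0) (e : f * g = g * f) : b * b = r := by
  have h1 : (f * g) ![1, 0] 1 = (g * f) ![1, 0] 1 := by rw [e]
  rw [LinearEquiv.mul_apply, LinearEquiv.mul_apply, h, h', h', h] at h1
  simp at h1
  field_simp at h1
  rw [← h1]; ring

theorem exists_D (a s : F) (ha : a ≠ 0) (hs : s * s = 1) : ∃ f : L F, IsD f a s := by
  have hs0 : s ≠ 0 := by rintro rfl; simp at hs
  refine ⟨LinearEquiv.ofLinear (Matrix.toLin' !![a, 0; 0, s * a⁻¹]) (Matrix.toLin' !![a⁻¹, 0; 0, s⁻¹ * a])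
    ?_ ?_, fun v => ?_⟩
  · rw [← Matrix.toLin'_mul, ← Matrix.toLin'_one]; congr 1
    ext i j; fin_cases i <;> fin_cases j <;> simp [Matrix.mul_apply] <;> field_simp
  · rw [← Matrix.toLin'_mul, ← Matrix.toLin'_one]; congr 1
    ext i j; fin_cases i <;> fin_cases j <;> simp [Matrix.mul_apply] <;> field_simp
  · ext i; fin_cases i <;> simp [Matrix.mulVec, dotProduct, Fin.sum_univ_two]

theorem exists_A : ∃ f : L F, IsA f 1 (-1) := by
  refine ⟨LinearEquiv.ofLinear (Matrix.toLin' !![0, -1; 1, 0]) (Matrix.toLin' !![0, 1; -1, 0])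
    ?_ ?_, fun v => ?_⟩
  · rw [← Matrix.toLin'_mul, ← Matrix.toLin'_one]; congr 1
    ext i j; fin_cases i <;> fin_cases j <;> simp [Matrix.mul_apply]
  · rw [← Matrix.toLin'_mul, ← Matrix.toLin'_one]; congr 1
    ext i j; fin_cases i <;> fin_cases j <;> simp [Matrix.mul_apply]
  · ext i; fin_cases i <;> simp [Matrix.mulVec, dotProduct, Fin.sum_univ_two]

theorem main (T : Subgroup (L F)) [Finite T]
    (hT : ∀ f, f ∈ T ↔ ∃ a s : F, a ≠ 0 ∧ s * s = 1 ∧ (IsD f a s ∨ IsA f a s))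
    (h2 : IsPGroup 2 T) (hc : (∃ w : F, w ≠ 0 ∧ w ^ 4 ≠ 1) ∨ ∀ a : F, a ≠ 0 → a * a = 1)
    (ψ : MulAut T) (hψ : (orderOf ψ).Coprime 2) : ψ = 1 := by
  obtain ⟨r0, hr⟩ := exists_A (F := F)
  let r : T := ⟨r0, (hT r0).2 ⟨1, -1, one_ne_zero, by ring, Or.inr hr⟩⟩
  have hz : IsD (r * r : T).1 (-1) 1 := hr.sq one_ne_zero (by ring)
  have hsq : ∀ x : T, ∃ b, b ≠ 0 ∧ IsD (x * x : T).1 b 1 := by
    intro x
    obtain ⟨a, s, ha, hs, h | h⟩ := (hT x).1 x.2
    · exact ⟨a * a, mul_ne_zero ha ha, hs ▸ h.mul h⟩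
    · exact ⟨s, by rintro rfl; simp at hs, h.sq ha hs⟩
  have hpm : ∀ (x : T) (b : F), IsD x.1 b 1 → b * b = 1 → x = 1 ∨ x = r * r := by
    intro x b h hb
    rcases mul_self_eq_one_iff.1 hb with rfl | rfl
    · exact Or.inl (Subtype.ext (h.eq isD_one))
    · exact Or.inr (Subtype.ext (h.eq hz))
  have hone : ∀ (x : T) (b s : F), b ≠ 0 → IsD x.1 b s → x * x = 1 → b * b = 1 := by
    intro x b s hb h e
    have h1 := h.mul h
    rw [show x.1 * x.1 = 1 from congrArg Subtype.val e] at h1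
    exact (h1.inj isD_one (mul_ne_zero hb hb)).1
  have hzz : r * r * (r * r) = 1 := Subtype.ext ((hz.mul hz).eq (by simpa using isD_one))
  have hψz : ψ (r * r) = r * r := by
    obtain ⟨b, hb, h⟩ := hsq (ψ r)
    rw [← map_mul] at h
    rcases hpm _ b h (hone _ b 1 hb h (by rw [← map_mul, hzz, map_one])) with e | e
    · rw [e, (map_eq_one_iff ψ ψ.injective).1 e]
    · exact e
  have hfix : ∀ (x : T) (b : F), IsD x.1 b 1 → b * b = 1 → ψ x = x := by
    intro x b h hb
    rcases hpm x b h hb with rfl | rfl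
    exacts [map_one ψ, hψz]
  have step : ∀ x : T, ψ (x⁻¹ * ψ x) = x⁻¹ * ψ x → ψ x = x := fun x =>
    H4.mulAut_apply_eq_of_fixed_of_isPGroup h2 ψ hψ
  refine H4.mulAut_eq_one_of_centralizer_le h2 ψ hψ (H4.fixedBy ψ) ?_ fun x hx => hx
  rcases hc with ⟨w, hw, hw4⟩ | hc
  · obtain ⟨d0, hd⟩ := exists_D w 1 hw (one_mul 1)
    let d : T := ⟨d0, (hT d0).2 ⟨w, 1, hw, one_mul 1, Or.inl hd⟩⟩
    have hdiag : ∀ x : T, x * (d * d) = (d * d) * x → ∃ a s, a ≠ 0 ∧ s * s = 1 ∧ IsD x.1 a s := by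
      intro x e
      obtain ⟨a, s, ha, hs, h | h⟩ := (hT x).1 x.2
      · exact ⟨a, s, ha, hs, h⟩
      · exfalso
        have := h.comm (hd.mul hd) ha (mul_ne_zero hw hw) (congrArg Subtype.val e)
        exact hw4 (by rw [← mul_one (1 : F), ← this]; ring)
    have hinv : ∀ (x : T) (a s : F), IsD x.1 a s → ∃ a s, a ≠ 0 ∧ s * s = 1 ∧ IsD (ψ x).1 a s := by
      intro x a s h
      apply hdiag
      obtain ⟨b, -, hb⟩ := hsq (ψ.symm d)
      have := congrArg ψ (Subtype.ext (h.comm hb) : x * (ψ.symm d * ψ.symm d) = (ψ.symm d * ψ.symm d) * x)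
      simpa using this
    have hom : ∀ (x : T) (a s : F), a ≠ 0 → s * s = 1 → IsD x.1 a s → x * x = 1 → ψ x = x := by
      intro x a s ha hs h e
      have ha2 := hone x a s ha h e
      rcases mul_self_eq_one_iff.1 hs with rfl | rfl
      · exact hfix x a h ha2
      obtain ⟨b, t, hb, ht, h'⟩ := hinv x a _ h
      have hb2 := hone _ b t hb h' (by rw [← map_mul, e, map_one])
      rcases mul_self_eq_one_iff.1 ht with rfl | rfl
      · exact ψ.injective (hfix _ b h' hb2)
      apply step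
      rw [inv_eq_of_mul_eq_one_right e]
      refine hfix _ (a * b) (by simpa using h.mul h') ?_
      rw [mul_mul_mul_comm, ha2, hb2, one_mul]
    have hall : ∀ (k : ℕ) (x : T) (a s : F), a ≠ 0 → s * s = 1 → IsD x.1 a s → x ^ 2 ^ k = 1 →
        ψ x = x := by
      intro k
      induction k with
      | zero => intro x a s _ _ _ e; rw [pow_zero, pow_one] at e; rw [e, map_one]
      | succ k ih =>
        intro x a s ha hs h e
        have h1 := ih (x * x) (a * a) (s * s) (mul_ne_zero ha ha) (by rw [hs, one_mul]) (h.mul h)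
          (by rw [← _root_.sq, ← pow_mul, ← pow_succ', e])
        obtain ⟨b, t, hb, ht, h'⟩ := hinv x a _ h
        have hcm : x * ψ x = ψ x * x := Subtype.ext (h.comm h')
        have hcm' : Commute x⁻¹ (ψ x) := Commute.inv_left hcm
        have e2 : (x⁻¹ * ψ x) * (x⁻¹ * ψ x) = 1 := by
          rw [← _root_.sq, hcm'.mul_pow, _root_.sq, _root_.sq, ← map_mul, h1]; group
        obtain ⟨c, u, hc, hu, h''⟩ := hdiag (x⁻¹ * ψ x) (by
          have e3 : Commute x (d * d) := Subtype.ext (h.comm (hd.mul hd))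
          have e4 : Commute (ψ x) (d * d) := Subtype.ext (h'.comm (hd.mul hd))
          exact (e3.inv_left.mul_left e4).eq)
        exact step x (hom _ c u hc hu h'' e2)
    have hall' : ∀ (x : T) (a s : F), a ≠ 0 → s * s = 1 → IsD x.1 a s → ψ x = x := by
      intro x a s ha hs h
      obtain ⟨k, hk⟩ := h2 x
      exact hall k x a s ha hs h hk
    intro x hx
    obtain ⟨a, s, ha, hs, h⟩ := hdiag x
      (hx (d * d) (hall' _ _ _ (mul_ne_zero hw hw) (by ring) (hd.mul hd))).symm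
    exact hall' x a s ha hs h
  · have hAr : ∀ (x : T) (a : F), a ≠ 0 → IsA x.1 a (-1) → ψ (r * x) = r * x := by
      intro x a ha h
      refine hfix _ _ (by simpa using hr.mul h one_ne_zero ha (by ring)) ?_
      simpa using hc a ha
    have hψr : ψ r = r := by
      have hneg : ψ r * ψ r = 1 → (-1 : F) = 1 := by
        intro e
        rw [← map_mul, hψz] at e
        rw [e] at hz
        exact (hz.inj isD_one (by simp)).1
      obtain ⟨a, s, ha, hs, h | h⟩ := (hT _).1 (ψ r).2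
      · exfalso
        have e := hneg (Subtype.ext ((h.mul h).eq (by rw [hc a ha, hs]; exact isD_one)))
        have hs1 : s = 1 := by rcases mul_self_eq_one_iff.1 hs with h | h <;> simp [h, e]
        have ha1 : a = 1 := by rcases mul_self_eq_one_iff.1 (hc a ha) with h | h <;> simp [h, e]
        subst hs1 ha1
        have : r = 1 := (map_eq_one_iff ψ ψ.injective).1 (Subtype.ext (h.eq isD_one))
        have h3 := hr ![1, 0]
        rw [show r0 = 1 from congrArg Subtype.val this] at h3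
        have := congrFun h3 0
        simp at this
      · have hs1 : s = -1 := by
          rcases mul_self_eq_one_iff.1 hs with rfl | h'
          · exact (hneg (Subtype.ext ((h.sq ha hs).eq isD_one))).symm
          · exact h'
        subst hs1
        apply step
        have : r⁻¹ * ψ r = (r * r)⁻¹ * (r * ψ r) := by group
        rw [this, map_mul, map_inv, hψz, hAr _ a ha h]
    have hD : ∀ (x : T) (a s : F), a ≠ 0 → IsD x.1 a s → r * x = x * r → ψ x = x := by
      intro x a s ha h e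
      have := hr.comm h one_ne_zero ha (congrArg Subtype.val e)
      rw [hc a ha] at this
      subst this
      exact hfix x a h (hc a ha)
    intro x hx
    have e : r * x = x * r := hx r hψr
    obtain ⟨a, s, ha, hs, h | h⟩ := (hT x).1 x.2
    · exact hD x a s ha h e
    · have := hD (r * x) _ _ (by simpa using ha) (hr.mul h one_ne_zero ha (by ring))
        (by rw [mul_assoc, e])
      rw [map_mul, hψr] at this
      exact mul_left_cancel this

end


/-- Let q = 2^m + 1 be a prime other than 5. Then the automorphism group of the group of linear maps of F_q² of the forms (x, y) ↦ (a x, ± a⁻¹ y) and (x, y) ↦ (± a⁻¹ y, a x) with a ≠ 0 is itself a 2-group. -/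
theorem result (q m : ℕ) [Fact q.Prime] (hq : q = 2 ^ m + 1) (hq5 : q ≠ 5)
    (T : Subgroup ((Fin 2 → ZMod q) ≃ₗ[ZMod q] (Fin 2 → ZMod q)))
    (hT : ∀ f, f ∈ T ↔ ∃ a s : ZMod q, a ≠ 0 ∧ (s = 1 ∨ s = -1) ∧
      ((∀ v, f v = ![a * v 0, s * a⁻¹ * v 1]) ∨ (∀ v, f v = ![s * a⁻¹ * v 1, a * v 0]))) :
    IsPGroup 2 (MulAut T) := by
  have hT' : ∀ f, f ∈ T ↔ ∃ a s : ZMod q, a ≠ 0 ∧ s * s = 1 ∧ (IsD f a s ∨ IsA f a s) := by
    intro f
    rw [hT]
    simp only [mul_self_eq_one_iff]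
    rfl
  have hF : ∀ a : ZMod q, a ≠ 0 → a ^ 2 ^ m = 1 := fun a ha => by
    have := ZMod.pow_card_sub_one_eq_one ha
    rwa [show q - 1 = 2 ^ m from Nat.sub_eq_of_eq_add hq] at this
  have h2 : IsPGroup 2 T := by
    intro x
    obtain ⟨a, s, ha, hs, h | h⟩ := (hT' x).1 x.2
    · refine ⟨m + 1, Subtype.ext ((h.pow _).eq ?_)⟩
      rw [pow_succ, pow_mul, hF a ha, one_pow, mul_comm, pow_mul, _root_.sq, hs, one_pow]
      exact isD_one
    · refine ⟨2, Subtype.ext ?_⟩
      have h1 := (h.sq ha hs).mul (h.sq ha hs)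
      rw [hs, one_mul] at h1
      change x.1 ^ (2 * 2) = 1
      rw [pow_mul, _root_.sq, _root_.sq]
      exact h1.eq isD_one
  have hc : (∃ w : ZMod q, w ≠ 0 ∧ w ^ 4 ≠ 1) ∨ ∀ a : ZMod q, a ≠ 0 → a * a = 1 := by
    by_contra hcon
    push Not at hcon
    obtain ⟨h4, a, ha, ha2⟩ := hcon
    obtain ⟨g, hg⟩ := IsCyclic.exists_ofOrder_eq_natCard (α := (ZMod q)ˣ)
    rw [Nat.card_eq_fintype_card, ZMod.card_units, show q - 1 = 2 ^ m from Nat.sub_eq_of_eq_add hq] at hg
    have h1 : 2 ^ m ∣ 2 ^ 2 := hg ▸ orderOf_dvd_of_pow_eq_one (Units.ext (h4 g g.ne_zero))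
    have hm := (Nat.pow_dvd_pow_iff_le_right one_lt_two).1 h1
    have := hF a ha
    interval_cases m
    · exact ha2 (by rw [pow_zero, pow_one] at this; rw [this, one_mul])
    · exact ha2 (by rwa [pow_one, _root_.sq] at this)
    · exact hq5 hq
  haveI : Finite (L (ZMod q)) := Finite.of_injective (fun f : L (ZMod q) => (f : (Fin 2 → ZMod q) → (Fin 2 → ZMod q)))
    DFunLike.coe_injective
  intro φ
  obtain ⟨k, n, hn, e⟩ := Nat.exists_eq_two_pow_mul_odd (orderOf_pos φ).ne'
  refine ⟨k, main T hT' h2 hc _ ?_⟩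
  refine Nat.Coprime.coprime_dvd_left (orderOf_dvd_of_pow_eq_one ?_) hn.coprime_two_right
  rw [← pow_mul, ← e, pow_orderOf_eq_one]

end Cfsg.Agent.S3382
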