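import Mathlib
import Cfsg.Statements.S3383
import Cfsg.Agent.S0034
import Cfsg.Agent.S0035
import Cfsg.Agent.S0039
import Cfsg.Agent.H84.Frob

set_option autoImplicit false
open Cfsg

namespace Cfsg.Agent.S3383

theorem characteristic_of_coprime {L : Type*} [Group L] [Finite L] (K : Subgroup L) [K.Normal]
    (h : (Nat.card K).Coprime K.index) : K.Characteristic := by
  rw [Subgroup.characteristic_iff_map_le]
  rintro φ _ ⟨x, hx, rfl⟩
  rw [← QuotientGroup.eq_one_iff, ← orderOf_eq_one_iff]
  refine Nat.eq_one_of_dvd_coprimes h ?_ (orderOf_dvd_natCard _)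
  refine (orderOf_map_dvd (QuotientGroup.mk' K) _).trans ?_
  rw [MulEquiv.coe_toMonoidHom, MulEquiv.orderOf_eq]
  exact K.orderOf_dvd_natCard hx

/-- Let H be a Frobenius complement in a finite group L and K the Frobenius kernel (as a subgroup). Then K is characteristic in L, and every normal subgroup of L either contains K or is contained in K. -/
theorem result {L : Type*} [Group L] [Finite L]
    (H : Subgroup L) (hH : Cfsg.IsFrobeniusComplement H)
    (K : Subgroup L) (hK : (K : Set L) = Cfsg.frobeniusKernel H) :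
    K.Characteristic ∧ ∀ N : Subgroup L, N.Normal → K ≤ N ∨ N ≤ K := by
  obtain ⟨K', hK', hn, hc⟩ := S0035.result H hH
  obtain rfl : K = K' := SetLike.coe_injective (hK.trans hK'.symm)
  have hKne : K ≠ ⊥ := by
    rintro rfl
    exact hH.2.1 (Subgroup.isComplement'_bot_left.mp hc)
  have hfpf := (S0039.result K H hc hKne hH.1).mp hH
  constructor
  · apply characteristic_of_coprime
    rw [hc.symm.index_eq_card, ← hc.index_eq_card]
    have := (S0034.result H hH).2
    rw [Nat.Coprime, Nat.gcd_comm, Nat.gcd_rec, this, ← Nat.gcd_rec, Nat.gcd_one_right]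
  · intro N hN
    by_cases hle : N ≤ K
    · exact Or.inr hle
    left
    obtain ⟨x, hxN, hxK⟩ := SetLike.not_le_iff_exists.mp hle
    rw [← SetLike.mem_coe, hK, H84.mem_frobeniusKernel_iff, not_or, not_forall] at hxK
    obtain ⟨hx1, g, hg⟩ := hxK
    rw [not_not] at hg
    set h := g⁻¹ * x * g with hh
    have hhN : h ∈ N := by simpa using hN.conj_mem x hxN g⁻¹
    have hh1 : h ≠ 1 := fun e => hx1 (by
      have : x = g * h * g⁻¹ := by rw [hh]; group
      rw [this, e]; group)
    let f : K → K := fun k => ⟨(k : L)⁻¹ * (h * (k : L) * h⁻¹), K.mul_mem (K.inv_mem k.2) (hn.conj_mem _ k.2 h)⟩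
    have hf : Function.Injective f := by
      intro a b hab
      have h1 : (a : L)⁻¹ * (h * a * h⁻¹) = (b : L)⁻¹ * (h * b * h⁻¹) := congrArg Subtype.val hab
      have h2 : (b : L) * (a : L)⁻¹ ∈ K ⊓ Subgroup.centralizer {h} := by
        refine ⟨K.mul_mem b.2 (K.inv_mem a.2), ?_⟩
        intro y hy
        rw [Set.mem_singleton_iff.mp hy]
        calc h * ((b : L) * (a : L)⁻¹) = b * ((b : L)⁻¹ * (h * b * h⁻¹)) * h * (a : L)⁻¹ := by group
          _ = b * (a : L)⁻¹ * h := by rw [← h1]; group
      rw [hfpf h hg hh1, Subgroup.mem_bot, mul_inv_eq_one] at h2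
      exact Subtype.ext h2.symm
    intro k hk
    obtain ⟨a, ha⟩ := Finite.surjective_of_injective hf ⟨k, hk⟩
    have : (a : L)⁻¹ * (h * a * h⁻¹) = k := congrArg Subtype.val ha
    rw [← this, ← mul_assoc, ← mul_assoc]
    exact N.mul_mem (by simpa using hN.conj_mem h hhN (a : L)⁻¹) (N.inv_mem hhN)

end Cfsg.Agent.S3383
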