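import Cfsg.Statements.S3419
import Cfsg.Agent.H46.Spec

set_option autoImplicit false
open Cfsg

namespace Cfsg.Agent.S3419

/-- Let n ≥ 5 and let G be a finite group with the same order and the same set of element orders as the alternating group of degree n. Then G is not solvable. -/
theorem result {G : Type*} [Group G] [Finite G] (n : ℕ) (hn : 5 ≤ n)
    (hcard : Nat.card G = Nat.card ↥(alternatingGroup (Fin n)))
    (hspec : Set.range (orderOf : G → ℕ) = Set.range (orderOf : ↥(alternatingGroup (Fin n)) → ℕ)) :
    ¬ Group.IsSolvable G := by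
  intro hsol
  have hc2 := H46.card_alt n (by omega)
  have hdvd : Nat.card G ∣ n.factorial := by rw [hcard, ← hc2]; exact Dvd.intro_left _ rfl
  have hdG : ∀ r : ℕ, r.Prime → r ≠ 2 → r ≤ n → r ∣ Nat.card G := by
    intro r hr h1 h2
    have h3 : r ∣ 2 * Nat.card G := by rw [hcard, hc2]; exact (hr.dvd_factorial).2 h2
    rcases (Nat.Prime.dvd_mul hr).1 h3 with h | h
    · exact absurd ((Nat.prime_dvd_prime_iff_eq hr Nat.prime_two).1 h) h1
    · exact h
  have two : ∀ p q : ℕ, p.Prime → q.Prime → p ≠ q → n < 2 * p → n < 2 * q → p ≤ n → q ≤ n → False := by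
    intro p q hp hq hne h1 h2 h3 h4
    exact H46.no_adj_of_spec n hspec hp hq hne (by omega)
      (H46.exists_order_of_solvable hp hq hne (hdG p hp (by omega) h3) (hdG q hq (by omega) h4)
        (H46.mod_ne_of_half hn hp hq hne h1 h2 h4 hdvd)
        (H46.mod_ne_of_half hn hq hp hne.symm h2 h1 h3 hdvd))
  have spec : ∀ p r : ℕ, p.Prime → r.Prime → p ≠ r → p ≠ 2 → r ≠ 2 → n < p + r → p ≤ n → r ≤ n →
      ¬ p ^ 2 ∣ n.factorial → ¬ r ^ 3 ∣ n.factorial → p % r ≠ 1 → r % p ≠ 1 → r ^ 2 % p ≠ 1 → False := by
    intro p r hp hr hne hp2 hr2 h1 h2 h3 h4 h5 h6 h7 h8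
    refine H46.no_adj_of_spec n hspec hp hr hne h1
      (H46.exists_order_of_solvable hp hr hne (hdG p hp hp2 h2) (hdG r hr hr2 h3) ?_ ?_)
    · intro k hk hd
      have : k < 3 := by
        by_contra h
        exact h5 ((pow_dvd_pow r (by omega)).trans (hd.trans hdvd))
      interval_cases k
      · simpa using h7
      · exact h8
    · intro k hk hd
      have : k < 2 := by
        by_contra h
        exact h4 ((pow_dvd_pow p (by omega)).trans (hd.trans hdvd))
      interval_cases k
      simpa using h6
  by_cases h11 : 11 ≤ n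
  · obtain ⟨p, q, hp, hq, hne, hp1, hq1, hp2, hq2⟩ := H46.two_primes_half n h11
    exact two p q hp hq hne hp1 hq1 hp2 hq2
  · have h10 : n ≤ 10 := by omega
    interval_cases n
    · exact two 3 5 (by norm_num) (by norm_num) (by omega) (by omega) (by omega) (by omega) (by omega)
    · exact spec 5 3 (by norm_num) (by norm_num) (by omega) (by omega) (by omega) (by omega) (by omega)
        (by omega) (by decide) (by decide) (by decide) (by decide) (by decide)
    · exact two 5 7 (by norm_num) (by norm_num) (by omega) (by omega) (by omega) (by omega) (by omega)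
    · exact two 5 7 (by norm_num) (by norm_num) (by omega) (by omega) (by omega) (by omega) (by omega)
    · exact two 5 7 (by norm_num) (by norm_num) (by omega) (by omega) (by omega) (by omega) (by omega)
    · exact spec 7 5 (by norm_num) (by norm_num) (by omega) (by omega) (by omega) (by omega) (by omega)
        (by omega) (by decide) (by decide) (by decide) (by decide) (by decide)

end Cfsg.Agent.S3419
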