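import Cfsg.Statements.S3420
import Cfsg.Agent.H46.Spec

set_option autoImplicit false
open Cfsg

namespace Cfsg.Agent.S3420

/-- Let n ≥ 11 and let G be a finite group with the same order and the same set of element orders as the alternating group of degree n. Then G has normal subgroups N < H such that H/N is a non-abelian simple group whose order is divisible by every prime p with n/2 < p ≤ n. -/
theorem result {G : Type*} [Group G] [Finite G] (n : ℕ) (hn : 11 ≤ n)
    (hcard : Nat.card G = Nat.card ↥(alternatingGroup (Fin n)))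
    (hspec : Set.range (orderOf : G → ℕ) = Set.range (orderOf : ↥(alternatingGroup (Fin n)) → ℕ)) :
    ∃ (N H : Subgroup G) (_ : N.Normal), H.Normal ∧ N < H ∧
      IsSimpleGroup (↥H ⧸ N.subgroupOf H) ∧ ¬ IsMulCommutative (↥H ⧸ N.subgroupOf H) ∧
      ∀ p : ℕ, p.Prime → n < 2 * p → p ≤ n → p ∣ Nat.card (↥H ⧸ N.subgroupOf H) := by
  classical
  obtain ⟨p, q, hp, hq, hne, hp1, hq1, hp2, hq2⟩ := H46.two_primes_half n hn
  have hc2 := H46.card_alt n (by omega)
  have hdvd : Nat.card G ∣ n.factorial := by rw [hcard, ← hc2]; exact Dvd.intro_left _ rfl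
  have hdG : ∀ r : ℕ, r.Prime → n < 2 * r → r ≤ n → r ∣ Nat.card G := by
    intro r hr h1 h2
    have h3 : r ∣ 2 * Nat.card G := by rw [hcard, hc2]; exact (hr.dvd_factorial).2 h2
    rcases (Nat.Prime.dvd_mul hr).1 h3 with h | h
    · have := Nat.le_of_dvd (by norm_num) h
      omega
    · exact h
  have hB : ∀ (N : Subgroup G), N.Normal → ∀ r s : ℕ, r.Prime → s.Prime → n < 2 * r → r ≤ n →
      n < 2 * s → s ≤ n → r ∣ Nat.card N → s ∣ Nat.card N := by
    intro N hN r s hr hs h1 h2 h3 h4 h5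
    by_contra hcon
    have hrs : s ≠ r := by rintro rfl; exact hcon h5
    exact H46.no_adj_of_spec n hspec hs hr hrs (by omega)
      (H46.exists_order_of_frattini N hs hr hrs (hdG s hs h3 h4) hcon
        (H46.mod_ne_of_half (by omega) hs hr hrs h3 h1 h2 hdvd) h5)
  obtain ⟨H, ⟨hHn, hH⟩, hmin⟩ := exists_minimal_of_wellFoundedLT
    (fun N : Subgroup G => N.Normal ∧ p ∣ Nat.card N)
    ⟨⊤, inferInstance, by simpa using hdG p hp hp1 hp2⟩
  have hH1 : H ≠ ⊥ := by
    rintro rfl
    simp at hH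
    exact hp.one_lt.ne' hH
  obtain ⟨N, ⟨hNn, hNH⟩, hmax⟩ := exists_maximal_of_wellFoundedGT
    (fun N : Subgroup G => N.Normal ∧ N < H) ⟨⊥, inferInstance, bot_lt_iff_ne_bot.2 hH1⟩
  have hpN : ¬ p ∣ Nat.card N := fun h => hNH.not_ge (hmin ⟨hNn, h⟩ hNH.le)
  have hcq : Nat.card H = Nat.card (H ⧸ N.subgroupOf H) * Nat.card N := by
    rw [Subgroup.card_eq_card_quotient_mul_card_subgroup (N.subgroupOf H),
      Nat.card_congr (Subgroup.subgroupOfEquivOfLe hNH.le).toEquiv]
  have hall : ∀ r : ℕ, r.Prime → n < 2 * r → r ≤ n → r ∣ Nat.card (H ⧸ N.subgroupOf H) := by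
    intro r hr h1 h2
    have h3 := hB H hHn p r hp hr hp1 hp2 h1 h2 hH
    rw [hcq] at h3
    exact ((Nat.Prime.dvd_mul hr).1 h3).resolve_right
      (fun h => hpN (hB N hNn r p hr hp h1 h2 hp1 hp2 h))
  have hsimple : IsSimpleGroup (H ⧸ N.subgroupOf H) := by
    refine H46.simple_of_charSimple (H46.charSimple_of_chief N H hNH.le ?_) hp (hall p hp hp1 hp2) ?_
    · intro L hL h1 h2
      rcases h2.lt_or_eq with h3 | h3
      · exact Or.inl (le_antisymm (hmax ⟨hL, h3⟩ h1) h1)
      · exact Or.inr h3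
    · intro h
      apply H46.not_sq_dvd_factorial hp hp1
      refine h.trans (Dvd.dvd.trans ?_ hdvd)
      exact (Dvd.intro _ hcq.symm).trans (Subgroup.card_subgroup_dvd_card H)
  refine ⟨N, H, hNn, hHn, hNH, hsimple, ?_, hall⟩
  intro hcomm
  obtain ⟨g, h1, h2⟩ := H46.exists_order_of_comm (M := H ⧸ N.subgroupOf H)
    (fun a b => hcomm.is_comm.comm a b) hp hq hne (hall p hp hp1 hp2) (hall q hq hq1 hq2)
  obtain ⟨g, rfl⟩ := QuotientGroup.mk_surjective g
  have h3 : orderOf (g : H ⧸ N.subgroupOf H) ∣ orderOf g :=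
    orderOf_map_dvd (QuotientGroup.mk' (N.subgroupOf H)) g
  exact H46.no_adj_of_spec n hspec hp hq hne (by omega)
    ⟨g, by rw [Subgroup.orderOf_coe]; exact h1.trans h3, by rw [Subgroup.orderOf_coe]; exact h2.trans h3⟩

end Cfsg.Agent.S3420
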