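import Cfsg.Statements.S3431
import Cfsg.Agent.H81.SameOrder
import Cfsg.Agent.H16.Nse
import Cfsg.Agent.H28.Sixty
import Cfsg.Agent.H56.Mod.Alt
import Cfsg.Agent.S0497

set_option autoImplicit false
open Cfsg

namespace Cfsg.Agent.S3431

open Subgroup H81

section

variable {G : Type*} [Group G] [Finite G]

theorem card_pow_eq {n : ℕ} (l : List ℕ) (hl : n ≠ 0 ∧ l.Nodup ∧ l.toFinset = n.divisors) :
    Nat.card {x : G // x ^ n = 1} = (l.map (so G)).sum := by
  classical
  have := Fintype.ofFinite G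
  rw [← List.sum_toFinset _ hl.2.1, hl.2.2, Nat.card_eq_fintype_card, Fintype.card_subtype]
  refine Eq.trans (by congr) ((sum_card_orderOf_eq_card_pow_eq_one (G := G) hl.1).symm.trans ?_)
  exact Finset.sum_congr rfl fun d _ => by rw [so, Nat.card_eq_fintype_card, Fintype.card_subtype]

theorem frob {n : ℕ} (h : n ∣ Nat.card G) (l : List ℕ)
    (hl : n ≠ 0 ∧ l.Nodup ∧ l.toFinset = n.divisors := by decide +kernel) :
    n ∣ (l.map (so G)).sum := card_pow_eq (G := G) l hl ▸ dvd_card_pow_eq_one h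

theorem card_eq {n : ℕ} (h : ∀ m, so G m ≠ 0 → m ∣ n) (l : List ℕ)
    (hl : n ≠ 0 ∧ l.Nodup ∧ l.toFinset = n.divisors := by decide +kernel) :
    Nat.card G = (l.map (so G)).sum := by
  rw [← card_pow_eq l hl]
  exact (Nat.card_congr (Equiv.subtypeUnivEquiv fun x =>
    orderOf_dvd_iff_pow_eq_one.1 (h _ (so_ne_zero_iff.2 ⟨x, rfl⟩)))).symm

theorem dvd_card {m : ℕ} (h : so G m ≠ 0) : m ∣ Nat.card G := by
  obtain ⟨g, rfl⟩ := so_ne_zero_iff.1 h
  exact orderOf_dvd_natCard g

theorem sum_le (l : List ℕ) (hl : l.Nodup) : (l.map (so G)).sum ≤ Nat.card G := by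
  have h0 := (Nat.card_pos (α := G)).ne'
  rw [card_eq (fun m => dvd_card) (Nat.card G).divisors.toList
    ⟨h0, Finset.nodup_toList _, Finset.toList_toFinset _⟩, ← List.sum_toFinset _ hl,
    Finset.sum_map_toList]
  exact Finset.sum_le_sum_of_ne_zero fun m _ h => Nat.mem_divisors.2 ⟨dvd_card h, h0⟩

theorem tot (m k : ℕ) (h : m.totient = k := by decide +kernel) : k ∣ so G m :=
  h ▸ totient_dvd_so m

theorem zero {m : ℕ} (h : so G m = 0) (n : ℕ) (hn : m ∣ n := by decide) : so G n = 0 := by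
  by_contra h1
  exact so_ne_zero_of_dvd h1 hn h

theorem add (p m n : ℕ) (h : p ∣ Nat.card G)
    (hp : p.Prime ∧ ¬ p ∣ m ∧ p * m = n := by decide +kernel) : p ∣ so G m + so G n :=
  hp.2.2 ▸ dvd_so_add hp.1 h hp.2.1

theorem so_two {c m : ℕ} (h : so G m = c) (h2 : ¬ 2 ∣ c) (h1 : c ≠ 1) : so G 2 = c := by
  by_cases hm : 2 < m
  · exact absurd (h ▸ two_dvd_so hm) h2
  have h0 : so G 0 = 0 := by
    by_contra h0
    obtain ⟨g, hg⟩ := so_ne_zero_iff.1 h0
    exact (orderOf_pos g).ne' hg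
  have := so_one (G := G)
  interval_cases m <;> omega

theorem primes {L P : List ℕ} (hL : ∀ m, so G m ∈ L)
    (key : ∀ c ∈ L, c < 145 ∧ ∀ p < 146, p.Prime ∧ c ≠ 0 ∧ p ∣ 1 + c ∧ p - 1 ∣ c → p ∈ P)
    {p : ℕ} (hp : p.Prime) (h : p ∣ Nat.card G) : p ∈ P := by
  have h1 := dvd_so_add hp h (m := 1) (by rw [Nat.dvd_one]; exact hp.ne_one)
  rw [so_one, mul_one] at h1
  obtain ⟨h2, h3⟩ := key _ (hL p)
  have := Nat.le_of_dvd (by omega) h1
  exact h3 p (by omega) ⟨hp, so_prime_ne_zero hp h, h1, Nat.totient_prime hp ▸ totient_dvd_so p⟩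

theorem dvd_235 {n : ℕ} (a b c : ℕ) (hπ : ∀ p, p.Prime → p ∣ n → p ∈ [2, 3, 5])
    (h2 : ¬ 2 ^ (a + 1) ∣ n) (h3 : ¬ 3 ^ (b + 1) ∣ n) (h5 : ¬ 5 ^ (c + 1) ∣ n) :
    n ∣ 2 ^ a * 3 ^ b * 5 ^ c := by
  have key : ∀ {p k e : ℕ}, ¬ p ^ (e + 1) ∣ n → p ^ k ∣ n → p ^ k ∣ p ^ e := fun h1 h =>
    pow_dvd_pow _ (by by_contra hk; exact h1 ((pow_dvd_pow _ (by omega)).trans h))
  rw [Nat.dvd_iff_prime_pow_dvd_dvd]
  intro p k hp h
  rcases k with _ | k
  · simp
  have := hπ p hp ((dvd_pow_self p k.succ_ne_zero).trans h)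
  simp only [List.mem_cons, List.not_mem_nil, or_false] at this
  rcases this with rfl | rfl | rfl
  · exact ((key h2 h).mul_right _).mul_right _
  · exact ((key h3 h).mul_left _).mul_right _
  · exact (key h5 h).mul_left _

theorem exp_235 (a b c : ℕ) (hπ : ∀ p, p.Prime → p ∣ Nat.card G → p ∈ [2, 3, 5])
    (h2 : so G (2 ^ (a + 1)) = 0) (h3 : so G (3 ^ (b + 1)) = 0) (h5 : so G (5 ^ (c + 1)) = 0)
    (m : ℕ) (h : so G m ≠ 0) : m ∣ 2 ^ a * 3 ^ b * 5 ^ c :=
  dvd_235 a b c (fun p hp hd => hπ p hp (hd.trans (dvd_card h)))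
    (fun e => so_ne_zero_of_dvd h e h2) (fun e => so_ne_zero_of_dvd h e h3)
    fun e => so_ne_zero_of_dvd h e h5

theorem syl {p : ℕ} [Fact p.Prime] (h : p ∣ Nat.card G) (h2 : ¬ p * p ∣ Nat.card G) :
    so G p = Nat.card (Sylow p G) * (p - 1) ∧ Nat.card (Sylow p G) ∣ Nat.card G := by
  obtain ⟨P⟩ : Nonempty (Sylow p G) := inferInstance
  obtain ⟨m, hm⟩ := h
  exact ⟨H36.card_orderOf_eq_prime P (H36.card_sylow_eq_prime P hm fun e =>
    h2 (hm ▸ Nat.mul_dvd_mul_left p e)), P.card_dvd_index.trans (index_dvd_card _)⟩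

theorem two_mul_le {a b : ℕ} (n : ℕ) (h : ∀ y : G, orderOf y = a →
    ∃ x x' : G, x ≠ x' ∧ orderOf x = b ∧ orderOf x' = b ∧ x ^ n = y ∧ x' ^ n = y) :
    2 * so G a ≤ so G b := by
  choose! f f' h0 h1 h2 h3 h4 using h
  have := Nat.card_le_card_of_injective (fun z : Bool × {g : G // orderOf g = a} =>
    (if z.1 then ⟨f z.2, h1 _ z.2.2⟩ else ⟨f' z.2, h2 _ z.2.2⟩ : {g : G // orderOf g = b})) (by
      rintro ⟨_ | _, y, hy⟩ ⟨_ | _, z, hz⟩ e <;> simp only [Bool.false_eq_true, if_false, if_true,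
        Subtype.mk.injEq] at e
      · obtain rfl : y = z := by rw [← h4 y hy, e, h4 z hz]
        rfl
      · obtain rfl : y = z := by rw [← h4 y hy, e, h3 z hz]
        exact absurd e.symm (h0 y hy)
      · obtain rfl : y = z := by rw [← h3 y hy, e, h4 z hz]
        exact absurd e (h0 y hy)
      · obtain rfl : y = z := by rw [← h3 y hy, e, h3 z hz]
        rfl)
  rwa [Nat.card_prod, Nat.card_eq_fintype_card, Fintype.card_bool] at this

theorem cyc (p k : ℕ) [hp : Fact p.Prime] (h : ¬ p ^ (k + 3) ∣ Nat.card G)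
    (hs : so G (p ^ (k + 2)) ≠ 0) : 2 * so G (p ^ (k + 1)) ≤ so G (p ^ (k + 2)) := by
  obtain ⟨x₀, h0⟩ := so_ne_zero_iff.1 hs
  refine two_mul_le p fun y hy => ?_
  obtain ⟨P, hP⟩ := (IsPGroup.of_card ((Nat.card_zpowers x₀).trans h0)).exists_le_sylow
  obtain ⟨Q, hQ⟩ := (IsPGroup.of_card ((Nat.card_zpowers y).trans hy)).exists_le_sylow
  obtain ⟨g, rfl⟩ := MulAction.exists_smul_eq G P Q
  obtain ⟨j, hj⟩ := IsPGroup.iff_card.1 P.isPGroup'
  have e : zpowers x₀ = P := eq_of_le_of_card_ge hP (by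
    rw [hj, Nat.card_zpowers, h0]
    refine Nat.pow_le_pow_right hp.out.pos ?_
    by_contra hk
    exact h ((pow_dvd_pow _ (by omega)).trans (hj ▸ card_subgroup_dvd_card (P : Subgroup G))))
  obtain ⟨u, hu, e2⟩ := hQ (mem_zpowers y)
  change u ∈ (P : Subgroup G) at hu
  rw [← e, ← mem_powers_iff_mem_zpowers] at hu
  obtain ⟨i, rfl⟩ := hu
  change MulAut.conj g (x₀ ^ i) = y at e2
  obtain ⟨i, rfl⟩ : p ∣ i := by
    by_contra hi
    rw [← e2, MulEquiv.orderOf_eq, Nat.Coprime.orderOf_pow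
      (h0 ▸ ((hp.out.coprime_iff_not_dvd.2 hi).pow_left _)), h0] at hy
    exact absurd (Nat.pow_right_injective hp.out.two_le hy) (by omega)
  rw [mul_comm, pow_mul, map_pow] at e2
  set x := MulAut.conj g (x₀ ^ i)
  have y1 : y ^ p ^ k ≠ 1 := fun e => absurd ((Nat.pow_dvd_pow_iff_le_right hp.out.one_lt).1
    (hy ▸ orderOf_dvd_of_pow_eq_one e)) (by omega)
  have y2 : y ^ p ^ (k + 1) = 1 := hy ▸ pow_orderOf_eq_one y
  have ho : ∀ z : G, z ^ p = y → orderOf z = p ^ (k + 2) := fun z hz => orderOf_eq_prime_pow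
    (by rwa [pow_succ', pow_mul, hz]) (by rwa [pow_succ', pow_mul, hz])
  have e3 : (x * y ^ p ^ k) ^ p = y := by
    rw [Commute.mul_pow (e2 ▸ ((Commute.refl x).pow_right _).pow_right _), e2, ← pow_mul,
      ← pow_succ, y2, mul_one]
  exact ⟨x, x * y ^ p ^ k, fun e => y1 (left_eq_mul.1 e), ho _ e2, ho _ e3, e2, e3⟩

theorem inv_ten (h : 25 ∣ Nat.card G) (s25 : so G 25 = 0) (s2 : so G 2 < 25) :
    2 * so G 2 ≤ so G 10 := by
  have : Fact (Nat.Prime 5) := ⟨by norm_num⟩
  obtain ⟨P, hP⟩ := Sylow.exists_subgroup_card_pow_prime 5 (n := 2) (G := G) h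
  refine two_mul_le 5 fun t ht => ?_
  obtain ⟨y, hy, hc⟩ : ∃ y, orderOf y = 5 ∧ Commute t y := by
    have : ¬ Function.Injective fun u : P => (⟨MulAut.conj (u : G) t,
        by rw [MulEquiv.orderOf_eq, ht]⟩ : {g : G // orderOf g = 2}) := fun hi => by
      have := Nat.card_le_card_of_injective _ hi
      rw [hP] at this
      exact absurd (this.trans_lt s2) (by norm_num)
    obtain ⟨u, v, e, huv⟩ := Function.not_injective_iff.1 this
    have e1 : (u : G) * t * (u : G)⁻¹ = v * t * (v : G)⁻¹ := congrArg Subtype.val e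
    refine ⟨((v⁻¹ * u : P) : G), ?_, ?_⟩
    · have h1 := orderOf_dvd_natCard (v⁻¹ * u)
      rw [hP, ← orderOf_coe] at h1
      obtain ⟨i, hi, h2⟩ := (Nat.dvd_prime_pow Nat.prime_five).1 h1
      interval_cases i
      · rw [pow_zero, orderOf_coe, orderOf_eq_one_iff, inv_mul_eq_one] at h2
        exact absurd h2.symm huv
      · exact h2
      · exact absurd s25 (so_ne_zero_iff.2 ⟨_, h2⟩)
    · change t * ((v : G)⁻¹ * u) = (v : G)⁻¹ * u * t
      rw [show (v : G)⁻¹ * u * t = (v : G)⁻¹ * (u * t * (u : G)⁻¹) * u by group, e1]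
      group
  have key : ∀ y, orderOf y = 5 → Commute t y → orderOf (t * y) = 10 ∧ (t * y) ^ 5 = t :=
    fun y hy hc => ⟨by rw [hc.orderOf_mul_eq_mul_orderOf_of_coprime (by rw [ht, hy]; decide), ht, hy],
      by rw [hc.mul_pow, ← hy, pow_orderOf_eq_one, mul_one, hy, ← pow_mod_orderOf, ht, pow_one]⟩
  have k1 := key y hy hc
  have k2 := key y⁻¹ (by rw [orderOf_inv, hy]) hc.inv_right
  refine ⟨_, _, fun e => ?_, k1.1, k2.1, k1.2, k2.2⟩
  have := orderOf_dvd_of_pow_eq_one (show y ^ 2 = 1 by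
    rw [pow_two]; exact mul_eq_one_iff_eq_inv.2 (mul_left_cancel e))
  rw [hy] at this
  omega

theorem simple5 {m n : ℕ} (hG : Nat.card G = 5 * m) (hm : ¬ 5 ∣ m) (hn : n * 2 = m) (hm2 : m ≠ 2)
    (s5 : so G 5 = n * 4) (h : ∀ k, so G k ≠ 0 → 5 ∣ k → k = 5)
    (hq : ∀ q a : ℕ, q.Prime → 0 < a → q ^ a ∣ 5 * m → q ^ a % 5 ≠ 1) : IsSimpleGroup G := by
  have : Fact (Nat.Prime 5) := ⟨by norm_num⟩
  have h1 := (syl (G := G) (p := 5) ⟨m, hG⟩ fun e => hm (Nat.dvd_of_mul_dvd_mul_left (by decide)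
    (hG ▸ e))).1
  exact H16.simple_of_isolated hG hm (fun g => h _ (so_ne_zero_iff.2 ⟨g, rfl⟩)) (hG ▸ hq)
    Nat.prime_two (by omega) hm2

theorem a4 (hL : ∀ m, so G m ∈ [0, 1, 3, 8]) {m₁ m₂ : ℕ} (h₁ : so G m₁ = 3) (h₂ : so G m₂ = 8) :
    Nonempty (G ≃* alternatingGroup (Fin 4)) := by
  have hπ := fun p => primes (P := [2, 3]) hL (by decide +kernel) (p := p)
  have hπ' : ∀ p, p.Prime → p ∣ Nat.card G → p ∈ [2, 3, 5] := fun p hp h =>
    List.mem_append_left [5] (hπ p hp h)
  have h5 : ¬ 5 ∣ Nat.card G := fun h => absurd (hπ 5 (by norm_num) h) (by decide)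
  simp only [List.mem_cons, List.not_mem_nil, or_false] at hL
  have s1 := so_one (G := G)
  have s2 := so_two h₁ (by decide) (by decide)
  have s9 : so G 9 = 0 := by have := hL 9; have := tot (G := G) 9 6; omega
  have t4 := tot (G := G) 4 2
  have l4 := hL 4
  have h8 : ¬ 8 ∣ Nat.card G := fun h => by
    have := frob h [1, 2, 4, 8]
    simp only [List.map, List.sum_cons, List.sum_nil] at this
    have := hL 8; have := tot (G := G) 8 4; omega
  have h27 : ¬ 27 ∣ Nat.card G := fun h => by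
    have := frob h [1, 3, 9, 27]
    simp only [List.map, List.sum_cons, List.sum_nil] at this
    have := zero s9 27; have := hL 3; omega
  have hd := dvd_235 2 2 0 hπ' h8 h27 h5
  have hle := sum_le (G := G) [1, 2, m₂] (by
    have : m₂ ≠ 1 ∧ m₂ ≠ 2 := ⟨by rintro rfl; omega, by rintro rfl; omega⟩
    simp [this.1.symm, this.2.symm])
  simp only [List.map, List.sum_cons, List.sum_nil] at hle
  have h3 : 3 ∣ Nat.card G := by
    by_contra h3
    have := Nat.le_of_dvd (by decide) (dvd_235 2 0 0 hπ' h8 h3 h5)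
    omega
  have s3 : so G 3 = 8 := by have := add 3 1 3 h3; have := hL 3; omega
  have s6 : so G 6 = 0 := by have := add 3 2 6 h3; have := hL 6; have := tot (G := G) 6 2; omega
  have hc := card_eq (exp_235 2 1 0 hπ' (by_contra fun h => h8 (dvd_card h)) s9
    (by_contra fun h => h5 (dvd_card h))) [1, 2, 3, 4, 6, 12]
  simp only [List.map, List.sum_cons, List.sum_nil] at hc
  have := zero s6 12
  exact H28.alt4_of_orders (by omega) fun g hg => so_ne_zero_iff.2 ⟨g, hg⟩ s6

theorem a5 (hL : ∀ m, so G m ∈ [0, 1, 15, 20, 24]) {m₁ m₂ m₃ : ℕ} (h₁ : so G m₁ = 15)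
    (h₂ : so G m₂ = 20) (h₃ : so G m₃ = 24) : Nonempty (G ≃* alternatingGroup (Fin 5)) := by
  have : Fact (Nat.Prime 5) := ⟨by norm_num⟩
  have hπ := fun p => primes (P := [2, 3, 5]) hL (by decide +kernel) (p := p)
  simp only [List.mem_cons, List.not_mem_nil, or_false] at hL
  have s1 := so_one (G := G)
  have s2 := so_two h₁ (by decide) (by decide)
  have h2 : 2 ∣ Nat.card G := dvd_card (by omega)
  have s3 : 3 ∣ Nat.card G → so G 3 = 20 := fun h => by have := add 3 1 3 h; have := hL 3; omega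
  have s5 : 5 ∣ Nat.card G → so G 5 = 24 := fun h => by have := add 5 1 5 h; have := hL 5; omega
  have h9 : ¬ 3 * 3 ∣ Nat.card G := fun h => by
    have s3 := s3 ((Dvd.intro _ rfl).trans h)
    have h1 := frob (n := 9) h [1, 3, 9]
    simp only [List.map, List.sum_cons, List.sum_nil] at h1
    have := hL 9; have := tot (G := G) 9 6
    have := cyc (G := G) 3 0 (fun h => by
      have := frob (n := 27) h [1, 3, 9, 27]
      simp only [List.map, List.sum_cons, List.sum_nil] at this
      have := hL 27; have := tot (G := G) 27 18; omega) (show so G 9 ≠ 0 by omega)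
    change 2 * so G 3 ≤ so G 9 at this
    omega
  have h25 : ¬ 5 * 5 ∣ Nat.card G := fun h => by
    have s5 := s5 ((Dvd.intro _ rfl).trans h)
    have h1 := frob (n := 25) h [1, 5, 25]
    simp only [List.map, List.sum_cons, List.sum_nil] at h1
    have := hL 25; have := tot (G := G) 25 20
    have := inv_ten (G := G) h (by omega) (by omega)
    have := hL 10
    omega
  have h35 : 3 ∣ Nat.card G → 5 ∣ Nat.card G := fun h => by
    obtain ⟨e1, e2⟩ := syl h h9
    rw [s3 h] at e1
    exact Dvd.dvd.trans (by omega) e2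
  have h53 : 5 ∣ Nat.card G → 3 ∣ Nat.card G := fun h => by
    obtain ⟨e1, e2⟩ := syl h h25
    rw [s5 h] at e1
    exact Dvd.dvd.trans (by omega) e2
  have l4 := hL 4
  have t4 := tot (G := G) 4 2
  have h5 : 5 ∣ Nat.card G := by
    by_contra h5
    have h3 := mt h35 h5
    have he := exp_235 4 0 0 hπ (show so G 32 = 0 by
      have := hL 32; have := tot (G := G) 32 16; omega) (by_contra fun h => h3 (dvd_card h))
      (by_contra fun h => h5 (dvd_card h))
    have hc := card_eq he [1, 2, 4, 8, 16]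
    simp only [List.map, List.sum_cons, List.sum_nil] at hc
    have key : ∀ m, m ∣ 2 ^ 4 * 3 ^ 0 * 5 ^ 0 → m ∈ [1, 2, 4, 8, 16] := fun m hm =>
      (show ∀ m ≤ 16, m ∣ 2 ^ 4 * 3 ^ 0 * 5 ^ 0 → m ∈ [1, 2, 4, 8, 16] by decide +kernel) m
        (Nat.le_of_dvd (by decide) hm) hm
    have k2 := key m₂ (he _ (by omega))
    have k3 := key m₃ (he _ (by omega))
    simp only [List.mem_cons, List.not_mem_nil, or_false] at k2 k3
    have := hL 8; have := hL 16; have := tot (G := G) 8 4; have := tot (G := G) 16 8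
    rcases k2 with rfl | rfl | rfl | rfl | rfl <;> rcases k3 with rfl | rfl | rfl | rfl | rfl <;>
      omega
  have h3 := h53 h5
  replace s3 := s3 h3
  replace s5 := s5 h5
  have s15 : so G 15 = 0 := by
    have := add 5 3 15 h5; have := hL 15; have := tot (G := G) 15 8; omega
  have s30 := zero s15 30
  have s6 : so G 6 = 0 := by
    have := add 5 6 30 h5; have := add 3 2 6 h3; have := hL 6; have := tot (G := G) 6 2; omega
  have s4 : so G 4 = 0 := by
    have := add 3 4 12 h3; have := zero s6 12; have := add 5 4 20 h5; have := hL 20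
    have := tot (G := G) 20 8; omega
  have he := exp_235 1 1 1 hπ s4 (by_contra fun h => h9 (dvd_card h))
    (by_contra fun h => h25 (dvd_card h))
  have hc := card_eq he [1, 2, 3, 5, 6, 10, 15, 30]
  simp only [List.map, List.sum_cons, List.sum_nil] at hc
  have s10 : so G 10 = 0 := by have := add 5 2 10 h5; have := hL 10; omega
  have := simple5 (G := G) (m := 12) (n := 6) (by omega) (by decide) rfl (by decide) s5
    (fun k hk h => by
      have key : ∀ k ≤ 30, k ∣ 2 ^ 1 * 3 ^ 1 * 5 ^ 1 → 5 ∣ k → k = 5 ∨ 10 ∣ k ∨ 15 ∣ k := by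
        decide +kernel
      have := he k hk
      exact (key k (Nat.le_of_dvd (by decide) this) this h).resolve_right fun e => e.elim
        (fun e => hk (zero s10 k e)) fun e => hk (zero s15 k e))
    (H16.prime_pow_mod_ne [2, 3, 5] (by norm_num) (H16.prime_mem (by norm_num)) (by decide +kernel)
      (by decide +kernel))
  exact S0494.result (by omega)

theorem ar1 {N k x y : ℕ} (hN : N = 360 + 90 * k + x + y) (h : 36 ∣ N) (hx : x = 0 ∨ x = 80)
    (hy : y = 0 ∨ y = 80) : x = 0 := by omega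

theorem ar2 {N k : ℕ} (hN : N = 360 + 90 * k) (hk : k ≤ 5) (h : 36 ∣ N) (h16 : ¬ 16 ∣ N)
    (h27 : 27 ∣ N → k ≤ 1) : N = 360 := by
  interval_cases k <;> omega

section six

variable (hL : ∀ m, so G m = 0 ∨ so G m = 1 ∨ so G m = 45 ∨ so G m = 80 ∨ so G m = 90 ∨ so G m = 144)
  (s2 : so G 2 = 45)
include hL s2

omit s2 in
theorem a6_3 (h : 3 ∣ Nat.card G) : so G 3 = 80 := by
  have := add 3 1 3 h; have := hL 3; have := so_one (G := G); omega

omit s2 in
theorem a6_5 (h : 5 ∣ Nat.card G) : so G 5 = 144 := by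
  have := add 5 1 5 h; have := hL 5; have := so_one (G := G); omega

omit s2 in
theorem a6_π (p : ℕ) (hp : p.Prime) (h : p ∣ Nat.card G) : p ∈ [2, 3, 5] := by
  have : Fact (Nat.Prime 7) := ⟨by norm_num⟩
  refine (List.mem_append.1 (primes (L := [0, 1, 45, 80, 90, 144]) (P := [2, 3, 5] ++ [7])
    (by simpa using hL) (by decide +kernel) hp h)).resolve_right fun e => ?_
  obtain rfl := List.mem_singleton.1 e
  have s1 := so_one (G := G)
  have s7 : so G 7 = 90 := by have := add 7 1 7 h; have := hL 7; have := tot (G := G) 7 6; omega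
  obtain ⟨e1, e2⟩ := syl h fun h => by
    have := frob (n := 49) h [1, 7, 49]
    simp only [List.map, List.sum_cons, List.sum_nil] at this
    have := hL 49; have := tot (G := G) 49 42; omega
  have := a6_5 hL (Dvd.dvd.trans (by omega) e2)
  have := add 7 5 35 h; have := hL 35; have := tot (G := G) 35 24; omega

theorem a6_4 (h : 4 ∣ Nat.card G) : so G 4 = 90 := by
  have := frob h [1, 2, 4]
  simp only [List.map, List.sum_cons, List.sum_nil, so_one] at this
  have := hL 4; omega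

theorem a6_16 : ¬ 16 ∣ Nat.card G := fun h => by
  have := frob h [1, 2, 4, 8, 16]
  simp only [List.map, List.sum_cons, List.sum_nil, so_one] at this
  have := a6_4 hL s2 (Dvd.dvd.trans (by decide) h)
  have := hL 8; have := tot (G := G) 8 4; have := hL 16; have := tot (G := G) 16 8; omega

omit s2 in
theorem a6_81 : so G 81 = 0 := by have := hL 81; have := tot (G := G) 81 54; omega

omit s2 in
theorem a6_27 (h : 27 ∣ Nat.card G) : so G 9 = 0 := by
  have := frob h [1, 3, 9, 27]
  simp only [List.map, List.sum_cons, List.sum_nil, so_one] at this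
  have := a6_3 hL (Dvd.dvd.trans (by decide) h)
  have := hL 9; have := tot (G := G) 9 6; have := hL 27; have := tot (G := G) 27 18
  omega

theorem a6_five (hle : 360 ≤ Nat.card G) : 5 ∣ Nat.card G := by
  by_contra h5
  have h16 := a6_16 hL s2
  have hd := dvd_235 3 4 0 (a6_π hL) h16 (fun h => by
    have := frob (n := 243) h [1, 3, 9, 27, 81, 243]
    have s9 := a6_27 hL (Dvd.dvd.trans (by decide) h)
    simp only [List.map, List.sum_cons, List.sum_nil, so_one, s9, zero s9 27, zero s9 81,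
      zero s9 243, a6_3 hL (Dvd.dvd.trans (by decide) h)] at this
    omega) h5
  have hG : Nat.card G = 648 := by
    obtain ⟨k, hk⟩ := hd
    rcases k with _ | _ | k
    · omega
    · omega
    · nlinarith
  have hc := card_eq (exp_235 3 1 0 (a6_π hL) (by_contra fun h => h16 (dvd_card h))
    (a6_27 hL (by omega)) (by_contra fun h => h5 (dvd_card h))) [1, 2, 3, 4, 6, 8, 12, 24]
  simp only [List.map, List.sum_cons, List.sum_nil, so_one] at hc
  have := a6_3 hL (by omega); have := a6_4 hL s2 (by omega)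
  have := cyc (G := G) 2 1 h16 fun h => by
    have := zero (m := 8) h 24; change so G 8 = 0 at h; have := hL 6; have := hL 12; omega
  change 2 * so G 4 ≤ so G 8 at this
  have := hL 8
  omega

theorem a6_main (h5 : 5 ∣ Nat.card G) : Nonempty (G ≃* alternatingGroup (Fin 6)) := by
  have : Fact (Nat.Prime 5) := ⟨by norm_num⟩
  have s5 := a6_5 hL h5
  have h25 : ¬ 5 * 5 ∣ Nat.card G := fun h => by
    have h1 := frob (n := 25) h [1, 5, 25]
    simp only [List.map, List.sum_cons, List.sum_nil, so_one] at h1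
    have s25 : so G 25 = 80 := by have := hL 25; have := tot (G := G) 25 20; omega
    have := cyc (G := G) 5 0 (fun h => by
      have := frob (n := 125) h [1, 5, 25, 125]
      simp only [List.map, List.sum_cons, List.sum_nil, so_one] at this
      have := hL 125; have := tot (G := G) 125 100; omega) (show so G 25 ≠ 0 by omega)
    change 2 * so G 5 ≤ so G 25 at this
    omega
  have h36 : 36 ∣ Nat.card G := by
    obtain ⟨e1, e2⟩ := syl h5 h25
    exact Dvd.dvd.trans (by omega) e2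
  have h3 : 3 ∣ Nat.card G := Dvd.dvd.trans (by decide) h36
  have s3 := a6_3 hL h3
  have s4 := a6_4 hL s2 (Dvd.dvd.trans (by decide) h36)
  have s15 : so G 15 = 0 := by
    have := add 5 3 15 h5; have := add 3 5 15 h3; have := hL 15; have := tot (G := G) 15 8; omega
  have s12 : so G 12 = 0 := by
    have := add 5 12 60 h5; have := zero s15 60; have := add 3 4 12 h3; have := hL 12
    have := tot (G := G) 12 4; omega
  have s8 : so G 8 = 0 := by
    have := add 3 8 24 h3; have := zero s12 24; have := add 5 8 40 h5; have := hL 40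
    have := tot (G := G) 40 16; have := hL 8; have := tot (G := G) 8 4; omega
  have he := exp_235 2 3 1 (a6_π hL) s8 (a6_81 hL) (by_contra fun h => h25 (dvd_card h))
  have hc := card_eq he
    [1, 2, 3, 4, 5, 6, 9, 10, 12, 15, 18, 20, 27, 30, 36, 45, 54, 60, 90, 108, 135, 180, 270, 540]
  simp only [List.map, List.sum_cons, List.sum_nil, so_one, s12, s15, zero s15 30, zero s12 36,
    zero s15 45, zero s15 60, zero s15 90, zero s12 108, zero s15 135, zero s15 180, zero s15 270,
    zero s15 540] at hc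
  have key : ∀ m, 15 ∣ 5 * m → ¬ 5 ∣ m → 6 ∣ so G m → ∃ a ≤ 1, so G m = 90 * a :=
    fun m h1 h2 h3 => by
      have h4 := add 5 m _ h5 ⟨by norm_num, h2, rfl⟩
      rw [zero s15 _ h1] at h4
      have := hL m
      clear hc
      exact ⟨so G m / 90, by omega, by omega⟩
  obtain ⟨a, ha, s6⟩ := key 6 (by decide) (by decide) (by
    have := add 3 2 6 h3; have := tot (G := G) 6 2; clear hc; omega)
  obtain ⟨b, hb, s9⟩ := key 9 (by decide) (by decide) (tot 9 6)
  obtain ⟨c, hc', s27⟩ := key 27 (by decide) (by decide) (Dvd.dvd.trans (by decide) (tot 27 18))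
  obtain ⟨d, hd, s18⟩ := key 18 (by decide) (by decide) (tot 18 6)
  obtain ⟨e, he', s54⟩ := key 54 (by decide) (by decide) (Dvd.dvd.trans (by decide) (tot 54 18))
  have hN : Nat.card G = 360 + 90 * (a + b + c + d + e) + so G 10 + so G 20 := by
    rw [hc, s2, s3, s4, s5, s6, s9, s18, s27, s54]; ring
  have s10 : so G 10 = 0 := ar1 hN h36 (by
    have := add 5 2 10 h5; have := hL 10; have := tot (G := G) 10 4; clear hc hN; omega) (by
    have := add 5 4 20 h5; have := hL 20; have := tot (G := G) 20 8; clear hc hN; omega)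
  rw [s10, zero s10 20] at hN
  have hG : Nat.card G = 360 := ar2 hN (by clear hc hN; omega) h36 (a6_16 hL s2) fun h => by
    have s9 := a6_27 hL h
    have := zero s9 18; have := zero s9 27; have := zero s9 54
    clear hc hN
    omega
  have := simple5 (G := G) (m := 72) (n := 36) hG (by decide) rfl (by decide) s5
    (fun k hk h => by
      have key : ∀ k ≤ 540, k ∣ 2 ^ 2 * 3 ^ 3 * 5 ^ 1 → 5 ∣ k → k = 5 ∨ 10 ∣ k ∨ 15 ∣ k := by
        decide +kernel
      have := he k hk
      exact (key k (Nat.le_of_dvd (by decide) this) this h).resolve_right fun e => e.elim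
        (fun e => hk (zero s10 k e)) fun e => hk (zero s15 k e))
    (H16.prime_pow_mod_ne [2, 3, 5] (by norm_num) (H16.prime_mem (by norm_num)) (by decide +kernel)
      (by decide +kernel))
  exact S0497.result hG

end six

theorem a6 (hL : ∀ m, so G m ∈ [0, 1, 45, 80, 90, 144]) {m₁ m₂ m₃ m₄ : ℕ} (h₁ : so G m₁ = 45)
    (h₂ : so G m₂ = 80) (h₃ : so G m₃ = 90) (h₄ : so G m₄ = 144) :
    Nonempty (G ≃* alternatingGroup (Fin 6)) := by
  simp only [List.mem_cons, List.not_mem_nil, or_false] at hL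
  have s1 := so_one (G := G)
  have s2 := so_two h₁ (by decide) (by decide)
  have hle := sum_le (G := G) [1, 2, m₂, m₃, m₄] (by
    have key : ∀ {a b : ℕ}, so G a ≠ so G b → a ≠ b := fun h e => h (e ▸ rfl)
    simp only [List.nodup_cons, List.mem_cons, List.not_mem_nil, or_false, not_or,
      not_false_iff, List.nodup_nil, and_true]
    refine ⟨⟨?_, ?_, ?_, ?_⟩, ⟨?_, ?_, ?_⟩, ⟨?_, ?_⟩, ?_⟩ <;> exact key (by omega))
  simp only [List.map, List.sum_cons, List.sum_nil] at hle
  exact a6_main hL s2 (a6_five hL s2 (by omega))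

open H14 in
theorem so_eq {α : Type*} {n k M : ℕ} {E : Enc α n k M} {K : Subgroup (Equiv.Perm α)}
    {cl : List Cls} (h : E.ClassList K cl) {N : ℕ} (hN : Nat.card K = N)
    (h1 : ∀ c ∈ cl, ordN k M n c.X 6 ≠ 0) (j : ℕ) : so K j =
      ((cl.filter fun d => Nat.beq (ordN k M n d.X 6) j).map fun d => N / d.c).sum := by
  have e : so K j = {g | g ∈ K ∧ orderOf g = j}.ncard :=
    Nat.card_congr ⟨fun g => ⟨g.1, g.1.2, by rw [orderOf_coe]; exact g.2⟩,
      fun g => ⟨⟨g.1, g.2.1⟩, by rw [← orderOf_coe]; exact g.2.2⟩, fun _ => rfl, fun _ => rfl⟩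
  rw [e, h.ncard_eq (p := fun g => orderOf g = j) (fun g _ x _ hx => by
    rw [H36.orderOf_conj', hx]) (fun d => Nat.beq (ordN k M n d.X 6) j) (fun c hc x _ hx => by
    rw [beq_iff, E.orderOf_eq_ordN x (hx ▸ h1 c hc), hx]), hN]

theorem transfer {A : Type*} [Group A] [Finite A]
    (h : (fun m : ℕ => Nat.card {g : G // orderOf g = m}) '' Set.range (orderOf : G → ℕ) =
      (fun m : ℕ => Nat.card {g : A // orderOf g = m}) '' Set.range (orderOf : A → ℕ)) :
    (∀ L : List ℕ, 0 ∈ L → (∀ m, so A m ∈ L) → ∀ m, so G m ∈ L) ∧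
      ∀ j c, so A j = c → c ≠ 0 → ∃ m, so G m = c := by
  refine ⟨fun L h0 hL m => (so_mem_of_eq h m).elim (fun e => e ▸ h0) fun ⟨j, _, e⟩ => e ▸ hL j,
    fun j c e h0 => ?_⟩
  obtain ⟨m, -, hm⟩ := (so_mem_of_eq h.symm j).resolve_left (e ▸ h0)
  exact ⟨m, hm.trans e⟩

end

/-- Let n be 4, 5 or 6 and let G be a finite group whose set of sizes of same-order classes (the set of numbers #{g : o(g) = m} over the element orders m of G) equals that of the alternating group of degree n. Then G is isomorphic to that alternating group. -/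
theorem result {G : Type*} [Group G] [Finite G] (n : ℕ) (hn : n = 4 ∨ n = 5 ∨ n = 6)
    (h : ((fun m : ℕ => Nat.card {g : G // orderOf g = m}) '' Set.range (orderOf : G → ℕ)) = ((fun m : ℕ => Nat.card {g : ↥(alternatingGroup (Fin n)) // orderOf g = m}) '' Set.range (orderOf : ↥(alternatingGroup (Fin n)) → ℕ))) :
    Nonempty (G ≃* ↥(alternatingGroup (Fin n))) := by
  obtain ⟨t1, t2⟩ := transfer h
  rcases hn with rfl | rfl | rfl
  · have e := so_eq H56.Alt.a4_classes H56.Alt.a4_card (by decide +kernel)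
    obtain ⟨_, h₁⟩ := t2 2 3 ((e _).trans (by decide +kernel)) (by decide)
    obtain ⟨_, h₂⟩ := t2 3 8 ((e _).trans (by decide +kernel)) (by decide)
    exact a4 (t1 _ (by decide) (H16.nse_of_classList H56.Alt.a4_classes H56.Alt.a4_card (fuel := 6)
      (by decide) (by decide +kernel) (by decide +kernel))) h₁ h₂
  · have e := so_eq H56.Alt.a5_classes H56.Alt.a5_card (by decide +kernel)
    obtain ⟨_, h₁⟩ := t2 2 15 ((e _).trans (by decide +kernel)) (by decide)
    obtain ⟨_, h₂⟩ := t2 3 20 ((e _).trans (by decide +kernel)) (by decide)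
    obtain ⟨_, h₃⟩ := t2 5 24 ((e _).trans (by decide +kernel)) (by decide)
    exact a5 (t1 _ (by decide) (H16.nse_of_classList H56.Alt.a5_classes H56.Alt.a5_card (fuel := 6)
      (by decide) (by decide +kernel) (by decide +kernel))) h₁ h₂ h₃
  · have e := so_eq H56.Alt.a6_classes H56.Alt.a6_card (by decide +kernel)
    obtain ⟨_, h₁⟩ := t2 2 45 ((e _).trans (by decide +kernel)) (by decide)
    obtain ⟨_, h₂⟩ := t2 3 80 ((e _).trans (by decide +kernel)) (by decide)
    obtain ⟨_, h₃⟩ := t2 4 90 ((e _).trans (by decide +kernel)) (by decide)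
    obtain ⟨_, h₄⟩ := t2 5 144 ((e _).trans (by decide +kernel)) (by decide)
    exact a6 (t1 _ (by decide) (H16.nse_of_classList H56.Alt.a6_classes H56.Alt.a6_card (fuel := 6)
      (by decide) (by decide +kernel) (by decide +kernel))) h₁ h₂ h₃ h₄

end Cfsg.Agent.S3431
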