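import Cfsg.Statements.S3704
import Cfsg.Agent.S0157
import Cfsg.Agent.H5.Complete
import Cfsg.Agent.H6.IndRep

set_option autoImplicit false
open Cfsg

namespace Cfsg.Agent.S3704

/-- Let G be a finite group acting faithfully and 2-transitively on a finite set Ω of size n, and let H be a subgroup of index n in G which is not transitive on Ω and fixes no point of Ω. Then H has exactly two orbits on Ω. -/
theorem result {G Ω : Type*} [Group G] [Finite G] [MulAction G Ω] [FaithfulSMul G Ω] [Finite Ω] (h2 : MulAction.IsMultiplyPretransitive G Ω 2) (H : Subgroup G) (hidx : H.index = Nat.card Ω) (hnt : ¬ MulAction.IsPretransitive H Ω) (hfix : ∀ a : Ω, ∃ h : H, h • a ≠ a) : Nat.card (MulAction.orbitRel.Quotient H Ω) = 2 := by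
  classical
  have := Fintype.ofFinite G
  have := Fintype.ofFinite Ω
  have hn0 : 0 < Nat.card Ω := by rw [← hidx]; exact Nat.pos_of_ne_zero H.index_ne_zero_of_finite
  have hne : Nonempty Ω := (Nat.card_pos_iff.mp hn0).1
  have hn2 : 2 ≤ Nat.card Ω := by
    by_contra hc
    have : Subsingleton Ω := (Finite.card_le_one_iff_subsingleton).mp (by omega)
    exact hnt ⟨fun a b => ⟨1, Subsingleton.elim _ _⟩⟩
  have h1 : MulAction.IsPretransitive G Ω := by
    have := MulAction.isMultiplyPretransitive_of_le (G := G) (α := Ω) (m := 1) (n := 2) (by norm_num)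
      (by exact_mod_cast hn2)
    exact MulAction.is_one_pretransitive_iff.mp this
  have hχ := (S0157.result (G := G) Ω hn2).mpr h2
  set χ : G → ℂ := fun g => (Nat.card (MulAction.fixedBy Ω g) : ℂ) - 1 with hχdef
  set ψ : G → ℂ := indFun H (fun _ => 1) with hψ
  have hψc : IsCharacter G ψ := H6.isCharacter_indFun H H5.isCharacter_one
  set r := Nat.card (MulAction.orbitRel.Quotient H Ω) with hr
  have hψ1 : classInner ψ (fun _ => 1) = 1 := by
    rw [hψ, H6.classInner_indFun_left H _ (fun _ _ => rfl)]
    exact H5.classInner_irr_self H5.isIrrCharacter_one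
  have hχ1 : χ ≠ fun _ => 1 := by
    intro h
    have h3 := MulAction.sum_card_fixedBy_eq_card_orbits_mul_card_group G Ω
    have h4 : ∀ g : G, Fintype.card (MulAction.fixedBy Ω g) = 2 := by
      intro g
      have := congrFun h g
      simp only [hχdef, Nat.card_eq_fintype_card] at this
      have h5 : ((Fintype.card (MulAction.fixedBy Ω g) : ℕ) : ℂ) = (2 : ℕ) := by
        push_cast; linear_combination this
      exact_mod_cast h5
    have h5 : Fintype.card (MulAction.orbitRel.Quotient G Ω) = 1 := by
      rw [Fintype.card_eq_one_iff_nonempty_unique]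
      exact (MulAction.pretransitive_iff_unique_quotient_of_nonempty G Ω).mp h1
    simp only [h4, Finset.sum_const, Finset.card_univ, smul_eq_mul] at h3
    erw [h5] at h3
    have : 0 < Fintype.card G := Fintype.card_pos
    omega
  have hψχ : classInner ψ χ = r - 1 := by
    rw [hψ, H6.classInner_indFun_left H _ (H5.isClassFunction_of_isIrr hχ)]
    have h3 := MulAction.sum_card_fixedBy_eq_card_orbits_mul_card_group H Ω
    have h4 : ∑ h : H, (Nat.card (MulAction.fixedBy Ω (h : G)) : ℂ) = r * Nat.card H := by
      rw [hr, Nat.card_eq_fintype_card, Nat.card_eq_fintype_card]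
      simp only [Nat.card_eq_fintype_card]
      exact_mod_cast h3
    unfold classInner
    simp only [hχdef, one_mul, map_sub, map_natCast, map_one, Finset.sum_sub_distrib, h4,
      Finset.sum_const, Finset.card_univ, nsmul_eq_mul, mul_one, ← Nat.card_eq_fintype_card]
    have : (Nat.card H : ℂ) ≠ 0 := H5.natCard_ne_zero
    field_simp
  have hr1 : r ≠ 1 := by
    intro h
    apply hnt
    rw [MulAction.pretransitive_iff_subsingleton_quotient]
    exact (Nat.card_eq_one_iff_unique.mp h).1
  have h3 := H5.isCharacter_sub_of_constituent hψc H5.isIrrCharacter_one (by rw [hψ1]; simp)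
  have h4 : classInner (ψ - fun _ => 1) χ = r - 1 := by
    rw [H5.classInner_sub_left, hψχ, H5.classInner_irr_ne H5.isIrrCharacter_one hχ hχ1.symm,
      sub_zero]
  have h5 := H5.isCharacter_sub_of_constituent h3 hχ (by
    rw [h4, sub_ne_zero]; exact_mod_cast hr1)
  have h6 := H5.eq_zero_of_degree_eq_zero h5 (by
    simp only [Pi.sub_apply, hψ, H6.indFun_apply_one, hχdef, hidx]
    simp)
  rw [sub_eq_zero] at h6
  rw [h6, H5.classInner_irr_self hχ] at h4
  have : (r : ℂ) = (2 : ℕ) := by push_cast; linear_combination -h4
  exact_mod_cast this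

end Cfsg.Agent.S3704
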