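import Cfsg.Statements.S3705
import Cfsg.Agent.H26.Ito

set_option autoImplicit false
open Cfsg

namespace Cfsg.Agent.S3705

/-- Let G be a finite group acting faithfully and 2-transitively on a finite set Ω of size n, and let H be a subgroup of index n in G which is not transitive on Ω and fixes no point of Ω. Suppose H has a nontrivial solvable normal subgroup N that fixes some point of Ω. Then there are an integer m ≥ 2 and a finite field F with #Ω = (#F^(m+1) − 1)/(#F − 1), and G has a normal subgroup isomorphic to PSL_{m+1}(F) whose centralizer in G is trivial (so that G lies between PSL_{m+1}(F) and its automorphism group). -/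
theorem result {G Ω : Type*} [Group G] [Finite G] [MulAction G Ω] [FaithfulSMul G Ω] [Finite Ω] (h2 : MulAction.IsMultiplyPretransitive G Ω 2) (H : Subgroup G) (hidx : H.index = Nat.card Ω) (hnt : ¬ MulAction.IsPretransitive H Ω) (hfix : ∀ a : Ω, ∃ h : H, h • a ≠ a) (N : Subgroup H) (hN : N.Normal) (hN1 : N ≠ ⊥) (hsol : Group.IsSolvable N) (hNfix : ∃ a : Ω, ∀ x ∈ N, x • a = a) : ∃ (m : ℕ) (F : Type) (_ : Field F) (_ : Fintype F), 2 ≤ m ∧ Nat.card Ω = (Fintype.card F ^ (m + 1) - 1) / (Fintype.card F - 1) ∧ ∃ N : Subgroup G, N.Normal ∧ Nonempty (N ≃* Matrix.ProjectiveSpecialLinearGroup (Fin (m + 1)) F) ∧ Subgroup.centralizer (N : Set G) = ⊥ := by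
  classical
  obtain ⟨h3, h4⟩ := H26.card_fixedBy_quot_eq h2 H hidx hnt
  obtain ⟨a, ha⟩ := hNfix
  obtain ⟨M, hM1, hM2, hM3, hM4⟩ : ∃ M : Subgroup H, M ≤ N ∧ M ≠ ⊥ ∧ M.Normal ∧
      ∀ a ∈ M, ∀ b ∈ M, a * b = b * a := by
    obtain ⟨k, hk⟩ := hsol
    induction k using Nat.strong_induction_on with | _ k ih =>
    rcases k with _ | k
    · exact absurd ((Subgroup.map_eq_bot_iff_of_injective _ N.subtype_injective).2 hk) (by
        simpa [← MonoidHom.range_eq_map] using hN1)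
    by_cases e : derivedSeries N k = ⊥
    · exact ih k k.lt_succ_self e
    refine ⟨(derivedSeries N k).map N.subtype, Subgroup.map_subtype_le _, by
      rwa [Ne, Subgroup.map_eq_bot_iff_of_injective _ N.subtype_injective],
      ConjAct.normal_of_characteristic_of_normal, ?_⟩
    rintro _ ⟨a, ha, rfl⟩ _ ⟨b, hb, rfl⟩
    exact congrArg Subtype.val (Subgroup.commutator_eq_bot_iff_le_centralizer.1 hk hb a ha)
  have h5 : ∀ g : G, (∀ x : G ⧸ H, g • x = x) → g = 1 := fun g hg => by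
    have h6 := h3 g
    rw [Set.eq_univ_of_forall (s := MulAction.fixedBy (G ⧸ H) g) hg, Nat.card_univ,
      ← Subgroup.index, hidx, Nat.card_coe_set_eq, eq_comm, ← Set.eq_univ_iff_ncard] at h6
    exact FaithfulSMul.eq_of_smul_eq_smul (α := Ω) fun s => by
      rw [one_smul]; exact (h6.ge trivial :)
  have h6 : ∀ {g : G}, g • ((1 : G) : G ⧸ H) = (1 : G) ↔ g ∈ H := fun {g} => by
    rw [← MulAction.mem_stabilizer_iff, MulAction.stabilizer_quotient]
  obtain ⟨L, F, _, _, n, h7, h8, h9, h10, h11⟩ := H26.psl_of_abelian (G := G) (X := G ⧸ H)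
    (fun h1 h3 => MulAction.is_two_pretransitive_iff.1 h4 h1 h3) h5 (x := (1 : G))
    (M := M.map H.subtype) (by rintro _ ⟨n, -, rfl⟩; exact h6.2 n.2)
    (by rintro g hg _ ⟨n, hn, rfl⟩; exact ⟨_, hM3.conj_mem n hn ⟨g, h6.1 hg⟩, rfl⟩)
    (by rintro _ ⟨a, ha, rfl⟩ _ ⟨b, hb, rfl⟩; exact congrArg Subtype.val (hM4 a ha b hb)) (by
      obtain ⟨⟨n, hn⟩, hn1⟩ := Subgroup.ne_bot_iff_exists_ne_one.1 hM2
      obtain ⟨h, hh⟩ := hfix a
      refine ⟨n, ⟨n, hn, rfl⟩, fun e => hn1 (Subtype.ext (Subtype.ext e)), ?_⟩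
      have h7 : 1 < (MulAction.fixedBy Ω (n : G)).ncard := by
        refine (Set.one_lt_ncard (Set.toFinite _)).2 ⟨h • a, ?_, a, ha n (hM1 hn), hh⟩
        have := ha _ (hN.conj_mem n (hM1 hn) h⁻¹)
        rwa [mul_smul, mul_smul, inv_inv, inv_smul_eq_iff] at this
      rw [← Nat.card_coe_set_eq, ← h3, Nat.card_coe_set_eq] at h7
      obtain ⟨y, h8, h9⟩ := Set.exists_ne_of_one_lt_ncard h7 ((1 : G) : G ⧸ H)
      exact ⟨y, h9, h8⟩)
  obtain ⟨m, rfl⟩ : ∃ m, n = m + 1 := ⟨n - 1, by omega⟩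
  exact ⟨m, F, inferInstance, inferInstance, by omega,
    H26.eq_div_of_mul Fintype.one_lt_card (by rw [← hidx]; exact h11), L, h8, h10, h9⟩

end Cfsg.Agent.S3705
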