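import Cfsg.Statements.S3706
import Cfsg.Agent.H26.Ito
import Cfsg.Agent.S3704

set_option autoImplicit false
open Cfsg

namespace Cfsg.Agent.S3706

/-- Let G be a finite group acting faithfully and 2-transitively on a finite set Ω of size n, and let H be a subgroup of index n in G which is not transitive on Ω and fixes no point of Ω. Suppose H acts unfaithfully on one of its orbits: some non-identity element of H fixes every point of that orbit. Then there are an integer m ≥ 2 and a finite field F with #Ω = (#F^(m+1) − 1)/(#F − 1), and G has a normal subgroup isomorphic to PSL_{m+1}(F) whose centralizer in G is trivial (so that G lies between PSL_{m+1}(F) and its automorphism group). -/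
theorem result {G Ω : Type*} [Group G] [Finite G] [MulAction G Ω] [FaithfulSMul G Ω] [Finite Ω] (h2 : MulAction.IsMultiplyPretransitive G Ω 2) (H : Subgroup G) (hidx : H.index = Nat.card Ω) (hnt : ¬ MulAction.IsPretransitive H Ω) (hfix : ∀ a : Ω, ∃ h : H, h • a ≠ a) (hunf : ∃ a : Ω, ∃ h : H, h ≠ 1 ∧ ∀ b ∈ MulAction.orbit H a, h • b = b) : ∃ (m : ℕ) (F : Type) (_ : Field F) (_ : Fintype F), 2 ≤ m ∧ Nat.card Ω = (Fintype.card F ^ (m + 1) - 1) / (Fintype.card F - 1) ∧ ∃ N : Subgroup G, N.Normal ∧ Nonempty (N ≃* Matrix.ProjectiveSpecialLinearGroup (Fin (m + 1)) F) ∧ Subgroup.centralizer (N : Set G) = ⊥ := by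
  classical
  have := Fintype.ofFinite Ω
  have := Fintype.ofFinite (G ⧸ H)
  obtain ⟨h3, h4⟩ := H26.card_fixedBy_quot_eq h2 H hidx hnt
  obtain ⟨a, h, hh1, hh⟩ := hunf
  have h6 : ∀ {g : G}, g • ((1 : G) : G ⧸ H) = (1 : G) ↔ g ∈ H := fun {g} => by
    rw [← MulAction.mem_stabilizer_iff, MulAction.stabilizer_quotient]
  let I : Ω → G ⧸ H → Prop := fun s x => ∃ g : G, g • a = s ∧ g • ((1 : G) : G ⧸ H) = x
  have inv : ∀ (g : G) s x, I (g • s) (g • x) ↔ I s x := fun g s x =>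
    ⟨fun ⟨k, h1, h2⟩ => ⟨g⁻¹ * k, by rw [mul_smul, h1, inv_smul_smul],
      by rw [mul_smul, h2, inv_smul_smul]⟩,
      fun ⟨k, h1, h2⟩ => ⟨g * k, by rw [mul_smul, h1], by rw [mul_smul, h2]⟩⟩
  have hI : ∀ s, I s (1 : G) ↔ s ∈ MulAction.orbit H a := fun s =>
    ⟨fun ⟨k, h1, h2⟩ => ⟨⟨k, h6.1 h2⟩, h1⟩, fun ⟨k, h1⟩ => ⟨k, h1, h6.2 k.2⟩⟩
  have tr : ∀ s t, ¬ I s (1 : G) → ¬ I t (1 : G) →
      ∃ g : G, g • ((1 : G) : G ⧸ H) = (1 : G) ∧ g • s = t := fun s t hs ht => by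
    obtain ⟨q, hq, hu⟩ := (Nat.card_eq_two_iff' (Quotient.mk (MulAction.orbitRel H Ω) a)).1
      (S3704.result h2 H hidx hnt hfix)
    obtain ⟨g, hg⟩ := Quotient.exact ((hu _ fun e => ht ((hI t).2 (Quotient.exact e))).trans
      (hu _ fun e => hs ((hI s).2 (Quotient.exact e))).symm)
    exact ⟨g, h6.2 g.2, hg⟩
  obtain ⟨c, hc⟩ : ∃ c, ¬ I c (1 : G) := by
    by_contra e
    push Not at e
    refine hnt ⟨fun s t => ?_⟩
    obtain ⟨g, rfl⟩ := (hI s).1 (e s)
    obtain ⟨k, rfl⟩ := (hI t).1 (e t)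
    exact ⟨k * g⁻¹, by simp [mul_smul]⟩
  obtain ⟨g, hg⟩ := hfix c
  have hd : ¬ I (g • c) (1 : G) := fun e => hc ((inv g c _).1 (by rwa [h6.2 g.2]))
  obtain ⟨g', hg'⟩ := hfix a
  have two := fun {x y x' y' : G ⧸ H} (h1 : x ≠ y) (h3 : x' ≠ y') =>
    MulAction.is_two_pretransitive_iff.1 h4 h1 h3
  obtain ⟨k, l, hD⟩ := H26.exists_SD inv
    (fun h1 h3 => MulAction.is_two_pretransitive_iff.1 h2 h1 h3) two
    (fun g hg => FaithfulSMul.eq_of_smul_eq_smul (α := Ω) fun x => by rw [hg, one_smul])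
    (fun g => by
      have := h3 g
      rw [Nat.card_eq_fintype_card, Nat.card_eq_fintype_card, Fintype.card_subtype,
        Fintype.card_subtype] at this
      convert this using 2 <;> (ext; simp))
    hg' hg ((hI _).2 ⟨g', rfl⟩) ((hI _).2 (MulAction.mem_orbit_self a)) hd hc
  obtain ⟨L, F, _, _, n, h7, h8, h9, h10, h11⟩ := hD.psl two hg hd hc tr (g := (h : G))
    (fun s hs => hh s ((hI s).1 hs)) fun e => hh1 (Subtype.ext e)
  obtain ⟨m, rfl⟩ : ∃ m, n = m + 1 := ⟨n - 1, by omega⟩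
  exact ⟨m, F, inferInstance, inferInstance, by omega,
    H26.eq_div_of_mul Fintype.one_lt_card (by rw [← hidx]; exact h11), L, h8, h10, h9⟩

end Cfsg.Agent.S3706
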