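import Cfsg.Statements.S3733
import Cfsg.Agent.H79.Conj

set_option autoImplicit false
open Cfsg

namespace Cfsg.Agent.S3733

open Cfsg.Agent.H79
open scoped IsMulCommutative

/-- Let A and V be subgroups of a finite group with V abelian and nontrivial and A normalizing V. Suppose a nonempty finite family of proper subgroups of A partitions A: every non-identity element of A lies in exactly one member. If the number of members minus one is coprime to the order of V, then some member B of the family has a non-identity fixed point on V, that is V ∩ C(B) ≠ 1. -/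
theorem result {G : Type*} [Group G] [Finite G] (A V : Subgroup G) (hVab : IsMulCommutative V) (hV : V ≠ ⊥) (hAV : A ≤ Subgroup.normalizer (V : Set G)) (𝒜 : Finset (Subgroup G)) (hne : 𝒜.Nonempty) (hprop : ∀ B ∈ 𝒜, B < A) (hpart : ∀ a ∈ A, a ≠ 1 → ∃! B, B ∈ 𝒜 ∧ a ∈ B) (hk : (𝒜.card - 1).Coprime (Nat.card V)) : ∃ B ∈ 𝒜, V ⊓ Subgroup.centralizer (B : Set G) ≠ ⊥ := by
  classical
  by_contra hcon
  push Not at hcon
  have := Fintype.ofFinite A
  let act : A →* MulAut V := V.normalizerMonoidHom.comp (Subgroup.inclusion hAV)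
  have hact : ∀ (a : A) (v : V), ((act a v : V) : G) = a * v * (a : G)⁻¹ := fun a v => rfl
  have key : ∀ (C B : Subgroup G), B ∈ 𝒜 → B ≤ C → ∀ v : V,
      ∏ a ∈ Finset.univ.filter (fun a : A => (a : G) ∈ C), act a v = 1 := by
    intro C B hB hBC v
    set w := ∏ a ∈ Finset.univ.filter (fun a : A => (a : G) ∈ C), act a v with hw
    have hmem : (w : G) ∈ V ⊓ Subgroup.centralizer (B : Set G) := by
      refine Subgroup.mem_inf.2 ⟨w.2, ?_⟩
      rw [Subgroup.mem_centralizer_iff]
      intro b hb
      let b' : A := ⟨b, (hprop B hB).le hb⟩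
      have h1 : act b' w = w := by
        rw [hw, map_prod]
        refine Finset.prod_bij (fun a _ => b' * a) ?_ ?_ ?_ ?_
        · intro a ha
          simp only [Finset.mem_filter, Finset.mem_univ, true_and] at ha ⊢
          exact mul_mem (hBC hb) ha
        · intro a _ a' _ h
          exact mul_left_cancel h
        · intro a ha
          simp only [Finset.mem_filter, Finset.mem_univ, true_and] at ha ⊢
          exact ⟨b'⁻¹ * a, mul_mem (inv_mem (hBC hb)) ha, by simp⟩
        · intro a _
          rw [map_mul]; rfl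
      have h2 := congrArg (fun x : V => (x : G)) h1
      simp only [hact] at h2
      change b * w * b⁻¹ = w at h2
      rw [mul_inv_eq_iff_eq_mul] at h2
      exact h2
    rw [hcon B hB] at hmem
    exact Subtype.ext hmem
  apply hV
  rw [eq_bot_iff]
  intro v hv
  obtain ⟨B₀, hB₀⟩ := hne
  have h1 : ∏ B ∈ 𝒜, ∏ a ∈ Finset.univ.filter (fun a : A => (a : G) ∈ B), act a ⟨v, hv⟩ = 1 :=
    Finset.prod_eq_one (fun B hB => key B B hB le_rfl _)
  have h2 := key A B₀ hB₀ (hprop B₀ hB₀).le ⟨v, hv⟩
  rw [Finset.filter_true_of_mem (fun a _ => a.2)] at h2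
  simp only [Finset.prod_filter] at h1
  rw [Finset.prod_comm] at h1
  have h3 : ∀ a : A, ∏ B ∈ 𝒜, (if (a : G) ∈ B then act a ⟨v, hv⟩ else 1) =
      act a ⟨v, hv⟩ * (if a = 1 then (⟨v, hv⟩ : V) ^ (𝒜.card - 1) else 1) := by
    intro a
    rw [← Finset.prod_filter, Finset.prod_const]
    by_cases ha : a = 1
    · subst ha
      rw [Finset.filter_true_of_mem (fun B _ => by simpa using B.one_mem)]
      have : 𝒜.card = (𝒜.card - 1) + 1 := by
        have := Finset.card_pos.2 ⟨B₀, hB₀⟩
        omega
      simp only [map_one, MulAut.one_apply, if_true]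
      conv_lhs => rw [this, pow_succ']
    · obtain ⟨B, hB, hBu⟩ := hpart a a.2 (fun h => ha (Subtype.ext h))
      have : Finset.filter (fun B => (a : G) ∈ B) 𝒜 = {B} := by
        ext C
        simp only [Finset.mem_filter, Finset.mem_singleton]
        exact ⟨fun h => hBu C h, fun h => h ▸ hB⟩
      rw [this]; simp [ha]
  simp only [h3, Finset.prod_mul_distrib, h2, one_mul, Finset.prod_ite_eq', Finset.mem_univ,
    if_true] at h1
  have h4 : orderOf (⟨v, hv⟩ : V) ∣ 𝒜.card - 1 := orderOf_dvd_of_pow_eq_one h1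
  have h5 : orderOf (⟨v, hv⟩ : V) = 1 :=
    Nat.eq_one_of_dvd_coprimes hk h4 (orderOf_dvd_natCard _)
  have := orderOf_eq_one_iff.1 h5
  exact congrArg Subtype.val this

end Cfsg.Agent.S3733
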