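import Cfsg.Statements.S3734
import Cfsg.Agent.H46.Generation
import Cfsg.Agent.H49.Hall
import Cfsg.Agent.H1.InvSylow
import Cfsg.Agent.H21.Basic

set_option autoImplicit false
open Cfsg

namespace Cfsg.Agent.S3734

open Subgroup H46 H49
theorem le_of_forall_cyclic_quotient {G : Type*} [Group G] [Finite G] {A : Subgroup G}
    (hAc : IsMulCommutative A) (Y : Subgroup G) :
    ∀ X : Subgroup G, (Nat.card A).Coprime (Nat.card X) → A ≤ normalizer (X : Set G) →
      (∀ B ≤ A, (∃ a ∈ A, B ⊔ zpowers a = A) → X ⊓ centralizer (B : Set G) ≤ Y) → X ≤ Y := by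
  intro X
  have hsA : Group.IsSolvable A := Group.isSolvable_of_comm hAc.is_comm.comm
  induction X using WellFoundedLT.induction with
  | ind X ih =>
  intro hX hAX hY
  have ih' : ∀ W < X, A ≤ normalizer (W : Set G) → W ≤ Y := fun W hW hAW =>
    ih W hW (coprime_of_le hX le_rfl hW.le) hAW fun B hB hc =>
      (inf_le_inf_right _ hW.le).trans (hY B hB hc)
  apply le_of_forall_sylow_le
  intro q _ hq
  obtain ⟨Q, hQ⟩ := H1.invariant_sylow_exists A X hAX hX (Or.inl hsA) q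
  refine ⟨Q, ?_⟩
  rcases (map_subtype_le (Q : Subgroup X)).lt_or_eq with hlt | heq
  · exact ih' _ hlt hQ
  rw [heq]
  have hXq : IsPGroup q X := heq ▸ Q.isPGroup'.map _
  have hXbot : X ≠ ⊥ := by
    rintro rfl
    rw [card_bot, Nat.dvd_one] at hq
    exact (Fact.out : q.Prime).one_lt.ne' hq
  have hXX : ⁅X, X⁆ < X :=
    H1.commutator_lt_of_solvable (by have := hXq.isNilpotent; infer_instance) hXbot
  obtain ⟨M, hXM, hM⟩ := Finite.exists_le_maximal
    (p := fun M : Subgroup G => M < X ∧ A ≤ normalizer (M : Set G)) (a := ⁅X, X⁆)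
    ⟨hXX, norm_commutator hAX hAX⟩
  obtain ⟨hMX, hAM⟩ := hM.prop
  obtain ⟨B, hBA, hXB, hcyc⟩ := exists_cyclic_quotient_of_irreducible hAc hAX hAM hMX.le hXM (by
    intro W hMW hWX hAW
    rcases hWX.lt_or_eq with h | h
    · exact Or.inl (hM.eq_of_le ⟨h, hAW⟩ hMW).symm
    · exact Or.inr h)
  exact (coprime_le_cent_sup (hBA.trans hAX) (hBA.trans hAM) (coprime_of_le hX hBA hMX.le)
    (Or.inl (H1.solvable_of_le hBA hsA)) le_rfl hXB).trans
    (sup_le (hY B hBA hcyc) (ih' M hMX hAM))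

theorem norm_biSup {G : Type*} [Group G] {A : Subgroup G} {S : Set (Subgroup G)}
    {f : Subgroup G → Subgroup G} (h : ∀ B ∈ S, A ≤ 𝒩(f B)) : A ≤ 𝒩(⨆ B ∈ S, f B) := by
  refine le_norm_of_cj fun a ha => ?_
  simp only [cj_def, Subgroup.map_iSup]
  exact biSup_congr fun B hB => cj_eq_of_mem_norm (h B hB ha)

/-- Let A and G be subgroups of a finite group with A abelian, A normalizing G and the orders of A and G coprime. Then G is generated by the fixed-point subgroups C_G(B) of those subgroups B of A for which A/B is cyclic (that is, A = ⟨B, a⟩ for some a), and [G, A] is generated by the commutator subgroups [C_G(B), A] over the same subgroups B. -/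
theorem result {X : Type*} [Group X] [Finite X] (A G : Subgroup X) (hAab : IsMulCommutative A) (hAG : A ≤ Subgroup.normalizer (G : Set X)) (hcop : (Nat.card A).Coprime (Nat.card G)) : (⨆ B ∈ {B : Subgroup X | B ≤ A ∧ ∃ a ∈ A, B ⊔ Subgroup.zpowers a = A}, G ⊓ Subgroup.centralizer (B : Set X)) = G ∧ (⨆ B ∈ {B : Subgroup X | B ≤ A ∧ ∃ a ∈ A, B ⊔ Subgroup.zpowers a = A}, ⁅G ⊓ Subgroup.centralizer (B : Set X), A⁆) = ⁅G, A⁆ := by
  have hsA : Group.IsSolvable A := Group.isSolvable_of_comm hAab.is_comm.comm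
  have hnB : ∀ B ≤ A, A ≤ 𝒩(G ⊓ 𝒞(B)) := fun B hB =>
    norm_inf hAG (norm_cent (norm_of_cent (le_cent_of_abelian hAab le_rfl hB)))
  refine ⟨le_antisymm (iSup₂_le fun _ _ => inf_le_left)
    (le_of_forall_cyclic_quotient hAab _ G hcop hAG fun B hB hc =>
      le_iSup₂_of_le (f := fun B (_ : B ∈ {B : Subgroup X | B ≤ A ∧ ∃ a ∈ A, B ⊔ zpowers a = A}) =>
        G ⊓ 𝒞(B)) B ⟨hB, hc⟩ le_rfl),
    le_antisymm (iSup₂_le fun _ _ => commutator_mono inf_le_left le_rfl) ?_⟩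
  set Y := ⨆ B ∈ {B : Subgroup X | B ≤ A ∧ ∃ a ∈ A, B ⊔ zpowers a = A}, ⁅G ⊓ 𝒞(B), A⁆ with hY
  have h1 : A ≤ 𝒩(Y) := norm_biSup fun B hB => le_norm_commutator_right _ _
  have h2 : G ⊓ 𝒞(A) ≤ 𝒩(Y) := norm_biSup fun B hB =>
    norm_commutator (norm_inf (norm_of_le inf_le_left)
      (norm_of_le (inf_le_right.trans (cent_anti hB.1)))) (norm_of_cent inf_le_right)
  have h3 : G ≤ Y ⊔ (G ⊓ 𝒞(A)) := by
    refine le_of_forall_cyclic_quotient hAab _ G hcop hAG fun B hB hc => ?_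
    rw [← coprime_comm_sup_cent (hnB B hB) (coprime_of_le hcop le_rfl inf_le_left) (Or.inl hsA)]
    refine sup_le_sup ?_ (inf_le_inf_right _ inf_le_left)
    exact le_iSup₂_of_le (f := fun B (_ : B ∈ {B : Subgroup X | B ≤ A ∧ ∃ a ∈ A, B ⊔ zpowers a = A}) =>
        ⁅G ⊓ 𝒞(B), A⁆) B ⟨hB, hc⟩ le_rfl
  refine (commutator_mono h3 le_rfl).trans (H21.commutator_sup_left_le le_normalizer h2
    (commutator_le_left_of_norm h1) ?_)
  rw [commutator_eq_bot_iff.2 inf_le_right]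
  exact bot_le

end Cfsg.Agent.S3734
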