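import Cfsg.Statements.S3735
import Cfsg.Agent.H49.Basic
import Cfsg.Agent.H21.Basic

set_option autoImplicit false
open Cfsg

namespace Cfsg.Agent.S3735

open Subgroup H49

/-- Clifford's Theorem for actions on finite abelian groups, first part. Let H and V be subgroups of a finite group with V abelian and H normalizing V, and let A be a normal subgroup of H. If every H-invariant subgroup of V has an H-invariant complement in V, then every A-invariant subgroup of V has an A-invariant complement in V. -/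
theorem result {G : Type*} [Group G] [Finite G] (H A V : Subgroup G) (hVab : IsMulCommutative V) (hHV : H ≤ Subgroup.normalizer (V : Set G)) (hAH : A ≤ H) (hAn : H ≤ Subgroup.normalizer (A : Set G)) (hss : ∀ U : Subgroup G, U ≤ V → H ≤ Subgroup.normalizer (U : Set G) → ∃ W : Subgroup G, W ≤ V ∧ H ≤ Subgroup.normalizer (W : Set G) ∧ U ⊓ W = ⊥ ∧ U ⊔ W = V) (U : Subgroup G) (hUV : U ≤ V) (hAU : A ≤ Subgroup.normalizer (U : Set G)) : ∃ W : Subgroup G, W ≤ V ∧ A ≤ Subgroup.normalizer (W : Set G) ∧ U ⊓ W = ⊥ ∧ U ⊔ W = V := by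
  let Min : Set (Subgroup G) := {M | Minimal (fun M => M ≤ V ∧ A ≤ 𝒩(M) ∧ M ≠ ⊥) M}
  have hcj : ∀ h ∈ H, ∀ M : Subgroup G, (M ≤ V ∧ A ≤ 𝒩(M) ∧ M ≠ ⊥) →
      (cj h M ≤ V ∧ A ≤ 𝒩(cj h M) ∧ cj h M ≠ ⊥) := fun h hh M hM =>
    ⟨cj_le_of_mem_norm hM.1 (hHV hh), by
      rw [← cj_normalizer, ← cj_eq_of_mem_norm (hAn hh)]; exact cj_mono h hM.2.1,
      fun e => hM.2.2 (by simpa using e)⟩
  have hMin : ∀ h ∈ H, ∀ M ∈ Min, cj h M ∈ Min := fun h hh M hM =>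
    ⟨hcj h hh M hM.1, fun L hL hle =>
      cj_le_iff.2 (hM.2 (hcj h⁻¹ (H.inv_mem hh) L hL) (le_cj_iff.1 hle))⟩
  have hS : H ≤ 𝒩(sSup Min) := fun h hh => mem_norm_of_cj_le (by
    rw [cj_le_iff]
    exact sSup_le fun M hM => cj_le_iff.1 (le_sSup (hMin h hh M hM)))
  obtain ⟨W, hWV, hWn, hW1, hW2⟩ := hss (sSup Min) (sSup_le fun M hM => hM.1.1) hS
  have hW : W = ⊥ := by
    by_contra hne
    obtain ⟨M, hMW, hM⟩ := exists_minimal_le_of_wellFoundedLT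
      (fun M : Subgroup G => M ≤ V ∧ A ≤ 𝒩(M) ∧ M ≠ ⊥) W ⟨hWV, hAH.trans hWn, hne⟩
    have hM' : M ∈ Min := hM
    exact hM.1.2.2 (eq_bot_iff.2 ((le_inf (le_sSup hM') hMW).trans hW1.le))
  rw [hW, sup_bot_eq] at hW2
  obtain ⟨W, -, hW⟩ := Finite.exists_le_maximal
    (p := fun W : Subgroup G => W ≤ V ∧ A ≤ 𝒩(W) ∧ U ⊓ W = ⊥) (a := ⊥)
    ⟨bot_le, le_normalizer_of_normal, inf_bot_eq _⟩
  refine ⟨W, hW.1.1, hW.1.2.1, hW.1.2.2, le_antisymm (sup_le hUV hW.1.1) ?_⟩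
  rw [← hW2]
  refine sSup_le fun M hM => ?_
  by_contra hle
  have h1 : M ⊓ (U ⊔ W) = ⊥ := by
    by_contra hne
    exact hle ((hM.2 ⟨inf_le_left.trans hM.1.1, norm_inf hM.1.2.1 (norm_sup hAU hW.1.2.1), hne⟩
      inf_le_left).trans inf_le_right)
  have h2 : U ⊓ (W ⊔ M) = ⊥ := by
    rw [eq_bot_iff]
    rintro u ⟨hu, hu2⟩
    obtain ⟨w, hw, m, hm, rfl⟩ := (H21.mem_sup_of_le_normalizer
      (norm_of_cent (le_cent_of_abelian hVab hM.1.1 hW.1.1))).1 hu2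
    have h3 : m ∈ M ⊓ (U ⊔ W) :=
      ⟨hm, ((U ⊔ W).mul_mem_cancel_left (le_sup_right (a := U) hw)).1 (le_sup_left (b := W) hu)⟩
    rw [h1, mem_bot] at h3
    subst h3
    rw [← hW.1.2.2]
    exact ⟨hu, by simpa using hw⟩
  exact hle (le_sup_right.trans ((hW.2 ⟨sup_le hW.1.1 hM.1.1, norm_sup hW.1.2.1 hM.1.2.1, h2⟩
    le_sup_left).trans le_sup_right))

end Cfsg.Agent.S3735
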