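import Cfsg.Statements.S3736
import Cfsg.Agent.H79.T1
import Cfsg.Agent.H49.PLength
import Cfsg.Agent.H50.PGroup
import Cfsg.Agent.H50.Stable
import Cfsg.Agent.BG.L1_11

set_option autoImplicit false
open Cfsg

namespace Cfsg.Agent.S3736

open Subgroup Cfsg.Agent.H49

/-- The Hall–Higman reduction for a minimal non-trivial action. Let B, A and P be subgroups of a finite group with P a p-group, B normalizing P, and A a normal subgroup of B of order prime to p. Suppose A does not centralize P but centralizes every proper B-invariant subgroup of P. Then [P, A] = P; P is elementary abelian or special; B acts irreducibly on P/Φ(P), that is, the only B-invariant subgroups of P containing Φ(P) are Φ(P) and P; and if p is odd then every element of P has order dividing p. -/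
theorem result {X : Type*} [Group X] [Finite X] {p : ℕ} [Fact p.Prime] (B A P : Subgroup X) (hP : IsPGroup p P) (hBP : B ≤ Subgroup.normalizer (P : Set X)) (hAB : A ≤ B) (hAn : B ≤ Subgroup.normalizer (A : Set X)) (hAp : (Nat.card A).Coprime p) (hnt : ⁅P, A⁆ ≠ ⊥) (hmin : ∀ U : Subgroup X, U < P → B ≤ Subgroup.normalizer (U : Set X) → ⁅U, A⁆ = ⊥) : ⁅P, A⁆ = P ∧ (Cfsg.IsElementaryAbelian p P ∨ Cfsg.IsSpecial p ↥P) ∧ (∀ U : Subgroup X, (frattini ↥P).map P.subtype ≤ U → U ≤ P → B ≤ Subgroup.normalizer (U : Set X) → U = (frattini ↥P).map P.subtype ∨ U = P) ∧ (p ≠ 2 → ∀ x ∈ P, x ^ p = 1) := by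
  have hAP : A ≤ 𝒩(P) := hAB.trans hBP
  have hc : (Nat.card A).Coprime (Nat.card P) := H50.coprime_card_of_pgroup hP hAp
  have hs : Group.IsSolvable P := H50.solvable_of_pgroup hP
  have hmin' : ∀ U : Subgroup X, U < P → B ≤ 𝒩(U) → U ≤ P ⊓ 𝒞(A) := fun U hU hB =>
    le_inf hU.le (H49.commutator_eq_bot_iff.1 (hmin U hU hB))
  have hnc : ¬ A ≤ 𝒞(P) := fun h => hnt (H49.commutator_eq_bot_iff.2 (cent_symm h))
  have h1 : ⁅P, A⁆ = P := by
    by_contra h
    have := hmin _ (lt_of_le_of_ne (commutator_le_left_of_norm hAP) h) (norm_commutator hBP hAn)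
    rw [coprime_comm_comm hAP hc (Or.inr hs)] at this
    exact hnt this
  have h2 : P ⊓ 𝒞(A) ≤ ⁅P, P⁆ := by
    have hH : A ≤ 𝒩(⁅P, P⁆) := norm_commutator hAP hAP
    have h3 := coprime_abelian_dp ((quo_abelian_iff norm_der).2 le_rfl) (quo_norm ⁅P, P⁆ hAP)
      ((hc.of_dvd_left (card_quo_dvd _ _)).of_dvd_right (card_quo_dvd _ _))
    rw [← quo_eq_bot_iff (inf_le_left.trans norm_der), eq_bot_iff, ← h3.2.1,
      ← quo_commutator norm_der hH, h1]
    exact le_inf (quo_inf_cent_le _ _ _) (quo_mono _ inf_le_left)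
  have hP1 : P ≠ ⊥ := by
    rintro rfl
    exact hnt (by simp)
  have h3 : frattiniOf P ≤ P ⊓ 𝒞(A) :=
    hmin' _ (H79.frattiniOf_lt hP1) (hBP.trans (H50.norm_le_norm_frattiniOf P))
  have h4 : ⁅P, P⁆ ≤ frattiniOf P := H50.der_le_frattiniOf hP
  have e1 : frattiniOf P = ⁅P, P⁆ := le_antisymm (h3.trans h2) h4
  have e2 : P ⊓ 𝒞(A) = ⁅P, P⁆ := le_antisymm h2 (h4.trans h3)
  have h5 : ⁅P, P⁆ ≤ 𝒞(P) := by
    have a1 : ⁅⁅P, ⁅P, P⁆⁆, A⁆ = ⊥ := H49.commutator_eq_bot_iff.2
      ((commutator_le_right_of_norm norm_der).trans (e2.ge.trans inf_le_right))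
    have a2 : ⁅⁅⁅P, P⁆, A⁆, P⁆ = ⊥ := by
      rw [H49.commutator_eq_bot_iff.2 (e2.ge.trans inf_le_right)]; simp
    have a3 := H50.three_sub a1 a2
    rw [Subgroup.commutator_comm A P, h1] at a3
    exact cent_symm (H49.commutator_eq_bot_iff.1 a3)
  refine ⟨h1, ?_, ?_, ?_⟩
  · by_cases hab : P ≤ 𝒞(P)
    · left
      refine ⟨abelian_iff.2 hab, fun a ha => ?_⟩
      have := H50.pow_mem_frattiniOf hP ha
      rwa [e1, H49.commutator_eq_bot_iff.2 hab, mem_bot] at this
    · right
      have hz : centerOf P = ⁅P, P⁆ := by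
        refine le_antisymm (le_trans (hmin' _ (lt_of_le_of_ne inf_le_left fun h => hab ?_)
          (norm_inf hBP (norm_cent hBP))) h2) (le_inf der_le h5)
        exact h.ge.trans inf_le_right
      refine ⟨hP, ?_, ?_⟩
      · apply Subgroup.map_injective P.subtype_injective
        rw [H50.map_subtype_center, hz, ← e1]; rfl
      · apply Subgroup.map_injective P.subtype_injective
        rw [H50.map_subtype_center, hz, _root_.commutator, H50.map_subtype_commutator_top,
          map_subtype_top]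
  · intro U hU hUP hB
    by_cases h : U = P
    · exact Or.inr h
    · left
      refine le_antisymm ?_ hU
      exact (hmin' U (lt_of_le_of_ne hUP h) hB).trans (e2.trans e1.symm).le
  · intro hp2 x hx
    have : omegaOne p P = P := by
      by_contra h
      have := hmin' _ (lt_of_le_of_ne (H50.omega_le P) h) (H50.norm_omega hBP)
      exact hnc (BG.l1_11 hp2 hP hAP hAp (cent_symm (this.trans inf_le_right)))
    exact H50.exp_omega_of_class_two hp2 hP h5 x (this.ge hx)

end Cfsg.Agent.S3736
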