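import Cfsg.Statements.S3737
import Cfsg.Agent.H85.Baer
import Cfsg.Agent.S0027
import Cfsg.Agent.H2.Basic
import Cfsg.Agent.H44.Subnormal

set_option autoImplicit false
open Cfsg

namespace Cfsg.Agent.S3737

open Subgroup
open scoped commutatorElement

theorem class_two {X : Type*} [Group X] [Finite X] {p : ℕ} [hpp : Fact p.Prime] (hp : p ≠ 2)
    (P Q G : Subgroup X) (hP : IsPGroup p P) (hQ : (Nat.card Q).Coprime p)
    (hPQ : P ≤ normalizer (Q : Set X)) (hG : IsPGroup p G) (hPG : P ≤ normalizer (G : Set X))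
    (hQG : Q ≤ normalizer (G : Set X))
    (hC : G ⊓ centralizer (P : Set X) ≤ centralizer (Q : Set X)) (hcl : commutator G ≤ center G) :
    Q ≤ centralizer (G : Set X) := by
  classical
  obtain ⟨k, hk⟩ := hG.exists_card_eq
  have h : H85.BaerHyp G := ⟨hcl, hk ▸ (hpp.out.odd_of_ne_two hp).pow⟩
  have := Fintype.ofFinite Q
  let α : normalizer (G : Set X) → H85.Baer h →* H85.Baer h := fun g =>
    H85.Baer.map h (G.normalizerMonoidHom g).toMonoidHom
  have hα : ∀ g x, ((α g x).val : X) = g * x.val * (g : X)⁻¹ := fun _ _ => rfl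
  have hext : ∀ x y : H85.Baer h, (x.val : X) = y.val → x = y := fun x y e =>
    H85.Baer.val_injective (Subtype.ext e)
  have hαm : ∀ g g' x, α (g * g') x = α g (α g' x) := fun g g' x => hext _ _ (by
    rw [hα, hα, hα, coe_mul]; group)
  let N : H85.Baer h →* H85.Baer h := ∏ q : Q, α ⟨q, hQG q.2⟩
  have hN : ∀ x, N x = ∏ q : Q, α ⟨q, hQG q.2⟩ x := fun x => MonoidHom.finsetProd_apply _ _ _
  have hNP : ∀ (u : P) x, N (α ⟨u, hPG u.2⟩ x) = α ⟨u, hPG u.2⟩ (N x) := fun u x => by
    rw [hN, hN, map_prod]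
    symm
    refine Fintype.prod_equiv (Q.normalizerMonoidHom ⟨u, hPQ u.2⟩).toEquiv _ _ fun q => ?_
    rw [← hαm, ← hαm]
    congr 2
    exact Subtype.ext (inv_mul_cancel_right _ _).symm
  have hNQ : ∀ (r : Q) x, N (α ⟨r, hQG r.2⟩ x) = N x := fun r x => by
    rw [hN, hN]
    refine Fintype.prod_equiv (Equiv.mulRight r) _ _ fun q => ?_
    rw [← hαm]
    rfl
  have hker : N.ker = ⊥ := by
    by_contra hne
    let _ : MulAction P N.ker :=
      { smul := fun u x => ⟨α ⟨u, hPG u.2⟩ x, by
          rw [MonoidHom.mem_ker, hNP, MonoidHom.mem_ker.mp x.2, map_one]⟩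
        one_smul := fun x => Subtype.ext (hext _ _ (by
          change ((α _ x.1).val : X) = _
          rw [hα]; simp))
        mul_smul := fun u v x => Subtype.ext (hαm ⟨u, hPG u.2⟩ ⟨v, hPG v.2⟩ x) }
    have hB : IsPGroup p (H85.Baer h) := IsPGroup.of_card (H85.Baer.card_eq.trans hk)
    obtain ⟨b, hb, hb1⟩ := hP.exists_fixed_point_of_prime_dvd_card_of_fixed_point N.ker
      (((hB.to_subgroup N.ker).card_eq_or_dvd).resolve_left (mt card_eq_one.mp hne))
      (a := 1) (fun u => Subtype.ext (map_one (α ⟨u, hPG u.2⟩)))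
    have h1 : (b.1.val : X) ∈ centralizer (Q : Set X) := hC ⟨b.1.val.2, fun u hu => by
      have := congrArg (fun y : N.ker => (y.1.val : X)) (hb ⟨u, hu⟩)
      exact mul_inv_eq_iff_eq_mul.mp this⟩
    have h2 : N b.1 = b.1 ^ Nat.card Q := by
      rw [hN, Finset.prod_congr rfl fun q _ => hext _ b.1 (by
        rw [hα]; exact mul_inv_eq_iff_eq_mul.mpr (h1 q q.2)), Finset.prod_const, Finset.card_univ,
        Nat.card_eq_fintype_card]
    rw [MonoidHom.mem_ker.mp b.2, eq_comm] at h2
    obtain ⟨j, hj⟩ := hB b.1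
    exact hb1 (Subtype.ext (orderOf_eq_one_iff.mp (Nat.eq_one_of_dvd_coprimes (hQ.pow_right j)
      (orderOf_dvd_of_pow_eq_one h2) (orderOf_dvd_of_pow_eq_one hj))).symm)
  intro r hr x hx
  have := (MonoidHom.ker_eq_bot_iff N).mp hker (hNQ ⟨r, hr⟩ (H85.Baer.mk h ⟨x, hx⟩))
  exact (mul_inv_eq_iff_eq_mul.mp (congrArg (fun y : H85.Baer h => (y.val : X)) this)).symm

/-- Thompson's strengthening of the P × Q lemma for odd primes. Let p be an odd prime and let P, Q and G be subgroups of a finite group with P a p-group, Q of order prime to p and normalized by P, and G a p-group normalized by both P and Q. If every element of G centralized by P is centralized by Q, then Q centralizes G. -/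
theorem result {X : Type*} [Group X] [Finite X] {p : ℕ} [Fact p.Prime] (hp : p ≠ 2) (P Q G : Subgroup X) (hP : IsPGroup p P) (hQ : (Nat.card Q).Coprime p) (hPQ : P ≤ Subgroup.normalizer (Q : Set X)) (hG : IsPGroup p G) (hPG : P ≤ Subgroup.normalizer (G : Set X)) (hQG : Q ≤ Subgroup.normalizer (G : Set X)) (hC : G ⊓ Subgroup.centralizer (P : Set X) ≤ Subgroup.centralizer (Q : Set X)) : Q ≤ Subgroup.centralizer (G : Set X) := by
  induction hn : Nat.card G using Nat.strong_induction_on generalizing G with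
  | _ n ih =>
  have ih' : ∀ H : Subgroup X, H < G → P ≤ normalizer (H : Set X) → Q ≤ normalizer (H : Set X) →
      Q ≤ centralizer (H : Set X) := fun H hH h1 h2 =>
    ih _ (hn ▸ H2.card_lt_of_lt hH) H (hG.to_le hH.le) h1 h2
      ((inf_le_inf_right _ hH.le).trans hC) rfl
  have hnil := hG.isNilpotent
  have h1 : ⁅G, Q⁆ ≤ G := H44.commutator_le_left_of_le_normalizer hQG
  rcases h1.lt_or_eq with h2 | h2
  · have h3 := ih' _ h2
      ((le_inf hPG hPQ).trans (H44.normalizer_inf_le_normalizer_commutator _ _))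
      (normalizer_commutator_ge_right _ _)
    obtain ⟨k, hk⟩ := hG.exists_card_eq
    rwa [← H44.commutator_eq_bot_iff_le_centralizer', S0027.result Q G hQG (hk ▸ hQ.pow_right k)
      (Or.inr inferInstance), H44.commutator_eq_bot_iff_le_centralizer'] at h3
  by_cases hG1 : G = ⊥
  · rw [le_centralizer_iff, hG1]; exact bot_le
  have h3 : ⁅G, G⁆ < G := by
    have : Nontrivial G := (nontrivial_iff_ne_bot G).mpr hG1
    have h4 := Group.IsSolvable.commutator_lt_top_of_nontrivial G
    refine lt_of_le_of_ne (commutator_le_self _) fun h => h4.ne ?_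
    apply map_injective G.subtype_injective
    rw [map_subtype_commutator, h, ← MonoidHom.range_eq_map, range_subtype]
  have h4 := ih' _ h3 ((le_inf hPG hPG).trans (H44.normalizer_inf_le_normalizer_commutator _ _))
    ((le_inf hQG hQG).trans (H44.normalizer_inf_le_normalizer_commutator _ _))
  rw [← commutator_eq_bot_iff_le_centralizer] at h4
  have h5 : ⁅⁅G, Q⁆, ⁅G, G⁆⁆ = ⊥ := by
    refine commutator_commutator_eq_bot_of_rotate (by rw [h4, commutator_bot_left]) ?_
    rw [commutator_comm]
    exact H44.commutator_eq_bot_mono h4 le_rfl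
      (H44.commutator_le_left_of_le_normalizer (normalizer_commutator_ge_left _ _))
  rw [h2, H44.commutator_eq_bot_iff_le_centralizer'] at h5
  refine class_two hp P Q G hP hQ hPQ hG hPG hQG hC fun x hx => mem_center_iff.mpr fun g => ?_
  exact Subtype.ext (h5 (map_subtype_commutator G ▸ mem_map_of_mem _ hx) g g.2)

end Cfsg.Agent.S3737
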