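import Cfsg.Statements.S3738
import Cfsg.Agent.H85.QuadSum
import Cfsg.Agent.H3.PGroup
import Cfsg.Agent.H79.HHCore
import Cfsg.Agent.H42.Index2
import Cfsg.Agent.H21.Basic

set_option autoImplicit false
open Cfsg

namespace Cfsg.Agent.S3738

open Subgroup
open scoped commutatorElement

theorem card_mem_eq {α W : Type*} [Finite α] [Group W] [Finite W] (f : α → W) (c : ℕ)
    (hc : ∀ w, w ≠ 1 → Nat.card {x // f x = w} = c) (K : Subgroup W) :
    Nat.card {x // f x ∈ K} = Nat.card {x // f x = 1} + (Nat.card K - 1) * c := by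
  classical
  have := Fintype.ofFinite K
  rw [← Nat.card_congr (Equiv.sigmaSubtypeFiberEquivSubtype f (p := fun x => f x ∈ K)
    (q := fun w => w ∈ K) fun _ => Iff.rfl), Nat.card_sigma,
    ← Finset.add_sum_erase _ _ (Finset.mem_univ (1 : K)), Finset.sum_congr rfl (g := fun _ => c)
      fun (w : K) hw => hc w fun h => (Finset.mem_erase.mp hw).1 (Subtype.ext h), Finset.sum_const,
    Finset.card_erase_of_mem (Finset.mem_univ _), Finset.card_univ, ← Nat.card_eq_fintype_card]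
  rfl

theorem core {G : Type*} [Group G] [Finite G] (hG : IsPGroup 2 G) (δ : MulAut G) (n : ℕ)
    (hδ : δ ^ 3 ^ (n + 2) = 1) (hα : δ ^ 3 ^ (n + 1) ≠ 1) (hfpf : ∀ x, δ x = x → x = 1)
    (hΦ : ∀ x ∈ frattini G, (δ ^ 3 ^ (n + 1)) x = x)
    (hZ : ∀ x, (δ ^ 3 ^ (n + 1)) x = x → x ∈ center G)
    (hgen : ∀ K : Subgroup G, K.Normal → (∀ x, x⁻¹ * (δ ^ 3 ^ (n + 1)) x ∈ K) → K = ⊤)
    (hrank : ∀ E : Subgroup G, IsMulCommutative E → (∀ x ∈ E, x ^ 2 = 1) → Nat.card E ≤ 4) :
    False := by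
  classical
  set α := δ ^ 3 ^ (n + 1) with hαdef
  have := Fintype.ofFinite G
  have hsqZ : ∀ x : G, x ^ 2 ∈ center G := fun x => hZ _ (hΦ _ (H3.pow_mem_frattini hG x))
  have hcl : commutator G ≤ center G := fun x hx => hZ _ (hΦ _ (H3.commutator_le_frattini hG hx))
  have hc2 : ∀ x y : G, ⁅x, y⁆ ^ 2 = 1 := fun x y => by
    rw [← H3.commutator_pow_left hcl, commutatorElement_eq_one_iff_mul_comm]
    exact (mem_center_iff.mp (hsqZ x) y).symm
  have h4 : ∀ x : G, x ^ 4 = 1 := by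
    let φ : G →* G := MonoidHom.mk' (fun x => x ^ 4) fun x y => by
      rw [H3.mul_pow_of_class_two hcl, show Nat.choose 4 2 = 2 * 3 from rfl, pow_mul, hc2, one_pow,
        one_mul]
    have := hgen φ.ker inferInstance fun x => by
      rw [MonoidHom.mem_ker, map_mul, map_inv]
      change (x ^ 4)⁻¹ * (α x) ^ 4 = 1
      rw [← map_pow, show 4 = 2 * 2 from rfl, pow_mul, hΦ _ (H3.pow_mem_frattini hG _),
        inv_mul_cancel]
    exact fun x => (this.ge (mem_top x) :)
  let W : Subgroup G :=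
    { carrier := {z | z ∈ center G ∧ z ^ 2 = 1}
      mul_mem' := fun {a b} ha hb => ⟨mul_mem ha.1 hb.1, by
        rw [Commute.mul_pow (mem_center_iff.mp hb.1 a), ha.2, hb.2, one_mul]⟩
      one_mem' := ⟨one_mem _, one_pow 2⟩
      inv_mem' := fun {a} ha => ⟨inv_mem ha.1, by rw [inv_pow, ha.2, inv_one]⟩ }
  have hWZ : W ≤ center G := fun z hz => hz.1
  have hsq : ∀ x : G, x ^ 2 ∈ W := fun x => ⟨hsqZ x, by rw [← pow_mul, h4]⟩
  have hc : ∀ x y : G, ⁅x, y⁆ ∈ W := fun x y => ⟨H3.commutator_mem_center hcl x y, hc2 x y⟩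
  have hδW : ∀ w ∈ W, δ w ∈ W := fun w hw =>
    ⟨characteristic_iff_map_le.mp inferInstance δ ⟨w, hw.1, rfl⟩, by rw [← map_pow, hw.2, map_one]⟩
  have hW4 : ∀ x : G, x ^ 2 = 1 → Nat.card ↥(W ⊔ zpowers x) ≤ 4 := fun x hx => by
    have hmem : ∀ y ∈ W ⊔ zpowers x, ∃ w ∈ W, ∃ k : ℤ, w * x ^ k = y := fun y hy => by
      obtain ⟨w, hw, _, ⟨k, rfl⟩, rfl⟩ := (H21.mem_sup_of_le_normalizer' (X := W) (fun w hw =>
        centralizer_le_normalizer _ fun u _ => mem_center_iff.mp hw.1 u)).mp hy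
      exact ⟨w, hw, k, rfl⟩
    refine hrank _ ⟨⟨fun a b => Subtype.ext ?_⟩⟩ fun y hy => ?_
    · obtain ⟨w, hw, k, e1⟩ := hmem a a.2
      obtain ⟨v, hv, j, e2⟩ := hmem b b.2
      rw [coe_mul, coe_mul, ← e1, ← e2]
      have h1 : ∀ u, Commute w u := fun u => (mem_center_iff.mp hw.1 u).symm
      have h2 : ∀ u, Commute v u := fun u => (mem_center_iff.mp hv.1 u).symm
      exact ((h1 _).mul_left ((h2 _).symm.mul_right (Commute.zpow_zpow_self x k j))).eq
    · obtain ⟨w, hw, k, rfl⟩ := hmem y hy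
      rw [Commute.mul_pow (mem_center_iff.mp hw.1 _).symm, hw.2, one_mul, ← zpow_natCast, ← zpow_mul,
        mul_comm, zpow_mul, zpow_natCast, hx, one_zpow]
  have hfour : ∀ w ∈ W, w ≠ 1 → Nat.card W = 4 ∧
      ∀ v ∈ W, v = 1 ∨ v = w ∨ v = δ w ∨ v = δ (δ w) := by
    intro w hw hw1
    have e1 : δ w ≠ w := fun h => hw1 (hfpf w h)
    have e2 : δ (δ w) ≠ w := fun h => by
      have h1 : ∀ k : ℕ, (δ ^ (2 * k)) w = w := fun k => by
        induction k with
        | zero => rfl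
        | succ k ih => rw [mul_add, pow_add, MulAut.mul_apply, mul_one, sq, MulAut.mul_apply, h, ih]
      obtain ⟨k, hk⟩ : Odd (3 ^ (n + 2)) := Odd.pow (by decide)
      have h2 := h1 (k + 1)
      rw [show 2 * (k + 1) = 2 * k + 1 + 1 by ring, ← hk, pow_succ, hδ, one_mul] at h2
      exact e1 h2
    have h1 : ({1, w, δ w, δ (δ w)} : Finset G).card = 4 := by
      rw [Finset.card_eq_four]
      refine ⟨_, _, _, _, hw1.symm, ?_, ?_, e1.symm, e2.symm, fun h => e1 (δ.injective h).symm, rfl⟩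
      · exact fun h => hw1 (by simpa using h.symm)
      · exact fun h => hw1 (by simpa using h.symm)
    have h2 : (({1, w, δ w, δ (δ w)} : Finset G) : Set G) ⊆ W := by
      simp only [Finset.coe_insert, Finset.coe_singleton, Set.insert_subset_iff,
        Set.singleton_subset_iff]
      exact ⟨one_mem _, hw, hδW _ hw, hδW _ (hδW _ hw)⟩
    have h3 : (W : Set G).ncard ≤ 4 :=
      (card_le_of_le (le_sup_left : W ≤ W ⊔ zpowers 1)).trans (hW4 1 (one_pow 2))
    have h5 := Set.eq_of_subset_of_ncard_le h2 (by rwa [Set.ncard_coe_finset, h1])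
    refine ⟨?_, fun v hv => by simpa using h5.ge hv⟩
    change (W : Set G).ncard = 4
    rw [← h5, Set.ncard_coe_finset, h1]
  have hnt : Nontrivial G := by
    by_contra h
    rw [not_nontrivial_iff_subsingleton] at h
    exact hα (MulEquiv.ext fun x => Subsingleton.elim _ _)
  obtain ⟨w, hw, hw1⟩ : ∃ w ∈ W, w ≠ 1 := by
    have := hG.center_nontrivial
    obtain ⟨z, hz⟩ := exists_prime_orderOf_dvd_card' (G := center G) 2
      ((hG.to_subgroup _).card_eq_or_dvd.resolve_left Finite.one_lt_card.ne')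
    refine ⟨z, ⟨z.2, by rw [← coe_pow, ← hz, pow_orderOf_eq_one]; rfl⟩, fun h => ?_⟩
    rw [OneMemClass.coe_eq_one.mp h, orderOf_one] at hz
    exact absurd hz (by norm_num)
  obtain ⟨hcW, hW⟩ := hfour w hw hw1
  have hinv : ∀ x : G, x ^ 2 = 1 → x ∈ W := fun x hx =>
    (eq_of_le_of_card_ge (le_sup_left : W ≤ W ⊔ zpowers x) (hcW ▸ hW4 x hx)).ge
      (mem_sup_right (mem_zpowers x))
  have hαW : ∀ v ∈ W, α v = v := by
    intro v hv
    by_cases hv1 : v = 1
    · simp [hv1]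
    have h1 : (δ ^ 3) v = v := by
      change δ (δ (δ v)) = v
      rcases (hfour v hv hv1).2 _ (hδW _ (hδW _ (hδW _ hv))) with h | h | h | h
      · simp [hv1] at h
      · exact h
      · rcases (hfour _ hv hv1).2 (v * δ v) (mul_mem hv (hδW _ hv)) with h' | h' | h' | h'
        · have h3 : δ v = v := by
            rw [← inv_eq_of_mul_eq_one_right h', inv_eq_of_mul_eq_one_right (by rw [← sq, hv.2])]
          exact (hv1 (hfpf _ h3)).elim
        · simp [hv1] at h'
        · simp [hv1] at h'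
        · rw [δ.injective h] at h'
          simp [hv1] at h'
      · exact (hv1 (hfpf _ (δ.injective (δ.injective h)))).elim
    rw [hαdef, pow_succ', pow_mul]
    exact pow_mem (show δ ^ 3 ∈ MulAction.stabilizer (MulAut G) v from h1) _
  let f : G → W := fun x => ⟨x ^ 2, hsq x⟩
  have hfδ : ∀ (v : G) (hv : v ∈ W), Nat.card {x // f x = ⟨δ v, hδW v hv⟩} =
      Nat.card {x // f x = ⟨v, hv⟩} := fun v hv => by
    refine (Nat.card_congr (δ.toEquiv.subtypeEquiv fun x => ?_)).symm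
    simp only [f, Subtype.ext_iff]
    change _ ↔ δ x ^ 2 = δ v
    rw [← map_pow, δ.injective.eq_iff]
  have hfc : ∀ v : W, v ≠ 1 → Nat.card {x // f x = v} = Nat.card {x // f x = ⟨w, hw⟩} := by
    rintro ⟨v, hv⟩ hv1
    rcases hW v hv with rfl | rfl | rfl | rfl
    · exact (hv1 rfl).elim
    · rfl
    · exact hfδ w hw
    · exact (hfδ _ (hδW _ hw)).trans (hfδ w hw)
  have hf1 : Nat.card {x // f x = 1} = 4 := by
    rw [← hcW]
    exact Nat.card_congr (Equiv.subtypeEquivRight fun x =>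
      ⟨fun h => hinv x (congrArg Subtype.val h), fun h => Subtype.ext h.2⟩)
  have hK : Nat.card (zpowers (⟨w, hw⟩ : W)) = 2 := by
    rw [Nat.card_zpowers]
    exact orderOf_eq_prime (Subtype.ext hw.2) fun h => hw1 (congrArg Subtype.val h)
  obtain ⟨l, hl⟩ := H85.exists_sign_hom (zpowers (⟨w, hw⟩ : W)) (by
    have := (zpowers (⟨w, hw⟩ : W)).card_mul_index
    rw [hK, hcW] at this
    omega)
  have hl' : ∀ z, l z = 1 ↔ z ∈ zpowers (⟨w, hw⟩ : W) := fun z =>
    ⟨fun h => by_contra fun h' => by simp [(hl z).2 h'] at h, (hl z).1⟩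
  have h1 := H85.sum_sign fun x : G => l ⟨x ^ 2, hsq x⟩
  simp only [hl'] at h1
  have h2 := card_mem_eq f _ hfc (zpowers (⟨w, hw⟩ : W))
  have h3 := card_mem_eq f _ hfc ⊤
  rw [Nat.card_congr (Equiv.subtypeUnivEquiv fun _ => mem_top _), card_top, hcW, hf1] at h3
  rw [hf1, hK] at h2
  obtain ⟨N, hN⟩ := hG.exists_card_eq
  have h5 := H85.quad_sum hWZ hsq hc l
  rw [h1, h2] at h5
  generalize Nat.card {x // f x = ⟨w, hw⟩} = c at h2 h3 h5
  have h6 : Nat.card G ∣ 64 := by
    rcases h5 with h5 | ⟨R, -, h5⟩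
    · have : Nat.card G = 16 := by omega
      rw [this]; norm_num
    obtain ⟨m, -, hm⟩ := (Nat.dvd_prime_pow Nat.prime_two).mp (hN ▸ R.card_subgroup_dvd_card)
    rw [hm] at h5
    conv_rhs at h5 => rw [hN]
    push_cast at h5
    rw [← pow_add] at h5
    obtain ⟨s, hs, h6⟩ := H85.eq_of_sq_eq_two_pow h5
    rw [hN, show 64 = 2 ^ 6 from rfl]
    refine pow_dvd_pow 2 (by_contra fun hN6 => ?_)
    obtain ⟨M, rfl⟩ : ∃ M, N = M + 7 := ⟨N - 7, by omega⟩
    have h7 : 2 ^ (M + 7) = 16 + 3 * 2 ^ s ∨ 2 ^ (M + 7) + 3 * 2 ^ s = 16 := by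
      rw [← hN]
      rcases h6 with h6 | h6
      · right; exact_mod_cast (by omega : (Nat.card G : ℤ) + 3 * 2 ^ s = 16)
      · left; exact_mod_cast (by omega : (Nat.card G : ℤ) = 16 + 3 * 2 ^ s)
    rw [pow_add] at h7
    rcases lt_or_ge s 5 with h8 | h8
    · interval_cases s <;> omega
    · obtain ⟨t, rfl⟩ := Nat.exists_eq_add_of_le' h8
      rw [pow_add] at h7
      omega
  let C : Subgroup G := α.toMonoidHom.eqLocus (MonoidHom.id G)
  have hC1 : 4 ∣ Nat.card C := hcW ▸ card_dvd_of_le fun v hv => hαW v hv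
  have hC2 : Nat.card C ∣ Nat.card G := C.card_subgroup_dvd_card
  have hC3 : Nat.card C ≠ Nat.card G := fun h =>
    hα (MulEquiv.ext fun x => ((card_eq_iff_eq_top C).mp h).ge (mem_top x))
  have hord : orderOf δ = 3 ^ (n + 2) := orderOf_eq_prime_pow hα hδ
  have hC4 : 9 ∣ Nat.card {x // x ∉ C} := by
    have hcomm : ∀ (g : zpowers δ) (x : G), α ((g : MulAut G) x) = (g : MulAut G) (α x) := by
      rintro ⟨_, k, rfl⟩ x
      exact DFunLike.congr_fun ((Commute.refl δ).zpow_right k |>.pow_left _).eq x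
    let _ : MulAction (zpowers δ) {x // x ∉ C} :=
      { smul := fun g x => ⟨(g : MulAut G) x, fun h => x.2
          ((g : MulAut G).injective ((hcomm g x).symm.trans h))⟩
        one_smul := fun _ => rfl
        mul_smul := fun _ _ _ => rfl }
    rw [Nat.card_congr (MulAction.selfEquivOrbitsQuotientProd (G := zpowers δ) fun x => ?_),
      Nat.card_prod, Nat.card_zpowers, hord, pow_add]
    · exact Dvd.dvd.mul_left (dvd_mul_left _ _) _
    by_contra hne
    have hp : IsPGroup 3 (zpowers δ) := IsPGroup.of_card (by rw [Nat.card_zpowers, hord])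
    obtain ⟨y, hy⟩ := exists_prime_orderOf_dvd_card' (G := MulAction.stabilizer (zpowers δ) x) 3
      ((hp.to_subgroup _).card_eq_or_dvd.resolve_left (mt card_eq_one.mp hne))
    have h7 := H42.eq_of_le_zpowers_of_card (x := δ) (B := zpowers α) (C := zpowers y.1.1)
      (zpowers_le.mpr (pow_mem (mem_zpowers δ) _)) (zpowers_le.mpr y.1.2) (by
        rw [Nat.card_zpowers, Nat.card_zpowers, orderOf_coe, orderOf_coe, hy]
        exact orderOf_eq_prime (by rw [← pow_mul, ← pow_succ, hδ]) hα)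
    have h8 : y.1.1 ∈ MulAction.stabilizer (MulAut G) x.1 := congrArg Subtype.val y.2
    exact x.2 (zpowers_le.mpr h8 (h7.le (mem_zpowers α)))
  have hC5 : Nat.card C + Nat.card {x // x ∉ C} = Nat.card G := by
    rw [← Nat.card_sum]
    exact Nat.card_congr (Equiv.sumCompl _)
  generalize Nat.card C = a at hC1 hC2 hC3 hC5
  generalize Nat.card G = b at hC2 hC3 hC5 h6
  have hb := Nat.le_of_dvd (by norm_num) h6
  have ha := Nat.le_of_dvd (Nat.pos_of_dvd_of_pos h6 (by norm_num)) hC2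
  obtain ⟨k, hk⟩ := hC4
  obtain ⟨a, rfl⟩ := hC1
  have : a ≤ 16 := by omega
  interval_cases b <;> first | omega | (interval_cases a <;> omega)

/-- Let d be a non-identity 3-element of a finite group and P a 2-subgroup normalized by d on which ⟨d⟩ acts faithfully (no non-identity power of d centralizes P) and without non-identity fixed points (C_P(d) = 1). If every abelian subgroup of P has 2-rank at most 2, then d has order 3. -/
theorem result {X : Type*} [Group X] [Finite X] (d : X) (n : ℕ) (hn : 1 ≤ n) (hd : orderOf d = 3 ^ n) (P : Subgroup X) (hP : IsPGroup 2 P) (hdP : d ∈ Subgroup.normalizer (P : Set X)) (hfaith : Subgroup.zpowers d ⊓ Subgroup.centralizer (P : Set X) = ⊥) (hfpf : P ⊓ Subgroup.centralizer {d} = ⊥) (hrank : ∀ V : Subgroup X, V ≤ P → IsMulCommutative V → Cfsg.PRankLE 2 2 V) : orderOf d = 3 := by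
  by_contra hne
  obtain ⟨n, rfl⟩ : ∃ m, n = m + 2 := ⟨n - 2, by
    have : n ≠ 1 := fun h => hne (by rw [hd, h, pow_one])
    omega⟩
  set a := d ^ 3 ^ (n + 1) with ha
  have ha1 : a ≠ 1 := pow_ne_one_of_lt_orderOf (by positivity)
    (hd ▸ Nat.pow_lt_pow_right (by norm_num) (by omega))
  have hBA : zpowers a ≤ zpowers d := zpowers_le.mpr (pow_mem (mem_zpowers d) _)
  obtain ⟨k, hk⟩ := hP.exists_card_eq
  have := hP.isNilpotent
  obtain ⟨q, Q, -, -, hQP, -, hAQ, hQB, hcomm, hZ, hmin⟩ := H79.exists_critical (B := zpowers a)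
    (zpowers_le.mpr hdP) (by
      rw [Nat.card_zpowers, hd, hk]; exact Nat.Coprime.pow _ _ (by norm_num)) (Or.inr inferInstance)
    hBA ((le_centralizer _).trans ((centralizer_le hBA).trans (centralizer_le_normalizer _)))
    (fun h => ha1 (mem_bot.mp (hfaith.le ⟨hBA (mem_zpowers a),
      le_centralizer_iff.mp h (mem_zpowers a)⟩)))
  have hdQ : d ∈ normalizer (Q : Set X) := hAQ (mem_zpowers d)
  have hpow : ∀ m : ℕ, Q.normalizerMonoidHom ⟨d, hdQ⟩ ^ m =
      Q.normalizerMonoidHom ⟨d ^ m, pow_mem hdQ m⟩ := fun m => (map_pow _ _ _).symm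
  have hfix : ∀ x : Q, (Q.normalizerMonoidHom ⟨d, hdQ⟩ ^ 3 ^ (n + 1)) x = x ↔
      (x : X) ∈ centralizer (zpowers a : Set X) := fun x => by
    rw [hpow, Subtype.ext_iff, zpowers_eq_closure, centralizer_closure,
      mem_centralizer_singleton_iff, eq_comm (a := (x : X) * a), ← mul_inv_eq_iff_eq_mul]
    rfl
  refine core (hP.to_le hQP) (Q.normalizerMonoidHom ⟨d, hdQ⟩) n ?_ ?_ ?_ ?_ ?_ ?_ ?_
  · rw [hpow, ← map_one Q.normalizerMonoidHom]
    congr 1
    exact Subtype.ext (by rw [← hd]; exact pow_orderOf_eq_one d)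
  · intro h
    exact hQB fun x hx => (hfix ⟨x, hx⟩).mp (by rw [h]; rfl)
  · intro x hx
    have h1 : d * x * d⁻¹ = x := congrArg Subtype.val hx
    exact Subtype.ext (mem_bot.mp (hfpf.le ⟨hQP x.2,
      mem_centralizer_singleton_iff.mpr (mul_inv_eq_iff_eq_mul.mp h1).symm⟩))
  · intro x hx
    have hQ1 : Nontrivial Q := (nontrivial_iff_ne_bot Q).mpr fun h => hQB (h ▸ bot_le)
    refine (hfix x).mpr (hmin ((frattini Q).map Q.subtype) ?_ ?_ ⟨x, hx, rfl⟩)
    · refine lt_of_le_of_ne (map_subtype_le _) fun h => ?_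
      have h1 : frattini Q = ⊤ := by
        apply map_injective Q.subtype_injective
        rw [h, ← MonoidHom.range_eq_map, range_subtype]
      exact bot_ne_top (frattini_nongenerating (K := ⊥) (by rw [h1, bot_sup_eq]))
    · rw [zpowers_le]
      refine mem_normalizer_fintype ?_
      rintro _ ⟨y, hy, rfl⟩
      exact ⟨_, characteristic_iff_map_le.mp inferInstance (Q.normalizerMonoidHom ⟨d, hdQ⟩)
        ⟨y, hy, rfl⟩, rfl⟩
  · intro x hx
    exact mem_center_iff.mpr fun g => Subtype.ext (hZ ⟨x.2, (hfix x).mp hx⟩ g g.2)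
  · intro K hK h
    apply map_injective Q.subtype_injective
    rw [← MonoidHom.range_eq_map, range_subtype]
    refine le_antisymm (map_subtype_le _) (hcomm.ge.trans (commutator_le.mpr ?_))
    rintro x hx _ ⟨j, rfl⟩
    have hz : ∀ (j : ℤ) (y : Q), ∃ k ∈ K, (k : X) = (y : X)⁻¹ * (a ^ j * y * (a ^ j)⁻¹) := by
      have haQ : a ∈ normalizer (Q : Set X) := pow_mem hdQ _
      have h1 : ∀ y : Q, ∃ k ∈ K, (k : X) = (y : X)⁻¹ * (a * y * a⁻¹) := fun y =>
        ⟨_, h y, by rw [hpow]; rfl⟩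
      intro j
      induction j using Int.induction_on with
      | zero => exact fun y => ⟨1, one_mem _, by simp⟩
      | succ j ih =>
        intro y
        obtain ⟨k1, hk1, e1⟩ := h1 y
        obtain ⟨k2, hk2, e2⟩ := ih ⟨a * y * a⁻¹, (mem_normalizer_iff.mp haQ _).mp y.2⟩
        exact ⟨k1 * k2, mul_mem hk1 hk2, by rw [coe_mul, e1, e2]; group⟩
      | pred j ih =>
        intro y
        obtain ⟨k1, hk1, e1⟩ := h1 ⟨a⁻¹ * y * a⁻¹⁻¹, (mem_normalizer_iff.mp (inv_mem haQ) _).mp y.2⟩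
        obtain ⟨k2, hk2, e2⟩ := ih ⟨a⁻¹ * y * a⁻¹⁻¹, (mem_normalizer_iff.mp (inv_mem haQ) _).mp y.2⟩
        exact ⟨k1⁻¹ * k2, mul_mem (inv_mem hk1) hk2, by rw [coe_mul, coe_inv, e1, e2]; group⟩
    obtain ⟨k, hk, e⟩ := hz j ⟨x⁻¹, inv_mem hx⟩
    exact ⟨k, hk, by rw [coe_subtype, e, commutatorElement_def]; group⟩
  · intro E hE h
    have h1 := hrank (E.map Q.subtype) ((map_subtype_le _).trans hQP) inferInstance ⊤ inferInstance
      (by rintro ⟨_, y, hy, rfl⟩ -; exact Subtype.ext (congrArg Subtype.val (h y hy) :))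
    rwa [card_top, card_map_of_injective Q.subtype_injective] at h1

end Cfsg.Agent.S3738
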