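import Cfsg.Statements.S3739
import Cfsg.Agent.S3738
import Cfsg.Agent.S3734
import Cfsg.Agent.H18.SmallTools
import Cfsg.Agent.H49.SylowOf
import Cfsg.Agent.H22.Core
import Cfsg.Agent.H44.Subnormal
import Cfsg.Agent.H35.PrimeOrder

set_option autoImplicit false
open Cfsg

namespace Cfsg.Agent.S3739

open Subgroup

theorem ea_sup {G : Type*} [Group G] {W : Subgroup G} (hW : IsElementaryAbelian 2 W) {x : G}
    (hx : x ^ 2 = 1) (hc : x ∈ centralizer (W : Set G)) : IsElementaryAbelian 2 (W ⊔ zpowers x) := by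
  have hc' : zpowers x ≤ centralizer (W : Set G) := zpowers_le.mpr hc
  have hmem : ∀ y ∈ W ⊔ zpowers x, ∃ w ∈ W, ∃ k : ℤ, w * x ^ k = y := fun y hy => by
    obtain ⟨w, hw, _, ⟨k, rfl⟩, rfl⟩ := (H21.mem_sup_of_le_normalizer
      (hc'.trans (centralizer_le_normalizer _))).mp hy
    exact ⟨w, hw, k, rfl⟩
  have h1 : ∀ w ∈ W, ∀ k : ℤ, Commute w (x ^ k) := fun w hw k =>
    Commute.zpow_right (hc w hw) k
  refine ⟨⟨⟨fun a b => Subtype.ext ?_⟩⟩, fun y hy => ?_⟩
  · obtain ⟨w, hw, k, e1⟩ := hmem a a.2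
    obtain ⟨v, hv, j, e2⟩ := hmem b b.2
    rw [coe_mul, coe_mul, ← e1, ← e2]
    have h2 : Commute w v := congrArg Subtype.val (hW.1.is_comm.comm ⟨w, hw⟩ ⟨v, hv⟩)
    exact ((h2.mul_right (h1 w hw j)).mul_left
      ((h1 v hv k).symm.mul_right (Commute.zpow_zpow_self x k j))).eq
  · obtain ⟨w, hw, k, rfl⟩ := hmem y hy
    rw [(h1 w hw k).mul_pow, hW.2 w hw, one_mul, ← zpow_natCast, ← zpow_mul,
      mul_comm, zpow_mul, zpow_natCast, hx, one_zpow]

theorem ea_pgroup {G : Type*} [Group G] {W : Subgroup G} (hW : IsElementaryAbelian 2 W) :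
    IsPGroup 2 W := fun w => ⟨1, Subtype.ext (by simpa using hW.2 w w.2)⟩

theorem exists_inv {G : Type*} [Group G] [Finite G] {U : Subgroup G} (hU : IsPGroup 2 U)
    (h : U ≠ ⊥) : ∃ t ∈ U, t ≠ 1 ∧ t ^ 2 = 1 := by
  obtain ⟨z, hz⟩ := exists_prime_orderOf_dvd_card' (G := U) 2
    (hU.card_eq_or_dvd.resolve_left (mt card_eq_one.mp h))
  refine ⟨z, z.2, fun h => ?_, by rw [← coe_pow, ← hz, pow_orderOf_eq_one]; rfl⟩
  rw [OneMemClass.coe_eq_one.mp h, orderOf_one] at hz
  exact absurd hz (by norm_num)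

/-- Let G be a finite group with C_G(O₂(G)) ≤ O₂(G) containing an element of order 6, and let d be a non-identity 3-element of G normalizing a nontrivial elementary abelian 2-subgroup W with C_W(d) = 1. Then G has an elementary abelian subgroup of order 8. -/
theorem result {G : Type*} [Group G] [Finite G] (hchar : Subgroup.centralizer (Cfsg.pCore 2 G : Set G) ≤ Cfsg.pCore 2 G) (hsix : ∃ g : G, orderOf g = 6) (d : G) (hd1 : d ≠ 1) (hd : IsPGroup 3 ↥(Subgroup.zpowers d)) (W : Subgroup G) (hW : Cfsg.IsElementaryAbelian 2 W) (hW1 : W ≠ ⊥) (hdW : d ∈ Subgroup.normalizer (W : Set G)) (hfpf : W ⊓ Subgroup.centralizer {d} = ⊥) : ∃ E : Subgroup G, Cfsg.IsElementaryAbelian 2 E ∧ Nat.card E = 8 := by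
  by_contra hcon
  have hr : ∀ E : Subgroup G, IsElementaryAbelian 2 E → Nat.card E ≤ 4 := by
    intro E hE
    by_contra hlt
    obtain ⟨k, hk⟩ := (ea_pgroup hE).exists_card_eq
    have h3 : 3 ≤ k := by
      by_contra h
      have : k ≤ 2 := by omega
      interval_cases k <;> omega
    obtain ⟨K, hK⟩ := Sylow.exists_subgroup_card_pow_prime (G := E) 2 (n := 3) (hk ▸ pow_dvd_pow 2 h3)
    have := hE.1
    refine hcon ⟨K.map E.subtype, ⟨inferInstance, ?_⟩, by
      rw [card_map_of_injective E.subtype_injective, hK]; rfl⟩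
    rintro _ ⟨y, -, rfl⟩
    exact hE.2 y y.2
  obtain ⟨n, hn⟩ : ∃ n, orderOf d = 3 ^ n := by simpa using hd.exists_card_eq
  have hdn : d ^ 3 ^ n = 1 := hn ▸ pow_orderOf_eq_one d
  have hsub : ∀ U : Subgroup G, U ≤ W → U ≠ ⊥ → d ∈ normalizer (U : Set G) → 4 ≤ Nat.card U := by
    intro U hU hU1 hdU
    have h1 := H18.modEq_cent Nat.prime_three U hdn hdU
    rw [le_bot_iff.mp ((inf_le_inf_right _ hU).trans hfpf.le), card_bot] at h1
    obtain ⟨k, hk⟩ := ((ea_pgroup hW).to_le hU).exists_card_eq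
    rw [hk] at h1 ⊢
    have h2 : k ≠ 0 := fun h => hU1 (card_eq_one.mp (by rw [hk, h, pow_zero]))
    have h3 : k ≠ 1 := by rintro rfl; exact absurd h1 (by decide)
    exact Nat.pow_le_pow_right two_pos (show 2 ≤ k by omega)
  have hW4 : Nat.card W = 4 := le_antisymm (hr W hW) (hsub W le_rfl hW1 hdW)
  have hinv : ∀ x : G, x ^ 2 = 1 → x ∈ centralizer (W : Set G) → x ∈ W := fun x hx hc =>
    (eq_of_le_of_card_ge (le_sup_left : W ≤ W ⊔ zpowers x) (hW4 ▸ hr _ (ea_sup hW hx hc))).ge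
      (mem_sup_right (mem_zpowers x))
  set Q := pCore 2 G
  have hQ : IsPGroup 2 Q := H22.isPGroup_pCore
  have hWQ : W ≤ centralizer (Q : Set G) := by
    have h1 : IsPGroup 2 (W ⊔ Q : Subgroup G) := (ea_pgroup hW).to_sup_of_normal_right hQ
    have h2 := H49.inf_center_ne_bot_of_nilpotent h1.isNilpotent le_rfl le_normalizer
      fun h => hW1 (le_bot_iff.mp (le_sup_left.trans h.le))
    obtain ⟨t, ht, ht1, ht2⟩ := exists_inv (h1.to_le inf_le_left) h2
    have h3 : W ⊓ centralizer ((W ⊔ Q : Subgroup G) : Set G) = W := by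
      refine eq_of_le_of_card_ge inf_le_left (hW4 ▸ hsub _ inf_le_left (fun h => ht1 (mem_bot.mp
        (h.le ⟨hinv t ht2 (centralizer_le (le_sup_left : W ≤ W ⊔ Q) ht.2), ht.2⟩))) ?_)
      refine inf_normalizer_le_normalizer_inf ⟨hdW, H44.normalizer_le_normalizer_centralizer _
        (normalizer_inf_normalizer_le_normalizer_sup _ _ ⟨hdW, ?_⟩)⟩
      rw [normalizer_eq_top]; trivial
    exact h3.ge.trans (inf_le_right.trans (centralizer_le (le_sup_right : Q ≤ W ⊔ Q)))
  have hQW : Q ≤ centralizer (W : Set G) := le_centralizer_iff.mp hWQ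
  have hWn : W.Normal := ⟨fun w hw g => hinv _ (by rw [conj_pow, hW.2 w hw]; simp)
    (hQW (Normal.conj_mem inferInstance _ (hchar (hWQ hw)) g))⟩
  have hfp : ∀ (x : G) (k : ℕ), x ^ 3 ^ k = 1 → x ∉ centralizer (W : Set G) →
      W ⊓ centralizer {x} = ⊥ ∧ Q ⊓ centralizer {x} = ⊥ := by
    intro x k hx hxW
    have h1 := H18.modEq_cent Nat.prime_three W hx (by rw [normalizer_eq_top]; trivial)
    have h2 : W ⊓ centralizer {x} = ⊥ := by
      have h3 := card_dvd_of_le (inf_le_left : W ⊓ centralizer {x} ≤ W)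
      have h4 : Nat.card ↥(W ⊓ centralizer {x}) ≠ 4 := fun h => hxW fun w hw =>
        mem_centralizer_singleton_iff.mp
          ((eq_of_le_of_card_ge inf_le_left (by rw [h, hW4])).ge hw).2
      rw [hW4] at h1 h3
      rw [← card_eq_one]
      have h5 := Nat.le_of_dvd (by norm_num) h3
      generalize Nat.card ↥(W ⊓ centralizer {x}) = m at h1 h3 h4 h5
      interval_cases m <;> simp_all [Nat.ModEq]
    refine ⟨h2, by_contra fun h => ?_⟩
    obtain ⟨t, ht, ht1, ht2⟩ := exists_inv (hQ.to_le inf_le_left) h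
    exact ht1 (mem_bot.mp (h2.le ⟨hinv t ht2 (hQW ht.1), ht.2⟩))
  have hdW' : d ∉ centralizer (W : Set G) := fun h => hW1 (by
    rw [← hfpf, eq_comm, inf_eq_left]
    exact fun w hw => mem_centralizer_singleton_iff.mpr (h w hw))
  have h23 : ∀ U : Subgroup G, IsPGroup 3 U → U ⊓ centralizer (Q : Set G) = ⊥ := fun U hU =>
    le_bot_iff.mp ((inf_le_inf_left _ hchar).trans
      (disjoint_iff.mp (IsPGroup.disjoint_of_ne 3 2 (by norm_num) _ _ hU hQ)).le)
  have hd3 : orderOf d = 3 := S3738.result d n (Nat.pos_of_ne_zero fun h => hd1 (by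
      rwa [h, pow_zero, orderOf_eq_one_iff] at hn)) hn Q hQ (by rw [normalizer_eq_top]; trivial)
    (h23 _ hd) (hfp d n hdn hdW').2 fun V _ _ A hA hA' => by
      rw [← card_map_of_injective V.subtype_injective]
      refine hr _ ⟨inferInstance, ?_⟩
      rintro _ ⟨y, hy, rfl⟩
      exact congrArg Subtype.val (hA' y hy)
  obtain ⟨T, hT⟩ := hd.exists_le_sylow
  by_cases hC : (T : Subgroup G) ⊓ centralizer (W : Set G) = ⊥
  · obtain ⟨g, hg⟩ := hsix
    have he : orderOf (g ^ 2) = 3 := by rw [orderOf_pow_of_dvd two_ne_zero (by simp [hg]), hg]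
    have he3 : (g ^ 2) ^ 3 ^ 1 = 1 := by rw [pow_one, ← he, pow_orderOf_eq_one]
    have ht2 : (g ^ 3) ^ 2 = 1 := by rw [← pow_mul, ← pow_orderOf_eq_one g, hg]
    have heW : g ^ 2 ∉ centralizer (W : Set G) := fun h => by
      obtain ⟨S, hS⟩ := (IsPGroup.of_card (p := 3) (n := 1) (G := zpowers (g ^ 2))
        (by rw [Nat.card_zpowers, he, pow_one])).exists_le_sylow
      obtain ⟨u, rfl⟩ := MulAction.exists_smul_eq G T S
      have h1 : u⁻¹ * g ^ 2 * u ∈ (T : Subgroup G) ⊓ centralizer (W : Set G) :=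
        ⟨H2.mem_conj_smul.mp (hS (mem_zpowers _)), Normal.conj_mem' inferInstance _ h u⟩
      rw [hC, mem_bot] at h1
      have h2 : g ^ 2 = 1 := by simpa [mul_assoc] using congrArg (fun y => u * y * u⁻¹) h1
      rw [h2, orderOf_one] at he
      exact absurd he (by norm_num)
    have h1 := (hfp _ 1 he3 heW).1
    have h2 := H18.modEq_cent (k := 1) Nat.prime_two W (x := g ^ 3) (by rw [pow_one, ht2])
      (by rw [normalizer_eq_top]; trivial)
    have h3 := H18.modEq_cent Nat.prime_three (W ⊓ centralizer {g ^ 3}) he3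
      (inf_normalizer_le_normalizer_inf ⟨by rw [normalizer_eq_top]; trivial, le_normalizer
        (mem_centralizer_singleton_iff.mpr (Commute.pow_pow_self g 2 3).eq)⟩)
    rw [le_bot_iff.mp ((inf_le_inf_right _ inf_le_left).trans h1.le), card_bot] at h3
    have h4 : W ⊓ centralizer {g ^ 3} = W := by
      refine eq_of_le_of_card_ge inf_le_left ?_
      have h5 := card_le_of_le (inf_le_left : W ⊓ centralizer {g ^ 3} ≤ W)
      rw [hW4] at h2 h5 ⊢
      unfold Nat.ModEq at h2 h3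
      omega
    have h5 : g ^ 3 ∈ W ⊓ centralizer {g ^ 2} := ⟨hinv _ ht2 fun w hw =>
      mem_centralizer_singleton_iff.mp (h4.ge hw).2,
      mem_centralizer_singleton_iff.mpr (Commute.pow_pow_self g 3 2).eq⟩
    rw [h1, mem_bot] at h5
    exact pow_ne_one_of_lt_orderOf (by norm_num) (by rw [hg]; norm_num) h5
  have h1 := H49.inf_center_ne_bot_of_nilpotent T.isPGroup'.isNilpotent
    (inf_le_left : (T : Subgroup G) ⊓ centralizer (W : Set G) ≤ T)
    (le_trans (le_inf le_normalizer (by rw [normalizer_eq_top]; exact le_top))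
      inf_normalizer_le_normalizer_inf) hC
  have h2 : IsPGroup 3 ↥((T : Subgroup G) ⊓ centralizer (W : Set G) ⊓ centralizer (T : Subgroup G)) :=
    T.isPGroup'.to_le (inf_le_left.trans inf_le_left)
  obtain ⟨⟨y, ⟨hyT, hyW⟩, hyZ⟩, hy⟩ := exists_prime_orderOf_dvd_card' 3
    (h2.card_eq_or_dvd.resolve_left (mt card_eq_one.mp h1))
  rw [← orderOf_coe] at hy
  simp only at hy
  replace hyW : y ∈ centralizer (W : Set G) := hyW
  have hy1 : y ≠ 1 := fun h => by rw [h, orderOf_one] at hy; exact absurd hy (by norm_num)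
  have hyd : Commute d y := hyZ d (hT (mem_zpowers d))
  have hAT : zpowers y ⊔ zpowers d ≤ T := sup_le (zpowers_le.mpr hyT) hT
  have hmem : ∀ b ∈ zpowers y ⊔ zpowers d, ∃ i j : ℤ, y ^ i * d ^ j = b := fun b hb => by
    obtain ⟨_, ⟨i, rfl⟩, _, ⟨j, rfl⟩, rfl⟩ := (H21.mem_sup_of_le_normalizer (zpowers_le.mpr
      (H35.mem_normalizer_zpowers_iff.mpr (by
        rw [hyd.eq, mul_inv_cancel_right]; exact mem_zpowers y)))).mp hb
    exact ⟨i, j, rfl⟩
  have hexp : ∀ b ∈ zpowers y ⊔ zpowers d, b ^ 3 ^ 1 = 1 := fun b hb => by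
    obtain ⟨i, j, rfl⟩ := hmem b hb
    rw [pow_one, (hyd.symm.zpow_zpow i j).mul_pow, ← zpow_natCast, ← zpow_natCast, ← zpow_mul,
      ← zpow_mul, mul_comm i, mul_comm j, zpow_mul, zpow_mul, zpow_natCast, zpow_natCast]
    conv_lhs => rw [← hy, pow_orderOf_eq_one, hy, ← hd3, pow_orderOf_eq_one]
    simp
  obtain ⟨k, hk⟩ := (T.isPGroup'.to_le hAT).exists_card_eq
  obtain ⟨m, hm⟩ := hQ.exists_card_eq
  have h3 := (S3734.result (zpowers y ⊔ zpowers d) Q ⟨⟨fun a b => Subtype.ext (by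
      obtain ⟨i, j, e1⟩ := hmem a a.2
      obtain ⟨i', j', e2⟩ := hmem b b.2
      rw [coe_mul, coe_mul, ← e1, ← e2]
      exact (((Commute.zpow_zpow_self y i i').mul_right (hyd.symm.zpow_zpow i j')).mul_left
        ((hyd.zpow_zpow j i').mul_right (Commute.zpow_zpow_self d j j'))).eq)⟩⟩
    (by rw [normalizer_eq_top]; exact le_top)
    (by rw [hk, hm]; exact Nat.Coprime.pow _ _ (by norm_num))).1
  have h4 : Q ≤ centralizer {y} := by
    rw [← h3, iSup₂_le_iff]
    rintro B ⟨hBA, a, ha, hBa⟩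
    by_cases hBW : B ≤ centralizer (W : Set G)
    · have hB1 : B ≠ ⊥ := by
        rintro rfl
        rw [bot_sup_eq] at hBa
        have ha3 : orderOf a = 3 := orderOf_eq_prime (by simpa using hexp a ha) fun h => hy1 (by
          rw [h, zpowers_one_eq_bot] at hBa
          exact mem_bot.mp (hBa.ge (mem_sup_left (mem_zpowers y))))
        have h5 := H35.zpowers_eq_of_mem Nat.prime_three ha3
          (hBa.ge (mem_sup_left (mem_zpowers y))) hy1
        exact hdW' (zpowers_le.mpr hyW (h5.ge (hBa.ge (mem_sup_right (mem_zpowers d)))))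
      obtain ⟨⟨b, hb⟩, hb1⟩ := ne_bot_iff_exists_ne_one.mp hB1
      obtain ⟨i, j, rfl⟩ := hmem b (hBA hb)
      have h5 : d ^ j = 1 := by
        by_contra h
        refine hdW' (zpowers_le.mpr ?_ ((H35.zpowers_eq_of_mem Nat.prime_three hd3
          (zpow_mem_zpowers d j) h).ge (mem_zpowers d)))
        exact (mul_mem_cancel_left (zpow_mem hyW i)).mp (hBW hb)
      have h6 := H35.zpowers_eq_of_mem Nat.prime_three hy (zpow_mem_zpowers y i)
        fun h => hb1 (Subtype.ext (by simp [h, h5]))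
      rw [h5, mul_one] at hb
      exact inf_le_right.trans (centralizer_le (Set.singleton_subset_iff.mpr
        (zpowers_le.mpr hb (h6.ge (mem_zpowers y)))))
    · obtain ⟨b, hb, hb'⟩ := SetLike.not_le_iff_exists.mp hBW
      exact ((inf_le_inf_left _ (centralizer_le (Set.singleton_subset_iff.mpr hb))).trans
        (hfp b 1 (hexp b (hBA hb)) hb').2.le).trans bot_le
  exact hy1 (mem_bot.mp ((h23 _ T.isPGroup').le ⟨hyT, fun q hq =>
    mem_centralizer_singleton_iff.mp (h4 hq)⟩))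

end Cfsg.Agent.S3739
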