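import Cfsg.Statements.S3740
import Cfsg.Agent.S0106
import Cfsg.Agent.H66.SL2Order
import Cfsg.Agent.H73.PByCyc
import Cfsg.Agent.H46.PAction
import Cfsg.Agent.H49.Prod
import Cfsg.Agent.H22.Core

set_option autoImplicit false
open Cfsg

namespace Cfsg.Agent.S3740


open Subgroup MatrixGroups

variable {F : Type} [Field F] [Fintype F] {p : ℕ} [hp : Fact p.Prime] [CharP F p]

theorem eq_one_of_mem_cent {g b : SL(2, F)} (hg : H66.tr2 g ^ 2 ≠ 4) {k : ℕ} (hb : b ^ p ^ k = 1)
    (h : b * g = g * b) : b = 1 := by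
  have h1 : orderOf b ∣ Nat.card (centralizer ({g} : Set SL(2, F))) :=
    Subgroup.orderOf_dvd_natCard _ (mem_centralizer_singleton_iff.2 h)
  have h2 : ((Nat.card (centralizer ({g} : Set SL(2, F))) : ℕ) : F) ≠ 0 := by
    by_cases hs : H66.Split (H66.tr2 g)
    · rw [(H66.centralizer_split hg hs).2, H66.natCast_card_sub_one]; simp
    · rw [(H66.centralizer_nonsplit hs).2, H66.natCast_card_add_one]; simp
  rw [Ne, CharP.cast_eq_zero_iff F p] at h2
  obtain ⟨i, -, hi⟩ := (Nat.dvd_prime_pow hp.out).1 (orderOf_dvd_of_pow_eq_one hb)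
  rcases i with _ | i
  · exact orderOf_eq_one_iff.1 hi
  · exact absurd ((Dvd.intro_left _ (by rw [hi, pow_succ])).trans h1) h2

theorem key (hp2 : p ≠ 2) {a x : SL(2, F)} {k : ℕ} (ha : a ^ p ^ k = 1) (ha1 : a ≠ 1)
    (hx : (orderOf x).Coprime p) (h : (a * x * a⁻¹) * x = x * (a * x * a⁻¹)) : x * x = 1 := by
  by_contra hxx
  have ht : H66.tr2 x ^ 2 ≠ 4 := H66.tr2_sq_ne_of_pow (n := orderOf x) (by
    rw [Ne, CharP.cast_eq_zero_iff F p]
    exact fun h1 => hp.out.one_lt.ne' (Nat.eq_one_of_dvd_coprimes hx h1 dvd_rfl))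
    (pow_orderOf_eq_one x) (by rintro rfl; simp at hxx) (by rintro rfl; simp at hxx)
  rcases H66.eq_or_eq_inv_of_commute ht h (H66.tr2_conj x a) with h1 | h1
  · exact ha1 (eq_one_of_mem_cent ht ha (mul_inv_eq_iff_eq_mul.1 h1))
  · have h2 : a ^ 2 = 1 := eq_one_of_mem_cent ht (k := k) (by
      rw [← pow_mul, mul_comm, pow_mul, ha, one_pow]) (by
      calc a ^ 2 * x = a * (a * x * a⁻¹) * a := by rw [_root_.sq]; group
        _ = a * x⁻¹ * a := by rw [h1]
        _ = (a * x * a⁻¹)⁻¹ * a ^ 2 := by rw [_root_.sq]; group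
        _ = x * a ^ 2 := by rw [h1, inv_inv])
    exact ha1 (orderOf_eq_one_iff.1 (Nat.eq_one_of_dvd_coprimes
      (Nat.Coprime.pow_right k ((Nat.coprime_primes Nat.prime_two hp.out).2 hp2.symm))
      (orderOf_dvd_of_pow_eq_one h2) (orderOf_dvd_of_pow_eq_one ha)))


/-- Let F be a finite field of odd characteristic p and let a be a p-element of SL₂(F) normalizing a subgroup R of order prime to p with [R, a] ≠ 1. Then p = 3, R is a quaternion group of order 8, and R⟨a⟩ is isomorphic to SL₂(3). -/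
theorem result (F : Type) [Field F] [Fintype F] {p : ℕ} [Fact p.Prime] [CharP F p] (hp : p ≠ 2) (a : Matrix.SpecialLinearGroup (Fin 2) F) (ha : IsPGroup p ↥(Subgroup.zpowers a)) (R : Subgroup (Matrix.SpecialLinearGroup (Fin 2) F)) (hR : (Nat.card R).Coprime p) (haR : a ∈ Subgroup.normalizer (R : Set (Matrix.SpecialLinearGroup (Fin 2) F))) (hnt : ⁅R, Subgroup.zpowers a⁆ ≠ ⊥) : p = 3 ∧ Nonempty (↥R ≃* QuaternionGroup 2) ∧ Nonempty (↥(R ⊔ Subgroup.zpowers a) ≃* Matrix.SpecialLinearGroup (Fin 2) (ZMod 3)) := by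
  rename_i hpp _
  obtain ⟨k, hk⟩ : ∃ k, a ^ p ^ k = 1 := by
    obtain ⟨k, hk⟩ := ha ⟨a, mem_zpowers a⟩
    exact ⟨k, congrArg Subtype.val hk⟩
  have haC : a ∉ centralizer (R : Set SL(2, F)) := fun h =>
    hnt (H70.comm_eq_bot_iff'.2 (zpowers_le.2 h))
  have ha1 : a ≠ 1 := by rintro rfl; exact haC (one_mem _)
  have h2 : (2 : F) ≠ 0 := by
    have := (CharP.cast_eq_zero_iff F p 2).not.2
      fun h => hp ((Nat.prime_dvd_prime_iff_eq hpp.out Nat.prime_two).1 h)
    exact_mod_cast this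
  have hop : (orderOf a).Coprime 2 := Nat.Coprime.coprime_dvd_left (orderOf_dvd_of_pow_eq_one hk)
    (Nat.Coprime.pow_left k ((Nat.coprime_primes hpp.out Nat.prime_two).2 hp))
  have hRo : ∀ x ∈ R, (orderOf x).Coprime p := fun x hx =>
    Nat.Coprime.coprime_dvd_left (R.orderOf_dvd_natCard hx) hR
  have hR2 : IsPGroup 2 R := by
    rw [IsPGroup.iff_card]
    refine ⟨_, Nat.eq_prime_pow_of_unique_prime_dvd Nat.card_pos.ne' fun {s} hs hsR => ?_⟩
    have := Fact.mk hs
    obtain ⟨Q, hQ⟩ := H46.exists_invariant_sylow ha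
      (fun h => hpp.out.one_lt.ne' (Nat.eq_one_of_dvd_coprimes hR h dvd_rfl)) (zpowers_le.2 haR) s
    set S := (Q : Subgroup R).map R.subtype
    have hS : IsPGroup s S := Q.isPGroup'.map _
    have hS0 : S ≠ ⊥ := by
      rw [Ne, map_eq_bot_iff_of_injective _ R.subtype_injective]
      exact Q.ne_bot_of_dvd_card hsR
    obtain ⟨⟨z, hz⟩, hz1⟩ := ne_bot_iff_exists_ne_one.1
      (H69.inf_centralizer_ne_bot hS hS le_normalizer hS0)
    have h3 := key hp hk ha1 (hRo z (map_subtype_le _ hz.1))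
      (hz.2 _ (H70.conj_mem_of_mem_norm (hQ (mem_zpowers a)) hz.1))
    have h4 : orderOf z = 2 := orderOf_eq_prime (by rw [_root_.sq, h3])
      fun h => hz1 (Subtype.ext h)
    obtain ⟨j, hj⟩ := hS.exists_card_eq
    have h5 : 2 ∣ s ^ j := by
      have := S.orderOf_dvd_natCard hz.1
      rwa [hj, h4] at this
    exact ((Nat.prime_dvd_prime_iff_eq Nat.prime_two hs).1 (Nat.prime_two.dvd_of_dvd_pow h5)).symm
  have hu : ∀ x y : R, orderOf x = 2 → orderOf y = 2 → x = y := by
    have : ∀ x : R, orderOf x = 2 → (x : SL(2, F)) = -1 := fun x hx => by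
      refine ((H66.mul_self_eq_one_iff _ h2).1 ?_).resolve_left fun h => ?_
      · have := pow_orderOf_eq_one x
        rw [hx, _root_.sq] at this
        exact congrArg Subtype.val this
      · rw [← Subgroup.orderOf_coe, h, orderOf_one] at hx; omega
    exact fun x y hx hy => Subtype.ext ((this x hx).trans (this y hy).symm)
  obtain ⟨n, ⟨e⟩⟩ := (H1.cyclic_or_quaternion hR2 hu).resolve_left
    fun h => haC (H73.cent_of_cyclic_two hR2 h haR hop)
  obtain rfl : n = 0 := by
    obtain ⟨x, hx, y, hy, h3, h4, h5, h6, h7⟩ := H42.exists_gens_of_quaternion e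
    have h8 : 2 ≤ 2 ^ (n + 1) := Nat.le_self_pow (Nat.succ_ne_zero n) 2
    have hj := H70.conj_mem_of_mem_norm haR hx
    have hjx : a * x * a⁻¹ ∉ zpowers x := fun h => by
      have h9 : orderOf x ∣ 2 := orderOf_dvd_of_pow_eq_one (by
        rw [_root_.sq]
        exact key hp hk ha1 (hRo x hx) (H42.comm_of_mem_zpowers h (mem_zpowers x)))
      have := Nat.le_of_dvd two_pos h9
      omega
    rw [h7, H42.mem_sup_zpowers (H42.mem_normalizer_zpowers_of_inverts h5)
      (h4 ▸ pow_mem (mem_zpowers x) _)] at hj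
    obtain ⟨i, hi⟩ := hj.resolve_left hjx
    have h9 : a * x * a⁻¹ = x ^ i * y := by rw [show x ^ i = _ from hi]; group
    have h10 : (a * x * a⁻¹) ^ 2 = x ^ 2 ^ (n + 1) := by
      have : y * x ^ i * y⁻¹ = (x ^ i)⁻¹ := by rw [← conj_zpow, h5, inv_zpow]
      calc (a * x * a⁻¹) ^ 2 = x ^ i * (y * x ^ i * y⁻¹) * (y * y) := by
            rw [h9, _root_.sq]; group
        _ = _ := by rw [this, h4]; group
    have h11 : orderOf (a * x * a⁻¹) ∣ 2 * 2 := by
      rw [orderOf_dvd_iff_pow_eq_one, pow_mul, h10, ← pow_mul, mul_comm, ← h3, pow_orderOf_eq_one]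
    rw [show orderOf (a * x * a⁻¹) = orderOf x from (MulAut.conj a).orderOf_eq x, h3] at h11
    have h12 := Nat.le_of_dvd (by norm_num) h11
    by_contra h13
    have h14 : 2 ^ 2 ≤ 2 ^ (n + 1) := Nat.pow_le_pow_right (by norm_num) (by omega)
    omega
  have hR8 : Nat.card R = 8 := by
    rw [Nat.card_congr e.toEquiv, Nat.card_eq_fintype_card, QuaternionGroup.card]; rfl
  have hao : orderOf a = p := by
    have h3 : H66.tr2 a ^ 2 = 4 := by
      by_contra h
      exact ha1 (eq_one_of_mem_cent h hk rfl)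
    have h4 := orderOf_dvd_of_pow_eq_one (H66.pow_two_mul_char p h3)
    exact ((Nat.dvd_prime hpp.out).1 (hop.dvd_of_dvd_mul_left h4)).resolve_left
      fun h => ha1 (orderOf_eq_one_iff.1 h)
  set H := R ⊔ zpowers a
  have hH : Nat.card H = 8 * p := by
    have := (H49.isProd_sup_of_norm_left (H := R) (K := zpowers a) (zpowers_le.2 haR)).card_mul
    rwa [inf_comm, H22.inf_eq_bot_of_pgroup_coprime ha hR, card_bot, mul_one, hR8,
      Nat.card_zpowers, hao] at this
  have hRH : R ≤ H := le_sup_left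
  have hn : (R.subgroupOf H).Normal :=
    normal_subgroupOf_of_le_normalizer (sup_le le_normalizer (zpowers_le.2 haR))
  have hidx : (R.subgroupOf H).index = p := by
    have := H49.card_mul_relIndex hRH
    rw [hR8, hH] at this
    exact Nat.eq_of_mul_eq_mul_left (by norm_num) this
  let T : Sylow 2 H := (hR2.comap_subtype (K := H)).toSylow (by
    change ¬ 2 ∣ (R.subgroupOf H).index
    rw [hidx]
    exact fun h => hp ((Nat.prime_dvd_prime_iff_eq Nat.prime_two hpp.out).1 h).symm)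
  rcases S0106.result T 1 le_rfl ⟨(subgroupOfEquivOfLe hRH).trans e⟩ with h | ⟨K, L, hL, ⟨f⟩⟩
  · exfalso
    have := H3.mem_centralizer_of_hasNormalPComplement h T.isPGroup'
      (g := ⟨a, mem_sup_right (mem_zpowers a)⟩)
      (by rw [show (T : Subgroup H) = R.subgroupOf H from rfl, normalizer_eq_top]; trivial)
      (by simpa using hop)
    exact haC fun x hx => congrArg Subtype.val (this ⟨x, hRH hx⟩ hx)
  have h24 : (L.subgroupOf K).index = 24 := by
    rw [index_eq_card, Nat.card_congr f.toEquiv, Nat.card_eq_fintype_card]; decide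
  have h3 : 24 ∣ 8 * p := by
    rw [← h24, ← hH]
    exact (index_dvd_card _).trans (card_subgroup_dvd_card K)
  obtain rfl : p = 3 := ((Nat.prime_dvd_prime_iff_eq Nat.prime_three hpp.out).1
    (Nat.dvd_of_mul_dvd_mul_left (by norm_num : 0 < 8) h3)).symm
  refine ⟨rfl, ⟨e⟩, ?_⟩
  have h4 := (L.subgroupOf K).card_mul_index
  have h5 := K.card_mul_index
  rw [h24] at h4
  rw [hH, ← h4] at h5
  have h6 : Nat.card (L.subgroupOf K) * K.index = 1 := by nlinarith
  have h7 : K = ⊤ := index_eq_one.1 (Nat.eq_one_of_mul_eq_one_left h6)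
  have h8 : L.subgroupOf K = ⊥ := card_eq_one.1 (Nat.eq_one_of_mul_eq_one_right h6)
  exact ⟨(((MulEquiv.subgroupCongr h7).trans topEquiv).symm.trans
    ((QuotientGroup.quotientMulEquivOfEq h8).trans QuotientGroup.quotientBot).symm).trans f⟩

end Cfsg.Agent.S3740
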