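import Cfsg.Statements.S3741
import Cfsg.Agent.H79.Duality

set_option autoImplicit false
open Cfsg

namespace Cfsg.Agent.S3741

open Cfsg.Agent.H79

/-- Let A and B be subgroups of a finite p-group with [A, B] ≤ A ∩ B and [A, B] of order at most p. Then |A : C_A(B)| = |B : C_B(A)|. -/
theorem result {G : Type*} [Group G] [Finite G] {p : ℕ} [Fact p.Prime] (hG : IsPGroup p G) (A B : Subgroup G) (hAB : ⁅A, B⁆ ≤ A ⊓ B) (hcard : Nat.card ↥⁅A, B⁆ ≤ p) : (A ⊓ Subgroup.centralizer (B : Set G)).relIndex A = (B ⊓ Subgroup.centralizer (A : Set G)).relIndex B := by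
  have hc : IsCyclic ↥⁅A, B⁆ := by
    obtain ⟨k, hk⟩ := (hG.to_subgroup ⁅A, B⁆).exists_card_eq
    apply isCyclic_of_card_dvd_prime (p := p)
    rw [hk] at hcard ⊢
    rcases k with _ | _ | k
    · simp
    · simp
    · exfalso
      have h1 := (Fact.out : p.Prime).one_lt
      have := Nat.pow_lt_pow_right h1 (show 1 < k + 1 + 1 by omega)
      rw [pow_one] at this; omega
  exact relIndex_centralizer_eq A B ⁅A, B⁆ le_rfl
    (le_centralizer_of_card_le_prime (hG.to_subgroup A) (Subgroup.normalizer_commutator_ge_left A B) hcard)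
    (le_centralizer_of_card_le_prime (hG.to_subgroup B) (Subgroup.normalizer_commutator_ge_right A B) hcard)

end Cfsg.Agent.S3741
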