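import Cfsg.Statements.S3744
import Cfsg.Agent.H1.Hall
import Cfsg.Agent.H22.PSolvable
import Cfsg.Agent.H79.Conj

set_option autoImplicit false
open Cfsg

namespace Cfsg.Agent.S3744

open Subgroup H1
universe u
theorem step {G : Type*} [Group G] [Finite G] [Nontrivial G] {p : ℕ} [Fact p.Prime]
    (hG : IsPSolvable p G) : ∃ M : Subgroup G, M.Normal ∧ M ≠ ⊥ ∧
      (PiNum {p}ᶜ (Nat.card M) ∨ (PiNum {p}ᶜᶜ (Nat.card M) ∧ Group.IsSolvable M)) := by
  have hp := (Fact.out : p.Prime)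
  rcases H22.IsPSolvable.pCore_ne_bot_or hG with h | h
  · haveI := (H22.isPGroup_pCore (G := G) (p := p)).isNilpotent
    exact ⟨_, inferInstance, h, Or.inr ⟨piNum_of_isPGroup hp (by simp) H22.isPGroup_pCore,
      inferInstance⟩⟩
  · refine ⟨_, inferInstance, h, Or.inl fun q hq hd hqp => ?_⟩
    rw [Set.mem_singleton_iff.1 hqp] at hd
    exact hp.one_lt.ne' (Nat.eq_one_of_self_dvd_coprime hd)
where
  Nat.eq_one_of_self_dvd_coprime {G : Type _} [Group G] [Finite G] {p : ℕ}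
      (hd : p ∣ Nat.card (pPrimeCore p G)) : p = 1 :=
    Nat.Coprime.eq_one_of_dvd (H22.coprime_card_pPrimeCore (G := G) (p := p)).symm hd

theorem ex {p : ℕ} [Fact p.Prime] (G : Type u) [Group G] [Finite G] :
    IsPSolvable p G → ∃ H : Subgroup G, Hall {p}ᶜ H := by
  refine H2.card_induction (P := fun G _ _ => IsPSolvable p G → ∃ H : Subgroup G, Hall {p}ᶜ H) G ?_
  intro G _ _ ih hG
  rcases subsingleton_or_nontrivial G with h | h
  · exact hall_exists _ G inferInstance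
  obtain ⟨M, hMn, hM, hM2⟩ := step hG
  obtain ⟨H, hH⟩ := ih (G ⧸ M) (H2.card_quotient_lt M hM) (H22.IsPSolvable.quotient hG M)
  obtain ⟨K, hK, -⟩ := Hall.exists_of_quotient M (hM2.imp_right And.left) H hH
  exact ⟨K, hK⟩

theorem cj_le {p : ℕ} [Fact p.Prime] (G : Type u) [Group G] [Finite G] :
    IsPSolvable p G → ∀ H K : Subgroup G, Hall {p}ᶜ H → PiNum {p}ᶜ (Nat.card K) →
      ∃ g : G, ∀ k ∈ K, g⁻¹ * k * g ∈ H := by
  refine H2.card_induction (P := fun G _ _ => IsPSolvable p G → ∀ H K : Subgroup G,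
    Hall {p}ᶜ H → PiNum {p}ᶜ (Nat.card K) → ∃ g : G, ∀ k ∈ K, g⁻¹ * k * g ∈ H) G ?_
  intro G _ _ ih hG H K hH hK
  rcases subsingleton_or_nontrivial G with h | h
  · exact ⟨1, fun k _ => by rw [Subsingleton.elim (_ * _) 1]; exact H.one_mem⟩
  obtain ⟨M, hMn, hM, hM2⟩ := step hG
  obtain ⟨g, hg⟩ := ih (G ⧸ M) (H2.card_quotient_lt M hM) (H22.IsPSolvable.quotient hG M) _ _
    (hH.map _ (QuotientGroup.mk'_surjective M)) (hK.of_dvd (card_map_dvd K (QuotientGroup.mk' M)))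
  exact hH.conj_le_of_quotient M hK (hM2.imp_right fun h => ⟨h.1, Or.inr h.2⟩) g hg

theorem piNum_iff {p n : ℕ} (hp : p.Prime) : PiNum {p}ᶜ n ↔ n.Coprime p := by
  rw [Nat.coprime_comm, hp.coprime_iff_not_dvd]
  exact ⟨fun h hd => h p hp hd rfl, fun h q _ hd hq => h (Set.mem_singleton_iff.1 hq ▸ hd)⟩

theorem hall_iff {G : Type*} [Group G] [Finite G] {p : ℕ} (hp : p.Prime) (H : Subgroup G) :
    Hall {p}ᶜ H ↔ (Nat.card H).Coprime p ∧ ∃ n, H.index = p ^ n := by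
  refine and_congr (piNum_iff hp) ⟨fun h => ⟨_, Nat.eq_prime_pow_of_unique_prime_dvd
    index_ne_zero_of_finite fun {q} hq hd => by simpa using h q hq hd⟩, ?_⟩
  rintro ⟨n, hn⟩ q hq hd
  rw [hn] at hd
  simpa using (Nat.prime_dvd_prime_iff_eq hq hp).1 (hq.dvd_of_dvd_pow hd)

/-- A finite p-soluble group has a p-complement, all its p-complements are conjugate, and every subgroup of order prime to p lies in one of them. Here a p-complement is a subgroup of order prime to p whose index is a power of p. -/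
theorem result {G : Type*} [Group G] [Finite G] {p : ℕ} [Fact p.Prime] (hG : Cfsg.IsPSolvable p G) : (∃ H : Subgroup G, (Nat.card H).Coprime p ∧ ∃ n : ℕ, H.index = p ^ n) ∧ (∀ H₁ H₂ : Subgroup G, (Nat.card H₁).Coprime p → (∃ n : ℕ, H₁.index = p ^ n) → (Nat.card H₂).Coprime p → (∃ n : ℕ, H₂.index = p ^ n) → ∃ g : G, H₂ = H₁.map (MulAut.conj g).toMonoidHom) ∧ (∀ U : Subgroup G, (Nat.card U).Coprime p → ∃ H : Subgroup G, (Nat.card H).Coprime p ∧ (∃ n : ℕ, H.index = p ^ n) ∧ ∃ g : G, U.map (MulAut.conj g).toMonoidHom ≤ H) := by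
  have hp := (Fact.out : p.Prime)
  obtain ⟨H, hH⟩ := ex G hG
  refine ⟨⟨H, (hall_iff hp H).1 hH⟩, fun H₁ H₂ a1 b1 a2 b2 => ?_, fun U hU => ?_⟩
  · have h1 := (hall_iff hp H₁).2 ⟨a1, b1⟩
    have h2 := (hall_iff hp H₂).2 ⟨a2, b2⟩
    obtain ⟨g, hg⟩ := cj_le G hG H₁ H₂ h1 h2.1
    refine ⟨g, Subgroup.eq_of_le_of_card_ge (fun x hx => H79.mem_cj.2 (hg x hx)) ?_⟩
    rw [H79.card_cj, h1.card_eq h2]
  · obtain ⟨g, hg⟩ := cj_le G hG H U hH ((piNum_iff hp).2 hU)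
    refine ⟨H, ((hall_iff hp H).1 hH).1, ((hall_iff hp H).1 hH).2, g⁻¹, ?_⟩
    rintro _ ⟨x, hx, rfl⟩
    simpa using hg x hx

end Cfsg.Agent.S3744
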