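import Cfsg.Statements.S3746
import Cfsg.Agent.H44.Components
import Cfsg.Agent.H79.Conj

set_option autoImplicit false
open Cfsg

namespace Cfsg.Agent.S3746

open Cfsg.Agent.H44 Cfsg.Agent.H79

/-- Let Z ≤ Z(G) be a central subgroup of a finite group G and E a subgroup of G containing Z whose image E/Z is a component of G/Z (subnormal and quasisimple). Then the derived subgroup [E, E] is a component of G. -/
theorem result {G : Type*} [Group G] [Finite G] (Z : Subgroup G) (hZ : Z ≤ Subgroup.center G) [Z.Normal] (E : Subgroup G) (hZE : Z ≤ E) (hE : Cfsg.IsComponent (E.map (QuotientGroup.mk' Z))) : Cfsg.IsComponent ⁅E, E⁆ := by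
  rw [← comp_top_iff] at hE ⊢
  set π := QuotientGroup.mk' Z with hπ
  have hk : π.ker = Z := QuotientGroup.ker_mk' Z
  have hZc : ∀ X : Subgroup G, ⁅Z, X⁆ = ⊥ := fun X =>
    Subgroup.commutator_eq_bot_iff_le_centralizer.2 (hZ.trans (Subgroup.center_le_centralizer _))
  have hcm : ∀ X : Subgroup G, (X.map π).comap π = X ⊔ Z := fun X => by
    rw [Subgroup.comap_map_eq, hk]
  have hEs : SN ⊤ E := by
    have := hE.sn.comap π
    rwa [Subgroup.comap_top, hcm, sup_eq_left.2 hZE] at this
  have hmap : (⁅E, E⁆).map π = E.map π := by rw [Subgroup.map_commutator, hE.perfect]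
  have key : ∀ N : Subgroup G, N.map π = E.map π → ⁅N, N⁆ = ⁅E, E⁆ := by
    intro N hN
    have h1 := congrArg (Subgroup.comap π) hN
    rw [hcm, hcm, sup_eq_left.2 hZE] at h1
    rw [← h1, commutator_sup_of_centralizes (hZc _) (hZc _)]
  have hperf : ⁅⁅E, E⁆, ⁅E, E⁆⁆ = ⁅E, E⁆ := key _ hmap
  refine ⟨hEs.trans (SN.of_le_normalizer (Subgroup.commutator_le_self E)
    (Subgroup.normalizer_commutator_ge_left E E)), hperf, ?_, ?_⟩
  · intro h
    apply hE.qs.ne_bot
    rw [← hmap, h, Subgroup.map_bot]
  · intro N hN hNn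
    rcases hE.qs.normal (N.map π) (hmap ▸ Subgroup.map_mono hN)
      (hmap ▸ (Subgroup.map_mono hNn).trans (Subgroup.le_normalizer_map π)) with h | h
    · left
      exact le_antisymm hN ((key N h).ge.trans (Subgroup.commutator_le_self N))
    · right
      rw [← Subgroup.commutator_eq_bot_iff_le_centralizer]
      apply commutator_eq_bot_of_perfect hperf
      have h1 : ⁅N, ⁅E, E⁆⁆ ≤ Z := by
        rw [← hk, ← Subgroup.map_eq_bot_iff, Subgroup.map_commutator, hmap,
          Subgroup.commutator_eq_bot_iff_le_centralizer]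
        exact h
      exact commutator_eq_bot_mono (hZc _) h1 le_rfl

end Cfsg.Agent.S3746
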