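import Cfsg.Statements.S3747
import Cfsg.Agent.H44.Layer
import Cfsg.Agent.H79.Conj

set_option autoImplicit false
open Cfsg

namespace Cfsg.Agent.S3747

open Cfsg.Agent.H44 Cfsg.Agent.H79

theorem normalClosure_eq_sSup {G : Type*} [Group G] (K : Subgroup G) :
    Subgroup.normalClosure (K : Set G) = sSup (Set.range fun g : G => cj g K) := by
  apply le_antisymm
  · have : (sSup (Set.range fun g : G => cj g K)).Normal := by
      rw [← Subgroup.normalizer_eq_top_iff, eq_top_iff]
      intro g _
      rw [← cj_eq_self_iff, sSup_range, cj, Subgroup.map_iSup]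
      apply le_antisymm
      · exact iSup_le fun x => le_iSup_of_le (g * x) (cj_mul g x K).ge
      · exact iSup_le fun x => le_iSup_of_le (g⁻¹ * x) (by
          change cj x K ≤ cj g (cj (g⁻¹ * x) K)
          rw [← cj_mul]; simp)
    apply Subgroup.normalClosure_le_normal
    have h : K ≤ sSup (Set.range fun g : G => cj g K) := le_sSup ⟨1, cj_one K⟩
    exact h
  · apply sSup_le
    rintro _ ⟨g, rfl⟩
    exact cj_le_of_normalizer Subgroup.le_normalClosure
      (by rw [Subgroup.normalizer_eq_top]; trivial)

theorem part1 {G : Type*} [Group G] [Finite G] (K : Subgroup G) (hK : Comp ⊤ K)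
    (hZ : K ⊓ Subgroup.centralizer (K : Set G) = ⊥) : (Subgroup.normalClosure (K : Set G) ≠ ⊥ ∧
      ∀ N : Subgroup G, N.Normal → N ≤ Subgroup.normalClosure (K : Set G) →
        N = ⊥ ∨ N = Subgroup.normalClosure (K : Set G)) := by
  refine ⟨fun h => hK.qs.ne_bot (le_bot_iff.1 (h ▸ Subgroup.le_normalClosure)), fun N hN hle => ?_⟩
  rcases hK.le_or_commutator_eq_bot (U := N) (SN.of_normal le_top) with h | h
  · right
    exact le_antisymm hle (Subgroup.normalClosure_le_normal h)
  · left
    have h1 : K ≤ Subgroup.centralizer (N : Set G) :=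
      Subgroup.commutator_eq_bot_iff_le_centralizer.1 h
    have h2 : Subgroup.normalClosure (K : Set G) ≤ Subgroup.centralizer (N : Set G) :=
      Subgroup.normalClosure_le_normal h1
    have h3 := inf_centralizer_sSup_comp (X := ⊤) (Set.range fun g : G => cj g K)
      (Set.finite_range _) (by
        rintro _ ⟨g, rfl⟩
        exact hK.conj (by rw [Subgroup.normalizer_eq_top]; trivial))
    rw [← normalClosure_eq_sSup] at h3
    rw [eq_bot_iff]
    refine (le_inf hle (Subgroup.le_centralizer_iff.1 h2)).trans (h3.trans ?_)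
    refine iSup₂_le ?_
    rintro _ ⟨g, rfl⟩
    change cj g K ⊓ _ ≤ _
    rw [← cj_centralizer, ← cj_inf, hZ, cj_bot]

/-- Let G be a finite group. (a) If K is a component of G with trivial centre, then the normal closure of K in G is a minimal normal subgroup of G. (b) If the Fitting subgroup of G is trivial, then the layer E(G) is generated by the minimal normal subgroups of G. -/
theorem result {G : Type*} [Group G] [Finite G] : (∀ K : Subgroup G, Cfsg.IsComponent K → Subgroup.center ↥K = ⊥ → (Subgroup.normalClosure (K : Set G) ≠ ⊥ ∧ ∀ N : Subgroup G, N.Normal → N ≤ Subgroup.normalClosure (K : Set G) → N = ⊥ ∨ N = Subgroup.normalClosure (K : Set G))) ∧ (Cfsg.fittingSubgroup G = ⊥ → sSup {N : Subgroup G | N ≠ ⊥ ∧ N.Normal ∧ ∀ N' : Subgroup G, N'.Normal → N' ≤ N → N' = ⊥ ∨ N' = N} = Cfsg.layer G) := by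
  constructor
  · intro K hK hZ
    apply part1 K (comp_top_iff.2 hK)
    rw [← map_center_subtype, hZ, Subgroup.map_bot]
  · intro hF
    apply le_antisymm
    · apply sSup_le
      rintro N ⟨hN1, hN2, hN3⟩
      rcases le_Fof_or_exists_comp (X := ⊤) (U := N) (SN.of_normal le_top)
        (by rw [Fof_top, hF, Subgroup.commutator_bot_right]) with h | ⟨K, hK, hKN⟩
      · rw [Fof_top, hF] at h
        exact absurd (le_bot_iff.1 h) hN1
      · rcases hN3 _ inferInstance (Subgroup.normalClosure_le_normal hKN) with h | h
        · exact absurd (le_bot_iff.1 (h ▸ Subgroup.le_normalClosure)) hK.qs.ne_bot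
        · rw [← h]
          apply Subgroup.normalClosure_le_normal
          have := hK.le_Eof
          rwa [Eof_top] at this
    · rw [← Eof_top, Eof_le_iff]
      intro K hK
      have hZ : K ⊓ Subgroup.centralizer (K : Set G) = ⊥ := by
        have := center_le_Fof_of_sn hK.sn
        rwa [Fof_top, hF, le_bot_iff] at this
      obtain ⟨h1, h2⟩ := part1 K hK hZ
      exact Subgroup.le_normalClosure.trans (le_sSup ⟨h1, inferInstance, h2⟩)

end Cfsg.Agent.S3747
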