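import Cfsg.Statements.S3749
import Cfsg.Agent.H3.Transfer2
import Cfsg.Agent.H44.Cores
import Cfsg.Agent.H79.Conj
import Cfsg.Agent.H92.SylIn
import Cfsg.Agent.H46.Generation

set_option autoImplicit false
open Cfsg

namespace Cfsg.Agent.S3749

open Subgroup H79 H92

/-- Call a proper subgroup M of G primitive when M = N_G(N) for every non-trivial normal subgroup N of M. Let M be a primitive subgroup of the finite group G, p a prime with O_p(M) ≠ 1, and N a normal subgroup of G with M ∩ N = 1. Then p does not divide the order of N; for every prime q there is exactly one Sylow q-subgroup of N normalized by M; and if the order of N has at least two prime divisors then M is not a maximal subgroup of G. -/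
theorem result {G : Type*} [Group G] [Finite G] (M : Subgroup G) (hM : M ≠ ⊤) (hprim : ∀ N : Subgroup G, N ≤ M → M ≤ Subgroup.normalizer (N : Set G) → N ≠ ⊥ → Subgroup.normalizer (N : Set G) = M) {p : ℕ} [Fact p.Prime] (hOp : Cfsg.pCore p ↥M ≠ ⊥) (N : Subgroup G) [N.Normal] (hMN : M ⊓ N = ⊥) : ¬ p ∣ Nat.card N ∧ (∀ q : ℕ, [Fact q.Prime] → ∃! Q : Sylow q ↥N, M ≤ Subgroup.normalizer ((Q : Subgroup ↥N).map N.subtype : Set G)) ∧ ((∃ q r : ℕ, q.Prime ∧ r.Prime ∧ q ≠ r ∧ q ∣ Nat.card N ∧ r ∣ Nat.card N) → ¬ IsCoatom M) := by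
  have hp := (Fact.out : p.Prime)
  set P := (pCore p M).map M.subtype with hPdef
  have hP1 : P ≠ ⊥ := fun h => hOp (by rwa [hPdef, map_eq_bot_iff_of_injective _ M.subtype_injective] at h)
  have hPp : IsPGroup p P := H44.pCoreOf_isPGroup M
  have hMP : M ≤ normalizer (P : Set G) := H44.le_normalizer_pCoreOf M
  have hPM : P ≤ M := map_subtype_le _
  have hN : ∀ A : Subgroup G, A ≤ normalizer (N : Set G) := fun A =>
    le_top.trans (normalizer_eq_top N).ge
  have hC : N ⊓ centralizer (P : Set G) = ⊥ := by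
    rw [eq_bot_iff, ← hMN, ← hprim P hPM hMP hP1, inf_comm]
    exact inf_le_inf_right _ (centralizer_le_normalizer _)
  have h1 : ¬ p ∣ Nat.card N := by
    have h := H3.card_modEq_card_inf_centralizer hPp (hN P)
    rw [hC, Subgroup.card_bot] at h
    intro hd
    exact hp.one_lt.ne' (Nat.dvd_one.1 ((h.dvd_iff dvd_rfl).1 hd))
  have huniq : ∀ (q : ℕ) [Fact q.Prime] (Q₁ Q₂ : Subgroup G), SylIn q Q₁ N → SylIn q Q₂ N →
      P ≤ normalizer (Q₁ : Set G) → P ≤ normalizer (Q₂ : Set G) → Q₁ = Q₂ := by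
    intro q _ Q₁ Q₂ s1 s2 n1 n2
    obtain ⟨g, hg, hgc⟩ := s2.exists_conj_eq s1
    have hx : cj g Q₁ = Q₂ := by
      ext x; rw [mem_cj, hgc]; simp [mul_assoc]
    obtain ⟨c, hc, hc2⟩ := H46.exists_conj_mem_centralizer hPp h1 (hN P) n1 n2 hg hx
    rw [hC, mem_bot] at hc
    subst hc
    exact (cj_one Q₁).symm.trans hc2
  have h2 : ∀ q : ℕ, [Fact q.Prime] → ∃! Q : Sylow q N,
      M ≤ normalizer ((Q : Subgroup N).map N.subtype : Set G) := by
    intro q _
    obtain ⟨Q, hQ⟩ := H46.exists_invariant_sylow hPp h1 (hN P) q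
    refine ⟨Q, fun m hm => cj_eq_self_iff.1 (huniq q _ _ ?_ (sylIn_of_sylow Q) ?_ hQ), fun R hR => ?_⟩
    · have := (sylIn_of_sylow Q).map (MulAut.conj m).toMonoidHom
      rwa [show N.map (MulAut.conj m).toMonoidHom = N from cj_normal m N] at this
    · rw [← cj_normalizer, ← cj_eq_self (hMP hm)]
      exact cj_mono m hQ
    · exact Sylow.ext (map_injective N.subtype_injective
        (huniq q _ _ (sylIn_of_sylow R) (sylIn_of_sylow Q) (hPM.trans hR) hQ))
  refine ⟨h1, h2, ?_⟩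
  rintro ⟨q, r, hq, hr, hqr, hqN, hrN⟩ hco
  haveI := Fact.mk hq
  obtain ⟨Q, hQ, -⟩ := h2 q
  set Q' := (Q : Subgroup N).map N.subtype with hQ'
  have hQN : Q' ≤ N := map_subtype_le _
  have hlt : M < Q' ⊔ M := by
    refine lt_of_le_of_ne le_sup_right fun h => ?_
    have : Q' = ⊥ := by rw [eq_bot_iff, ← hMN]; exact le_inf (le_sup_left.trans h.ge) hQN
    rw [hQ', map_eq_bot_iff_of_injective _ N.subtype_injective] at this
    exact Q.not_dvd_index (by rw [this, index_bot]; exact hqN)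
  have htop := hco.2 _ hlt
  have hNQ : N ≤ Q' := fun x hx => by
    have hx' : x ∈ ((Q' ⊔ M : Subgroup G) : Set G) := by rw [htop]; trivial
    rw [coe_mul_of_right_le_normalizer_left _ _ hQ] at hx'
    obtain ⟨a, ha, b, hb, rfl⟩ := hx'
    have : b ∈ M ⊓ N := ⟨hb, (N.mul_mem_cancel_left (hQN ha)).1 hx⟩
    rw [hMN, mem_bot] at this
    simpa [this] using ha
  have hNq : IsPGroup q N := (sylIn_of_sylow Q).pgroup.to_le hNQ
  obtain ⟨k, hk⟩ := hNq.exists_card_eq
  rw [hk] at hrN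
  exact hqr ((Nat.prime_dvd_prime_iff_eq hr hq).1 (hr.dvd_of_dvd_pow hrN)).symm

end Cfsg.Agent.S3749
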