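import Cfsg.Statements.S3751
import Cfsg.Agent.H59.Fit
import Cfsg.Agent.H79.Conj
import Cfsg.Agent.H92.SylIn
import Cfsg.Agent.H46.Generation

set_option autoImplicit false
open Cfsg

namespace Cfsg.Agent.S3751

open Subgroup H79 H92 H59
variable {G : Type*} [Group G] {p : ℕ}
/-- `p`-local subgroups -/
def Loc (p : ℕ) (M : Subgroup G) : Prop :=
  ∃ T : Subgroup G, IsPGroup p T ∧ T ≠ ⊥ ∧ M = normalizer (T : Set G)
/-- maximal `p`-local subgroups -/
def MaxLoc (p : ℕ) (M : Subgroup G) : Prop := Loc p M ∧ ∀ L, Loc p L → M ≤ L → L = M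

theorem exists_maxLoc [Finite G] {M : Subgroup G} (h : Loc p M) : ∃ L, MaxLoc p L ∧ M ≤ L := by
  obtain ⟨L, hL, hm⟩ := Finite.exists_le_maximal (p := Loc p) h
  exact ⟨L, ⟨hm.1, fun K hK hle => le_antisymm (hm.2 hK hle) hle⟩, hL⟩

theorem Loc.conj {M : Subgroup G} (h : Loc p M) (g : G) : Loc p (cj g M) := by
  obtain ⟨T, h1, h2, rfl⟩ := h
  exact ⟨cj g T, isPGroup_cj g h1, fun h => h2 (cj_eq_bot_iff.1 h), cj_normalizer g T⟩

theorem MaxLoc.conj {M : Subgroup G} (h : MaxLoc p M) (g : G) : MaxLoc p (cj g M) :=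
  ⟨h.1.conj g, fun L hL hle => by
    rw [← h.2 _ (hL.conj g⁻¹) (cj_le_iff.1 hle), cj_cj_inv]⟩

theorem MaxLoc.eq {M T : Subgroup G} (h : MaxLoc p M) (hT : IsPGroup p T) (h1 : T ≠ ⊥)
    (hn : M ≤ normalizer (T : Set G)) : normalizer (T : Set G) = M := h.2 _ ⟨T, hT, h1, rfl⟩ hn

theorem Loc.Op_ne_bot [Finite G] {M : Subgroup G} (h : Loc p M) : Op p M ≠ ⊥ := by
  obtain ⟨T, h1, h2, rfl⟩ := h
  exact fun h => h2 (eq_bot_iff.2 ((H44.le_pCoreOf le_normalizer le_rfl h1).trans h.le))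

theorem MaxLoc.normalizer_le [Finite G] {M : Subgroup G} (h : MaxLoc p M) :
    normalizer (M : Set G) ≤ M :=
  (H44.normalizer_le_normalizer_pCoreOf M).trans
    (h.eq (H44.pCoreOf_isPGroup M) h.1.Op_ne_bot (H44.le_normalizer_pCoreOf M)).le

theorem Loc.char (hloc : IsOfLocalCharacteristic p G) {M : Subgroup G} (h : Loc p M) :
    centralizer (pCore p M : Set M) ≤ pCore p M := by
  obtain ⟨T, h1, h2, rfl⟩ := h
  exact hloc.2 T h1 h2

theorem MaxLoc.prim [Finite G] [Fact p.Prime] (hloc : IsOfLocalCharacteristic p G) {M A : Subgroup G}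
    (h : MaxLoc p M) (hA : A ≠ ⊥) (hAM : A ≤ M) (hn : M ≤ normalizer (A : Set G)) :
    normalizer (A : Set G) ≤ M := by
  have h1 : Op p A ≠ ⊥ := by
    intro h0
    have h2 : A ⊓ Op p M ≤ Op p A :=
      H44.le_pCoreOf inf_le_left (le_normalizer_inf le_normalizer
        (hAM.trans (H44.le_normalizer_pCoreOf M))) ((H44.pCoreOf_isPGroup M).to_le inf_le_right)
    have h3 : ⁅A, Op p M⁆ = ⊥ := by
      rw [eq_bot_iff, ← h0]
      refine le_trans (le_inf ?_ ?_) h2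
      · exact H44.commutator_le_left_of_le_normalizer ((map_subtype_le _).trans hn)
      · exact H44.commutator_le_right_of_le_normalizer (hAM.trans (H44.le_normalizer_pCoreOf M))
    have h4 : A ≤ Op p M := fun a ha => by
      refine ⟨⟨a, hAM ha⟩, h.1.char hloc fun x hx => Subtype.ext ?_, rfl⟩
      exact commutator_eq_bot_iff_le_centralizer.1 h3 ha x ⟨x, hx, rfl⟩
    exact hA (eq_bot_iff.2 (((le_inf le_rfl h4).trans h2).trans h0.le))
  exact (H44.normalizer_le_normalizer_pCoreOf A).trans (h.eq (H44.pCoreOf_isPGroup A) h1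
    (hn.trans (H44.normalizer_le_normalizer_pCoreOf A))).le

theorem exists_common_sylow [Finite G] [Fact p.Prime] (T : Subgroup G) :
    IsPGroup p T → T ≠ ⊥ → ∀ M L, MaxLoc p M → MaxLoc p L → M ≠ L → T ≤ M → T ≤ L →
      ∃ M L S : Subgroup G, MaxLoc p M ∧ MaxLoc p L ∧ M ≠ L ∧ SylIn p S M ∧ SylIn p S L := by
  induction T using WellFoundedGT.induction with
  | _ T ih =>
  intro hT hT1 M L hM hL hne hTM hTL
  obtain ⟨U, hU, hNU⟩ := exists_maxLoc (p := p) ⟨T, hT, hT1, rfl⟩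
  have key : ∀ M, T ≤ M → ¬ SylIn p T M →
      ∃ R : Subgroup G, IsPGroup p R ∧ T < R ∧ R ≤ M ∧ R ≤ normalizer (T : Set G) := by
    intro M hTM hs
    obtain ⟨S, hS, hTS⟩ := exists_sylIn_ge hTM hT
    have hlt : T < S := lt_of_le_of_ne hTS fun h => hs (h ▸ hS)
    exact ⟨_, hS.pgroup.to_le inf_le_left, H46.lt_inf_normalizer_of_isPGroup hS.pgroup hlt,
      inf_le_left.trans hS.le, inf_le_right⟩
  have key2 : ∀ M L, MaxLoc p L → T ≤ M → ¬ SylIn p T M → SylIn p T L →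
      ∃ M L S : Subgroup G, MaxLoc p M ∧ MaxLoc p L ∧ M ≠ L ∧ SylIn p S M ∧ SylIn p S L := by
    intro M L hL hTM h1 h2
    obtain ⟨R, hR, hlt, -, hRN⟩ := key M hTM h1
    obtain ⟨x, hxR, hxT⟩ := SetLike.exists_of_lt hlt
    refine ⟨L, cj x L, T, hL, hL.conj x, fun h => hxT ?_, h2, ?_⟩
    · have hx : x ∈ L := hL.normalizer_le (cj_eq_self_iff.1 h.symm)
      rw [← h2.max (R ⊓ L) inf_le_right (hR.to_le inf_le_left) (le_inf hlt.le h2.le)]
      exact ⟨hxR, hx⟩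
    · have := h2.map (MulAut.conj x).toMonoidHom
      rwa [show T.map (MulAut.conj x).toMonoidHom = T from cj_eq_self (hRN hxR)] at this
  by_cases h1 : SylIn p T M
  · by_cases h2 : SylIn p T L
    · exact ⟨M, L, T, hM, hL, hne, h1, h2⟩
    · exact key2 L M hM hTL h2 h1
  · by_cases h2 : SylIn p T L
    · exact key2 M L hL hTM h1 h2
    · obtain ⟨R, hR, hlt, hRM, hRN⟩ := key M hTM h1
      obtain ⟨R', hR', hlt', hRM', hRN'⟩ := key L hTL h2
      by_cases hMU : M = U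
      · exact ih R' hlt' hR' (bot_le.trans_lt hlt').ne' L U hL hU (fun h => hne (hMU.trans h.symm))
          hRM' (hRN'.trans hNU)
      · exact ih R hlt hR (bot_le.trans_lt hlt).ne' M U hM hU hMU hRM (hRN.trans hNU)

/-- Two distinct subgroups M₁, M₂ of G form a primitive pair when, for {i, j} = {1, 2}, every non-trivial normal subgroup A of M_i contained in M₁ ∩ M₂ satisfies N_{M_j}(A) = M₁ ∩ M₂; the pair has characteristic p when moreover C_{M_i}(O_p(M_i)) ≤ O_p(M_i) for both i and O_p(M₁)O_p(M₂) ≤ M₁ ∩ M₂. Let G be a finite group, p a prime dividing its order, with O_p(G) = 1 and every p-local subgroup of characteristic p. Then either G has a primitive pair of characteristic p, or every maximal p-local subgroup M of G is strongly p-embedded in G: M is a proper subgroup, p divides its order, and for every g ∉ M the order of M ∩ gMg⁻¹ is prime to p. -/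
theorem result {G : Type*} [Group G] [Finite G] {p : ℕ} [Fact p.Prime] (hloc : Cfsg.IsOfLocalCharacteristic p G) (hOp : Cfsg.pCore p G = ⊥) : (∃ M₁ M₂ : Subgroup G, M₁ ≠ M₂ ∧ (∀ A : Subgroup G, A ≠ ⊥ → A ≤ M₁ ⊓ M₂ → (M₁ ≤ Subgroup.normalizer (A : Set G) → M₂ ⊓ Subgroup.normalizer (A : Set G) = M₁ ⊓ M₂) ∧ (M₂ ≤ Subgroup.normalizer (A : Set G) → M₁ ⊓ Subgroup.normalizer (A : Set G) = M₁ ⊓ M₂)) ∧ Subgroup.centralizer (Cfsg.pCore p ↥M₁ : Set ↥M₁) ≤ Cfsg.pCore p ↥M₁ ∧ Subgroup.centralizer (Cfsg.pCore p ↥M₂ : Set ↥M₂) ≤ Cfsg.pCore p ↥M₂ ∧ (Cfsg.pCore p ↥M₁).map M₁.subtype ⊔ (Cfsg.pCore p ↥M₂).map M₂.subtype ≤ M₁ ⊓ M₂) ∨ (∀ M : Subgroup G, (∃ T : Subgroup G, IsPGroup p T ∧ T ≠ ⊥ ∧ M = Subgroup.normalizer (T : Set G)) → (∀ L : Subgroup G, (∃ T : Subgroup G, IsPGroup p T ∧ T ≠ ⊥ ∧ L = Subgroup.normalizer (T : Set G)) → M ≤ L → L = M) → M ≠ ⊤ ∧ p ∣ Nat.card M ∧ ∀ g : G, g ∉ M → ¬ p ∣ Nat.card ↥(M ⊓ M.map (MulAut.conj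 g).toMonoidHom)) := by
  by_contra hcon
  rw [not_or] at hcon
  obtain ⟨hc1, hc2⟩ := hcon
  apply hc2
  intro M hM1 hM2
  have hM : MaxLoc p M := ⟨hM1, hM2⟩
  refine ⟨?_, ?_, fun g hg hd => hc1 ?_⟩
  · rintro rfl
    exact hM.1.Op_ne_bot (H44.pCoreOf_top.trans hOp)
  · obtain ⟨k, hk⟩ := (H44.pCoreOf_isPGroup (p := p) M).exists_card_eq
    have hk0 : k ≠ 0 := by
      rintro rfl
      exact hM.1.Op_ne_bot (Subgroup.eq_bot_of_card_eq _ (by simpa using hk))
    exact ((dvd_pow_self p hk0).trans hk.symm.dvd).trans (card_dvd_of_le (map_subtype_le _))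
  · obtain ⟨T, hT⟩ := exists_sylIn p (M ⊓ cj g M)
    have hT1 : T ≠ ⊥ := by
      rintro rfl
      exact hT.not_dvd_relIndex (by rwa [relIndex_bot_left])
    obtain ⟨M₁, M₂, S, h1, h2, hne, s1, s2⟩ := exists_common_sylow T hT.pgroup hT1 M (cj g M) hM
      (hM.conj g) (fun h => hg (hM.normalizer_le (cj_eq_self_iff.1 h.symm)))
      (hT.le.trans inf_le_left) (hT.le.trans inf_le_right)
    refine ⟨M₁, M₂, hne, fun A hA hle => ⟨fun hn => ?_, fun hn => ?_⟩, h1.1.char hloc,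
      h2.1.char hloc, le_trans (sup_le ?_ ?_) (le_inf s1.le s2.le)⟩
    · rw [le_antisymm (h1.prim hloc hA (hle.trans inf_le_left) hn) hn, inf_comm]
    · rw [le_antisymm (h2.prim hloc hA (hle.trans inf_le_right) hn) hn]
    · exact s1.le_of_normal (map_subtype_le _) (H44.pCoreOf_isPGroup _) (H44.le_normalizer_pCoreOf _)
    · exact s2.le_of_normal (map_subtype_le _) (H44.pCoreOf_isPGroup _) (H44.le_normalizer_pCoreOf _)

end Cfsg.Agent.S3751
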