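import Cfsg.Statements.S3753
import Cfsg.Agent.H4.PP1

set_option autoImplicit false
open Cfsg

namespace Cfsg.Agent.S3753

open Subgroup Cfsg.Agent.H70 Cfsg.Agent.H92 Cfsg.Agent.H4

theorem cj_comm {G : Type*} [Group G] [Finite G] {M : Subgroup G}
    (h : ∀ T : Sylow 2 M, IsMulCommutative (T : Subgroup M)) (g : G) (T : Sylow 2 (cj g M)) :
    IsMulCommutative (T : Subgroup (cj g M)) :=
  H21.isMulCommutative_sylow_of_injective (h default)
    (f := (M.equivMapOfInjective _ (MulAut.conj g).injective).symm.toMonoidHom)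
    (MulEquiv.injective _) T

theorem le_q {G : Type*} [Group G] [Finite G] {M R : Subgroup G} (hc : IsChar 2 M)
    (h : ∀ T : Sylow 2 M, IsMulCommutative (T : Subgroup M)) (h1 : R ≤ M) (h2 : IsPGroup 2 R) :
    R ≤ pCoreOf 2 M := by
  obtain ⟨T, hT, hR⟩ := exists_sylIn_ge h1 h2
  have h3 := isMulCommutative_iff_le_cent.1 (h hT.toSylow)
  rw [← map_subtype_le_map_subtype_iff, map_subtype_centralizer, SylIn.coe_toSylow,
    map_subtype_subgroupOf hT.le] at h3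
  exact hR.trans ((le_inf hT.le ((h3.trans inf_le_right).trans
    (cent_anti (pCoreOf_le_sylIn hT)))).trans hc)

/-- Two distinct subgroups M₁, M₂ of G form a primitive pair when, for {i, j} = {1, 2}, every non-trivial normal subgroup A of M_i contained in M₁ ∩ M₂ satisfies N_{M_j}(A) = M₁ ∩ M₂; the pair has characteristic p when moreover C_{M_i}(O_p(M_i)) ≤ O_p(M_i) for both i and O_p(M₁)O_p(M₂) ≤ M₁ ∩ M₂. If the finite group G has a primitive pair (M₁, M₂) of characteristic p for some prime p, then M₁ or M₂ has non-abelian Sylow 2-subgroups. In particular no group of odd order has a primitive pair of characteristic p. -/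
theorem result {G : Type*} [Group G] [Finite G] {p : ℕ} [Fact p.Prime] (M₁ M₂ : Subgroup G) (hne : M₁ ≠ M₂) (hP : ∀ A : Subgroup G, A ≠ ⊥ → A ≤ M₁ ⊓ M₂ → (M₁ ≤ Subgroup.normalizer (A : Set G) → M₂ ⊓ Subgroup.normalizer (A : Set G) = M₁ ⊓ M₂) ∧ (M₂ ≤ Subgroup.normalizer (A : Set G) → M₁ ⊓ Subgroup.normalizer (A : Set G) = M₁ ⊓ M₂)) (hc₁ : Subgroup.centralizer (Cfsg.pCore p ↥M₁ : Set ↥M₁) ≤ Cfsg.pCore p ↥M₁) (hc₂ : Subgroup.centralizer (Cfsg.pCore p ↥M₂ : Set ↥M₂) ≤ Cfsg.pCore p ↥M₂) (hO : (Cfsg.pCore p ↥M₁).map M₁.subtype ⊔ (Cfsg.pCore p ↥M₂).map M₂.subtype ≤ M₁ ⊓ M₂) : (∃ S : Sylow 2 ↥M₁, ¬ IsMulCommutative (S : Subgroup ↥M₁)) ∨ (∃ S : Sylow 2 ↥M₂, ¬ IsMulCommutative (S : Subgroup ↥M₂)) := by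
  by_contra hn
  push Not at hn
  have h := pp_of (P := fun U => ∀ T : Sylow 2 U, IsMulCommutative (T : Subgroup U)) hne hP hc₁ hc₂
    hO (cj_comm hn.1) (cj_comm hn.2)
  by_cases hp : p = 2
  · subst hp
    have e : pCoreOf 2 M₁ = pCoreOf 2 M₂ :=
      le_antisymm (le_q h.c2 hn.2 h.q1 (pCoreOf_isPGroup _)) (le_q h.c1 hn.1 h.q2 (pCoreOf_isPGroup _))
    have h1 : pCoreOf 2 M₁ ≤ M₁ ⊓ M₂ := le_inf (pCoreOf_le _) h.q1
    have h2 : M₂ ≤ normalizer (pCoreOf 2 M₁ : Set G) := e ▸ le_norm_pCoreOf M₂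
    exact hne (le_antisymm
      ((le_inf le_rfl (le_norm_pCoreOf M₁)).trans (h.p2 _ h.q_ne_bot h1 h2))
      ((le_inf le_rfl h2).trans (h.p1 _ h.q_ne_bot h1 (le_norm_pCoreOf M₁))))
  · exact h.not_stable fun U a => H21.quadStable_of_sylow_two_comm hp (a default)

end Cfsg.Agent.S3753
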