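import Cfsg.Statements.S3754
import Cfsg.Agent.H4.PP0
import Cfsg.Agent.H1.Frattini

set_option autoImplicit false
open Cfsg

namespace Cfsg.Agent.S3754

open Subgroup Cfsg.Agent.H70 Cfsg.Agent.H4

/-- Let M be a finite p-soluble group and A a p-subgroup of M with Φ(A) ≤ O_p(M) but A ≰ O_p(M). Then there is x ∈ O_{p,p'}(M) such that L = ⟨A, xAx⁻¹⟩ satisfies: x ∈ O^p(L) and O^p(L) ≤ O_{p,p'}(M); [O^p(L), A] = O^p(L); A ∩ O_p(L) has index p in A; and [A ∩ O_p(L), L] ≤ O_p(M). Here O^p(L) is the subgroup generated by the p'-elements of L and O_{p,p'}(M) the preimage of O_{p'}(M/O_p(M)). -/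
theorem result {M : Type*} [Group M] [Finite M] {p : ℕ} [Fact p.Prime] (hM : Cfsg.IsPSolvable p M) (A : Subgroup M) (hA : IsPGroup p A) (hΦ : (frattini ↥A).map A.subtype ≤ Cfsg.pCore p M) (hnot : ¬ A ≤ Cfsg.pCore p M) : ∃ x ∈ (Cfsg.pPrimeCore p (M ⧸ Cfsg.pCore p M)).comap (QuotientGroup.mk' (Cfsg.pCore p M)), x ∈ (Cfsg.pResidual p ↥(A ⊔ A.map (MulAut.conj x).toMonoidHom)).map (A ⊔ A.map (MulAut.conj x).toMonoidHom).subtype ∧ (Cfsg.pResidual p ↥(A ⊔ A.map (MulAut.conj x).toMonoidHom)).map (A ⊔ A.map (MulAut.conj x).toMonoidHom).subtype ≤ (Cfsg.pPrimeCore p (M ⧸ Cfsg.pCore p M)).comap (QuotientGroup.mk' (Cfsg.pCore p M)) ∧ ⁅(Cfsg.pResidual p ↥(A ⊔ A.map (MulAut.conj x).toMonoidHom)).map (A ⊔ A.map (MulAut.conj x).toMonoidHom).subtype, A⁆ = (Cfsg.pResidual p ↥(A ⊔ A.map (MulAut.conj x).toMonoidHom)).map (A ⊔ A.map (MulAut.conj x).toMonoidHom).subtype ∧ (A ⊓ (Cfsg.pCore p ↥(A ⊔ A.map (MulAut.conj x).toMonoidHom)).map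 (A ⊔ A.map (MulAut.conj x).toMonoidHom).subtype).relIndex A = p ∧ ⁅A ⊓ (Cfsg.pCore p ↥(A ⊔ A.map (MulAut.conj x).toMonoidHom)).map (A ⊔ A.map (MulAut.conj x).toMonoidHom).subtype, A ⊔ A.map (MulAut.conj x).toMonoidHom⁆ ≤ Cfsg.pCore p M := by
  have hk := QuotientGroup.ker_mk' (pCore p M)
  obtain ⟨A₀, x, h, hF⟩ := exists_ll (QuotientGroup.mk' (pCore p M))
    (F := pPrimeCore p (M ⧸ pCore p M)) hA ⟨isMulCommutative_iff_le_cent.2 (by
      rw [← comm_eq_bot_iff, ← map_commutator, Subgroup.map_eq_bot_iff, hk]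
      refine le_trans ?_ ((map_mono (H1.commutator_le_frattini hA)).trans hΦ)
      rw [_root_.commutator_def, map_commutator, map_subtype_top]), by
      rintro _ ⟨a, ha, rfl⟩
      rw [← map_pow, ← MonoidHom.mem_ker, hk]
      exact hΦ ⟨_, H1.pow_mem_frattini hA ⟨a, ha⟩, rfl⟩⟩ H44.pPrimeCore_coprime norm_of_normal
    (by rw [QuotientGroup.range_mk']; exact le_top) fun a => hnot (by
      have := (H44.disjoint_of_isPGroup_of_coprime (hA.map _) H44.pPrimeCore_coprime).eq_bot_of_le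
        ((cent_comm.1 a).trans (H22.IsPSolvable.centralizer_pPrimeCore_le
          (H22.IsPSolvable.quotient hM _) H44.pCore_quotient_pCore))
      rwa [Subgroup.map_eq_bot_iff, hk] at this)
  rw [hk] at h
  have hle : A₀ ≤ pCoreOf p (A ⊔ cj x A) := by
    have n : A ⊔ cj x A ≤ normalizer ((pCore p M ⊓ (A ⊔ cj x A) : Subgroup M) : Set M) :=
      norm_inf norm_of_normal le_normalizer
    have hA0 := h.le.trans (le_sup_left : A ≤ A ⊔ cj x A)
    refine le_sup_left.trans (le_pCoreOf (N := A₀ ⊔ (pCore p M ⊓ (A ⊔ cj x A)))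
      (sup_le hA0 inf_le_right) (norm_of_commutator_le (comm_sup_le
        (norm_of_le le_sup_left) (norm_of_le le_sup_right)
        ((le_inf h.cent ((commutator_mono hA0 le_rfl).trans (commutator_le_self _))).trans
          le_sup_right) ((commutator_le_left_of_norm n).trans le_sup_right)))
      (isPGroup_sup_of_norm (hA.to_le h.le) pCore_isPGroup.to_inf_left (hA0.trans n)))
  have e : A ⊓ pCoreOf p (A ⊔ cj x A) = A₀ := by
    refine (eq_or_eq_of_relIndex_prime Fact.out h.idx (le_inf h.le hle) inf_le_left).resolve_right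
      fun a => h.nle (pRes_le_of_isPGroup ((pCoreOf_isPGroup (A ⊔ cj x A)).to_le ?_))
    exact sup_le (inf_eq_left.1 a)
      (cj_le_of_mem_norm (le_norm_pCoreOf _ (pRes_le _ h.mem)) (inf_eq_left.1 a))
  exact ⟨x, hF h.mem, h.mem, hF, h.comm, e.symm ▸ h.idx, e.symm ▸ h.cent⟩

end Cfsg.Agent.S3754
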