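import Cfsg.Statements.S3755
import Cfsg.Agent.H4.PP0

set_option autoImplicit false
open Cfsg

namespace Cfsg.Agent.S3755

open Subgroup Cfsg.Agent.H70 Cfsg.Agent.H4

/-- Let M and V be subgroups of a finite group with V an elementary abelian 2-group, M normalizing V and acting faithfully on it (M ∩ C(V) = 1), and C_M(O_{2'}(M)) ≤ O_{2'}(M). If some elementary abelian 2-subgroup A of M satisfies |V : C_V(A)| < |A|², then M has a section isomorphic to the symmetric group of degree 3. -/
theorem result {X : Type*} [Group X] [Finite X] (M V : Subgroup X) (hV : Cfsg.IsElementaryAbelian 2 V) (hMV : M ≤ Subgroup.normalizer (V : Set X)) (hfaith : M ⊓ Subgroup.centralizer (V : Set X) = ⊥) (hcon : Subgroup.centralizer (Cfsg.pPrimeCore 2 ↥M : Set ↥M) ≤ Cfsg.pPrimeCore 2 ↥M) (A : Subgroup X) (hAM : A ≤ M) (hA : Cfsg.IsElementaryAbelian 2 A) (hsmall : (V ⊓ Subgroup.centralizer (A : Set X)).relIndex V < Nat.card A ^ 2) : Cfsg.Involves (Equiv.Perm (Fin 3)) ↥M := by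
  by_contra h3
  have e : (centralizer (V : Set X)).subgroupOf M = ⊥ := by
    rw [subgroupOf_eq_bot, disjoint_iff, inf_comm, hfaith]
  haveI := normal_subgroupOf_of_le_normalizer (norm_centralizer hMV)
  have h := ix_sq_le_of_isPGroup (M := M) (by
    let f := QuotientGroup.quotientMulEquivOfEq e |>.trans QuotientGroup.quotientBot
    rw [← H44.map_pPrimeCore_equiv f.symm]
    intro x hx
    refine ⟨f x, hcon fun y hy => ?_, f.symm_apply_apply x⟩
    simpa using congrArg f (hx _ ⟨y, hy, rfl⟩)) hV hMV h3 _ A rfl hAM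
    (IsElementaryAbelian_isPGroup hA) fun a ha => by rw [← pow_two, hA.2 a ha]; exact one_mem _
  rw [inf_relIndex_left] at hsmall
  have e2 : ix A V = Nat.card A := by
    rw [ix, ← inf_relIndex_left, le_bot_iff.1 ((inf_le_inf_right _ hAM).trans hfaith.le),
      relIndex_bot_left]
  rw [e2] at h
  exact absurd hsmall (not_lt.2 h)

end Cfsg.Agent.S3755
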