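import Cfsg.Statements.S3760
import Cfsg.Agent.H79.Conj

set_option autoImplicit false
open Cfsg

namespace Cfsg.Agent.S3760

open Cfsg.Agent.H79

/-- Let the group G act transitively on a set X, let x ∈ X with stabilizer H = G_x, and let K ≤ H. Then N_G(K) acts transitively on the set of fixed points of K if and only if every G-conjugate of K contained in H is already an H-conjugate of K. -/
theorem result {G : Type*} [Group G] {X : Type*} [MulAction G X] (htrans : ∀ a b : X, ∃ g : G, g • a = b) (x : X) (K : Subgroup G) (hK : K ≤ MulAction.stabilizer G x) : (∀ a b : X, (∀ k ∈ K, k • a = a) → (∀ k ∈ K, k • b = b) → ∃ g ∈ Subgroup.normalizer (K : Set G), g • a = b) ↔ ∀ g : G, K.map (MulAut.conj g).toMonoidHom ≤ MulAction.stabilizer G x → ∃ h ∈ MulAction.stabilizer G x, K.map (MulAut.conj g).toMonoidHom = K.map (MulAut.conj h).toMonoidHom := by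
  constructor
  · intro h g hg
    have h1 : ∀ k ∈ K, k • (g⁻¹ • x) = g⁻¹ • x := by
      intro k hk
      have := hg (conj_mem_cj (g := g) hk)
      rw [MulAction.mem_stabilizer_iff] at this
      rw [← mul_smul, eq_inv_smul_iff, ← mul_smul, ← mul_assoc]; exact this
    obtain ⟨n, hn, hnx⟩ := h x (g⁻¹ • x) (fun k hk => hK hk) h1
    refine ⟨g * n, ?_, ?_⟩
    · rw [MulAction.mem_stabilizer_iff, mul_smul, hnx, smul_inv_smul]
    · change cj g K = cj (g * n) K
      rw [cj_mul, cj_eq_self hn]
  · intro h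
    have key : ∀ a : X, (∀ k ∈ K, k • a = a) → ∃ g ∈ Subgroup.normalizer (K : Set G), g • x = a := by
      intro a ha
      obtain ⟨g, hg⟩ := htrans a x
      have h1 : cj g K ≤ MulAction.stabilizer G x := by
        rintro _ ⟨k, hk, rfl⟩
        rw [MulAction.mem_stabilizer_iff, ← hg]
        simp [mul_smul, ha k hk]
      obtain ⟨t, ht, htK⟩ := h g h1
      refine ⟨g⁻¹ * t, ?_, ?_⟩
      · rw [← cj_eq_self_iff, cj_mul]
        change cj g K = cj t K at htK
        rw [← htK, cj_inv_cj]
      · rw [mul_smul, ht, ← hg, inv_smul_smul]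
    intro a b ha hb
    obtain ⟨g, hg, hga⟩ := key a ha
    obtain ⟨g', hg', hgb⟩ := key b hb
    exact ⟨g' * g⁻¹, mul_mem hg' (inv_mem hg), by rw [mul_smul, ← hga, inv_smul_smul, hgb]⟩

end Cfsg.Agent.S3760
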