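import Cfsg.Statements.S3764
import Cfsg.Agent.H79.Fth

set_option autoImplicit false
open Cfsg

namespace Cfsg.Agent.S3764

open H79 H49 Subgroup
open scoped commutatorElement

/-- Let p, q, r be distinct primes and let X, Q, V be subgroups of a finite group with X of order r, Q an extraspecial q-group normalized by X with C_Q(X) = Z(Q), and V an elementary abelian p-group normalized by X and Q on which XQ acts faithfully ((X ⊔ Q) ∩ C(V) = 1). If C_V(X) = 1, then q = 2, r = 2^n + 1 for some n, and Q has order 2^(2n+1). -/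
theorem result {G : Type*} [Group G] [Finite G] {p q r : ℕ} (hp : p.Prime) (hq : q.Prime) (hr : r.Prime) (hpq : p ≠ q) (hpr : p ≠ r) (hqr : q ≠ r) (X Q V : Subgroup G) (hX : Nat.card X = r) (hQ : Cfsg.IsExtraspecial q ↥Q) (hXQ : X ≤ Subgroup.normalizer (Q : Set G)) (hCQ : Q ⊓ Subgroup.centralizer (X : Set G) = (Subgroup.center ↥Q).map Q.subtype) (hV : Cfsg.IsElementaryAbelian p V) (hXV : X ≤ Subgroup.normalizer (V : Set G)) (hQV : Q ≤ Subgroup.normalizer (V : Set G)) (hfaith : (X ⊔ Q) ⊓ Subgroup.centralizer (V : Set G) = ⊥) (hCV : V ⊓ Subgroup.centralizer (X : Set G) = ⊥) : q = 2 ∧ ∃ n : ℕ, r = 2 ^ n + 1 ∧ Nat.card Q = 2 ^ (2 * n + 1) := by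
  haveI := Fact.mk hp
  haveI := Fact.mk hq
  obtain ⟨s, rfl, hs1, hsr⟩ := exists_gen_of_card_prime hr hX
  rw [cent_zpowers] at hCV hCQ
  obtain ⟨W, _, _, _, ρ, hρ, -, h0⟩ := exists_faithful_lin hV (sup_le hXV hQV) hfaith
  let t : ↥(zpowers s ⊔ Q) := ⟨s, mem_sup_left (mem_zpowers s)⟩
  have ht : t ^ r ^ (0 + 1) = 1 := Subtype.ext (by simpa using hsr)
  have hs := hXQ (mem_zpowers s)
  let ρ' := ρ.comp (inclusion (le_sup_right : Q ≤ zpowers s ⊔ Q))
  have hρ' : Function.Injective ρ' := hρ.comp (inclusion_injective _)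
  have hqK := natCast_ne_zero_of_coprime ((Nat.coprime_primes hq hp).2 hpq.symm)
  haveI := Fintype.ofFinite Q
  obtain ⟨⟨z, hz, hz1⟩, hZ⟩ := IsExtraspecial.exists_center hq hQ
  obtain ⟨U, hU, hU0, hUi, hne⟩ := exists_irr_ne ρ' (card_ne_zero_of_pgroup hq hqK hQ.1.1)
    (fun h => hz1 (hρ' h))
  have h1 : ∀ w ∈ center Q, hU.res w = 1 → w = 1 := fun w hw =>
    eq_one_of_card_prime hq hQ.2 _ hz (by rwa [map_one] at hne) hw
  have h2 := rad_eq_center hQ.1.2.2.le h1
  obtain ⟨e, k, m, hek, -, hm, hpk, -, hi⟩ := amb_core (n := 0) hr hq hqr.symm hQ.1.1 hqK ρ' hs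
    (by simpa using hsr) (a := ρ t) (fun g => by
      simp only [ρ', MonoidHom.comp_apply, ← map_mul]
      exact congrArg ρ (Subtype.ext (by simp [t, coe_cjAut])))
    (by rw [← map_pow, ht, map_one]) (h0 t _ ht hCV) hU hU0 hUi
    (fun g k => h2 ▸ hQ.1.2.2.le (commutator_mem_commutator trivial trivial))
    (by
      rw [pow_zero, pow_one, hCQ]
      rintro _ ⟨g, hg, rfl⟩
      exact coe_mem_radS.2 (h2 ▸ hg))
    (by
      by_contra h
      push Not at h
      rw [pow_zero, pow_one] at h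
      refine hZ (eq_top_iff.2 fun g _ => ?_)
      have h3 : hU.res (g⁻¹ * cjAut Q hs g) = 1 := by rw [map_mul, h, ← map_mul]; simp
      have h4 := h1 _ (h2 ▸ mem_rad_of_eq_smul (c := 1) (by rw [h3, one_smul])) h3
      obtain ⟨w, hw, e⟩ := hCQ.le ⟨g.2, mem_cent1.2 (eq_mul_inv_iff_mul_eq.1
        (congrArg Subtype.val (inv_mul_eq_one.1 h4)))⟩
      rwa [← show w = g from Subtype.ext e])
  rw [show k = 0 by omega, zero_add, pow_one] at hpk
  obtain rfl := eq_two_of_prime_eq_pow_add_one hr hq hm hpk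
  refine ⟨rfl, m, hpk, ?_⟩
  rw [← (center Q).card_mul_index, hQ.2, ← h2, hi, pow_succ']

end Cfsg.Agent.S3764
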