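import Cfsg.Statements.S3765
import Cfsg.Agent.H79.Fth

set_option autoImplicit false
open Cfsg

namespace Cfsg.Agent.S3765

open H79 H49 Subgroup

/-- Let p, q, r be distinct primes and let X, Q, V be subgroups of a finite group with X of order r normalizing the q-group Q and acting faithfully on it (X ∩ C(Q) = 1), and V a nontrivial elementary abelian p-group normalized by X and Q on which XQ acts faithfully. If q = 2 and r has the form 2^n + 1, assume in addition that Q is abelian. Then C_V(X) ≠ 1. -/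
theorem result {G : Type*} [Group G] [Finite G] {p q r : ℕ} (hp : p.Prime) (hq : q.Prime) (hr : r.Prime) (hpq : p ≠ q) (hpr : p ≠ r) (hqr : q ≠ r) (X Q V : Subgroup G) (hX : Nat.card X = r) (hQ : IsPGroup q Q) (hXQ : X ≤ Subgroup.normalizer (Q : Set G)) (hXfaith : X ⊓ Subgroup.centralizer (Q : Set G) = ⊥) (hV : Cfsg.IsElementaryAbelian p V) (hV1 : V ≠ ⊥) (hXV : X ≤ Subgroup.normalizer (V : Set G)) (hQV : Q ≤ Subgroup.normalizer (V : Set G)) (hfaith : (X ⊔ Q) ⊓ Subgroup.centralizer (V : Set G) = ⊥) (hexc : q = 2 → (∃ n : ℕ, r = 2 ^ n + 1) → IsMulCommutative Q) : V ⊓ Subgroup.centralizer (X : Set G) ≠ ⊥ := by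
  intro hC
  haveI := Fact.mk hp
  haveI := Fact.mk hq
  obtain ⟨s, rfl, hs1, hsr⟩ := exists_gen_of_card_prime hr hX
  rw [cent_zpowers] at hC
  obtain ⟨W, _, _, _, ρ, hρ, -, h0⟩ := exists_faithful_lin hV (sup_le hXV hQV) hfaith
  let t : ↥(zpowers s ⊔ Q) := ⟨s, mem_sup_left (mem_zpowers s)⟩
  have ht : t ^ r ^ (0 + 1) = 1 := Subtype.ext (by simpa using hsr)
  have hQ' : IsPGroup q (Q.subgroupOf (zpowers s ⊔ Q)) := hQ.comap_subtype
  obtain ⟨q', Q', hs', U, hU, hq', hqN, hQN, hQ2, -, -, -, -, -, -, e, k, m, hek, -, hm,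
    hpk, -, hi⟩ := exists_exc ρ hρ hr (mem_norm_subgroupOf (s := t) (hXQ (mem_zpowers s))) ht
    (coprime_of_pgroup hr hq hqr.symm hQ')
    (natCast_ne_zero_of_coprime (coprime_of_pgroup hp hq hpq hQ')) (h0 t _ ht hC) fun h => hs1
      (hXfaith.le ⟨mem_zpowers s, fun g hg => by
        simpa using congrArg Subtype.val (h ⟨g, mem_sup_right hg⟩ hg)⟩)
  obtain ⟨j, hj⟩ := IsPGroup.iff_card.1 hQ'
  obtain rfl := (Nat.prime_dvd_prime_iff_eq hq' hq).1 (hq'.dvd_of_dvd_pow (hj ▸ hqN))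
  rw [show k = 0 by omega, zero_add, pow_one] at hpk
  obtain rfl := eq_two_of_prime_eq_pow_add_one hr hq hm hpk
  have hc := hexc rfl ⟨m, hpk⟩
  rw [rad_eq_top_of_comm (abelian_iff.2 fun a ha b hb => Subtype.ext
    (abelian_iff.1 hc (hQN ha) b (hQN hb))), index_top] at hi
  exact (Nat.one_lt_pow (by omega) hq.one_lt).ne hi

end Cfsg.Agent.S3765
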