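import Cfsg.Statements.S3766
import Cfsg.Agent.H79.Sec

set_option autoImplicit false
open Cfsg

namespace Cfsg.Agent.S3766

open H79 H49 Subgroup
open scoped commutatorElement

/-- Let G be a finite solvable group and N a normal subgroup of G. Call a pair V < U of normal subgroups of G a chief factor of G when no normal subgroup of G lies strictly between them; an element g centralizes the chief factor U/V when u g u⁻¹ g⁻¹ ∈ V for all u ∈ U. Then an element of G lies in the Fitting subgroup F(N) if and only if it lies in N and centralizes every chief factor of G; and also if and only if it lies in N and centralizes every chief factor U/V of G with U ≤ F(N). -/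
theorem result {G : Type*} [Group G] [Finite G] (hG : Group.IsSolvable G) (N : Subgroup G) [N.Normal] (g : G) : (g ∈ (Cfsg.fittingSubgroup ↥N).map N.subtype ↔ g ∈ N ∧ ∀ U V : Subgroup G, (U.Normal ∧ V.Normal ∧ V < U ∧ ∀ W : Subgroup G, W.Normal → V ≤ W → W ≤ U → W = V ∨ W = U) → ∀ u ∈ U, u * g * u⁻¹ * g⁻¹ ∈ V) ∧ (g ∈ (Cfsg.fittingSubgroup ↥N).map N.subtype ↔ g ∈ N ∧ ∀ U V : Subgroup G, (U.Normal ∧ V.Normal ∧ V < U ∧ ∀ W : Subgroup G, W.Normal → V ≤ W → W ≤ U → W = V ∨ W = U) → U ≤ (Cfsg.fittingSubgroup ↥N).map N.subtype → ∀ u ∈ U, u * g * u⁻¹ * g⁻¹ ∈ V) := by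
  have h1 : g ∈ fittingOf N → ∀ U V : Subgroup G, IsChiefFactor U V →
      ∀ u ∈ U, u * g * u⁻¹ * g⁻¹ ∈ V := fun hg U V h u hu =>
    BG.l1_2a (M := ⊤) inferInstance ⟨le_top, le_normalizer_of_normal⟩ (isChief_top_iff.2 h)
      (commutator_mem_commutator hu hg)
  have h2 : g ∈ N → (∀ U V : Subgroup G, (U.Normal ∧ V.Normal ∧ V < U ∧
      ∀ W : Subgroup G, W.Normal → V ≤ W → W ≤ U → W = V ∨ W = U) → U ≤ fittingOf N →
      ∀ u ∈ U, u * g * u⁻¹ * g⁻¹ ∈ V) → g ∈ fittingOf N := fun hg h =>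
    mem_fitting_of_chief hG hg fun U V hc hU u hu => by
      rw [← commutatorElement_inv]
      exact V.inv_mem (h U V ⟨hc.2.1, hc.2.2.1, hc.1, hc.2.2.2⟩ hU u hu)
  exact ⟨⟨fun h => ⟨fittingOf_le N h, fun U V hc => h1 h U V ⟨hc.2.2.1, hc.1, hc.2.1, hc.2.2.2⟩⟩,
    fun h => h2 h.1 fun U V hc _ => h.2 U V hc⟩, ⟨fun h => ⟨fittingOf_le N h, fun U V hc _ =>
      h1 h U V ⟨hc.2.2.1, hc.1, hc.2.1, hc.2.2.2⟩⟩, fun h => h2 h.1 h.2⟩⟩

end Cfsg.Agent.S3766
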