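import Cfsg.Statements.S3767
import Cfsg.Agent.H79.Dade
import Cfsg.Agent.H79.Fth

set_option autoImplicit false
open Cfsg

namespace Cfsg.Agent.S3767

open H79 H49 Subgroup
open scoped commutatorElement

/-- Let P be an extraspecial p-group of order p^(2n+1) and H a cyclic group of order h prime to p acting on P (inside a common finite group: H normalizes P) so that C_P(x) = Z(P) for every non-identity x ∈ H. Then h divides p^n + 1 or h divides p^n − 1. -/
theorem result {G : Type*} [Group G] [Finite G] {p : ℕ} [Fact p.Prime] (P H : Subgroup G) (hP : Cfsg.IsExtraspecial p ↥P) (n : ℕ) (hn : Nat.card P = p ^ (2 * n + 1)) (hH : IsCyclic H) (hcop : (Nat.card H).Coprime p) (hHP : H ≤ Subgroup.normalizer (P : Set G)) (hfix : ∀ x ∈ H, x ≠ 1 → P ⊓ Subgroup.centralizer {x} = (Subgroup.center ↥P).map P.subtype) : Nat.card H ∣ p ^ n + 1 ∨ Nat.card H ∣ p ^ n - 1 := by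
  have hp : p.Prime := Fact.out
  obtain ⟨W, _, _, _, ρ, hρ⟩ := exists_faithful_rep ℂ P
  haveI := Fintype.ofFinite P
  have hK := card_ne_zero_of_pgroup (K := ℂ) hp (by exact_mod_cast hp.ne_zero) hP.1.1
  obtain ⟨⟨z, hz, hz1⟩, hZ⟩ := IsExtraspecial.exists_center hp hP
  obtain ⟨U, hU, hU0, hUi, hne⟩ := exists_irr_ne ρ hK (fun h => hz1 (hρ h))
  haveI : Nontrivial U := Submodule.nontrivial_iff_ne_bot.2 hU0
  have h1 : ∀ w ∈ center P, hU.res w = 1 → w = 1 := fun w hw =>
    eq_one_of_card_prime hp hP.2 _ hz (by rwa [map_one] at hne) hw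
  have h2 := rad_eq_center hP.1.2.2.le h1
  have hcl : ∀ g k : P, ⁅g, k⁆ ∈ rad hU.res := fun g k =>
    h2 ▸ hP.1.2.2.le (commutator_mem_commutator trivial trivial)
  have hd : Module.finrank ℂ U = p ^ n := by
    have := hUi.index_rad hK hcl
    have h3 := (center P).card_mul_index
    rw [hP.2, hn, ← h2, this, pow_succ' p, mul_comm 2, pow_mul] at h3
    exact Nat.pow_left_injective two_ne_zero (Nat.eq_of_mul_eq_mul_left hp.pos h3)
  obtain ⟨⟨s, hs⟩, hgen⟩ := hH.exists_generator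
  have ho : orderOf s = Nat.card H := by
    rw [← orderOf_eq_card_of_forall_mem_zpowers hgen, Subgroup.orderOf_mk]
  have hα := cjAut_pow_eq_one (hHP hs) (pow_orderOf_eq_one s)
  by_cases hs1 : s = 1
  · rw [← ho, hs1, orderOf_one]; exact .inl (one_dvd _)
  obtain ⟨b, hb, hb'⟩ := hUi.exists_op (hUi.mem_isoStab_of_rad hK hcl (β := cjAut P (hHP hs))
    fun g hg => congrArg _ (Subtype.ext (mul_inv_eq_iff_eq_mul.2 (mem_cent1.1
      ((hfix s hs hs1).ge ⟨g, h2 ▸ hg, rfl⟩).2).symm))) (orderOf_pos s).ne' fun g => by rw [hα]; rfl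
  rw [← ho, ← hd]
  refine hUi.dade hK hcl hb' (by exact_mod_cast (orderOf_pos s).ne') hb hα fun g i h0 hi hg => ?_
  have hR : radS hU.res = (center P).map P.subtype := by rw [radS, h2]
  have hsi := pow_mem hs i
  have h3 := hfix _ hsi (pow_ne_one_of_lt_orderOf h0.ne' hi)
  rw [cjAut_pow] at hg
  obtain ⟨r, hr, h⟩ := lift_cent1 (R := radS hU.res) (hHP hsi)
    (hR ▸ H50.norm_le_norm_of_char _ (hHP hsi)) (by
      rw [hR, card_map_of_injective P.subtype_injective, hP.2]
      exact hcop.coprime_dvd_left (Subgroup.orderOf_dvd_natCard _ hsi)) g.2 (coe_mem_radS.2 hg)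
  exact coe_mem_radS.1 (((radS hU.res).mul_mem_cancel_right hr.1).1
    (hR ▸ h3.le ⟨mul_mem g.2 hr.2, h⟩))

end Cfsg.Agent.S3767
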