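import Cfsg.Statements.S3768
import Cfsg.Agent.H79.Sec
import Cfsg.Agent.H6.GagFrob
import Cfsg.Agent.H81.FrobKit

set_option autoImplicit false
open Cfsg

namespace Cfsg.Agent.S3768

open H79 H49 Subgroup

/-- Let G be a finite Frobenius group with Frobenius complement R and Frobenius kernel K (the identity together with the elements in no conjugate of R), and let N be a normal subgroup of G not containing K. Then G/N is a Frobenius group with Frobenius complement RN/N whose Frobenius kernel is the image of K. -/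
theorem result {G : Type*} [Group G] [Finite G] (R : Subgroup G) (hR : Cfsg.IsFrobeniusComplement R) (N : Subgroup G) [N.Normal] (hKN : ¬ Cfsg.frobeniusKernel R ⊆ N) : Cfsg.IsFrobeniusComplement (R.map (QuotientGroup.mk' N)) ∧ Cfsg.frobeniusKernel (R.map (QuotientGroup.mk' N)) = QuotientGroup.mk' N '' Cfsg.frobeniusKernel R := by
  obtain ⟨K, hK, -, -⟩ := S0035.result R hR
  obtain ⟨hKn, hc, -, hcop, h1, h2⟩ := H81.frob_kit hR hK.symm
  rw [← hK] at hKN ⊢
  let π := QuotientGroup.mk' N
  have hπ := QuotientGroup.mk'_surjective N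
  have hNK : N ≤ K := fun g hg => by
    by_contra hgK
    refine hKN fun k hk => ?_
    have hs : g ∈ 𝒩(K) := normal_iff_top_le_norm.1 hKn trivial
    have h3 : MonoidHom.FixedPointFree (cjAut K hs) := fun x hx => Subtype.ext
      (h2 g hgK x x.2 (mul_inv_eq_iff_eq_mul.1 (congrArg Subtype.val hx)))
    obtain ⟨x, hx⟩ := h3.commutatorMap_surjective ⟨k, hk⟩
    have h4 : k = x * g * (x : G)⁻¹ * g⁻¹ := by
      rw [← show _ = k from congrArg Subtype.val hx, MonoidHom.commutatorMap_apply, div_eq_mul_inv,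
        Subgroup.coe_mul, Subgroup.coe_inv, coe_cjAut]; group
    rw [h4]
    exact N.mul_mem ((inferInstance : N.Normal).conj_mem g hg x) (N.inv_mem hg)
  haveI := hKn.map π hπ
  rw [← Subgroup.coe_map]
  refine H6.frob_of_fpf (K.map π) (R.map π) (by
      rw [← Subgroup.map_sup, hc.sup_eq_top, map_top_of_surjective π hπ])
    (H49.inf_eq_bot_of_coprime ((hcop.coprime_dvd_left (card_map_dvd _ _)).coprime_dvd_right
      (card_map_dvd _ _))) (fun h => hKN ?_) (fun h => hR.1 ?_) ?_
  · rwa [Subgroup.map_eq_bot_iff, QuotientGroup.ker_mk'] at h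
  · rw [Subgroup.map_eq_bot_iff, QuotientGroup.ker_mk'] at h
    exact le_bot_iff.1 ((le_inf (h.trans hNK) le_rfl).trans hc.disjoint.le_bot)
  · rintro _ ⟨h, hh, rfl⟩ hne k hk e
    exact (map_inf_cent1_eq_bot π (normal_iff_top_le_norm.1 hKn trivial)
      (hcop.symm.coprime_dvd_left (R.orderOf_dvd_natCard hh))
      (h1 h hh fun e => hne (by rw [e, map_one]))).le ⟨hk, mem_cent1.2 e.symm⟩

end Cfsg.Agent.S3768
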