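import Cfsg.Statements.S3769
import Cfsg.Agent.BG.L3_4
import Cfsg.Agent.H49.Prod
import Cfsg.Agent.H49.Pi

set_option autoImplicit false
open Cfsg

namespace Cfsg.Agent.S3769

open Subgroup Cfsg.Agent.H49

/-- Let G and V be subgroups of a finite group with G solvable of odd order normalizing V, V an elementary abelian ℓ-group for a prime ℓ not dividing the order of G, and suppose G has a normal Hall subgroup K with a complement R of prime order. If C_V(R) = 1, then [R, K] centralizes V. -/
theorem result {X : Type*} [Group X] [Finite X] (G : Subgroup X) (hsolv : Group.IsSolvable G) (hodd : Odd (Nat.card G)) (V : Subgroup X) {ℓ : ℕ} (hℓ : ℓ.Prime) (hV : Cfsg.IsElementaryAbelian ℓ V) (hℓG : ¬ ℓ ∣ Nat.card G) (hGV : G ≤ Subgroup.normalizer (V : Set X)) (K R : Subgroup X) (hKG : K ≤ G) (hKn : G ≤ Subgroup.normalizer (K : Set X)) (hHall : (Nat.card K).Coprime (K.relIndex G)) (hRG : R ≤ G) (hR : (Nat.card R).Prime) (hKR : K ⊓ R = ⊥) (hKRG : K ⊔ R = G) (hCV : V ⊓ Subgroup.centralizer (R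 : Set X) = ⊥) : ⁅R, K⁆ ≤ Subgroup.centralizer (V : Set X) := by
  have hs : IsSdp K R G := ⟨hKRG, hKR, hRG.trans hKn⟩
  rw [hs.relIndex_left] at hHall
  have hK : Group.IsSolvable K := by
    haveI := hsolv
    exact solvable_of_solvable_injective (f := Subgroup.inclusion hKG) (Subgroup.inclusion_injective hKG)
  exact (BG.l3_4 hℓ hK (hKRG.symm ▸ hodd) (hRG.trans hKn) hHall hR hV (hKRG.symm ▸ hGV)
    (hKRG.symm ▸ hℓG) hCV).trans inf_le_right

end Cfsg.Agent.S3769
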