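import Cfsg.Statements.S3770
import Cfsg.Agent.H49.ElemLin
import Cfsg.Agent.S0035
import Cfsg.Agent.S0039

set_option autoImplicit false
open Cfsg

namespace Cfsg.Agent.S3770

open Subgroup Cfsg.Agent.H49

/-- Let G and V be subgroups of a finite group with G a Frobenius group with complement R of prime order and kernel K, G normalizing V, and V an elementary abelian ℓ-group for a prime ℓ not dividing the order of G. If C_V(R) has order ℓ, then the derived subgroup of K centralizes V. -/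
theorem result {X : Type*} [Group X] [Finite X] (G : Subgroup X) (V : Subgroup X) {ℓ : ℕ} (hℓ : ℓ.Prime) (hV : Cfsg.IsElementaryAbelian ℓ V) (hℓG : ¬ ℓ ∣ Nat.card G) (hGV : G ≤ Subgroup.normalizer (V : Set X)) (R : Subgroup ↥G) (hR : Cfsg.IsFrobeniusComplement R) (hRp : (Nat.card R).Prime) (hCV : Nat.card ↥(V ⊓ Subgroup.centralizer ((R.map G.subtype : Subgroup X) : Set X)) = ℓ) : ⁅Subgroup.closure (Subtype.val '' Cfsg.frobeniusKernel R), Subgroup.closure (Subtype.val '' Cfsg.frobeniusKernel R)⁆ ≤ Subgroup.centralizer (V : Set X) := by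
  obtain ⟨N, hN, hNn, hc⟩ := S0035.result R hR
  have hK : Subgroup.closure (Subtype.val '' Cfsg.frobeniusKernel R) = N.map G.subtype := by
    rw [← hN]
    exact closure_eq (N.map G.subtype)
  rw [hK]
  have hN1 : N ≠ ⊥ := by
    rintro rfl
    exact hR.2.1 (isComplement'_bot_left.1 hc)
  have hreg := (S0039.result N R hc hN1 hR.1).1 hR
  have hsup : N.map G.subtype ⊔ R.map G.subtype = G := by
    rw [← Subgroup.map_sup, hc.sup_eq_top, ← MonoidHom.range_eq_map, range_subtype]
  refine frob_der_cent_of_card_le hℓ (R := R.map G.subtype)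
    ((map_subtype_le R).trans (norm_map_subtype N)) ?_ hV (hsup.symm ▸ hGV) (hsup.symm ▸ hℓG) hCV.le
  rintro _ ⟨x, hx, rfl⟩ h1
  rw [eq_bot_iff]
  rintro _ ⟨⟨k, hk, rfl⟩, hkc⟩
  have : k ∈ N ⊓ 𝒞[x] := ⟨hk, mem_cent1.2 (Subtype.ext (mem_cent1.1 hkc))⟩
  rw [hreg x hx (fun h => h1 (by rw [h]; rfl)), mem_bot] at this
  rw [this]; exact one_mem _

end Cfsg.Agent.S3770
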