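import Cfsg.Statements.S3771
import Cfsg.Agent.H4.SCN

set_option autoImplicit false
open Cfsg

namespace Cfsg.Agent.S3771


/-- Let p be a prime and R a finite p-group of p-rank at most 2 (no elementary abelian subgroup of order p³) in which every element has order dividing p. Then R has order at most p³. -/
theorem result {R : Type*} [Group R] [Finite R] {p : ℕ} [Fact p.Prime] (hR : IsPGroup p R) (hrank : Cfsg.PRankLE p 2 R) (hexp : ∀ x : R, x ^ p = 1) : Nat.card R ≤ p ^ 3 := by
  have hp := (Fact.out : p.Prime)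
  obtain ⟨A, hAn, hAc, -, hmax⟩ := H4.exists_maximal_abelian (⊥ : Subgroup R)
  have hC := H4.centralizer_le_of_maximal_abelian hR A hmax
  have hle := hrank A hAc (fun a _ => hexp a)
  obtain ⟨a, ha⟩ := (hR.to_subgroup A).exists_card_eq
  have ha2 : a ≤ 2 := (Nat.pow_le_pow_iff_right hp.one_lt).mp (ha ▸ hle)
  have hi := H4.index_centralizer_le hR a A ha
  have hi2 : A.index ≤ p ^ a.choose 2 :=
    le_trans (Nat.le_of_dvd (Nat.pos_of_ne_zero Subgroup.index_ne_zero_of_finite)
      (Subgroup.index_dvd_of_le hC)) hi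
  have hch : a.choose 2 ≤ 1 := by interval_cases a <;> simp
  rw [← A.card_mul_index, ha]
  calc p ^ a * A.index ≤ p ^ 2 * p ^ 1 :=
        Nat.mul_le_mul (Nat.pow_le_pow_right hp.pos ha2) (hi2.trans (Nat.pow_le_pow_right hp.pos hch))
    _ = p ^ 3 := by ring

end Cfsg.Agent.S3771
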