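import Cfsg.Statements.S3772
import Cfsg.Agent.H85.QuadSum
import Cfsg.Agent.H3.PGroup

set_option autoImplicit false
open Cfsg

namespace Cfsg.Agent.S3772

open Subgroup
open scoped commutatorElement

/-- Let G be a finite 2-group whose Frattini subgroup Φ(G) has order 2, with |G : Φ(G)| = 2^d, and let j be the number of elements x of G with x² = 1. Then j = 2^d, or j = 2^d + 2^(d−r) or j = 2^d − 2^(d−r) for some positive integer r with 2r ≤ d. Moreover if d = 2r and j is 2^d + 2^r or 2^d − 2^r, then G is extraspecial. -/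
theorem result {G : Type*} [Group G] [Finite G] (hG : IsPGroup 2 G) (hΦ : Nat.card (frattini G) = 2) (d : ℕ) (hd : (frattini G).index = 2 ^ d) : (Nat.card {x : G // x ^ 2 = 1} = 2 ^ d ∨ ∃ r : ℕ, 1 ≤ r ∧ 2 * r ≤ d ∧ (Nat.card {x : G // x ^ 2 = 1} = 2 ^ d + 2 ^ (d - r) ∨ Nat.card {x : G // x ^ 2 = 1} + 2 ^ (d - r) = 2 ^ d)) ∧ (∀ r : ℕ, d = 2 * r → (Nat.card {x : G // x ^ 2 = 1} = 2 ^ d + 2 ^ r ∨ Nat.card {x : G // x ^ 2 = 1} + 2 ^ r = 2 ^ d) → Cfsg.IsExtraspecial 2 G) := by
  classical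
  have := Fintype.ofFinite G
  have hG' : Nat.card G = 2 ^ (d + 1) := by rw [← (frattini G).card_mul_index, hΦ, hd, pow_succ']
  have hZ : frattini G ≤ center G := by
    intro z hz
    rw [mem_center_iff]
    intro g
    obtain ⟨w, -, hw⟩ := (Nat.card_eq_two_iff' (1 : frattini G)).mp hΦ
    by_cases h1 : z = 1
    · simp [h1]
    have h2 := hw ⟨z, hz⟩ fun h => h1 (congrArg Subtype.val h)
    have h3 := hw ⟨g * z * g⁻¹, Normal.conj_mem inferInstance z hz g⟩ fun h => h1 (by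
      simpa using congrArg Subtype.val h)
    exact mul_inv_eq_iff_eq_mul.mp (congrArg Subtype.val (h3.trans h2.symm))
  have hsq : ∀ x : G, x ^ 2 ∈ frattini G := H3.pow_mem_frattini hG
  have hc : ∀ x y : G, ⁅x, y⁆ ∈ frattini G := fun x y =>
    H3.commutator_le_frattini hG (commutator_mem_commutator (mem_top x) (mem_top y))
  obtain ⟨l, hl⟩ := H85.exists_sign_hom (⊥ : Subgroup (frattini G)) (by rw [index_bot, hΦ])
  have hl' : ∀ z, l z = 1 ↔ (z : G) = 1 := fun z => by
    rw [OneMemClass.coe_eq_one, ← mem_bot]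
    exact ⟨fun h => by_contra fun h' => by simp [(hl z).2 h'] at h, (hl z).1⟩
  have h1 := H85.sum_sign fun x : G => l ⟨x ^ 2, hsq x⟩
  simp only [hl'] at h1
  have hj : Nat.card {x : G // x ^ 2 = 1} ≠ 2 ^ (d + 1) := by
    intro h
    have h2 : ∀ x : G, x ^ 2 = 1 := fun x => by
      have := Set.eq_univ_iff_ncard (s := {x : G | x ^ 2 = 1}) |>.mpr (by rw [hG', ← h]; rfl)
      exact (this.ge (Set.mem_univ x) :)
    have h3 : frattini G ≤ ⊥ := (H3.frattini_le_iff hG).mpr ⟨commutator_le.mpr fun a _ b _ => by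
      have e : ∀ x : G, x⁻¹ = x := fun x => inv_eq_of_mul_eq_one_right (by rw [← sq, h2])
      rw [mem_bot, commutatorElement_def, e a, e b, mul_assoc, ← sq, h2], h2⟩
    rw [le_bot_iff.mp h3, card_bot] at hΦ
    exact absurd hΦ (by norm_num)
  have hj0 : 0 < Nat.card {x : G // x ^ 2 = 1} :=
    Nat.card_pos_iff.mpr ⟨⟨⟨1, one_pow 2⟩⟩, inferInstance⟩
  have h2 := H85.quad_sum hZ hsq hc l
  rw [h1, hG'] at h2
  generalize Nat.card {x : G // x ^ 2 = 1} = j at h1 h2 hj hj0 ⊢
  push_cast at h2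
  rcases h2 with h2 | ⟨R, hR, h2⟩
  · have h3 : j = 2 ^ d := by
      rw [pow_succ] at h2
      exact_mod_cast (by linarith : (j : ℤ) = 2 ^ d)
    refine ⟨Or.inl h3, fun r _ h => ?_⟩
    have := Nat.two_pow_pos r
    omega
  simp only [hl'] at hR
  have hR' : R = center G := by
    ext y
    simp only [hR, mem_center_iff, commutatorElement_eq_one_iff_mul_comm]
    exact forall_congr' fun x => eq_comm
  obtain ⟨c, hc1, hc2⟩ := (Nat.dvd_prime_pow Nat.prime_two).mp (hG' ▸ R.card_subgroup_dvd_card)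
  rw [hc2] at h2
  push_cast at h2
  rw [← pow_add] at h2
  obtain ⟨s, hs, h3⟩ := H85.eq_of_sq_eq_two_pow h2
  obtain ⟨t, rfl⟩ : ∃ t, s = t + 1 := ⟨s - 1, by omega⟩
  have h4 : j = 2 ^ d + 2 ^ t ∨ j + 2 ^ t = 2 ^ d := by
    rw [pow_succ, pow_succ] at h3
    rcases h3 with h3 | h3
    · left; exact_mod_cast (by linarith : (j : ℤ) = 2 ^ d + 2 ^ t)
    · right; exact_mod_cast (by linarith : (j : ℤ) + 2 ^ t = 2 ^ d)
  have hc3 : 1 ≤ c := by
    have := card_dvd_of_le (hR' ▸ hZ : frattini G ≤ R)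
    rw [hΦ, hc2] at this
    exact Nat.pos_of_ne_zero fun h => by simp [h] at this
  have htd : t ≠ d := by
    rintro rfl
    rw [pow_succ] at hj
    omega
  refine ⟨Or.inr ⟨d - t, by omega, by omega, by rwa [show d - (d - t) = t by omega]⟩,
    fun r hr h => ?_⟩
  have h5 : 2 ^ t = 2 ^ r := by
    have := Nat.two_pow_pos r
    have := Nat.two_pow_pos t
    omega
  have h6 := Nat.pow_right_injective le_rfl h5
  have h7 : Nat.card (center G) = 2 := by rw [← hR', hc2, show c = 1 by omega, pow_one]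
  have h8 : frattini G = center G := eq_of_le_of_card_ge hZ (by rw [h7, hΦ])
  refine ⟨⟨hG, h8, ?_⟩, h7⟩
  have h9 : commutator G ≤ center G := h8 ▸ H3.commutator_le_frattini hG
  have h10 := card_dvd_of_le h9
  rw [h7, Nat.dvd_prime Nat.prime_two] at h10
  refine eq_of_le_of_card_ge h9 ?_
  rw [h7, h10.resolve_left fun h11 => ?_]
  rw [card_eq_one, commutator_eq_bot_iff_center_eq_top] at h11
  rw [h11, card_top, hG'] at h7
  have := Nat.pow_right_injective le_rfl (h7.trans (pow_one 2).symm)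
  omega

end Cfsg.Agent.S3772
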