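import Cfsg.Statements.S3773
import Cfsg.Agent.H3.PGroup
import Cfsg.Agent.H3.ClassTwo
import Cfsg.Agent.H42.Index2
import Cfsg.Agent.H49.Prod

set_option autoImplicit false
open Cfsg

namespace Cfsg.Agent.S3773


open Subgroup
open scoped commutatorElement

variable {G : Type*} [Group G]

/-- `f` has degree `< k`. -/
def Deg : ℕ → (G → ZMod 2) → Prop
  | 0, f => ∀ x, f x = 0
  | k + 1, f => ∀ h, Deg k fun x => f (x * h) + f x

theorem Deg.add : ∀ {k : ℕ} {f g : G → ZMod 2}, Deg k f → Deg k g → Deg k fun x => f x + g x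
  | 0, _, _, hf, hg => fun x => by simp [hf x, hg x]
  | k + 1, f, g, hf, hg => fun h => by
    have := Deg.add (hf h) (hg h)
    convert this using 2; ring

theorem Deg.succ : ∀ {k : ℕ} {f : G → ZMod 2}, Deg k f → Deg (k + 1) f
  | 0, _, hf => fun h x => by simp [hf x, hf (x * h)]
  | _ + 1, _, hf => fun h => Deg.succ (hf h)

theorem Deg.shift : ∀ {k : ℕ} {f : G → ZMod 2}, Deg k f → ∀ h, Deg k fun x => f (x * h)
  | 0, _, hf, h => fun x => hf (x * h)
  | k + 1, f, hf, h => by
    have := Deg.add (Deg.succ (hf h)) hf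
    convert this using 2
    rw [add_assoc, CharTwo.add_self_eq_zero, add_zero]

theorem Deg.mul (n : ℕ) : ∀ (a b : ℕ) (f g : G → ZMod 2), a + b = n + 1 → Deg a f → Deg b g →
    Deg n fun x => f x * g x := by
  have zero : ∀ (n : ℕ), Deg n fun _ : G => (0 : ZMod 2) := by
    intro n
    induction n with
    | zero => exact fun _ => rfl
    | succ n ih => exact ih.succ
  induction n with
  | zero =>
    intro a b f g hab hf hg x
    rcases a with _ | a
    · simp [hf x]
    · obtain rfl : b = 0 := by omega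
      simp [hg x]
  | succ n ih =>
    intro a b f g hab hf hg
    rcases a with _ | a
    · convert zero (n + 1) using 2; simp [hf _]
    rcases b with _ | b
    · convert zero (n + 1) using 2; simp [hg _]
    intro h
    have := Deg.add (ih a (b + 1) _ _ (by omega) (hf h) (hg.shift h))
      (ih (a + 1) b _ _ (by omega) hf (hg h))
    convert this using 2
    rename_i x
    have := CharTwo.add_self_eq_zero (f x * g (x * h))
    linear_combination -this

theorem deg_const (c : ZMod 2) : Deg 1 fun _ : G => c := fun _ _ => CharTwo.add_self_eq_zero c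

open Classical in
/-- the indicator of `x ^ 2 ∈ L` -/
noncomputable def ind (L : Subgroup G) (x : G) : ZMod 2 := if x ^ 2 ∈ L then 1 else 0

variable [Finite G]

theorem exists_index_two (hG : IsPGroup 2 G) {N K : Subgroup G} (h : N < K) :
    ∃ K', N ≤ K' ∧ K' ≤ K ∧ K'.relIndex K = 2 := by
  obtain ⟨M, hM, h1⟩ := (eq_top_or_exists_le_coatom (N.subgroupOf K)).resolve_left
    (fun h1 => h.not_ge (subgroupOf_eq_top.1 h1))
  refine ⟨M.map K.subtype, ?_, map_subtype_le _, ?_⟩
  · rw [← map_subgroupOf_eq_of_le h.le]; exact map_mono h1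
  · rw [relIndex, subgroupOf, comap_map_eq_self_of_injective K.subtype_injective]
    exact H3.index_eq_of_isCoatom (hG.to_subgroup K) hM

theorem relIndex_lt (hG : IsPGroup 2 G) {N : Subgroup G} (d : ℕ) : ∀ (K : Subgroup G)
    (f : G → ZMod 2), N ≤ K → (∀ x ∈ N, f x = 1) → (∀ x ∈ K, x ∉ N → f x = 0) → Deg d f →
    N.relIndex K < 2 ^ d := by
  induction d with
  | zero => intro K f _ h1 _ hf; exact absurd ((h1 1 N.one_mem).symm.trans (hf 1)) one_ne_zero
  | succ d ih =>
    intro K f hK h1 h2 hf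
    rcases hK.eq_or_lt with rfl | hlt
    · rw [relIndex_self]; exact Nat.one_lt_pow (Nat.succ_ne_zero d) one_lt_two
    obtain ⟨K', k1, k2, k3⟩ := exists_index_two hG hlt
    obtain ⟨h, hh, hhK⟩ := SetLike.not_le_iff_exists.1
      (fun h => by rw [relIndex_eq_one.2 h] at k3; omega : ¬ K ≤ K')
    have h3 : ∀ x ∈ K', f (x * h) = 0 := fun x hx => h2 _ (K.mul_mem (k2 hx) hh)
      fun h4 => hhK ((mul_mem_cancel_left hx).1 (k1 h4))
    have := ih K' _ k1 (fun x hx => by simp only [h3 x (k1 hx), h1 x hx, zero_add])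
      (fun x hx hxN => by simp only [h3 x hx, h2 x (k2 hx) hxN, zero_add]) (hf h)
    rw [← relIndex_mul_relIndex _ _ _ k1 k2, k3, pow_succ]
    omega

section
variable {M : Subgroup G} (hZ : commutator G ≤ center G) (hM1 : ∀ x : G, x ^ 2 ∈ M)
  (hM2 : commutator G ≤ M)
include hZ hM1 hM2

omit [Finite G] in
theorem deg_ind {M' : Subgroup G} (h : M'.relIndex M = 2) :
    Deg 3 (ind M') ∧ (commutator G ≤ M' → Deg 2 (ind M')) := by
  classical
  let χ : G → ZMod 2 := fun y => if y ∈ M' then 0 else 1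
  have hχ : ∀ a ∈ M, ∀ b ∈ M, χ (a * b) = χ a + χ b := fun a ha b hb => by
    simp only [χ, H42.mul_mem_iff_of_relIndex_two h ha hb]
    by_cases h1 : a ∈ M' <;> by_cases h2 : b ∈ M' <;> simp [h1, h2, CharTwo.add_self_eq_zero]
  have hc : ∀ a b : G, ⁅a, b⁆ ∈ commutator G := fun a b =>
    commutator_mem_commutator (mem_top a) (mem_top b)
  have e1 : ∀ x, ind M' x = 1 + χ (x ^ 2) := fun x => by
    simp only [ind, χ]
    split_ifs <;> simp [CharTwo.add_self_eq_zero]
  have e2 : ∀ h, (fun x => ind M' (x * h) + ind M' x) = fun x => χ ⁅h, x⁆ + χ (h ^ 2) := by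
    intro h
    funext x
    rw [e1, e1, H3.mul_pow_of_class_two hZ, Nat.choose_self, pow_one,
      hχ _ (hM2 (hc h x)) _ (M.mul_mem (hM1 x) (hM1 h)), hχ _ (hM1 x) _ (hM1 h)]
    have := CharTwo.add_self_eq_zero (1 + χ (x ^ 2))
    linear_combination this
  refine ⟨fun h => ?_, fun h' h => ?_⟩
  · rw [e2]
    intro k
    convert deg_const (χ ⁅h, k⁆) using 2
    rename_i x
    simp only
    rw [H3.commutator_mul_right hZ, hχ _ (hM2 (hc h x)) _ (hM2 (hc h k))]
    have := CharTwo.add_self_eq_zero (χ ⁅h, x⁆ + χ (h ^ 2))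
    linear_combination this
  · rw [e2]
    convert deg_const (χ (h ^ 2)) using 2
    rename_i x
    simp [χ, h' (hc h x)]

variable (hM3 : ∀ x ∈ M, x ^ 2 = 1) (hM4 : M ≤ center G)
include hM3 hM4

omit hZ hM1 hM2 in
theorem exists_hyper {L : Subgroup G} (hL : L ≤ M) {x : G} (hx : x ∈ M) (hxL : x ∉ L) :
    ∃ M', L ≤ M' ∧ M' ≤ M ∧ x ∉ M' ∧ M'.relIndex M = 2 := by
  obtain ⟨K, -, -, k1, k2, k3⟩ := H3.exists_isCoatom_of_elementary_quotient (p := 2)
    (N := L.subgroupOf M) (x := ⟨x, hx⟩) (by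
      rw [commutator_def, commutator_le]
      intro a _ b _
      have : ⁅a, b⁆ = 1 := commutatorElement_eq_one_iff_mul_comm.2
        (Subtype.ext (mem_center_iff.1 (hM4 b.2) a))
      rw [this]; exact one_mem _)
    (fun y => by rw [show y ^ 2 = 1 from Subtype.ext (hM3 y y.2)]; exact one_mem _) hxL
  refine ⟨K.map M.subtype, ?_, map_subtype_le _, ?_, ?_⟩
  · rw [← map_subgroupOf_eq_of_le hL]; exact map_mono k2
  · rintro ⟨y, hy, h⟩
    exact k3 ((Subtype.ext h : y = ⟨x, hx⟩) ▸ hy)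
  · rw [relIndex, subgroupOf, comap_map_eq_self_of_injective M.subtype_injective, k1]

theorem deg_ind_le {L0 : Subgroup G} (h0 : L0 ≤ M) {e : ℕ} (he : Deg (e + 1) (ind L0)) (j : ℕ) :
    ∀ L ≤ L0, L.relIndex L0 = 2 ^ j → Deg (e + 2 * j + 1) (ind L) := by
  induction j with
  | zero =>
    intro L hL h
    rw [le_antisymm hL (relIndex_eq_one.1 h)]; exact he
  | succ j ih =>
    intro L hL h
    obtain ⟨x, hx, hxL⟩ := SetLike.not_le_iff_exists.1 (fun h1 => by
      rw [relIndex_eq_one.2 h1] at h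
      exact (Nat.one_lt_pow (Nat.succ_ne_zero j) one_lt_two).ne h : ¬ L0 ≤ L)
    have hn : x ∈ normalizer (L : Set G) :=
      centralizer_le_normalizer _ fun y _ => mem_center_iff.1 (hM4 (h0 hx)) y
    have h2 : x * x ∈ L := by rw [← _root_.sq, hM3 x (h0 hx)]; exact L.one_mem
    have h3 := H42.relIndex_sup_zpowers hn h2 hxL
    have h4 : L ⊔ zpowers x ≤ L0 := sup_le hL (zpowers_le.2 hx)
    have h5 := ih _ h4 (by
      have := relIndex_mul_relIndex _ _ _ (le_sup_left : L ≤ L ⊔ zpowers x) h4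
      rw [h3, h, pow_succ] at this
      omega)
    obtain ⟨M', m1, -, m3, m4⟩ := exists_hyper hM3 hM4 (hL.trans h0) (h0 hx) hxL
    have := Deg.mul (e + 2 * (j + 1) + 1) _ _ _ _ (by omega) h5 (deg_ind hZ hM1 hM2 m4).1
    convert this using 2
    rename_i y
    simp only [ind]
    by_cases h6 : y ^ 2 ∈ L
    · simp [h6, m1 h6, (mem_sup_left h6 : y ^ 2 ∈ L ⊔ zpowers x)]
    by_cases h7 : y ^ 2 * x⁻¹ ∈ L
    · have : y ^ 2 ∉ M' := fun h8 => m3 (M'.inv_mem_iff.1 ((mul_mem_cancel_left h8).1 (m1 h7)))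
      simp [h6, this]
    · have : y ^ 2 ∉ L ⊔ zpowers x := by rw [H42.mem_sup_zpowers hn h2]; tauto
      simp [h6, this]

end


/-- Let G be a finite 2-group of nilpotency class at most 2 and exponent dividing 4 in which the elements x with x² = 1 form a subgroup N. Then |G| ≤ |N|³, and |G| < |N|³ unless G is special. -/
theorem result {G : Type*} [Group G] [Finite G] (hG : IsPGroup 2 G) (hcl : (⊤ : Subgroup G).lowerCentralSeries 2 = ⊥) (hexp : ∀ x : G, x ^ 4 = 1) (hN : ∀ x y : G, x ^ 2 = 1 → y ^ 2 = 1 → (x * y) ^ 2 = 1) : Nat.card G ≤ Nat.card {x : G // x ^ 2 = 1} ^ 3 ∧ (¬ Cfsg.IsSpecial 2 G → Nat.card G < Nat.card {x : G // x ^ 2 = 1} ^ 3) := by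
  have hZ : commutator G ≤ center G := by
    have : ⁅commutator G, (⊤ : Subgroup G)⁆ = ⊥ := by
      rw [← top_lowerCentralSeries_one]; exact hcl
    rw [commutator_eq_bot_iff_le_centralizer] at this
    exact fun x hx => mem_center_iff.2 fun y => this hx y (mem_top y)
  let N : Subgroup G :=
    { carrier := {x | x ^ 2 = 1}
      one_mem' := one_pow _
      mul_mem' := fun {a b} ha hb => hN a b ha hb
      inv_mem' := fun {a} ha => by
        change a⁻¹ ^ 2 = 1
        rw [inv_pow, show a ^ 2 = 1 from ha, inv_one] }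
  have hsq : ∀ x : G, x ^ 2 ∈ N := fun x => by
    change (x ^ 2) ^ 2 = 1
    rw [← pow_mul]; exact hexp x
  have hcN : ∀ x y : G, ⁅x, y⁆ ∈ N := fun x y => by
    have : ⁅x, y⁆ = (x * y) ^ 2 * (y⁻¹ * x⁻¹ * y) ^ 2 * (y⁻¹) ^ 2 := by
      simp only [commutatorElement_def, _root_.sq]; group
    rw [this]; exact N.mul_mem (N.mul_mem (hsq _) (hsq _)) (hsq _)
  set M := frattini G
  have hM1 := H3.pow_mem_frattini hG
  have hM2 := H3.commutator_le_frattini hG
  have hM : M ≤ N ⊓ center G := (H3.frattini_le_iff hG).2 ⟨le_inf (by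
    rw [commutator_def, commutator_le]; exact fun a _ b _ => hcN a b) hZ, fun x => ⟨hsq x,
      mem_center_iff.2 fun y => (commutatorElement_eq_one_iff_mul_comm.1 (by
        rw [H3.commutator_pow_left hZ]; exact hcN x y)).symm⟩⟩
  have hM3 : ∀ x ∈ M, x ^ 2 = 1 := fun x hx => (hM hx).1
  have hM4 : M ≤ center G := hM.trans inf_le_right
  obtain ⟨m, hm⟩ := (hG.to_subgroup M).exists_card_eq
  obtain ⟨d, hd⟩ := hG.index N
  have hc : Nat.card {x : G // x ^ 2 = 1} = Nat.card N := rfl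
  have hMN : 2 ^ m ≤ Nat.card N := hm ▸ card_le_of_le (hM.trans inf_le_left)
  have bound : ∀ k, Deg k (ind (⊥ : Subgroup G)) → d < k := fun k hk => by
    have := relIndex_lt hG (N := N) k ⊤ _ le_top (fun x hx => if_pos (mem_bot.2 hx))
      (fun x _ hx => if_neg fun h => hx (mem_bot.1 h)) hk
    rwa [relIndex_top_right, hd, Nat.pow_lt_pow_iff_right one_lt_two] at this
  have d0 : Deg (0 + 1) (ind M) := by
    convert deg_const (G := G) 1 using 2
    exact if_pos (hM1 _)
  have b1 := bound _ (deg_ind_le hZ hM1 hM2 hM3 hM4 le_rfl d0 m ⊥ bot_le (by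
    rw [relIndex_bot_left, hm]))
  have hNpos : 0 < Nat.card N := Nat.card_pos
  have b2 : 2 ^ d ≤ 2 ^ m * 2 ^ m := by
    rw [← pow_add]; exact Nat.pow_le_pow_right two_pos (by omega)
  rw [hc, ← N.card_mul_index, hd]
  have b3 : Nat.card N * 2 ^ d ≤ Nat.card N ^ 3 := by
    calc Nat.card N * 2 ^ d ≤ Nat.card N * (Nat.card N * Nat.card N) :=
          Nat.mul_le_mul_left _ (b2.trans (Nat.mul_le_mul hMN hMN))
      _ = _ := by ring
  refine ⟨b3, fun hs => lt_of_le_of_ne b3 fun h => hs ?_⟩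
  have h1 : 2 ^ d = Nat.card N * Nat.card N :=
    Nat.eq_of_mul_eq_mul_left hNpos (by rw [h]; ring)
  have h2 : Nat.card N = 2 ^ m := le_antisymm (by nlinarith) hMN
  have h3 : d = m + m := by
    rw [h2, ← pow_add] at h1; exact Nat.pow_right_injective le_rfl h1
  have h4 : M = N := eq_of_le_of_card_ge (hM.trans inf_le_left) (by rw [h2, hm])
  have h5 : center G ≤ M := by
    intro z hz
    by_contra hzM
    have hz2 : z ^ 2 ≠ 1 := fun h => hzM (h4.ge h)
    have hzo : orderOf (z ^ 2) = 2 := orderOf_eq_prime (hM3 _ (hM1 z)) hz2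
    have hL : zpowers (z ^ 2) ≤ M := zpowers_le.2 (hM1 z)
    have e1 := H49.card_mul_relIndex hL
    rw [Nat.card_zpowers, hzo, hm] at e1
    rcases m with _ | m
    · omega
    have e2 := deg_ind_le hZ hM1 hM2 hM3 hM4 le_rfl d0 m _ hL
      (Nat.eq_of_mul_eq_mul_left two_pos (by rw [← pow_succ']; exact e1))
    have hn : z ∈ normalizer (N : Set G) :=
      centralizer_le_normalizer _ fun y _ => mem_center_iff.1 hz y
    have hzz : z * z ∈ N := by rw [← _root_.sq]; exact hsq z
    have e3 := H42.relIndex_sup_zpowers hn hzz fun h => hz2 h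
    have e4 : ∀ x : G, x ∈ N ⊔ zpowers z ↔ x ^ 2 ∈ zpowers (z ^ 2) := fun x => by
      rw [H42.mem_sup_zpowers hn hzz, H42.mem_zpowers_of_mul_self (by
        rw [← _root_.sq]; exact hM3 _ (hM1 z))]
      refine or_congr Iff.rfl ?_
      change (x * z⁻¹) ^ 2 = 1 ↔ _
      rw [(Commute.inv_right (mem_center_iff.1 hz x)).mul_pow, inv_pow, mul_inv_eq_one]
    have e5 := relIndex_lt hG (N := N ⊔ zpowers z) _ ⊤ _ le_top
      (fun x hx => if_pos ((e4 x).1 hx)) (fun x _ hx => if_neg fun h => hx ((e4 x).2 h)) e2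
    have e6 := relIndex_mul_index (le_sup_left : N ≤ N ⊔ zpowers z)
    rw [relIndex_top_right] at e5
    rw [e3, hd, h3, show m + 1 + (m + 1) = 0 + 2 * m + 1 + 1 by ring, pow_succ] at e6
    omega
  refine ⟨hG, le_antisymm hM4 h5, le_antisymm hZ (h5.trans fun x hx => ?_)⟩
  by_contra hxc
  obtain ⟨M', m1, m2, -, m4⟩ := exists_hyper hM3 hM4 hM2 hx hxc
  have e1 := H49.card_mul_relIndex m2
  rw [m4, hm] at e1
  rcases m with _ | m
  · omega
  have := bound _ (deg_ind_le hZ hM1 hM2 hM3 hM4 m2 (e := 1) ((deg_ind hZ hM1 hM2 m4).2 m1) m ⊥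
    bot_le (by rw [relIndex_bot_left]; rw [pow_succ] at e1; omega))
  omega

end Cfsg.Agent.S3773
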