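import Cfsg.Statements.S3774
import Mathlib

set_option autoImplicit false
open Cfsg

namespace Cfsg.Agent.S3774

open Subgroup

theorem card_ne_one {G : Type*} [Finite G] (P : G → Prop) (a : G) (ha : P a) :
    Nat.card {x : G // x ≠ a ∧ P x} + 1 = Nat.card {x : G // P x} := by
  rw [← Finite.card_option]
  classical
  refine Nat.card_congr ((Equiv.optionCongr ?_).trans (Equiv.optionSubtypeNe (⟨a, ha⟩ : {x // P x})))
  exact ⟨fun x => ⟨⟨x.1, x.2.2⟩, fun h => x.2.1 (congrArg Subtype.val h)⟩,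
    fun x => ⟨x.1.1, fun h => x.2 (Subtype.ext h), x.1.2⟩, fun _ => rfl, fun _ => rfl⟩

/-- Let G be a nontrivial finite 2-group whose automorphism group permutes the involutions of G transitively. Then every involution of G is central, so that the involutions together with 1 form the subgroup Ω₁(Z(G)), and if this subgroup has order q then |G| is a power of q. -/
theorem result {G : Type*} [Group G] [Finite G] [Nontrivial G] (hG : IsPGroup 2 G) (htrans : ∀ x y : G, x ≠ 1 → x ^ 2 = 1 → y ≠ 1 → y ^ 2 = 1 → ∃ a : MulAut G, a x = y) : (∀ x : G, x ^ 2 = 1 → x ∈ Subgroup.center G) ∧ ∃ m : ℕ, Nat.card G = Nat.card {z : G // z ^ 2 = 1} ^ m := by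
  have hc : ∀ x : G, x ^ 2 = 1 → x ∈ center G := by
    intro x hx
    by_cases hx1 : x = 1
    · exact hx1 ▸ one_mem _
    have := hG.center_nontrivial
    obtain ⟨z, hz⟩ := exists_prime_orderOf_dvd_card' (G := center G) 2
      ((hG.to_subgroup _).card_eq_or_dvd.resolve_left Finite.one_lt_card.ne')
    have hz1 : (z : G) ≠ 1 := fun h => by
      rw [OneMemClass.coe_eq_one.mp h, orderOf_one] at hz; exact absurd hz (by norm_num)
    obtain ⟨a, rfl⟩ := htrans z x hz1 (by rw [← coe_pow, ← hz, pow_orderOf_eq_one]; rfl) hx1 hx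
    exact characteristic_iff_map_le.mp inferInstance a ⟨z, z.2, rfl⟩
  refine ⟨hc, ?_⟩
  let Ω : Subgroup G :=
    { carrier := {z | z ^ 2 = 1}
      mul_mem' := fun {a b} ha hb => by
        change (a * b) ^ 2 = 1
        rw [Commute.mul_pow (mem_center_iff.mp (hc b hb) a), ha, hb, one_mul]
      one_mem' := one_pow 2
      inv_mem' := fun {a} ha => by
        change a⁻¹ ^ 2 = 1
        rw [inv_pow, ha, inv_one] }
  obtain ⟨k, hk⟩ := (hG.to_subgroup Ω).exists_card_eq
  obtain ⟨n, hn⟩ := hG.exists_card_eq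
  have hk' : Nat.card {z : G // z ^ 2 = 1} = 2 ^ k := hk
  have heven : ∀ x : G, x ≠ 1 → 2 ∣ orderOf x := fun x hx => by
    obtain ⟨j, hj⟩ := (IsPGroup.iff_orderOf.mp hG) x
    rw [hj]
    refine dvd_pow_self 2 fun h0 => hx ?_
    rwa [h0, pow_zero, orderOf_eq_one_iff] at hj
  let f : {x : G // x ≠ 1 ∧ True} → {z : G // z ≠ 1 ∧ z ^ 2 = 1} := fun x =>
    ⟨x.1 ^ (orderOf x.1 / 2), pow_ne_one_of_lt_orderOf
      (Nat.div_pos (Nat.le_of_dvd (orderOf_pos _) (heven _ x.2.1)) two_pos).ne'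
      (Nat.div_lt_self (orderOf_pos _) one_lt_two), by
      rw [← pow_mul, Nat.div_mul_cancel (heven _ x.2.1), pow_orderOf_eq_one]⟩
  have hfib : ∀ z w, Nat.card {x // f x = z} ≤ Nat.card {x // f x = w} := by
    intro z w
    obtain ⟨a, ha⟩ := htrans z w z.2.1 z.2.2 w.2.1 w.2.2
    refine Nat.card_le_card_of_injective (fun x => ⟨⟨a x.1.1, by simpa using x.1.2.1, trivial⟩,
      Subtype.ext ?_⟩) fun x y h => Subtype.ext (Subtype.ext (a.injective
        (congrArg (fun t => t.1.1) h)))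
    change a x.1.1 ^ (orderOf (a x.1.1) / 2) = w
    rw [MulEquiv.orderOf_eq, ← map_pow, ← ha]
    exact congrArg (fun t => a t.1) x.2
  have h1 : Nat.card {z : G // z ≠ 1 ∧ z ^ 2 = 1} ∣ Nat.card {x : G // x ≠ 1 ∧ True} := by
    obtain ⟨x0, hx0⟩ := exists_ne (1 : G)
    have := Fintype.ofFinite {z : G // z ≠ 1 ∧ z ^ 2 = 1}
    rw [← Nat.card_congr (Equiv.sigmaFiberEquiv f), Nat.card_sigma,
      Finset.sum_congr rfl fun z _ => le_antisymm (hfib z (f ⟨x0, hx0, trivial⟩)) (hfib _ _),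
      Finset.sum_const, Finset.card_univ, ← Nat.card_eq_fintype_card, smul_eq_mul]
    exact dvd_mul_right _ _
  have h2 := card_ne_one (fun z : G => z ^ 2 = 1) 1 (one_pow 2)
  have h3 := card_ne_one (fun _ : G => True) 1 trivial
  rw [Nat.card_congr (Equiv.subtypeUnivEquiv fun _ => trivial), hn] at h3
  rw [hk'] at h2
  rw [Nat.eq_sub_of_add_eq h2, Nat.eq_sub_of_add_eq h3, ← Nat.gcd_eq_left_iff_dvd,
    Nat.pow_sub_one_gcd_pow_sub_one] at h1
  have h4 : 2 ^ k.gcd n = 2 ^ k := by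
    have := Nat.two_pow_pos (k.gcd n)
    have := Nat.two_pow_pos k
    omega
  obtain ⟨m, rfl⟩ := Nat.gcd_eq_left_iff_dvd.mp (Nat.pow_right_injective le_rfl h4)
  exact ⟨m, by rw [hn, hk', pow_mul]⟩

end Cfsg.Agent.S3774
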