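import Cfsg.Statements.S3775
import Cfsg.Agent.H85.RelMaschke
import Cfsg.Agent.H2.Basic

set_option autoImplicit false
open Cfsg

namespace Cfsg.Agent.S3775

open Subgroup

theorem inv_iff {A : Type*} [CommGroup A] (X : Subgroup (MulAut A)) (B : Subgroup A) :
    (∀ x ∈ X, B.map x.toMonoidHom = B) ↔ ∀ x : X, ∀ b ∈ B, x • b ∈ B := by
  constructor
  · intro h x b hb
    exact (h x x.2).le ⟨b, hb, rfl⟩
  · intro h x hx
    refine le_antisymm ?_ fun b hb => ⟨_, h (⟨x, hx⟩ : X)⁻¹ b hb, x.apply_symm_apply b⟩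
    rintro _ ⟨b, hb, rfl⟩
    exact h ⟨x, hx⟩ b hb

theorem exists_exp {A : Type*} [CommGroup A] [Finite A] {p : ℕ} [Fact p.Prime] (hA : IsPGroup p A)
    (B : Subgroup A) (hB : B ≠ ⊥) :
    ∃ e : ℕ, (∀ b ∈ B, b ^ p ^ (e + 1) = 1) ∧ ∃ b ∈ B, b ^ p ^ e ≠ 1 := by
  classical
  have h : ∃ n : ℕ, ∀ b ∈ B, b ^ p ^ n = 1 := by
    obtain ⟨k, hk⟩ := hA.exists_card_eq
    exact ⟨k, fun b _ => hk ▸ pow_card_eq_one'⟩
  have h0 : Nat.find h ≠ 0 := fun h0 => hB (eq_bot_iff.mpr fun b hb => by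
    simpa [h0] using Nat.find_spec h b hb)
  obtain ⟨e, he⟩ := Nat.exists_eq_succ_of_ne_zero h0
  refine ⟨e, by simpa [he] using Nat.find_spec h, ?_⟩
  have := Nat.find_min h (he ▸ Nat.lt_succ_self e)
  push Not at this
  exact this

/-- Let A be a finite abelian p-group and X a group of automorphisms of A of order prime to p. Call a subgroup of A invariant when every element of X maps it onto itself. Then the following are equivalent: (i) A is not the direct product of two nontrivial invariant subgroups; (ii) every invariant subgroup of A is one of the subgroups Ω_i(A) = {a : a^(p^i) = 1}; (iii) the subgroup Ω₁(A) of elements of order dividing p has no invariant subgroups other than 1 and itself. -/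
theorem result {A : Type*} [CommGroup A] [Finite A] {p : ℕ} [Fact p.Prime] (hA : IsPGroup p A) (X : Subgroup (MulAut A)) (hX : (Nat.card X).Coprime p) : ((¬ ∃ B C : Subgroup A, B ≠ ⊥ ∧ C ≠ ⊥ ∧ (∀ x ∈ X, B.map x.toMonoidHom = B) ∧ (∀ x ∈ X, C.map x.toMonoidHom = C) ∧ B ⊓ C = ⊥ ∧ B ⊔ C = ⊤) ↔ (∀ B : Subgroup A, (∀ x ∈ X, B.map x.toMonoidHom = B) → ∃ i : ℕ, ∀ a : A, a ∈ B ↔ a ^ p ^ i = 1)) ∧ ((∀ B : Subgroup A, (∀ x ∈ X, B.map x.toMonoidHom = B) → ∃ i : ℕ, ∀ a : A, a ∈ B ↔ a ^ p ^ i = 1) ↔ (∀ B : Subgroup A, (∀ x ∈ X, B.map x.toMonoidHom = B) → (∀ b ∈ B, b ^ p = 1) → B = ⊥ ∨ ∀ a : A, a ∈ B ↔ a ^ p = 1)) := by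
  have hp : p.Prime := Fact.out
  simp only [inv_iff]
  have hpow : ∀ (x : X) (a : A) (n : ℕ), x • (a ^ n) = (x • a) ^ n := fun x a n => smul_pow' x a n
  have h23 : (∀ B : Subgroup A, (∀ x : X, ∀ b ∈ B, x • b ∈ B) → ∃ i : ℕ, ∀ a : A, a ∈ B ↔ a ^ p ^ i = 1)
      ↔ (∀ B : Subgroup A, (∀ x : X, ∀ b ∈ B, x • b ∈ B) → (∀ b ∈ B, b ^ p = 1) →
        B = ⊥ ∨ ∀ a : A, a ∈ B ↔ a ^ p = 1) := by
    constructor
    · intro h B hB hBp
      obtain ⟨i, hi⟩ := h B hB
      cases i with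
      | zero => exact Or.inl (eq_bot_iff.mpr fun a ha => by simpa using (hi a).mp ha)
      | succ i =>
        exact Or.inr fun a => ⟨hBp a, fun ha => (hi a).mpr (by rw [pow_succ', pow_mul, ha, one_pow])⟩
    · intro h B hB
      by_cases hB1 : B = ⊥
      · exact ⟨0, fun a => by simp [hB1]⟩
      obtain ⟨e, he, b0, hb0, hb1⟩ := exists_exp hA B hB1
      have h1 := (h (B.map (powMonoidHom (p ^ e))) (by
        rintro x _ ⟨b, hb, rfl⟩
        exact ⟨x • b, hB x b hb, (hpow x b _).symm⟩) (by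
        rintro _ ⟨b, hb, rfl⟩
        rw [powMonoidHom_apply, ← pow_mul, ← pow_succ, he b hb])).resolve_left
        fun h0 => hb1 (mem_bot.mp (h0.le ⟨b0, hb0, rfl⟩))
      refine ⟨e + 1, fun a => ⟨he a, ?_⟩⟩
      have key : ∀ j ≤ e + 1, ∀ a : A, a ^ p ^ j = 1 → a ∈ B := by
        intro j
        induction j with
        | zero => intro _ a ha; rw [pow_zero, pow_one] at ha; exact ha ▸ one_mem B
        | succ j ih =>
          intro hj a ha
          obtain ⟨b, hb, hba⟩ := (h1 (a ^ p ^ j)).mpr (by rw [← pow_mul, ← pow_succ, ha])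
          obtain ⟨d, rfl⟩ := Nat.exists_eq_add_of_le (Nat.le_of_succ_le_succ hj)
          have h2 := ih (by omega) (a * (b ^ p ^ d)⁻¹) (by
            rw [mul_pow, inv_pow, ← pow_mul, ← pow_add, add_comm d, ← hba, powMonoidHom_apply,
              mul_inv_cancel])
          simpa using mul_mem h2 (pow_mem hb (p ^ d))
      exact key _ le_rfl a
  refine ⟨⟨fun h => h23.mpr ?_, ?_⟩, h23⟩
  · intro B hB hBp
    by_cases hB1 : B = ⊥
    · exact Or.inl hB1
    right
    obtain ⟨e, he, a0, -, ha0⟩ := exists_exp hA ⊤ fun h0 => hB1 (le_bot_iff.mp (h0 ▸ le_top))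
    have hcop : (Nat.card X).Coprime (Nat.card A) := by
      obtain ⟨k, hk⟩ := hA.exists_card_eq
      exact hk ▸ hX.pow_right k
    obtain ⟨H, ⟨hH, h0, hh0, hh1⟩, hmin⟩ := Set.Finite.exists_minimal
      (Set.toFinite {H : Subgroup A | (∀ x : X, ∀ b ∈ H, x • b ∈ H) ∧ ∃ b ∈ H, b ^ p ^ e ≠ 1})
      ⟨⊤, fun _ _ _ => mem_top _, a0, mem_top _, ha0⟩
    have hker : ∀ h ∈ H, h ^ p ^ e = 1 → ∃ k ∈ H, k ^ p = h := by
      obtain ⟨L, hL, h1, h2⟩ := H85.exists_invariant_rel_compl (A := X) hp hcop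
        (N := H.map (powMonoidHom p)) (K := H ⊓ (powMonoidHom (p ^ e)).ker) (H := H) (by
          rintro _ ⟨b, hb, rfl⟩
          refine ⟨pow_mem hb p, ?_⟩
          change (b ^ p) ^ p ^ e = 1
          rw [← pow_mul, ← pow_succ', he b (mem_top b)]) inf_le_left (by
          rintro x _ ⟨b, hb, rfl⟩
          exact ⟨x • b, hH x b hb, (hpow x b _).symm⟩) (by
          rintro x b ⟨hb, hb'⟩
          refine ⟨hH x b hb, ?_⟩
          change (x • b) ^ p ^ e = 1
          rw [← hpow, show b ^ p ^ e = 1 from hb', smul_one]) hH fun b hb => ⟨b, hb, rfl⟩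
      have h3 : H ≤ L := by
        refine hmin ⟨hL, ?_⟩ (le_sup_right.trans h2.le)
        obtain ⟨k, hk, l, hl, rfl⟩ := mem_sup.mp (h2.ge hh0)
        refine ⟨l, hl, fun h4 => hh1 ?_⟩
        rw [mul_pow, h4, mul_one]
        exact hk.2
      intro b hb hb'
      exact h1.le ⟨⟨hb, hb'⟩, h3 hb⟩
    have hHtop : H = ⊤ := by
      obtain ⟨C, hC⟩ := H85.exists_isCompl_of_homocyclic hp (fun v => he v (mem_top v)) H hker
      obtain ⟨C', hC', hinv⟩ := H85.exists_invariant_isCompl hcop H hH C hC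
      by_contra hne
      refine h ⟨H, C', fun h1 => hh1 (by rw [mem_bot.mp (h1.le hh0), one_pow]), fun h1 => hne ?_,
        hH, hinv, hC'.inf_eq_bot, hC'.sup_eq_top⟩
      rw [← hC'.sup_eq_top, h1, sup_bot_eq]
    subst hHtop
    have h1 : (powMonoidHom (p ^ e) : A →* A).ker = (powMonoidHom p : A →* A).range := by
      ext a
      constructor
      · intro ha
        obtain ⟨k, -, hk⟩ := hker a (mem_top a) ha
        exact ⟨k, hk⟩
      · rintro ⟨k, rfl⟩
        change (k ^ p) ^ p ^ e = 1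
        rw [← pow_mul, ← pow_succ', he k (mem_top k)]
    have h2 : (powMonoidHom (p ^ e) : A →* A).range = (powMonoidHom p : A →* A).ker := by
      refine eq_of_le_of_card_ge ?_ (le_of_eq ?_)
      · rintro _ ⟨k, rfl⟩
        change (k ^ p ^ e) ^ p = 1
        rw [← pow_mul, ← pow_succ, he k (mem_top k)]
      · apply Nat.eq_of_mul_eq_mul_right (Nat.card_pos (α := (powMonoidHom p : A →* A).range))
        conv_rhs => rw [← h1]
        rw [← index_ker, ← index_ker, card_mul_index, index_mul_card]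
    have h3 : ⊤ ≤ B.comap (powMonoidHom (p ^ e)) := by
      refine hmin ⟨fun x b hb => ?_, ?_⟩ le_top
      · change (x • b) ^ p ^ e ∈ B
        rw [← hpow]
        exact hB x _ hb
      · obtain ⟨⟨b, hb⟩, hb1⟩ := ne_bot_iff_exists_ne_one.mp hB1
        obtain ⟨k, rfl⟩ := h2.ge (hBp b hb)
        exact ⟨k, hb, fun h4 => hb1 (Subtype.ext h4)⟩
    refine fun a => ⟨hBp a, fun ha => ?_⟩
    obtain ⟨k, rfl⟩ := h2.ge ha
    exact h3 (mem_top k)
  · rintro h ⟨B, C, hB1, hC1, hB, hC, hBC, -⟩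
    obtain ⟨i, hi⟩ := h B hB
    obtain ⟨j, hj⟩ := h C hC
    have key : ∀ {m n : ℕ} (a : A), m ≤ n → a ^ p ^ m = 1 → a ^ p ^ n = 1 := fun a hmn ha => by
      obtain ⟨d, rfl⟩ := Nat.exists_eq_add_of_le hmn
      rw [pow_add, pow_mul, ha, one_pow]
    rcases le_total i j with hij | hij
    · exact hB1 (by rwa [inf_eq_left.mpr fun a ha => (hj a).mpr (key a hij ((hi a).mp ha))] at hBC)
    · exact hC1 (by rwa [inf_eq_right.mpr fun a ha => (hi a).mpr (key a hij ((hj a).mp ha))] at hBC)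

end Cfsg.Agent.S3775
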