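import Cfsg.Statements.S3776
import Cfsg.Agent.SZ2.Red

set_option autoImplicit false
open Cfsg

namespace Cfsg.Agent.S3776

/-- Let G be a finite non-abelian 2-group with more than one involution admitting a solvable group of automorphisms that permutes its involutions transitively. Then the derived subgroup, the Frattini subgroup and the centre of G coincide and consist exactly of the elements x with x² = 1. -/
theorem result {G : Type*} [Group G] [Finite G] (hG : IsPGroup 2 G) (hna : ¬ IsMulCommutative G) (htwo : ∃ x y : G, x ≠ y ∧ x ≠ 1 ∧ x ^ 2 = 1 ∧ y ≠ 1 ∧ y ^ 2 = 1) (hY : ∃ Y : Subgroup (MulAut G), Group.IsSolvable Y ∧ ∀ x y : G, x ≠ 1 → x ^ 2 = 1 → y ≠ 1 → y ^ 2 = 1 → ∃ a ∈ Y, a x = y) : commutator G = frattini G ∧ frattini G = Subgroup.center G ∧ ∀ x : G, x ∈ Subgroup.center G ↔ x ^ 2 = 1 := by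
  have : Fact (Nat.Prime 2) := ⟨Nat.prime_two⟩
  simp only [pow_two] at htwo hY ⊢
  obtain ⟨Y, hY, htr⟩ := hY
  obtain ⟨ξ, n, m, h⟩ := SZ2.exists_higM hG htwo Y hY htr
  have hna' : ∃ x y : G, x * y ≠ y * x := by
    by_contra hcon
    push Not at hcon
    exact hna ⟨⟨hcon⟩⟩
  have h4 := h.sq_mem_Z hna'
  have h1 : commutator G ≤ h.Z := by
    rw [commutator_def, Subgroup.commutator_le]
    intro x _ y _
    have := h.kap_mem_Z (h4 x⁻¹) (h4 y) (h4 _)
    rwa [H41.kap, inv_inv] at this
  have h2 : h.Z ≤ commutator G := h.Z_le (fun x hx =>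
    Subgroup.characteristic_iff_le_comap.1 inferInstance ξ hx) (fun e => by
      obtain ⟨x, y, hxy⟩ := hna'
      have := Subgroup.commutator_mem_commutator (Subgroup.mem_top x) (Subgroup.mem_top y)
      rw [← commutator_def, e, Subgroup.mem_bot] at this
      exact hxy (commutatorElement_eq_one_iff_mul_comm.1 this))
  have h3 : frattini G ≤ h.Z :=
    H3.frattini_le_of_elementary_quotient (p := 2) h1 (fun x => by rw [pow_two]; exact h4 x)
  have h5 := H3.commutator_le_frattini hG
  rw [h.center_eq hna']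
  exact ⟨le_antisymm h5 (h3.trans h2), le_antisymm h3 (h2.trans h5), fun x => h.mem_Z⟩

end Cfsg.Agent.S3776
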