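import Cfsg.Statements.S3778
import Cfsg.Agent.H83.ClassSize
import Cfsg.Agent.H4.MaxClass
import Cfsg.Agent.H21.Basic

set_option autoImplicit false
open Cfsg

namespace Cfsg.Agent.S3778

open Subgroup Cfsg.Agent.H83 Finset
open scoped commutatorElement

abbrev L (G : Type*) [Group G] (i : ℕ) : Subgroup G := (⊤ : Subgroup G).lowerCentralSeries i

/-- centralizer of the two-step factor -/
def C (G : Type*) [Group G] (i : ℕ) : Subgroup G where
  carrier := {x | ∀ g ∈ L G i, ⁅g, x⁆ ∈ L G (i + 2)}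
  one_mem' := fun g _ => by simp
  mul_mem' := fun {x y} hx hy g hg => by
    have e : ⁅g, x * y⁆ = ⁅g, x⁆ * (x * ⁅g, y⁆ * x⁻¹) := by
      simp only [commutatorElement_def]; group
    rw [e]
    exact mul_mem (hx g hg) ((inferInstance : (L G (i + 2)).Normal).conj_mem _ (hy g hg) x)
  inv_mem' := fun {x} hx g hg => by
    have e : ⁅g, x⁻¹⁆ = x⁻¹ * ⁅g, x⁆⁻¹ * x⁻¹⁻¹ := by
      simp only [commutatorElement_def]; group
    rw [e]
    exact (inferInstance : (L G (i + 2)).Normal).conj_mem _ (inv_mem (hx g hg)) _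

theorem C_ne_top {G : Type*} [Group G] [Group.IsNilpotent G] {i : ℕ} (h : i + 1 < Group.nilpotencyClass G) :
    C G i ≠ ⊤ := by
  intro hC
  have h1 : L G (i + 1) ≤ L G (i + 2) := by
    change ⁅L G i, ⊤⁆ ≤ _
    rw [commutator_le]
    intro g hg x _
    exact (hC.ge (mem_top x)) g hg
  have h2 : ∀ n, L G (i + 1) ≤ L G (i + 1 + n) := by
    intro n
    induction n with
    | zero => exact le_rfl
    | succ n ih => exact h1.trans (commutator_mono ih le_rfl)
  have h3 : L G (i + 1) = ⊥ := by
    rw [eq_bot_iff]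
    refine (h2 (Group.nilpotencyClass G)).trans ?_
    rw [le_bot_iff, Subgroup.lowerCentralSeries_eq_bot_iff_nilpotencyClass_le]
    omega
  rw [Subgroup.lowerCentralSeries_eq_bot_iff_nilpotencyClass_le] at h3
  omega

open Classical in
theorem step {G : Type*} [Group G] [Finite G] {p : ℕ} [Fact p.Prime] (hG : IsPGroup p G) (x : G) (i : ℕ) :
    p ^ (if x ∈ C G i then 0 else 1) * Nat.card (L G (i + 1)) * Nat.card ↥(centralizer ({x} : Set G) ⊓ L G i)
      ≤ Nat.card (L G i) * Nat.card ↥(centralizer ({x} : Set G) ⊓ L G (i + 1)) := by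
  have hle : L G (i + 1) ≤ L G i := Subgroup.lowerCentralSeries_antitone _ (Nat.le_succ i)
  have h1 := H21.card_sup_mul_card_inf (X := L G (i + 1)) (Y := centralizer ({x} : Set G) ⊓ L G i)
    (by rw [normalizer_eq_top]; exact le_top)
  have h2 : L G (i + 1) ⊓ (centralizer ({x} : Set G) ⊓ L G i) = centralizer ({x} : Set G) ⊓ L G (i + 1) := by
    rw [inf_left_comm, inf_eq_left.2 hle]
  rw [h2] at h1
  rw [mul_assoc, ← h1, ← mul_assoc]
  apply Nat.mul_le_mul_right
  have h3 : L G (i + 1) ⊔ centralizer ({x} : Set G) ⊓ L G i ≤ L G i := sup_le hle inf_le_right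
  split_ifs with hx
  · rw [pow_zero, one_mul]; exact card_le_of_le h3
  · rw [pow_one]
    refine H4.mul_card_le_of_lt (hG.to_subgroup _) (lt_of_le_of_ne h3 fun h => hx fun g hg => ?_)
    rw [← h, ← SetLike.mem_coe, normal_mul] at hg
    obtain ⟨a, ha, c, hc, rfl⟩ := hg
    have hc' := mem_cent.1 hc.1
    have e : ⁅a * c, x⁆ = ⁅a, x⁆ := by
      simp only [commutatorElement_def]
      calc a * c * x * (a * c)⁻¹ * x⁻¹ = a * (c * x) * c⁻¹ * a⁻¹ * x⁻¹ := by group
        _ = _ := by rw [hc']; group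
    change ⁅a * c, x⁆ ∈ _
    rw [e]
    exact commutator_mem_commutator ha (mem_top x)

open Classical in
theorem pow_le {G : Type*} [Group G] [Finite G] {p : ℕ} [Fact p.Prime] (hG : IsPGroup p G) (x : G) (n : ℕ) :
    p ^ (∑ i ∈ range n, if x ∈ C G i then 0 else 1) * Nat.card (L G n) * Nat.card (centralizer ({x} : Set G))
      ≤ Nat.card G * Nat.card ↥(centralizer ({x} : Set G) ⊓ L G n) := by
  induction n with
  | zero => simp [L]
  | succ n ih =>
    have h1 := step hG x n
    rw [sum_range_succ, pow_add]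
    refine Nat.le_of_mul_le_mul_right ?_ (H21.card_pos' (centralizer ({x} : Set G) ⊓ L G n))
    set e := p ^ (if x ∈ C G n then 0 else 1)
    set r := p ^ (∑ i ∈ range n, if x ∈ C G i then 0 else 1)
    calc _ = r * (e * Nat.card (L G (n + 1)) * Nat.card ↥(centralizer ({x} : Set G) ⊓ L G n))
            * Nat.card (centralizer ({x} : Set G)) := by ring
      _ ≤ r * (Nat.card (L G n) * Nat.card ↥(centralizer ({x} : Set G) ⊓ L G (n + 1)))
            * Nat.card (centralizer ({x} : Set G)) := by gcongr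
      _ = (r * Nat.card (L G n) * Nat.card (centralizer ({x} : Set G)))
            * Nat.card ↥(centralizer ({x} : Set G) ⊓ L G (n + 1)) := by ring
      _ ≤ (Nat.card G * Nat.card ↥(centralizer ({x} : Set G) ⊓ L G n))
            * Nat.card ↥(centralizer ({x} : Set G) ⊓ L G (n + 1)) := by gcongr
      _ = _ := by ring

/-- If G is a finite p-group in which every conjugacy class has at most p^b elements (every element has centralizer of index at most p^b), then G is abelian when b = 0, and when b ≥ 1 its nilpotency class c satisfies (c − 1)(p − 1) < bp, that is c < bp/(p − 1) + 1, and hence c ≤ 2b. -/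
theorem result {G : Type*} [Group G] [Finite G] {p : ℕ} [Fact p.Prime] (hG : IsPGroup p G) (b : ℕ) (hb : ∀ x : G, (Subgroup.centralizer ({x} : Set G)).index ≤ p ^ b) : ∃ c : ℕ, (⊤ : Subgroup G).lowerCentralSeries c = ⊥ ∧ (b ≠ 0 → (c - 1) * (p - 1) < b * p ∧ c ≤ 2 * b) ∧ (b = 0 → c ≤ 1) := by
  classical
  have hp : p.Prime := Fact.out
  have := hG.isNilpotent
  have := Fintype.ofFinite G
  set c := Group.nilpotencyClass G with hc
  have h1 : ∀ x : G, (∑ i ∈ range (c - 1), if x ∈ C G i then 0 else 1) ≤ b := by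
    intro x
    have h2 := pow_le hG x (c - 1)
    have h3 : Nat.card ↥(centralizer ({x} : Set G) ⊓ L G (c - 1)) ≤ Nat.card (L G (c - 1)) :=
      card_le_of_le inf_le_right
    have h4 := h2.trans (Nat.mul_le_mul_left _ h3)
    rw [mul_right_comm] at h4
    have h5 := Nat.le_of_mul_le_mul_right h4 (H21.card_pos' _)
    rw [← card_cent_mul_cs x, mul_comm] at h5
    have h6 := (Nat.le_of_mul_le_mul_left h5 (H21.card_pos' _)).trans (hb x)
    exact (Nat.pow_le_pow_iff_right hp.one_lt).1 h6
  have h2 : ∑ x : G, (∑ i ∈ range (c - 1), if x ∈ C G i then 0 else 1) ≤ (Fintype.card G - 1) * b := by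
    rw [← add_sum_erase _ _ (mem_univ (1 : G))]
    have : (∑ i ∈ range (c - 1), if (1 : G) ∈ C G i then 0 else 1) = 0 := by simp
    rw [this, zero_add]
    refine (sum_le_card_nsmul _ _ b fun x _ => h1 x).trans ?_
    rw [card_erase_of_mem (mem_univ _), card_univ, smul_eq_mul]
  have h3 : ∀ i ∈ range (c - 1), (p - 1) * Fintype.card G ≤ p * ∑ x : G, if x ∈ C G i then 0 else 1 := by
    intro i hi
    have h4 : C G i ≠ ⊤ := C_ne_top (by have := mem_range.1 hi; omega)
    have h5 := H4.mul_card_le_of_lt (hG.to_subgroup ⊤) h4.lt_top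
    rw [card_top, Nat.card_eq_fintype_card (α := G), Nat.card_eq_fintype_card, Fintype.card_subtype] at h5
    have h6 : (∑ x : G, if x ∈ C G i then 0 else 1) = #{x : G | ¬ x ∈ C G i} := by
      rw [card_filter]
      exact sum_congr rfl fun x _ => by split_ifs <;> simp_all
    have h7 := card_filter_add_card_filter_not (s := (univ : Finset G)) (fun x => x ∈ C G i)
    rw [card_univ] at h7
    rw [h6, Nat.sub_mul, one_mul]
    have h8 : p * Fintype.card G = p * #{x : G | x ∈ C G i} + p * #{x : G | ¬ x ∈ C G i} := by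
      rw [← mul_add, h7]
    omega
  have h4 : (c - 1) * ((p - 1) * Fintype.card G) ≤ p * ((Fintype.card G - 1) * b) := by
    refine le_trans ?_ (Nat.mul_le_mul_left p h2)
    rw [sum_comm, mul_sum]
    have := card_nsmul_le_sum _ _ _ h3
    rwa [card_range, smul_eq_mul] at this
  have h5 := Fintype.card_pos (α := G)
  have h6 := hp.two_le
  obtain ⟨n, hn⟩ : ∃ n, Fintype.card G = n + 1 := ⟨Fintype.card G - 1, by omega⟩
  obtain ⟨q, rfl⟩ : ∃ q, p = q + 2 := ⟨p - 2, by omega⟩
  rw [hn, Nat.add_sub_cancel, show q + 2 - 1 = q + 1 by omega] at h4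
  refine ⟨c, Subgroup.lowerCentralSeries_nilpotencyClass, fun hb0 => ?_, fun hb0 => ?_⟩
  · have h7 : (c - 1) * (q + 1) < b * (q + 2) := by
      by_contra h8
      push Not at h8
      have : 0 < b := Nat.pos_of_ne_zero hb0
      nlinarith [Nat.mul_le_mul_right (n + 1) h8]
    refine ⟨h7, ?_⟩
    by_contra h8
    have : 2 * b ≤ c - 1 := by omega
    nlinarith [Nat.mul_le_mul_right (q + 1) this]
  · rw [hb0] at h4
    simp at h4
    omega

end Cfsg.Agent.S3778
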