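import Cfsg.Statements.S3780
import Cfsg.Agent.H19.FixBound
import Cfsg.Agent.H19.CompLen

set_option autoImplicit false
open Cfsg

namespace Cfsg.Agent.S3780

open ArithmeticFunction in
theorem exists_gen {G : Type*} [Group G] [Finite G] (k : ℕ) : ∀ B : Subgroup G,
    cardFactors B.index ≤ k → ∃ S : Finset G, S.card ≤ k ∧ Subgroup.closure (S : Set G) ⊔ B = ⊤ := by
  classical
  induction k with
  | zero =>
    intro B h
    refine ⟨∅, le_rfl, ?_⟩
    have h1 : B.index = 1 := by
      have h0 : B.index ≠ 0 := Subgroup.index_ne_zero_of_finite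
      rcases cardFactors_eq_zero_iff_eq_zero_or_one.mp (Nat.le_zero.mp h) with h | h
      · exact absurd h h0
      · exact h
    rw [Subgroup.index_eq_one.mp h1, sup_top_eq]
  | succ k ih =>
    intro B h
    by_cases hB : B = ⊤
    · exact ⟨∅, Nat.zero_le _, by rw [hB, sup_top_eq]⟩
    obtain ⟨x, hx⟩ : ∃ x, x ∉ B := by
      by_contra hc
      push Not at hc
      exact hB (eq_top_iff.mpr fun x _ => hc x)
    have hle : B ≤ Subgroup.closure {x} ⊔ B := le_sup_right
    have h1 := Subgroup.relIndex_mul_index hle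
    have h2 : B.relIndex (Subgroup.closure {x} ⊔ B) ≠ 1 := fun h => hx
      (Subgroup.relIndex_eq_one.mp h (Subgroup.mem_sup_left (Subgroup.subset_closure rfl)))
    have h3 : B.relIndex (Subgroup.closure {x} ⊔ B) ≠ 0 := Subgroup.index_ne_zero_of_finite
    have h4 := cardFactors_mul h3
      (Subgroup.index_ne_zero_of_finite (H := Subgroup.closure {x} ⊔ B))
    have h5 : cardFactors (B.relIndex (Subgroup.closure {x} ⊔ B)) ≠ 0 := fun h => by
      rcases cardFactors_eq_zero_iff_eq_zero_or_one.mp h with h | h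
      exacts [h3 h, h2 h]
    rw [h1] at h4
    obtain ⟨S, hS, hS'⟩ := ih (Subgroup.closure {x} ⊔ B) (by omega)
    refine ⟨insert x S, (Finset.card_insert_le x S).trans (by omega), ?_⟩
    rw [Finset.coe_insert, Set.insert_eq, Subgroup.closure_union, sup_comm (Subgroup.closure {x}),
      sup_assoc, hS']

/-- Let V be a finite abelian p-group and α an automorphism of V of order p whose fixed-point subgroup has order p^n. Then V can be generated by pn elements: some subset of V with at most pn elements generates V. -/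
theorem result {V : Type*} [CommGroup V] [Finite V] {p : ℕ} [Fact p.Prime] (hV : IsPGroup p V) (α : MulAut V) (hα : orderOf α = p) (n : ℕ) (hfix : Nat.card {v : V // α v = v} = p ^ n) : ∃ S : Finset V, S.card ≤ p * n ∧ Subgroup.closure (S : Set V) = ⊤ := by
  have hp : p.Prime := Fact.out
  have hi : ∀ (k : ℕ) (x : V), (α : V →* V)^[k] x = (α ^ k) x := by
    intro k x
    induction k with
    | zero => rfl
    | succ k ih => rw [Function.iterate_succ_apply', ih, pow_succ']; rfl
  have h1 := H19.card_le_pow_fixed hp (α : V →* V)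
    (fun x => by rw [hi, ← hα, pow_orderOf_eq_one]; rfl) (powMonoidHom p : V →* V).ker
    (fun x (hx : x ^ p = 1) => by
      change (α x) ^ p = 1
      rw [← map_pow, hx, map_one]) (fun x _ y _ => mul_comm x y) 1
    (fun x (hx : x ^ p = 1) => by rw [pow_one, hx])
  erw [hfix] at h1
  rw [← Subgroup.index_range, ← pow_mul] at h1
  obtain ⟨a, ha⟩ := hV.index (powMonoidHom p : V →* V).range
  obtain ⟨S, hS, hS'⟩ := exists_gen (p * n) (powMonoidHom p : V →* V).range (by
    rw [ha, Nat.pow_le_pow_iff_right hp.one_lt] at h1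
    rw [ha, ArithmeticFunction.cardFactors_apply_prime_pow hp]
    rwa [mul_one, mul_comm] at h1)
  refine ⟨S, hS, eq_top_iff.mpr fun x _ => ?_⟩
  have h2 : ∀ (j : ℕ) (x : V), ∃ y : V, x * (y ^ p ^ j)⁻¹ ∈ Subgroup.closure (S : Set V) := by
    intro j x
    induction j with
    | zero => exact ⟨x, by simp⟩
    | succ j ih =>
      obtain ⟨y, hy⟩ := ih
      obtain ⟨s, hs, _, ⟨z, rfl⟩, rfl⟩ := Subgroup.mem_sup.mp (hS' ▸ Subgroup.mem_top y)
      refine ⟨z, ?_⟩
      have := mul_mem hy (pow_mem hs (p ^ j))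
      rwa [mul_pow, powMonoidHom_apply, ← pow_mul, ← pow_succ', mul_inv, mul_assoc,
        mul_right_comm, inv_mul_cancel, one_mul] at this
  obtain ⟨j, hj⟩ := hV.exists_card_eq
  obtain ⟨y, hy⟩ := h2 j x
  rwa [← hj, pow_card_eq_one', inv_one, mul_one] at hy

end Cfsg.Agent.S3780
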