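import Cfsg.Statements.S3783
import Cfsg.Agent.H79.PLen

set_option autoImplicit false
open Cfsg

namespace Cfsg.Agent.S3783

open Cfsg.Agent.H79

/-- Let G be a finite p-soluble group in which, for every prime q ≠ p, the Sylow q-subgroups are abelian. If the Sylow p-subgroups of G have exponent dividing p^n, then G has p-length at most n. -/
theorem result {G : Type*} [Group G] [Finite G] {p : ℕ} [Fact p.Prime] (hG : Cfsg.IsPSolvable p G) (hab : ∀ (q : ℕ) [Fact q.Prime], q ≠ p → ∀ Q : Sylow q G, IsMulCommutative (Q : Subgroup G)) (n : ℕ) (hexp : ∀ (P : Sylow p G), ∀ x ∈ (P : Subgroup G), x ^ p ^ n = 1) : Cfsg.PLengthLE p n G := by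
  refine pLength_le_exp (fun G _ => ∀ q : ℕ, q.Prime → q ≠ p →
    ∀ Q : Subgroup G, IsPGroup q Q → IsMulCommutative Q) (fun G G' _ _ _ f hf h q hq hqp => ?_)
    (fun G _ _ h n₀ q m h1 hq hm e => h q hq ?_) n G hG (fun q hq hqp => ?_) (pExp_of_sylow hexp)
  · haveI := Fact.mk hq
    exact comm_of_surjective (h q hq hqp) f hf
  · rintro rfl
    have h2 : q ∣ q ^ n₀ - q ^ m := Nat.dvd_sub (dvd_pow_self q (by omega)) (dvd_pow_self q (by omega))
    have := pow_pos hq.pos n₀
    rw [show q ^ n₀ - q ^ m = 1 by omega] at h2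
    exact hq.one_lt.ne' (Nat.dvd_one.1 h2)
  · haveI := Fact.mk hq
    exact comm_of_sylow (hab q hqp)

end Cfsg.Agent.S3783
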