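import Cfsg.Statements.S3785
import Cfsg.Agent.H79.Sec
import Cfsg.Agent.BG.L1_11

set_option autoImplicit false
open Cfsg

namespace Cfsg.Agent.S3785

open H79 H49 Subgroup
open scoped commutatorElement

/-- Let G be a finite solvable group whose Fitting subgroup F(G) has odd order. If an element g of G commutes with every element of prime order of F(G), then g ∈ F(G). -/
theorem result {G : Type*} [Group G] [Finite G] (hG : Group.IsSolvable G) (hodd : Odd (Nat.card (Cfsg.fittingSubgroup G))) (g : G) (hg : ∀ x ∈ Cfsg.fittingSubgroup G, (orderOf x).Prime → g * x = x * g) : g ∈ Cfsg.fittingSubgroup G := by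
  rw [← fittingOf_top] at hodd hg ⊢
  haveI := fittingOf_normal (⊤ : Subgroup G)
  let C := centralizer {x | x ∈ fittingOf (⊤ : Subgroup G) ∧ (orderOf x).Prime}
  haveI hC : C.Normal := ⟨fun c hc a x hx => by
    have := hc (a⁻¹ * x * a) ⟨(inferInstance : (fittingOf ⊤).Normal).conj_mem' x hx.1 a, by
      have := (MulAut.conj a⁻¹).orderOf_eq x
      simp only [MulAut.conj_apply, inv_inv] at this
      rw [this]; exact hx.2⟩
    calc _ = a * (a⁻¹ * x * a * c) * a⁻¹ := by group
      _ = _ := by rw [this]; group⟩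
  refine mem_fitting_of_chief hG trivial fun U W hc hU => ?_
  obtain ⟨r, hr, Z, _, _, π, V, _, _, _, ρ, hrU, hexp, hπ, -, h1, -, -, h3⟩ :=
    exists_chief_lin hc inferInstance
  haveI := hc.2.2.1
  have hr2 : r ≠ 2 := by
    rintro rfl
    exact (Nat.not_even_iff_odd.2 hodd) (even_iff_two_dvd.2 (hrU.trans (card_dvd_of_le hU)))
  refine (h1 g).1 (h3.le (H22.le_pCore (hC.map π hπ) ?_ (mem_map_of_mem π fun x hx =>
    (hg x hx.1 hx.2).symm)))
  refine (isPi_of_elt ?_).isPGroup hr.out
  rintro _ ⟨c, hc, rfl⟩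
  obtain ⟨y, -, z, hz, rfl, hy, hz'⟩ := exists_pi_decomp {r} c
  have hzC := zpowers_le.2 hc hz
  have h4 : z ∈ 𝒞(piCoreOf {r} (fittingOf ⊤)) := BG.l1_11_elt hr2
    ((piCoreOf_pi _ _).isPGroup hr.out) (norm_piCoreOf _ le_normalizer_of_normal (mem_top z))
    ((isPiNat_compl_singleton_iff_coprime hr.out).1 hz') fun x hx hxr => by
      by_cases h : x = 1
      · simp [h]
      · exact hzC x ⟨piCoreOf_le _ _ hx, by rw [orderOf_eq_prime hxr h]; exact hr.out⟩
  rw [map_mul, (h1 z).2 fun u hu => ?_, mul_one]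
  · exact IsPiNat.of_dvd hy (orderOf_map_dvd π y)
  obtain ⟨a, ha, b, hb, rfl, ha', hb'⟩ := exists_pi_decomp {r} u
  have h5 := h4 a (nilpotent_le_piCoreOf (fittingOf_nil _) (zpowers_le.2 (hU (zpowers_le.2 hu ha)))
    (isPi_zpowers.2 ha') (mem_zpowers a))
  obtain ⟨t, ht⟩ := exists_pow_eq_self_of_coprime (x := b)
    ((isPiNat_compl_singleton_iff_coprime hr.out).1 hb').symm
  have h6 : b ∈ W := ht ▸ pow_mem (hexp b (zpowers_le.2 hu hb)) t
  have e : ⁅z, a * b⁆ = a * ⁅z, b⁆ * a⁻¹ := by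
    simp only [commutatorElement_def]
    rw [← mul_assoc z, ← h5]; group
  rw [e]
  exact (inferInstance : W.Normal).conj_mem _
    (commutator_le_right ⊤ W (commutator_mem_commutator trivial h6)) a

end Cfsg.Agent.S3785
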