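import Cfsg.Statements.S3786
import Cfsg.Agent.H79.T1

set_option autoImplicit false
open Cfsg

namespace Cfsg.Agent.S3786

open H79 Subgroup

universe u

theorem two_mul {p : ℕ} [Fact p.Prime] (hp : p ≠ 2) (e : ℕ) : ∀ (G : Type u) [Group G] [Finite G],
    IsPSolvable p G → PExp p e G → PLengthLE p (2 * e) G := by
  induction e with
  | zero => intro G _ _ _ h; exact h.pLength_zero
  | succ e ih =>
    intro G _ _ hG he
    let f := QuotientGroup.mk' (pPrimePCore p G)
    have hf := QuotientGroup.mk'_surjective (pPrimePCore p G)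
    have hG' := H22.IsPSolvable.of_surjective hG f hf
    let f' := QuotientGroup.mk' (pPrimePCore p (G ⧸ pPrimePCore p G))
    have hf' := QuotientGroup.mk'_surjective (pPrimePCore p (G ⧸ pPrimePCore p G))
    refine pLength_succ_of_ker f (QuotientGroup.ker_mk' _).le (pLength_succ_of_ker f'
      (QuotientGroup.ker_mk' _).le (ih _ (H22.IsPSolvable.of_surjective hG' f' hf') ?_))
    rintro x ⟨k, hk⟩
    obtain ⟨x, rfl⟩ := hf' x
    obtain ⟨y, -, hy, hy'⟩ := exists_pElt_lift f' hk
    rw [← hy, ← map_pow]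
    refine (QuotientGroup.eq_one_iff _).2 (pow_mem_of_comm hp hG' (he.of_surjective f hf y hy')
      fun P hP hyP w hw => ?_)
    obtain ⟨S, hS⟩ := hP.exists_le_sylow
    obtain ⟨T, rfl⟩ := Sylow.mapSurjective_surjective hf p S
    obtain ⟨a, ha, rfl⟩ := hS hw
    obtain ⟨b, hb, rfl⟩ := hS hyP
    rw [← commutatorElement_eq_one_iff_commute, ← map_pow, ← map_pow, ← map_commutatorElement]
    exact (QuotientGroup.eq_one_iff _).2 (t1_grp hp hG he T.2 ha hb)

/-- The Hall–Higman bound on p-length. Let p be an odd prime and G a finite p-soluble group whose Sylow p-subgroups have exponent dividing p^e. (a) If p is not of the form 2^k + 1, or if the Sylow 2-subgroups of G are abelian, then G has p-length at most e. (b) In every case G has p-length at most 2e. -/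
theorem result {G : Type*} [Group G] [Finite G] {p : ℕ} [Fact p.Prime] (hp : p ≠ 2) (hG : Cfsg.IsPSolvable p G) (e : ℕ) (hexp : ∀ (P : Sylow p G), ∀ x ∈ (P : Subgroup G), x ^ p ^ e = 1) : (((¬ ∃ k : ℕ, p = 2 ^ k + 1) ∨ ∀ S : Sylow 2 G, IsMulCommutative (S : Subgroup G)) → Cfsg.PLengthLE p e G) ∧ Cfsg.PLengthLE p (2 * e) G := by
  refine ⟨fun h => pLength_le_exp (fun G _ => (¬ ∃ k : ℕ, p = 2 ^ k + 1) ∨
    ∀ Q : Subgroup G, IsPGroup 2 Q → IsMulCommutative Q)
    (fun G G' _ _ _ f hf h => h.imp id fun h => comm_of_surjective h f hf)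
    (fun G _ _ h n₀ q m h1 hq hm e => ?_) e G hG (h.imp id comm_of_sylow) (pExp_of_sylow hexp),
    two_mul hp e G hG (pExp_of_sylow hexp)⟩
  have hp' : p.Prime := Fact.out
  have h2 := pow_pos hp'.pos n₀
  obtain rfl := eq_two_of_pow_add_one (k := n₀) (m := m) hp' hp hq (by omega)
  refine h.resolve_left (not_not.2 ?_)
  obtain ⟨k, -, hk⟩ := (Nat.dvd_prime_pow hq).1 (e ▸ Nat.sub_one_dvd_pow_sub_one p n₀)
  exact ⟨k, by have := hp'.pos; omega⟩

end Cfsg.Agent.S3786
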