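import Cfsg.Statements.S3787
import Cfsg.Agent.H79.DLen
import Cfsg.Agent.H60.S4
import Cfsg.Agent.H49.PLength

set_option autoImplicit false
open Cfsg

namespace Cfsg.Agent.S3787

open H79 H49 Subgroup Module H21
open scoped commutatorElement

/-- The description of the wreath product used in the statement. -/
def Wr (p : ℕ) (W : Type*) [Group W] : Prop :=
  ∃ (B : Subgroup W) (t : W), B.Normal ∧ IsMulCommutative B ∧ (∀ b ∈ B, b ^ p = 1) ∧
    Nat.card B = p ^ p ∧ orderOf t = p ∧ t ∉ B ∧ Nat.card W = p ^ (p + 1) ∧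
    Nat.card ↥(B ⊓ centralizer ({t} : Set W)) = p

theorem Wr.of_equiv {p : ℕ} {W W' : Type*} [Group W] [Group W'] [Finite W] (e : W ≃* W')
    (h : Wr p W) : Wr p W' := by
  obtain ⟨B, t, h1, h2, h3, h4, h5, h6, h7, h8⟩ := h
  have hi : Function.Injective e.toMonoidHom := e.injective
  refine ⟨B.map e.toMonoidHom, e t, h1.map _ e.surjective, inferInstance, ?_, ?_, ?_,
    fun h => h6 ((mem_map_iff_mem hi).1 h), by rw [← h7, Nat.card_congr e.toEquiv], ?_⟩
  · rintro _ ⟨b, hb, rfl⟩; rw [← map_pow, h3 b hb, map_one]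
  · rw [card_map_of_injective hi, h4]
  · rw [← h5]; exact e.orderOf_eq t
  · rw [← h8, ← card_map_of_injective hi, Subgroup.map_inf _ _ _ hi]
    suffices h : 𝒞[e t] = 𝒞[t].map e.toMonoidHom by rw [h]
    ext x
    obtain ⟨x, rfl⟩ := e.surjective x
    refine Iff.trans ?_ (mem_map_iff_mem hi).symm
    simp only [mem_cent1, ← map_mul, e.apply_eq_iff_eq]

theorem exists_wr {H : Type*} [Group H] [Finite H] {p : ℕ} [hp : Fact p.Prime] {V : Subgroup H}
    [V.Normal] (hV : IsElementaryAbelian p V) {x : H} (hsup : V ⊔ zpowers x = ⊤) (hx : x ∉ V)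
    (hxp : x ^ p ∈ V) {w₀ : H} (hw₀ : w₀ ∈ V) (hne : (w₀ * x) ^ p ≠ x ^ p) :
    ∃ (N : Subgroup H) (_ : N.Normal), Wr p (H ⧸ N) := by
  set u := nrep hV x - 1 with hu
  have hN : ∀ v, (EA.val v * x) ^ p = EA.val ((u ^ (p - 1)) v) * x ^ p := fun v => by
    have := geom_sum_char (K := ZMod p) (p := p) (nrep hV x) 1
    rw [pow_one] at this
    rw [val_mul_pow, this]
  have hup : u ^ p = 0 := by
    have := sub_one_pow_char (K := ZMod p) (p := p) (nrep hV x) 1
    rw [pow_one] at this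
    rw [this, ← map_pow, (nrep_eq_one_iff hV _).2 (abelian_iff.1 hV.1 hxp), sub_self]
  let v₀ := EA.mk hV w₀ hw₀
  have h0 : (u ^ (p - 1)) v₀ ≠ 0 := fun h => hne (by
    have := hN v₀; rwa [h, EA.val_zero, one_mul] at this)
  obtain ⟨f, hf⟩ := Module.Projective.exists_dual_eq_one (ZMod p) h0
  let Φ : EA V hV →ₗ[ZMod p] (Fin p → ZMod p) := LinearMap.pi fun i => f ∘ₗ u ^ (i : ℕ)
  have hΦ : ∀ v i, Φ v i = f ((u ^ (i : ℕ)) v) := fun _ _ => rfl
  have hp1 := hp.out.pos
  have hz : ∀ i v, p ≤ i → (u ^ i) v = 0 := fun i v h => by rw [pow_eq_zero_of_le h hup]; rfl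
  have hsurj : ∀ k ≤ p, ∀ w : Fin p → ZMod p, (∀ i : Fin p, k ≤ i → w i = 0) →
      w ∈ LinearMap.range Φ := by
    intro k
    induction k with
    | zero => exact fun _ w h => ⟨0, by ext i; simp [h i (Nat.zero_le _)]⟩
    | succ k ih =>
      intro hk w h
      refine (Submodule.sub_mem_iff_left _ (Submodule.smul_mem _ (w ⟨k, hk⟩)
        (LinearMap.mem_range_self Φ ((u ^ (p - 1 - k)) v₀)))).1 (ih (by omega) _ fun i hi => ?_)
      rw [Pi.sub_apply, Pi.smul_apply, hΦ, ← End.mul_apply, ← pow_add]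
      rcases hi.eq_or_lt with h1 | h1
      · obtain rfl : i = ⟨k, hk⟩ := Fin.ext h1.symm
        rw [show k + (p - 1 - k) = p - 1 by omega, hf]; simp
      · rw [h i h1, hz _ _ (by omega)]; simp
  have hker : ∀ v, v ∈ LinearMap.ker Φ ↔ ∀ i, f ((u ^ i) v) = 0 := fun v =>
    ⟨fun h i => (lt_or_ge i p).elim (fun hi => congrFun h ⟨i, hi⟩) fun hi => by
      rw [hz i v hi, map_zero], fun h => funext fun i => h i⟩
  let N := EA.toSubgroup (LinearMap.ker Φ)
  have hNV : N ≤ V := EA.toSubgroup_le _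
  have hNn : N.Normal := by
    rw [normal_iff_top_le_norm, ← hsup, sup_le_iff, zpowers_le]
    refine ⟨norm_of_cent (le_cent_of_abelian hV.1 le_rfl hNV), mem_normalizer_of_forall ?_⟩
    rintro _ ⟨v, hv, rfl⟩
    rw [← val_nrep, show nrep hV x = u + 1 by simp [hu]]
    refine EA.val_mem_toSubgroup.2 (add_mem ((hker _).2 fun i => ?_) hv)
    rw [← End.mul_apply, ← pow_succ]; exact (hker v).1 hv _
  let π := QuotientGroup.mk' N
  have hπ : ∀ v, π (EA.val v) = 1 ↔ ∀ i, f ((u ^ i) v) = 0 := fun v =>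
    (QuotientGroup.eq_one_iff _).trans (EA.val_mem_toSubgroup.trans (hker v))
  let c := EA.mk hV _ hxp
  have hc : u c = 0 := EA.val_eq_one.1 (by
    rw [val_nrep_sub_one]; exact commutatorElement_eq_one_iff_commute.2 (Commute.self_pow x p))
  have hsucc : ∀ i v, (u ^ (i + 1)) ((u ^ (p - 1)) v) = 0 := fun i v => by
    rw [← End.mul_apply, ← pow_add, hz _ _ (by omega)]
  have htB : ∀ v : EA V hV, π (EA.val v * x) ∉ V.map π := fun v h => by
    rw [← mem_comap, comap_map_eq, QuotientGroup.ker_mk', sup_eq_left.2 hNV] at h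
    exact hx ((V.mul_mem_cancel_left (EA.val_mem v)).1 h)
  have hB : Nat.card (V.map π) = p ^ p := by
    have h1 := card_mul_relIndex hNV
    have h2 := Submodule.card_eq_card_quotient_mul_card (LinearMap.ker Φ)
    have h3 : LinearMap.range Φ = ⊤ :=
      eq_top_iff.2 fun w _ => hsurj p le_rfl w fun i hi => absurd i.2 (by omega)
    rw [Nat.card_congr Φ.quotKerEquivRange.toEquiv, h3, EA.card_eq, ← h1,
      ← EA.card_toSubgroup] at h2
    rw [← relIndex_mk', Nat.eq_of_mul_eq_mul_left Nat.card_pos h2, Nat.card_congr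
      Submodule.topEquiv.toEquiv]
    simp
  refine ⟨N, hNn, V.map π, π (EA.val (-(f c • v₀)) * x),
    Normal.map inferInstance _ (QuotientGroup.mk'_surjective N), ?_, ?_, hB,
    orderOf_eq_prime ?_ fun h => htB _ (h ▸ one_mem _), htB _, ?_, ?_⟩
  · haveI := hV.1; infer_instance
  · rintro _ ⟨b, hb, rfl⟩; rw [← map_pow, hV.2 b hb, map_one]
  · rw [← map_pow, hN, show x ^ p = EA.val c from rfl, ← EA.val_add, hπ]
    rintro (_ | i)
    · simp [hf]
    · rw [map_add, hsucc, pow_succ, End.mul_apply, hc]; simp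
  · rw [← (V.map π).card_mul_index, hB, index_map_eq _ (QuotientGroup.mk'_surjective N)
      ((QuotientGroup.ker_mk' N).le.trans hNV), pow_succ, ← relIndex_top_right, ← hsup, sup_comm,
      relIndex_sup_of_norm (.inl le_normalizer_of_normal), relIndex_mk', MonoidHom.map_zpowers,
      Nat.card_zpowers, orderOf_eq_prime (p := p) (x := QuotientGroup.mk' V x) (by
        rw [← map_pow]; exact (QuotientGroup.eq_one_iff _).2 hxp)
        fun h => hx ((QuotientGroup.eq_one_iff _).1 h)]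
  · have hcm : ∀ v w : EA V hV, π (EA.val w) ∈ 𝒞[π (EA.val v * x)] ↔ ∀ i, f ((u ^ (i + 1)) w) = 0 :=
      fun v w => by
        have e : ⁅EA.val v * x, EA.val w⁆ = EA.val (u w) := by
          rw [val_nrep_sub_one]
          have := abelian_iff.1 hV.1 (EA.val_mem v) _
            ((inferInstance : V.Normal).conj_mem _ (EA.val_mem w) x)
          simp only [commutatorElement_def]
          calc _ = EA.val v * (x * EA.val w * x⁻¹) * (EA.val v)⁻¹ * (EA.val w)⁻¹ := by group
            _ = _ := by rw [← this]; group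
        rw [mem_cent1, eq_comm, ← commutatorElement_eq_one_iff_mul_comm, ← map_commutatorElement, e,
          hπ]
        simp only [pow_succ, End.mul_apply]
    have : V.map π ⊓ 𝒞[π (EA.val (-(f c • v₀)) * x)] = zpowers (π (EA.val ((u ^ (p - 1)) v₀))) := by
      refine le_antisymm ?_ (zpowers_le.2 ⟨mem_map_of_mem π (EA.val_mem _),
        (hcm _ _).2 fun i => by rw [hsucc, map_zero]⟩)
      rintro _ ⟨⟨w, hw, rfl⟩, h⟩
      have h1 := (hcm _ (EA.mk hV w hw)).1 h
      have h2 := (hπ (EA.mk hV w hw - (f (EA.mk hV w hw)).val • (u ^ (p - 1)) v₀)).2 (by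
        rintro (_ | i)
        · simp [hf]
        · rw [map_sub, map_sub, h1, map_nsmul, hsucc]; simp)
      rw [EA.val_sub, map_mul, map_inv, mul_inv_eq_one, EA.val_nsmul, map_pow] at h2
      exact h2 ▸ pow_mem (mem_zpowers _) _
    rw [this, Nat.card_zpowers]
    refine orderOf_eq_prime (by rw [← map_pow, hV.2 _ (EA.val_mem _), map_one]) fun h => ?_
    simpa [hf] using (hπ _).1 h 0

/-- Let G be a finite p-soluble group, p an odd prime not of the form 2^k + 1, and suppose the wreath product C_p ≀ C_p (of order p^(p+1)) is not involved in a Sylow p-subgroup of G: no section of a Sylow p-subgroup is isomorphic to it. Then G has p-length at most 1. -/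
theorem result {G : Type*} [Group G] [Finite G] {p : ℕ} [Fact p.Prime] (hp2 : p ≠ 2) (hnf : (¬ ∃ k : ℕ, p = 2 ^ k + 1)) (hG : Cfsg.IsPSolvable p G) (P : Sylow p G) (hwr : ∀ (W : Type) [Group W] [Finite W], (∃ (B : Subgroup W) (t : W), B.Normal ∧ IsMulCommutative B ∧ (∀ b ∈ B, b ^ p = 1) ∧ Nat.card B = p ^ p ∧ orderOf t = p ∧ t ∉ B ∧ Nat.card W = p ^ (p + 1) ∧ Nat.card ↥(B ⊓ Subgroup.centralizer ({t} : Set W)) = p) → ¬ Cfsg.Involves W ↥(P : Subgroup G)) : Cfsg.PLengthLE p 1 G := by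
  have hp : p.Prime := Fact.out
  obtain ⟨G₁, _, _, π, hπ, hr, hc⟩ := exists_red hG
  refine pLength_succ_of_red hc (pLength_zero_iff.2 (Nat.coprime_comm.1
    (hp.coprime_iff_not_dvd.2 fun hd => ?_)))
  obtain ⟨x, hx⟩ := exists_prime_orderOf_dvd_card' p hd
  have hx1 : x ≠ 1 := fun h => hp.one_lt.ne (by rw [← hx, h, orderOf_one])
  have hxp : x ^ p ^ (0 + 1) = 1 := orderOf_dvd_iff_pow_eq_one.1 (by simp [hx])
  rcases hall_higman hr.rep hr.rep_injective (N := pPrimeCore p _) H22.coprime_card_pPrimeCore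
    (normal_iff_top_le_norm.1 inferInstance trivial) hxp
    (not_mem_cent_pPrimeCore (H22.IsPSolvable.quotient hr.sol _) H22.pCore_quotient_pCore
      (k := 1) (by simpa using hxp) (by simpa using hx1)) with h | ⟨n₀, q, m, h1, h2, hq, hm, h3, -⟩
  swap
  · obtain rfl : n₀ = 1 := by omega
    have := hp.pos
    rw [pow_one] at h3
    obtain rfl := eq_two_of_prime_eq_pow_add_one hp hq hm (by omega)
    exact hnf ⟨m, by omega⟩
  obtain ⟨x, rfl⟩ := QuotientGroup.mk_surjective x
  obtain ⟨v, hv⟩ := DFunLike.ne_iff.1 h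
  let H := pCore p G₁ ⊔ zpowers x
  have hV : IsElementaryAbelian p ((pCore p G₁).subgroupOf H) :=
    ⟨abelian_iff.2 fun a ha b hb => Subtype.ext (abelian_iff.1 hr.ea.1 ha b hb),
      fun a ha => Subtype.ext (hr.ea.2 a ha)⟩
  obtain ⟨N, _, hW⟩ := exists_wr hV (x := ⟨x, mem_sup_right (mem_zpowers x)⟩) (by
      refine map_injective H.subtype_injective ?_
      rw [Subgroup.map_sup, map_subgroupOf_eq_of_le le_sup_left, MonoidHom.map_zpowers,
        ← MonoidHom.range_eq_map, range_subtype]; rfl)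
    (fun h => hx1 ((QuotientGroup.eq_one_iff x).2 h))
    ((QuotientGroup.eq_one_iff (N := pCore p G₁) (x ^ p)).1 (by rw [QuotientGroup.mk_pow]; simpa using hxp))
    (w₀ := ⟨EA.val v, mem_sup_left (EA.val_mem v)⟩) (EA.val_mem v) fun h => hv (by
      have h1 := val_mul_pow hr.ea x v (p ^ (0 + 1))
      rw [geom_sum_char (K := ZMod p), zero_add, pow_one,
        show (EA.val v * x) ^ p = x ^ p from congrArg Subtype.val h, right_eq_mul,
        EA.val_eq_one] at h1
      simpa [hr.rep_mk] using h1)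
  let e := (Shrink.mulEquiv.{0} (α := H ⧸ N)).symm
  have hW' := hW.of_equiv e
  haveI := Finite.of_equiv _ e.toEquiv
  obtain ⟨K, f, hf⟩ := H94.involves_iff.1 (H94.involves_sylow_of_involves P ⊤
    ((IsPGroup.of_card hW'.choose_spec.choose_spec.2.2.2.2.2.2.1).to_subgroup ⊤)
    (H60.involves_of_surjective π hπ (H94.involves_iff.2 ⟨H, e.toMonoidHom.comp
      (QuotientGroup.mk' N), e.surjective.comp (QuotientGroup.mk'_surjective N)⟩)))
  exact hwr _ hW' (H94.involves_iff.2 ⟨K, (Subgroup.subtype ⊤).comp f, fun y =>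
    (hf ⟨y, trivial⟩).imp fun _ h => congrArg Subtype.val h⟩)

end Cfsg.Agent.S3787
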