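import Cfsg.Statements.S3788
import Cfsg.Agent.H79.DLen
import Cfsg.Agent.H60.S4

set_option autoImplicit false
open Cfsg

namespace Cfsg.Agent.S3788

open H79 H49 Subgroup Module
open scoped commutatorElement

theorem cent_of_quad {K : Type*} [Field K] [IsAlgClosed K] {V : Type*} [AddCommGroup V] [Module K V]
    [FiniteDimensional K V] {X : Type*} [Group X] [Finite X] {p : ℕ} [hp : Fact p.Prime] [CharP K p]
    (hp2 : p ≠ 2) (ρ : X →* End K V) (hρ : Function.Injective ρ) {N : Subgroup X} {z : X}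
    (hz : z ∈ 𝒩(N)) (hN : (Nat.card N).Coprime p) (hzp : z ^ p = 1) (h1 : (ρ z - 1) ^ 2 = 0)
    (h2 : ∀ c ∈ N ⊓ 𝒞[z], (ρ c - 1) * (ρ z - 1) = 0) : z ∈ 𝒞(N) := by
  by_contra hzN
  have hzB := mem_zpowers z
  have hB : IsPGroup p (zpowers z) := by
    rw [IsPGroup.iff_card, Nat.card_zpowers]
    exact ((Nat.dvd_prime_pow hp.out).1 (orderOf_dvd_of_pow_eq_one (n := p ^ 1)
      (by rwa [pow_one]))).imp fun _ h => h.2
  obtain ⟨q, Q, hBQ, U, hU, hq, hpq, hqK, hQN, hQ, -, hC, hcl, hpow, hmin, hU0, hUi, g₀, hne⟩ :=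
    exists_crit_irr ρ hρ hp.out hB (zpowers_le.2 hz) hN (fun h => hp.out.one_lt.ne'
      (Nat.Coprime.eq_one_of_dvd hN.symm ((CharP.cast_eq_zero_iff K p _).1 h))) hzB
      (by rw [cent_zpowers]; exact mem_cent1.2 rfl) hzN
  haveI := Fact.mk hq
  haveI := Fintype.ofFinite Q
  haveI : Nontrivial U := Submodule.nontrivial_iff_ne_bot.2 hU0
  have hQK := card_ne_zero_of_pgroup hq hqK hQ
  have hodd := hp.out.odd_of_ne_two hp2
  obtain ⟨w, hw⟩ := exists_ne (0 : U)
  have hzS := hUi.mem_isoStab_of_quad hQK _ (f := U.subtype) (fun _ _ => rfl)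
    (rep_cjAut ρ (hBQ hzB)) hodd (cjAut_pow_eq_one _ hzp) (w := w) (by simpa using hw) (by simp [h1])
  obtain ⟨f, b, hf, hf1, hf2, hb⟩ := hUi.exists_ext _ (f₀ := U.subtype)
    (fun h => hw (Subtype.ext (congrArg (· w) h))) (fun _ _ => rfl) hzS (rep_cjAut ρ (hBQ hzB))
  have hf3 : ∀ v, f ((b - 1) v) = (ρ z - 1) (f v) := fun v => by simp [hf2]
  have hb2 : (b - 1) ^ 2 = 0 := LinearMap.ext fun v => hf (by
    rw [pow_two, End.mul_apply, hf3, hf3, ← End.mul_apply, ← pow_two, h1]; simp)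
  have hb1 : b ≠ 1 := fun h => hne (by simpa [h] using (hb g₀).symm)
  have h3 : 3 ≤ p := by have := hp.out.two_le; omega
  have hC' : Q ⊓ 𝒞[z] ≤ radS hU.res := (le_inf inf_le_left hC).trans cent_le_radS
  obtain ⟨-, h5⟩ := hUi.hh_crit hQK hb (k := 1)
    (by rw [← sub_eq_zero, ← sub_one_pow_char (K := K), pow_one]
        exact pow_eq_zero_of_le (by omega) hb2)
    (by rw [pow_one]; exact cjAut_pow_eq_one _ hzp)
    (fun g i h0 hi h => hUi.smul_of_mem_rad (coe_mem_radS.1 (hC' ⟨g.2, by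
      rw [cjAut_pow] at h
      simpa using fix_pow_of_fix (n := 0) hp.out (by simpa using hzp) h0 hi
        (mem_cent1.2 (mul_inv_eq_iff_eq_mul.1 (congrArg Subtype.val h)).symm)⟩)))
    (pow_eq_zero_of_le (by rw [pow_one]; omega) hb2) hb1
  obtain ⟨w', hw'⟩ : ∃ w, (b - 1) w ≠ 0 := by
    by_contra h; push Not at h; exact hb1 (sub_eq_zero.1 (LinearMap.ext h))
  have hder : ⁅Q, Q⁆ ≤ 𝒞[z] := hmin _ (der_lt_of_solvable (H50.solvable_of_pgroup hQ) fun h =>
    hne (by subst h; rw [Subsingleton.elim (cjAut _ _ g₀) g₀])) (norm_commutator hBQ hBQ)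
  have h6 := hUi.finrank_le_one fun g k => mem_rad.1 (mem_rad_iff_comm.2 fun k => by
    have hm := commutator_mem_commutator g.2 k.2
    obtain ⟨c, hc⟩ := hUi.smul_of_mem_rad (comm_mem_rad hcl g k)
    have h7 := congrArg (· (f w')) (h2 _ ⟨hQN (der_le hm), hder hm⟩)
    simp only [End.mul_apply, ← hf3, LinearMap.sub_apply (ρ _), LinearMap.zero_apply] at h7
    have h8 := hf1 ⁅g, k⁆ ((b - 1) w')
    rw [hc] at h8
    have h9 : c • (b - 1) w' = (1 : K) • (b - 1) w' :=
      hf (by rw [one_smul]; exact h8.trans (sub_eq_zero.1 h7))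
    rw [hc, smul_left_injective K hw' h9, one_smul]) k
  rw [h5, pow_one] at h6
  omega

theorem red_mem {G : Type*} [Group G] [Finite G] {p : ℕ} [hp : Fact p.Prime] (hr : Red p G) {a : G}
    (hV : pCore p G ≤ 𝒩(zpowers a)) (h : p ≠ 2 ∨ ¬ Involves (Equiv.Perm (Fin 4)) G) :
    a ∈ pCore p G := by
  by_contra ha
  let f := QuotientGroup.mk' (pCore p G)
  have k1 : ∀ b v, H21.EA.val ((hr.rep (f b) - 1) v) = ⁅b, H21.EA.val v⁆ :=
    fun b v => val_nrep_sub_one hr.ea b v
  have k2 : ∀ v ∈ pCore p G, ⁅a, v⁆ ∈ pCore p G ⊓ zpowers a := fun v hv =>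
    ⟨commutator_le_right ⊤ _ (commutator_mem_commutator trivial hv),
      commutator_le_left_of_norm hV (commutator_mem_commutator (mem_zpowers a) hv)⟩
  have k3 : ∀ x ∈ zpowers a, ⁅a, x⁆ = 1 := by
    rintro _ ⟨i, rfl⟩; exact commutatorElement_eq_one_iff_commute.2 (Commute.self_zpow a i)
  have h1 : (hr.rep (f a) - 1) ^ 2 = 0 := LinearMap.ext fun v => H21.EA.val_eq_one.1 (by
    rw [pow_two, End.mul_apply, k1, k1]; exact k3 _ (k2 _ (H21.EA.val_mem v)).2)
  have h2 : f a ^ p = 1 := hr.rep_injective (by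
    have := sub_one_pow_char (K := ZMod p) (p := p) (hr.rep (f a)) 1
    rw [pow_one] at this
    rw [map_pow, map_one, ← sub_eq_zero, ← this]
    exact pow_eq_zero_of_le hp.out.two_le h1)
  have h2' : a ^ p ∈ pCore p G := (QuotientGroup.eq_one_iff _).1 (by rw [← h2]; rfl)
  have h3 : pCore p G ⊓ zpowers a ≤ zpowers (a ^ p) := fun x hx => by
    obtain ⟨i, rfl⟩ := mem_powers_iff_mem_zpowers.2 hx.2
    by_cases hi : p ∣ i
    · obtain ⟨j, rfl⟩ := hi
      simp only [pow_mul]; exact pow_mem (mem_zpowers _) j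
    · have := pow_gcd_mem h2' hx.1
      rw [((Nat.Prime.coprime_iff_not_dvd hp.out).2 hi).gcd_eq_one, pow_one] at this
      exact absurd this ha
  refine not_mem_cent_pPrimeCore (H22.IsPSolvable.quotient hr.sol _) H22.pCore_quotient_pCore
    (k := 1) (x := f a) (by rwa [pow_one]) (fun e => ha ((QuotientGroup.eq_one_iff a).1 e)) ?_
  by_cases hp2 : p = 2
  swap
  · obtain ⟨Ψ, hΨ⟩ := exists_baseChange (ZMod p) (H21.EA _ hr.ea)
    refine cent_of_quad hp2 (Ψ.toMonoidHom.comp hr.rep) (hΨ.comp hr.rep_injective)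
      (normal_iff_top_le_norm.1 inferInstance trivial) H22.coprime_card_pPrimeCore h2
      (by simpa using congrArg Ψ h1) fun c hc => ?_
    obtain ⟨c, rfl⟩ := QuotientGroup.mk'_surjective _ c
    have h4 : ⁅c, a⁆ ∈ pCore p G := (QuotientGroup.eq_one_iff _).1 (by
      rw [← QuotientGroup.mk'_apply, map_commutatorElement]
      exact commutatorElement_eq_one_iff_mul_comm.2 (mem_cent1.1 hc.2))
    have h5 := val_mul_pow hr.ea a (H21.EA.mk hr.ea _ h4) (p ^ 1)
    rw [geom_sum_char (K := ZMod p), ← hr.rep_mk, show (hr.rep a - 1) ^ (p ^ 1 - 1) = 0 from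
      pow_eq_zero_of_le (by have := hp.out.two_le; rw [pow_one]; omega) h1, H21.EA.val_mk,
      LinearMap.zero_apply, H21.EA.val_zero, one_mul,
      commutatorElement_def, inv_mul_cancel_right, conj_pow, pow_one, mul_inv_eq_iff_eq_mul] at h5
    have : (hr.rep (f c) - 1) * (hr.rep (f a) - 1) = 0 :=
      LinearMap.ext fun v => H21.EA.val_eq_one.1 (by
        rw [End.mul_apply, k1, k1]
        obtain ⟨i, hi⟩ := h3 (k2 _ (H21.EA.val_mem v))
        rw [← hi]
        exact commutatorElement_eq_one_iff_commute.2 (Commute.zpow_right h5 i))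
    simpa [f] using congrArg Ψ this
  subst hp2
  have hS := h.resolve_left (not_not.2 rfl)
  set u := a ^ 2 with hu
  have hu2 : u * u = 1 := by rw [← pow_two]; exact hr.ea.2 _ h2'
  have k4 : ∀ v ∈ pCore 2 G, ⁅a, v⁆ = 1 ∨ ⁅a, v⁆ = u := fun v hv => by
    obtain ⟨i, hi⟩ := mem_powers_iff_mem_zpowers.2 (h3 (k2 v hv))
    simp only at hi
    rw [← hi, ← Nat.div_add_mod i 2, pow_add, pow_mul, pow_two u, hu2, one_pow, one_mul]
    rcases Nat.mod_two_eq_zero_or_one i with h | h <;> simp [h]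
  have key : ∀ g : G, ⁅a, g * u * g⁻¹⁆ = 1 →
      (hr.rep (f a) - 1) * (hr.rep (f (g * a * g⁻¹)) - 1) = 0 := fun g hg =>
    LinearMap.ext fun v => H21.EA.val_eq_one.1 (by
      rw [End.mul_apply, k1, k1]
      have := k4 _ ((inferInstance : (pCore 2 G).Normal).conj_mem' _ (H21.EA.val_mem v) g)
      have e : ⁅g * a * g⁻¹, H21.EA.val v⁆ = g * ⁅a, g⁻¹ * H21.EA.val v * g⁆ * g⁻¹ := by
        simp only [commutatorElement_def]; group
      rcases this with h | h <;> rw [e, h]
      · simp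
      · exact hg)
  have hsq : ∀ g : G, (hr.rep (f (g * a * g⁻¹)) - 1) ^ 2 = 0 := fun g => by
    have := sub_one_pow_char (K := ZMod 2) (p := 2) (hr.rep (f (g * a * g⁻¹))) 1
    rw [pow_one] at this
    rw [this, ← map_pow, ← map_pow, conj_pow,
      show f (g * a ^ 2 * g⁻¹) = 1 from (QuotientGroup.eq_one_iff _).2
        ((inferInstance : (pCore 2 G).Normal).conj_mem _ h2' g), map_one, sub_self]
  have h4 : ∀ g : G, f (a * (g * a * g⁻¹)) ^ 2 ^ 2 = 1 := fun g => hr.rep_injective (by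
    rw [map_pow, map_one, ← sub_eq_zero, ← sub_one_pow_char (K := ZMod 2), map_mul, map_mul]
    have e1 := h1
    have e2 := hsq g
    have e3 : (hr.rep (f a) - 1) * (hr.rep (f (g * a * g⁻¹)) - 1) = 0 ∨
        (hr.rep (f (g * a * g⁻¹)) - 1) * (hr.rep (f a) - 1) = 0 := by
      have hw := (inferInstance : (pCore 2 G).Normal).conj_mem _ h2' g
      have hw' := (inferInstance : (pCore 2 G).Normal).conj_mem' _ h2' g
      rcases k4 _ hw with h5 | h5
      · exact .inl (key g h5)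
      rcases k4 _ hw' with h6 | h6
      · right
        have := congrArg (fun x => hr.rep (f g) * x * hr.rep (f g⁻¹)) (key g⁻¹ (by rwa [inv_inv]))
        simp only [mul_sub, sub_mul, ← map_mul, mul_one, one_mul, mul_zero, zero_mul] at this ⊢
        convert this using 4 <;> first | (simp; done) | group
      by_cases hu1 : u = 1
      · exact .inl (key g (h5.trans hu1))
      refine absurd (H60.involves_perm_four u (g * u * g⁻¹) a (g * a * g⁻¹) hu2
        (by rw [conj_mul, hu2]; simp) (abelian_iff.1 hr.ea.1 hw u h2') hu1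
        (by simpa using hu1) (fun e => hu1 ?_) (by rw [hu]; group) ?_ (by rw [hu]; group) ?_) hS
      · rw [← h5, ← e]; exact k3 _ (pow_mem (mem_zpowers a) 2)
      · rw [commutatorElement_def, mul_inv_eq_iff_eq_mul] at h5; exact h5
      · rw [commutatorElement_def, mul_inv_eq_iff_eq_mul] at h6
        rw [abelian_iff.1 hr.ea.1 hw u h2']
        calc _ = g * (a * (g⁻¹ * u * g) * a⁻¹) * g⁻¹ := by group
          _ = _ := by rw [h6]; group
    generalize hr.rep (f a) = x at *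
    generalize hr.rep (f (g * a * g⁻¹)) = y at *
    obtain ⟨e, rfl⟩ : ∃ e, x = e + 1 := ⟨x - 1, by simp⟩
    obtain ⟨d, rfl⟩ : ∃ d, y = d + 1 := ⟨y - 1, by simp⟩
    simp only [add_sub_cancel_right, pow_two] at e1 e2 e3
    rcases e3 with e3 | e3
    · have h7 : ((e + 1) * (d + 1) - 1) ^ 2 = d * e := by
        have : ((e + 1) * (d + 1) - 1) ^ 2 = (e * d) * (e * d) + (e * e) * d + (e * d) * e + e * e +
          e * (d * d) + e * d + d * (e * d) + d * e + d * d := by noncomm_ring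
        rw [this, e1, e2, e3]; simp
      rw [show 2 ^ 2 = 2 * 2 by rfl, pow_mul, h7, pow_two, mul_assoc, ← mul_assoc e, e3]; simp
    · have h7 : ((e + 1) * (d + 1) - 1) ^ 2 = e * d := by
        have : ((e + 1) * (d + 1) - 1) ^ 2 = e * (d * e) * d + (e * e) * d + e * (d * e) + e * e +
          e * (d * d) + e * d + (d * e) * d + d * e + d * d := by noncomm_ring
        rw [this, e1, e2, e3]; simp
      rw [show 2 ^ 2 = 2 * 2 by rfl, pow_mul, h7, pow_two, mul_assoc, ← mul_assoc d, e3]; simp)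
  intro g hg
  obtain ⟨g, rfl⟩ := QuotientGroup.mk'_surjective _ g
  have h5 : f (a * (g * a * g⁻¹)) = ⁅f a, f g⁆ := by
    rw [commutatorElement_def, inv_eq_of_mul_eq_one_right (show f a * f a = 1 by rwa [← pow_two])]
    simp only [map_mul, map_inv, mul_assoc]
  refine (commutatorElement_eq_one_iff_mul_comm.1 (H50.eq_one_of_pow_of_coprime (h5 ▸ h4 g)
    (n := Nat.card (pPrimeCore 2 (G ⧸ pCore 2 G))) ?_
    (H22.coprime_card_pPrimeCore.symm.pow_left 2))).symm
  exact congrArg Subtype.val (pow_card_eq_one' (x := (⟨_, commutator_le_right ⊤ _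
    (commutator_mem_commutator trivial hg)⟩ : pPrimeCore 2 (G ⧸ pCore 2 G))))

/-- Let G be a finite p-soluble group, P a Sylow p-subgroup of G and A a cyclic normal subgroup of P. If p is odd, or if no section of G is isomorphic to the symmetric group of degree 4, then A ≤ O_{p',p}(G). -/
theorem result {G : Type*} [Group G] [Finite G] {p : ℕ} [Fact p.Prime] (hG : Cfsg.IsPSolvable p G) (P : Sylow p G) (A : Subgroup G) (hAP : A ≤ (P : Subgroup G)) (hAn : (P : Subgroup G) ≤ Subgroup.normalizer (A : Set G)) (hA : IsCyclic A) (h : p ≠ 2 ∨ ¬ Cfsg.Involves (Equiv.Perm (Fin 4)) G) : A ≤ Cfsg.pPrimePCore p G := by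
  obtain ⟨G₁, _, _, π, hπ, hr, hc⟩ := exists_red hG
  obtain ⟨a, ha⟩ := isCyclic_iff_exists_zpowers_eq_top.1 hA
  have h1 : zpowers (a : G) = A := by
    rw [← coe_subtype, ← MonoidHom.map_zpowers, ha, ← MonoidHom.range_eq_map, range_subtype]
  rw [← hc, ← h1, zpowers_le]
  refine red_mem hr ?_ (h.imp id fun h h' => h (H60.involves_of_surjective π hπ h'))
  rw [← MonoidHom.map_zpowers, h1]
  exact (H22.pCore_le_sylow (P.mapSurjective hπ)).trans ((map_mono hAn).trans (le_normalizer_map π))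

end Cfsg.Agent.S3788
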