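import Cfsg.Statements.S3789
import Cfsg.Agent.H79.DLen

set_option autoImplicit false
open Cfsg

namespace Cfsg.Agent.S3789

open H79 H49 Subgroup

universe u

theorem key {p : ℕ} [Fact p.Prime] (hp : p ≠ 2) (d : ℕ) : ∀ (G : Type u) [Group G] [Finite G],
    IsPSolvable p G → ∀ P : Sylow p G, dS (P : Subgroup G) d = ⊥ → PLengthLE p d G := by
  induction d with
  | zero => intro G _ _ _ P h; exact H22.pLengthLE_of_sylow_le P 0 (h.le.trans bot_le)
  | succ d ih =>
    intro G _ _ hG P h
    have hf := QuotientGroup.mk'_surjective (pPrimePCore p G)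
    refine pLength_succ_of_ker _ (QuotientGroup.ker_mk' _).le (ih _
      (H22.IsPSolvable.of_surjective hG _ hf) (P.mapSurjective hf) ?_)
    rw [Sylow.coe_mapSurjective, ← map_dS, Subgroup.map_eq_bot_iff, QuotientGroup.ker_mk']
    rcases d with _ | d
    · intro x hx
      rw [← H22.upperPSeries_two]
      refine H22.IsPSolvable.mem_upperPSeries_of_commutator hG P 0 x fun y hy => ?_
      rw [show x * y * x⁻¹ * y⁻¹ = 1 from h.le (commutator_mem_commutator hx hy)]
      exact one_mem _
    · exact der_le_pPrimePCore hp hG P (dS_le _ d) (norm_dS le_normalizer d) h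

/-- Let p be an odd prime and G a finite p-soluble group whose Sylow p-subgroups have derived length at most d. Then G has p-length at most d. -/
theorem result {G : Type*} [Group G] [Finite G] {p : ℕ} [Fact p.Prime] (hp : p ≠ 2) (hG : Cfsg.IsPSolvable p G) (d : ℕ) (hd : ∀ P : Sylow p G, derivedSeries ↥(P : Subgroup G) d = ⊥) : Cfsg.PLengthLE p d G := by
  exact key hp d G hG default (dS_eq_bot_iff.2 (hd default))

end Cfsg.Agent.S3789
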