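import Cfsg.Statements.S3790
import Cfsg.Agent.H79.PLen2

set_option autoImplicit false
open Cfsg

namespace Cfsg.Agent.S3790

open H79 H49 Subgroup

universe u

theorem step {p s a : ℕ} [Fact p.Prime] [hs : Fact s.Prime] (hsp : s ≠ p)
    (C : ∀ (G : Type u) [Group G], Prop)
    (hC : ∀ (G G' : Type u) [Group G] [Group G'] [Finite G] (f : G →* G'),
      Function.Surjective f → C G → C G')
    (hC' : ∀ (G : Type u) [Group G] [Finite G] (H : Subgroup G), C G → C H)
    (h : ∀ (G : Type u) [Group G] [Finite G], C G → (Nat.card G).Coprime s → PLengthLE p a G)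
    (l : ℕ) : ∀ (G : Type u) [Group G] [Finite G], C G → PLengthLE s l G →
      PLengthLE p ((1 + l) * a) G := by
  induction l with
  | zero => intro G _ _ hc hl; simpa using h G hc (pLength_zero_iff.1 hl)
  | succ l ih =>
    intro G _ _ hc hl
    rw [← add_assoc, add_mul, one_mul, add_comm]
    let f := QuotientGroup.mk' (pPrimeCore s G)
    have hf := QuotientGroup.mk'_surjective (pPrimeCore s G)
    refine pLength_add f (h _ (hC' _ _ hc) (by
      rw [QuotientGroup.ker_mk']; exact H22.coprime_card_pPrimeCore)) ?_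
    let g := QuotientGroup.mk' (pCore s (G ⧸ pPrimeCore s G))
    have hg := QuotientGroup.mk'_surjective (pCore s (G ⧸ pPrimeCore s G))
    refine pLength_of_ker_coprime g (by
      rw [QuotientGroup.ker_mk']
      exact coprime_of_pgroup Fact.out hs.out hsp.symm H22.isPGroup_pCore)
      (ih _ (hC _ _ (g.comp f) (hg.comp hf) hc) (pLength_of_surjective' (g.comp f) (hg.comp hf)
        (j := 1) ?_ (by rwa [add_comm])))
    rw [mul_one, H22.upperPSeries_two, ← MonoidHom.comap_ker, QuotientGroup.ker_mk']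
    rfl

theorem key {p : ℕ} [hp : Fact p.Prime] (r : ℕ) : ∀ (q l : Fin r → ℕ), (∀ i, (q i).Prime ∧ q i ≠ p) →
    ∀ (G : Type u) [Group G] [Finite G], (∀ s : ℕ, s.Prime → s ∣ Nat.card G → s ≠ p → ∃ i, q i = s) →
      (∀ i, PLengthLE (q i) (l i) G) → PLengthLE p (∏ i, (1 + l i)) G := by
  induction r with
  | zero =>
    intro q l _ G _ _ hc _
    refine pLength_one_of_pgroup (IsPGroup.iff_card.2 ⟨_, Nat.eq_prime_pow_of_unique_prime_dvd
      Nat.card_pos.ne' fun hs hd => ?_⟩)
    by_contra h
    exact (hc _ hs hd h).elim fun i => i.elim0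
  | succ r ih =>
    intro q l hq G _ _ hc hl
    haveI := Fact.mk (hq 0).1
    rw [Fin.prod_univ_succ]
    refine step (hq 0).2 (fun G _ => (∀ s : ℕ, s.Prime → s ∣ Nat.card G → s ≠ p → ∃ i, q i = s) ∧
      ∀ i : Fin r, PLengthLE (q i.succ) (l i.succ) G) (fun G G' _ _ _ f hf h => ⟨fun s hs hd =>
        h.1 s hs (hd.trans (card_dvd_of_surjective f hf)), fun i => ?_⟩)
      (fun G _ _ H h => ⟨fun s hs hd => h.1 s hs (hd.trans (card_subgroup_dvd_card H)), fun i => ?_⟩)
      (fun G _ _ h h' => ih _ _ (fun i => hq i.succ) G (fun s hs hd hsp => ?_) h.2) _ G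
      ⟨hc, fun i => hl i.succ⟩ (hl 0)
    · haveI := Fact.mk (hq i.succ).1
      exact pLength_of_surjective f hf (h.2 i)
    · haveI := Fact.mk (hq i.succ).1
      exact pLength_of_injective _ H.subtype_injective (h.2 i)
    · obtain ⟨i, rfl⟩ := h.1 s hs hd hsp
      rcases i.eq_zero_or_eq_succ with rfl | ⟨j, rfl⟩
      · exact absurd (Nat.Coprime.eq_one_of_dvd h'.symm hd) hs.one_lt.ne'
      · exact ⟨j, rfl⟩

/-- Let G be a finite solvable group and p a prime. Suppose p₁, …, p_r are distinct primes, all different from p, that include every prime dividing the order of G other than p, and that G has p_i-length at most l_i for each i. Then G has p-length at most the product of the numbers 1 + l_i. -/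
theorem result {G : Type*} [Group G] [Finite G] (hG : Group.IsSolvable G) (p : ℕ) [Fact p.Prime] (r : ℕ) (q : Fin r → ℕ) (hq : ∀ i, (q i).Prime ∧ q i ≠ p) (hinj : Function.Injective q) (hcover : ∀ s : ℕ, s.Prime → s ∣ Nat.card G → s ≠ p → ∃ i, q i = s) (l : Fin r → ℕ) (hl : ∀ i, Cfsg.PLengthLE (q i) (l i) G) : Cfsg.PLengthLE p (Finset.univ.prod fun i => 1 + l i) G := by
  exact key r q l hq G hcover hl

end Cfsg.Agent.S3790
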