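import Cfsg.Statements.S3791
import Cfsg.Agent.H79.PLen2

set_option autoImplicit false
open Cfsg

namespace Cfsg.Agent.S3791

open H79 H49 Subgroup

universe u

theorem key {r : ℕ} {q : Fin r → ℕ} (hq : ∀ i, (q i).Prime) (d : Fin r → ℕ) (n : ℕ) :
    ∀ (l : Fin r → ℕ) (G : Type u) [Group G] [Finite G], ∑ i, l i = n →
      (∀ s : ℕ, s.Prime → s ∣ Nat.card G → ∃ i, q i = s) →
      (∀ i, ∀ P : Subgroup G, IsPGroup (q i) P → dS P (d i) = ⊥) →
      (∀ i, PLengthLE (q i) (l i) G) → dS (⊤ : Subgroup G) (∑ i, d i * l i) = ⊥ := by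
  induction n using Nat.strong_induction_on with
  | _ n ih =>
  intro l G _ _ hn hc hd hl
  refine Subgroup.card_eq_one.1 (Nat.eq_one_iff_not_exists_prime_dvd.2 fun s hs hsd => ?_)
  obtain ⟨i, rfl⟩ := hc s hs (hsd.trans (card_subgroup_dvd_card _))
  haveI := Fact.mk hs
  refine hs.one_lt.ne' (Nat.Coprime.eq_one_of_dvd (H22.coprime_card_of_le (K := pPrimeCore (q i) G)
    ?_ H22.coprime_card_pPrimeCore).symm hsd)
  rcases h : l i with _ | k
  · exact le_top.trans (H22.pPrimeCore_eq_top_of_coprime (pLength_zero_iff.1 (h ▸ hl i))).ge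
  have hf := QuotientGroup.mk'_surjective (pPrimePCore (q i) G)
  have e1 := Finset.add_sum_erase Finset.univ l (Finset.mem_univ i)
  have e2 := Finset.add_sum_erase Finset.univ (fun j => d j * l j) (Finset.mem_univ i)
  have e3 : ∑ j, d j * Function.update l i k j = d i * k + ∑ j ∈ Finset.univ.erase i, d j * l j := by
    rw [← Finset.add_sum_erase Finset.univ _ (Finset.mem_univ i), Function.update_self]
    exact congrArg _ (Finset.sum_congr rfl fun j hj => by
      rw [Function.update_of_ne (Finset.ne_of_mem_erase hj)])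
  have h1 := ih _ (by rw [Finset.sum_update_of_mem (Finset.mem_univ i),
      Finset.sdiff_singleton_eq_erase]; omega) (Function.update l i k) (G ⧸ pPrimePCore (q i) G) rfl
    (fun s hs h => hc s hs (h.trans (card_quotient_dvd_card _))) (fun j P hP => by
      haveI := Fact.mk (hq j)
      obtain ⟨S, hS, h2⟩ := exists_pgroup_map_eq _ hf hP
      exact le_bot_iff.1 ((dS_mono h2 _).trans (by rw [← map_dS, hd j S hS, Subgroup.map_bot])))
    (fun j => by
      haveI := Fact.mk (hq j)
      by_cases hj : j = i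
      · subst hj; rw [Function.update_self]; exact pLength_quo_pPrimePCore (h ▸ hl j)
      · rw [Function.update_of_ne hj]; exact pLength_of_surjective _ hf (hl j))
  rw [← map_top_of_surjective _ hf, ← map_dS, Subgroup.map_eq_bot_iff, QuotientGroup.ker_mk',
    e3] at h1
  rw [← e2, h, mul_add, mul_one, add_right_comm, dS_add]
  refine (dS_mono h1 _).trans ?_
  obtain ⟨S, hS, h2⟩ := exists_pgroup_map_eq _ (QuotientGroup.mk'_surjective (pPrimeCore (q i) G))
    (H22.isPGroup_pCore (p := q i))
  conv_rhs => rw [← QuotientGroup.ker_mk' (pPrimeCore (q i) G)]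
  rw [← Subgroup.map_eq_bot_iff, map_dS, H22.map_pPrimePCore, eq_bot_iff]
  exact (dS_mono h2 _).trans (by rw [← map_dS, hd i S hS, Subgroup.map_bot])

/-- The Hall–Higman bound on derived length: let G be a finite solvable group, let p₁, …, p_r be distinct primes that include every prime dividing the order of G, and suppose that for each i the Sylow p_i-subgroups of G have derived length at most d_i and G has p_i-length at most l_i. Then G has derived length at most Σ d_i l_i. -/
theorem result {G : Type*} [Group G] [Finite G] (hG : Group.IsSolvable G) (r : ℕ) (q : Fin r → ℕ) (hq : ∀ i, (q i).Prime) (hinj : Function.Injective q) (hcover : ∀ s : ℕ, s.Prime → s ∣ Nat.card G → ∃ i, q i = s) (d l : Fin r → ℕ) (hd : ∀ i, ∀ P : Subgroup G, (haveI := Fact.mk (hq i); ∃ S : Sylow (q i) G, (S : Subgroup G) = P) → derivedSeries ↥P (d i) = ⊥) (hl : ∀ i, Cfsg.PLengthLE (q i) (l i) G) : derivedSeries G (Finset.univ.sum fun i => d i * l i) = ⊥ := by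
  rw [← dS_top]
  refine key hq d _ l G rfl hcover (fun i P hP => ?_) hl
  haveI := Fact.mk (hq i)
  obtain ⟨S, hS⟩ := hP.exists_le_sylow
  exact le_bot_iff.1 ((dS_mono hS _).trans (dS_eq_bot_iff.2 (hd i S ⟨S, rfl⟩)).le)

end Cfsg.Agent.S3791
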