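import Cfsg.Statements.S3792
import Cfsg.Agent.H79.T1
import Cfsg.Agent.H8.BaerSuzuki
import Cfsg.Agent.H49.PLength

set_option autoImplicit false
open Cfsg

namespace Cfsg.Agent.S3792

open H79 H49 Subgroup
open scoped commutatorElement

section
variable {G : Type*} [Group G] [Finite G] {p : ℕ} [hp : Fact p.Prime]

theorem mem_pPrimeCore (hG : IsPSolvable p G) {s : G}
    (h : ∀ x, s ∈ piCoreOf {p}ᶜ (Subgroup.closure {s, x})) : s ∈ pPrimeCore p G := by
  let π := QuotientGroup.mk' (pPrimeCore p G)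
  have h1 : ∀ (H : Subgroup G) x, x ∈ piCoreOf {p}ᶜ H → π x ∈ pCore p _ → π x = 1 :=
    fun H x hx h2 => (H22.inf_eq_bot_of_pgroup_coprime H22.isPGroup_pCore (H22.coprime_card_map π
      ((isPi_compl_singleton_iff_coprime hp.out).1 (piCoreOf_pi _ H)))).le
        ⟨h2, mem_map_of_mem π hx⟩
  refine (QuotientGroup.eq_one_iff s).1 (h1 _ s (h 1) (H22.IsPSolvable.isCharP_quotient hG
    fun y hy => ?_))
  obtain ⟨x, rfl⟩ := QuotientGroup.mk'_surjective _ y
  rw [← commutatorElement_eq_one_iff_mul_comm, ← map_commutatorElement]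
  refine h1 (Subgroup.closure {s, x}) _ (mul_mem (conj_mem_of_normalizer (le_norm_piCoreOf _ _
    (subset_closure (by simp))) (h x)) (inv_mem (h x))) ?_
  rw [map_commutatorElement]
  exact commutator_le_left _ ⊤ (commutator_mem_commutator hy trivial)

theorem mem_core_of_forall {H : Subgroup G} (hH : IsPSolvable p H) {s : G} (hs : s ∈ H)
    (h : ∀ x, s ∈ piCoreOf {p}ᶜ (Subgroup.closure {s, x})) : s ∈ piCoreOf {p}ᶜ H := by
  rw [← pPrimeCore_map_subtype hp.out]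
  refine ⟨⟨s, hs⟩, mem_pPrimeCore hH fun x => ?_, rfl⟩
  rw [← mem_map_iff_mem H.subtype_injective, piCoreOf_map_subtype, MonoidHom.map_closure,
    Set.image_pair]
  exact h x

theorem mem_core_of_coprime {H : Subgroup G} {s : G} (hs : s ∈ pPrimePCoreOf p H)
    (h : IsPiElt {p}ᶜ s) : s ∈ piCoreOf {p}ᶜ H := by
  obtain ⟨s, hs, rfl⟩ := hs
  rw [← pPrimeCore_map_subtype hp.out]
  refine mem_map_of_mem _ ((QuotientGroup.eq_one_iff s).1 (IsPiElt.eq_one (π := {p})
    ((isPi_of_isPGroup hp.out H22.isPGroup_pCore).elt hs) (IsPiNat.of_dvd h ?_)))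
  rw [coe_subtype, orderOf_coe]
  exact orderOf_map_dvd (QuotientGroup.mk' _) s

theorem mem_pcore_of_cent {H : Subgroup G} {z : G} (hz : z ∈ pPrimePCoreOf p H)
    (hc : z ∈ 𝒞(piCoreOf {p}ᶜ H)) (h : IsPiElt {p} z) : z ∈ piCoreOf {p} H := by
  obtain ⟨z, hz, rfl⟩ := hz
  rw [← pCore_map_subtype hp.out, pCore_eq_piCoreOf_top hp.out]
  refine mem_map_of_mem _ ?_
  let M := pPrimePCore p H ⊓ 𝒞(pPrimeCore p H)
  haveI := (H22.isPGroup_pCore (p := p) (G := H ⧸ pPrimeCore p H)).isNilpotent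
  have hM : Group.IsNilpotent M := Subgroup.isNilpotent_of_ker_le_center
    (((QuotientGroup.mk' (pPrimeCore p H)).comp M.subtype).codRestrict (pCore p _) fun x => x.2.1)
    fun x hx => mem_center_iff.2 fun y => Subtype.ext (y.2.2 _
      ((QuotientGroup.eq_one_iff _).1 (congrArg Subtype.val hx))).symm
  refine piCoreOf_le_of_normal _ le_top le_normalizer_of_normal (nilpotent_le_piCoreOf hM
    (zpowers_le.2 ⟨hz, fun y hy => Subtype.ext (hc _ ?_)⟩) (isPi_zpowers.2 (IsPiNat.of_dvd h ?_))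
    (mem_zpowers z))
  · rw [← pPrimeCore_map_subtype hp.out]; exact mem_map_of_mem _ hy
  · rw [coe_subtype, orderOf_coe]

theorem bad_pair {Q C P : Subgroup G} (hP : IsPGroup p P) (hPQ : P ≤ 𝒩(Q))
    (hc : (Nat.card Q).Coprime p) (hs : Group.IsSolvable Q) (hQC : Q ≤ 𝒩(C))
    (hmin : ∀ R < Q, P ≤ 𝒩(R) → R ≤ C) {g h v : G} (hgh : Subgroup.closure {g, h} = P)
    (hv : v ∈ Q) (hK : ¬ Q ≤ Subgroup.closure {g, v * h}) :
    ∃ n ∈ Q, ⁅g, n⁆ ∈ C ∧ v * ⁅h, n⁆ ∈ C := by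
  set K := Subgroup.closure ({g, v * h} : Set G)
  have hg : g ∈ P := hgh ▸ subset_closure (by simp)
  have hh : h ∈ P := hgh ▸ subset_closure (by simp)
  have hKQ : K ≤ P ⊔ Q := (closure_le _).2 (by
    rintro _ (rfl | rfl)
    exacts [mem_sup_left hg, mul_mem (mem_sup_right hv) (mem_sup_left hh)])
  have hKN : K ≤ 𝒩(Q) := hKQ.trans (sup_le hPQ le_normalizer)
  have hcP := H50.coprime_card_of_pgroup hP hc
  have hi : (Nat.card Q).Coprime ((Q ⊓ K).relIndex K) := by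
    rw [inf_relIndex_right]
    refine hcP.coprime_dvd_right (((?_ : _ ∣ Q.relIndex (P ⊔ Q)).trans
      (relIndex_sup_of_norm (.inl hPQ)).dvd).trans (relIndex_dvd_card _ _))
    rw [← card_quo hKN, ← card_quo (sup_le hPQ le_normalizer)]
    exact card_dvd_of_le (quo_mono _ hKQ)
  obtain ⟨D, hD⟩ := exists_compl_of_coprime (inf_le_right : Q ⊓ K ≤ K) (norm_inf hKN le_normalizer)
    (hi.coprime_dvd_left (card_dvd_of_le inf_le_left))
  obtain ⟨n, hn, hnD⟩ := sz_subJ (hD.right_le.trans hKN) (hD.relIndex_left ▸ hi.symm) (.inr hs) hPQ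
    (hD.right_le.trans (hKQ.trans (sup_comm _ _).le))
  have key : ∀ x ∈ P, ∀ w ∈ Q, w * x ∈ K → ∃ l ∈ Q ⊓ K, w * x = l * (n⁻¹ * x * n) ∧ x ∈ H49.cj n D := by
    intro x hx w hw hwx
    obtain ⟨l, hl, a, ha, e⟩ := (mem_sup_of_norm_left hD.2.2).1 (hD.1.ge hwx)
    have h1 : x⁻¹ * (n * a * n⁻¹) = 1 := (H49.inf_eq_bot_of_coprime hcP.symm).le
      ⟨P.mul_mem (P.inv_mem hx) (hnD (conj_mem_cj.2 ha)), by
        have h2 : x⁻¹ * (n * a * n⁻¹) = x⁻¹ * (n * l⁻¹ * w) * x * n⁻¹ := by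
          rw [show a = l⁻¹ * (w * x) by rw [e]; group]; group
        rw [h2]
        exact Q.mul_mem (conj_mem_of_normalizer' (hPQ hx)
          (mul_mem (mul_mem hn (inv_mem hl.1)) hw)) (Q.inv_mem hn)⟩
    have h2 := inv_mul_eq_one.1 h1
    exact ⟨l, hl, by rw [e, h2]; group, h2 ▸ conj_mem_cj.2 ha⟩
  obtain ⟨l₁, hl₁, e₁, h₁⟩ := key g hg 1 Q.one_mem (by rw [one_mul]; exact subset_closure (by simp))
  obtain ⟨l₂, hl₂, e₂, h₂⟩ := key h hh v hv (subset_closure (by simp))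
  have hL : Q ⊓ K ≤ C := by
    have := hmin (H49.cj n (Q ⊓ K)) (by
      conv_rhs => rw [← cj_eq_of_mem hn]
      exact cj_lt_cj_iff.2 (inf_lt_left.2 hK)) (by
      rw [← hgh, closure_le, ← H49.cj_normalizer]
      rintro _ (rfl | rfl)
      exacts [H49.cj_mono n hD.2.2 h₁, H49.cj_mono n hD.2.2 h₂])
    rwa [← cj_eq_of_mem_norm (hQC hn), H49.cj_le_cj_iff] at this
  refine ⟨n⁻¹, inv_mem hn, ?_, ?_⟩
  · convert hL hl₁ using 1
    rw [one_mul, ← mul_inv_eq_iff_eq_mul] at e₁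
    rw [← e₁, commutatorElement_def]; group
  · convert hL hl₂ using 1
    rw [← mul_inv_eq_iff_eq_mul] at e₂
    rw [← e₂, commutatorElement_def]; group

theorem exists_good {q : ℕ} [Fact q.Prime] {Q C P : Subgroup G} (hP : IsPGroup p P)
    (hPQ : P ≤ 𝒩(Q)) (hPC : P ≤ 𝒩(C)) (hc : (Nat.card Q).Coprime p) (hQ : IsPGroup q Q)
    (hCQ : C < Q) (hmin : ∀ R < Q, P ≤ 𝒩(R) → R ≤ C) {g h : G}
    (hgh : Subgroup.closure {g, h} = P) :
    ∃ a b : G, Q ≤ Subgroup.closure {a, b} ∧ P ≤ Subgroup.closure {a, b} := by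
  have hΦ := hmin _ (frattiniOf_lt hCQ.ne_bot) (hPQ.trans (H50.norm_le_norm_frattiniOf Q))
  have hder := (H50.der_le_frattiniOf hQ).trans hΦ
  obtain ⟨V, _, _, _, ρ, e, hs⟩ := exists_secRep (r := q) P.subtype (fun a => hPQ a.2)
    (fun a => hPC a.2) hCQ.le hder fun u hu => hΦ (H50.pow_mem_frattiniOf hQ hu)
  by_contra hne
  have key : ∀ g h : P, Subgroup.closure {(g : G), (h : G)} = P →
      ∀ w, ∃ c, (ρ g - 1) c = 0 ∧ (ρ h - 1) c = w := fun g h hgh w => by
    obtain ⟨v, hv, rfl⟩ := hs.surj w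
    obtain ⟨n, hn, h1, h2⟩ := bad_pair hP hPQ hc (H50.solvable_of_pgroup hQ)
      (norm_of_der_le hder hCQ.le) hmin hgh (inv_mem hv) fun hK => hne ⟨_, _, hK, by
        refine hgh.ge.trans ((closure_le _).2 ?_)
        rintro _ (rfl | rfl)
        · exact subset_closure (by simp)
        · exact (mul_mem_cancel_left (hK (inv_mem hv))).1 (subset_closure (by simp))⟩
    have h3 := commutator_le_right_of_norm hPQ (commutator_mem_commutator h.2 hn)
    refine ⟨e n, by rw [hs.sub_one_apply g hn]; exact (hs.zero _ (hCQ.le h1)).2 h1, ?_⟩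
    have h4 := (hs.zero _ (mul_mem (inv_mem hv) h3)).2 h2
    rw [hs.mul _ (inv_mem hv) _ h3, hs.inv hv, neg_add_eq_zero] at h4
    rw [hs.sub_one_apply h hn]; exact h4.symm
  let g' : P := ⟨g, hgh ▸ subset_closure (by simp)⟩
  let h' : P := ⟨h, hgh ▸ subset_closure (by simp)⟩
  have h1 := Finite.injective_iff_surjective.2 fun w => (key g' h' hgh w).imp fun _ h => h.2
  refine hCQ.not_ge fun u hu => (hs.zero u hu).1 ?_
  obtain ⟨c, -, h2⟩ := key h' g' (by rw [Set.pair_comm]; exact hgh) (e u)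
  obtain ⟨d, h3, h4⟩ := key g' h' hgh ((ρ h' - 1) c)
  rw [← h2, ← h1 h4, h3]

end

/-- Powell's Theorem: let G be a finite non-abelian simple group and p an odd prime dividing its order such that every proper subgroup of G is p-soluble. Then G can be generated by three elements. -/
theorem result {G : Type*} [Group G] [Finite G] [IsSimpleGroup G] (hna : ¬ IsMulCommutative G) {p : ℕ} [Fact p.Prime] (hp : p ≠ 2) (hdvd : p ∣ Nat.card G) (hprop : ∀ H : Subgroup G, H ≠ ⊤ → Cfsg.IsPSolvable p ↥H) : ∃ x y z : G, Subgroup.closure ({x, y, z} : Set G) = ⊤ := by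
  by_contra hgen
  push Not at hgen
  have hp' : p.Prime := Fact.out
  have hs : ∀ x y z : G, IsPSolvable p (Subgroup.closure ({x, y, z} : Set G)) :=
    fun x y z => hprop _ (hgen x y z)
  have m1 : ∀ x y z : G, x ∈ Subgroup.closure ({x, y, z} : Set G) :=
    fun _ _ _ => subset_closure (by simp)
  have m2 : ∀ x y z : G, y ∈ Subgroup.closure ({x, y, z} : Set G) :=
    fun _ _ _ => subset_closure (by simp)
  have m3 : ∀ x y z : G, z ∈ Subgroup.closure ({x, y, z} : Set G) :=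
    fun _ _ _ => subset_closure (by simp)
  obtain ⟨x₀, hx₀⟩ := exists_prime_orderOf_dvd_card' p hdvd
  have hdown : ∀ (H : Subgroup G) (s b : G), b ∈ H → s ∈ piCoreOf {p}ᶜ H →
      s ∈ piCoreOf {p}ᶜ (Subgroup.closure {s, b}) := fun H s b hb h =>
    piCoreOf_inf_le _ ((closure_le _).2 (by
      rintro _ (rfl | rfl); exacts [piCoreOf_le _ _ h, hb])) ⟨h, subset_closure (by simp)⟩
  have sig : ∀ s : G, (∀ b, ∃ H : Subgroup G, b ∈ H ∧ s ∈ piCoreOf {p}ᶜ H) → s = 1 := by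
    let S : Subgroup G :=
      { carrier := {s | ∀ b, s ∈ piCoreOf {p}ᶜ (Subgroup.closure {s, b})}
        one_mem' := fun _ => one_mem _
        mul_mem' := fun {s t} h1 h2 b => hdown _ _ _ (m3 s t b) (mul_mem
          (mem_core_of_forall (hs s t b) (m1 _ _ _) h1) (mem_core_of_forall (hs s t b) (m2 _ _ _) h2))
        inv_mem' := fun {s} h b => hdown _ _ _ (subset_closure (by simp)) (inv_mem (h b)) }
    have hS : S.Normal := ⟨fun s h g b => hdown _ _ _ (m3 s g b) (conj_mem_of_normalizer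
      (le_norm_piCoreOf _ _ (m2 s g b)) (mem_core_of_forall (hs s g b) (m1 _ _ _) h))⟩
    intro s h
    rcases hS.eq_bot_or_eq_top with h1 | h1
    · exact h1.le fun b => (h b).elim fun H h => hdown H s b h.1 h.2
    · exact absurd ((piCoreOf_pi _ _).elt (h1.ge (mem_top x₀) 1) p hp' hx₀.symm.dvd) (by simp)
  have baer : ∀ y : G, (∀ a, IsPGroup p (Subgroup.closure ({y, a * y * a⁻¹} : Set G))) → y = 1 :=
    fun y h => by
      rcases (inferInstance : (normalClosure {y}).Normal).eq_bot_or_eq_top with h1 | h1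
      · exact h1.le (subset_normalClosure rfl)
      · have h2 := H8.baer_suzuki_elem y h
        rw [h1] at h2
        haveI := (h2.of_equiv topEquiv).isNilpotent
        exact absurd (IsSimpleGroup.comm_iff_isSolvable.2 inferInstance) fun h => hna ⟨⟨h⟩⟩
  have hex : ∃ n, PExp p n G := ⟨Nat.card G, fun x ⟨k, hk⟩ => by
    obtain ⟨j, -, hj⟩ := (Nat.dvd_prime_pow hp').1 (orderOf_dvd_of_pow_eq_one hk)
    refine orderOf_dvd_iff_pow_eq_one.1 (hj ▸ pow_dvd_pow p ?_)
    exact ((Nat.lt_pow_self hp'.one_lt).le.trans hj.ge).trans orderOf_le_card⟩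
  classical
  obtain ⟨e, he⟩ : ∃ e, Nat.find hex = e + 1 := Nat.exists_eq_succ_of_ne_zero fun h => by
    have := (h ▸ Nat.find_spec hex :) x₀ ⟨1, by rw [pow_one, ← hx₀, pow_orderOf_eq_one]⟩
    rw [pow_zero, pow_one] at this
    rw [this, orderOf_one] at hx₀
    exact hp'.one_lt.ne hx₀
  have h1 : PExp p (e + 1) G := he ▸ Nat.find_spec hex
  have h1' : ∀ H : Subgroup G, PExp p (e + 1) H := fun H x ⟨k, hk⟩ =>
    Subtype.ext (h1 x ⟨k, congrArg Subtype.val hk⟩)
  by_cases hc : ∀ P : Subgroup G, IsPGroup p P → ∀ g ∈ P, ∀ h ∈ P, Commute (g ^ p ^ e) (h ^ p ^ e)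
  · refine Nat.find_min hex (m := e) (by omega) fun x hx => baer _ fun a => ?_
    refine (isPi_of_elt fun s hs' => ?_).isPGroup hp'
    obtain ⟨y, -, z, hz, rfl, hy, hz'⟩ := exists_pi_decomp {p} s
    rw [sig z fun b => ⟨_, m3 x a b, mem_core_of_coprime (?_ : _ ∈ pPrimePCoreOf p _) hz'⟩, mul_one]
    · exact hy
    have h2 : x ^ p ^ e ∈ pPrimePCoreOf p (Subgroup.closure {x, a, b}) :=
      ⟨⟨x, m1 x a b⟩ ^ p ^ e, pow_mem_of_comm hp (hs x a b) (Subtype.ext (h1 x hx))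
        fun P hP hxP w hw => Subtype.ext (hc _ (hP.map (Subgroup.subtype _)) _
          (mem_map_of_mem _ hw) _ (mem_map_of_mem _ hxP)), rfl⟩
    refine ((zpowers_le.2 hs').trans ((closure_le _).2 ?_)) hz
    rintro _ (rfl | rfl)
    exacts [h2, conj_mem_of_normalizer (le_norm_pPrimePCoreOf _ _ (m2 x a b)) h2]
  push Not at hc
  obtain ⟨P₁, hP₁, g, hg, h, hh, hne⟩ := hc
  set P := Subgroup.closure ({g, h} : Set G) with hPd
  have hP : IsPGroup p P := hP₁.to_le ((closure_le _).2 (by rintro _ (rfl | rfl); exacts [hg, hh]))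
  have hgP : g ∈ P := subset_closure (by simp)
  have hhP : h ∈ P := subset_closure (by simp)
  let D := P ⊓ ⨅ (H : Subgroup G) (_ : P ≤ H ∧ IsPSolvable p H), pPrimePCoreOf p H
  have hD : ∀ x, x ∈ D ↔ x ∈ P ∧ ∀ H, P ≤ H ∧ IsPSolvable p H → x ∈ pPrimePCoreOf p H :=
    fun x => by simp only [D, mem_inf, mem_iInf]
  obtain ⟨z, ⟨hzD, hzc⟩, hz1, hzp⟩ := H69.exists_mem_orderOf_eq
    (hP.to_le (inf_le_left.trans inf_le_left)) (H62.inf_cent_ne_bot (P := D) (R := P)
      (hP.to_le inf_le_left) (fun e => hne (commutatorElement_eq_one_iff_commute.1 (e.le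
        ((hD _).2 ⟨der_le (commutator_mem_commutator (pow_mem hgP _) (pow_mem hhP _)), fun H hH =>
          ⟨_, t1_grp hp hH.2 (h1' H) (P := P.subgroupOf H) hP.comap_subtype (g := ⟨g, hH.1 hgP⟩)
            (h := ⟨h, hH.1 hhP⟩) hgP hhP, rfl⟩⟩))))
      (fun x hx => mem_normalizer_of_forall fun y hy => (hD _).2 ⟨conj_mem_of_normalizer
        (le_normalizer hx) hy.1, fun H hH => conj_mem_of_normalizer
          (le_norm_pPrimePCoreOf _ _ (hH.1 hx)) (((hD _).1 hy).2 H hH)⟩)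
      fun r hr => (hP ⟨r, hr⟩).imp fun k hk => by
        rw [show r ^ p ^ k = 1 from congrArg Subtype.val hk]; exact one_mem _)
  obtain ⟨hzP, hz⟩ := (hD z).1 hzD
  have hPH : ∀ a, P ≤ Subgroup.closure {g, h, a} := fun a =>
    closure_mono (by rintro _ (rfl | rfl) <;> simp)
  refine hz1 (baer z fun a => ?_)
  by_cases hc : z ∈ 𝒞(piCoreOf {p}ᶜ (Subgroup.closure {g, h, a}))
  · have h2 := mem_pcore_of_cent (hz _ ⟨hPH a, hs g h a⟩) hc ((isPi_of_isPGroup hp' hP).elt hzP)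
    refine ((piCoreOf_pi {p} (Subgroup.closure {g, h, a})).isPGroup hp').to_le
      ((closure_le _).2 ?_)
    rintro _ (rfl | rfl)
    exacts [h2, conj_mem_of_normalizer (le_norm_piCoreOf _ _ (m3 g h a)) h2]
  have hN := (isPi_compl_singleton_iff_coprime hp').1 (piCoreOf_pi _ (Subgroup.closure {g, h, a}))
  obtain ⟨q, Q, hq, -, hQN, hQ, hPQ, hQz, hcomm, -, hmin⟩ := exists_critical (A := P)
    (B := zpowers z) ((hPH a).trans (le_norm_piCoreOf _ _)) (H50.coprime_card_of_pgroup hP hN).symm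
    (.inl (H50.solvable_of_pgroup hP)) (zpowers_le.2 hzP)
    (norm_of_cent (cent_symm (zpowers_le.2 hzc))) (fun h => hc (cent_symm h (mem_zpowers _)))
  haveI := Fact.mk hq
  have hQp := hN.coprime_dvd_left (card_dvd_of_le hQN)
  obtain ⟨a', b', h2, h3⟩ := exists_good (C := Q ⊓ 𝒞(zpowers z)) hP hPQ (norm_inf hPQ
    ((cent_symm (zpowers_le.2 hzc)).trans le_normalizer)) hQp hQ (inf_lt_left.2 hQz)
    (fun R hR h => le_inf hR.le (hmin R hR h)) hPd.symm
  refine absurd (fun s hs' => (sig s fun b => ⟨_, m3 a' b' b, mem_core_of_coprime ?_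
    (((isPi_compl_singleton_iff_coprime hp').2 hQp).elt hs')⟩) ▸ one_mem _) hQz
  have h4 : Subgroup.closure {a', b'} ≤ Subgroup.closure {a', b', b} :=
    closure_mono (by rintro _ (rfl | rfl) <;> simp)
  exact (hcomm.ge.trans ((commutator_mono le_rfl (zpowers_le.2 (hz _ ⟨h3.trans h4, hs _ _ _⟩))).trans
    (commutator_le_right_of_norm ((h2.trans h4).trans (le_norm_pPrimePCoreOf _ _))))) hs'

end Cfsg.Agent.S3792
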