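import Cfsg.Statements.S3794
import Cfsg.Agent.H79.Shult2

set_option autoImplicit false
open Cfsg

namespace Cfsg.Agent.S3794

open H79 H49 Subgroup
open scoped commutatorElement

theorem comm_of_sq {Y : Type*} [Group Y] [Finite Y] {M : Subgroup Y} {s : Y} (hs : s ∈ 𝒩(M))
    (h : s ^ 2 ∈ 𝒞(M)) (hC : M ⊓ 𝒞[s] = ⊥) : IsMulCommutative M := by
  have h1 : MonoidHom.FixedPointFree (cjAut M hs) := fun g hg => by
    have : (g : Y) ∈ M ⊓ 𝒞[s] :=
      ⟨g.2, mem_cent1.2 (mul_inv_eq_iff_eq_mul.1 (congrArg Subtype.val hg)).symm⟩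
    rw [hC] at this
    exact Subtype.ext this
  exact ⟨⟨fun a b => (h1.commute_all_of_involutive (fun g => Subtype.ext (by
    have := h g g.2
    rw [coe_cjAut, coe_cjAut]
    calc _ = s ^ 2 * g * (s ^ 2)⁻¹ := by rw [pow_two]; group
      _ = g := by rw [← this]; group)) a b).eq⟩⟩

/-- Let G be a finite solvable group with an automorphism σ satisfying σ⁴ = 1 and fixing only the identity. Then the derived subgroup G' is nilpotent. -/
theorem result {G : Type*} [Group G] [Finite G] (hG : Group.IsSolvable G) (σ : MulAut G) (hσ : σ ^ 4 = 1) (hfpf : ∀ g : G, σ g = g → g = 1) : Group.IsNilpotent (commutator G) := by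
  obtain ⟨Y, _, _, i, s, hi, hn, hY, h1, h2, h3⟩ :=
    exists_amb_fpf (n := 2) hG Nat.prime_two hσ hfpf
  haveI := fittingOf_normal i.range
  have hs : s ∈ 𝒩(i.range) := normal_iff_top_le_norm.1 hn trivial
  have h4 := comm_of_sq (mem_norm_map (QuotientGroup.mk' (fittingOf i.range)) hs)
    (shult_quo (n := 1) hY Nat.prime_two (.inr le_rfl) h1 (h1 ▸ one_mem _) h2 h3)
    (map_inf_cent1_eq_bot _ hs (coprime_orderOf_of_pow h1 h2) h3)
  rw [← nilpotent_map_iff hi]
  refine nilpotent_of_le (fittingOf_nil i.range) ?_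
  rw [commutator_def, map_commutator, ← MonoidHom.range_eq_map,
    ← QuotientGroup.ker_mk' (fittingOf i.range), ← Subgroup.map_eq_bot_iff, map_commutator,
    H49.commutator_eq_bot_iff]
  exact abelian_iff.1 h4

end Cfsg.Agent.S3794
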