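import Cfsg.Statements.S3796
import Cfsg.Agent.H79.Ward2
import Cfsg.Agent.H49.Frob

set_option autoImplicit false
open Cfsg

namespace Cfsg.Agent.S3796

open H79 H49 Subgroup

/-- Ward's Theorem: let G be a finite solvable group and A an elementary abelian group of automorphisms of G of order p² (p a prime) with no non-identity common fixed point. Then G has Fitting height at most 2: G has Fitting height at most m when there is a chain of normal subgroups 1 = F₀ ≤ F₁ ≤ ⋯ ≤ F_m = G with each F_{i+1}/F_i nilpotent. -/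
theorem result {G : Type*} [Group G] [Finite G] (hG : Group.IsSolvable G) {p : ℕ} (hp : p.Prime) (A : Subgroup (MulAut G)) (hA : Cfsg.IsElementaryAbelian p A) (hcard : Nat.card A = p ^ 2) (hfpf : ∀ g : G, (∀ a ∈ A, a g = g) → g = 1) : ∃ F : Fin (2 + 1) → Subgroup G, F 0 = ⊥ ∧ F (Fin.last 2) = ⊤ ∧ Monotone F ∧ (∀ i, (F i).Normal) ∧ ∀ i : Fin 2, ∃ k : ℕ, (F i.succ).lowerCentralSeries k ≤ F i.castSucc := by
  haveI := Fact.mk hp
  obtain ⟨Y, _, _, i, j, hi, hj, hn, h1, -, -, h2⟩ := exists_amb A.subtype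
  have hAp : IsPGroup p A := H50.pgroup_of_exp hA.2
  have hY := h2 hG (H50.solvable_of_pgroup hAp)
  have hc : Nat.card j.range = p ^ 2 := by
    rw [← hcard]; exact (Nat.card_congr (MonoidHom.ofInjective hj).toEquiv).symm
  have hA' : IsElementaryAbelian p j.range := by
    rw [MonoidHom.range_eq_map]
    exact H50.elem_map (H50.elem_of_map A.subtype_injective (by rwa [map_subtype_top])) j
  have hC : i.range ⊓ 𝒞(j.range) = ⊥ := by
    rw [eq_bot_iff]
    rintro _ ⟨⟨g, rfl⟩, h⟩
    rw [hfpf g fun a ha => hi ((h1 ⟨a, ha⟩ g).symm.trans (by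
      rw [h _ ⟨⟨a, ha⟩, rfl⟩, mul_inv_cancel_right])), map_one]
    exact one_mem _
  refine H44.lns_eq_bot_iff_chain.1 (lns_top_of_range hi (ward_grp hY hp hA' hc ?_ hC
    fun a ha ha1 => ?_))
  · rw [← Nat.card_congr (MonoidHom.ofInjective hi).toEquiv]
    exact coprime_card_of_fpf hp hAp hfpf
  obtain ⟨b, hb, hba⟩ := SetLike.not_le_iff_exists.1 fun h : j.range ≤ zpowers a =>
    not_isCyclic_of_p2 hp hA' hc (le_antisymm h (zpowers_le.2 ha) ▸ inferInstance)
  have hb1 : b ≠ 1 := fun h => hba (h ▸ one_mem _)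
  refine frob_nilpotent (R := zpowers b) inferInstance (norm_inf le_normalizer_of_normal
    (cent_zpowers a ▸ norm_cent (norm_of_cent (le_cent_of_abelian hA'.1 (zpowers_le.2 hb)
      (zpowers_le.2 ha))))) (by simpa using hb1) (semiregular_of_prime_card
        (by rwa [H50.card_zpowers_of_pow (hA'.2 b hb) hb1]) ?_)
  rw [← hC, ← sup_zpowers_eq_of_p2 hp hA' hc ha hb ha1 hba, cent_sup, cent_zpowers a, inf_assoc]

end Cfsg.Agent.S3796
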