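import Cfsg.Statements.S3797
import Cfsg.Agent.H79.Shaw2

set_option autoImplicit false
open Cfsg

namespace Cfsg.Agent.S3797

open H79 Subgroup H49
open scoped commutatorElement IsMulCommutative

/-- Let G be a finite solvable group of even order whose Sylow 2-subgroups contain more than one involution, and suppose all involutions of G are conjugate. Then G has 2-length at most 1, and a Sylow 2-subgroup S of G is either homocyclic (a direct product of cyclic groups of one common order) or a non-abelian 2-group with more than one involution admitting a solvable group of automorphisms transitive on its involutions. -/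
theorem result {G : Type*} [Group G] [Finite G] (hG : Group.IsSolvable G) (heven : Even (Nat.card G)) (S : Sylow 2 G) (htwo : ∃ x y : G, x ∈ (S : Subgroup G) ∧ y ∈ (S : Subgroup G) ∧ x ≠ y ∧ x ≠ 1 ∧ x ^ 2 = 1 ∧ y ≠ 1 ∧ y ^ 2 = 1) (hconj : ∀ x y : G, x ≠ 1 → x ^ 2 = 1 → y ≠ 1 → y ^ 2 = 1 → IsConj x y) : Cfsg.PLengthLE 2 1 G ∧ ((∃ m r : ℕ, Nonempty (↥(S : Subgroup G) ≃* (Fin r → Multiplicative (ZMod (2 ^ m))))) ∨ (¬ IsMulCommutative (S : Subgroup G) ∧ ∃ Y : Subgroup (MulAut ↥(S : Subgroup G)), Group.IsSolvable Y ∧ ∀ x y : ↥(S : Subgroup G), x ≠ 1 → x ^ 2 = 1 → y ≠ 1 → y ^ 2 = 1 → ∃ a ∈ Y, a x = y)) := by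
  obtain ⟨x, y, hxS, hyS, hxy, hx, hx2, hy, hy2⟩ := htwo
  let f := QuotientGroup.mk' (pPrimeCore 2 G)
  have h1 : ∀ {s : G} {k : ℕ}, s ^ 2 ^ k = 1 → f s = 1 → s = 1 := fun hk h =>
    orderOf_eq_one_iff.1 (Nat.Coprime.eq_one_of_dvd (coprime_orderOf_of_pow hk
      H22.coprime_card_pPrimeCore) (Subgroup.orderOf_dvd_natCard _ ((QuotientGroup.eq_one_iff _).1 h)))
  have h2 : ∀ s ∈ (S : Subgroup G), f s = 1 → s = 1 := fun s hs => by
    obtain ⟨k, hk⟩ := S.2 ⟨s, hs⟩
    exact h1 (congrArg Subtype.val hk)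
  have h3 : ∀ v : G ⧸ pPrimeCore 2 G, v ^ 2 = 1 → ∃ w, f w = v ∧ w ^ 2 = 1 := fun v hv => by
    obtain ⟨v, rfl⟩ := QuotientGroup.mk'_surjective _ v
    obtain ⟨w, -, hw, j, hj⟩ := exists_pElt_lift (p := 2) f (k := 1) hv
    exact ⟨w, hw, h1 (k := j) (by rw [← pow_mul, mul_comm, pow_mul, hj, one_pow])
      (by rw [map_pow, hw]; exact hv)⟩
  obtain ⟨h4, h5⟩ := shaw_core (G := G ⧸ pPrimeCore 2 G) inferInstance
    H22.pPrimeCore_quotient_pPrimeCore (fun a b ha ha2 hb hb2 => by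
      obtain ⟨a, rfl, ha'⟩ := h3 a ha2
      obtain ⟨b, rfl, hb'⟩ := h3 b hb2
      exact f.map_isConj (hconj a b (by rintro rfl; simp at ha) ha' (by rintro rfl; simp at hb) hb'))
    (x := f x) (y := f y) (fun h => hxy (mul_inv_eq_one.1 (h2 _ (mul_mem hxS (inv_mem hyS))
      (by rw [map_mul, map_inv, h, mul_inv_cancel])))) (mt (h2 x hxS) hx)
    (by rw [← map_pow, hx2, map_one]) (mt (h2 y hyS) hy) (by rw [← map_pow, hy2, map_one])
  have h6 : ∀ v ∈ (S : Subgroup G), v ^ 2 = 1 → v ∈ centralizer (S : Set G) := fun v hv hv2 s hs => by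
    obtain ⟨k, hk⟩ := S.2 ⟨s, hs⟩
    have h7 : f s ∈ pCore 2 _ := (QuotientGroup.eq_one_iff _).1 (orderOf_eq_one_iff.1
      (Nat.Coprime.eq_one_of_dvd (coprime_orderOf_of_pow (n := k) (by
        rw [← QuotientGroup.mk_pow, ← map_pow, show s ^ 2 ^ k = 1 from congrArg Subtype.val hk]
        rfl) h4) (_root_.orderOf_dvd_natCard _)))
    refine commutatorElement_eq_one_iff_mul_comm.1 (h2 _ (mul_mem (mul_mem (mul_mem hs hv)
      (inv_mem hs)) (inv_mem hv)) ?_)
    rw [map_commutatorElement, commutatorElement_eq_one_iff_mul_comm]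
    exact h5 _ (by rw [← map_pow, hv2, map_one]) _ h7
  have h7 : ∀ x y : (S : Subgroup G), x ≠ 1 → x ^ 2 = 1 → y ≠ 1 → y ^ 2 = 1 →
      ∃ a ∈ (S : Subgroup G).normalizerMonoidHom.range, a x = y := fun x y hx hx2 hy hy2 => by
    obtain ⟨c, hc⟩ := isConj_iff.1 (hconj x y (by simpa using hx) (congrArg Subtype.val hx2)
      (by simpa using hy) (congrArg Subtype.val hy2))
    obtain ⟨n, hn, e⟩ := S.conj_eq_normalizer_conj_of_mem_centralizer x c⁻¹
      (h6 x x.2 (congrArg Subtype.val hx2))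
      (by rw [inv_inv, hc]; exact h6 y y.2 (congrArg Subtype.val hy2))
    refine ⟨_, ⟨⟨n⁻¹, inv_mem hn⟩, rfl⟩, Subtype.ext ?_⟩
    change n⁻¹ * x * n⁻¹⁻¹ = _
    rw [← hc, inv_inv, ← e, inv_inv]
  refine ⟨pLength_of_ker_coprime f (by rw [QuotientGroup.ker_mk']; exact H22.coprime_card_pPrimeCore)
    (pLength_succ_of_ker (QuotientGroup.mk' _) ((QuotientGroup.ker_mk' _).le.trans
      H22.pCore_le_pPrimePCore) (pLength_zero_iff.2 h4)), ?_⟩
  by_cases hS : IsMulCommutative (S : Subgroup G)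
  · exact .inl (homocyclic_of_trans S.2 fun x y a b c d => (h7 x y a b c d).imp fun _ h => h.2)
  · exact .inr ⟨hS, _, solvable_of_surjective (MonoidHom.rangeRestrict_surjective _), h7⟩

end Cfsg.Agent.S3797
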