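import Cfsg.Statements.S3798
import Cfsg.Agent.H79.PCompl
import Cfsg.Agent.BG.L1_11

set_option autoImplicit false
open Cfsg

namespace Cfsg.Agent.S3798

open Subgroup Cfsg.Agent.H49 Cfsg.Agent.H79
theorem core {G : Type*} [Group G] [Finite G] {p : ℕ} [hp : Fact p.Prime] (hp2 : p ≠ 2)
    (hG : IsPSolvable p G) (hO : pPrimeCore p G = ⊥)
    (h : ∀ K : Subgroup G, K.Characteristic → ∀ x ∈ K, x ≠ 1 → x ^ p = 1 →
      ∀ y : G, y ^ p = 1 → y ∈ K) : (Nat.card (G ⧸ pCore p G)).Coprime p := by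
  have hR : IsPGroup p (pCore p G) := H22.isPGroup_pCore
  have hC := H22.IsPSolvable.centralizer_pCore_le hG hO
  have hne : ∀ K : Subgroup G, K ≤ pCore p G → K ≠ ⊥ → ∃ x ∈ K, x ≠ 1 ∧ x ^ p = 1 :=
    fun K hK h0 => by
      obtain ⟨x, hx, e⟩ := exists_orderOf_eq_of_dvd_card hp.out
        ((isPi_of_isPGroup hp.out (hR.to_le hK)).dvd_card h0)
      exact ⟨x, hx, fun h1 => hp.out.one_lt.ne (by rw [← e, h1, orderOf_one]),
        by rw [← e, pow_orderOf_eq_one]⟩
  by_cases h0 : pCore p G = ⊥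
  · haveI : Subsingleton G := by
      by_contra hn
      haveI := not_subsingleton_iff_nontrivial.1 hn
      exact (H22.IsPSolvable.pCore_ne_bot_or hG).elim (· h0) (· hO)
    rw [Nat.card_of_subsingleton (1 : G ⧸ pCore p G)]; exact Nat.coprime_one_left p
  have hZ : ∀ y : G, y ^ p = 1 → y ∈ 𝒞(pCore p G) := by
    haveI := (nontrivial_iff_ne_bot _).2 h0
    haveI := hR.center_nontrivial
    obtain ⟨⟨z, hz⟩, hz1⟩ := exists_ne (1 : center (pCore p G))
    obtain ⟨x, hx, h1, h2⟩ := hne 𝒞(pCore p G) hC (ne_bot_iff_exists.2 ⟨z, fun y hy =>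
      congrArg Subtype.val (mem_center_iff.1 hz ⟨y, hy⟩), fun e => hz1 (Subtype.ext (Subtype.ext e))⟩)
    exact h _ inferInstance x hx h1 h2
  obtain ⟨N, hN, hNp, hmap, hF⟩ := exists_pCompl (G := G) (p := p)
  by_cases hCN : pCore p G ⊓ 𝒞(N) = ⊥
  · exact coprime_quotient_of_cent hN hF hCN fun x hx => hC (hZ x hx)
  obtain ⟨x, hx, h1, h2⟩ := hne _ inf_le_left hCN
  haveI := pPPrime_characteristic (G := G) (p := p)
  have h3 := h 𝒞(pPPrime p G) inferInstance x
    (by rw [← hN.isProd.sup_eq, cent_sup]; exact ⟨hZ x h2, hx.2⟩) h1 h2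
  have h4 : N ≤ pCore p G := fun a ha => hC (BG.l1_11_elt hp2 hR
    (by rw [normalizer_eq_top]; trivial) (hNp.coprime_dvd_left (orderOf_dvd_natCard N ha))
    fun y _ hy => (h3 y hy a (hN.right_le ha)).symm)
  rw [(Subgroup.map_eq_bot_iff _).2 (by rwa [QuotientGroup.ker_mk'])] at hmap
  haveI : Subsingleton (G ⧸ pCore p G) := by
    by_contra hn
    haveI := not_subsingleton_iff_nontrivial.1 hn
    exact (H22.IsPSolvable.pCore_ne_bot_or (H22.IsPSolvable.quotient hG (pCore p G))).elim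
      (· H22.pCore_quotient_pCore) (· hmap.symm)
  rw [Nat.card_of_subsingleton (1 : G ⧸ pCore p G)]; exact Nat.coprime_one_left p

/-- The Gaschütz–Yen Theorem: let G be a finite p-soluble group, p an odd prime dividing its order, such that the automorphism group of G permutes the subgroups of G of order p transitively. Then G has p-length at most 1. -/
theorem result {G : Type*} [Group G] [Finite G] {p : ℕ} [Fact p.Prime] (hp : p ≠ 2) (hdvd : p ∣ Nat.card G) (hG : Cfsg.IsPSolvable p G) (htrans : ∀ U V : Subgroup G, Nat.card U = p → Nat.card V = p → ∃ a : MulAut G, U.map a.toMonoidHom = V) : Cfsg.PLengthLE p 1 G := by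
  have hpp : p.Prime := Fact.out
  refine pLength_of_ker_coprime (QuotientGroup.mk' (pPrimeCore p G)) H22.coprime_ker_mk' ?_
  refine pLength_succ_of_ker (k := 0) (QuotientGroup.mk' (pCore p _))
    (by rw [QuotientGroup.ker_mk']; exact H22.pCore_le_pPrimePCore) (pLength_zero_iff.2 ?_)
  refine core hp (H22.IsPSolvable.quotient hG _) H22.pPrimeCore_quotient_pPrimeCore
    fun K hK x hx h1 h2 y hy => ?_
  by_cases hy1 : y = 1
  · rw [hy1]; exact one_mem _
  obtain ⟨x, rfl, h3⟩ := exists_lift_of_pow_eq_one (k := 1) _ (QuotientGroup.mk'_surjective _)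
    H22.coprime_ker_mk' (by rwa [pow_one] : x ^ p ^ 1 = 1)
  obtain ⟨y, rfl, h4⟩ := exists_lift_of_pow_eq_one (k := 1) _ (QuotientGroup.mk'_surjective _)
    H22.coprime_ker_mk' (by rwa [pow_one] : y ^ p ^ 1 = 1)
  rw [pow_one] at h3 h4
  obtain ⟨a, ha⟩ := htrans (zpowers x) (zpowers y)
    (by rw [Nat.card_zpowers]; exact orderOf_eq_prime h3 fun e => h1 (by rw [e, map_one]))
    (by rw [Nat.card_zpowers]; exact orderOf_eq_prime h4 fun e => hy1 (by rw [e, map_one]))
  have hK' : (K.comap (QuotientGroup.mk' (pPrimeCore p G))).Characteristic :=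
    Characteristic.comap_quotient_mk hK
  have h5 : zpowers y ≤ K.comap (QuotientGroup.mk' (pPrimeCore p G)) := by
    rw [← ha, ← (characteristic_iff_map_eq.1 hK') a]
    exact map_mono (zpowers_le.2 hx)
  exact h5 (mem_zpowers y)

end Cfsg.Agent.S3798
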