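import Cfsg.Statements.S3799
import Cfsg.Agent.H3.Extraspecial2

set_option autoImplicit false
open Cfsg

namespace Cfsg.Agent.S3799

open Subgroup Matrix
/-- The Heisenberg group over `F` of width `n`. -/
@[ext] structure Heis (F : Type) (n : ℕ) where
  a : Fin n → F
  b : Fin n → F
  c : F

variable {F : Type} [CommRing F] {n : ℕ}

instance instMulHeis : Mul (Heis F n) :=
  ⟨fun x y => ⟨x.a + y.a, x.b + y.b, x.c + y.c + x.a ⬝ᵥ y.b⟩⟩
instance instOneHeis : One (Heis F n) := ⟨⟨0, 0, 0⟩⟩
instance instInvHeis : Inv (Heis F n) := ⟨fun x => ⟨-x.a, -x.b, -x.c + x.a ⬝ᵥ x.b⟩⟩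
theorem mul_a (x y : Heis F n) : (x * y).a = x.a + y.a := rfl
theorem mul_b (x y : Heis F n) : (x * y).b = x.b + y.b := rfl
theorem mul_c (x y : Heis F n) : (x * y).c = x.c + y.c + x.a ⬝ᵥ y.b := rfl
theorem one_a : (1 : Heis F n).a = 0 := rfl
theorem one_b : (1 : Heis F n).b = 0 := rfl
theorem one_c : (1 : Heis F n).c = 0 := rfl
theorem inv_a (x : Heis F n) : (x⁻¹).a = -x.a := rfl
theorem inv_b (x : Heis F n) : (x⁻¹).b = -x.b := rfl
theorem inv_c (x : Heis F n) : (x⁻¹).c = -x.c + x.a ⬝ᵥ x.b := rfl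

instance instGroupHeis : Group (Heis F n) := Group.ofLeftAxioms
  (fun x y z => by
    ext1 <;> simp only [mul_a, mul_b, mul_c, add_dotProduct, dotProduct_add] <;> ring)
  (fun x => by ext1 <;> simp [mul_a, mul_b, mul_c, one_a, one_b, one_c])
  (fun x => by ext1 <;> simp [mul_a, mul_b, mul_c, one_a, one_b, one_c, inv_a, inv_b, inv_c])

theorem pow_eq (x : Heis F n) (k : ℕ) :
    x ^ k = ⟨k • x.a, k • x.b, k • x.c + k.choose 2 • (x.a ⬝ᵥ x.b)⟩ := by
  induction k with
  | zero => ext1 <;> simp [one_a, one_b, one_c]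
  | succ k ih =>
    rw [pow_succ, ih]
    ext1
    · simp [mul_a, add_smul]
    · simp [mul_b, add_smul]
    · simp only [mul_c, smul_dotProduct, Nat.choose_succ_succ' k 1, Nat.choose_one_right]
      simp only [nsmul_eq_mul]
      push_cast; ring

/-- padding a vector with zeros at both ends -/
def emb (a : Fin n → F) : Fin (n + 2) → F := Fin.cons 0 (Fin.snoc a 0 : Fin (n + 1) → F)

theorem emb_zero' (a : Fin n → F) : emb a 0 = 0 := rfl
theorem emb_last (a : Fin n → F) : emb a (Fin.last (n + 1)) = 0 := by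
  rw [← Fin.succ_last, emb, Fin.cons_succ, Fin.snoc_last]
theorem emb_mid (a : Fin n → F) (i : Fin n) : emb a i.castSucc.succ = a i := by
  rw [emb, Fin.cons_succ, Fin.snoc_castSucc]
theorem emb_add (a b : Fin n → F) : emb (a + b) = emb a + emb b := by
  ext i
  refine Fin.cases ?_ (fun j => ?_) i
  · simp [emb_zero']
  · refine Fin.lastCases ?_ (fun k => ?_) j
    · simp [emb_last]
    · simp only [emb_mid, Pi.add_apply]
theorem emb_dot (a b : Fin n → F) : emb a ⬝ᵥ emb b = a ⬝ᵥ b := by
  rw [dotProduct, Fin.sum_univ_succ, Fin.sum_univ_castSucc]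
  simp only [emb_mid, emb_zero', Fin.succ_last, emb_last, dotProduct]
  ring
theorem emb_zero : emb (0 : Fin n → F) = 0 := by
  have := emb_add (0 : Fin n → F) 0
  rw [add_zero] at this
  exact left_eq_add.1 this

/-- the matrix of a Heisenberg element -/
def mat (x : Heis F n) : Matrix (Fin (n + 2)) (Fin (n + 2)) F :=
  1 + vecMulVec (Pi.single 0 1) (emb x.a) + vecMulVec (emb x.b) (Pi.single (Fin.last (n + 1)) 1) +
    x.c • vecMulVec (Pi.single 0 1) (Pi.single (Fin.last (n + 1)) 1)

theorem mat_mul (x y : Heis F n) : mat (x * y) = mat x * mat y := by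
  have h0 : (Fin.last (n + 1)) ≠ 0 := Fin.last_pos.ne'
  simp only [mat, mul_a, mul_b, mul_c, emb_add, mul_add, add_mul, one_mul, mul_one, vecMulVec_add,
    add_vecMulVec, Matrix.smul_mul, Matrix.mul_smul, vecMulVec_mul_vecMulVec, emb_dot,
    dotProduct_single, single_dotProduct, emb_zero', emb_last, Pi.single_eq_of_ne h0.symm,
    zero_smul, vecMulVec_zero, smul_zero, add_zero, add_smul, vecMulVec_smul]
  abel

theorem mat_one : mat (1 : Heis F n) = 1 := by
  simp [mat, one_a, one_b, one_c, emb_zero]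

/-- the matrix representation -/
def rho : Heis F n →* Matrix (Fin (n + 2)) (Fin (n + 2)) F :=
  ⟨⟨mat, mat_one⟩, mat_mul⟩

theorem rho_inj : Function.Injective (rho : Heis F n →* _).toHomUnits := by
  rw [injective_iff_map_eq_one]
  intro x hx
  have h : mat x = 1 := congrArg Units.val hx
  have h0 : (Fin.last (n + 1)) ≠ 0 := Fin.last_pos.ne'
  have h1 : ∀ i : Fin n, i.castSucc.succ ≠ Fin.last (n + 1) := fun i => by
    rw [← Fin.succ_last]; exact fun h => (Fin.castSucc_lt_last i).ne (Fin.succ_injective _ h)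
  ext1
  · ext i
    have := congrFun (congrFun h 0) i.castSucc.succ
    simpa [mat, vecMulVec_apply, emb_mid, emb_zero', Pi.single_eq_of_ne (h1 i), one_a] using this
  · ext i
    have := congrFun (congrFun h i.castSucc.succ) (Fin.last (n + 1))
    simpa [mat, vecMulVec_apply, emb_mid, emb_last, Pi.single_eq_of_ne (Fin.succ_ne_zero _),
      one_b] using this
  · have := congrFun (congrFun h 0) (Fin.last (n + 1))
    simpa [mat, vecMulVec_apply, emb_zero', emb_last, one_c] using this

/-- For every odd prime p and every n ≥ 1 there is an extraspecial p-group of order p^(1+2n) and exponent p; concretely, the general linear group of degree n + 2 over the field with p elements contains such a subgroup. -/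
theorem result (p : ℕ) [Fact p.Prime] (hp : p ≠ 2) (n : ℕ) (hn : 1 ≤ n) : ∃ E : Subgroup (Matrix.GeneralLinearGroup (Fin (n + 2)) (ZMod p)), Cfsg.IsExtraspecial p ↥E ∧ Nat.card E = p ^ (1 + 2 * n) ∧ ∀ x ∈ E, x ^ p = 1 := by
  have hpp := (Fact.out : p.Prime)
  let e := MonoidHom.ofInjective (rho_inj (F := ZMod p) (n := n))
  let π0 : Heis (ZMod p) n →* Multiplicative ((Fin n → ZMod p) × (Fin n → ZMod p)) :=
    MonoidHom.mk' (fun x => Multiplicative.ofAdd (x.a, x.b)) fun x y => rfl
  let ζ0 : Multiplicative (ZMod p) →* Heis (ZMod p) n :=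
    MonoidHom.mk' (fun s => ⟨0, 0, s.toAdd⟩) fun s t => by
      ext1 <;> simp [mul_a, mul_b, mul_c]
  obtain ⟨D, hD, -⟩ := H3.exists_esData_of_hom (π0.comp e.symm.toMonoidHom)
    (fun v => ⟨e ⟨v.toAdd.1, v.toAdd.2, 0⟩, by simp [π0]⟩) (e.toMonoidHom.comp ζ0)
    (fun s t h => congrArg Heis.c (e.injective h))
    (by
      ext x
      obtain ⟨x, rfl⟩ := e.surjective x
      simp only [MonoidHom.mem_ker, MonoidHom.comp_apply, MulEquiv.coe_toMonoidHom,
        MulEquiv.symm_apply_apply, MonoidHom.mem_range, EmbeddingLike.apply_eq_iff_eq]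
      constructor
      · intro h
        have h' : (x.a, x.b) = (0, 0) := h
        refine ⟨Multiplicative.ofAdd x.c, ?_⟩
        ext1
        · exact (congrArg Prod.fst h').symm
        · exact (congrArg Prod.snd h').symm
        · rfl
      · rintro ⟨s, rfl⟩; rfl)
    (by
      rintro _ ⟨s, rfl⟩
      refine mem_center_iff.2 fun g => ?_
      obtain ⟨g, rfl⟩ := e.surjective g
      simp only [MonoidHom.comp_apply, MulEquiv.coe_toMonoidHom, ← map_mul]
      congr 1
      ext1 <;> simp [ζ0, mul_a, mul_b, mul_c, add_comm])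
  haveI : Finite (Heis (ZMod p) n) :=
    Finite.of_injective (fun x => (x.a, x.b, x.c)) fun x y h => by
      simp only [Prod.mk.injEq] at h; exact Heis.ext h.1 h.2.1 h.2.2
  haveI : Nonempty (Fin n) := ⟨⟨0, hn⟩⟩
  have hnd : D.B.Nondegenerate := by
    rw [D.nondegenerate_iff]
    intro x hx
    obtain ⟨x, rfl⟩ := e.surjective x
    have hc : ∀ g, g * x = x * g := fun g => e.injective (by
      rw [map_mul, map_mul]; exact mem_center_iff.1 hx _)
    rw [hD]
    simp only [MonoidHom.comp_apply, MulEquiv.coe_toMonoidHom, MulEquiv.symm_apply_apply]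
    refine Prod.ext (funext fun i => ?_) (funext fun i => ?_)
    · have := congrArg Heis.c (hc ⟨0, Pi.single i 1, 0⟩)
      change x.a i = 0
      simpa [mul_c, eq_comm] using this
    · have := congrArg Heis.c (hc ⟨Pi.single i 1, 0, 0⟩)
      change x.b i = 0
      simpa [mul_c] using this
  refine ⟨_, D.isExtraspecial hnd, ?_, ?_⟩
  · rw [D.card_eq]
    simp only [Nat.card_prod, Nat.card_pi, Nat.card_zmod, Finset.prod_const, Finset.card_univ,
      Fintype.card_fin]
    ring
  · rintro _ ⟨x, rfl⟩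
    rw [← map_pow, pow_eq]
    obtain ⟨k, hk⟩ := H3.dvd_choose_two_of_odd (hpp.odd_of_ne_two hp)
    have : (⟨p • x.a, p • x.b, p • x.c + p.choose 2 • (x.a ⬝ᵥ x.b)⟩ : Heis (ZMod p) n) = 1 := by
      ext1
      · ext i; simp [one_a]
      · ext i; simp [one_b]
      · simp [one_c, hk]
    rw [this, map_one]

end Cfsg.Agent.S3799
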