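import Cfsg.Statements.S3800
import Cfsg.Agent.H79.Conj
import Cfsg.Agent.H46.PAction
import Cfsg.Agent.H46.Generation

set_option autoImplicit false
open Cfsg

namespace Cfsg.Agent.S3800

open Cfsg.Agent.H79

/-- Let G be a finite group, N a normal subgroup of G whose order is prime to p, and P a p-subgroup of G. Then in G/N the normalizer of the image of P is the image of N_G(P), and the centralizer of the image of P is the image of C_G(P). -/
theorem result {G : Type*} [Group G] [Finite G] {p : ℕ} [Fact p.Prime] (N : Subgroup G) [N.Normal] (hN : (Nat.card N).Coprime p) (P : Subgroup G) (hP : IsPGroup p P) : Subgroup.normalizer ((P.map (QuotientGroup.mk' N)) : Set (G ⧸ N)) = (Subgroup.normalizer (P : Set G)).map (QuotientGroup.mk' N) ∧ Subgroup.centralizer ((P.map (QuotientGroup.mk' N)) : Set (G ⧸ N)) = (Subgroup.centralizer (P : Set G)).map (QuotientGroup.mk' N) := by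
  have hN' : ¬ p ∣ Nat.card N := (Nat.Prime.coprime_iff_not_dvd Fact.out).1 hN.symm
  constructor
  · apply le_antisymm _ (Subgroup.le_normalizer_map _)
    intro x hx
    obtain ⟨g, rfl⟩ := QuotientGroup.mk'_surjective N x
    -- `P` and `gPg⁻¹` are Sylow subgroups of `PN`
    have h1 : cj g P ≤ P ⊔ N := by
      have := (map_cj (QuotientGroup.mk' N) g P).trans (cj_eq_self hx)
      have h2 := congrArg (Subgroup.comap (QuotientGroup.mk' N)) this
      rw [Subgroup.comap_map_eq, Subgroup.comap_map_eq, QuotientGroup.ker_mk'] at h2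
      exact le_sup_left.trans h2.le
    have hidx : ¬ p ∣ (P.subgroupOf (P ⊔ N)).index := by
      intro h
      apply hN'
      have e : P.relIndex (P ⊔ N) ∣ Nat.card N := by
        have e1 := Subgroup.card_mul_index (P.subgroupOf (P ⊔ N))
        have e2 := Subgroup.card_mul_index (N.subgroupOf (P ⊔ N))
        have e3 : N.relIndex (P ⊔ N) = N.relIndex P := Subgroup.relIndex_sup_right P N
        have e4 : N.relIndex P = Nat.card P := by
          rw [← Subgroup.inf_relIndex_right]
          have : N ⊓ P = ⊥ := by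
            apply Subgroup.inf_eq_bot_of_coprime
            obtain ⟨k, hk⟩ := hP.exists_card_eq
            rw [hk]; exact hN.pow_right k
          rw [this, Subgroup.relIndex_bot_left]
        rw [Nat.card_congr (Subgroup.subgroupOfEquivOfLe (le_sup_left : P ≤ P ⊔ N)).toEquiv] at e1
        rw [Nat.card_congr (Subgroup.subgroupOfEquivOfLe (le_sup_right : N ≤ P ⊔ N)).toEquiv] at e2
        change _ * P.relIndex (P ⊔ N) = _ at e1
        change _ * N.relIndex (P ⊔ N) = _ at e2
        rw [e3, e4, ← e1, mul_comm] at e2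
        rw [Nat.eq_of_mul_eq_mul_left Nat.card_pos e2]
      exact h.trans e
    let S : Sylow p ↥(P ⊔ N) := (hP.comap_subtype (K := P ⊔ N)).toSylow hidx
    obtain ⟨T, hT⟩ := ((isPGroup_cj g hP).comap_subtype (K := P ⊔ N)).exists_le_sylow
    obtain ⟨y, hy⟩ := MulAction.exists_smul_eq (↥(P ⊔ N)) T S
    have h3 : cj ((y : G) * g) P ≤ P := by
      rw [cj_mul]
      rintro _ ⟨z, hz, rfl⟩
      have h4 : (⟨z, h1 hz⟩ : ↥(P ⊔ N)) ∈ (T : Subgroup ↥(P ⊔ N)) := hT hz
      have h5 : y * ⟨z, h1 hz⟩ * y⁻¹ ∈ ((y • T : Sylow p ↥(P ⊔ N)) : Subgroup ↥(P ⊔ N)) :=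
        ⟨_, h4, rfl⟩
      rw [hy] at h5
      exact h5
    have hy2 := y.2
    rw [← SetLike.mem_coe, Subgroup.mul_normal] at hy2
    obtain ⟨u, hu, n, hn, hun⟩ := hy2
    refine ⟨u⁻¹ * (y * g), mul_mem (inv_mem (Subgroup.le_normalizer hu))
      (mem_normalizer_of_cj_le h3), ?_⟩
    rw [← hun]
    simp only [← mul_assoc, inv_mul_cancel, one_mul, map_mul]
    rw [QuotientGroup.mk'_apply, (QuotientGroup.eq_one_iff n).2 hn, one_mul]
  · have := H46.map_inf_centralizer (QuotientGroup.mk' N) (A := P) (X := ⊤) hP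
      (by rw [QuotientGroup.ker_mk', top_inf_eq]; exact hN') Subgroup.le_normalizer_of_normal
    rw [top_inf_eq, Subgroup.map_top_of_surjective _ (QuotientGroup.mk'_surjective N),
      top_inf_eq] at this
    exact this.symm

end Cfsg.Agent.S3800
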