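import Cfsg.Statements.S3801
import Cfsg.Agent.H79.Gross2

set_option autoImplicit false
open Cfsg

namespace Cfsg.Agent.S3801

open H79 Subgroup

universe u

theorem aux (e : ℕ) : ∀ (G : Type u) [Group G] [Finite G],
    Group.IsSolvable G → PExp 2 (e + 1) G → PLengthLE 2 (2 * e + 1) G := by
  induction e with
  | zero =>
    intro G _ _ hG he
    obtain ⟨G₁, _, _, π, hπ, hr, hc⟩ := exists_red (p := 2) (G := G) H22.isPSolvable_of_isSolvable
    refine pLength_succ_of_red hc (PExp.pLength_zero fun x hx => hr.rep_injective ?_)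
    simpa [sub_eq_zero] using hr.norm_eq_zero (he.of_surjective π hπ) x hx
  | succ e ih =>
    intro G _ _ hG he
    obtain ⟨G₁, _, _, π, hπ, hr, hc⟩ := exists_red (p := 2) (G := G) H22.isPSolvable_of_isSolvable
    obtain ⟨Ψ, hΨ⟩ := exists_baseChange (ZMod 2) (H21.EA _ hr.ea)
    haveI := solvable_of_surjective hπ
    let f' := QuotientGroup.mk' (pPrimePCore 2 (G₁ ⧸ pCore 2 G₁))
    have hf' := QuotientGroup.mk'_surjective (pPrimePCore 2 (G₁ ⧸ pCore 2 G₁))
    refine pLength_succ_of_red hc (pLength_succ_of_ker f' (QuotientGroup.ker_mk' _).le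
      (ih _ inferInstance ?_))
    rintro x ⟨k, hk⟩
    obtain ⟨x, rfl⟩ := hf' x
    obtain ⟨y, -, hy, hy'⟩ := exists_pElt_lift f' hk
    rw [← hy, ← map_pow]
    refine (QuotientGroup.eq_one_iff _).2 (gross2_lin (Ψ.toMonoidHom.comp hr.rep)
      (hΨ.comp hr.rep_injective) inferInstance H22.pCore_quotient_pCore
      ((he.of_surjective π hπ).of_surjective _ (QuotientGroup.mk'_surjective _))
      (fun x hx => ?_) hy')
    have := hr.norm_eq_zero (he.of_surjective π hπ) x hx
    rw [← geom_sum_char (K := ZMod 2)] at this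
    simpa using congrArg Ψ this

/-- Gross's bound on 2-length: if G is a finite solvable group whose Sylow 2-subgroups have exponent dividing 2^e with e ≥ 1, then G has 2-length at most 2e − 1. -/
theorem result {G : Type*} [Group G] [Finite G] (hG : Group.IsSolvable G) (e : ℕ) (he : 1 ≤ e) (hexp : ∀ (P : Sylow 2 G), ∀ x ∈ (P : Subgroup G), x ^ 2 ^ e = 1) : Cfsg.PLengthLE 2 (2 * e - 1) G := by
  obtain ⟨e, rfl⟩ := Nat.exists_eq_add_of_le' he
  exact aux e G hG (pExp_of_sylow hexp)

end Cfsg.Agent.S3801
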