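import Cfsg.Statements.S3979
import Cfsg.Agent.H81.Central
import Mathlib.GroupTheory.SpecificGroups.Cyclic

set_option autoImplicit false
open Cfsg

namespace Cfsg.Agent.S3979

/-- A finite cyclic group has trivial Schur multiplier: every finite stem extension of it is an isomorphism, said through `HasCyclicSchurMultiplier G 1`. -/
theorem result {G : Type*} [Group G] [Finite G] [IsCyclic G] : Cfsg.HasCyclicSchurMultiplier G 1 := by
  rw [H81.mult_trivial_iff]
  intro Γ _ _ σ hσ
  have h1 : commutator Γ = ⊥ := by
    let _ := commGroupOfCyclicCenterQuotient σ hσ.2.1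
    rw [commutator_eq_bot_iff]
    exact ⟨⟨fun a b => commutative_of_cyclic_center_quotient σ hσ.2.1 a b⟩⟩
  exact eq_bot_iff.2 (h1 ▸ hσ.2.2)

end Cfsg.Agent.S3979
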