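import Cfsg.Statements.S3950
import Cfsg.Agent.H81.Twist
import Cfsg.Agent.S3979
import Mathlib.RingTheory.Coprime.Lemmas

set_option autoImplicit false
open Cfsg

namespace Cfsg.Agent.S3950

/-- A finite abelian group has trivial Schur multiplier if and only if it is cyclic. -/
theorem result {G : Type*} [CommGroup G] [Finite G] : Cfsg.HasCyclicSchurMultiplier G 1 ↔ IsCyclic G := by
  refine ⟨fun h => ?_, fun _ => S3979.result⟩
  classical
  obtain ⟨ι, _, n, hn, ⟨e⟩⟩ := CommGroup.equiv_prod_multiplicative_zmod_of_finite G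
  by_cases hc : Pairwise fun i j => Nat.Coprime (n i) (n j)
  · apply IsCyclic.of_exponent_eq_card
    refine Nat.dvd_antisymm Group.exponent_dvd_nat_card ?_
    rw [Nat.card_congr e.toEquiv, Nat.card_pi]
    have h0 : ∀ i, Nat.card (Multiplicative (ZMod (n i))) = n i := fun i => Nat.card_zmod _
    simp only [h0]
    refine Fintype.prod_dvd_of_isRelPrime (fun i j hij => Nat.coprime_iff_isRelPrime.1 (hc hij))
      fun i => ?_
    have : n i = orderOf (e.symm <| Pi.mulSingle i <| .ofAdd 1) := by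
      simpa only [MulEquiv.orderOf_eq, orderOf_piMulSingle, orderOf_ofAdd_eq_addOrderOf]
        using (ZMod.addOrderOf_one (n i)).symm
    exact this ▸ Monoid.order_dvd_exponent _
  · exfalso
    simp only [Pairwise, not_forall] at hc
    obtain ⟨i, j, hij, hc⟩ := hc
    set d := Nat.gcd (n i) (n j)
    have : Nontrivial (ZMod d) := ZMod.nontrivial_iff.2 hc
    let χ₁ : G → ZMod d := fun g => ZMod.castHom (Nat.gcd_dvd_left _ _) (ZMod d) (e g i).toAdd
    let χ₂ : G → ZMod d := fun g => ZMod.castHom (Nat.gcd_dvd_right _ _) (ZMod d) (e g j).toAdd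
    have h1 : ∀ a b, χ₁ (a * b) = χ₁ a + χ₁ b := fun a b => by
      simp only [χ₁, map_mul, Pi.mul_apply, toAdd_mul, map_add]
    have h2 : ∀ a b, χ₂ (a * b) = χ₂ a + χ₂ b := fun a b => by
      simp only [χ₂, map_mul, Pi.mul_apply, toAdd_mul, map_add]
    let β : G →* G →* Multiplicative (ZMod d) := MonoidHom.mk'
      (fun a => MonoidHom.mk' (fun b => Multiplicative.ofAdd (χ₁ a * χ₂ b))
        (fun b c => by rw [h2, mul_add, ofAdd_add]))
      (fun a b => by
        ext c
        simp only [MonoidHom.mk'_apply, MonoidHom.mul_apply]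
        rw [h1, add_mul, ofAdd_add])
    have hβ : ∀ a b, β a b = Multiplicative.ofAdd (χ₁ a * χ₂ b) := fun _ _ => rfl
    have h3 := H81.ker_inf_commutator_eq_bot h (ξ := H81.twFst β) (fun g => ⟨⟨g, 1⟩, rfl⟩)
      (fun x hx => H81.tw_mem_center β (Subgroup.mem_center_iff.2 fun _ => mul_comm _ _) (fun y => by
        have : x.h = 1 := hx
        simp [this]))
    let x : H81.Tw β := ⟨e.symm (Pi.mulSingle i (Multiplicative.ofAdd 1)), 1⟩
    let y : H81.Tw β := ⟨e.symm (Pi.mulSingle j (Multiplicative.ofAdd 1)), 1⟩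
    have h4 := H81.tw_commutator β (x := x) (y := y) (mul_comm _ _)
    have h5 : H81.twInr β (β x.h y.h * (β y.h x.h)⁻¹) = 1 := by
      refine Subgroup.mem_bot.1 (h3.le ⟨rfl, ?_⟩)
      rw [← h4]
      exact Subgroup.commutator_mem_commutator (Subgroup.mem_top _) (Subgroup.mem_top _)
    have h6 : β x.h y.h = β y.h x.h := mul_inv_eq_one.1 (congrArg H81.Tw.t h5)
    rw [hβ, hβ] at h6
    have h7 := Multiplicative.ofAdd.injective h6
    simp only [x, y, χ₁, χ₂, MulEquiv.apply_symm_apply, Pi.mulSingle_eq_same, toAdd_ofAdd, map_one,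
      Pi.mulSingle_eq_of_ne hij, toAdd_one, map_zero, mul_one, zero_mul] at h7
    exact one_ne_zero h7

end Cfsg.Agent.S3950
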