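import Cfsg.Statements.S3951
import Cfsg.Agent.H81.MetaMult

set_option autoImplicit false
open Cfsg

namespace Cfsg.Agent.S3951

/-- For positive integers `m` and `n` with `n` dividing `m`, the Schur multiplier of the abelian group `ZMod m × ZMod n` (written multiplicatively) is cyclic of order `n`. In particular the elementary abelian group of order `p ^ 2` has multiplier of order `p`. -/
theorem result (m n : ℕ) [NeZero m] [NeZero n] (hnm : n ∣ m) : Cfsg.HasCyclicSchurMultiplier (Multiplicative (ZMod m × ZMod n)) n := by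
  have key := H81.hasCyclicSchurMultiplier_meta (G := Multiplicative (ZMod m × ZMod n))
    (a := Multiplicative.ofAdd (1, 0)) (b := Multiplicative.ofAdd (0, 1)) (m := m) (n := n)
    (ρ := 0) (f := 1) (l := 0) (h := n) ?_ (NeZero.pos m) (NeZero.pos n) (by simp) (by simp) ?_ ?_ ?_ ?_
  · simpa using key
  · rw [orderOf_ofAdd_eq_addOrderOf, Prod.addOrderOf]
    simp [ZMod.addOrderOf_one]
  · rw [← ofAdd_nsmul]; simp
  · rw [eq_top_iff]
    intro x _
    have : x = Multiplicative.ofAdd (1, 0) ^ x.toAdd.1.val * Multiplicative.ofAdd (0, 1) ^ x.toAdd.2.val := by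
      rw [← ofAdd_nsmul, ← ofAdd_nsmul, ← ofAdd_add]
      simp
    rw [this]
    exact Subgroup.mul_mem _ (Subgroup.pow_mem _ (Subgroup.subset_closure (by simp)) _)
      (Subgroup.pow_mem _ (Subgroup.subset_closure (by simp)) _)
  · simp [Nat.gcd_eq_right hnm]
  · rintro j ⟨k, hk⟩
    simp only at hk
    rw [← ofAdd_nsmul, ← ofAdd_zsmul] at hk
    have := congrArg (fun x => x.toAdd.2) hk
    simp only [toAdd_ofAdd, Prod.smul_snd, smul_zero] at this
    rw [nsmul_eq_mul, mul_one] at this
    exact (ZMod.natCast_eq_zero_iff _ _).1 this.symm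

end Cfsg.Agent.S3951
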