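import Cfsg.Statements.S3952
import Cfsg.Agent.H81.MultTr
import Cfsg.Agent.H6.Good

set_option autoImplicit false
open Cfsg

namespace Cfsg.Agent.S3952

theorem pow_degree_eq_one {G A : Type*} [Group G] [Finite G] [Group A] {j : A →* G}
    {μ : A →* ℂˣ} (hc : ∀ a, j a ∈ Subgroup.center G) (hd : ∀ a, j a ∈ commutator G)
    {χ : G → ℂ} (hχ : IsIrrCharacter G χ) (h : H6.LOver j μ χ) (a : A) :
    μ a ^ charDegree χ = 1 := by
  have h0 := H5.degree_ne_zero hχ
  obtain ⟨n, ρ, hρ, rfl⟩ := hχ
  obtain ⟨c, hc'⟩ := H5.exists_scalar_of_comm ρ (ρ (j a)) fun g => by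
    rw [← map_mul, ← map_mul, Subgroup.mem_center_iff.1 (hc a) g]
  have h1 := h.apply_j a
  have h2 : ρ.character (j a) = c * ρ.character 1 := by
    simp only [Representation.character, hc', map_smul, map_one, smul_eq_mul]
  have h3 : c = μ a := mul_right_cancel₀ h0 (h2.symm.trans h1)
  have h4 := Abelianization.commutator_subset_ker
    ((LinearMap.det.comp ρ).toHomUnits) (hd a)
  have h5 : LinearMap.det (ρ (j a)) = 1 := congrArg Units.val h4
  rw [hc', LinearMap.det_smul, map_one, mul_one, h3] at h5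
  rw [H88.charDegree_character]
  exact Units.ext (by simpa using h5)

/-- If `A` is the Schur multiplier of the finite group `Q`, then the square of the exponent of `A` divides the order of `Q`. -/
theorem result {Q : Type*} [Group Q] [Finite Q] {A : Type*} [CommGroup A] (hA : Cfsg.HasSchurMultiplier Q A) : Monoid.exponent A ^ 2 ∣ Nat.card Q := by
  classical
  obtain ⟨⟨Γ, _, _, σ, hσ, ⟨e⟩⟩, -⟩ := id hA
  have := H81.mult_finite hA
  let j : A →* Γ := σ.ker.subtype.comp e.symm.toMonoidHom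
  have hj : Function.Injective j := Subtype.val_injective.comp e.symm.injective
  have : NeZero (Monoid.exponent A) := ⟨Monoid.exponent_ne_zero_of_finite⟩
  obtain ⟨d⟩ := CommGroup.monoidHom_mulEquiv_of_hasEnoughRootsOfUnity A ℂ
  obtain ⟨a, ha⟩ := Monoid.exists_orderOf_eq_exponent (Monoid.ExponentExists.of_finite (G := A))
  have hμ : orderOf (d.symm a) = Monoid.exponent A := by rw [MulEquiv.orderOf_eq, ha]
  have hc : ∀ a, j a ∈ Subgroup.center Γ := fun a => hσ.2.1 (e.symm a).2
  have h1 := H6.card_mul_sum_lOver_degree_sq (H6.lInv_of_central (μ := d.symm a) hc) hj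
  have h2 := σ.ker.card_mul_index
  rw [Subgroup.index_ker, MonoidHom.range_eq_top.2 hσ.1, Subgroup.card_top,
    Nat.card_congr e.toEquiv, ← h1] at h2
  rw [Nat.eq_of_mul_eq_mul_left Nat.card_pos h2]
  refine Finset.dvd_sum fun χ hχ => pow_dvd_pow_of_dvd ?_ 2
  rw [← hμ, orderOf_dvd_iff_pow_eq_one]
  exact MonoidHom.ext fun b =>
    pow_degree_eq_one hc (fun a => hσ.2.2 (e.symm a).2) χ.2 (Finset.mem_filter.1 hχ).2 b

end Cfsg.Agent.S3952
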