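import Cfsg.Statements.S3953
import Cfsg.Agent.H81.MultTr

set_option autoImplicit false
open Cfsg

namespace Cfsg.Agent.S3953

/-- Let `P` be a Sylow `p`-subgroup of the finite group `G`, let `A` be the Schur multiplier of `G` and `B` that of `P`. Then the `p`-primary component of `A` is isomorphic to a direct factor of `B`: there are subgroups `C` and `D` of `B` meeting trivially and generating `B`, with `C` isomorphic to the `p`-primary component of `A`. -/
theorem result {G : Type*} [Group G] [Finite G] (p : ℕ) [Fact p.Prime] (P : Sylow p G) {A B : Type*} [CommGroup A] [CommGroup B] (hA : Cfsg.HasSchurMultiplier G A) (hB : Cfsg.HasSchurMultiplier P B) : ∃ C D : Subgroup B, C ⊓ D = ⊥ ∧ C ⊔ D = ⊤ ∧ Nonempty (CommGroup.primaryComponent A p ≃* C) := by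
  obtain ⟨res, cor, h⟩ := H81.exists_mult_res_cor (P : Subgroup G) hA hB
  have := H81.mult_finite hA
  have hp : p.Prime := Fact.out
  set Ap := CommGroup.primaryComponent A p
  obtain ⟨k, m, hm, hc⟩ := Nat.exists_eq_pow_mul_and_not_dvd (Nat.card_pos (α := A)).ne' p hp.ne_one
  have hmem : ∀ a : A, a ^ m ∈ Ap := fun a =>
    ⟨k, by rw [← pow_mul, mul_comm, ← hc, pow_card_eq_one']⟩
  let ρ : B →* Ap := ((powMonoidHom m).comp cor).codRestrict _ fun b => hmem _
  let i : Ap →* B := res.comp Ap.subtype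
  have hρi : ∀ a, ρ (i a) = a ^ ((P : Subgroup G).index * m) := fun a => Subtype.ext (by
    change cor (res a) ^ m = (a : A) ^ ((P : Subgroup G).index * m)
    rw [h, pow_mul])
  have hinj : Function.Injective (ρ.comp i) := by
    rw [injective_iff_map_eq_one]
    intro a ha
    rw [MonoidHom.comp_apply, hρi] at ha
    obtain ⟨j, hj⟩ := a.2
    have h1 : orderOf a ∣ p ^ j := orderOf_dvd_of_pow_eq_one (Subtype.ext hj)
    have h2 := orderOf_dvd_of_pow_eq_one ha
    have h3 : (p ^ j).Coprime ((P : Subgroup G).index * m) :=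
      Nat.Coprime.pow_left _ (hp.coprime_iff_not_dvd.2 fun hd =>
        (hp.dvd_mul.1 hd).elim P.not_dvd_index hm)
    exact orderOf_eq_one_iff.1 (Nat.eq_one_of_dvd_coprimes h3 h1 h2)
  have hsurj := Finite.surjective_of_injective hinj
  refine ⟨i.range, ρ.ker, ?_, ?_, ⟨MonoidHom.ofInjective (Function.Injective.of_comp (f := ρ) hinj)⟩⟩
  · rw [eq_bot_iff]
    rintro _ ⟨⟨a, rfl⟩, ha⟩
    rw [(injective_iff_map_eq_one _).1 hinj a ha, map_one]
    exact Subgroup.one_mem _
  · rw [eq_top_iff]
    intro b _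
    obtain ⟨a, ha⟩ := hsurj (ρ b)
    have : b = i a * ((i a)⁻¹ * b) := by simp
    rw [this]
    refine Subgroup.mul_mem_sup ⟨a, rfl⟩ ?_
    rw [MonoidHom.mem_ker, map_mul, map_inv, ← ha]
    exact inv_mul_cancel _

end Cfsg.Agent.S3953
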