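import Cfsg.Statements.S3957
import Cfsg.Agent.H81.Hopf

set_option autoImplicit false
universe u v
open Cfsg

namespace Cfsg.Agent.S3957

/-- Let `Q` be a finite group with Schur multiplier `A` and let `τ : Δ →* Q` be a finite stem extension, `Δ` in the universe of `Q`. Then there is a finite stem extension `σ : Γ →* Q` with kernel isomorphic to `A` (a Schur covering group) and a surjective homomorphism `β : Γ →* Δ` with `τ ∘ β = σ`. -/
theorem result {Q : Type u} [Group Q] [Finite Q] {A : Type v} [CommGroup A] (hA : Cfsg.HasSchurMultiplier Q A) {Δ : Type u} [Group Δ] [Finite Δ] (τ : Δ →* Q) (hτ : Cfsg.IsStemExtension τ) : ∃ (Γ : Type u) (_ : Group Γ) (_ : Finite Γ) (σ : Γ →* Q), Cfsg.IsStemExtension σ ∧ Nonempty (σ.ker ≃* A) ∧ ∃ β : Γ →* Δ, Function.Surjective β ∧ τ.comp β = σ := by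
  have hπ := H81.taut_surjective (G := Q)
  set π := H81.taut Q
  obtain ⟨φ, hφ⟩ := H81.exists_cov_lift π hτ.1 hτ.2.1
  have hφs := H81.surjective_of_lift_stem (H81.covMap_surjective π hπ) hτ hφ
  have h1 := H81.map_ker_inf_commutator (H81.covMap_surjective π hπ) hτ.2.1 hφ
  rw [inf_eq_left.2 hτ.2.2] at h1
  have h2 : φ.ker ≤ (H81.covMap π).ker := fun x hx => by
    rw [← hφ, MonoidHom.mem_ker, MonoidHom.comp_apply, MonoidHom.mem_ker.1 hx, map_one]
  have h3 : (H81.covMap π).ker ≤ φ.ker ⊔ H81.Hopf π := fun x hx => by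
    have hx' : φ x ∈ τ.ker := by rw [← hφ] at hx; exact hx
    obtain ⟨m, hm, hmx⟩ := h1.ge hx'
    have : x = (x * m⁻¹) * m := by simp
    rw [this]
    exact Subgroup.mul_mem_sup (by simp [MonoidHom.mem_ker, hmx]) hm
  obtain ⟨S, hS, h4, h5⟩ := H81.exists_complement_hopf π φ.ker h2 h3
  have := H81.normal_of_le_center ((hS.trans h2).trans (H81.covMap_ker_le_center π))
  obtain ⟨hfin, hstem, ⟨e⟩⟩ := H81.stem_of_complement_hopf π hπ S (hS.trans h2) h4 h5
  obtain ⟨f⟩ := H81.mult_unique (H81.hasSchurMultiplier_hopf π hπ) hA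
  refine ⟨_, inferInstance, hfin, _, hstem, ⟨e.trans f⟩, QuotientGroup.lift S φ hS, ?_, ?_⟩
  · intro d
    obtain ⟨c, rfl⟩ := hφs d
    exact ⟨QuotientGroup.mk c, rfl⟩
  · apply MonoidHom.ext
    intro x
    obtain ⟨c, rfl⟩ := QuotientGroup.mk_surjective x
    exact DFunLike.congr_fun hφ c

end Cfsg.Agent.S3957
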