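import Cfsg.Statements.S3964
import Cfsg.Agent.H81.DihMult

set_option autoImplicit false
open Cfsg

namespace Cfsg.Agent.S3964

/-- For odd `n` the dihedral group of order `2 n` has trivial Schur multiplier. -/
theorem result (n : ℕ) (hn : Odd n) : Cfsg.HasCyclicSchurMultiplier (DihedralGroup n) 1 := by
  obtain ⟨k, rfl⟩ := hn
  refine H81.dihedral_mult (2 * k) (2 * k + 1) 1 ?_ (mul_one _)
  have : Nat.Coprime (2 * k + 1) (2 * (2 * k)) := by
    refine Nat.Coprime.mul_right ?_ ?_
    · simp
    · simp
  rw [this, one_mul]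

end Cfsg.Agent.S3964
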