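import Cfsg.Statements.S3965
import Cfsg.Agent.H81.DihMult

set_option autoImplicit false
open Cfsg

namespace Cfsg.Agent.S3965

/-- For even `n ≥ 2` the dihedral group of order `2 n` has Schur multiplier cyclic of order `2`. -/
theorem result (n : ℕ) [NeZero n] (hn : Even n) : Cfsg.HasCyclicSchurMultiplier (DihedralGroup n) 2 := by
  obtain ⟨k, rfl⟩ := hn
  obtain ⟨j, rfl⟩ : ∃ j, k = j + 1 := ⟨k - 1, by have := NeZero.pos (k + k); omega⟩
  have h1 : j + 1 + (j + 1) = (2 * j + 1) + 1 := by ring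
  rw [h1]
  refine H81.dihedral_mult (2 * j + 1) (j + 1) 2 ?_ (by ring)
  have : Nat.Coprime (j + 1) (2 * j + 1) := by
    rw [show 2 * j + 1 = j + (j + 1) by ring, Nat.coprime_add_self_right]
    simp
  rw [show 2 * j + 1 + 1 = 2 * (j + 1) by ring, Nat.gcd_mul_left, this]

end Cfsg.Agent.S3965
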