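import Cfsg.Statements.S3967
import Cfsg.Agent.H81.MetaMult

set_option autoImplicit false
open Cfsg

namespace Cfsg.Agent.S3967

/-- Let `m, n ≥ 1`, `r ≥ 1` with `r ^ n ≡ 1 (mod m)`, and `l` a natural number; put `d = gcd(m, r - 1)`, `t = m l / d` and `h = d · gcd(m, 1 + r + ⋯ + r^(n-1)) / m`. The group presented by generators `a, b` and relations `a ^ m = 1`, `b ^ n = a ^ t`, `b a b⁻¹ = a ^ r` (a metacyclic group of order `m n`) has Schur multiplier cyclic of order `gcd(l, h)`. -/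
theorem result (m n r l : ℕ) (hm : 0 < m) (hn : 0 < n) (hr : 0 < r) (hrn : r ^ n ≡ 1 [MOD m]) : Cfsg.HasCyclicSchurMultiplier (PresentedGroup ({FreeGroup.of true ^ m, (FreeGroup.of false) ^ n * (FreeGroup.of true ^ (m * l / Nat.gcd m (r - 1)))⁻¹, FreeGroup.of false * FreeGroup.of true * (FreeGroup.of false)⁻¹ * (FreeGroup.of true ^ r)⁻¹} : Set (FreeGroup Bool))) (Nat.gcd l (Nat.gcd m (r - 1) * Nat.gcd m (∑ i ∈ Finset.range n, r ^ i) / m)) := by
  obtain ⟨ρ, rfl⟩ : ∃ ρ, r = ρ + 1 := ⟨r - 1, by omega⟩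
  rw [Nat.add_sub_cancel]
  obtain ⟨f, hf⟩ := Nat.gcd_dvd_left m ρ
  have hd : 0 < Nat.gcd m ρ := Nat.gcd_pos_of_pos_left _ hm
  have ht : m * l / Nat.gcd m ρ = f * l := by
    apply Nat.div_eq_of_eq_mul_right hd
    rw [← mul_assoc, ← hf]
  rw [ht]
  obtain ⟨e, he⟩ := Nat.gcd_dvd_right m ρ
  have ht' : (ρ + 1) * (f * l) ≡ f * l [MOD m] := by
    have : (ρ + 1) * (f * l) = f * l + m * (e * l) := by
      calc (ρ + 1) * (f * l) = f * l + ρ * (f * l) := by ring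
        _ = f * l + (Nat.gcd m ρ * e) * (f * l) := by rw [← he]
        _ = f * l + (Nat.gcd m ρ * f) * (e * l) := by ring
        _ = _ := by rw [← hf]
    rw [this]
    exact (Nat.modEq_iff_dvd' (Nat.le_add_right _ _)).2 (by simp) |>.symm
  obtain ⟨o1, o2, o3, o4, o5⟩ := H81.meta_presented m n (ρ + 1) (f * l) hm hn hrn ht'
  refine H81.hasCyclicSchurMultiplier_meta o1 hm hn hf o2 o3 o5 ?_ o4
  have h1 : m ∣ ρ * ∑ i ∈ Finset.range n, (ρ + 1) ^ i := by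
    rw [← geom_sum_mul_add] at hrn
    rw [mul_comm]
    have := (Nat.modEq_iff_dvd' (Nat.le_add_left _ _)).1 hrn.symm
    simpa using this
  obtain ⟨h, hh⟩ := Nat.dvd_gcd_mul_gcd_iff_dvd_mul.2 h1
  rw [hh, Nat.mul_div_cancel_left _ hm]
  apply Nat.eq_of_mul_eq_mul_left hd
  rw [hh, ← mul_assoc, ← hf]

end Cfsg.Agent.S3967
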