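import Cfsg.Statements.S3968
import Cfsg.Agent.H88.Deg5

set_option autoImplicit false
open Cfsg

namespace Cfsg.Agent.S3968

open Cfsg.Agent.H5 Cfsg.Agent.H6 Cfsg.Agent.H88

/-- Let `p` be a prime and `G` a finite group with a faithful irreducible complex character of degree `p` (so `G` is an irreducible linear group in `p` variables). If `p ^ 2` divides the order of `G`, then the centre of `G` is nontrivial. -/
theorem result {G : Type*} [Group G] [Finite G] (p : ℕ) (hp : p.Prime) (χ : Cfsg.IrrCharacter G) (hdeg : χ.1 1 = p) (hfaith : ∀ g : G, χ.1 g = χ.1 1 → g = 1) (hdiv : p ^ 2 ∣ Nat.card G) : Subgroup.center G ≠ ⊥ := by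
  exact center_ne_bot_of_degree_prime hp χ.2 (charDegree_eq_of_eq hdeg) hfaith hdiv

end Cfsg.Agent.S3968
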