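import Cfsg.Statements.S3970
import Cfsg.Agent.H81.AutPrime
import Cfsg.Agent.H81.OrderType
import Cfsg.Agent.H2.Basic

set_option autoImplicit false
open Cfsg

namespace Cfsg.Agent.S3970

/-- Let `G` be a finite group such that for every prime `p` dividing its order, other than the largest such prime, the Sylow `p`-subgroups are abelian and generated by at most two elements, and suppose `12` does not divide the order of `G`. Then `G` is solvable. In particular a group of cube-free order not divisible by `12` is solvable. -/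
theorem result {G : Type*} [Group G] [Finite G] (h : ∀ p : ℕ, p.Prime → p ∣ Nat.card G → (∃ q : ℕ, q.Prime ∧ q ∣ Nat.card G ∧ p < q) → ∀ P : Sylow p G, IsMulCommutative (P : Subgroup G) ∧ Group.rank (P : Subgroup G) ≤ 2) (h12 : ¬ 12 ∣ Nat.card G) : Group.IsSolvable G := by
  revert h h12
  refine H2.card_induction (P := fun G _ _ => (∀ p : ℕ, p.Prime → p ∣ Nat.card G →
    (∃ q : ℕ, q.Prime ∧ q ∣ Nat.card G ∧ p < q) → ∀ P : Sylow p G,
      IsMulCommutative (P : Subgroup G) ∧ Group.rank (P : Subgroup G) ≤ 2) → ¬ 12 ∣ Nat.card G →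
      Group.IsSolvable G) G ?_
  intro G _ _ ih h h12
  by_cases h1 : Nat.card G = 1
  · have := (Nat.card_eq_one_iff_unique.1 h1).1
    exact (Group.isSolvable_def G).2 ⟨0, Subsingleton.elim _ _⟩
  set p := (Nat.card G).minFac with hpdef
  have hp : p.Prime := Nat.minFac_prime h1
  have hpd : p ∣ Nat.card G := Nat.minFac_dvd _
  have := Fact.mk hp
  have hmin : ∀ q : ℕ, q.Prime → q ∣ Nat.card G → p ≤ q := fun q hq hd =>
    Nat.minFac_le_of_dvd hq.two_le hd
  by_cases hq : ∃ q : ℕ, q.Prime ∧ q ∣ Nat.card G ∧ p < q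
  swap
  · push Not at hq
    exact H81.isSolvable_of_isPGroup (p := p) (IsPGroup.of_card
      (Nat.eq_prime_pow_of_unique_prime_dvd Nat.card_pos.ne' fun hr hd =>
        le_antisymm (hq _ hr hd) (hmin _ hr hd)))
  obtain ⟨P⟩ : Nonempty (Sylow p G) := inferInstance
  obtain ⟨hab, hr⟩ := h p hp hpd hq P
  obtain ⟨N, hN, hcop, k, hk⟩ : ∃ N : Subgroup G, N.Normal ∧ Nat.Coprime (Nat.card N) p ∧
      ∃ k, N.index = p ^ k := by
    rw [← H3.hasNormalPComplement_iff_exists_normal]
    refine H81.hasNormalPComplement_of_abelian P hab fun g hg hgp => ?_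
    by_contra hc
    obtain ⟨q, hq, hd, hqp, i, hi1, hi2, hi3, hqi⟩ :=
      H81.exists_dvd_pow_sub_one_of_not_mem_centralizer P.isPGroup' hg hgp hc
    have hqG := hd.trans (orderOf_dvd_natCard g)
    have hlt : p < q := lt_of_le_of_ne (hmin q hq hqG) hqp.symm
    have hp2 := hp.two_le
    have hnd : ¬ q ∣ p - 1 := fun h => by
      have := Nat.le_of_dvd (by omega) h
      omega
    have hi : i = 1 ∨ i = 2 := by omega
    rcases hi with rfl | rfl
    · exact hnd (by simpa using hqi)
    · rw [← one_pow 2, Nat.sq_sub_sq] at hqi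
      have h3 := Nat.le_of_dvd (by omega) (((Nat.Prime.dvd_mul hq).1 hqi).resolve_right hnd)
      have h4 : q = p + 1 := by omega
      have h5 : p = 2 := by
        rcases hp.eq_two_or_odd' with h | h
        · exact h
        · rcases hq.eq_two_or_odd' with h' | h'
          · omega
          · rw [h4] at h'
            exact absurd h.add_one (Nat.not_even_iff_odd.2 h')
      apply h12
      replace hi3 := hi3.trans (Subgroup.card_subgroup_dvd_card _)
      rw [h5] at hi3
      rw [h4, h5] at hqG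
      exact Nat.Coprime.mul_dvd_of_dvd_of_dvd (m := 4) (n := 3) (by decide) hi3 hqG
  have hNt : N ≠ ⊤ := by
    rintro rfl
    rw [Subgroup.card_top] at hcop
    exact hp.one_lt.ne' (Nat.eq_one_of_dvd_coprimes hcop hpd dvd_rfl)
  refine (Group.isSolvable_iff_subgroup_quotient N).2
    ⟨ih N (H2.card_lt_of_ne_top hNt) ?_ fun h => h12 (h.trans N.card_subgroup_dvd_card),
      H81.isSolvable_of_isPGroup (p := p) (IsPGroup.of_card hk)⟩
  rintro r hr hrd ⟨s, hs, hsd, hrs⟩ R
  have := Fact.mk hr
  have hri : ¬ r ∣ ((R : Subgroup N).map N.subtype).index := by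
    rw [Subgroup.index_map_subtype, hk]
    intro h
    rcases (Nat.Prime.dvd_mul hr).1 h with h | h
    · exact R.not_dvd_index h
    · rw [(Nat.prime_dvd_prime_iff_eq hr hp).1 (hr.dvd_of_dvd_pow h)] at hrd
      exact hp.one_lt.ne' (Nat.eq_one_of_dvd_coprimes hcop hrd dvd_rfl)
  obtain ⟨h2, h3⟩ := h r hr (hrd.trans N.card_subgroup_dvd_card)
    ⟨s, hs, hsd.trans N.card_subgroup_dvd_card, hrs⟩ ((R.isPGroup'.map N.subtype).toSylow hri)
  let e := (R : Subgroup N).equivMapOfInjective _ N.subtype_injective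
  refine ⟨⟨⟨fun a b => e.injective ?_⟩⟩, (Group.rank_congr e).le.trans h3⟩
  rw [map_mul, map_mul]
  exact h2.is_comm.comm _ _

end Cfsg.Agent.S3970
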