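import Cfsg.Statements.S3971
import Cfsg.Agent.H81.AutPrime
import Cfsg.Agent.H72.SylowIn
import Cfsg.Agent.H47.Cyc

set_option autoImplicit false
open Cfsg

namespace Cfsg.Agent.S3971

/-- Let `G` be a finite group of order `2 ^ a * n` with `n` odd and not divisible by `3`, and suppose `G` has an element of order `2 ^ (a - 1)` (so a Sylow `2`-subgroup has a cyclic subgroup of index at most `2`). Then `G` has a normal subgroup of order `n`. -/
theorem result {G : Type*} [Group G] [Finite G] (a n : ℕ) (hG : Nat.card G = 2 ^ a * n) (hn : Odd n) (h3 : ¬ 3 ∣ n) (hx : ∃ x : G, orderOf x = 2 ^ (a - 1)) : ∃ N : Subgroup G, N.Normal ∧ Nat.card N = n := by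
  classical
  obtain ⟨x, hx⟩ := hx
  obtain ⟨P, hP⟩ := (H81.isPGroup_zpowers_of_orderOf hx).exists_le_sylow
  have hn2 : ¬ 2 ∣ n := fun h => Nat.not_even_iff_odd.2 hn (even_iff_two_dvd.2 h)
  have hPc : Nat.card P = 2 ^ a := by
    rw [P.card_eq_multiplicity, hG, Nat.factorization_mul (by positivity) hn.pos.ne',
      Nat.prime_two.factorization_pow, Finsupp.add_apply, Finsupp.single_eq_same,
      Nat.factorization_eq_zero_of_not_dvd hn2, add_zero]
  have hrel : (Subgroup.zpowers x).relIndex P ∣ 2 := by
    have := H21.card_mul_relIndex_of_le hP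
    rw [Nat.card_zpowers, hx, hPc] at this
    rcases a with _ | a
    · exact (Dvd.intro_left _ this).trans (by simp)
    · rw [Nat.add_sub_cancel, pow_succ] at this
      exact dvd_of_eq (Nat.eq_of_mul_eq_mul_left (by positivity) this)
  obtain ⟨y, -, hy⟩ := Subgroup.relIndex_dvd_two_iff.1 hrel
  obtain ⟨N, hN, hcop, k, hk⟩ : ∃ N : Subgroup G, N.Normal ∧ Nat.Coprime (Nat.card N) 2 ∧
      ∃ k, N.index = 2 ^ k := by
    rw [← H3.hasNormalPComplement_iff_exists_normal, H3.hasNormalPComplement_iff_frobenius_sylow P]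
    intro Q hQ g hg hgp
    by_contra hc
    obtain ⟨q, hq, hd, hqp, i, hi1, hi2, -, hqi⟩ :=
      H81.exists_dvd_pow_sub_one_of_not_mem_centralizer (P.isPGroup'.to_le hQ) hg hgp hc
    have hr : Group.rank Q ≤ 2 := by
      obtain ⟨c, hc, hcz⟩ := H47.cyc_exists_gen (C := Q ⊓ Subgroup.zpowers x)
        (H49.cyclic_of_le inferInstance inf_le_right)
      obtain ⟨b, hb, hb'⟩ : ∃ b ∈ Q, ∀ z ∈ Q, z * b⁻¹ ∈ Subgroup.zpowers x ∨
          z ∈ Subgroup.zpowers x := by
        by_cases hall : ∀ m ∈ Q, m ∈ Subgroup.zpowers x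
        · exact ⟨1, Q.one_mem, fun b hb => Or.inr (hall b hb)⟩
        push Not at hall
        obtain ⟨m, hm, hmx⟩ := hall
        refine ⟨m, hm, fun b hb => (hy b (hQ hb)).imp_left fun hb' => ?_⟩
        have := (Subgroup.zpowers x).mul_mem hb'
          ((Subgroup.zpowers x).inv_mem ((hy m (hQ hm)).resolve_right hmx))
        simpa [mul_assoc] using this
      have hcl : Subgroup.closure (({c, b} : Finset G) : Set G) = Q := by
        refine le_antisymm ((Subgroup.closure_le _).2 ?_) fun z hz => ?_
        · intro w hw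
          simp only [Finset.coe_insert, Finset.coe_singleton, Set.mem_insert_iff,
            Set.mem_singleton_iff] at hw
          rcases hw with rfl | rfl
          · exact hc.1
          · exact hb
        · have h1 : Q ⊓ Subgroup.zpowers x ≤ Subgroup.closure (({c, b} : Finset G) : Set G) := by
            rw [← hcz, Subgroup.zpowers_le]
            exact Subgroup.subset_closure (by simp)
          rcases hb' z hz with h | h
          · have := mul_mem (h1 ⟨Q.mul_mem hz (Q.inv_mem hb), h⟩)
              (Subgroup.subset_closure (by simp) : b ∈ Subgroup.closure (({c, b} : Finset G) : Set G))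
            simpa using this
          · exact h1 ⟨hz, h⟩
      rw [← Subgroup.rank_congr hcl]
      exact (Subgroup.rank_closure_finset_le_card _).trans Finset.card_le_two
    have hi : i = 1 ∨ i = 2 := by omega
    rcases hi with rfl | rfl
    · exact hq.one_lt.ne' (by simpa using hqi)
    · have h4 : q = 3 := (Nat.prime_dvd_prime_iff_eq hq Nat.prime_three).1 hqi
      have h5 := hd.trans (orderOf_dvd_natCard g)
      rw [h4, hG] at h5
      exact h3 ((Nat.Coprime.pow_right a (by decide : Nat.Coprime 3 2)).dvd_of_dvd_mul_left h5)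
  refine ⟨N, hN, ?_⟩
  have h1 := N.card_mul_index
  rw [hk, hG] at h1
  apply Nat.dvd_antisymm
  · exact (hcop.pow_right a).dvd_of_dvd_mul_left (h1 ▸ Dvd.intro _ rfl)
  · exact (hn.coprime_two_right.pow_right k).dvd_of_dvd_mul_right
      (h1 ▸ Dvd.intro_left _ rfl)

end Cfsg.Agent.S3971
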