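import Cfsg.Statements.S3973
import Cfsg.Agent.H81.MultTr

set_option autoImplicit false
open Cfsg

namespace Cfsg.Agent.S3973

open Function Subgroup H81

theorem map_mem_commutator' {K L : Type*} [Group K] [Group L] (f : K →* L) {a : K}
    (ha : a ∈ commutator K) : f a ∈ commutator L := by
  have : (commutator K).map f ≤ commutator L := by
    rw [map_commutator_eq]; exact commutator_mono le_top le_top
  exact this ⟨a, ha, rfl⟩

theorem rank_ker_le {K : Type*} [CommGroup K] {r n : ℕ} (f : Multiplicative (Fin r → ℤ) →* K)
    (hf : Surjective f) (g : K →* Multiplicative (Fin n → ℤ)) (hg : g.range.FiniteIndex)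
    [Group.FG g.ker] : Group.rank g.ker ≤ r - n := by
  classical
  let h : (Fin r → ℤ) →ₗ[ℤ] (Fin n → ℤ) := (MonoidHom.toAdditive (g.comp f)).toIntLinearMap
  have h1 := (LinearMap.ker h).finrank_quotient_add_finrank
  rw [h.quotKerEquivRange.finrank_eq] at h1
  have h2 : Module.finrank ℤ (LinearMap.range h) = n := by
    have h3 : (LinearMap.range h).toAddSubgroup.index ≠ 0 := by
      have h4 : (LinearMap.range h).toAddSubgroup = g.range.toAddSubgroup' := by
        ext x
        constructor
        · rintro ⟨y, rfl⟩
          exact ⟨f (Multiplicative.ofAdd y), rfl⟩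
        · rintro ⟨y, hy⟩
          obtain ⟨z, rfl⟩ := hf y
          exact ⟨z.toAdd, hy⟩
      rw [h4]
      exact hg.1
    have h5 : Finite ((Fin n → ℤ) ⧸ LinearMap.range h) := Nat.finite_of_card_ne_zero h3
    have := (Submodule.finiteQuotient_iff (LinearMap.range h)).1 h5
    simpa using this
  rw [h2, Module.finrank_fintype_fun_eq_card, Fintype.card_fin] at h1
  let b := Module.finBasis ℤ (LinearMap.ker h)
  let φ : Multiplicative (LinearMap.ker h) →* g.ker :=
    (f.comp (AddMonoidHom.toMultiplicative (LinearMap.ker h).subtype.toAddMonoidHom)).codRestrict _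
      fun x => x.toAdd.2
  have hφ : Surjective φ := by
    rintro ⟨y, hy⟩
    obtain ⟨z, rfl⟩ := hf y
    exact ⟨Multiplicative.ofAdd ⟨z.toAdd, hy⟩, rfl⟩
  let S : Finset g.ker := Finset.univ.image fun i => φ (Multiplicative.ofAdd (b i))
  have hS : closure (S : Set g.ker) = ⊤ := by
    rw [eq_top_iff]
    intro x _
    obtain ⟨z, rfl⟩ := hφ x
    have : z = Multiplicative.ofAdd (∑ i, b.repr z.toAdd i • b i) := by rw [b.sum_repr]; rfl
    rw [this, ofAdd_sum, map_prod]
    refine Subgroup.prod_mem _ fun i _ => ?_
    rw [ofAdd_zsmul, map_zpow]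
    exact zpow_mem (subset_closure (by simp [S])) _
  refine (Group.rank_le hS).trans (Finset.card_image_le.trans ?_)
  rw [Finset.card_univ, Fintype.card_fin]
  omega

/-- If a finite group is presented by `n` generators and a finite set of `r` relators, then its Schur multiplier can be generated by `r - n` elements. In particular a finite group with a presentation having as many relators as generators has trivial Schur multiplier. -/
theorem result (n : ℕ) (rels : Finset (FreeGroup (Fin n))) [Finite (PresentedGroup (rels : Set (FreeGroup (Fin n))))] {A : Type*} [CommGroup A] [Finite A] (hA : Cfsg.HasSchurMultiplier (PresentedGroup (rels : Set (FreeGroup (Fin n)))) A) : Group.rank A ≤ rels.card - n := by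
  classical
  let π := PresentedGroup.mk (rels : Set (FreeGroup (Fin n)))
  have hπ : Surjective π := PresentedGroup.mk_surjective _
  have hker : π.ker = normalClosure (rels : Set (FreeGroup (Fin n))) := QuotientGroup.ker_mk' _
  obtain ⟨e⟩ := mult_unique hA (hasSchurMultiplier_hopf π hπ)
  let v : Fin rels.card → (covMap π).ker := fun i =>
    covTheta π ⟨rels.equivFin.symm i, hker ▸ subset_normalClosure (rels.equivFin.symm i).2⟩
  let f : Multiplicative (Fin rels.card → ℤ) →* (covMap π).ker :=
    { toFun := fun x => ∏ i, v i ^ (x.toAdd i)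
      map_one' := by simp
      map_mul' := fun x y => by simp [zpow_add, Finset.prod_mul_distrib] }
  have hf : Surjective f := by
    have hn := normal_of_le_center (H := f.range.map (covMap π).ker.subtype)
      ((map_subtype_le _).trans (covMap_ker_le_center π))
    have h1 : normalClosure (rels : Set (FreeGroup (Fin n))) ≤
        (f.range.map (covMap π).ker.subtype).comap (QuotientGroup.mk' _) := by
      refine normalClosure_le_normal fun x hx => ?_
      refine ⟨v (rels.equivFin ⟨x, hx⟩),
        ⟨Multiplicative.ofAdd (Pi.single (rels.equivFin ⟨x, hx⟩) 1), ?_⟩, by simp only [v, Equiv.symm_apply_apply]; rfl⟩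
      change ∏ i, v i ^ (Pi.single (rels.equivFin ⟨x, hx⟩) 1 : Fin rels.card → ℤ) i = _
      rw [Finset.prod_eq_single (rels.equivFin ⟨x, hx⟩)]
      · simp
      · intro i _ hi
        simp [Pi.single_eq_of_ne hi]
      · simp
    intro x
    obtain ⟨r, rfl⟩ := covTheta_surjective π x
    obtain ⟨y, ⟨z, rfl⟩, hy⟩ := h1 (hker.le r.2)
    exact ⟨z, Subtype.ext hy⟩
  let w : Abelianization (FreeGroup (Fin n)) ≃* Multiplicative (Fin n → ℤ) :=
    (AddEquiv.toMultiplicativeRight ((FreeAbelianGroup.equivFinsupp (Fin n)).trans
      (Finsupp.addEquivFunOnFinite)))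
  let g0 : Cov π →* Multiplicative (Fin n → ℤ) :=
    QuotientGroup.lift _ (w.toMonoidHom.comp Abelianization.of)
      ((commutator_mono le_top le_top).trans (Abelianization.commutator_subset_ker _))
  have hg0 : g0.ker = commutator (Cov π) := by
    refine le_antisymm (fun x hx => ?_) (Abelianization.commutator_subset_ker _)
    obtain ⟨y, rfl⟩ := QuotientGroup.mk_surjective x
    have h1 : Abelianization.of y = 1 := w.injective (by rw [map_one]; exact hx)
    rw [← MonoidHom.mem_ker, Abelianization.ker_of] at h1
    exact map_mem_commutator' (QuotientGroup.mk' _) h1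
  have hg0s : Surjective g0 := by
    intro y
    obtain ⟨z, rfl⟩ := w.surjective y
    obtain ⟨x, rfl⟩ := QuotientGroup.mk_surjective z
    exact ⟨QuotientGroup.mk x, rfl⟩
  let g := g0.comp (covMap π).ker.subtype
  have hg : g.range.FiniteIndex := by
    have h1 : g.range = (covMap π).ker.map g0 := by
      rw [MonoidHom.range_comp, range_subtype]
    have : (covMap π).ker.FiniteIndex := finiteIndex_ker _
    rw [h1]
    exact ⟨ne_zero_of_dvd_ne_zero this.1 (index_map_dvd _ hg0s)⟩
  have e2 : g.ker ≃* Hopf π := by
    have h1 : g.ker = (Hopf π).subgroupOf (covMap π).ker := by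
      ext x
      rw [mem_subgroupOf, mem_inf, ← hg0]
      exact ⟨fun h => ⟨x.2, h⟩, fun h => h.2⟩
    rw [h1]
    exact subgroupOfEquivOfLe inf_le_left
  have : Finite g.ker := Finite.of_equiv _ e2.toEquiv.symm
  rw [Group.rank_congr (e.trans e2.symm)]
  exact rank_ker_le f hf g hg

end Cfsg.Agent.S3973
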