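import Cfsg.Statements.S3974
import Cfsg.Agent.H81.MultTr

set_option autoImplicit false
universe u v
open Cfsg

namespace Cfsg.Agent.S3974

open Function Subgroup H81

theorem map_mem_commutator' {K L : Type*} [Group K] [Group L] (f : K →* L) {a : K}
    (ha : a ∈ commutator K) : f a ∈ commutator L := by
  have : (commutator K).map f ≤ commutator L := by
    rw [map_commutator_eq]; exact commutator_mono le_top le_top
  exact this ⟨a, ha, rfl⟩

theorem exists_mem_commutator {K L : Type*} [Group K] [Group L] (f : K →* L) (hf : Surjective f)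
    {b : L} (hb : b ∈ commutator L) : ∃ a ∈ commutator K, f a = b := by
  have : (commutator K).map f = commutator L := by
    rw [map_commutator_eq, MonoidHom.range_eq_top.2 hf]; rfl
  rw [← this] at hb
  exact hb

theorem exists_hom_int {T : Type*} [CommGroup T] [Group.FG T]
    (hT : ∀ (t : T) (n : ℕ), n ≠ 0 → t ^ n = 1 → t = 1) {p : ℕ} {l : T} (hl : ∀ y, y ^ p ≠ l) :
    ∃ φ : T →* Multiplicative ℤ, ¬ (p : ℤ) ∣ (φ l).toAdd := by
  have : Module.Finite ℤ (Additive T) := Module.Finite.iff_addGroup_fg.2 inferInstance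
  have : IsMulTorsionFree T := by
    refine ⟨fun n hn a b hab => ?_⟩
    have h1 : (a * b⁻¹) ^ n = 1 := by
      have : a ^ n = b ^ n := hab
      rw [mul_pow, this, ← mul_pow]; simp
    exact mul_inv_eq_one.1 (hT _ n hn h1)
  have : Module.IsTorsionFree ℤ (Additive T) := inferInstance
  have : Module.Free ℤ (Additive T) := Module.free_of_finite_type_torsion_free'
  let b := Module.finBasis ℤ (Additive T)
  by_contra hc
  push Not at hc
  have h1 : ∀ i, ∃ c : ℤ, b.repr (Additive.ofMul l) i = p * c := fun i =>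
    hc (AddMonoidHom.toMultiplicativeRight (b.coord i).toAddMonoidHom)
  choose c hc using h1
  apply hl (Additive.toMul (∑ i, c i • b i))
  change (p • ∑ i, c i • b i : Additive T) = Additive.ofMul l
  rw [← b.sum_repr (Additive.ofMul l), Finset.smul_sum]
  refine Finset.sum_congr rfl fun i _ => ?_
  rw [hc, mul_smul, natCast_zsmul]

theorem unique_of_coprime {Q : Type*} [Group Q] [Finite Q] {A : Type*} [CommGroup A]
    (hA : HasSchurMultiplier Q A) (hco : Nat.Coprime (Nat.card (Abelianization Q)) (Nat.card A))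
    {Γ₁ Γ₂ : Type*} [Group Γ₁] [Finite Γ₁] [Group Γ₂] [Finite Γ₂] {σ₁ : Γ₁ →* Q} {σ₂ : Γ₂ →* Q}
    (h₁ : IsStemExtension σ₁) (h₂ : IsStemExtension σ₂) (e₁ : σ₁.ker ≃* A) (e₂ : σ₂.ker ≃* A) :
    ∃ e : Γ₁ ≃* Γ₂, σ₂.comp e.toMonoidHom = σ₁ := by
  have hfin := mult_finite hA
  have hinf := pb_inj_of_cover hA h₁ (Nat.card_congr e₁.toEquiv).ge h₂.1 h₂.2.1
  set η := pbFst σ₁ σ₂
  have hη : Surjective η := pbFst_surjective σ₁ h₂.1
  let i : η.ker →* Abelianization (pb σ₁ σ₂) := Abelianization.of.comp η.ker.subtype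
  have hinj : Injective i := by
    rw [injective_iff_map_eq_one]
    intro k hk
    have : k.1 ∈ commutator _ := by rw [← Abelianization.ker_of]; exact hk
    exact Subtype.ext (Subgroup.mem_bot.1 (hinf.le ⟨k.2, this⟩))
  obtain ⟨t, -, ht⟩ := Nat.exists_mul_mod_eq_of_coprime 1 hco Nat.card_pos.ne'
  set m := Nat.card (Abelianization Q)
  have hm : ∀ x : pb σ₁ σ₂, Abelianization.of x ^ (m * t) ∈ i.range := by
    intro x
    have h1 : σ₁ (η (x ^ m)) ∈ commutator Q := by
      rw [← Abelianization.ker_of, MonoidHom.mem_ker, map_pow, map_pow, map_pow]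
      exact pow_card_eq_one'
    obtain ⟨y, hy, h2⟩ := exists_mem_commutator σ₁ h₁.1 h1
    have h3 : η (x ^ m) ∈ commutator Γ₁ := by
      have : y⁻¹ * η (x ^ m) ∈ σ₁.ker := by
        rw [MonoidHom.mem_ker, map_mul, map_inv, h2, inv_mul_cancel]
      simpa using mul_mem hy (h₁.2.2 this)
    obtain ⟨z, hz, h4⟩ := exists_mem_commutator η hη h3
    rw [pow_mul]
    refine i.range.pow_mem ⟨⟨z⁻¹ * x ^ m, by
      rw [MonoidHom.mem_ker, map_mul, map_inv, h4, inv_mul_cancel]⟩, ?_⟩ t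
    have h5 : Abelianization.of z = 1 := Abelianization.commutator_subset_ker _ hz
    change Abelianization.of (z⁻¹ * x ^ m) = _
    rw [map_mul, map_inv, h5, map_pow, inv_one, one_mul]
  let μ : pb σ₁ σ₂ →* η.ker := (MonoidHom.ofInjective hinj).symm.toMonoidHom.comp
    (((powMonoidHom (m * t)).comp Abelianization.of).codRestrict _ hm)
  have hμ : ∀ k : η.ker, μ k = k := by
    intro k
    apply (MonoidHom.ofInjective hinj).injective
    change (MonoidHom.ofInjective hinj) ((MonoidHom.ofInjective hinj).symm _) = _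
    rw [MulEquiv.apply_symm_apply]
    apply Subtype.ext
    change Abelianization.of k.1 ^ (m * t) = Abelianization.of k.1
    have h1 : k.1.1.2 ∈ σ₂.ker := by
      have h2 : k.1.1.1 = 1 := k.2
      have h3 : σ₁ k.1.1.1 = σ₂ k.1.1.2 := k.1.2
      rw [MonoidHom.mem_ker, ← h3, h2, map_one]
    have h2 : k.1 ^ Nat.card A = 1 := by
      apply Subtype.ext
      apply Prod.ext
      · have h2 : k.1.1.1 = 1 := k.2
        change k.1.1.1 ^ _ = 1
        rw [h2, one_pow]
      · rw [← Nat.card_congr e₂.toEquiv]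
        exact congrArg Subtype.val (pow_card_eq_one' (x := (⟨_, h1⟩ : σ₂.ker)))
    rw [← map_pow, pow_eq_pow_mod _ h2, ht, ← pow_eq_pow_mod _ h2, pow_one]
  obtain ⟨s, hs⟩ := exists_section_of_retraction hη (pbFst_ker_le_center σ₁ h₂.2.1) μ hμ
  have hφ : σ₂.comp ((pbSnd σ₁ σ₂).comp s) = σ₁ := by
    rw [← MonoidHom.comp_assoc, pb_comm, MonoidHom.comp_assoc, hs, MonoidHom.comp_id]
  have hsurj := surjective_of_lift_stem h₁.1 h₂ hφ
  have hc : Nat.card Γ₁ = Nat.card Γ₂ := by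
    rw [← σ₁.ker.card_mul_index, ← σ₂.ker.card_mul_index, index_ker, index_ker,
      MonoidHom.range_eq_top.2 h₁.1, MonoidHom.range_eq_top.2 h₂.1, Nat.card_congr e₁.toEquiv,
      Nat.card_congr e₂.toEquiv]
  exact ⟨MulEquiv.ofBijective _ (hsurj.bijective_of_nat_card_le hc.le), hφ⟩

/-- Let `Q` be a finite group with Schur multiplier `A`. Any two Schur covering groups of `Q` (finite stem extensions `σ₁ : Γ₁ →* Q`, `σ₂ : Γ₂ →* Q` with kernels isomorphic to `A`, `Γ₁, Γ₂` in the universe of `Q`) are isomorphic over `Q` — there is a group isomorphism `e : Γ₁ ≃* Γ₂` with `σ₂ ∘ e = σ₁` — if and only if the order of the commutator quotient of `Q` is coprime to the order of `A`. In particular a finite perfect group has a unique Schur covering group up to isomorphism over it. -/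
theorem result {Q : Type u} [Group Q] [Finite Q] {A : Type v} [CommGroup A] (hA : Cfsg.HasSchurMultiplier Q A) : (∀ (Γ₁ Γ₂ : Type u) [Group Γ₁] [Finite Γ₁] [Group Γ₂] [Finite Γ₂] (σ₁ : Γ₁ →* Q) (σ₂ : Γ₂ →* Q), Cfsg.IsStemExtension σ₁ → Cfsg.IsStemExtension σ₂ → Nonempty (σ₁.ker ≃* A) → Nonempty (σ₂.ker ≃* A) → ∃ e : Γ₁ ≃* Γ₂, σ₂.comp e.toMonoidHom = σ₁) ↔ Nat.Coprime (Nat.card (Abelianization Q)) (Nat.card A) := by
  refine ⟨fun h => ?_, fun hco Γ₁ Γ₂ _ _ _ _ σ₁ σ₂ h₁ h₂ ⟨e₁⟩ ⟨e₂⟩ =>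
    unique_of_coprime hA hco h₁ h₂ e₁ e₂⟩
  by_contra hco
  obtain ⟨p, hp, hp1, hp2⟩ := Nat.Prime.not_coprime_iff_dvd.1 hco
  have := Fact.mk hp
  set π := taut Q
  have hπ : Surjective π := taut_surjective
  obtain ⟨eA⟩ := mult_unique hA (hasSchurMultiplier_hopf π hπ)
  obtain ⟨S₁, hS₁, h11, h12⟩ := exists_complement_hopf π (covMap π).ker le_rfl le_sup_left
  have hN : (Hopf π).Normal := inferInstance
  -- an element of the multiplier that is not a `p`-th power
  obtain ⟨m₀, hm₀⟩ : ∃ m₀ : Hopf π, m₀ ∉ (powMonoidHom p : Hopf π →* Hopf π).range := by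
    by_contra hc
    push Not at hc
    have hinj := Finite.injective_iff_surjective.2 (show Surjective (powMonoidHom p) from hc)
    obtain ⟨y, hy⟩ := exists_prime_orderOf_dvd_card' (G := Hopf π) p
      (by rwa [← Nat.card_congr eA.toEquiv])
    have : y = 1 := (injective_iff_map_eq_one _).1 hinj y (by
      rw [powMonoidHom_apply, ← hy, pow_orderOf_eq_one])
    rw [this, orderOf_one] at hy
    exact hp.one_lt.ne hy
  -- an element of the cover whose `p`-th power is in the kernel modulo commutators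
  obtain ⟨y, hy⟩ := exists_prime_orderOf_dvd_card' (G := Abelianization Q) p hp1
  obtain ⟨q, rfl⟩ : ∃ q, Abelianization.of q = y := QuotientGroup.mk_surjective y
  obtain ⟨c, rfl⟩ := covMap_surjective π hπ q
  have h1 : covMap π (c ^ p) ∈ commutator Q := by
    rw [← Abelianization.ker_of, MonoidHom.mem_ker, map_pow, map_pow, ← hy, pow_orderOf_eq_one]
  obtain ⟨c', hc', h2⟩ := exists_mem_commutator _ (covMap_surjective π hπ) h1
  obtain ⟨s, hs, m, hm, hsm⟩ := mem_sup_of_normal_right.1 (h12 (show c ^ p * c'⁻¹ ∈ _ by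
    rw [MonoidHom.mem_ker, map_mul, map_inv, h2, mul_inv_cancel]))
  have hcp : c ^ p = s * (m * c') := by rw [← mul_assoc, hsm, inv_mul_cancel_right]
  have hmc : m * c' ∈ commutator (Cov π) := mul_mem hm.2 hc'
  have : (covMap π).ker.FiniteIndex := finiteIndex_ker _
  have : Group.FG (covMap π).ker := inferInstance
  let a : (covMap π).ker →* Abelianization (Cov π) :=
    Abelianization.of.comp (covMap π).ker.subtype
  have hl : ∀ z : a.range, z ^ p ≠ a.rangeRestrict ⟨s, hS₁ hs⟩ := by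
    rintro ⟨_, k, rfl⟩ hz
    have h3 : Abelianization.of k.1 ^ p = Abelianization.of s := congrArg Subtype.val hz
    have h4 : Abelianization.of c ^ p = Abelianization.of s := by
      rw [← map_pow, hcp, map_mul, Abelianization.commutator_subset_ker _ hmc, mul_one]
    have h5 := cov_abelianization_torsionFree π (Abelianization.of c * (Abelianization.of k.1)⁻¹)
      p hp.ne_zero (by rw [mul_pow, inv_pow, h3, h4, mul_inv_cancel])
    rw [← map_inv, ← map_mul, ← MonoidHom.mem_ker, Abelianization.ker_of] at h5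
    have h6 := map_mem_commutator' (covMap π) h5
    rw [map_mul, map_inv, MonoidHom.mem_ker.1 k.2, inv_one, mul_one, ← Abelianization.ker_of,
      MonoidHom.mem_ker] at h6
    rw [h6, orderOf_one] at hy
    exact hp.one_lt.ne hy
  obtain ⟨φ, hφ⟩ := exists_hom_int (T := a.range) (fun t n hn h =>
    Subtype.ext (cov_abelianization_torsionFree π t.1 n hn (congrArg Subtype.val h))) hl
  let D : (covMap π).ker →* Hopf π := (zpowersHom _ m₀).comp (φ.comp a.rangeRestrict)
  let τ : (covMap π).ker →* (covMap π).ker :=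
    MonoidHom.id _ * (inclusion inf_le_left).comp D
  let S₂ : Subgroup (Cov π) :=
    ((S₁.subgroupOf (covMap π).ker).map τ).map (covMap π).ker.subtype
  have hS₂ : S₂ ≤ (covMap π).ker := map_subtype_le _
  have hmem : ∀ (x) (hx : x ∈ S₁), x * (D ⟨x, hS₁ hx⟩).1 ∈ S₂ := fun x hx =>
    ⟨_, ⟨⟨x, hS₁ hx⟩, hx, rfl⟩, rfl⟩
  have h21 : S₂ ⊓ Hopf π = ⊥ := by
    rw [eq_bot_iff]
    rintro _ ⟨⟨_, ⟨k, hk, rfl⟩, rfl⟩, h3⟩
    have h4 : k.1 * (D k).1 ∈ Hopf π := h3
    have h5 : k = 1 := Subtype.ext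
      (mem_bot.1 (h11.le ⟨hk, (mul_mem_cancel_right (D k).2).1 h4⟩))
    rw [h5, map_one, map_one]
    exact one_mem _
  have h22 : (covMap π).ker ≤ S₂ ⊔ Hopf π := by
    refine h12.trans (sup_le (fun x hx => ?_) le_sup_right)
    have := mul_mem (mem_sup_left (T := Hopf π) (hmem x hx))
      (mem_sup_right (inv_mem (D ⟨x, hS₁ hx⟩).2))
    simpa using this
  have hn₁ := normal_of_le_center (hS₁.trans (covMap_ker_le_center π))
  have hn₂ := normal_of_le_center (hS₂.trans (covMap_ker_le_center π))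
  obtain ⟨f₁, st₁, ⟨k₁⟩⟩ := stem_of_complement_hopf π hπ S₁ hS₁ h11 h12
  obtain ⟨f₂, st₂, ⟨k₂⟩⟩ := stem_of_complement_hopf π hπ S₂ hS₂ h21 h22
  obtain ⟨e, he⟩ := h _ _ _ _ st₁ st₂ ⟨k₁.trans eA.symm⟩ ⟨k₂.trans eA.symm⟩
  set σ₂ := QuotientGroup.lift S₂ (covMap π) hS₂
  let u₁ : Cov π →* Cov π ⧸ S₂ := e.toMonoidHom.comp (QuotientGroup.mk' S₁)
  let u₂ : Cov π →* Cov π ⧸ S₂ := QuotientGroup.mk' S₂
  have hu : σ₂.comp u₁ = σ₂.comp u₂ := by
    rw [← MonoidHom.comp_assoc, he]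
    ext
    rfl
  have h3 := eq_on_commutator_of_lift st₂.2.1 hu hmc
  have h4 : u₁ s = 1 := by
    change e (QuotientGroup.mk s) = 1
    rw [(QuotientGroup.eq_one_iff s).2 hs, map_one]
  obtain ⟨w, hw⟩ := QuotientGroup.mk'_surjective S₂ ((u₂ c)⁻¹ * u₁ c)
  have hwk : w ∈ (covMap π).ker := by
    change σ₂ (u₂ w) = 1
    have : σ₂ (u₁ c) = σ₂ (u₂ c) := DFunLike.congr_fun hu c
    rw [hw, map_mul, map_inv, this, inv_mul_cancel]
  obtain ⟨s', hs', m', hm', rfl⟩ := mem_sup_of_normal_right.1 (h22 hwk)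
  have h5 : u₂ s' = 1 := (QuotientGroup.eq_one_iff s').2 hs'
  have h6 : u₁ c = u₂ (c * m') := by
    rw [map_mul, ← inv_mul_eq_iff_eq_mul, ← hw, map_mul]
    exact (congrArg (· * u₂ m') h5).trans (one_mul _)
  have h7 : Commute c m' := mem_center_iff.1 (hopf_le_center π hm') c
  have h8 : u₂ (m * c') = u₂ (s * (m * c') * m' ^ p) := by
    rw [← hcp, ← h7.mul_pow, map_pow, ← h6, ← map_pow, hcp, map_mul u₁, h4, one_mul, h3]
  have h9 : s * m' ^ p ∈ S₂ := by
    have h10 : s * (m * c') * m' ^ p = (s * m' ^ p) * (m * c') := by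
      rw [mul_assoc, mem_center_iff.1 (hopf_le_center π (pow_mem hm' p)), mul_assoc]
    rw [h10, map_mul u₂ (s * m' ^ p), right_eq_mul] at h8
    exact (QuotientGroup.eq_one_iff _).1 h8
  have h10 : (D ⟨s, hS₁ hs⟩).1⁻¹ * m' ^ p ∈ S₂ ⊓ Hopf π := by
    refine mem_inf.2 ⟨?_, mul_mem (inv_mem (D _).2) (pow_mem hm' p)⟩
    have := mul_mem (inv_mem (hmem s hs)) h9
    simpa [mul_assoc] using this
  rw [h21, mem_bot, inv_mul_eq_one] at h10
  have h11 : m₀ ^ (φ (a.rangeRestrict ⟨s, hS₁ hs⟩)).toAdd ∈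
      (powMonoidHom p : Hopf π →* Hopf π).range := ⟨⟨m', hm'⟩, Subtype.ext h10.symm⟩
  have h12 : m₀ ^ (p : ℤ) ∈ (powMonoidHom p : Hopf π →* Hopf π).range :=
    ⟨m₀, by simp⟩
  obtain ⟨u, v, huv⟩ := ((Nat.prime_iff_prime_int.1 hp).irreducible.coprime_iff_not_dvd.2 hφ)
  apply hm₀
  rw [← zpow_one m₀, ← huv, zpow_add, mul_comm u, mul_comm v, zpow_mul, zpow_mul]
  exact mul_mem (zpow_mem h12 u) (zpow_mem h11 v)

end Cfsg.Agent.S3974
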