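import Cfsg.Statements.S3977
import Cfsg.Agent.H81.PSmall
import Cfsg.Agent.H47.Cyc

set_option autoImplicit false
open Cfsg

namespace Cfsg.Agent.S3977

/-- Let `p` be a prime and `G` a group of order `p ^ m` which has exactly one subgroup of order `p ^ s`, where `1 ≤ s < m`, and where `s ≥ 2` if `p = 2`. Then `G` is cyclic. (For `p = 2` and `s = 1` the generalized quaternion groups also occur; that case is the classical criterion for a unique involution.) -/
theorem result {G : Type*} [Group G] [Finite G] (p m s : ℕ) (hp : p.Prime) (hG : Nat.card G = p ^ m) (hs : 1 ≤ s) (hsm : s < m) (h2 : p ≠ 2 ∨ 2 ≤ s) (huniq : ∀ H K : Subgroup G, Nat.card H = p ^ s → Nat.card K = p ^ s → H = K) : IsCyclic G := by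
  have := Fact.mk hp
  have hP : IsPGroup p G := IsPGroup.of_card hG
  have hd : p ^ s ∣ Nat.card G := hG ▸ pow_dvd_pow p hsm.le
  obtain ⟨H, hH⟩ := Sylow.exists_subgroup_card_pow_prime p hd
  have hle : ∀ (A : Subgroup G) (j : ℕ), Nat.card A = p ^ j → j ≤ s → A ≤ H := by
    intro A j hA hj
    obtain ⟨K, hK, hAK⟩ := Sylow.exists_subgroup_card_pow_prime_le p hd A hA hj
    exact huniq K H hK hH ▸ hAK
  have hcyc : ∀ x : G, p ^ s ∣ orderOf x → H ≤ Subgroup.zpowers x := by
    intro x hx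
    obtain ⟨y, hy, hyo⟩ := H81.exists_orderOf_eq_of_dvd hx
    rw [huniq H (Subgroup.zpowers y) hH (by rw [Nat.card_zpowers, hyo])]
    exact Subgroup.zpowers_le.2 hy
  obtain ⟨x, hx⟩ : ∃ x, x ∉ H := by
    by_contra h
    push Not at h
    rw [(Subgroup.eq_top_iff' H).2 h, Subgroup.card_top, hG] at hH
    exact hsm.ne' (Nat.pow_right_injective hp.two_le hH)
  obtain ⟨j, hj⟩ := IsPGroup.iff_orderOf.1 hP x
  have hjs : s ≤ j := by
    by_contra h
    exact hx (hle _ j (by rw [Nat.card_zpowers, hj]) (by omega) (Subgroup.mem_zpowers x))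
  have hHx := hcyc x (hj ▸ pow_dvd_pow p hjs)
  rcases S0016.result p hP (fun A B hA hB => H47.cyc_eq_of_card_eq (C := Subgroup.zpowers x)
    inferInstance ((hle A 1 (by rw [hA, pow_one]) hs).trans hHx)
    ((hle B 1 (by rw [hB, pow_one]) hs).trans hHx) (hA.trans hB.symm)) with h | ⟨rfl, n, ⟨e⟩⟩
  · exact h
  exfalso
  have hs2 : 2 ≤ s := h2.resolve_left fun h => h rfl
  have hc : 2 ^ m = 2 ^ (n + 2) := by
    rw [← hG, Nat.card_congr e.toEquiv, Nat.card_eq_fintype_card, QuaternionGroup.card]; ring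
  have hmn : m = n + 2 := Nat.pow_right_injective le_rfl hc
  have h1 := hcyc (e.symm (QuaternionGroup.a 1)) (by
    rw [MulEquiv.orderOf_eq, QuaternionGroup.orderOf_a_one, ← pow_succ']
    exact pow_dvd_pow 2 (by omega))
  have h3 := hle (Subgroup.zpowers (e.symm (QuaternionGroup.xa 0))) 2
    (by rw [Nat.card_zpowers, MulEquiv.orderOf_eq, QuaternionGroup.orderOf_xa]; rfl) hs2
  obtain ⟨k, hk⟩ := mem_powers_iff_mem_zpowers.2 (h1 (h3 (Subgroup.mem_zpowers _)))
  simp only at hk
  rw [← map_pow, QuaternionGroup.a_one_pow] at hk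
  cases e.symm.injective hk

end Cfsg.Agent.S3977
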