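import Cfsg.Statements.S3978
import Cfsg.Agent.H81.Cover

set_option autoImplicit false
open Cfsg

namespace Cfsg.Agent.S3978

/-- A finite group `Q` has trivial Schur multiplier if and only if, for every `n`, every homomorphism from `Q` to the projective general linear group (the quotient of `GL n ℂ` by its centre) lifts to a homomorphism into `GL n ℂ`. -/
theorem result {Q : Type*} [Group Q] [Finite Q] : Cfsg.HasCyclicSchurMultiplier Q 1 ↔ ∀ (n : ℕ) (γ : Q →* (GL (Fin n) ℂ ⧸ Subgroup.center (GL (Fin n) ℂ))), ∃ ρ : Q →* GL (Fin n) ℂ, (QuotientGroup.mk' (Subgroup.center (GL (Fin n) ℂ))).comp ρ = γ := by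
  constructor
  · intro h n γ
    have h1 : Nat.card (Multiplicative (ZMod 1)) ≤ Nat.card (MonoidHom.id Q).ker := by
      have : Nat.card (Multiplicative (ZMod 1)) = 1 := by simp
      rw [this]; exact Nat.card_pos
    simpa using H81.exists_lift_projective h H81.isStemExtension_id h1 n γ
  · intro h
    rw [H81.mult_trivial_iff]
    intro Γ _ _ σ hσ
    obtain ⟨π, hπ⟩ := H81.exists_ker_surj_of_pb H81.isStemExtension_id hσ
      (H81.pb_inj_of_lift (MonoidHom.id Q) (fun n γ => by simpa using h n γ) hσ.1 hσ.2.1)
    have : Subsingleton (MonoidHom.id Q).ker := by rw [MonoidHom.ker_id]; infer_instance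
    have := hπ.subsingleton
    exact Subgroup.eq_bot_of_subsingleton _

end Cfsg.Agent.S3978
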