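import Cfsg.Statements.S3980
import Cfsg.Agent.H81.Product

set_option autoImplicit false
universe u v w
open Cfsg

namespace Cfsg.Agent.S3980

/-- Let `Q₁` and `Q₂` be finite groups whose commutator quotients have coprime orders, with Schur multipliers `A` and `B`. Then the Schur multiplier of `Q₁ × Q₂` is isomorphic to `A × B`. -/
theorem result {Q₁ : Type u} {Q₂ : Type v} [Group Q₁] [Group Q₂] [Finite Q₁] [Finite Q₂] {A B : Type w} [CommGroup A] [CommGroup B] (hA : Cfsg.HasSchurMultiplier Q₁ A) (hB : Cfsg.HasSchurMultiplier Q₂ B) (hcop : Nat.Coprime (Nat.card (Abelianization Q₁)) (Nat.card (Abelianization Q₂))) : Cfsg.HasSchurMultiplier (Q₁ × Q₂) (A × B) := by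
  have h1 : ∀ x : H81.AbTensor Q₁ Q₂, x = 1 := by
    intro x
    have h2 : x ^ Nat.card (Abelianization Q₁) = 1 := H81.abTensor_pow_eq_one Q₁ Q₂ _ (fun a b => by
      have : (Abelianization.lift ((H81.abTmul Q₁ Q₂).flip b)) (Abelianization.of a) =
        H81.abTmul Q₁ Q₂ a b := rfl
      rw [← this, ← map_pow, pow_card_eq_one', map_one]) x
    have h3 : x ^ Nat.card (Abelianization Q₂) = 1 := H81.abTensor_pow_eq_one Q₁ Q₂ _ (fun a b => by
      have : (Abelianization.lift (H81.abTmul Q₁ Q₂ a)) (Abelianization.of b) =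
        H81.abTmul Q₁ Q₂ a b := rfl
      rw [← this, ← map_pow, pow_card_eq_one', map_one]) x
    have h4 := (pow_gcd_eq_one.2 ⟨h2, h3⟩)
    rwa [hcop, pow_one] at h4
  have : Unique (H81.AbTensor Q₁ Q₂) := ⟨⟨1⟩, h1⟩
  exact H81.mult_congr_right (H81.hasSchurMultiplier_prod hA hB)
    ((MulEquiv.refl A).prodCongr MulEquiv.prodUnique)

end Cfsg.Agent.S3980
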