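import Cfsg.Statements.S3994
import Cfsg.Agent.H81.Frob

set_option autoImplicit false
open Cfsg

namespace Cfsg.Agent.S3994

/-- Let G be a finite group and n a positive integer. The number of elements of G whose order is divisible by n is either 0 or divisible by the largest divisor of the order of G that is coprime to n. -/
theorem result {G : Type*} [Group G] [Finite G] (n : ℕ) (hn : 0 < n) :
    Nat.card {g : G // n ∣ orderOf g} = 0 ∨
      (Nat.card G / Nat.gcd (Nat.card G) (n ^ Nat.card G)) ∣ Nat.card {g : G // n ∣ orderOf g} := by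
  right
  set d := Nat.card G / Nat.gcd (Nat.card G) (n ^ Nat.card G) with hd
  have hG : Nat.card G ≠ 0 := Nat.card_pos.ne'
  have h1 : d * Nat.gcd (Nat.card G) (n ^ Nat.card G) = Nat.card G :=
    Nat.div_mul_cancel (Nat.gcd_dvd_left _ _)
  have hdG : d ∣ Nat.card G := Dvd.intro _ h1
  have hco : n.Coprime d := by
    rw [Nat.coprime_iff_gcd_eq_one]
    by_contra hne
    obtain ⟨r, hr, hrd⟩ := Nat.exists_prime_and_dvd hne
    have h2 := hrd.trans (Nat.gcd_dvd_left _ _)
    have h3 := hrd.trans (Nat.gcd_dvd_right _ _)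
    have h4 : r ^ (Nat.card G).factorization r ∣ Nat.gcd (Nat.card G) (n ^ Nat.card G) :=
      Nat.dvd_gcd (Nat.ordProj_dvd _ _) ((pow_dvd_pow r (Nat.factorization_lt r hG).le).trans
        (pow_dvd_pow_of_dvd h2 _))
    have h5 := Nat.mul_dvd_mul h3 h4
    rw [h1, ← pow_succ'] at h5
    exact Nat.pow_succ_factorization_not_dvd hG hr h5
  have h2 := H81.gcd_dvd_card_pow_mem (G := G) d (fun y => n ∣ orderOf y) (by
    intro x y hxy hx
    obtain ⟨c, rfl⟩ := isConj_iff.1 hxy
    rwa [show orderOf (c * x * c⁻¹) = orderOf x from (MulAut.conj c).orderOf_eq x])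
  rw [Nat.gcd_eq_left hdG] at h2
  convert h2 using 3 with g
  ext g
  constructor
  · intro h
    rw [orderOf_pow]
    have h3 : orderOf g / (orderOf g).gcd d * (orderOf g).gcd d = orderOf g :=
      Nat.div_mul_cancel (Nat.gcd_dvd_left _ _)
    rw [← h3] at h
    exact (hco.coprime_dvd_right (Nat.gcd_dvd_right _ _)).dvd_of_dvd_mul_right h
  · intro h
    exact h.trans (orderOf_pow_dvd d)

end Cfsg.Agent.S3994
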