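import Cfsg.Statements.S3995
import Cfsg.Agent.H81.SameOrder
import Cfsg.Agent.H81.OrderType
import Cfsg.Agent.S0016
import Cfsg.Agent.H36.Prime

set_option autoImplicit false
open Cfsg

namespace Cfsg.Agent.S3995

open Cfsg.Agent.H81 Subgroup

theorem exponent_eq {G : Type*} [Group G] [Finite G] {p : ℕ} (hp : p.Prime) (hG : IsPGroup p G)
    (h1 : p ∣ Nat.card G) (h2 : so G (p * p) = 0) : Monoid.exponent G = p := by
  have := Fact.mk hp
  obtain ⟨x, hx⟩ := so_ne_zero_iff.1 (so_prime_ne_zero hp h1)
  refine Nat.dvd_antisymm (Monoid.exponent_dvd_of_forall_pow_eq_one fun g => ?_)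
    (hx ▸ Monoid.order_dvd_exponent x)
  obtain ⟨k, hk⟩ := IsPGroup.iff_orderOf.1 hG g
  rw [← orderOf_dvd_iff_pow_eq_one, hk]
  rcases k with _ | _ | k
  · simp
  · simp
  · exfalso
    exact so_ne_zero_of_dvd (so_ne_zero_iff.2 ⟨g, hk⟩) (m := p * p)
      (by rw [← pow_two]; exact pow_dvd_pow p (by omega)) h2

/-- Let G be a finite group such that the numbers of elements of each order that occurs in G (the numbers #{g : o(g) = m}, m ranging over the element orders of G) take exactly two values, 1 and some n ≠ 1. Then either G is a p-group of exponent p and order at least 3 for some prime p, or G is the quaternion group of order 8, or G is cyclic of order 4, or G ≅ Z₂ × P for a p-group P of exponent p with p an odd prime. -/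
theorem result {G : Type*} [Group G] [Finite G] (n : ℕ) (hn : n ≠ 1) (h : ((fun m : ℕ => Nat.card {g : G // orderOf g = m}) '' Set.range (orderOf : G → ℕ)) = {1, n}) :
    (∃ p : ℕ, p.Prime ∧ IsPGroup p G ∧ 3 ≤ Nat.card G ∧ Monoid.exponent G = p) ∨
      Nonempty (G ≃* QuaternionGroup 2) ∨ (IsCyclic G ∧ Nat.card G = 4) ∨
      (∃ (p : ℕ) (P : Type) (_ : Group P) (_ : Finite P), p.Prime ∧ p ≠ 2 ∧ IsPGroup p P ∧ Monoid.exponent P = p ∧
        Nonempty (G ≃* Multiplicative (ZMod 2) × P)) := by
  have hv : ∀ m, so G m = 0 ∨ so G m = 1 ∨ so G m = n := fun m => by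
    simpa using so_mem_of_eq h m
  have hv2 : ∀ m, 2 < m → so G m = 0 ∨ so G m = n := fun m hm => by
    have := hv m; have := two_dvd_so (G := G) hm; omega
  obtain ⟨x0, hx0⟩ : ∃ x : G, so G (orderOf x) = n := by
    have : n ∈ ({1, n} : Set ℕ) := by simp
    rw [← h] at this
    obtain ⟨_, ⟨x, rfl⟩, hx⟩ := this
    exact ⟨x, hx⟩
  have hn0 : n ≠ 0 := hx0 ▸ so_ne_zero_iff.2 ⟨x0, rfl⟩
  have hx1 : orderOf x0 ≠ 1 := fun e => hn (by rw [← hx0, e, so_one])
  have h3 : 3 ≤ Nat.card G := by
    have h1 := card_or_eq (G := G) hx1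
    have h2 := H36.card_subtype_le fun g : G => orderOf g = orderOf x0 ∨ orderOf g = 1
    rw [so_one] at h1
    omega
  obtain ⟨p, a, b, hp, hp2, hG⟩ := card_eq_of_odd_prime_unique (G := G)
    fun p q hp hq hp2 hq2 h1 h2 => odd_prime_unique_of_two_values hv2 hp hq hp2 hq2 h1 h2
  have := Fact.mk hp
  have hp3 : 2 < p := lt_of_le_of_ne hp.two_le hp2.symm
  have hpp : p ∣ Nat.card G → (1 : ZMod p) + n = 0 ∧ so G (p * p) = 0 := fun hd => by
    have e1 := one_add_so hp hd
    rw [(hv2 p hp3).resolve_left (so_prime_ne_zero hp hd)] at e1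
    refine ⟨e1, (hv2 _ (by nlinarith)).resolve_right fun e => ?_⟩
    have := dvd_so_of_sq_dvd (G := G) hp dvd_rfl
    rw [e, ← ZMod.natCast_eq_zero_iff] at this
    exact one_ne_zero (α := ZMod p) (by linear_combination e1 - this)
  rcases a with _ | a
  · -- odd order
    rw [pow_zero, one_mul] at hG
    have hd : p ∣ Nat.card G := by
      rw [hG]
      refine dvd_pow_self p ?_
      rintro rfl
      rw [pow_zero] at hG
      omega
    exact Or.inl ⟨p, hp, IsPGroup.of_card hG, h3,
      exponent_eq hp (IsPGroup.of_card hG) hd (hpp hd).2⟩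
  have h2 : 2 ∣ Nat.card G := by rw [hG]; exact (dvd_pow_self 2 (by omega)).mul_right _
  have hs2 : 2 ∣ 1 + so G 2 := by
    have h3 := dvd_so_add Nat.prime_two h2 (m := 1) (by norm_num)
    rwa [so_one] at h3
  by_cases h1 : so G 2 = 1
  swap
  · have h4 : ∀ m, 2 < m → so G m = 0 := fun m hm => by
      have := hv 2; have := hv2 m hm; have := two_dvd_so (G := G) hm; omega
    have hb : b = 0 := by
      by_contra hb
      exact so_prime_ne_zero hp (by rw [hG]; exact (dvd_pow_self p hb).mul_left _) (h4 p hp3)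
    rw [hb, pow_zero, mul_one] at hG
    exact Or.inl ⟨2, Nat.prime_two, IsPGroup.of_card hG, h3,
      exponent_eq Nat.prime_two (IsPGroup.of_card hG) h2 (h4 _ (by norm_num))⟩
  obtain ⟨z, hz⟩ := so_ne_zero_iff.1 (so_prime_ne_zero Nat.prime_two h2)
  have hzZ := mem_center_of_so_two h1 hz
  by_cases h4 : so G 4 = 0
  · have h5 := not_four_dvd_card h1 h4
    have ha : a = 0 := by
      by_contra ha
      apply h5
      rw [hG]
      exact (pow_dvd_pow 2 (by omega : 2 ≤ a + 1)).mul_right _
    rw [ha, zero_add, pow_one] at hG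
    have hd : p ∣ Nat.card G := by
      rw [hG]
      refine (dvd_pow_self p ?_).mul_left _
      rintro rfl
      rw [pow_zero] at hG
      omega
    obtain ⟨P⟩ : Nonempty (Sylow p G) := inferInstance
    have hP : Nat.card P = p ^ b := by
      rw [P.card_eq_multiplicity, hG, Nat.factorization_mul two_ne_zero (pow_pos hp.pos b).ne',
        hp.factorization_pow, Finsupp.add_apply, Finsupp.single_eq_same,
        Nat.prime_two.factorization, Finsupp.single_eq_of_ne hp2, zero_add]
    have hi : (P : Subgroup G).index = 2 := by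
      have := (P : Subgroup G).index_mul_card
      rw [hG] at this
      exact Nat.eq_of_mul_eq_mul_right (pow_pos hp.pos b) (by rw [← this, ← hP])
    have hzP : zpowers z ⊓ (P : Subgroup G) = ⊥ := by
      refine disjoint_iff.1 (disjoint_of_coprime_natCard ?_)
      rw [Nat.card_zpowers, hz]
      change Nat.Coprime 2 (Nat.card P)
      rw [hP]
      exact Nat.Coprime.pow_right _ ((Nat.coprime_primes Nat.prime_two hp).2 hp2.symm)
    let f : zpowers z × (P : Subgroup G) →* G :=
      MonoidHom.noncommCoprod (zpowers z).subtype (P : Subgroup G).subtype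
        fun u v => (mem_center_iff.1 (zpowers_le.2 hzZ u.2) v).symm
    have hf : Function.Bijective f := by
      rw [Nat.bijective_iff_injective_and_card]
      constructor
      · rw [injective_iff_map_eq_one]
        rintro ⟨u, v⟩ huv
        have h6 : (u : G) * v = 1 := huv
        have h7 : (u : G) ∈ zpowers z ⊓ (P : Subgroup G) :=
          ⟨u.2, by rw [eq_inv_of_mul_eq_one_left h6]; exact (P : Subgroup G).inv_mem v.2⟩
        rw [hzP, mem_bot] at h7
        rw [h7, one_mul] at h6
        exact Prod.ext (Subtype.ext h7) (Subtype.ext h6)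
      · rw [Nat.card_prod, Nat.card_zpowers, hz, hG, ← hP]
    have e1 : zpowers z ≃* Multiplicative (ZMod 2) :=
      mulEquivOfPrimeCardEq (p := 2) (by rw [Nat.card_zpowers, hz]) (by simp)
    have e2 : Shrink.{0} (P : Subgroup G) ≃* (P : Subgroup G) := Shrink.mulEquiv
    have hPe : Monoid.exponent (P : Subgroup G) = p := by
      refine exponent_eq hp P.isPGroup' (P.dvd_card_of_dvd_card hd) ?_
      by_contra h6
      obtain ⟨y, hy⟩ := so_ne_zero_iff.1 h6
      exact so_ne_zero_iff.2 ⟨(y : G), by rw [Subgroup.orderOf_coe, hy]⟩ (hpp hd).2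
    refine Or.inr (Or.inr (Or.inr ⟨p, Shrink.{0} (P : Subgroup G), inferInstance,
      Finite.of_equiv _ e2.toEquiv.symm, hp, hp2, P.isPGroup'.of_equiv e2.symm, ?_,
      ⟨(MulEquiv.ofBijective f hf).symm.trans (e1.prodCongr e2.symm)⟩⟩))
    rw [Monoid.exponent_eq_of_mulEquiv e2, hPe]
  · have h5 := four_dvd_so_add h4
    have h6 := (hv2 4 (by norm_num)).resolve_left h4
    have hb : b = 0 := by
      by_contra hb
      have hd : p ∣ Nat.card G := by rw [hG]; exact (dvd_pow_self p hb).mul_left _
      have hc4 : p.Coprime 4 :=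
        Nat.Coprime.pow_right 2 ((Nat.coprime_primes hp Nat.prime_two).2 hp2)
      have e1 := (hpp hd).1
      have e2 := so_add_eq_zero hp hd (m := 4) (hp.coprime_iff_not_dvd.1 hc4)
      rw [h6] at e2
      rcases hv2 (p * 4) (by omega) with e | e <;> rw [e] at e2
      · exact one_ne_zero (α := ZMod p) (by push_cast at e2; linear_combination e1 - e2)
      · exact two_ne_zero_zmod hp hp2 (by linear_combination 2 * e1 - e2)
    rw [hb, pow_zero, mul_one] at hG
    have h8 : so G 8 = 0 := by
      have h7 := totient_dvd_so (G := G) 8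
      rw [show Nat.totient 8 = 4 by decide] at h7
      have := hv2 8 (by norm_num)
      omega
    have h9 : ∀ g : G, ¬ 8 ∣ orderOf g := fun g hg =>
      so_ne_zero_of_dvd (so_ne_zero_iff.2 ⟨g, rfl⟩) hg h8
    have hcyc : IsCyclic G → IsCyclic G ∧ Nat.card G = 4 := fun hc => by
      refine ⟨hc, ?_⟩
      obtain ⟨g, hg⟩ := hc.exists_ofOrder_eq_natCard
      have := h9 g
      rw [hg, hG] at this
      rw [hG] at h3 ⊢
      rcases a with _ | _ | a
      · omega
      · norm_num
      · exact absurd (pow_dvd_pow 2 (by omega : 3 ≤ a + 1 + 1 + 1)) this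
    have : Fact (Nat.Prime 2) := ⟨Nat.prime_two⟩
    rcases S0016.result 2 (IsPGroup.of_card hG) (fun H K hH hK => by
      obtain ⟨w, hw⟩ := Nat.card_eq_one_iff_exists.1 h1
      obtain ⟨u, -, hu, rfl⟩ := H36.exists_generator_prime hH
      obtain ⟨v, -, hv, rfl⟩ := H36.exists_generator_prime hK
      rw [Subtype.mk.inj ((hw ⟨u, hu⟩).trans (hw ⟨v, hv⟩).symm)]) with hc | ⟨-, k, ⟨e⟩⟩
    · exact Or.inr (Or.inr (Or.inl (hcyc hc)))
    · rcases k with _ | _ | k
      · have : IsCyclic (QuaternionGroup (2 ^ 0)) := QuaternionGroup.quaternionGroup_one_isCyclic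
        exact Or.inr (Or.inr (Or.inl (hcyc (isCyclic_of_surjective e.symm e.symm.surjective))))
      · exact Or.inr (Or.inl ⟨e⟩)
      · exfalso
        apply h9 (e.symm (QuaternionGroup.a 1))
        rw [MulEquiv.orderOf_eq, QuaternionGroup.orderOf_a_one, ← pow_succ']
        exact pow_dvd_pow 2 (by omega : 3 ≤ k + 1 + 1 + 1)

end Cfsg.Agent.S3995
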