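import Cfsg.Statements.S3997
import Cfsg.Agent.H81.OrderType

set_option autoImplicit false
open Cfsg

namespace Cfsg.Agent.S3997

/-- Let G and H be finite groups with the same order type: for every m they have the same number of elements of order m. If G is nilpotent then so is H. -/
theorem result {G H : Type*} [Group G] [Finite G] [Group H] [Finite H] (hT : (∀ m : ℕ, Nat.card {g : G // orderOf g = m} = Nat.card {h : H // orderOf h = m})) (hG : Group.IsNilpotent G) :
    Group.IsNilpotent H := by
  have hcard : Nat.card G = Nat.card H := by
    obtain ⟨e, -⟩ := H81.exists_equiv_of_orderType hT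
    exact Nat.card_congr e
  refine ((Group.isNilpotent_of_finite_tfae (G := H)).out 3 0 rfl rfl).1 ?_
  intro p hp Q
  obtain ⟨P⟩ : Nonempty (Sylow p G) := inferInstance
  have hP : (P : Subgroup G).Normal := inferInstance
  apply H81.normal_of_piCard
  rw [← H81.piCard_eq_of_orderType hT, H81.piCard_of_normal P hP, P.card_eq_multiplicity,
    Q.card_eq_multiplicity, hcard]

end Cfsg.Agent.S3997
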