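import Cfsg.Statements.S4002
import Cfsg.Agent.H81.Eppo
import Mathlib.NumberTheory.Bertrand

set_option autoImplicit false
open Cfsg

namespace Cfsg.Agent.S4002

/-- If the set of element orders of a finite group G is {1, 2, …, n} with n ≥ 7, then G is not solvable. -/
theorem result {G : Type*} [Group G] [Finite G] (n : ℕ) (hn : 7 ≤ n) (h : Set.range (orderOf : G → ℕ) = {k : ℕ | 1 ≤ k ∧ k ≤ n}) : ¬ Group.IsSolvable G := by
  intro hs
  have key : ∀ p q r : ℕ, p.Prime → q.Prime → r.Prime → p < q → q < r → r ≤ n → n < p * q →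
      False := by
    intro p q r hp hq hr hpq hqr hrn hn'
    have hd : ∀ t : ℕ, t.Prime → t ≤ n → t ∣ Nat.card G := fun t ht htn => by
      obtain ⟨g, hg⟩ : t ∈ Set.range (orderOf : G → ℕ) := h ▸ ⟨ht.one_lt.le, htn⟩
      exact hg ▸ orderOf_dvd_natCard g
    obtain ⟨g, hg⟩ := H81.exists_orderOf_of_three_primes hs hp hq hr hpq.ne (hpq.trans hqr).ne
      hqr.ne (hd p hp (by omega)) (hd q hq (by omega)) (hd r hr hrn)
    have h1 : orderOf g ≤ n := (h ▸ Set.mem_range_self g :
      orderOf g ∈ {k : ℕ | 1 ≤ k ∧ k ≤ n}).2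
    have h2 : p * q ≤ p * r := Nat.mul_le_mul_left _ hqr.le
    have h3 : p * r ≤ q * r := Nat.mul_le_mul_right _ hpq.le
    omega
  by_cases h1 : n ≤ 14
  · exact key 3 5 7 (by decide) (by decide) (by decide) (by decide) (by decide) hn (by omega)
  by_cases h2 : n ≤ 76
  · exact key 7 11 13 (by decide) (by decide) (by decide) (by decide) (by decide) (by omega)
      (by omega)
  obtain ⟨p, hp, hp1, hp2⟩ := Nat.exists_prime_lt_and_le_two_mul (n / 8) (by omega)
  obtain ⟨q, hq, hq1, hq2⟩ := Nat.exists_prime_lt_and_le_two_mul (2 * (n / 8)) (by omega)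
  obtain ⟨r, hr, hr1, hr2⟩ := Nat.exists_prime_lt_and_le_two_mul (4 * (n / 8)) (by omega)
  refine key p q r hp hq hr (by omega) (by omega) (by omega) ?_
  have : 9 * q ≤ p * q := Nat.mul_le_mul_right _ (by omega)
  omega

end Cfsg.Agent.S4002
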