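import Cfsg.Statements.S4005
import Cfsg.Agent.H81.Eppo23

set_option autoImplicit false
open Cfsg

namespace Cfsg.Agent.S4005


open Subgroup

theorem index_eq {G : Type*} [Group G] {N : Subgroup G} {q k : ℕ} (h : N.index = q ^ k)
    (h2 : ¬ q ^ 2 ∣ Nat.card G) (hN : N ≠ ⊤) : N.index = q := by
  rcases k with _ | _ | k
  · exact absurd (index_eq_one.1 h) hN
  · simpa using h
  · exact absurd ((pow_dvd_pow q (by omega)).trans (h ▸ N.index_dvd_card)) h2

theorem pow_eq_one {G : Type*} [Group G] {N : Subgroup G} {p : ℕ} [hp : Fact p.Prime]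
    (hN : IsPGroup p N) {a : G} (ha : a ∈ N) (h : orderOf a < p ^ 2) : a ^ p = 1 := by
  obtain ⟨k, hk⟩ := IsPGroup.iff_orderOf.1 hN ⟨a, ha⟩
  rw [Subgroup.orderOf_mk] at hk
  rw [hk, Nat.pow_lt_pow_iff_right hp.out.one_lt] at h
  rw [← orderOf_dvd_iff_pow_eq_one, hk]
  exact (pow_dvd_pow p (by omega : k ≤ 1)).trans (by rw [pow_one])

/-- A finite group whose set of element orders is exactly {1, 2, 3} has either a normal elementary abelian 3-subgroup of index 2 or a normal elementary abelian 2-subgroup of index 3. -/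
theorem result {G : Type*} [Group G] [Finite G] (h : Set.range (orderOf : G → ℕ) = {k : ℕ | 1 ≤ k ∧ k ≤ 3}) :
    (∃ N : Subgroup G, N.Normal ∧ Cfsg.IsElementaryAbelian 3 N ∧ N.index = 2) ∨
      (∃ N : Subgroup G, N.Normal ∧ Cfsg.IsElementaryAbelian 2 N ∧ N.index = 3) := by
  have h3 : ∀ g : G, orderOf g ≤ 3 := fun g =>
    (h ▸ Set.mem_range_self g : orderOf g ∈ {k : ℕ | 1 ≤ k ∧ k ≤ 3}).2
  have h4 : ∀ g : G, orderOf g ≤ 4 := fun g => (h3 g).trans (by decide)
  obtain ⟨t, ht⟩ : 2 ∈ Set.range (orderOf : G → ℕ) := h ▸ ⟨by decide, by decide⟩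
  obtain ⟨y, hy⟩ : 3 ∈ Set.range (orderOf : G → ℕ) := h ▸ ⟨by decide, by decide⟩
  have he := H81.eppo_of_orderOf_le h4
  have : Nontrivial G := ⟨t, 1, H8.ne_one_of_orderOf_two ht⟩
  obtain ⟨r, hr, hO, hC⟩ := he.exists_pCore (H81.isSolvable_of_orderOf_le h4)
  have := Fact.mk hr
  have hp : IsPGroup r (pCore r G) := H44.pCore_isPGroup
  rcases H81.prime_eq_two_or_three h4 hr ((hp.card_eq_or_dvd.resolve_left fun e =>
    hO (card_eq_one.1 e)).trans (card_subgroup_dvd_card _)) with rfl | rfl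
  · right
    obtain ⟨T⟩ : Nonempty (Sylow 2 G) := inferInstance
    have hT : ∀ a ∈ (T : Subgroup G), a⁻¹ = a := fun a ha => inv_eq_of_mul_eq_one_right (by
      rw [← pow_two]; exact pow_eq_one T.isPGroup' ha ((h3 a).trans_lt (by decide)))
    have hTc : ∀ a ∈ (T : Subgroup G), ∀ b ∈ (T : Subgroup G), a * b = b * a := fun a ha b hb => by
      rw [← hT _ (mul_mem ha hb), mul_inv_rev, hT a ha, hT b hb]
    have hle := hp.le_sylow_of_normal T
    have hTO : pCore 2 G = T := le_antisymm hle fun x hx =>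
      hC (mem_centralizer_iff.2 fun k hk => hTc k (hle hk) x hx)
    refine ⟨pCore 2 G, inferInstance, ⟨H2.isMulCommutative_of_forall fun a ha b hb =>
      hTc a (hle ha) b (hle hb), fun a ha => pow_eq_one hp ha ((h3 a).trans_lt (by decide))⟩, ?_⟩
    refine index_eq (Nat.eq_prime_pow_of_unique_prime_dvd index_ne_zero_of_finite
      fun {d} hd hdd => ?_) (he.not_sq_dvd hr hO Nat.prime_three (by decide) fun g hg => ?_)
      fun e => ?_
    · refine (H81.prime_eq_two_or_three h4 hd (hdd.trans (index_dvd_card _))).resolve_left ?_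
      rintro rfl
      exact T.not_dvd_index (hTO ▸ hdd)
    · have := h3 g; omega
    · exact absurd (H81.forall_prime_of_mem_isPGroup hr hp (e ▸ mem_top y) 3 Nat.prime_three
        hy.symm.dvd) (by decide)
  · left
    obtain ⟨hc, h2⟩ := he.odd_pCore hr (by decide) hC ht
    obtain ⟨k, hk⟩ := IsPGroup.iff_card.1 h2
    refine ⟨pCore 3 G, inferInstance,
      ⟨hc, fun a ha => pow_eq_one hp ha ((h3 a).trans_lt (by decide))⟩,
      index_eq hk (he.not_sq_dvd hr hO Nat.prime_two (by decide) fun g hg => ?_) fun e => ?_⟩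
    · have := h3 g; omega
    · exact absurd (H81.forall_prime_of_mem_isPGroup hr hp (e ▸ mem_top t) 2 Nat.prime_two
        ht.symm.dvd) (by decide)

end Cfsg.Agent.S4005
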