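import Cfsg.Statements.S4006
import Cfsg.Agent.S4005
import Cfsg.Agent.H81.Levi
import Cfsg.Agent.S0040
import Cfsg.Agent.H22.CoprimeQuot

set_option autoImplicit false
open Cfsg

namespace Cfsg.Agent.S4006


open Subgroup

theorem sq_eq_one {G : Type*} [Group G] {N : Subgroup G} [hN : N.Normal] {y s : G}
    (h4 : ∀ g : G, g ^ 4 = 1 ∨ g ^ 3 = 1) (hN3 : ∀ f ∈ N, f ^ 3 = 1 → f = 1)
    (hy : ∀ f ∈ N, (f * y) ^ 3 = 1) (hs : s * s = 1) (hsy : s * y * s⁻¹ = y⁻¹)
    (hcos : ∀ w : G, w * w = 1 → w * y * w⁻¹ = y⁻¹ → ∀ f ∈ N, (w * f) ^ 4 = 1)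
    (hc : commutator N ≤ center N) {f : G} (hf : f ∈ N) : f ^ 2 = 1 := by
  have hy3 : y ^ 3 = 1 := by simpa using hy 1 N.one_mem
  have hf4 : ∀ f ∈ N, f ^ 4 = 1 := fun f hf => (h4 f).elim id fun e => by rw [hN3 f hf e, one_pow]
  have key : ∀ w : G, w * w = 1 → w * y * w⁻¹ = y⁻¹ →
      f * (w * f * w⁻¹) * f⁻¹ = (w * f * w⁻¹)⁻¹ * (f ^ 2)⁻¹ ∧ Commute (f ^ 2) (w * f * w⁻¹) := by
    intro w hw hwy
    have h1 := hcos w hw hwy f hf
    have hw' : w⁻¹ = w := inv_eq_of_mul_eq_one_right hw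
    have hg : w * f * w⁻¹ ∈ N := hN.conj_mem f hf w
    have h2 : w * f * w⁻¹ * f * (w * f * w⁻¹ * f) = 1 := by
      rw [hw', ← h1]; simp only [pow_succ, pow_zero, one_mul, mul_assoc]
    generalize w * f * w⁻¹ = g at *
    have h3 : f * g * f⁻¹ = g⁻¹ * (f ^ 2)⁻¹ := by
      calc f * g * f⁻¹ = g⁻¹ * (g * f * (g * f)) * (f ^ 2)⁻¹ := by rw [pow_two]; simp [mul_assoc]
        _ = _ := by rw [h2, mul_one]
    refine ⟨h3, ?_⟩
    have h5 := mem_center_iff.1 (hc (commutator_mem_commutator (mem_top (⟨f, hf⟩ : N))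
      (mem_top ⟨g, hg⟩))) ⟨g, hg⟩
    have h6 : g * (f * g * f⁻¹ * g⁻¹) = f * g * f⁻¹ * g⁻¹ * g := congrArg Subtype.val h5
    rw [h3] at h6
    have h7 : Commute (f ^ 2)⁻¹ g⁻¹ := by
      have : (f ^ 2)⁻¹ * g⁻¹ = g⁻¹ * (f ^ 2)⁻¹ := by simpa [mul_assoc] using h6
      exact this
    simpa using h7.inv_inv
  have hys : ∀ w : G, w * w = 1 → w * y * w⁻¹ = y⁻¹ →
      y * w * (y * w) = 1 ∧ y * w * y * (y * w)⁻¹ = y⁻¹ := by
    intro w hw hwy
    have hw' : w⁻¹ = w := inv_eq_of_mul_eq_one_right hw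
    constructor
    · calc y * w * (y * w) = y * (w * y * w⁻¹) := by rw [hw']; group
        _ = 1 := by rw [hwy]; group
    · calc y * w * y * (y * w)⁻¹ = y * (w * y * w⁻¹) * y⁻¹ := by group
        _ = y⁻¹ := by rw [hwy]; group
  obtain ⟨a1, a2⟩ := hys s hs hsy
  obtain ⟨b1, b2⟩ := hys _ a1 a2
  obtain ⟨c0, d0⟩ := key s hs hsy
  obtain ⟨c1, d1⟩ := key _ a1 a2
  obtain ⟨c2, d2⟩ := key _ b1 b2
  have hg : s * f * s⁻¹ ∈ N := hN.conj_mem f hf s
  have e1 : y * s * f * (y * s)⁻¹ = y * (s * f * s⁻¹) * y⁻¹ := by group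
  have e2 : y * (y * s) * f * (y * (y * s))⁻¹ = y * y * (s * f * s⁻¹) * (y * y)⁻¹ := by
    simp [mul_assoc]
  rw [e1] at c1 d1
  rw [e2] at c2 d2
  generalize s * f * s⁻¹ = g at *
  have p1 := H81.prod_conj_eq_one hy3 (hy g hg)
  have p2 := H81.prod_conj_eq_one hy3 (hy g⁻¹ (inv_mem hg))
  have e3 : y * g⁻¹ * y⁻¹ = (y * g * y⁻¹)⁻¹ := by group
  have e4 : y * y * g⁻¹ * (y * y)⁻¹ = (y * y * g * (y * y)⁻¹)⁻¹ := by simp [mul_assoc]
  rw [e3, e4] at p2
  generalize y * g * y⁻¹ = g1 at *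
  generalize y * y * g * (y * y)⁻¹ = g2 at *
  have p3 : (f * g * f⁻¹) * (f * g1 * f⁻¹) * (f * g2 * f⁻¹) = 1 := by
    calc _ = f * (g * g1 * g2) * f⁻¹ := by group
      _ = 1 := by rw [p1]; group
  rw [c0, c1, c2] at p3
  have hff : (f ^ 2) ^ 2 = 1 := by rw [← pow_mul]; exact hf4 f hf
  generalize f ^ 2 = c at *
  have p4 : g⁻¹ * g1⁻¹ * g2⁻¹ * (c⁻¹ * c⁻¹ * c⁻¹) = 1 := by
    have q1 := d1.inv_inv
    have q2 := d2.inv_inv
    have q3 := ((q1.mul_left q1).mul_right (q2.mul_left q2)).eq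
    calc g⁻¹ * g1⁻¹ * g2⁻¹ * (c⁻¹ * c⁻¹ * c⁻¹) = g⁻¹ * (g1⁻¹ * g2⁻¹ * (c⁻¹ * c⁻¹)) * c⁻¹ := by
          simp only [mul_assoc]
      _ = g⁻¹ * c⁻¹ * (c⁻¹ * g1⁻¹) * (g2⁻¹ * c⁻¹) := by rw [← q3]; simp only [mul_assoc]
      _ = 1 := by rw [q1.eq, p3]
  rw [p2, one_mul] at p4
  have p5 : c⁻¹ * c⁻¹ = 1 := by rw [← mul_inv_rev, ← pow_two, hff, inv_one]
  rw [p5, one_mul, inv_eq_one] at p4
  exact p4

/-- A finite group whose set of element orders is exactly {1, 2, 3, 4} has a normal subgroup N such that either N is a 2-group of exponent 4 and nilpotency class at most 2 with G/N of order 3, or N is an elementary abelian 2-group with G/N isomorphic to the symmetric group of degree 3, or N is an elementary abelian 3-group with G/N cyclic of order 4 or quaternion of order 8. -/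
theorem result {G : Type*} [Group G] [Finite G] (h : Set.range (orderOf : G → ℕ) = {k : ℕ | 1 ≤ k ∧ k ≤ 4}) :
    ∃ (N : Subgroup G) (_ : N.Normal),
      (IsPGroup 2 ↥N ∧ Monoid.exponent ↥N = 4 ∧ Group.nilpotencyClass ↥N ≤ 2 ∧ N.index = 3) ∨
      (Cfsg.IsElementaryAbelian 2 N ∧ Nonempty (G ⧸ N ≃* Equiv.Perm (Fin 3))) ∨
      (Cfsg.IsElementaryAbelian 3 N ∧ ((IsCyclic (G ⧸ N) ∧ N.index = 4) ∨ Nonempty (G ⧸ N ≃* QuaternionGroup 2))) := by
  classical
  have h4 : ∀ g : G, orderOf g ≤ 4 := fun g =>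
    (h ▸ Set.mem_range_self g : orderOf g ∈ {k : ℕ | 1 ≤ k ∧ k ≤ 4}).2
  obtain ⟨t, ht⟩ : 2 ∈ Set.range (orderOf : G → ℕ) := h ▸ ⟨by decide, by decide⟩
  obtain ⟨y, hy⟩ : 3 ∈ Set.range (orderOf : G → ℕ) := h ▸ ⟨by decide, by decide⟩
  obtain ⟨x, hx⟩ : 4 ∈ Set.range (orderOf : G → ℕ) := h ▸ ⟨by decide, by decide⟩
  have he := H81.eppo_of_orderOf_le h4
  have hsol := H81.isSolvable_of_orderOf_le h4
  have : Nontrivial G := ⟨t, 1, H8.ne_one_of_orderOf_two ht⟩
  obtain ⟨r, hr, hO, hC⟩ := he.exists_pCore hsol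
  have := Fact.mk hr
  have hp : IsPGroup r (pCore r G) := H44.pCore_isPGroup
  have hord : ∀ (g : G) (n : ℕ), n ∣ orderOf g → 2 < n → orderOf g = n := by
    rintro g n ⟨c, hc⟩ hn
    have h1 := h4 g
    have h2 := orderOf_pos g
    rcases c with _ | _ | c
    · omega
    · omega
    · rw [hc] at h1; nlinarith
  refine ⟨pCore r G, inferInstance, ?_⟩
  rcases H81.prime_eq_two_or_three h4 hr ((hp.card_eq_or_dvd.resolve_left fun e =>
    hO (card_eq_one.1 e)).trans (card_subgroup_dvd_card _)) with rfl | rfl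
  · set F := pCore 2 G with hF
    let π := QuotientGroup.mk' F
    have hF3 : ∀ f ∈ F, f ^ 3 = 1 → f = 1 := fun f hf e => by
      by_contra h1
      exact absurd (H81.forall_prime_of_mem_isPGroup hr hp hf 3 Nat.prime_three
        (orderOf_eq_prime e h1).symm.dvd) (by decide)
    have hy3 : y ^ 3 = 1 := by rw [← hy, pow_orderOf_eq_one]
    have hy1 : y ≠ 1 := fun e => by simp [e] at hy
    have hyb : orderOf (π y) = 3 := orderOf_eq_prime (by rw [← map_pow, hy3, map_one])
      fun e => hy1 (hF3 y ((QuotientGroup.eq_one_iff y).1 e) hy3)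
    have hcos : ∀ f ∈ F, (f * y) ^ 3 = 1 := fun f hf => by
      have h1 : π (f * y) = π y := by
        rw [map_mul, show π f = 1 from (QuotientGroup.eq_one_iff f).2 hf, one_mul]
      rw [← hord (f * y) 3 (by rw [← hyb, ← h1]; exact orderOf_map_dvd π _) (by decide),
        pow_orderOf_eq_one]
    have hcl : commutator F ≤ center F := H81.commutator_mem_center_of_commute_conj
      (H81.commute_conj_of_coset hcos) fun f e => Subtype.ext (hF3 f f.2 (congrArg Subtype.val e))
    have h9 := he.not_sq_dvd hr hO Nat.prime_three (by decide) fun g hg => by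
      have := h4 g; omega
    have hnt : Nontrivial (G ⧸ F) := ⟨π y, 1, fun e => by simp [e] at hyb⟩
    have h4' : ∀ g : G ⧸ F, orderOf g ≤ 4 := fun g => by
      obtain ⟨g, rfl⟩ := QuotientGroup.mk'_surjective F g
      exact (Nat.le_of_dvd (orderOf_pos g) (orderOf_map_dvd _ g)).trans (h4 g)
    obtain ⟨r', hr', hO', hC'⟩ := (H81.eppo_of_orderOf_le h4').exists_pCore inferInstance
    have := Fact.mk hr'
    have hp' : IsPGroup r' (pCore r' (G ⧸ F)) := H44.pCore_isPGroup
    have hd' := hp'.card_eq_or_dvd.resolve_left fun e => hO' (card_eq_one.1 e)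
    obtain rfl : r' = 3 := (H81.prime_eq_two_or_three h4' hr'
      (hd'.trans (card_subgroup_dvd_card _))).resolve_left (by
        rintro rfl
        exact hO' H44.pCore_quotient_pCore)
    have hc3 : Nat.card (pCore 3 (G ⧸ F)) = 3 := by
      obtain ⟨k, hk⟩ := IsPGroup.iff_card.1 hp'
      rcases k with _ | _ | k
      · rw [hk] at hd'; simp at hd'
      · exact hk
      · exact absurd ((pow_dvd_pow 3 (by omega)).trans (hk ▸ (card_subgroup_dvd_card _).trans
          F.index_dvd_card)) h9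
    have hcyc : IsCyclic (pCore 3 (G ⧸ F)) := isCyclic_of_prime_card hc3
    have hidx := H81.relIndex_centralizer_dvd_card_mulAut (pCore 3 (G ⧸ F))
    rw [normalizer_eq_top, relIndex_top_right, IsCyclic.card_mulAut, hc3,
      le_antisymm hC' (le_centralizer _), Nat.totient_prime Nat.prime_three] at hidx
    have hcard := (pCore 3 (G ⧸ F)).card_mul_index
    rw [hc3] at hcard
    rcases (Nat.dvd_prime Nat.prime_two).1 hidx with h1 | h1
    · left
      have hi : F.index = 3 := by rw [h1] at hcard; exact hcard.symm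
      refine ⟨hp, ?_, H81.nilpotencyClass_le_two_of_commutator_le_center hcl, hi⟩
      have hxF : x ∈ F := by
        rw [← QuotientGroup.eq_one_iff, ← orderOf_eq_one_iff]
        refine Nat.eq_one_of_dvd_coprimes (a := 4) (b := 3) (by decide)
          (hx ▸ orderOf_map_dvd π x) (hi ▸ orderOf_dvd_natCard _)
      apply Nat.dvd_antisymm
      · rw [Monoid.exponent_dvd_iff_forall_pow_eq_one]
        intro g
        obtain ⟨k, hk⟩ := IsPGroup.iff_orderOf.1 hp g
        have h5 := h4 g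
        rw [Subgroup.orderOf_coe, hk] at h5
        rw [← orderOf_dvd_iff_pow_eq_one, hk]
        exact pow_dvd_pow 2 ((Nat.pow_le_pow_iff_right (by decide : 1 < 2)).1
          (show 2 ^ k ≤ 2 ^ 2 from h5))
      · rw [← hx, ← Subgroup.orderOf_mk x hxF]
        exact Monoid.order_dvd_exponent _
    · right; left
      have hi : Nat.card (G ⧸ F) = 6 := by rw [h1] at hcard; exact hcard.symm
      have hne : ∀ s : G ⧸ F, orderOf s = 2 → s * π y ≠ π y * s := fun s hs e =>
        absurd ((H81.eppo_of_orderOf_le h4').eq_of_commute e Nat.prime_two Nat.prime_three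
          hs.symm.dvd hyb.symm.dvd) (by decide)
      have hyP : zpowers (π y) = pCore 3 (G ⧸ F) := eq_of_le_of_card_ge
        (zpowers_le.2 (by
          have := (H81.isPGroup_zpowers_of_orderOf (k := 1) hyb).to_sup_of_normal_right hp'
          obtain ⟨k, hk⟩ := IsPGroup.iff_card.1 this
          have h5 := card_subgroup_dvd_card (zpowers (π y) ⊔ pCore 3 (G ⧸ F))
          rw [hk, hi] at h5
          have h6 : 3 ^ k ∣ 3 :=
            (Nat.Coprime.pow_left k (by decide : Nat.Coprime 3 2)).dvd_of_dvd_mul_left h5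
          rw [eq_of_le_of_card_ge (le_sup_right : pCore 3 (G ⧸ F) ≤ zpowers (π y) ⊔ _)
            (by rw [hk, hc3]; exact Nat.le_of_dvd (by decide) h6)]
          exact mem_sup_left (mem_zpowers _)))
        (by rw [Nat.card_zpowers, hyb, hc3])
      -- an involution inverting `y`
      obtain ⟨s, hs, hsy⟩ : ∃ s : G, orderOf s = 2 ∧ s * y * s⁻¹ = y⁻¹ := by
        have h5 := H22.map_normalizer_of_ker_coprime (p := 3) π (QuotientGroup.mk'_surjective F)
          (by
            rw [QuotientGroup.ker_mk']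
            obtain ⟨k, hk⟩ := IsPGroup.iff_card.1 hp
            rw [hk]; exact Nat.Coprime.pow_left k (by decide))
          (H81.isPGroup_zpowers_of_orderOf (k := 1) hy)
        rw [MonoidHom.map_zpowers, hyP,
          show normalizer (pCore 3 (G ⧸ F) : Set (G ⧸ F)) = ⊤ from normalizer_eq_top _] at h5
        have h6 : 2 ∣ Nat.card (normalizer (zpowers y : Set G)) := by
          refine Dvd.dvd.trans ?_ (card_map_dvd _ π)
          rw [h5, card_top, hi]; decide
        obtain ⟨s, hs⟩ := exists_prime_orderOf_dvd_card' 2 h6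
        rw [← Subgroup.orderOf_coe] at hs
        refine ⟨s, hs, ?_⟩
        obtain ⟨k, hk, hk'⟩ := Finset.mem_image.1 ((mem_zpowers_iff_mem_range_orderOf).1
          ((mem_normalizer_iff.1 s.2 y).1 (mem_zpowers y)))
        rw [hy, Finset.mem_range] at hk
        interval_cases k
        · exact absurd (by simpa using hk'.symm) hy1
        · exact absurd (he.eq_of_commute (mul_inv_eq_iff_eq_mul.1 (by simpa using hk'.symm))
            Nat.prime_two Nat.prime_three hs.symm.dvd hy.symm.dvd) (by decide)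
        · rw [← hk']
          exact eq_inv_of_mul_eq_one_left (by rw [← pow_succ, hy3])
      have hinvF : ∀ w : G, w * y * w⁻¹ = y⁻¹ → π w ≠ 1 := by
        intro w hw e
        have h5 := congrArg π hw
        rw [map_mul, map_mul, map_inv, map_inv, e, one_mul, inv_one, mul_one] at h5
        have h6 : orderOf (π y) ∣ 2 := by
          rw [orderOf_dvd_iff_pow_eq_one, pow_two]
          nth_rewrite 1 [h5]
          exact inv_mul_cancel _
        rw [hyb] at h6
        exact absurd h6 (by decide)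
      have h43 : ∀ g : G, g ^ 4 = 1 ∨ g ^ 3 = 1 := fun g => by
        have h5 := h4 g
        have h6 := orderOf_pos g
        rw [← orderOf_dvd_iff_pow_eq_one, ← orderOf_dvd_iff_pow_eq_one]
        interval_cases orderOf g <;> decide
      have hsq : ∀ f ∈ F, f ^ 2 = 1 := fun f hf => sq_eq_one h43 hF3 hcos
        (H8.mul_self_of_orderOf_two hs) hsy (fun w hw hwy f hf => (h43 _).resolve_right fun e => by
          have h5 := congrArg π e
          have h6 : π w * π w = 1 := by rw [← map_mul, hw, map_one]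
          rw [map_pow, map_mul, show π f = 1 from (QuotientGroup.eq_one_iff f).2 hf, mul_one,
            map_one, pow_three', h6, one_mul] at h5
          exact hinvF w hwy h5) hcl hf
      refine ⟨⟨H2.isMulCommutative_of_forall fun a ha b hb => ?_, hsq⟩, ?_⟩
      · have h5 : ∀ a ∈ F, a⁻¹ = a := fun a ha =>
          inv_eq_of_mul_eq_one_right (by rw [← pow_two]; exact hsq a ha)
        rw [← h5 _ (mul_mem ha hb), mul_inv_rev, h5 a ha, h5 b hb]
      · have hs' : orderOf (π s) = 2 := H8.orderOf_two_of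
          (by rw [← map_mul, H8.mul_self_of_orderOf_two hs, map_one]) (hinvF s hsy)
        refine H81.nonempty_mulEquiv_perm_three hi hs' fun hn => ?_
        have h5 : pCore 2 (G ⧸ F) = ⊥ := H44.pCore_quotient_pCore
        have h6 := H44.le_pCore hn (H81.isPGroup_zpowers_of_orderOf (p := 2) (k := 1) hs')
        rw [h5, le_bot_iff, zpowers_eq_bot] at h6
        exact hinvF s hsy h6
  · right; right
    set F := pCore 3 G with hF
    obtain ⟨hc, h2⟩ := he.odd_pCore hr (by decide) hC ht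
    refine ⟨⟨hc, fun a ha => S4005.pow_eq_one hp ha ((h4 a).trans_lt (by decide))⟩, ?_⟩
    obtain ⟨k, hk⟩ := IsPGroup.iff_card.1 h2
    obtain ⟨l, hl⟩ := IsPGroup.iff_card.1 hp
    have hcop : Nat.Coprime (Nat.card F) F.index := by
      rw [hl, show F.index = 2 ^ k from hk]
      exact Nat.Coprime.pow _ _ (by decide)
    obtain ⟨T, hT⟩ := exists_right_complement'_of_coprime hcop
    have e1 : G ⧸ F ≃* T := hT.symm.QuotientMulEquiv
    have hT2 : IsPGroup 2 T := h2.of_equiv e1
    obtain ⟨P⟩ : Nonempty (Sylow 2 T) := inferInstance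
    have hP : (P : Subgroup T) = ⊤ := (P.is_maximal' (hT2.to_subgroup ⊤) le_top).symm
    have e2 : G ⧸ F ≃* P := e1.trans (topEquiv.symm.trans (MulEquiv.subgroupCongr hP.symm))
    have h4' : ∀ g : G ⧸ F, orderOf g ≤ 4 := fun g => by
      obtain ⟨g, rfl⟩ := QuotientGroup.mk'_surjective F g
      exact (Nat.le_of_dvd (orderOf_pos g) (orderOf_map_dvd _ g)).trans (h4 g)
    rcases S0040.result F T hT hO (fun a ha ha1 => he.inf_centralizer_eq_bot hr hp ha1 fun hd =>
      absurd (H81.forall_prime_of_mem_isPGroup Nat.prime_two hT2 ha 3 hr hd) (by decide)) 2 P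
      with hcyc | ⟨n, ⟨e⟩⟩
    · left
      have hcyc' : IsCyclic (G ⧸ F) := isCyclic_of_surjective e2.symm e2.symm.surjective
      refine ⟨hcyc', le_antisymm ?_ ?_⟩
      · obtain ⟨g, hg⟩ := hcyc'.exists_generator
        exact (orderOf_eq_card_of_forall_mem_zpowers hg).ge.trans (h4' g)
      · refine Nat.le_of_dvd (Nat.pos_of_ne_zero index_ne_zero_of_finite) ?_
        have h5 := orderOf_dvd_natCard x
        rw [hx, ← F.card_mul_index, hl] at h5
        exact (Nat.Coprime.pow_right l (by decide : Nat.Coprime 4 3)).dvd_of_dvd_mul_left h5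
    · have h5 := h4' ((e2.trans e).symm (QuaternionGroup.a 1))
      rw [MulEquiv.orderOf_eq, QuaternionGroup.orderOf_a_one] at h5
      rcases n with _ | _ | n
      · left
        have := QuaternionGroup.quaternionGroup_one_isCyclic
        refine ⟨isCyclic_of_surjective (e2.trans e).symm (e2.trans e).symm.surjective, ?_⟩
        rw [index, Nat.card_congr (e2.trans e).toEquiv, Nat.card_eq_fintype_card,
          QuaternionGroup.card]
        rfl
      · exact Or.inr ⟨e2.trans e⟩
      · have := Nat.one_le_two_pow (n := n)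
        rw [pow_succ, pow_succ] at h5
        omega

end Cfsg.Agent.S4006
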