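import Cfsg.Statements.S4198
import Mathlib.GroupTheory.SpecificGroups.Alternating.Centralizer
import Mathlib.Combinatorics.Enumerative.Composition

set_option autoImplicit false
open Cfsg

namespace Cfsg.Agent.S4198

open Equiv Perm Multiset

theorem eq_of_out {G : Type*} [Group G] {c d : ConjClasses G} (h : IsConj c.out d.out) : c = d := by
  rw [← Quotient.out_eq c, ← Quotient.out_eq d]
  exact ConjClasses.mk_eq_mk_iff_isConj.2 h

variable {α : Type*} [Fintype α] [DecidableEq α]

theorem conj_of {x y : alternatingGroup α} {π : Perm α} (h : π * x * π⁻¹ = y) (hπ : sign π = 1) :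
    IsConj x y := isConj_iff.2 ⟨⟨π, hπ⟩, Subtype.ext h⟩

theorem exists_odd {x y : alternatingGroup α} (h : x.1.cycleType = y.1.cycleType)
    (h' : ¬ IsConj x y) : ∃ π : Perm α, π * x * π⁻¹ = y ∧ sign π = -1 := by
  obtain ⟨π, hπ⟩ := isConj_iff.1 (isConj_iff_cycleType_eq.2 h)
  exact ⟨π, hπ, (Int.units_eq_one_or _).resolve_left fun e => h' (conj_of hπ e)⟩

theorem exists_z (hn : 5 ≤ Fintype.card α) {x y : alternatingGroup α}
    (h : x.1.cycleType = y.1.cycleType) (h' : ¬ IsConj x y) :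
    ∃ (z : Perm α) (a : ℕ) (t : Multiset ℕ), x.1.cycleType = (a + 1) ::ₘ t ∧
      z.cycleType = a ::ₘ t ∧ Even a ∧ (∀ b ∈ t, Odd b) ∧ sign z = -1 ∧ z.cycleType ≠ {2} := by
  obtain ⟨π, h1, h2⟩ := exists_odd h h'
  obtain ⟨a1, a2, -⟩ := centralizer_le_alternating_iff.1 (show Subgroup.centralizer {x.1} ≤ _ from
    fun c hc => (Int.units_eq_one_or _).resolve_right fun e => h' (conj_of (π := π * c) (by
      rw [← h1, mul_assoc π, Subgroup.mem_centralizer_singleton_iff.1 hc]; group)
      (by simp [h2, e])))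
  obtain ⟨a, ha⟩ := exists_mem_of_ne_zero (s := x.1.cycleType) fun e => by simp [e] at a2; omega
  obtain ⟨t, ht⟩ := exists_cons_of_mem ha
  have h3 := two_le_of_mem_cycleType ha
  have h4 := a1 a ha
  obtain ⟨a, rfl⟩ : ∃ b, a = b + 1 := ⟨a - 1, by omega⟩
  have h5 : Even a := by simpa [Nat.odd_add_one] using h4
  have h6 := (exists_with_cycleType_iff α).1 ⟨_, ht⟩
  obtain ⟨z, hz⟩ := (exists_with_cycleType_iff α (m := a ::ₘ t)).2 ⟨by simp at h6 ⊢; omega,
    forall_mem_cons.2 ⟨by obtain ⟨k, rfl⟩ := h5; omega, fun b hb => h6.2 b (mem_cons_of_mem hb)⟩⟩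
  refine ⟨z, a, t, ht, hz, h5, fun b hb => a1 b (ht ▸ mem_cons_of_mem hb), ?_, fun e => ?_⟩
  · have := mem_alternatingGroup.1 x.2
    rw [sign_of_cycleType, ht, sum_cons, add_right_comm a, add_right_comm, pow_succ, card_cons,
      mul_neg_one, neg_eq_iff_eq_neg] at this
    rwa [sign_of_cycleType, hz, sum_cons, card_cons]
  · have := congrArg sum (hz.symm.trans e)
    simp [ht] at this a2
    omega

theorem alt_lt (hn : 5 ≤ Fintype.card α) :
    Nat.card (ConjClasses (alternatingGroup α)) < Nat.card (ConjClasses (Perm α)) := by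
  classical
  let ct : alternatingGroup α → Multiset ℕ := fun x => x.1.cycleType
  have hr : ∀ x, ct x = ct (Function.invFun ct (ct x)) := fun x => (Function.invFun_eq ⟨x, rfl⟩).symm
  have : ∀ x : alternatingGroup α, ∃ z : Perm α, (IsConj x (Function.invFun ct (ct x)) ∧ z = x) ∨
      (¬ IsConj x (Function.invFun ct (ct x)) ∧ ∃ a t, ct x = (a + 1) ::ₘ t ∧
      z.cycleType = a ::ₘ t ∧ Even a ∧ (∀ b ∈ t, Odd b) ∧ sign z = -1 ∧ z.cycleType ≠ {2}) :=
    fun x => by
      by_cases h : IsConj x (Function.invFun ct (ct x))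
      · exact ⟨x, .inl ⟨h, rfl⟩⟩
      · exact (exists_z hn (hr x) h).imp fun z hz => .inr ⟨h, hz⟩
  choose f hf using this
  have hs : ∀ (x : alternatingGroup α) (z : Perm α), IsConj z x → sign z ≠ -1 := fun x z h => by
    rw [sign_of_cycleType, isConj_iff_cycleType_eq.1 h, ← sign_of_cycleType,
      mem_alternatingGroup.1 x.2]
    decide
  obtain ⟨u, v, huv⟩ := Fintype.exists_pair_of_one_lt_card (α := α) (by omega)
  rw [Nat.card_eq_fintype_card, Nat.card_eq_fintype_card]
  refine Fintype.card_lt_of_injective_of_notMem (fun c => ConjClasses.mk (f c.out))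
    (fun c d h => eq_of_out ?_) (b := ConjClasses.mk (swap u v)) ?_
  · replace h := ConjClasses.mk_eq_mk_iff_isConj.1 h
    have e := isConj_iff_cycleType_eq.1 h
    rcases hf c.out with ⟨h1, h2⟩ | ⟨h1, a, t, h2, h3, h4, h5, h6, -⟩ <;>
      rcases hf d.out with ⟨k1, k2⟩ | ⟨k1, b, s, k2, k3, k4, k5, k6, -⟩
    · rw [h2, k2] at e
      exact h1.trans ((show ct c.out = ct d.out from e) ▸ k1.symm)
    · exact absurd k6 (hs _ _ (h2 ▸ h.symm))
    · exact absurd h6 (hs _ _ (k2 ▸ h))
    · rw [h3, k3] at e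
      obtain rfl : a = b := (mem_cons.1 (e ▸ mem_cons_self a t)).resolve_right fun h =>
        Nat.not_odd_iff_even.2 h4 (k5 a h)
      obtain rfl := (cons_inj_right a).1 e
      obtain ⟨π, p1, p2⟩ := exists_odd (hr _) h1
      obtain ⟨ρ, q1, q2⟩ := exists_odd (hr _) k1
      rw [h2, ← k2, ← q1] at p1
      exact conj_of (π := ρ⁻¹ * π) (by
        rw [mul_inv_rev, ← mul_assoc, mul_assoc ρ⁻¹, mul_assoc ρ⁻¹, p1]; group) (by simp [p2, q2])
  · rintro ⟨c, h⟩
    replace h := ConjClasses.mk_eq_mk_iff_isConj.1 h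
    rcases hf c.out with ⟨-, h2⟩ | ⟨-, a, t, -, -, -, -, -, h7⟩
    · exact hs _ _ (h2 ▸ h.symm) (sign_swap huv)
    · exact h7 ((isConj_iff_cycleType_eq.1 h).trans (isSwap_iff_cycleType.1 ⟨u, v, huv, rfl⟩))

theorem sym_le (hn : 5 ≤ Fintype.card α) :
    Nat.card (ConjClasses (Perm α)) ≤ 2 ^ (Fintype.card α - 2) := by
  have : ∀ σ : Perm α, ∃ c : Composition (Fintype.card α - 1),
      (c.blocks = [1, Fintype.card α - 2] ∧ σ = 1) ∨ (c.blocks ≠ [1, Fintype.card α - 2] ∧
        σ.partition.parts = (c.blocks.modifyHead (· + 1) : List ℕ)) := fun σ => by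
    by_cases h : σ = 1
    · exact ⟨⟨[1, Fintype.card α - 2], by simp; omega, by simp; omega⟩, .inl ⟨rfl, h⟩⟩
    obtain ⟨b, hb⟩ := exists_mem_of_ne_zero (cycleType_eq_zero.not.2 h)
    have hb' : b ∈ σ.partition.parts.toFinset := by simp [parts_partition, hb]
    obtain ⟨a, ha, hm⟩ := Finset.exists_max_image _ id ⟨b, hb'⟩
    have h1 : 2 ≤ a := (two_le_of_mem_cycleType hb).trans (hm b hb')
    obtain ⟨t, ht⟩ := exists_cons_of_mem (mem_toFinset.1 ha)
    have h2 := σ.partition.parts_sum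
    rw [ht, sum_cons] at h2
    refine ⟨⟨(a - 1) :: t.toList, fun {i} hi => ?_, by simp; omega⟩, .inr ⟨fun e => ?_, ?_⟩⟩
    · rcases List.mem_cons.1 hi with rfl | hi
      · omega
      · exact σ.partition.parts_pos (ht ▸ mem_cons_of_mem (mem_toList.1 hi))
    · simp only [List.cons.injEq] at e
      have : Fintype.card α - 2 ≤ a := hm _ (by simp [ht, ← mem_toList (s := t), e.2])
      omega
    · simp [ht, Nat.sub_add_cancel (by omega : 1 ≤ a), ← cons_coe]
  choose f hf using this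
  refine (Nat.card_le_card_of_injective (fun c : ConjClasses (Perm α) => f c.out)
    fun c d h => eq_of_out ?_).trans (by rw [Nat.card_eq_fintype_card, composition_card]; rfl)
  replace h : f c.out = f d.out := h
  rcases hf c.out with ⟨h1, h2⟩ | ⟨h1, h2⟩ <;> rcases hf d.out with ⟨k1, k2⟩ | ⟨k1, k2⟩
  · rw [h2, k2]
  · exact absurd (h ▸ h1) k1
  · exact absurd (h ▸ k1) h1
  · exact partition_eq_of_isConj.2 (Nat.Partition.ext (by rw [h2, k2, h]))


/-- For n ≥ 5 the alternating group of degree n has strictly fewer conjugacy classes than the symmetric group of degree n, and the symmetric group of degree n (whose classes correspond to the partitions of n) has at most 2^(n−2) conjugacy classes. -/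
theorem result (n : ℕ) (hn : 5 ≤ n) : Nat.card (ConjClasses (alternatingGroup (Fin n))) < Nat.card (ConjClasses (Equiv.Perm (Fin n))) ∧ Nat.card (ConjClasses (Equiv.Perm (Fin n))) ≤ 2 ^ (n - 2) := by
  exact ⟨alt_lt (by simpa), by simpa using sym_le (α := Fin n) (by simpa)⟩

end Cfsg.Agent.S4198
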