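import Cfsg.Statements.S4203
import Cfsg.Agent.H2.Basic
import Cfsg.Agent.H85.SylowCount
import Cfsg.Agent.H49.Pi
import Cfsg.Agent.S0144

set_option autoImplicit false
open Cfsg

namespace Cfsg.Agent.S4203

open Subgroup Cfsg.Agent.H49

theorem arith {p q n : ℕ} (hp : p.Prime) (hq : q.Prime) (hle : q ≤ p) (hn : n = q ∨ n = q ^ 2)
    (h : n ≡ 1 [MOD p]) : p ≤ 3 := by
  have h1 : ¬ p ∣ q - 1 := fun hd => by
    have := Nat.le_of_dvd (by have := hq.two_le; omega) hd
    have := hq.two_le; omega
  rcases hn with rfl | rfl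
  · exact absurd ((Nat.modEq_iff_dvd' hq.one_lt.le).1 h.symm) h1
  have h2 := (Nat.modEq_iff_dvd' (Nat.one_le_pow _ _ hq.pos)).1 h.symm
  rw [show q ^ 2 - 1 = (q + 1) * (q - 1) by simpa using Nat.sq_sub_sq q 1] at h2
  have h3 := ((Nat.Prime.dvd_mul hp).1 h2).resolve_right h1
  have h4 := Nat.le_of_dvd (Nat.succ_pos q) h3
  rcases hle.eq_or_lt with rfl | hlt
  · exact absurd (Nat.dvd_one.1 ((Nat.dvd_add_right dvd_rfl).1 h3)) hp.ne_one
  have e : p = q + 1 := by omega
  by_contra hc
  rcases hp.eq_two_or_odd' with h | h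
  · omega
  rcases hq.eq_two_or_odd' with h' | h'
  · omega
  rw [e] at h
  exact (Nat.not_even_iff_odd.2 h) h'.add_one

/-- A finite group in which every maximal subgroup has index a prime or the square of a prime is solvable. -/
theorem result {G : Type*} [Group G] [Finite G] (h : ∀ M : Subgroup G, IsCoatom M → ∃ p : ℕ, p.Prime ∧ (M.index = p ∨ M.index = p ^ 2)) : Group.IsSolvable G := by
  revert h
  refine H2.card_induction (P := fun G _ _ => (∀ M : Subgroup G, IsCoatom M →
    ∃ p : ℕ, p.Prime ∧ (M.index = p ∨ M.index = p ^ 2)) → Group.IsSolvable G) G ?_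
  intro G _ _ ih h
  rcases subsingleton_or_nontrivial G with hG | hG
  · infer_instance
  have h1 : (Nat.card G).primeFactors.Nonempty := Nat.nonempty_primeFactors.2 Finite.one_lt_card
  obtain ⟨p, hp, hmax⟩ := Finset.exists_max_image _ id h1
  have hp' := Nat.prime_of_mem_primeFactors hp
  have := Fact.mk hp'
  have hle : ∀ q : ℕ, q.Prime → q ∣ Nat.card G → q ≤ p := fun q hq hd =>
    hmax q (Nat.mem_primeFactors.2 ⟨hq, hd, Nat.card_pos.ne'⟩)
  obtain ⟨P⟩ := Sylow.nonempty (p := p) (G := G)
  by_cases hn : normalizer ((P : Subgroup G) : Set G) = ⊤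
  · have : (P : Subgroup G).Normal := normalizer_eq_top_iff.1 hn
    have hP1 : (P : Subgroup G) ≠ ⊥ := P.ne_bot_of_dvd_card (Nat.dvd_of_mem_primeFactors hp)
    have hq : Group.IsSolvable (G ⧸ (P : Subgroup G)) := ih _ (H2.card_quotient_lt _ hP1) fun M hM => by
      rw [← index_comap_of_surjective M (QuotientGroup.mk'_surjective _)]
      exact h _ (isCoatom_comap_of_surjective (QuotientGroup.mk'_surjective _) hM)
    have : Group.IsNilpotent P := P.isPGroup'.isNilpotent
    exact Group.isSolvable_of_ker_le_range (P : Subgroup G).subtype (QuotientGroup.mk' (P : Subgroup G)) (by simp)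
  obtain ⟨M, hM, hNM⟩ := (eq_top_or_exists_le_coatom _).resolve_left hn
  obtain ⟨q, hq, hi⟩ := h M hM
  have hqd : q ∣ Nat.card G := by
    refine Dvd.dvd.trans ?_ M.index_dvd_card
    rcases hi with hi | hi <;> rw [hi]
    exact dvd_pow_self _ two_ne_zero
  have e1 := card_sylow_modEq_one p G
  have e2 := card_sylow_modEq_one p M
  rw [P.card_eq_index_normalizer] at e1
  change (normalizer ((P : Subgroup G) : Set G)).index ≡ 1 [MOD p] at e1
  rw [← relIndex_mul_index hNM] at e1
  rw [H85.card_sylow_of_le P (le_normalizer.trans hNM)] at e2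
  have e3 : M.index ≡ 1 [MOD p] := by
    have := (e2.mul_right M.index).symm.trans e1
    rwa [one_mul] at this
  have h3 := arith hp' hq (hle q hq hqd) hi e3
  obtain ⟨a, b, hab, ha, hb⟩ := exists_pi_factor {2} (Nat.card_pos (α := G)).ne'
  have ha0 : a ≠ 0 := by rintro rfl; exact Nat.card_pos.ne' (by simpa using hab)
  have hb0 : b ≠ 0 := by rintro rfl; exact Nat.card_pos.ne' (by simpa using hab)
  obtain ⟨i, rfl⟩ := (isPiNat_singleton Nat.prime_two ha0).1 ha
  obtain ⟨j, rfl⟩ := (isPiNat_singleton Nat.prime_three hb0).1 fun r hr hd => by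
    have h1 := hle r hr (hab ▸ hd.mul_left _)
    have h2 : r ≠ 2 := hb r hr hd
    have := hr.two_le
    change r = 3
    omega
  exact S0144.result 2 3 i j Nat.prime_two Nat.prime_three hab

end Cfsg.Agent.S4203
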