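import Cfsg.Statements.S4204
import Cfsg.Agent.H83.Comm

set_option autoImplicit false
open Cfsg

namespace Cfsg.Agent.S4204

/-- If `H` and `K` are normal subgroups of a finite group with `H` nilpotent of class at most `c` and `K` nilpotent of class at most `d` (the terms with index `c`, respectively `d`, of their lower central series are trivial, indices starting at `0`), then `HK` is nilpotent of class at most `c + d`. -/
theorem result {G : Type*} [Group G] [Finite G] (H K : Subgroup G) [H.Normal] [K.Normal] (c d : ℕ) (hH : H.lowerCentralSeries c = ⊥) (hK : K.lowerCentralSeries d = ⊥) : (H ⊔ K).lowerCentralSeries (c + d) = ⊥ := by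
  have nH := Cfsg.Agent.H83.lowerCentralSeries_normal H
  have nK := Cfsg.Agent.H83.lowerCentralSeries_normal K
  -- a i : γ_{i-1}(H), with a 0 = ⊤
  let a : ℕ → Subgroup G := fun i => Nat.casesOn i ⊤ (fun i => H.lowerCentralSeries i)
  let b : ℕ → Subgroup G := fun i => Nat.casesOn i ⊤ (fun i => K.lowerCentralSeries i)
  have na : ∀ i, (a i).Normal := by
    intro i; cases i
    · exact inferInstanceAs (⊤ : Subgroup G).Normal
    · exact nH _
  have nb : ∀ i, (b i).Normal := by
    intro i; cases i
    · exact inferInstanceAs (⊤ : Subgroup G).Normal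
    · exact nK _
  have ha : ∀ i, ⁅a i, H⁆ ≤ a (i + 1) := by
    intro i; cases i
    · exact Subgroup.commutator_le_right _ _
    · exact le_rfl
  have hb : ∀ i, ⁅b i, K⁆ ≤ b (i + 1) := by
    intro i; cases i
    · exact Subgroup.commutator_le_right _ _
    · exact le_rfl
  have key : ∀ n : ℕ, (H ⊔ K).lowerCentralSeries n ≤
      ⨆ x : {x : ℕ × ℕ // x.1 + x.2 = n + 1}, a x.1.1 ⊓ b x.1.2 := by
    intro n
    induction n with
    | zero =>
      simp only [Subgroup.lowerCentralSeries_zero]
      refine sup_le ?_ ?_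
      · refine le_iSup_of_le ⟨(1, 0), rfl⟩ (le_inf le_rfl le_top)
      · refine le_iSup_of_le ⟨(0, 1), rfl⟩ (le_inf le_top le_rfl)
    | succ n ih =>
      rw [Subgroup.lowerCentralSeries_succ]
      refine le_trans (Subgroup.commutator_mono ih le_rfl) ?_
      have : (⨆ x : {x : ℕ × ℕ // x.1 + x.2 = n + 1 + 1}, a x.1.1 ⊓ b x.1.2).Normal := by
        have : ∀ x : {x : ℕ × ℕ // x.1 + x.2 = n + 1 + 1}, (a x.1.1 ⊓ b x.1.2).Normal :=
          fun x => @Subgroup.normal_inf_normal _ _ _ _ (na _) (nb _)
        exact @Subgroup.iSup_normal _ _ _ _ this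
      apply Cfsg.Agent.H83.commutator_iSup_left_le
      rintro ⟨⟨i, j⟩, hij⟩
      apply Cfsg.Agent.H83.commutator_sup_right_le
      · refine le_iSup_of_le ⟨(i + 1, j), by simp at hij ⊢; omega⟩ (le_inf ?_ ?_)
        · exact le_trans (Subgroup.commutator_mono inf_le_left le_rfl) (ha i)
        · exact le_trans (Subgroup.commutator_mono inf_le_right le_rfl)
            (@Subgroup.commutator_le_left _ _ _ _ (nb j))
      · refine le_iSup_of_le ⟨(i, j + 1), by simp at hij ⊢; omega⟩ (le_inf ?_ ?_)
        · exact le_trans (Subgroup.commutator_mono inf_le_left le_rfl)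
            (@Subgroup.commutator_le_left _ _ _ _ (na i))
        · exact le_trans (Subgroup.commutator_mono inf_le_right le_rfl) (hb j)
  refine le_bot_iff.mp (le_trans (key (c + d)) (iSup_le ?_))
  rintro ⟨⟨i, j⟩, hij⟩
  simp only at hij
  by_cases hi : c + 1 ≤ i
  · obtain ⟨i, rfl⟩ : ∃ k, i = k + 1 := ⟨i - 1, by omega⟩
    refine le_trans inf_le_left ?_
    exact hH ▸ H.lowerCentralSeries_antitone (by omega)
  · obtain ⟨j, rfl⟩ : ∃ k, j = k + 1 := ⟨j - 1, by omega⟩
    refine le_trans inf_le_right ?_
    exact hK ▸ K.lowerCentralSeries_antitone (by omega)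

end Cfsg.Agent.S4204
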