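import Cfsg.Statements.S4214
import Cfsg.Agent.H49.Hall
import Cfsg.Agent.H3.Transfer2

set_option autoImplicit false
open Cfsg

namespace Cfsg.Agent.S4214

open Subgroup Cfsg.Agent.H49

theorem card_conjugates {G : Type*} [Group G] (H : Subgroup G) :
    Nat.card {K : Subgroup G // ∃ g, cj g H = K} = 𝒩(H).index := by
  letI : MulAction G (Subgroup G) :=
    { smul := cj, one_smul := fun X => cj_one X, mul_smul := cj_mul }
  have : 𝒩(H) = MulAction.stabilizer G H := by
    ext g; exact mem_norm_iff_cj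
  rw [this, MulAction.index_stabilizer, ← Nat.card_coe_set_eq]
  rfl

theorem cent_index {G : Type*} [Group G] [Finite G] (N : Subgroup G) (k : ℕ) :
    ∀ H : Subgroup G, Nat.card H = k → Group.IsSolvable H → H ≤ 𝒩(N) →
      (Nat.card H).Coprime (Nat.card N) → 𝒞(H).relIndex N ∈ Submonoid.closure
        {x : ℕ | x ∣ Nat.card N ∧ ∃ q : ℕ, q.Prime ∧ q ∣ Nat.card H ∧ x ≡ 1 [MOD q]} := by
  induction k using Nat.strong_induction_on with
  | _ k ih =>
  intro H hk hs hn hc
  by_cases h1 : H = ⊥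
  · rw [relIndex_eq_one.2 (h1 ▸ le_cent_bot N)]; exact one_mem _
  obtain ⟨B, P, q, hB, hBn, hP, hq, hqd, hPq, hBP⟩ := H1.exists_normal_mul_pgroup H hs h1
  have := Fact.mk hq
  have e : H = B ⊔ P := le_antisymm (fun a ha => by
    obtain ⟨b, hb, x, hx, rfl⟩ := hBP a ha
    exact mul_mem_sup hb hx) (sup_le hB.le hP)
  have hle : N ⊓ 𝒞(H) ≤ N ⊓ 𝒞(B) := inf_le_inf_left _ (cent_anti hB.le)
  rw [← inf_relIndex_left, ← relIndex_mul_relIndex _ _ _ hle inf_le_left, inf_relIndex_left]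
  refine mul_mem (Submonoid.subset_closure ⟨?_, q, hq, hqd, ?_⟩) (Submonoid.closure_mono ?_
    (ih _ (hk ▸ card_lt_of_lt hB) B rfl (solvable_of_le hs hB.le) (hB.le.trans hn)
      (coprime_of_le hc hB.le le_rfl)))
  · exact (relIndex_dvd_card _ _).trans (card_dvd_of_le inf_le_left)
  · have h2 := H3.card_modEq_card_inf_centralizer (Q := N ⊓ 𝒞(B)) hPq
      (norm_inf (hP.trans hn) (norm_cent (hP.trans hBn)))
    rw [inf_assoc, ← cent_sup, ← e, ← card_mul_relIndex hle] at h2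
    refine Nat.ModEq.cancel_left_of_coprime (c := Nat.card ↥(N ⊓ 𝒞(H))) ?_ (by rwa [mul_one])
    exact (hc.coprime_dvd_left hqd).coprime_dvd_right (card_dvd_of_le inf_le_left)
  · rintro x ⟨h1, r, hr, hd, h2⟩
    exact ⟨h1, r, hr, hd.trans (card_dvd_of_le hB.le), h2⟩

theorem norm_index {G : Type*} [Group G] [Finite G] (hs : Group.IsSolvable G) (π : Set ℕ)
    (H : Subgroup G) (hH : IsPiHallOf π H ⊤) : 𝒩(H).index ∈ Submonoid.closure
      {x : ℕ | (∃ q e : ℕ, q.Prime ∧ x = q ^ e) ∧ (∃ K L : Subgroup G, K.Normal ∧ L.Normal ∧ K < L ∧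
        (∀ M : Subgroup G, M.Normal → K ≤ M → M ≤ L → M = K ∨ M = L) ∧ x ∣ K.relIndex L) ∧
        ∃ q : ℕ, q.Prime ∧ q ∣ Nat.card H ∧ x ≡ 1 [MOD q]} := by
  refine H2.card_induction (P := fun G _ _ => Group.IsSolvable G → ∀ H : Subgroup G,
    IsPiHallOf π H ⊤ → 𝒩(H).index ∈ Submonoid.closure
      {x : ℕ | (∃ q e : ℕ, q.Prime ∧ x = q ^ e) ∧ (∃ K L : Subgroup G, K.Normal ∧ L.Normal ∧ K < L ∧
        (∀ M : Subgroup G, M.Normal → K ≤ M → M ≤ L → M = K ∨ M = L) ∧ x ∣ K.relIndex L) ∧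
        ∃ q : ℕ, q.Prime ∧ q ∣ Nat.card H ∧ x ≡ 1 [MOD q]}) G ?_ hs H hH
  clear hH hs H
  intro G _ _ ih hs H hH
  rcases subsingleton_or_nontrivial G with hG | hG
  · rw [Subsingleton.elim 𝒩(H) ⊤, index_top]; exact one_mem _
  obtain ⟨N, p, hp, hNn, hN1, -, hNp, -, hmin⟩ := H2.exists_minimal_normal_of_solvable (G := G)
  have hNπ := isPi_of_isPGroup hp hNp
  have hn : ∀ X : Subgroup G, X ≤ 𝒩(N) := fun X => le_normalizer_of_normal
  have hsurj := QuotientGroup.mk'_surjective N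
  have hle : 𝒩(H) ≤ 𝒩(N ⊔ H) := norm_sup (hn _) le_rfl
  rw [← relIndex_mul_index hle]
  refine mul_mem ?_ ?_
  · by_cases hpπ : p ∈ π
    · rw [sup_eq_right.2 (hH.le_of_norm le_top (hNπ.of_singleton hpπ) (Or.inr (hn _))), relIndex_self]
      exact one_mem _
    have hc := hH.pi.coprime (hNπ.compl_of_singleton hpπ)
    have h1 := (coprime_norm_sup (M := 𝒩(N ⊔ H)) (hn H) hc (Or.inl inferInstance)
      (norm_of_le le_sup_left) (hn _) le_rfl).relIndex_eq
    rw [inf_eq_right.2 hle] at h1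
    have h2 : N ⊓ 𝒩(H) = N ⊓ 𝒞(H) := by
      refine le_antisymm (le_inf inf_le_left ?_) (inf_le_inf_left _ (cent_le_norm H))
      rw [← H49.commutator_eq_bot_iff, eq_bot_iff, ← H49.inf_eq_bot_of_coprime hc]
      exact le_inf (commutator_le_right_of_norm inf_le_right)
        ((commutator_mono inf_le_left le_rfl).trans (commutator_le_left_of_norm (hn _)))
    rw [← h1, ← inf_relIndex_left, h2, inf_relIndex_left]
    refine Submonoid.closure_mono ?_ (cent_index N _ H rfl inferInstance (hn _) hc)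
    rintro x ⟨h1, h2⟩
    refine ⟨?_, ⟨⊥, N, inferInstance, hNn, bot_lt_iff_ne_bot.2 hN1, fun M hM _ h => hmin M hM h,
      by rwa [relIndex_bot_left]⟩, h2⟩
    obtain ⟨k, hk⟩ := hNπ.exists_card_eq_pow hp
    rw [hk, Nat.dvd_prime_pow hp] at h1
    obtain ⟨e, -, he⟩ := h1
    exact ⟨p, e, hp, he⟩
  · have h1 := ih _ (H2.card_quotient_lt N hN1) inferInstance (H.map (QuotientGroup.mk' N))
      (by simpa [map_top_of_surjective _ hsurj] using hH.map (QuotientGroup.mk' N))
    rw [← index_comap_of_surjective _ hsurj, comap_normalizer_eq_of_surjective _ hsurj,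
      comap_map_eq, QuotientGroup.ker_mk', sup_comm] at h1
    refine Submonoid.closure_mono ?_ h1
    rintro x ⟨h1, ⟨K, L, hK, hL, hKL, hM, hd⟩, q, hq, hqd, h2⟩
    refine ⟨h1, ⟨K.comap (QuotientGroup.mk' N), L.comap (QuotientGroup.mk' N), inferInstance,
      inferInstance, comap_lt_comap_of_surjective hsurj |>.2 hKL, fun M hMn h1 h2 => ?_, ?_⟩,
      q, hq, hqd.trans (card_map_dvd _ _), h2⟩
    · have hNM : M = (M.map (QuotientGroup.mk' N)).comap (QuotientGroup.mk' N) := by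
        rw [comap_map_eq, QuotientGroup.ker_mk', sup_eq_left.2 ((QuotientGroup.le_comap_mk' N K).trans h1)]
      refine (hM (M.map (QuotientGroup.mk' N)) (hMn.map _ hsurj) ?_ (map_le_iff_le_comap.2 h2)).imp
        (fun h => by rw [hNM, h]) (fun h => by rw [hNM, h])
      rw [← comap_le_comap_of_surjective hsurj, ← hNM]; exact h1
    · rwa [relIndex_comap, map_comap_eq_self_of_surjective hsurj]

/-- Let `G` be a finite solvable group of order `mn` with `gcd(m, n) = 1`. Then the number of subgroups of order `m` is a product of natural numbers each of which is a power of a prime, divides the order of some chief factor of `G` (a quotient `L/K` of normal subgroups `K < L` of `G` with no normal subgroup of `G` strictly between them), and is congruent to `1` modulo some prime divisor of `m`. -/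
theorem result {G : Type*} [Group G] [Finite G] [Group.IsSolvable G] (m n : ℕ) (hG : Nat.card G = m * n) (hmn : Nat.Coprime m n) : ∃ (k : ℕ) (f : Fin k → ℕ), Nat.card {H : Subgroup G // Nat.card H = m} = ∏ i, f i ∧ ∀ i, (∃ q e : ℕ, q.Prime ∧ f i = q ^ e) ∧ (∃ K L : Subgroup G, K.Normal ∧ L.Normal ∧ K < L ∧ (∀ M : Subgroup G, M.Normal → K ≤ M → M ≤ L → M = K ∨ M = L) ∧ f i ∣ K.relIndex L) ∧ (∃ q : ℕ, q.Prime ∧ q ∣ m ∧ f i ≡ 1 [MOD q]) := by
  rename_i hs
  have hsT : Group.IsSolvable (⊤ : Subgroup G) := inferInstance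
  obtain ⟨H, hH⟩ := exists_hall hsT {p | ¬ p ∣ n}
  have hiff : ∀ K : Subgroup G, IsPiHallOf {p | ¬ p ∣ n} K ⊤ ↔ Nat.card K = m := fun K =>
    hall_top_iff_h1.trans (H1.hall_iff_card hG hmn K)
  have h1 : Nat.card {H : Subgroup G // Nat.card H = m} = 𝒩(H).index := by
    rw [← card_conjugates]
    refine Nat.card_congr (Equiv.subtypeEquivRight fun K => ⟨fun h => ?_, ?_⟩)
    · obtain ⟨g, -, hg⟩ := hall_conj hsT hH ((hiff K).2 h)
      exact ⟨g, hg⟩
    · rintro ⟨g, rfl⟩
      rw [card_cj, (hiff H).1 hH]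
  obtain ⟨l, hl, hl'⟩ := Submonoid.exists_list_of_mem_closure (norm_index hs _ H hH)
  rw [(hiff H).1 hH] at hl
  refine ⟨l.length, l.get, ?_, fun i => hl _ (l.get_mem i)⟩
  rw [h1, ← hl', ← List.prod_ofFn, List.ofFn_get]

end Cfsg.Agent.S4214
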