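import Cfsg.Statements.S4216
import Cfsg.Agent.H61.OrbitSum
import Cfsg.Agent.H49.Prod
import Cfsg.Agent.H1.FrobCount
import Cfsg.Agent.H82.Basic

set_option autoImplicit false
open Cfsg

namespace Cfsg.Agent.S4216

open Subgroup Cfsg.Agent.H49 MulAction
open scoped IsMulCommutative

open Classical in
theorem prod_inv {G Ω A : Type*} [Group G] [Finite G] [MulAction G Ω] [Fintype Ω] [CommGroup A]
    {p : ℕ} [Fact p.Prime] (P : Subgroup G) (hP : IsPGroup p P) (c : Ω → A)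
    (hc : ∀ ω, c ω ^ p = 1) (hinv : ∀ y ∈ P, ∀ ω, c (y • ω) = c ω) :
    ∏ ω, c ω = ∏ ω ∈ Finset.univ.filter (fun ω => ω ∈ fixedPoints P Ω), c ω :=
  H61.prod_eq_prod_fixedPoints hP Set.univ closure_univ c fun g _ y => by
    refine (Finset.prod_congr rfl fun i _ => hinv _ (g ^ i).2 y).trans ?_
    rw [Finset.prod_const, Finset.card_range, hc]

open Classical in
theorem prod_fix {G Ω A : Type*} [Group G] [Finite G] [MulAction G Ω] [Fintype Ω] [CommGroup A]
    {p : ℕ} [Fact p.Prime] (P : Subgroup G) (hP : IsPGroup p P) {u : G} (hu : u ∈ P) (c : Ω → A)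
    [DecidablePred fun ω : Ω => u • ω = ω] (hc : ∀ ω, u • ω = ω → c ω ^ p = 1)
    (hinv : ∀ y ∈ P, ∀ ω, u • ω = ω → u • y • ω = y • ω → c (y • ω) = c ω) :
    ∏ ω ∈ Finset.univ.filter (fun ω => u • ω = ω), c ω =
      ∏ ω ∈ Finset.univ.filter (fun ω => ω ∈ fixedPoints P Ω), c ω := by
  let d : Ω → A := fun ω => if h : ∃ y ∈ P, u • y • ω = y • ω then c (h.choose • ω) else 1
  have hd : ∀ ω, ∀ y ∈ P, u • y • ω = y • ω → d ω = c (y • ω) := by
    intro ω y hy h
    have h' : ∃ y ∈ P, u • y • ω = y • ω := ⟨y, hy, h⟩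
    simp only [d, dif_pos h']
    have := hinv (h'.choose * y⁻¹) (mul_mem h'.choose_spec.1 (inv_mem hy)) _ h (by
      rw [mul_smul, inv_smul_smul]; exact h'.choose_spec.2)
    rwa [mul_smul, inv_smul_smul] at this
  have hd1 : ∀ ω, u • ω = ω → d ω = c ω := fun ω h => by
    simpa using hd ω 1 (one_mem _) (by simpa using h)
  have hdp : ∀ ω, d ω ^ p = 1 := by
    intro ω
    by_cases h : ∃ y ∈ P, u • y • ω = y • ω
    · obtain ⟨y, hy, h⟩ := h
      rw [hd ω y hy h, hc _ h]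
    · simp only [d, dif_neg h, one_pow]
  have hdi : ∀ y ∈ P, ∀ ω, d (y • ω) = d ω := by
    intro y hy ω
    by_cases h : ∃ z ∈ P, u • z • y • ω = z • y • ω
    · obtain ⟨z, hz, h⟩ := h
      rw [hd _ z hz h, hd ω (z * y) (mul_mem hz hy) (by rw [mul_smul]; exact h), mul_smul]
    · have h' : ¬ ∃ z ∈ P, u • z • ω = z • ω := by
        rintro ⟨z, hz, h'⟩
        exact h ⟨z * y⁻¹, mul_mem hz (inv_mem hy), by rw [mul_smul, inv_smul_smul]; exact h'⟩
      simp only [d, dif_neg h, dif_neg h']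
  have e1 := prod_inv P hP d hdp hdi
  have e2 := prod_inv (zpowers u) (hP.to_le (zpowers_le.2 hu)) d hdp
    fun y hy => hdi y (zpowers_le.2 hu hy)
  have e3 : Finset.univ.filter (fun ω => ω ∈ fixedPoints (zpowers u) Ω) =
      Finset.univ.filter (fun ω => u • ω = ω) := by
    refine Finset.filter_congr fun ω _ => ⟨fun h => h ⟨u, mem_zpowers u⟩, fun h y => ?_⟩
    exact (zpowers_le (H := stabilizer G ω)).2 h y.2
  rw [e3] at e2
  rw [← Finset.prod_congr rfl fun ω h => hd1 ω (Finset.mem_filter.1 h).2, ← e2, e1]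
  exact Finset.prod_congr rfl fun ω h => hd1 ω ((Finset.mem_filter.1 h).2 ⟨u, hu⟩)

open Classical in
theorem transfer_eq {G A : Type*} [Group G] [Finite G] [CommGroup A] {P : Subgroup G}
    [Fintype (G ⧸ P)] (φ : P →* A) (u : G) (c : G ⧸ P → A)
    (hc : ∀ (ω : G ⧸ P) (h : ω.out⁻¹ * u * ω.out ∈ P), c ω = φ ⟨_, h⟩)
    (h1 : ∀ (g : G) (m : ℕ) (h : g⁻¹ * u ^ m * g ∈ P), g⁻¹ * u * g ∉ P → φ ⟨_, h⟩ = 1) :
    MonoidHom.transfer φ u = ∏ ω ∈ Finset.univ.filter (fun ω => u • ω = ω), c ω := by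
  have := Fintype.ofFinite (Quotient (orbitRel (zpowers u) (G ⧸ P)))
  rw [MonoidHom.transfer_eq_prod_quotient_orbitRel_zpowers_quot]
  have hout : ∀ ω : G ⧸ P, u • ω = ω → (Quotient.mk (orbitRel (zpowers u) (G ⧸ P)) ω).out = ω := by
    intro ω h
    obtain ⟨y, hy⟩ := Quotient.mk_out (s := orbitRel (zpowers u) (G ⧸ P)) ω
    exact hy.symm.trans ((zpowers_le (H := stabilizer G ω)).2 h y.2)
  have hfix : ∀ ω : G ⧸ P, u • ω = ω ↔ ω.out⁻¹ * u * ω.out ∈ P := fun ω => by
    rw [← H1.smul_coe_eq_iff, QuotientGroup.out_eq']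
  symm
  refine Finset.prod_of_injOn (Quotient.mk (orbitRel (zpowers u) (G ⧸ P))) ?_
    (fun _ _ => by simp) ?_ ?_
  · intro a ha b hb h
    rw [← hout a (Finset.mem_filter.1 ha).2, h, hout b (Finset.mem_filter.1 hb).2]
  · intro q _ hq
    refine h1 _ _ _ fun h => hq ⟨q.out, ?_, q.out_eq⟩
    simpa using (hfix _).2 h
  · intro ω hω
    have h := (Finset.mem_filter.1 hω).2
    rw [hc ω ((hfix ω).1 h)]
    congr 1
    apply Subtype.ext
    simp only [hout ω h]
    rw [Function.minimalPeriod_eq_one_iff_isFixedPt.2 h, pow_one]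

/-- Grün's first Theorem: if `P` is a Sylow `p`-subgroup of the finite group `G`, then `P ∩ G'` is the subgroup generated by `P ∩ N_G(P)'` together with the subgroups `P ∩ z P' z⁻¹` for all `z ∈ G`, where `'` denotes the derived subgroup and `N_G(P)` the normalizer of `P`. -/
theorem result {G : Type*} [Group G] [Finite G] {p : ℕ} [Fact p.Prime] (P : Sylow p G) : (P : Subgroup G) ⊓ commutator G = ((P : Subgroup G) ⊓ ⁅Subgroup.normalizer ((P : Subgroup G) : Set G), Subgroup.normalizer ((P : Subgroup G) : Set G)⁆) ⊔ ⨆ z : G, (P : Subgroup G) ⊓ (⁅(P : Subgroup G), (P : Subgroup G)⁆).map (MulAut.conj z).toMonoidHom := by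
  classical
  have hp : p.Prime := Fact.out
  set D := ((P : Subgroup G) ⊓ ⁅𝒩((P : Subgroup G)), 𝒩((P : Subgroup G))⁆) ⊔
    ⨆ z : G, (P : Subgroup G) ⊓ (⁅(P : Subgroup G), (P : Subgroup G)⁆).map (MulAut.conj z).toMonoidHom
    with hD
  have hD2 : ∀ z : G, (P : Subgroup G) ⊓ cj z ⁅(P : Subgroup G), (P : Subgroup G)⁆ ≤ D := fun z =>
    le_sup_of_le_right (le_iSup (fun z : G => (P : Subgroup G) ⊓
      (⁅(P : Subgroup G), (P : Subgroup G)⁆).map (MulAut.conj z).toMonoidHom) z)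
  refine le_antisymm ?_ (sup_le (inf_le_inf_left _ (commutator_mono le_top le_top))
    (iSup_le fun z => inf_le_inf_left _ ?_))
  swap
  · rw [Subgroup.map_commutator]
    exact commutator_mono le_top le_top
  have hder : commutator P ≤ D.subgroupOf P := by
    rw [subgroupOf, ← map_le_iff_le_comap, map_subtype_commutator]
    exact (le_inf der_le le_rfl).trans (le_sup_of_le_left
      (inf_le_inf_left _ (der_mono le_normalizer)))
  have hn : (D.subgroupOf P).Normal := Normal.of_commutator_le _ hder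
  have hcomm : IsMulCommutative (P ⧸ D.subgroupOf P) :=
    Normal.quotient_commutative_iff_commutator_le.2 hder
  let φ : P →* P ⧸ D.subgroupOf P := QuotientGroup.mk' _
  have hφ : ∀ x : P, φ x = 1 ↔ (x : G) ∈ D := fun x => QuotientGroup.eq_one_iff x
  have hφ2 : ∀ x y : P, (x : G)⁻¹ * y ∈ D → φ x = φ y := fun x y h => QuotientGroup.eq.2 h
  have := Fintype.ofFinite (G ⧸ (P : Subgroup G))
  intro u hu
  induction hn : orderOf u using Nat.strong_induction_on generalizing u with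
  | _ n ih =>
  by_cases hu1 : u = 1
  · rw [hu1]; exact one_mem _
  have small : ∀ (g : G) (m : ℕ), p ∣ m → g⁻¹ * u ^ m * g ∈ P → g⁻¹ * u ^ m * g ∈ D := by
    intro g m hm h
    refine ih _ ?_ ⟨h, by simpa using Normal.conj_mem inferInstance _ (pow_mem hu.2 m) g⁻¹⟩ rfl
    obtain ⟨k, hk⟩ := H82.orderOf_eq_pow_of_mem P.isPGroup' hu.1
    have e : orderOf (g⁻¹ * u ^ m * g) = orderOf (u ^ m) := by
      simpa using (MulAut.conj g⁻¹).orderOf_eq (u ^ m)
    rw [e, ← hn, orderOf_pow]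
    refine Nat.div_lt_self (orderOf_pos u) (hp.one_lt.trans_le (Nat.le_of_dvd
      (Nat.gcd_pos_of_pos_left _ (orderOf_pos u)) (Nat.dvd_gcd ?_ hm)))
    rw [hk]
    refine dvd_pow_self p ?_
    rintro rfl
    exact hu1 (orderOf_eq_one_iff.1 hk)
  let c : G ⧸ (P : Subgroup G) → P ⧸ D.subgroupOf P := fun ω =>
    if h : ω.out⁻¹ * u * ω.out ∈ P then φ ⟨_, h⟩ else 1
  have hc : ∀ (g : G) (h : g⁻¹ * u * g ∈ P), c g = φ ⟨_, h⟩ := by
    intro g h
    obtain ⟨y, hy⟩ := QuotientGroup.mk_out_eq_mul (P : Subgroup G) g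
    have e : (g : G ⧸ (P : Subgroup G)).out⁻¹ * u * (g : G ⧸ (P : Subgroup G)).out =
        (y⁻¹ * ⟨_, h⟩ * y : P) := by rw [hy]; push_cast; group
    have h' : (g : G ⧸ (P : Subgroup G)).out⁻¹ * u * (g : G ⧸ (P : Subgroup G)).out ∈ P :=
      e ▸ Subtype.property _
    simp only [c, dif_pos h']
    rw [show (⟨_, h'⟩ : P) = y⁻¹ * ⟨_, h⟩ * y from Subtype.ext e, map_mul, map_mul, map_inv,
      inv_mul_cancel_comm]
  have e1 := transfer_eq φ u c (fun ω h => dif_pos h) fun g m h h' => (hφ _).2 (small g m ?_ h)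
  swap
  · by_contra hm
    obtain ⟨k, hk⟩ := P.isPGroup' ⟨u, hu.1⟩
    have hk' : u ^ p ^ k = 1 := congrArg Subtype.val hk
    have e : ∀ j : ℕ, (g⁻¹ * u * g) ^ j = g⁻¹ * u ^ j * g := fun j => by
      simpa using (conj_pow (a := g⁻¹) (b := u) (i := j))
    refine h' (H82.pow_mem_of_coprime (((Nat.Prime.coprime_iff_not_dvd hp).2 hm).pow_left k) ?_ ?_)
    · rw [e, hk']; simp
    · rw [e]; exact h
  rw [Abelianization.commutator_subset_ker _ hu.2, prod_fix (P : Subgroup G) P.isPGroup' hu.1 c] at e1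
  · rw [Finset.prod_congr rfl (g := fun _ => φ ⟨u, hu.1⟩), Finset.prod_const] at e1
    · refine (hφ ⟨u, hu.1⟩).1 ?_
      obtain ⟨k, hk⟩ := P.isPGroup' ⟨u, hu.1⟩
      refine H82.eq_one_of_pow_coprime (((Nat.Prime.coprime_iff_not_dvd hp).2 fun hd => ?_).pow_left k)
        (by rw [← map_pow, hk, map_one]) e1.symm
      have h2 := P.isPGroup'.card_modEq_card_fixedPoints (G ⧸ (P : Subgroup G))
      rw [Nat.card_eq_fintype_card (α := fixedPoints _ _), Fintype.card_subtype] at h2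
      exact P.not_dvd_index ((Nat.modEq_zero_iff_dvd.1 (h2.trans (Nat.modEq_zero_iff_dvd.2 (by
        convert hd; rfl)))))
    · intro ω hω
      obtain ⟨g, rfl⟩ := QuotientGroup.mk_surjective ω
      have h2 : ∀ y ∈ (P : Subgroup G), g⁻¹ * y * g ∈ (P : Subgroup G) := fun y hy =>
        (H1.smul_coe_eq_iff y g).1 ((Finset.mem_filter.1 hω).2 ⟨y, hy⟩)
      have hg : g ∈ 𝒩((P : Subgroup G)) := mem_norm_of_le_cj fun y hy => mem_cj.2 (h2 y hy)
      rw [hc g (h2 u hu.1)]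
      refine hφ2 _ _ (mem_sup_left ⟨(P : Subgroup G).mul_mem (inv_mem (h2 u hu.1)) hu.1, ?_⟩)
      have := commutator_mem_commutator (inv_mem hg) (inv_mem (le_normalizer hu.1))
      convert this using 1
      simp [commutatorElement_def, mul_assoc]
  · intro ω hω
    obtain ⟨g, rfl⟩ := QuotientGroup.mk_surjective ω
    have h := (H1.smul_coe_eq_iff u g).1 hω
    rw [hc g h, ← map_pow, hφ]
    have e : (g⁻¹ * u * g) ^ p = g⁻¹ * u ^ p * g := by
      simpa using (conj_pow (a := g⁻¹) (b := u) (i := p))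
    have := small g p dvd_rfl (e ▸ pow_mem h p)
    rwa [← e] at this
  · intro y hy ω h1 h2
    obtain ⟨g, rfl⟩ := QuotientGroup.mk_surjective ω
    have h1' := (H1.smul_coe_eq_iff u g).1 h1
    have h2' := (H1.smul_coe_eq_iff u (y * g)).1 h2
    change c ((y * g : G) : G ⧸ (P : Subgroup G)) = _
    rw [hc g h1', hc _ h2']
    refine hφ2 _ _ (hD2 g⁻¹ ⟨(P : Subgroup G).mul_mem (inv_mem h2') h1', mem_cj.2 ?_⟩)
    have := commutator_mem_commutator (inv_mem hy) (inv_mem hu.1)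
    convert this using 1
    simp [commutatorElement_def, mul_assoc]

end Cfsg.Agent.S4216
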