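import Cfsg.Statements.S4217
import Cfsg.Agent.H2.Gaschutz
import Cfsg.Agent.H49.Prod

set_option autoImplicit false
open Cfsg

namespace Cfsg.Agent.S4217

open Subgroup Cfsg.Agent.H49
open scoped IsMulCommutative

/-- the exponents `n` such that `k ↦ k ^ n` extends to a crossed homomorphism -/
def exps {G : Type*} [Group G] (A : Subgroup G) [A.Normal] [IsMulCommutative A] : AddSubgroup ℤ where
  carrier := {n | ∃ φ : G → A, (∀ g h, φ (g * h) = φ g * MulAut.conjNormal g (φ h)) ∧
    ∀ k : A, φ k = k ^ n}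
  zero_mem' := ⟨fun _ => 1, by simp, by simp⟩
  add_mem' := by
    rintro a b ⟨φ, h1, h2⟩ ⟨ψ, h3, h4⟩
    refine ⟨fun g => φ g * ψ g, fun g h => ?_, fun k => by simp only [h2, h4, zpow_add]⟩
    simp only [h1, h3, map_mul]
    exact mul_mul_mul_comm _ _ _ _
  neg_mem' := by
    rintro a ⟨φ, h1, h2⟩
    exact ⟨fun g => (φ g)⁻¹, fun g h => by simp only [h1, map_inv, mul_inv],
      fun k => by simp only [h2, zpow_neg]⟩

theorem index_mem {G : Type*} [Group G] [Finite G] (A U K : Subgroup G) [A.Normal]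
    [IsMulCommutative A] (h1 : K ⊓ A = ⊥) (h2 : K ⊔ A = U) : (U.index : ℤ) ∈ exps A := by
  have hAU : A ≤ U := h2 ▸ le_sup_right
  obtain ⟨η, -, h3, h4⟩ := H2.exists_crossed_hom A U K (h2 ▸ le_sup_left) h1
    (by rw [sup_comm, h2])
  obtain ⟨φ, hφ, hφK⟩ := H2.exists_crossed_hom_cores A U hAU η h4
    (fun k => h3 k (hAU k.2) k (by simp))
  exact ⟨φ, hφ, fun k => by rw [hφK, zpow_natCast]⟩

/-- Let `A` be an abelian normal subgroup of the finite group `G`. Then `A` has a complement in `G` if and only if, for every prime `p` dividing the index of `A`, there are a Sylow `p`-subgroup `S` of `G/A` and a subgroup `K` of `G` with `K ∩ A = 1` and `KA` equal to the preimage of `S` (that is, `A` has a complement in the preimage of a Sylow `p`-subgroup of `G/A`). -/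
theorem result {G : Type*} [Group G] [Finite G] (A : Subgroup G) [A.Normal] (hA : IsMulCommutative A) : (∃ K : Subgroup G, K.IsComplement' A) ↔ ∀ p : ℕ, p.Prime → p ∣ A.index → ∃ (S : Sylow p (G ⧸ A)) (K : Subgroup G), K ⊓ A = ⊥ ∧ K ⊔ A = (S : Subgroup (G ⧸ A)).comap (QuotientGroup.mk' A) := by
  constructor
  · rintro ⟨K, hK⟩ p hp -
    have := Fact.mk hp
    obtain ⟨S⟩ := Sylow.nonempty (p := p) (G := G ⧸ A)
    have hs := (IsSdp.of_isComplIn (isComplIn_top_iff.2 hK.symm) le_normalizer_of_normal).restrict_left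
      (QuotientGroup.le_comap_mk' A S) le_top
    exact ⟨S, _, by rw [inf_comm, hs.2.1], by rw [sup_comm, hs.1]⟩
  intro h
  obtain ⟨d, hd⟩ := Int.subgroup_cyclic (exps A)
  have hdvd : ∀ n : ℕ, (n : ℤ) ∈ exps A → d.natAbs ∣ n := fun n hn => by
    rw [hd, AddSubgroup.mem_closure_singleton] at hn
    obtain ⟨c, hc⟩ := hn
    exact Int.natAbs_dvd_natAbs.2 (show d ∣ (n : ℤ) from ⟨c, by rw [← hc, smul_eq_mul, mul_comm]⟩)
  have hd1 : d.natAbs = 1 := by
    by_contra hne
    obtain ⟨p, hp, hpd⟩ := Nat.exists_prime_and_dvd hne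
    have := Fact.mk hp
    obtain ⟨S, K, h1, h2⟩ := h p hp (hpd.trans (hdvd _ (index_mem A A ⊥ (by simp) (by simp))))
    have := hpd.trans (hdvd _ (index_mem A _ K h1 h2))
    rw [index_comap_of_surjective _ (QuotientGroup.mk'_surjective A)] at this
    exact S.not_dvd_index this
  have h1 : (1 : ℤ) ∈ exps A := by
    have : d ∈ exps A := hd ▸ AddSubgroup.subset_closure rfl
    rcases Int.natAbs_eq_iff.1 hd1 with h | h
    · simpa [h] using this
    · simpa [h] using neg_mem this
  obtain ⟨φ, hφ, hφK⟩ := h1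
  simp only [zpow_one] at hφK
  have hφ1 : φ 1 = 1 := hφK 1
  let H : Subgroup G :=
    { carrier := {g | φ g = 1}
      one_mem' := hφ1
      mul_mem' := fun {a b} (ha : φ a = 1) (hb : φ b = 1) => by
        show φ (a * b) = 1
        rw [hφ, ha, hb, map_one, mul_one]
      inv_mem' := fun {a} (ha : φ a = 1) => by
        show φ a⁻¹ = 1
        have := hφ a⁻¹ a
        rw [inv_mul_cancel, hφ1, ha, map_one, mul_one] at this
        exact this.symm }
  refine ⟨H, (H2.isComplement'_of_normal_of_sup_of_inf A H ?_ ?_).symm⟩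
  · rw [eq_top_iff]
    intro g _
    have h4 : φ (((φ g)⁻¹ : A) * g) = 1 := by
      rw [hφ, hφK, MulAut.conjNormal_val, MulAut.conj_apply, mul_inv_cancel_comm,
        inv_mul_cancel]
    have : g = φ g * (((φ g)⁻¹ : A) * g) := by simp
    rw [this]
    exact Subgroup.mul_mem_sup (φ g).2 h4
  · rw [eq_bot_iff]
    intro k hk
    have h4 : φ ((⟨k, hk.1⟩ : A) : G) = 1 := hk.2
    rw [hφK] at h4
    exact congrArg Subtype.val h4

end Cfsg.Agent.S4217
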