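import Cfsg.Statements.S4218
import Cfsg.Agent.H50.PGroup
import Cfsg.Agent.H22.PSolvable
import Cfsg.Agent.H1.Frattini

set_option autoImplicit false
open Cfsg

namespace Cfsg.Agent.S4218

open Subgroup Cfsg.Agent.H49

theorem aux {G : Type*} [Group G] [Finite G] {p : ℕ} [Fact p.Prime] (hG : Cfsg.IsPSolvable p G)
    (hO : pPrimeCore p G = ⊥) (g : G)
    (h : ∀ x ∈ pCore p G, g * x * g⁻¹ * x⁻¹ ∈ frattiniOf (pCore p G)) : g ∈ pCore p G := by
  have hp : p.Prime := Fact.out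
  set Q := pCore p G with hQ
  have hQp : IsPi {p} Q := isPi_of_isPGroup hp H22.isPGroup_pCore
  have hΦ : (frattiniOf Q).Normal := normal_iff_top_le_norm.2
    (le_normalizer_of_normal.trans (H50.norm_le_norm_frattiniOf Q))
  set f := QuotientGroup.mk' (frattiniOf Q) with hf
  have hmem : ∀ y : G, y ∈ 𝒞(Q.map f).comap f ↔ ∀ x ∈ Q, y * x * y⁻¹ * x⁻¹ ∈ frattiniOf Q := by
    intro y
    simp only [mem_comap, mem_centralizer_iff, SetLike.mem_coe, mem_map, forall_exists_index,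
      and_imp, forall_apply_eq_imp_iff₂]
    refine forall₂_congr fun x _ => ?_
    rw [← QuotientGroup.eq_one_iff, eq_comm, ← commutatorElement_eq_one_iff_mul_comm]
    rfl
  have : (Q.map f).Normal := Normal.map inferInstance _ (QuotientGroup.mk'_surjective _)
  refine H22.le_pCore (N := 𝒞(Q.map f).comap f) inferInstance
    (IsPi.isPGroup (isPi_of_elt fun y hy => ?_) hp) ((hmem g).2 h)
  obtain ⟨u, -, v, hv, rfl, hu', hv'⟩ := exists_pi_decomp {p} y
  have hv1 : v ∈ 𝒞(Q) := H50.mem_cent_of_frattiniOf (le_normalizer_of_normal (mem_top v))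
    (IsPiNat.coprime' hv' hQp) ((hmem v).1 (zpowers_le.2 hy hv))
  rw [(hQp.elt (H22.IsPSolvable.centralizer_pCore_le hG hO hv1)).eq_one hv', mul_one]
  exact hu'

/-- Let `G` be a finite `p`-solvable group, `N₀ = O_{p'}(G)`, `P₁ = O_{p',p}(G)`, and let `F ≤ P₁` be the preimage of the Frattini subgroup of `P₁/N₀`. Then an element `g` of `G` induces the identity on `P₁/F` by conjugation (that is, `g x g⁻¹ x⁻¹ ∈ F` for all `x ∈ P₁`) if and only if `g ∈ P₁`: the group `G/P₁` acts faithfully on `P₁/F`. -/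
theorem result {G : Type*} [Group G] [Finite G] {p : ℕ} [Fact p.Prime] (hG : Cfsg.IsPSolvable p G) (g : G) : (∀ x ∈ Cfsg.pPrimePCore p G, g * x * g⁻¹ * x⁻¹ ∈ ((frattini (↥(Cfsg.pPrimePCore p G) ⧸ (Cfsg.pPrimeCore p G).subgroupOf (Cfsg.pPrimePCore p G))).comap (QuotientGroup.mk' ((Cfsg.pPrimeCore p G).subgroupOf (Cfsg.pPrimePCore p G)))).map (Cfsg.pPrimePCore p G).subtype) ↔ g ∈ Cfsg.pPrimePCore p G := by
  have hp : p.Prime := Fact.out
  set N := pPrimeCore p G with hN
  set P := pPrimePCore p G with hP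
  let φ : P →* pCore p (G ⧸ N) := ((QuotientGroup.mk' N).comp P.subtype).codRestrict _ fun x => x.2
  have hφ : Function.Surjective φ := by
    rintro ⟨y, hy⟩
    obtain ⟨x, rfl⟩ := QuotientGroup.mk_surjective y
    exact ⟨⟨x, hy⟩, rfl⟩
  have hker : N.subgroupOf P = φ.ker := by
    ext x
    rw [MonoidHom.mem_ker, Subtype.ext_iff]
    exact (QuotientGroup.eq_one_iff (N := N) (x : G)).symm
  let e : P ⧸ N.subgroupOf P ≃* pCore p (G ⧸ N) :=
    (QuotientGroup.quotientMulEquivOfEq hker).trans (QuotientGroup.quotientKerEquivOfSurjective φ hφ)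
  constructor
  · intro h
    refine aux (H22.IsPSolvable.quotient hG N) H22.pPrimeCore_quotient_pPrimeCore (g : G ⧸ N) ?_
    intro y hy
    obtain ⟨x, rfl⟩ := QuotientGroup.mk_surjective y
    obtain ⟨z, hz, hz'⟩ := h x hy
    refine ⟨e (QuotientGroup.mk z),
      frattini_le_comap_frattini_of_surjective (φ := e.toMonoidHom) e.surjective hz, ?_⟩
    change ((z : G) : G ⧸ N) = _
    rw [show (z : G) = _ from hz']
    rfl
  · intro hg x hx
    refine ⟨⟨g, hg⟩ * ⟨x, hx⟩ * ⟨g, hg⟩⁻¹ * ⟨x, hx⟩⁻¹, ?_, rfl⟩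
    exact H1.commutator_le_frattini (H22.isPGroup_pCore.of_equiv e.symm)
      (commutator_mem_commutator (mem_top (QuotientGroup.mk (⟨g, hg⟩ : P)))
        (mem_top (QuotientGroup.mk (⟨x, hx⟩ : P))))

end Cfsg.Agent.S4218
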