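import Cfsg.Statements.S4219
import Cfsg.Agent.H26.WittPerm

set_option autoImplicit false
open Cfsg

namespace Cfsg.Agent.S4219

open Cfsg.Agent.H26 Cfsg.Agent.H69 MulAction

/-- Let a finite group `G` act `t`-fold transitively on a finite set, let `H` be the stabilizer of `t` distinct points and `P` a Sylow `p`-subgroup of `H`. Then the normalizer of `P` in `G` is `t`-fold transitive on the fixed points of `P`: any `t` distinct fixed points of `P` can be carried to any other `t` distinct fixed points of `P` by an element normalizing `P`. -/
theorem result {G : Type*} [Group G] [Finite G] {α : Type*} [Fintype α] [MulAction G α] {t : ℕ} (hG : MulAction.IsMultiplyPretransitive G α t) (x : Fin t ↪ α) {p : ℕ} [Fact p.Prime] (P : Sylow p (MulAction.stabilizer G x)) (a b : Fin t ↪ α) (ha : ∀ i, a i ∈ MulAction.fixedPoints ((P : Subgroup (MulAction.stabilizer G x)).map (MulAction.stabilizer G x).subtype) α) (hb : ∀ i, b i ∈ MulAction.fixedPoints ((P : Subgroup (MulAction.stabilizer G x)).map (MulAction.stabilizer G x).subtype) α) : ∃ g ∈ Subgroup.normalizer ((((P : Subgroup (MulAction.stabilizer G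 x)).map (MulAction.stabilizer G x).subtype) : Subgroup G) : Set G), g • a = b := by
  refine witt_normalizer (x := x) (sylOf_map_subtype P) (hG.exists_smul_eq x a)
    (hG.exists_smul_eq x b) (fun g hg => ?_) (fun g hg => ?_)
  · exact Function.Embedding.ext fun i => ha i ⟨g, hg⟩
  · exact Function.Embedding.ext fun i => hb i ⟨g, hg⟩

end Cfsg.Agent.S4219
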