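import Cfsg.Statements.S4220
import Cfsg.Agent.H26.Miller
import Cfsg.Agent.H26.SmallSupp
import Cfsg.Agent.H16.Jordan

set_option autoImplicit false
open Cfsg

namespace Cfsg.Agent.S4220

open Cfsg.Agent.H26 MulAction Equiv Equiv.Perm

/-- Let `n = kp + r` with `p` prime, `1 ≤ k < p` and `r > k`, excluding the case `k = 1, r = 2`. Then a permutation group of degree `n` that is `(r + 1)`-fold transitive contains the alternating group. -/
theorem result {α : Type*} [Fintype α] [DecidableEq α] (G : Subgroup (Equiv.Perm α)) {k p r : ℕ} (hp : p.Prime) (hn : Fintype.card α = k * p + r) (hk : 1 ≤ k) (hpk : k < p) (hrk : k < r) (hex : ¬ (k = 1 ∧ r = 2)) (hG : MulAction.IsMultiplyPretransitive G α (r + 1)) : alternatingGroup α ≤ G := by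
  by_contra hA
  have hr : 3 ≤ r := by omega
  have hkp : p ≤ k * p := Nat.le_mul_of_pos_left _ hk
  have hp2 := hp.two_le
  have hprim : IsPreprimitive G α := isPreprimitive_of_is_two_pretransitive
    (isMultiplyPretransitive_of_le (n := r + 1) (by omega) (by rw [Nat.card_eq_fintype_card]; omega))
  have hsupp : ∀ (g : G) (s : Finset α), (∀ y ∉ s, g • y = y) →
      (g : Perm α).support.card ≤ s.card := fun g s h => Finset.card_le_card fun y hy => by
    by_contra h'
    exact mem_support.1 hy (h y h')
  have hL : ∀ g : G, (g : Perm α).support.card ≤ r + 1 → g = 1 := by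
    intro g hg
    by_contra h
    exact hA (alt_le_of_small_support G hG (by omega) g.2 (fun h' => h (Subtype.ext h')) hg)
  have hJ : ∀ q : ℕ, q.Prime → q + 3 ≤ Fintype.card α → ∀ g : G, g ^ q = 1 →
      (g : Perm α).support.card < 2 * q → g = 1 := by
    intro q hq hqn g hgq hg
    by_contra h
    exact hA (alt_le_of_prime_support G hprim hq hqn g.2 (fun h' => h (Subtype.ext h'))
      (congrArg Subtype.val hgq) hg)
  obtain ⟨rfl, rfl, rfl⟩ := miller_core hp hn hk hpk hrk hr hG
    (fun g s hs h => hL g (by have := hsupp g s h; omega))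
    (fun g s hs hgp h => hJ p hp (by omega) g hgp (by have := hsupp g s h; omega))
  have := H16.jordan_four (G := G) (α := α) (by rw [Nat.card_eq_fintype_card]; omega) (h := hG) (by
    intro x
    by_contra hx
    obtain ⟨q, hq, hqd⟩ := Nat.exists_prime_and_dvd (fun h => hx (Subgroup.eq_bot_of_card_eq _ h))
    have := Fact.mk hq
    obtain ⟨g, hg⟩ := exists_prime_orderOf_dvd_card' q hqd
    have hg1 : (g : G) ≠ 1 := fun h => by
      rw [show g = 1 from Subtype.ext h, orderOf_one] at hg
      exact hq.one_lt.ne hg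
    have h5 := hsupp g (Finset.univ.map x)ᶜ fun y hy => by
      rw [Finset.notMem_compl] at hy
      obtain ⟨i, -, rfl⟩ := Finset.mem_map.1 hy
      exact congrArg (fun z : Fin 4 ↪ α => z i) (mem_stabilizer_iff.1 g.2)
    rw [Finset.card_compl, Finset.card_map, Finset.card_univ, Fintype.card_fin, hn] at h5
    have ho : orderOf ((g : G) : Perm α) = q := by rw [Subgroup.orderOf_coe, Subgroup.orderOf_coe, hg]
    obtain ⟨m, hm⟩ := cycleType_prime_order (ho ▸ hq)
    have hs := ((g : G) : Perm α).sum_cycleType
    rw [hm, Multiset.sum_replicate, smul_eq_mul, ho] at hs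
    have h4 : ¬ ((g : G) : Perm α).support.card ≤ 3 + 1 := fun h => hg1 (hL _ h)
    have h6 : (m + 1) * q = 5 := by omega
    have hq5 : q = 5 := (Nat.prime_dvd_prime_iff_eq hq Nat.prime_five).1 (Dvd.intro_left _ h6)
    subst hq5
    refine hg1 (hJ 5 hq (by omega) g ?_ (by omega))
    rw [← hg, ← Subgroup.coe_pow, pow_orderOf_eq_one, Subgroup.coe_one])
  rw [Nat.card_eq_fintype_card] at this
  omega

end Cfsg.Agent.S4220
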