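import Cfsg.Statements.S4222


set_option autoImplicit false
open Cfsg

namespace Cfsg.Agent.S4222

/-- If a normal subgroup `N` of a finite group is complete (its centre is trivial and every automorphism of `N` is inner), then the group is the internal direct product of `N` and the centralizer of `N`: the centralizer is a complement to `N`. -/
theorem result {T : Type*} [Group T] [Finite T] (N : Subgroup T) [N.Normal] (hz : Subgroup.center ↥N = ⊥) (ha : Function.Surjective (MulAut.conj : ↥N →* MulAut ↥N)) : (Subgroup.centralizer (N : Set T)).IsComplement' N := by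
  have hN : N.Normal := inferInstance
  apply Subgroup.IsComplement'.symm
  have hdisj : Disjoint N (Subgroup.centralizer (N : Set T)) := by
    rw [disjoint_iff, eq_bot_iff]
    rintro x ⟨hx, hxc⟩
    have : (⟨x, hx⟩ : N) ∈ Subgroup.center N := by
      rw [Subgroup.mem_center_iff]
      intro y
      ext
      exact hxc y y.2
    rw [hz, Subgroup.mem_bot] at this
    simpa using this
  have := Subgroup.isComplement'_of_disjoint_and_mul_eq_univ hdisj (by
    rw [Set.eq_univ_iff_forall]
    intro t
    obtain ⟨n, hn⟩ := ha (MulAut.conjNormal t)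
    refine ⟨n, n.2, (n : T)⁻¹ * t, ?_, by simp⟩
    intro y hy
    have := congrArg (fun f : MulAut N => ((f ⟨y, hy⟩ : N) : T)) hn
    simp only [MulAut.conj_apply, MulAut.conjNormal_apply, Subgroup.coe_mul, Subgroup.coe_inv] at this
    calc y * ((n : T)⁻¹ * t) = (n : T)⁻¹ * (n * y * (n : T)⁻¹) * t := by group
      _ = (n : T)⁻¹ * (t * y * t⁻¹) * t := by rw [this]
      _ = (n : T)⁻¹ * t * y := by group)
  exact this

end Cfsg.Agent.S4222
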