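import Cfsg.Statements.S4223


set_option autoImplicit false
open Cfsg

namespace Cfsg.Agent.S4223

/-- Fitting's lemma for normal endomorphisms. -/
theorem fitting {A : Type*} [Group A] [Finite A]
    (hA : ∀ H K : Subgroup A, H.Normal → K.Normal → H ⊓ K = ⊥ → H ⊔ K = ⊤ → H = ⊥ ∨ K = ⊥)
    (f : A →* A) (hf : ∀ a x, f (a * x * a⁻¹) = a * f x * a⁻¹) :
    Function.Injective f ∨ ∀ x, f x = x → x = 1 := by
  obtain ⟨g, hg⟩ : ∃ g : ℕ → A →* A, ∀ n x, g n x = f^[n] x :=
    ⟨fun n => ((show Monoid.End A from f) ^ n : Monoid.End A), fun n x =>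
      congrFun (Monoid.End.coe_pow A f n) x⟩
  have hn : ∀ (n : ℕ) a x, g n (a * x * a⁻¹) = a * g n x * a⁻¹ := fun n => by
    simp only [hg]
    induction n with
    | zero => exact fun _ _ => rfl
    | succ n ih => exact fun a x => by simp only [Function.iterate_succ_apply', ih, hf]
  obtain ⟨n, h⟩ := WellFoundedGT.monotone_chain_condition
    (⟨fun n : ℕ => (g n).ker, monotone_nat_of_le_succ fun n x hx => by
      rw [MonoidHom.mem_ker, hg] at hx ⊢
      rw [Function.iterate_succ_apply', hx, map_one]⟩ : ℕ →o Subgroup A)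
  have h1 : (g (n + 1)).ker ⊓ (g (n + 1)).range = ⊥ := by
    refine le_bot_iff.1 ?_
    rintro _ ⟨hx, x, rfl⟩
    have : x ∈ (g (n + 1 + (n + 1))).ker := by
      rw [MonoidHom.mem_ker, hg, Function.iterate_add_apply, ← hg, ← hg]; exact hx
    have h2 : (g (n + 1 + (n + 1))).ker = (g (n + 1)).ker :=
      (h _ (by omega)).symm.trans (h _ (by omega))
    rw [h2] at this
    exact this
  have hN : (g (n + 1)).range.Normal := ⟨by rintro _ ⟨x, rfl⟩ a; exact ⟨_, hn _ a x⟩⟩
  have h2 := Subgroup.isComplement'_of_card_mul_and_disjoint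
    (by rw [← Subgroup.index_ker, Subgroup.card_mul_index]) (disjoint_iff.2 h1)
  rcases hA _ _ inferInstance hN h1 h2.sup_eq_top with h3 | h3
  · refine Or.inl ((injective_iff_map_eq_one _).2 fun x hx => Subgroup.mem_bot.1 (h3 ▸ ?_))
    rw [MonoidHom.mem_ker, hg, Function.iterate_succ_apply, hx, ← hg, map_one]
  · exact Or.inr fun x hx =>
      Subgroup.mem_bot.1 (h3 ▸ ⟨x, (hg _ _).trans (Function.iterate_fixed hx _)⟩)

/-- Keep the coordinates in `s`. -/
def mask {κ : Type*} [DecidableEq κ] (B : κ → Type*) [∀ j, Group (B j)] (s : Finset κ) :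
    (∀ j, B j) →* ∀ j, B j where
  toFun y j := if j ∈ s then y j else 1
  map_one' := by ext j; simp
  map_mul' a b := by ext j; by_cases h : j ∈ s <;> simp [h]

theorem exchange {κ : Type*} [Fintype κ] [DecidableEq κ] {A C : Type*} [Group A] [Finite A]
    [Group C] [Nontrivial A] {B : κ → Type*} [∀ j, Group (B j)]
    (hA : ∀ H K : Subgroup A, H.Normal → K.Normal → H ⊓ K = ⊥ → H ⊔ K = ⊤ → H = ⊥ ∨ K = ⊥)
    (hB : ∀ j, ∀ H K : Subgroup (B j), H.Normal → K.Normal → H ⊓ K = ⊥ → H ⊔ K = ⊤ → H = ⊥ ∨ K = ⊥)
    (e : (∀ j, B j) ≃* C) (ι : A →* C) (π : C →* A) (hπ : ∀ a, π (ι a) = a)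
    (hι : ∀ c a, c * ι a * c⁻¹ = ι (π c * a * (π c)⁻¹)) :
    ∃ j, Function.Bijective fun a => e.symm (ι a) j := by
  let F : Finset κ → A →* A := fun s =>
    π.comp (e.toMonoidHom.comp ((mask B s).comp (e.symm.toMonoidHom.comp ι)))
  have hF : ∀ s a x, F s (a * x * a⁻¹) = a * F s x * a⁻¹ := fun s a x => by
    have : mask B s (e.symm (ι a) * e.symm (ι x) * (e.symm (ι a))⁻¹) =
        e.symm (ι a) * mask B s (e.symm (ι x)) * (e.symm (ι a))⁻¹ := by
      ext j; by_cases h : j ∈ s <;> simp [mask, h]
    show π (e (mask B s (e.symm (ι _)))) = a * π (e (mask B s (e.symm (ι x)))) * a⁻¹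
    rw [map_mul ι, map_mul ι, map_inv ι, map_mul e.symm, map_mul e.symm, map_inv e.symm, this]
    simp [hπ]
  have key : ∀ s : Finset κ, Function.Injective (F s) → ∃ j, Function.Injective (F {j}) := by
    intro s
    induction s using Finset.induction_on with
    | empty =>
      intro h
      obtain ⟨a, ha⟩ := exists_ne (1 : A)
      refine (ha (h ?_)).elim
      have : mask B ∅ (e.symm (ι a)) = 1 := by ext j; simp [mask]
      show π (e (mask B ∅ (e.symm (ι a)))) = _
      rw [this, map_one, map_one, map_one]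
    | insert j s hj ih =>
      intro h
      have hm : ∀ x, F (insert j s) x = F {j} x * F s x := fun x => by
        have : mask B (insert j s) (e.symm (ι x)) =
            mask B {j} (e.symm (ι x)) * mask B s (e.symm (ι x)) := by
          ext k
          by_cases h1 : k = j
          · subst h1; simp [mask, hj]
          · simp [mask, h1]
        show π (e (mask B _ (e.symm (ι x)))) = π (e _) * π (e _)
        rw [this, map_mul, map_mul]
        rfl
      let u := MulEquiv.ofBijective _ (Finite.injective_iff_bijective.1 h)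
      have hu : ∀ a x, u.symm (a * x * a⁻¹) = a * u.symm x * a⁻¹ := fun a x => by
        rw [MulEquiv.symm_apply_eq]
        exact ((hF _ a _).trans (by rw [← u.apply_symm_apply x]; simp [u])).symm
      rcases fitting hA ((F {j}).comp u.symm.toMonoidHom) (fun a x => by
        show F {j} (u.symm _) = a * F {j} (u.symm x) * a⁻¹
        rw [hu, hF]) with h1 | h1
      · exact ⟨j, Function.Injective.of_comp_right (g := u.symm) h1 u.symm.surjective⟩
      · refine ih ((injective_iff_map_eq_one _).2 fun x hx => ?_)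
        have h2 := h1 (u x) (by
          show F {j} (u.symm (u x)) = F _ x
          rw [u.symm_apply_apply, hm, hx, mul_one])
        exact (map_eq_one_iff u u.injective).1 h2
  obtain ⟨j, hj⟩ := key Finset.univ (by
    have : ∀ a, F Finset.univ a = a := fun a => by
      have : mask B Finset.univ (e.symm (ι a)) = e.symm (ι a) := by ext j; simp [mask]
      show π (e (mask B _ (e.symm (ι a)))) = _
      rw [this, e.apply_symm_apply, hπ]
    exact fun a b h => by rwa [this, this] at h)
  let α : A →* B j := (Pi.evalMonoidHom B j).comp (e.symm.toMonoidHom.comp ι)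
  let β : B j →* A := π.comp (e.toMonoidHom.comp (MonoidHom.mulSingle B j))
  have hβα : ∀ a, β (α a) = F {j} a := fun a => by
    have : mask B {j} (e.symm (ι a)) = Pi.mulSingle j (α a) := by
      ext k
      by_cases h1 : k = j
      · subst h1; simp [mask, α]
      · simp [mask, h1]
    show _ = π (e (mask B _ (e.symm (ι a))))
    rw [this]; rfl
  have hα : Function.Injective α := Function.Injective.of_comp (f := β) (by
    rw [show β ∘ α = F {j} from funext hβα]; exact hj)
  have hN : α.range.Normal := ⟨by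
    rintro _ ⟨a, rfl⟩ b
    refine ⟨π (e (Pi.mulSingle j b)) * a * (π (e (Pi.mulSingle j b)))⁻¹, ?_⟩
    show e.symm (ι _) j = _
    rw [← hι]
    simp [α]⟩
  have hsup : α.range ⊔ β.ker = ⊤ := by
    refine top_le_iff.1 fun b _ => ?_
    obtain ⟨a, ha⟩ := Finite.injective_iff_surjective.1 hj (β b)
    rw [← mul_inv_cancel_left (α a) b]
    refine Subgroup.mul_mem_sup ⟨a, rfl⟩ ?_
    rw [MonoidHom.mem_ker, map_mul, map_inv, hβα, ha, inv_mul_cancel]
  have hinf : α.range ⊓ β.ker = ⊥ := by
    refine le_bot_iff.1 ?_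
    rintro _ ⟨⟨a, rfl⟩, ha⟩
    have : a = 1 := hj (by rw [← hβα, map_one]; exact ha)
    rw [this, map_one]; exact Subgroup.one_mem _
  rcases hB j _ _ hN inferInstance hinf hsup with h | h
  · obtain ⟨a, ha⟩ := exists_ne (1 : A)
    exact (ha (hα ((Subgroup.mem_bot.1 (h ▸ ⟨a, rfl⟩)).trans (map_one α).symm))).elim
  · rw [h, sup_bot_eq] at hsup
    exact ⟨j, hα, MonoidHom.range_eq_top.1 hsup⟩

/-- If a finite group is isomorphic both to a direct product of `m` directly indecomposable nontrivial groups and to a direct product of `n` such groups (a group is directly indecomposable when it is not the internal direct product of two nontrivial normal subgroups), then `m = n` and the factors are isomorphic in pairs after a suitable matching. -/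
theorem result {m n : ℕ} {A : Fin m → Type*} {B : Fin n → Type*} [∀ i, Group (A i)] [∀ j, Group (B j)] [∀ i, Finite (A i)] [∀ j, Finite (B j)] (hA : ∀ i, Nontrivial (A i) ∧ ∀ H K : Subgroup (A i), H.Normal → K.Normal → H ⊓ K = ⊥ → H ⊔ K = ⊤ → H = ⊥ ∨ K = ⊥) (hB : ∀ j, Nontrivial (B j) ∧ ∀ H K : Subgroup (B j), H.Normal → K.Normal → H ⊓ K = ⊥ → H ⊔ K = ⊤ → H = ⊥ ∨ K = ⊥) (e : ((i : Fin m) → A i) ≃* ((j : Fin n) → B j)) : ∃ σ : Fin m ≃ Fin n, ∀ i, Nonempty (A i ≃* B (σ i)) := by
  induction m generalizing n B with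
  | zero =>
    cases n with
    | zero => exact ⟨Equiv.refl _, fun i => i.elim0⟩
    | succ n =>
      haveI := (hB 0).1
      haveI : Nontrivial (∀ j, B j) := Pi.nontrivial_at 0
      exact (not_subsingleton _ e.symm.injective.subsingleton).elim
  | succ m ih =>
    haveI := (hA 0).1
    obtain ⟨j, hj⟩ := exchange (hA 0).2 (fun j => (hB j).2) e.symm (MonoidHom.mulSingle A 0)
      (Pi.evalMonoidHom A 0) (fun a => by simp) fun c a => by
        ext i
        by_cases h : i = 0
        · subst h; simp
        · simp [h]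
    obtain ⟨n, rfl⟩ : ∃ n', n = n' + 1 := ⟨n - 1, by have := j.pos; omega⟩
    let α : A 0 →* B j := (Pi.evalMonoidHom B j).comp (e.toMonoidHom.comp (MonoidHom.mulSingle A 0))
    have hα : Function.Bijective α := hj
    let ψ : (∀ k : Fin n, B (j.succAbove k)) →* ∀ i : Fin m, A i.succ :=
      { toFun := fun y i => e.symm (j.insertNth 1 y) i.succ
        map_one' := by
          have : (j.insertNth 1 1 : ∀ k, B k) = 1 := by
            ext k; cases k using Fin.succAboveCases j <;> simp
          rw [this, map_one]; rfl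
        map_mul' := fun x y => by
          have : (j.insertNth 1 (x * y) : ∀ k, B k) = j.insertNth 1 x * j.insertNth 1 y := by
            ext k; cases k using Fin.succAboveCases j <;> simp
          rw [this, map_mul]; rfl }
    have hψ : Function.Injective ψ := (injective_iff_map_eq_one _).2 fun y hy => by
      have h1 : e.symm (j.insertNth 1 y) = Pi.mulSingle 0 (e.symm (j.insertNth 1 y) 0) := by
        ext i
        cases i using Fin.cases with
        | zero => simp
        | succ i => rw [Pi.mulSingle_eq_of_ne (Fin.succ_ne_zero i)]; exact congrFun hy i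
      have h2 : α (e.symm (j.insertNth 1 y) 0) = α 1 := by
        show e (Pi.mulSingle 0 _) j = _
        rw [← h1, e.apply_symm_apply, map_one, Fin.insertNth_apply_same]
      rw [hα.1 h2, Pi.mulSingle_one, map_eq_one_iff _ e.symm.injective] at h1
      ext k
      simpa using congrFun h1 (j.succAbove k)
    have hc : Nat.card (∀ k : Fin n, B (j.succAbove k)) = Nat.card (∀ i : Fin m, A i.succ) := by
      have h1 := Nat.card_congr e.toEquiv
      rw [Nat.card_pi, Nat.card_pi, Fin.prod_univ_succ, Fin.prod_univ_succAbove _ j,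
        Nat.card_eq_of_bijective _ hα] at h1
      rw [Nat.card_pi, Nat.card_pi]
      exact (Nat.eq_of_mul_eq_mul_left Nat.card_pos h1).symm
    obtain ⟨σ, hσ⟩ := ih (fun i => hA i.succ) (fun k => hB (j.succAbove k))
      (MulEquiv.ofBijective ψ (hψ.bijective_of_nat_card_le hc.ge)).symm
    refine ⟨(finSuccEquiv m).trans (σ.optionCongr.trans (finSuccEquiv' j).symm), fun i => ?_⟩
    cases i using Fin.cases with
    | zero =>
      rw [show ((finSuccEquiv m).trans (σ.optionCongr.trans (finSuccEquiv' j).symm)) 0 = j by simp]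
      exact ⟨MulEquiv.ofBijective α hα⟩
    | succ i =>
      rw [show ((finSuccEquiv m).trans (σ.optionCongr.trans (finSuccEquiv' j).symm)) i.succ =
        j.succAbove (σ i) by simp]
      exact hσ i

end Cfsg.Agent.S4223
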