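import Cfsg.Statements.S4227
import Cfsg.Agent.S3783
import Cfsg.Agent.S0635
import Cfsg.Agent.H5.Burnside
import Cfsg.Agent.H22.UpperPSeries

set_option autoImplicit false
set_option linter.style.haveILetI false
open Cfsg

namespace Cfsg.Agent.S4227

theorem pow_gcd {G : Type*} [Group G] [Finite G] (h : ∀ x : G, x ^ 6 = 1) {q : ℕ} [Fact q.Prime]
    (Q : Sylow q G) (x : G) (hx : x ∈ (Q : Subgroup G)) : x ^ Nat.gcd 6 q = 1 := by
  obtain ⟨k, hk⟩ := IsPGroup.iff_orderOf.1 Q.isPGroup' ⟨x, hx⟩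
  rw [← Subgroup.orderOf_coe] at hk
  apply orderOf_dvd_iff_pow_eq_one.1
  have h6 := orderOf_dvd_of_pow_eq_one (h x)
  refine Nat.dvd_gcd h6 ?_
  have hsq : Squarefree (orderOf x) := Squarefree.squarefree_of_dvd h6 (by
    rw [show 6 = 2 * 3 by norm_num, Nat.squarefree_mul (by norm_num)]
    exact ⟨Nat.prime_two.squarefree, Nat.prime_three.squarefree⟩)
  exact hsq.isRadical k q (dvd_of_eq hk)

theorem comm_of_sq {G : Type*} [Group G] {Q : Subgroup G} (h : ∀ x ∈ Q, x ^ 2 = 1) :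
    IsMulCommutative Q := ⟨⟨fun a b => Subtype.ext (by
  have e : ∀ x ∈ Q, x⁻¹ = x := fun x hx => inv_eq_of_mul_eq_one_right (by rw [← sq, h x hx])
  change (a : G) * b = b * a
  rw [← e _ (mul_mem a.2 b.2), mul_inv_rev, e _ a.2, e _ b.2])⟩⟩

/-- A finite group in which every element has order dividing `6` has `2`-length at most `1` and `3`-length at most `1`. -/
theorem result {G : Type*} [Group G] [Finite G] (h : ∀ x : G, x ^ 6 = 1) : Cfsg.PLengthLE 2 1 G ∧ Cfsg.PLengthLE 3 1 G := by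
  haveI : Fact (Nat.Prime 2) := ⟨Nat.prime_two⟩
  haveI : Fact (Nat.Prime 3) := ⟨Nat.prime_three⟩
  haveI : Group.IsSolvable G := by
    refine H5.isSolvable_of_card_dvd_prime_pow_mul Nat.prime_two Nat.prime_three
      (a := Nat.card G) (b := Nat.card G) ?_
    rw [← mul_pow]
    refine (Nat.dvd_pow_self_iff Nat.card_pos.ne' (by norm_num)).2 fun r hr => ?_
    haveI := Fact.mk (Nat.prime_of_mem_primeFactors hr)
    obtain ⟨x, hx⟩ := exists_prime_orderOf_dvd_card' r (Nat.dvd_of_mem_primeFactors hr)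
    exact Nat.mem_primeFactors.2 ⟨Fact.out, hx ▸ orderOf_dvd_of_pow_eq_one (h x), by norm_num⟩
  have hab : ∀ (q : ℕ) [Fact q.Prime], q ≠ 3 → ∀ Q : Sylow q G, IsMulCommutative (Q : Subgroup G) := by
    intro q hq h3 Q
    refine comm_of_sq fun x hx => ?_
    have h1 := pow_gcd h Q x hx
    have h2 : Nat.gcd 6 q ∣ 2 := by
      refine Nat.Coprime.dvd_of_dvd_mul_right (n := 3) ?_ (Nat.gcd_dvd_left 6 q)
      exact Nat.Coprime.coprime_dvd_left (Nat.gcd_dvd_right 6 q)
        ((Nat.coprime_primes hq.out Nat.prime_three).2 h3)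
    exact orderOf_dvd_iff_pow_eq_one.1 ((orderOf_dvd_of_pow_eq_one h1).trans h2)
  refine ⟨?_, S3783.result H22.isPSolvable_of_isSolvable hab 1 fun P x hx => pow_gcd h P x hx⟩
  obtain ⟨S⟩ : Nonempty (Sylow 2 G) := inferInstance
  refine H22.PLengthLE.mono (S0635.result H22.isPSolvable_of_isSolvable S) ?_
  haveI := hab 2 (by decide) S
  open scoped IsMulCommutative in exact CommGroup.nilpotencyClass_le_one

end Cfsg.Agent.S4227
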