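import Cfsg.Statements.S4276
import Cfsg.Agent.S4275

set_option autoImplicit false
set_option linter.style.haveILetI false
open Cfsg

namespace Cfsg.Agent.S4276

open MulAction Matrix

theorem arith (n k a b c d : ℤ) (r : ℕ) (hn : 2 ≤ n) (hk : 1 ≤ k) (hcop : IsCoprime k n)
    (h1 : a ^ 2 = c ^ (2 * r + 1)) (h2 : k ^ (2 * r + 1) = a + b * n) (h3 : k ^ 2 = c + d * n)
    (h4 : c ≤ k) (h5 : c ≤ n - k) : k = 1 ∨ k = n - 1 := by
  have hcn : IsCoprime c n := by
    have : IsCoprime (k ^ 2) n := hcop.pow_left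
    rw [h3] at this
    exact IsCoprime.of_add_mul_right_left this
  have hc0 : c ≠ 0 := by
    rintro rfl
    rw [isCoprime_zero_left, Int.isUnit_iff] at hcn
    omega
  have h6 : c ^ r ∣ a := by
    rw [← Int.pow_dvd_pow_iff (two_ne_zero), h1]
    exact ⟨c, by ring⟩
  obtain ⟨t, rfl⟩ := h6
  have ht : t ^ 2 = c := by
    have : (c ^ r) ^ 2 * t ^ 2 = (c ^ r) ^ 2 * c := by linear_combination h1
    exact mul_left_cancel₀ (pow_ne_zero _ (pow_ne_zero _ hc0)) this
  have h7 : n ∣ c ^ r * (k - t) := by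
    have e1 : n ∣ (k ^ 2) ^ r - c ^ r := (Dvd.intro_left d (by linarith)).trans (sub_dvd_pow_sub_pow _ _ r)
    have e2 : c ^ r * (k - t) = b * n - k * ((k ^ 2) ^ r - c ^ r) := by
      linear_combination h2
    rw [e2]
    exact dvd_sub (Dvd.intro_left _ rfl) (Dvd.dvd.mul_left e1 _)
  obtain ⟨u, hu⟩ := (hcn.symm.pow_right).dvd_of_dvd_mul_left h7
  have h8 : t ≤ t ^ 2 := by nlinarith [sq_nonneg (2 * t - 1), Int.emod_emod_of_dvd, sq_nonneg t, Int.le_self_sq t]
  have h9 : -t ≤ t ^ 2 := by nlinarith [Int.le_self_sq (-t)]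
  have hu0 : 0 ≤ u := by nlinarith
  have hu1 : u ≤ 1 := by nlinarith
  have : u = 0 ∨ u = 1 := by omega
  rcases this with rfl | rfl
  · left
    have : t = k := by linarith
    subst this
    nlinarith
  · right
    have : t = k - n := by linarith
    subst this
    have h10 : n - k ≠ 0 := by
      intro h
      apply hc0
      rw [← ht]
      have : k - n = 0 := by linarith
      rw [this]; ring
    have h11 : 0 ≤ n - k := by nlinarith [sq_nonneg (k - n)]
    have h12 : 1 ≤ n - k := by omega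
    nlinarith

variable {Ω : Type*} [Fintype Ω] {G : Subgroup (Equiv.Perm Ω)}

/-- invariance of a matrix under the twisted action -/
def TwInv (β : MulAut G) (M : Matrix Ω Ω ℤ) : Prop := ∀ (g : G) x y, M (β g • x) (g • y) = M x y

theorem TwInv.mul {β γ : MulAut G} {M N : Matrix Ω Ω ℤ} (hM : TwInv β M) (hN : TwInv γ N) :
    TwInv (β * γ) (M * N) := by
  intro g x y
  rw [Matrix.mul_apply, Matrix.mul_apply, ← Equiv.sum_comp (MulAction.toPerm (γ g))]
  refine Finset.sum_congr rfl fun z _ => ?_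
  rw [MulAction.toPerm_apply, MulAut.mul_apply, hM, hN]

theorem TwInv.transpose {β : MulAut G} {M : Matrix Ω Ω ℤ} (hM : TwInv β M) : TwInv β⁻¹ Mᵀ := by
  intro g x y
  rw [Matrix.transpose_apply, Matrix.transpose_apply, ← hM (β⁻¹ g) y x]
  simp

theorem TwInv.pow [DecidableEq Ω] {β : MulAut G} {M : Matrix Ω Ω ℤ} (hM : TwInv β M) (i : ℕ) :
    TwInv (β ^ i) (M ^ i) := by
  induction i with
  | zero =>
    intro g x y
    simp [Matrix.one_apply]
  | succ i ih => rw [pow_succ, pow_succ]; exact ih.mul hM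

theorem TwInv.exists_eq [DecidableEq Ω] [Nontrivial Ω] (h2 : IsMultiplyPretransitive G Ω 2)
    {M : Matrix Ω Ω ℤ} (hM : TwInv (1 : MulAut G) M) :
    ∃ a b : ℤ, M = a • (1 : Matrix Ω Ω ℤ) + b • (Matrix.of fun _ _ => (1 : ℤ)) := by
  obtain ⟨x0, y0, h0⟩ := exists_pair_ne Ω
  haveI := isPretransitive_of_is_two_pretransitive (h2 := h2)
  refine ⟨M x0 x0 - M x0 y0, M x0 y0, ?_⟩
  ext x y
  by_cases hxy : x = y
  · subst hxy
    obtain ⟨g, rfl⟩ := exists_smul_eq G x0 x
    have := hM g x0 x0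
    simp only [MulAut.one_apply] at this
    simp only [Matrix.add_apply, Matrix.smul_apply, Matrix.one_apply_eq, Matrix.of_apply, smul_eq_mul, this]
    ring
  · obtain ⟨g, rfl, rfl⟩ := is_two_pretransitive_iff.1 h2 h0 hxy
    have := hM g x0 y0
    simp only [MulAut.one_apply] at this
    simp only [Matrix.add_apply, Matrix.smul_apply, Matrix.one_apply_eq, Matrix.of_apply, smul_eq_mul, Matrix.one_apply_ne hxy, this]
    ring

theorem coeff_eq [DecidableEq Ω] [Nontrivial Ω] {a b a' b' : ℤ}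
    (h : a • (1 : Matrix Ω Ω ℤ) + b • (Matrix.of fun _ _ => (1 : ℤ)) =
      a' • (1 : Matrix Ω Ω ℤ) + b' • (Matrix.of fun _ _ => (1 : ℤ))) : a = a' := by
  obtain ⟨x0, y0, h0⟩ := exists_pair_ne Ω
  have h1 := congrFun (congrFun h x0) x0
  have h2 := congrFun (congrFun h x0) y0
  simp only [Matrix.add_apply, Matrix.smul_apply, Matrix.one_apply_eq, Matrix.of_apply, smul_eq_mul, Matrix.one_apply_ne h0] at h1 h2
  linarith

theorem card_cases [Nontrivial Ω] (h2 : IsMultiplyPretransitive G Ω 2) (α : MulAut G)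
    (hα : Odd (orderOf α)) (A : Matrix Ω Ω ℤ) (hA : TwInv α A) (h01 : ∀ x y, A x y = 0 ∨ A x y = 1)
    (k : ℕ) (hcol : ∀ y, ∑ x, A x y = k) (hk1 : 1 ≤ k) (hk : k.Coprime (Fintype.card Ω)) :
    k = 1 ∨ k = Fintype.card Ω - 1 := by
  classical
  haveI := isPretransitive_of_is_two_pretransitive (h2 := h2)
  set n := Fintype.card Ω with hn
  have hn2 : 2 ≤ n := Fintype.one_lt_card
  obtain ⟨x0, y0, h0⟩ := exists_pair_ne Ω
  have hrow : ∀ x, ∑ y, A x y = k := by
    have h1 : ∀ x, ∑ y, A x y = ∑ y, A x0 y := by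
      intro x
      obtain ⟨g, rfl⟩ := exists_smul_eq G x0 x
      obtain ⟨g, rfl⟩ := α.surjective g
      rw [← Equiv.sum_comp (MulAction.toPerm g)]
      exact Finset.sum_congr rfl fun y _ => hA g x0 y
    have h3 : ∑ x, ∑ y, A x y = ∑ y, ∑ x, A x y := Finset.sum_comm
    simp only [h1, hcol, Finset.sum_const, Finset.card_univ, nsmul_eq_mul] at h3
    intro x
    rw [h1]
    exact mul_left_cancel₀ (by exact_mod_cast (by omega : n ≠ 0)) h3
  set J : Matrix Ω Ω ℤ := Matrix.of fun _ _ => (1 : ℤ) with hJ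
  have hAJ : A * J = (k : ℤ) • J := by ext x y; simp [Matrix.mul_apply, hJ, hrow]
  have hJA : J * Aᵀ = (k : ℤ) • J := by ext x y; simp [Matrix.mul_apply, hJ, hrow]
  have hAJ' : Aᵀ * J = (k : ℤ) • J := by ext x y; simp [Matrix.mul_apply, hJ, hcol]
  have hJJ : J * J = (n : ℤ) • J := by ext x y; simp [Matrix.mul_apply, hJ, hn]
  have hJT : Jᵀ = J := by ext x y; simp [hJ]
  obtain ⟨r, hr⟩ := hα
  obtain ⟨a, b, hab⟩ := TwInv.exists_eq h2 (M := A ^ (2 * r + 1)) (by
    have := hA.pow (2 * r + 1)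
    rwa [← hr, pow_orderOf_eq_one, hr] at this)
  obtain ⟨c, d, hcd⟩ := TwInv.exists_eq h2 (M := A * Aᵀ) (by
    have := hA.mul hA.transpose
    rwa [mul_inv_cancel] at this)
  rw [← hJ] at hab hcd
  have h1 : ∀ i : ℕ, ∃ e : ℤ, A ^ i * (A ^ i)ᵀ = c ^ i • (1 : Matrix Ω Ω ℤ) + e • J := by
    intro i
    induction i with
    | zero => exact ⟨0, by simp⟩
    | succ i ih =>
      obtain ⟨e, he⟩ := ih
      refine ⟨c ^ i * d + e * k * k, ?_⟩
      calc A ^ (i + 1) * (A ^ (i + 1))ᵀ = A * (A ^ i * (A ^ i)ᵀ) * Aᵀ := by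
            rw [pow_succ', Matrix.transpose_mul]; simp only [Matrix.mul_assoc]
        _ = c ^ i • (A * Aᵀ) + e • (A * J * Aᵀ) := by
            rw [he]
            simp only [Matrix.mul_add, Matrix.add_mul, Matrix.mul_smul, Matrix.smul_mul,
              Matrix.mul_one]
        _ = _ := by
            rw [hAJ, Matrix.smul_mul, hJA, hcd]
            module
  have h3 : ∀ i : ℕ, A ^ i * J = (k : ℤ) ^ i • J := by
    intro i
    induction i with
    | zero => simp
    | succ i ih => rw [pow_succ', Matrix.mul_assoc, ih, Matrix.mul_smul, hAJ, smul_smul, pow_succ]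
  have e1 : a ^ 2 = c ^ (2 * r + 1) := by
    obtain ⟨e, he⟩ := h1 (2 * r + 1)
    apply coeff_eq (Ω := Ω) (b := 2 * a * b + b * b * n) (b' := e)
    rw [← hJ, ← he, hab, Matrix.transpose_add, Matrix.transpose_smul, Matrix.transpose_smul, hJT,
      Matrix.transpose_one]
    simp only [Matrix.mul_add, Matrix.add_mul, Matrix.smul_mul, Matrix.mul_smul, Matrix.one_mul,
      Matrix.mul_one, hJJ]
    module
  have e2 : (k : ℤ) ^ (2 * r + 1) = a + b * n := by
    have := h3 (2 * r + 1)
    rw [hab, Matrix.add_mul, Matrix.smul_mul, Matrix.smul_mul, Matrix.one_mul, hJJ] at this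
    have := congrFun (congrFun this x0) x0
    simp [hJ] at this
    linarith
  have e3 : (k : ℤ) ^ 2 = c + d * n := by
    have : A * Aᵀ * J = (k : ℤ) • (k : ℤ) • J := by
      rw [Matrix.mul_assoc, hAJ', Matrix.mul_smul, hAJ]
    rw [hcd, Matrix.add_mul, Matrix.smul_mul, Matrix.smul_mul, Matrix.one_mul, hJJ] at this
    have := congrFun (congrFun this x0) x0
    simp [hJ] at this
    linarith
  have e4 : c = ∑ y, A x0 y * (A x0 y - A y0 y) := by
    have f1 := congrFun (congrFun hcd x0) x0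
    have f2 := congrFun (congrFun hcd x0) y0
    simp only [hJ, Matrix.add_apply, Matrix.smul_apply, Matrix.one_apply_eq, Matrix.of_apply, smul_eq_mul, Matrix.one_apply_ne h0, Matrix.mul_apply, Matrix.transpose_apply] at f1 f2
    simp only [mul_sub, Finset.sum_sub_distrib]
    linarith
  have e5 : c ≤ k := by
    rw [e4, ← hrow x0]
    refine Finset.sum_le_sum fun y _ => ?_
    rcases h01 x0 y with h | h <;> rcases h01 y0 y with h' | h' <;> simp [h, h']
  have e6 : c ≤ n - k := by
    have : (n : ℤ) - k = ∑ y, (1 - A y0 y) := by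
      rw [Finset.sum_sub_distrib, hrow]; simp [hn]
    rw [e4, this]
    refine Finset.sum_le_sum fun y _ => ?_
    rcases h01 x0 y with h | h <;> rcases h01 y0 y with h' | h' <;> simp [h, h']
  have := arith n k a b c d r (by exact_mod_cast hn2) (by exact_mod_cast hk1)
    (Nat.isCoprime_iff_coprime.2 hk) e1 e2 e3 e5 e6
  omega


/-- Let G be a doubly transitive group of permutations of a finite set Ω of size n, let o ∈ Ω, and let α be an automorphism of G of odd order. Suppose that the image under α of the stabilizer of o has an orbit on Ω whose length k is coprime to n. Then α is induced by conjugation by a permutation of Ω normalizing G, and k = 1 or k = n − 1. -/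
theorem result {Ω : Type*} [Fintype Ω] (G : Subgroup (Equiv.Perm Ω)) (h2 : MulAction.IsMultiplyPretransitive G Ω 2) (o : Ω) (α : MulAut G) (hα : Odd (orderOf α)) (ω : Ω) (hk : (Nat.card (MulAction.orbit ((MulAction.stabilizer G o).map α.toMonoidHom) ω)).Coprime (Fintype.card Ω)) : (∃ σ : Equiv.Perm Ω, σ ∈ Subgroup.normalizer (G : Set (Equiv.Perm Ω)) ∧ ∀ g : G, ((α g : G) : Equiv.Perm Ω) = σ * (g : Equiv.Perm Ω) * σ⁻¹) ∧ (Nat.card (MulAction.orbit ((MulAction.stabilizer G o).map α.toMonoidHom) ω) = 1 ∨ Nat.card (MulAction.orbit ((MulAction.stabilizer G o).map α.toMonoidHom) ω) = Fintype.card Ω - 1) := by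
  classical
  haveI htr := isPretransitive_of_is_two_pretransitive (h2 := h2)
  set K := (MulAction.stabilizer G o).map α.toMonoidHom with hK
  set D := orbit K ω with hD
  have hk1 : 1 ≤ Nat.card D := Nat.card_pos_iff.2 ⟨⟨⟨ω, mem_orbit_self ω⟩⟩, inferInstance⟩
  have hDinv : ∀ g ∈ K, ∀ x, g • x ∈ D ↔ x ∈ D := by
    intro g hg x
    constructor
    · intro h
      have := mem_orbit_of_mem_orbit (⟨g, hg⟩ : K)⁻¹ h
      simpa [Subgroup.smul_def] using this
    · intro h
      exact mem_orbit_of_mem_orbit (⟨g, hg⟩ : K) h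
  have hcases : Nat.card D = 1 ∨ Nat.card D = Fintype.card Ω - 1 := by
    rcases subsingleton_or_nontrivial Ω with hΩ | hΩ
    · left
      have : Nat.card D ≤ 1 := Finite.card_le_one_iff_subsingleton.2 inferInstance
      omega
    choose t ht using fun x => htr.exists_smul_eq o x
    let A : Matrix Ω Ω ℤ := fun x y => if (α (t y))⁻¹ • x ∈ D then 1 else 0
    refine card_cases h2 α hα A ?_ ?_ _ ?_ hk1 hk
    · intro g x y
      have h1 : (t y)⁻¹ * g⁻¹ * t (g • y) ∈ stabilizer G o := by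
        rw [mem_stabilizer_iff, mul_smul, mul_smul, ht, inv_smul_smul, inv_smul_eq_iff, ht]
      have h3 := hDinv _ ⟨_, h1, rfl⟩ ((α (t (g • y)))⁻¹ • α g • x)
      simp only [MulEquiv.coe_toMonoidHom, map_mul, map_inv, mul_smul, smul_inv_smul,
        inv_smul_smul] at h3
      simp only [A, h3]
    · intro x y
      simp only [A]
      split_ifs <;> simp
    · intro y
      simp only [A]
      rw [← Equiv.sum_comp (MulAction.toPerm (α (t y)))]
      simp only [MulAction.toPerm_apply, inv_smul_smul, Finset.sum_boole]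
      rw [Nat.card_eq_fintype_card, Fintype.card_subtype]
  refine ⟨(S4275.result G htr o α).2 ?_, hcases⟩
  by_cases h1 : Nat.card D = 1
  · refine ⟨ω, fun g hg => ?_⟩
    have := (Nat.card_eq_one_iff_unique.1 h1).1
    exact congrArg Subtype.val (Subsingleton.elim
      (⟨g • ω, (hDinv g hg ω).2 (mem_orbit_self ω)⟩ : D) ⟨ω, mem_orbit_self ω⟩)
  · have h3 := hcases.resolve_left h1
    have h4 : Dᶜ.ncard = 1 := by
      have := Set.ncard_add_ncard_compl D
      rw [← Nat.card_coe_set_eq, Nat.card_eq_fintype_card (α := Ω)] at this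
      omega
    obtain ⟨x, hx⟩ := Set.ncard_eq_one.1 h4
    refine ⟨x, fun g hg => ?_⟩
    have h5 : x ∈ Dᶜ := hx ▸ rfl
    have h6 : g • x ∈ Dᶜ := fun h => h5 ((hDinv g hg x).1 h)
    rwa [hx] at h6

end Cfsg.Agent.S4276
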