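import Cfsg.Statements.S4277
import Cfsg.Agent.S4290
import Cfsg.Agent.S0675

set_option autoImplicit false
set_option linter.style.haveILetI false
open Cfsg

namespace Cfsg.Agent.S4277

open MulAction Pointwise

theorem solvable_of_odd {X : Type*} [Group X] [Finite X] (R : Subgroup X) [Group.IsSolvable R]
    (h : ∀ x : X, ∃ k : ℕ, ∀ y : X, y * x ^ (2 ^ k) * y⁻¹ ∈ R) : Group.IsSolvable X := by
  haveI : Fact (Nat.Prime 2) := ⟨Nat.prime_two⟩
  have h1 : IsPGroup 2 (X ⧸ R.normalCore) := by
    intro x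
    obtain ⟨x, rfl⟩ := QuotientGroup.mk_surjective x
    obtain ⟨k, hk⟩ := h x
    refine ⟨k, ?_⟩
    rw [← QuotientGroup.mk_pow, QuotientGroup.eq_one_iff]
    exact hk
  haveI := h1.isNilpotent
  haveI : Group.IsSolvable R.normalCore :=
    Group.isSolvable_of_isSolvable_injective (Subgroup.inclusion_injective R.normalCore_le)
  exact Group.isSolvable_of_ker_le_range R.normalCore.subtype (QuotientGroup.mk' R.normalCore) (by simp)

theorem exists_odd_pow {X : Type*} [Group X] [Finite X] (x : X) :
    ∃ k : ℕ, Odd (orderOf (x ^ (2 ^ k))) := by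
  obtain ⟨k, m, hm, hkm⟩ := Nat.exists_eq_two_pow_mul_odd (orderOf_pos x).ne'
  refine ⟨k, hm.of_dvd_nat (orderOf_dvd_of_pow_eq_one ?_)⟩
  rw [← pow_mul, ← hkm, pow_orderOf_eq_one]

theorem solvable_mulAut_cyclic {P : Type*} [Group P] [IsCyclic P] : Group.IsSolvable (MulAut P) :=
  Group.isSolvable_of_isSolvable_injective (f := (IsCyclic.mulAutMulEquiv P).toMonoidHom)
    (IsCyclic.mulAutMulEquiv P).injective

theorem solvable_normalizer {Ω : Type*} (P : Subgroup (Equiv.Perm Ω)) [IsCyclic P]
    [IsPretransitive P Ω] : Group.IsSolvable (Subgroup.normalizer (P : Set (Equiv.Perm Ω))) := by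
  haveI := solvable_mulAut_cyclic (P := P)
  letI := IsCyclic.commGroup (α := P)
  haveI : Group.IsSolvable P := inferInstance
  refine Group.isSolvable_of_ker_le_range (Subgroup.inclusion P.le_normalizer)
    P.normalizerMonoidHom ?_
  rw [Subgroup.normalizerMonoidHom_ker]
  intro c hc
  rw [Subgroup.mem_subgroupOf, Subgroup.mem_centralizer_iff] at hc
  rcases isEmpty_or_nonempty Ω with hΩ | ⟨⟨o⟩⟩
  · exact ⟨1, Subsingleton.elim _ _⟩
  obtain ⟨x, hx⟩ := exists_smul_eq P o ((c : Equiv.Perm Ω) o)
  refine ⟨x, Subtype.ext (Equiv.ext fun y => ?_)⟩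
  obtain ⟨z, rfl⟩ := exists_smul_eq P o y
  have h1 := congrArg (fun σ : Equiv.Perm Ω => σ o) (hc z z.2)
  have h2 := congrArg (fun σ : P => (σ : Equiv.Perm Ω) o) (mul_comm x z)
  simp only [Subgroup.smul_def, Equiv.Perm.smul_def, Equiv.Perm.coe_mul, Function.comp_apply,
    Subgroup.coe_mul, Subgroup.coe_inclusion] at h1 h2 hx ⊢
  rw [h2, hx, h1]

theorem solvable_out_perm {Ω : Type*} [Fintype Ω] (hp : (Fintype.card Ω).Prime)
    (G : Subgroup (Equiv.Perm Ω)) (h2 : IsMultiplyPretransitive G Ω 2) :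
    Group.IsSolvable (Out G) := by
  classical
  set p := Fintype.card Ω with hpdef
  haveI : Fact p.Prime := ⟨hp⟩
  haveI htr := isPretransitive_of_is_two_pretransitive (h2 := h2)
  haveI : Nonempty Ω := Fintype.card_pos_iff.1 hp.pos
  obtain ⟨o⟩ := ‹Nonempty Ω›
  have hidx : (stabilizer G o).index = p := by
    rw [index_stabilizer_of_transitive, Nat.card_eq_fintype_card]
  have hcard : Nat.card G ∣ p.factorial := by
    have := G.card_subgroup_dvd_card
    rwa [Nat.card_perm, Nat.card_eq_fintype_card (α := Ω)] at this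
  have hnd : ¬ p ∣ Nat.card (stabilizer G o) := by
    intro h
    have h1 : p * p ∣ p.factorial := by
      refine dvd_trans ?_ hcard
      rw [← (stabilizer G o).card_mul_index, hidx]
      exact Nat.mul_dvd_mul_right h p
    rw [← Nat.mul_factorial_pred hp.ne_zero] at h1
    have h3 := (hp.dvd_factorial).1 (Nat.dvd_of_mul_dvd_mul_left hp.pos h1)
    have := hp.pos
    omega
  have hHall : (Nat.card (stabilizer G o)).Coprime (stabilizer G o).index := by
    rw [hidx]
    exact ((Nat.Prime.coprime_iff_not_dvd hp).2 hnd).symm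
  obtain ⟨P⟩ : Nonempty (Sylow p G) := inferInstance
  have hP : Nat.card P = p := by
    rw [P.card_eq_multiplicity, ← (stabilizer G o).card_mul_index, hidx,
      Nat.factorization_mul Nat.card_pos.ne' hp.ne_zero, Finsupp.add_apply,
      Nat.factorization_eq_zero_of_not_dvd hnd, hp.factorization_self]
    simp
  set P₀ : Subgroup (Equiv.Perm Ω) := (P : Subgroup G).map G.subtype with hP₀
  have hP₀c : Nat.card P₀ = p := by rw [hP₀, Subgroup.card_map_of_injective G.subtype_injective, hP]
  haveI : IsCyclic P₀ := isCyclic_of_prime_card hP₀c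
  haveI : IsPretransitive P₀ Ω := by
    have h3 : stabilizer P₀ o = ⊥ := by
      rw [eq_bot_iff]
      rintro ⟨_, x, hx, rfl⟩ hxo
      have h4 : x ∈ (P : Subgroup G) ⊓ stabilizer G o := Subgroup.mem_inf.2 ⟨hx, hxo⟩
      have h5 : Disjoint (P : Subgroup G) (stabilizer G o) :=
        Subgroup.disjoint_of_coprime_natCard (by
          rw [hP]; exact (Nat.Prime.coprime_iff_not_dvd hp).2 hnd)
      rw [h5.eq_bot, Subgroup.mem_bot] at h4
      subst h4
      exact Subgroup.one_mem _
    have h4 := index_stabilizer P₀ o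
    rw [h3, Subgroup.index_bot, hP₀c] at h4
    rw [isPretransitive_iff_orbit_eq_univ o]
    apply Set.eq_of_subset_of_ncard_le (Set.subset_univ _)
    rw [← h4, Set.ncard_univ, Nat.card_eq_fintype_card]
  haveI hM := solvable_normalizer P₀
  let M : Subgroup (Equiv.Perm Ω) :=
    Subgroup.normalizer (P₀ : Set (Equiv.Perm Ω)) ⊓ Subgroup.normalizer (G : Set (Equiv.Perm Ω))
  haveI : Group.IsSolvable M :=
    Group.isSolvable_of_isSolvable_injective (Subgroup.inclusion_injective inf_le_left)
  let f : M →* Out G := (QuotientGroup.mk' (Inn G)).comp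
    (G.normalizerMonoidHom.comp (Subgroup.inclusion inf_le_right))
  haveI : Group.IsSolvable f.range :=
    Group.isSolvable_of_surjective f.rangeRestrict_surjective
  have key : ∀ α : MulAut G, Odd (orderOf α) → (QuotientGroup.mk α : Out G) ∈ f.range := by
    intro α hα
    obtain ⟨σ, hσ, hασ⟩ := S4290.result G h2 o hHall α hα
    obtain ⟨g, hg⟩ := exists_smul_eq G (α • P) P
    have hmem : ∀ x : G, x ∈ P ↔ g * α x * g⁻¹ ∈ P := by
      intro x
      conv_rhs => rw [← hg]
      rw [← SetLike.mem_coe, ← SetLike.mem_coe, ← Sylow.coe_coe, ← Sylow.coe_coe,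
        Sylow.coe_subgroup_smul, Sylow.pointwise_smul_def, SetLike.mem_coe, SetLike.mem_coe,
        Subgroup.mem_pointwise_smul_iff_inv_smul_mem,
        Subgroup.mem_pointwise_smul_iff_inv_smul_mem]
      simp [mul_assoc]
    have h3 : (g : Equiv.Perm Ω) * σ ∈ Subgroup.normalizer (G : Set (Equiv.Perm Ω)) :=
      mul_mem (G.le_normalizer g.2) hσ
    have h4 : (g : Equiv.Perm Ω) * σ ∈ Subgroup.normalizer (P₀ : Set (Equiv.Perm Ω)) := by
      apply Subgroup.mem_normalizer_fintype
      rintro _ ⟨x, hx, rfl⟩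
      refine ⟨_, (hmem x).1 hx, ?_⟩
      simp [hασ, mul_assoc]
    refine ⟨⟨_, Subgroup.mem_inf.2 ⟨h4, h3⟩⟩, ?_⟩
    symm
    simp only [f, MonoidHom.comp_apply, QuotientGroup.mk'_apply]
    rw [QuotientGroup.eq]
    refine ⟨α⁻¹ g, ?_⟩
    ext1 x
    apply α.injective
    apply Subtype.ext
    simp [hασ, mul_assoc]
  refine solvable_of_odd f.range fun x => ?_
  obtain ⟨α, rfl⟩ := QuotientGroup.mk_surjective x
  obtain ⟨k, hk⟩ := exists_odd_pow α
  refine ⟨k, fun y => ?_⟩
  obtain ⟨β, rfl⟩ := QuotientGroup.mk_surjective y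
  have := key (β * α ^ 2 ^ k * β⁻¹) (by
    have := (MulAut.conj β).orderOf_eq (α ^ 2 ^ k)
    rw [MulAut.conj_apply] at this
    rwa [this])
  simpa using this

theorem solvable_out_congr {G G' : Type*} [Group G] [Group G'] (e : G' ≃* G)
    [Group.IsSolvable (Out G')] : Group.IsSolvable (Out G) := by
  let f : Out G' →* Out G := QuotientGroup.map (Inn G') (Inn G) (MulAut.congr e).toMonoidHom (by
    rintro _ ⟨g, rfl⟩
    refine ⟨e g, ?_⟩
    ext x
    simp)
  refine Group.isSolvable_of_surjective (f := f) fun x => ?_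
  obtain ⟨α, rfl⟩ := QuotientGroup.mk_surjective x
  obtain ⟨β, rfl⟩ := (MulAut.congr e).surjective α
  exact ⟨QuotientGroup.mk β, rfl⟩


/-- A case of the Schreier conjecture: if a finite simple group G has a subgroup of prime index, then the outer automorphism group of G is solvable. -/
theorem result {G : Type*} [Group G] [Finite G] [IsSimpleGroup G] (H : Subgroup G) (hH : H.index.Prime) : Group.IsSolvable (Cfsg.Out G) := by
  classical
  by_cases hs : Group.IsSolvable G
  · have hc := IsSimpleGroup.comm_iff_isSolvable.2 hs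
    letI : CommGroup G := { mul_comm := hc }
    haveI := solvable_mulAut_cyclic (P := G)
    infer_instance
  haveI : Fintype (G ⧸ H) := Fintype.ofFinite _
  have hp : (Fintype.card (G ⧸ H)).Prime := by
    rwa [← Nat.card_eq_fintype_card]
  have hinj : Function.Injective (toPermHom G (G ⧸ H)) := by
    rw [← MonoidHom.ker_eq_bot_iff, ← H.normalCore_eq_ker]
    rcases H.normalCore_normal.eq_bot_or_eq_top with h | h
    · exact h
    · have : H = ⊤ := top_le_iff.1 (h ▸ H.normalCore_le)
      rw [this, Subgroup.index_top] at hH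
      exact absurd hH Nat.not_prime_one
  let e := MonoidHom.ofInjective hinj
  haveI : IsPretransitive (toPermHom G (G ⧸ H)).range (G ⧸ H) := ⟨fun x y => by
    obtain ⟨g, hg⟩ := exists_smul_eq G x y
    exact ⟨⟨_, g, rfl⟩, hg⟩⟩
  rcases S0675.result hp (toPermHom G (G ⧸ H)).range with h | h
  · exact absurd (Group.isSolvable_of_isSolvable_injective (f := e.toMonoidHom) e.injective) hs
  · haveI := solvable_out_perm hp _ h
    exact solvable_out_congr e.symm

end Cfsg.Agent.S4277
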