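import Cfsg.Statements.S4280
import Cfsg.Agent.H37.PosTab

set_option autoImplicit false
open Cfsg

namespace Cfsg.Agent.S4280

theorem h0 : H37.fundOK Cfsg.Lie.chevF4 47 [2, 4, 3, 2]
    [[2, 3, 4, 2], [3, 6, 8, 4], [2, 4, 6, 3], [1, 2, 3, 2]] = true := by decide +kernel

/-- a chain of orbits -/
def c0 : List (List ℤ × List (List ℤ) × List ℕ) :=
   [([2, 3, 4, 2], [[0, 1, 2, 2], [0, 1, 2, 0], [0, 1, 0, 0], [0, -1, 0, 0], [0, -1, -2, 0], [0, -1, -2, -2], [-2, -3, -4, -2]], [0, 1, 2, 3, 4, 5, 6, 7]),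
    ([-1, -1, -1, 0], [[-1, -1, -1, -1], [-1, -1, -2, -1], [-1, -2, -2, -1], [-1, -2, -3, -1], [-1, -2, -3, -2]], [0, 1, 2, 3, 4, 5]),
    ([-2, -1, 0, 0], [[-2, -1, -2, 0], [-2, -3, -2, 0], [-2, -3, -4, 0]], [0, 1, 2, 3]),
    ([-1, 0, 0, 0], [[-1, -1, 0, 0]], [0, 1])]

theorem n0 : (H37.Cov.intTab Cfsg.Lie.chevF4 2 [2, 3, 4, 2]).length = 16 := by
  rw [H37.Cov.intTab, H37.posTab_F4]; decide +kernel

theorem k0 : H37.chainR Cfsg.Lie.chevF4.rank c0 (H37.Cov.intTab Cfsg.Lie.chevF4 2 [2, 3, 4, 2]) = true := by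
  rw [H37.Cov.intTab, H37.posTab_F4]; decide +kernel

/-- a chain of orbits -/
def c1 : List (List ℤ × List (List ℤ) × List ℕ) :=
   [([1, 2, 3, 2], [[-1, -2, -3, -2]], [0, 1]),
    ([1, 1, 1, 0], [[0, 1, 1, 0], [0, 0, 1, 0], [0, 0, -1, 0], [0, -1, -1, 0], [-1, -1, -1, 0]], [0, 1, 2, 3, 4, 5]),
    ([-2, -1, 0, 0], [[-2, -1, -2, 0], [-2, -3, -2, 0], [-2, -3, -4, 0]], [0, 1, 2, 3]),
    ([-1, 0, 0, 0], [[-1, -1, 0, 0]], [0, 1])]

theorem n1 : (H37.Cov.intTab Cfsg.Lie.chevF4 2 [1, 2, 3, 2]).length = 10 := by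
  rw [H37.Cov.intTab, H37.posTab_F4]; decide +kernel

theorem k1 : H37.chainR Cfsg.Lie.chevF4.rank c1 (H37.Cov.intTab Cfsg.Lie.chevF4 2 [1, 2, 3, 2]) = true := by
  rw [H37.Cov.intTab, H37.posTab_F4]; decide +kernel

theorem p0 {q : ℕ} (hq : 1 < q) : q ^ 16 * (q - 1) ^ 4 * (c0.map fun s => (s.2.2.map (q ^ ·)).sum).prod =
    q ^ 16 * (q ^ 2 - 1) * (q ^ 4 - 1) * (q ^ 6 - 1) * (q ^ 8 - 1) := by
  have h1 : ∀ n, 1 ≤ q ^ n := fun n => Nat.one_le_pow _ _ (by omega)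
  simp only [c0, List.map_cons, List.map_nil, List.sum_cons, List.sum_nil, List.prod_cons, List.prod_nil]
  zify [h1, hq.le]
  ring

theorem p1 {q : ℕ} (hq : 1 < q) : q ^ 10 * (q - 1) ^ 4 * (c1.map fun s => (s.2.2.map (q ^ ·)).sum).prod =
    q ^ 10 * (q ^ 2 - 1) ^ 2 * (q ^ 4 - 1) * (q ^ 6 - 1) := by
  have h1 : ∀ n, 1 ≤ q ^ n := fun n => Nat.one_le_pow _ _ (by omega)
  simp only [c1, List.map_cons, List.map_nil, List.sum_cons, List.sum_nil, List.prod_cons, List.prod_nil]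
  zify [h1, hq.le]
  ring

theorem p2 {q : ℕ} (hq : 1 < q) : q ^ 16 * (q ^ 2 - 1) * (q ^ 4 - 1) * (q ^ 6 - 1) * (q ^ 8 - 1) ≠
    q ^ 10 * (q ^ 2 - 1) ^ 2 * (q ^ 4 - 1) * (q ^ 6 - 1) := fun this => by
  have h1 : ∀ n, 1 ≤ q ^ n := fun n => Nat.one_le_pow _ _ (by omega)
  have _ : Fact (1 < q) := ⟨hq⟩
  simp only [mul_assoc] at this
  rw [show q ^ 16 = q ^ 10 * q ^ 6 by ring, mul_assoc, Nat.mul_right_inj (by positivity)] at this
  have := congrArg (Nat.cast : ℕ → ZMod q) this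
  push_cast [Nat.cast_sub (h1 _)] at this
  simp at this

/-- In the Chevalley group of type F₄ over a finite field of odd order q there are exactly two conjugacy classes of involutions; the centralizer of an involution in one class has order q¹⁶(q² − 1)(q⁴ − 1)(q⁶ − 1)(q⁸ − 1), and in the other class q¹⁰(q² − 1)²(q⁴ − 1)(q⁶ − 1). -/
theorem result {F : Type*} [Field F] [Fintype F] (hF : Odd (Fintype.card F)) : ∃ s t : ↥(Cfsg.Lie.chevF4.group F), orderOf s = 2 ∧ orderOf t = 2 ∧ ¬ IsConj s t ∧ (∀ u : ↥(Cfsg.Lie.chevF4.group F), orderOf u = 2 → IsConj u s ∨ IsConj u t) ∧ Nat.card (Subgroup.centralizer ({s} : Set ↥(Cfsg.Lie.chevF4.group F))) = Fintype.card F ^ 16 * (Fintype.card F ^ 2 - 1) * (Fintype.card F ^ 4 - 1) * (Fintype.card F ^ 6 - 1) * (Fintype.card F ^ 8 - 1) ∧ Nat.card (Subgroup.centralizer ({t} : Set ↥(Cfsg.Lie.chevF4.group F))) = Fintype.card F ^ 10 * (Fintype.card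 F ^ 2 - 1) ^ 2 * (Fintype.card F ^ 4 - 1) * (Fintype.card F ^ 6 - 1) := by
  have hD : H37.IsChev Cfsg.Lie.chevF4 := by simp
  obtain ⟨_⟩ := H37.nonempty_chev hD
  rw [← Nat.card_eq_fintype_card] at hF ⊢
  have hA := H37.Cov.sc_of_centT (H37.adjCov hD F) H39.centT_F4
  have hq : 1 < Nat.card F := Finite.one_lt_card
  have e0 := (hA.card_cent_cert (H37.orderOf_neg_one_units F hF) n0 k0).trans (p0 hq)
  have e1 := (hA.card_cent_cert (H37.orderOf_neg_one_units F hF) n1 k1).trans (p1 hq)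
  have o := fun j hj => H37.orderOf_fund hD F hF (H37.adjCov hD F) (fun h => by
    rw [(H37.fund_spec h0).1 j hj] at h; omega)
  refine ⟨_, _, o ⟨0, by decide⟩ rfl, o ⟨3, by decide⟩ rfl,
    fun hc => p2 hq (e0.symm.trans ((H37.card_cent_of_isConj hc).trans e1)), fun u hu => ?_, e0, e1⟩
  obtain ⟨j, h2, h3⟩ := H37.exists_conj_fund hD F hF H39.centT_F4 h0 hu
  rcases (by clear h3; revert j; decide : j = ⟨0, by decide⟩ ∨ j = ⟨3, by decide⟩) with rfl | rfl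
  exacts [Or.inl h3, Or.inr h3]

end Cfsg.Agent.S4280
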