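import Cfsg.Statements.S4281
import Cfsg.Agent.H37.PosTab

set_option autoImplicit false
open scoped BigOperators
open Cfsg

namespace Cfsg.Agent.S4281

theorem h0 : H37.fundOK Cfsg.Lie.chevE8 239 [2, 3, 4, 6, 5, 4, 3, 2]
    [[4, 5, 7, 10, 8, 6, 4, 2], [5, 8, 10, 15, 12, 9, 6, 3], [7, 10, 14, 20, 16, 12, 8, 4], [10, 15, 20, 30, 24, 18, 12, 6], [8, 12, 16, 24, 20, 15, 10, 5], [6, 9, 12, 18, 15, 12, 8, 4], [4, 6, 8, 12, 10, 8, 6, 3], [2, 3, 4, 6, 5, 4, 3, 2]] = true := by decide +kernel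

/-- a chain of orbits -/
def c0 : List (List ℤ × List (List ℤ) × List ℕ) :=
   [([4, 5, 7, 10, 8, 6, 4, 2], [[0, 1, 1, 2, 2, 2, 2, 2], [0, 1, 1, 2, 2, 2, 2, 0], [0, 1, 1, 2, 2, 2, 0, 0], [0, 1, 1, 2, 2, 0, 0, 0], [0, 1, 1, 2, 0, 0, 0, 0], [0, 1, 1, 0, 0, 0, 0, 0], [0, 1, -1, 0, 0, 0, 0, 0], [0, -1, 1, 0, 0, 0, 0, 0], [0, -1, -1, 0, 0, 0, 0, 0], [0, -1, -1, -2, 0, 0, 0, 0], [0, -1, -1, -2, -2, 0, 0, 0], [0, -1, -1, -2, -2, -2, 0, 0], [0, -1, -1, -2, -2, -2, -2, 0], [0, -1, -1, -2, -2, -2, -2, -2], [-4, -5, -7, -10, -8, -6, -4, -2]], [0, 1, 2, 3, 4, 5, 6, 7, 7, 8, 9, 10, 11, 12, 13, 14]),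
    ([-2, -2, -3, -4, -3, -2, -1, 0], [[-2, -2, -3, -4, -3, -2, -1, -1], [-2, -2, -3, -4, -3, -2, -2, -1], [-2, -2, -3, -4, -3, -3, -2, -1], [-2, -2, -3, -4, -4, -3, -2, -1], [-2, -2, -3, -5, -4, -3, -2, -1], [-2, -2, -4, -5, -4, -3, -2, -1], [-2, -3, -3, -5, -4, -3, -2, -1], [-2, -3, -4, -5, -4, -3, -2, -1], [-2, -3, -4, -6, -4, -3, -2, -1], [-2, -3, -4, -6, -5, -3, -2, -1], [-2, -3, -4, -6, -5, -4, -2, -1], [-2, -3, -4, -6, -5, -4, -3, -1], [-2, -3, -4, -6, -5, -4, -3, -2]], [0, 1, 2, 3, 4, 5, 6, 6, 7, 8, 9, 10, 11, 12]),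
    ([-4, -3, -5, -6, -4, -2, 0, 0], [[-4, -3, -5, -6, -4, -2, -2, 0], [-4, -3, -5, -6, -4, -4, -2, 0], [-4, -3, -5, -6, -6, -4, -2, 0], [-4, -3, -5, -8, -6, -4, -2, 0], [-4, -3, -7, -8, -6, -4, -2, 0], [-4, -5, -5, -8, -6, -4, -2, 0], [-4, -5, -7, -8, -6, -4, -2, 0], [-4, -5, -7, -10, -6, -4, -2, 0], [-4, -5, -7, -10, -8, -4, -2, 0], [-4, -5, -7, -10, -8, -6, -2, 0], [-4, -5, -7, -10, -8, -6, -4, 0]], [0, 1, 2, 3, 4, 5, 5, 6, 7, 8, 9, 10]),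
    ([-2, -1, -2, -2, -1, 0, 0, 0], [[-2, -1, -2, -2, -1, -1, 0, 0], [-2, -1, -2, -2, -2, -1, 0, 0], [-2, -1, -2, -3, -2, -1, 0, 0], [-2, -1, -3, -3, -2, -1, 0, 0], [-2, -2, -2, -3, -2, -1, 0, 0], [-2, -2, -3, -3, -2, -1, 0, 0], [-2, -2, -3, -4, -2, -1, 0, 0], [-2, -2, -3, -4, -3, -1, 0, 0], [-2, -2, -3, -4, -3, -2, 0, 0]], [0, 1, 2, 3, 4, 4, 5, 6, 7, 8]),
    ([-4, -1, -3, -2, 0, 0, 0, 0], [[-4, -1, -3, -2, -2, 0, 0, 0], [-4, -1, -3, -4, -2, 0, 0, 0], [-4, -1, -5, -4, -2, 0, 0, 0], [-4, -3, -3, -4, -2, 0, 0, 0], [-4, -3, -5, -4, -2, 0, 0, 0], [-4, -3, -5, -6, -2, 0, 0, 0], [-4, -3, -5, -6, -4, 0, 0, 0]], [0, 1, 2, 3, 3, 4, 5, 6]),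
    ([-1, 0, 0, 0, 0, 0, 0, 0], [[-1, 0, -1, 0, 0, 0, 0, 0], [-1, 0, -1, -1, 0, 0, 0, 0], [-1, -1, -1, -1, 0, 0, 0, 0]], [0, 1, 2, 3]),
    ([0, 0, -1, 0, 0, 0, 0, 0], [[0, 0, -1, -1, 0, 0, 0, 0], [0, -1, -1, -1, 0, 0, 0, 0]], [0, 1, 2]),
    ([0, 1, 0, 0, 0, 0, 0, 0], [[0, -1, 0, 0, 0, 0, 0, 0]], [0, 1])]

theorem n0 : (H37.Cov.intTab Cfsg.Lie.chevE8 2 [4, 5, 7, 10, 8, 6, 4, 2]).length = 56 := by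
  rw [H37.Cov.intTab, H37.posTab_E8]; decide +kernel

theorem k0 : H37.chainR Cfsg.Lie.chevE8.rank c0 (H37.Cov.intTab Cfsg.Lie.chevE8 2 [4, 5, 7, 10, 8, 6, 4, 2]) = true := by
  rw [H37.Cov.intTab, H37.posTab_E8]; decide +kernel

/-- a chain of orbits -/
def c1 : List (List ℤ × List (List ℤ) × List ℕ) :=
   [([2, 3, 4, 6, 5, 4, 3, 2], [[-2, -3, -4, -6, -5, -4, -3, -2]], [0, 1]),
    ([2, 3, 4, 6, 5, 4, 3, 0], [[2, 3, 4, 6, 5, 4, 1, 0], [2, 3, 4, 6, 5, 2, 1, 0], [2, 3, 4, 6, 3, 2, 1, 0], [2, 3, 4, 4, 3, 2, 1, 0], [2, 3, 2, 4, 3, 2, 1, 0], [2, 1, 4, 4, 3, 2, 1, 0], [2, 1, 2, 4, 3, 2, 1, 0], [0, 3, 2, 4, 3, 2, 1, 0], [2, 1, 2, 2, 3, 2, 1, 0], [0, 1, 2, 4, 3, 2, 1, 0], [2, 1, 2, 2, 1, 2, 1, 0], [0, 1, 2, 2, 3, 2, 1, 0], [2, 1, 2, 2, 1, 0, 1, 0], [0, 1, 2, 2, 1, 2, 1, 0], [0, 1, 0, 2,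 3, 2, 1, 0], [0, 1, 2, 2, 1, 0, 1, 0], [0, 1, 0, 2, 1, 2, 1, 0], [2, 1, 2, 2, 1, 0, -1, 0], [0, 1, 0, 2, 1, 0, 1, 0], [0, 1, 0, 0, 1, 2, 1, 0], [0, 1, 2, 2, 1, 0, -1, 0], [0, 1, 0, 0, 1, 0, 1, 0], [0, -1, 0, 0, 1, 2, 1, 0], [0, 1, 0, 2, 1, 0, -1, 0], [0, 1, 0, 0, -1, 0, 1, 0], [0, -1, 0, 0, 1, 0, 1, 0], [0, 1, 0, 0, 1, 0, -1, 0], [0, -1, 0, 0, -1, 0, 1, 0], [0, 1, 0, 0, -1, 0, -1, 0], [0, -1, 0, 0, 1, 0, -1, 0], [0, -1, 0, -2, -1, 0, 1, 0], [0, -1, 0, 0, -1, 0, -1, 0], [0, 1, 0, 0, -1, -2, -1, 0], [0, -1, -2, -2, -1, 0, 1, 0], [0, -1, 0, -2, -1, 0, -1, 0], [0, -1, 0, 0, -1, -2, -1, 0], [-2, -1, -2, -2, -1, 0, 1, 0], [0, -1, -2, -2, -1, 0, -1, 0], [0, -1, 0, -2, -1, -2, -1, 0], [-2, -1, -2, -2, -1, 0, -1, 0], [0, -1, -2, -2, -1, -2, -1, 0], [0, -1, 0, -2, -3, -2, -1, 0], [-2, -1,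 -2, -2, -1, -2, -1, 0], [0, -1, -2, -2, -3, -2, -1, 0], [-2, -1, -2, -2, -3, -2, -1, 0], [0, -1, -2, -4, -3, -2, -1, 0], [-2, -1, -2, -4, -3, -2, -1, 0], [0, -3, -2, -4, -3, -2, -1, 0], [-2, -1, -4, -4, -3, -2, -1, 0], [-2, -3, -2, -4, -3, -2, -1, 0], [-2, -3, -4, -4, -3, -2, -1, 0], [-2, -3, -4, -6, -3, -2, -1, 0], [-2, -3, -4, -6, -5, -2, -1, 0], [-2, -3, -4, -6, -5, -4, -1, 0], [-2, -3, -4, -6, -5, -4, -3, 0]], [0, 1, 2, 3, 4, 5, 5, 6, 6, 7, 7, 8, 8, 9, 9, 9, 10, 10, 10, 11, 11, 11, 12, 12, 12, 13, 13, 13, 14, 14, 14, 15, 15, 15, 16, 16, 16, 17, 17, 17, 18, 18, 18, 19, 19, 20, 20, 21, 21, 22, 22, 23, 24, 25, 26, 27]),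
    ([2, 3, 4, 6, 5, 4, 0, 0], [[2, 3, 4, 6, 5, 1, 0, 0], [2, 3, 4, 6, 2, 1, 0, 0], [2, 3, 4, 3, 2, 1, 0, 0], [2, 3, 1, 3, 2, 1, 0, 0], [2, 0, 4, 3, 2, 1, 0, 0], [2, 0, 1, 3, 2, 1, 0, 0], [-1, 3, 1, 3, 2, 1, 0, 0], [2, 0, 1, 0, 2, 1, 0, 0], [-1, 0, 1, 3, 2, 1, 0, 0], [2, 0, 1, 0, -1, 1, 0, 0], [-1, 0, 1, 0, 2, 1, 0, 0], [-1, 0, 1, 0, -1, 1, 0, 0], [-1, 0, -2, 0, 2, 1, 0, 0], [2, 0, 1, 0, -1, -2, 0, 0], [-1, 0, -2, 0, -1, 1, 0, 0], [-1, 0, 1, 0, -1, -2, 0, 0], [-1, 0, -2, -3, -1, 1, 0, 0], [-1, 0, -2, 0, -1, -2, 0, 0], [-1, -3, -2, -3, -1, 1, 0, 0], [-1, 0, -2, -3, -1, -2, 0, 0], [-1, -3, -2, -3, -1, -2, 0, 0], [-1, 0, -2, -3, -4, -2, 0, 0], [-1, -3, -2, -3, -4, -2, 0, 0], [-1, -3, -2, -6, -4, -2, 0, 0], [-1, -3, -5, -6, -4, -2, 0, 0], [-4, -3, -5, -6, -4, -2, 0, 0]], [0, 1, 2, 3,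 4, 4, 5, 5, 6, 6, 7, 7, 8, 8, 8, 9, 9, 10, 10, 11, 11, 12, 12, 13, 14, 15, 16]),
    ([2, 1, 2, 2, 1, 0, 0, 0], [[0, 1, 2, 2, 1, 0, 0, 0], [0, 1, 0, 2, 1, 0, 0, 0], [0, 1, 0, 0, 1, 0, 0, 0], [0, 1, 0, 0, -1, 0, 0, 0], [0, -1, 0, 0, 1, 0, 0, 0], [0, -1, 0, 0, -1, 0, 0, 0], [0, -1, 0, -2, -1, 0, 0, 0], [0, -1, -2, -2, -1, 0, 0, 0], [-2, -1, -2, -2, -1, 0, 0, 0]], [0, 1, 2, 3, 4, 4, 5, 6, 7, 8]),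
    ([-4, -1, -3, -2, 0, 0, 0, 0], [[-4, -1, -3, -2, -2, 0, 0, 0], [-4, -1, -3, -4, -2, 0, 0, 0], [-4, -1, -5, -4, -2, 0, 0, 0], [-4, -3, -3, -4, -2, 0, 0, 0], [-4, -3, -5, -4, -2, 0, 0, 0], [-4, -3, -5, -6, -2, 0, 0, 0], [-4, -3, -5, -6, -4, 0, 0, 0]], [0, 1, 2, 3, 3, 4, 5, 6]),
    ([-1, 0, 0, 0, 0, 0, 0, 0], [[-1, 0, -1, 0, 0, 0, 0, 0], [-1, 0, -1, -1, 0, 0, 0, 0], [-1, -1, -1, -1, 0, 0, 0, 0]], [0, 1, 2, 3]),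
    ([0, 0, -1, 0, 0, 0, 0, 0], [[0, 0, -1, -1, 0, 0, 0, 0], [0, -1, -1, -1, 0, 0, 0, 0]], [0, 1, 2]),
    ([0, 1, 0, 0, 0, 0, 0, 0], [[0, -1, 0, 0, 0, 0, 0, 0]], [0, 1])]

theorem n1 : (H37.Cov.intTab Cfsg.Lie.chevE8 2 [2, 3, 4, 6, 5, 4, 3, 2]).length = 64 := by
  rw [H37.Cov.intTab, H37.posTab_E8]; decide +kernel

theorem k1 : H37.chainR Cfsg.Lie.chevE8.rank c1 (H37.Cov.intTab Cfsg.Lie.chevE8 2 [2, 3, 4, 6, 5, 4, 3, 2]) = true := by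
  rw [H37.Cov.intTab, H37.posTab_E8]; decide +kernel

theorem p0 {q : ℕ} (hq : 1 < q) : q ^ 56 * (q - 1) ^ 8 * (c0.map fun s => (s.2.2.map (q ^ ·)).sum).prod =
    q ^ 56 * (q ^ 8 - 1) * ∏ i ∈ Finset.Icc 1 7, (q ^ (2 * i) - 1) := by
  have h1 : ∀ n, 1 ≤ q ^ n := fun n => Nat.one_le_pow _ _ (by omega)
  simp only [c0, List.map_cons, List.map_nil, List.sum_cons, List.sum_nil, List.prod_cons, List.prod_nil,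
    show Finset.Icc 1 7 = {1, 2, 3, 4, 5, 6, 7} from rfl, Finset.prod_insert, Finset.mem_insert, Finset.mem_singleton,
    Finset.prod_singleton, Nat.reduceEqDiff, or_self, not_false_eq_true]
  zify [h1, hq.le]
  ring

theorem p1 {q : ℕ} (hq : 1 < q) : q ^ 64 * (q - 1) ^ 8 * (c1.map fun s => (s.2.2.map (q ^ ·)).sum).prod =
    q ^ 64 * (q ^ 2 - 1) ^ 2 * (q ^ 6 - 1) * (q ^ 8 - 1) * (q ^ 10 - 1) * (q ^ 12 - 1) * (q ^ 14 - 1) * (q ^ 18 - 1) := by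
  have h1 : ∀ n, 1 ≤ q ^ n := fun n => Nat.one_le_pow _ _ (by omega)
  simp only [c1, List.map_cons, List.map_nil, List.sum_cons, List.sum_nil, List.prod_cons, List.prod_nil]
  zify [h1, hq.le]
  ring

theorem p2 {q : ℕ} (hq : 1 < q) : q ^ 56 * (q ^ 8 - 1) * ∏ i ∈ Finset.Icc 1 7, (q ^ (2 * i) - 1) ≠
    q ^ 64 * (q ^ 2 - 1) ^ 2 * (q ^ 6 - 1) * (q ^ 8 - 1) * (q ^ 10 - 1) * (q ^ 12 - 1) * (q ^ 14 - 1) * (q ^ 18 - 1) := fun this => by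
  have h1 : ∀ n, 1 ≤ q ^ n := fun n => Nat.one_le_pow _ _ (by omega)
  have _ : Fact (1 < q) := ⟨hq⟩
  simp only [mul_assoc] at this
  rw [show q ^ 64 = q ^ 56 * q ^ 8 by ring, mul_assoc, Nat.mul_right_inj (by positivity)] at this
  have := congrArg (Nat.cast : ℕ → ZMod q) this
  push_cast [Nat.cast_sub (h1 _)] at this
  simp [show Finset.Icc 1 7 = {1, 2, 3, 4, 5, 6, 7} from rfl] at this

/-- In the Chevalley group of type E₈ over a finite field of odd order q there are exactly two conjugacy classes of involutions; the centralizer of an involution in one class has order q⁵⁶(q⁸ − 1)·∏_{i=1}^{7}(q^{2i} − 1), and in the other class q⁶⁴(q² − 1)²(q⁶ − 1)(q⁸ − 1)(q¹⁰ − 1)(q¹² − 1)(q¹⁴ − 1)(q¹⁸ − 1). -/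
theorem result {F : Type*} [Field F] [Fintype F] (hF : Odd (Fintype.card F)) : ∃ s t : ↥(Cfsg.Lie.chevE8.group F), orderOf s = 2 ∧ orderOf t = 2 ∧ ¬ IsConj s t ∧ (∀ u : ↥(Cfsg.Lie.chevE8.group F), orderOf u = 2 → IsConj u s ∨ IsConj u t) ∧ Nat.card (Subgroup.centralizer ({s} : Set ↥(Cfsg.Lie.chevE8.group F))) = Fintype.card F ^ 56 * (Fintype.card F ^ 8 - 1) * ∏ i ∈ Finset.Icc 1 7, (Fintype.card F ^ (2 * i) - 1) ∧ Nat.card (Subgroup.centralizer ({t} : Set ↥(Cfsg.Lie.chevE8.group F))) = Fintype.card F ^ 64 * (Fintype.card F ^ 2 - 1) ^ 2 * (Fintype.card F ^ 6 - 1) * (Fintype.card F ^ 8 - 1) * (Fintype.card F ^ 10 - 1) * (Fintype.card F ^ 12 - 1) * (Fintype.card F ^ 14 - 1) * (Fintype.card F ^ 18 - 1) := by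
  have hD : H37.IsChev Cfsg.Lie.chevE8 := by simp
  obtain ⟨_⟩ := H37.nonempty_chev hD
  rw [← Nat.card_eq_fintype_card] at hF ⊢
  have hA := H37.Cov.sc_of_centT (H37.adjCov hD F) H39.centT_E8
  have hq : 1 < Nat.card F := Finite.one_lt_card
  have e0 := (hA.card_cent_cert (H37.orderOf_neg_one_units F hF) n0 k0).trans (p0 hq)
  have e1 := (hA.card_cent_cert (H37.orderOf_neg_one_units F hF) n1 k1).trans (p1 hq)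
  have o := fun j hj => H37.orderOf_fund hD F hF (H37.adjCov hD F) (fun h => by
    rw [(H37.fund_spec h0).1 j hj] at h; omega)
  refine ⟨_, _, o ⟨0, by decide⟩ rfl, o ⟨7, by decide⟩ rfl,
    fun hc => p2 hq (e0.symm.trans ((H37.card_cent_of_isConj hc).trans e1)), fun u hu => ?_, e0, e1⟩
  obtain ⟨j, h2, h3⟩ := H37.exists_conj_fund hD F hF H39.centT_E8 h0 hu
  rcases (by clear h3; revert j; decide : j = ⟨0, by decide⟩ ∨ j = ⟨7, by decide⟩) with rfl | rfl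
  exacts [Or.inl h3, Or.inr h3]

end Cfsg.Agent.S4281
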