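import Cfsg.Statements.S4282
import Cfsg.Agent.H79.HHCrit

set_option autoImplicit false
open Cfsg

namespace Cfsg.Agent.S4282

open Cfsg.Agent.H79

/-- A critical case behind the Hall–Higman theorem. Let p ≠ q be primes and G a finite group generated by a normal q-subgroup Q and a cyclic p-subgroup generated by x, such that the centralizer of every non-identity element of that cyclic subgroup is its product with the centre of G. Let K be an algebraically closed field of characteristic p and ρ a faithful representation of G on a nonzero finite-dimensional K-space whose restriction to Q is irreducible. If s is the least exponent with (ρ(x) − 1)^s = 0, then |⟨x⟩| − 1 ≤ s ≤ |⟨x⟩|; and if s = |⟨x⟩| − 1 then |⟨x⟩| − 1 is a power of q and Q is non-abelian. -/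
theorem result {G : Type*} [Group G] [Finite G] (p q : ℕ) [Fact p.Prime] [Fact q.Prime] (hpq : p ≠ q) (Q : Subgroup G) [Q.Normal] (hQ : IsPGroup q Q) (x : G) (hx : IsPGroup p (Subgroup.zpowers x)) (hgen : Q ⊔ Subgroup.zpowers x = ⊤) (hC : ∀ y ∈ Subgroup.zpowers x, y ≠ 1 → Subgroup.centralizer ({y} : Set G) = Subgroup.zpowers x ⊔ Subgroup.center G) {K : Type*} [Field K] [IsAlgClosed K] [CharP K p] {V : Type*} [AddCommGroup V] [Module K V] [FiniteDimensional K V] [Nontrivial V] (ρ : Representation K G V) (hfaith : Function.Injective ρ) (hirr : ∀ W : Submodule K V, (∀ g ∈ Q, Submodule.map (ρ g) W ≤ W) → W = ⊥ ∨ W = ⊤) (s : ℕ) (hs : (ρ x - 1) ^ s = 0) (hmin : ∀ k < s, (ρ x - 1) ^ k ≠ 0) : Nat.card (Subgroup.zpowers x) - 1 ≤ s ∧ s ≤ Nat.card (Subgroup.zpowers x) ∧ (s = Nat.card (Subgroup.zpowers x) - 1 → (∃ b : ℕ, Nat.card (Subgroup.zpowers x) - 1 = q ^ b) ∧ ¬ IsMulCommutative Q) := by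
  have hp : p.Prime := Fact.out
  have hq : q.Prime := Fact.out
  obtain ⟨n, hn⟩ := IsPGroup.iff_card.1 hx
  have hxn : x ^ p ^ n = 1 := by rw [← hn, Nat.card_zpowers, pow_orderOf_eq_one]
  have hbn : ρ x ^ p ^ n = 1 := by rw [← map_pow, hxn, map_one]
  rw [hn]
  have hle : s ≤ p ^ n := by
    by_contra h
    exact hmin _ (not_le.1 h) (by rw [sub_one_pow_char (K := K), hbn, sub_self])
  by_cases h : (ρ x - 1) ^ (p ^ n - 1) = 0
  swap
  · have : p ^ n - 1 < s := by
      by_contra h'
      exact h (pow_eq_zero_of_le (not_lt.1 h') hs)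
    exact ⟨this.le, hle, fun e => absurd e this.ne'⟩
  have hx1 : ρ x ≠ 1 := fun e => by
    have : x = 1 := hfaith (by rw [e, map_one])
    rw [this, Subgroup.zpowers_one_eq_bot, Subgroup.card_bot] at hn
    rw [← hn] at h
    simp at h
  haveI := Fintype.ofFinite Q
  let σ : Q →* Module.End K V := (ρ : G →* Module.End K V).comp Q.subtype
  have hσ : Irr σ := fun W hW => hirr W fun g hg => by
    rintro _ ⟨v, hv, rfl⟩; exact hW ⟨g, hg⟩ v hv
  have hqK : (q : K) ≠ 0 := fun h => hpq ((Nat.prime_dvd_prime_iff_eq hp hq).1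
    ((CharP.cast_eq_zero_iff K p q).1 h))
  obtain ⟨k, hk⟩ := IsPGroup.iff_card.1 hQ
  have hQK : (Fintype.card Q : K) ≠ 0 := by
    rw [← Nat.card_eq_fintype_card, hk, Nat.cast_pow]; exact pow_ne_zero _ hqK
  have hα : ∀ i (g : Q), (((MulAut.conjNormal x : MulAut Q) ^ i) g : G) = x ^ i * g * (x ^ i)⁻¹ :=
    fun i g => by rw [← map_pow]; rfl
  obtain ⟨h1, h2⟩ := hσ.hh_crit hQK (α := MulAut.conjNormal x) (b := ρ x) (k := n)
    (fun g => by simp [σ, ← map_mul]) hbn (by rw [← map_pow, hxn, map_one]) (fun g i h0 hi hg => by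
      have e := hα i g
      rw [hg] at e
      have hi1 : x ^ i ≠ 1 := pow_ne_one_of_lt_orderOf h0.ne' (by rwa [← Nat.card_zpowers, hn])
      have h3 : (g : G) ∈ Subgroup.centralizer ({x ^ i} : Set G) :=
        Subgroup.mem_centralizer_singleton_iff.2 (eq_mul_inv_iff_mul_eq.1 e)
      rw [hC _ (pow_mem (Subgroup.mem_zpowers x) i) hi1] at h3
      obtain ⟨y, hy, z, hz, e'⟩ := Subgroup.mem_sup_of_normal_right.1 h3
      have h4 : (g : G) ^ p ^ n ∈ Subgroup.center G := by
        have hc : Commute y z := (Subgroup.mem_center_iff.1 hz y)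
        have : y ^ p ^ n = 1 := by
          have := pow_card_eq_one' (x := (⟨y, hy⟩ : Subgroup.zpowers x))
          rw [hn] at this
          exact congrArg Subtype.val this
        rw [← e', hc.mul_pow, this, one_mul]; exact pow_mem hz _
      have h5 : (g : G) ^ q ^ k ∈ Subgroup.center G := by
        have := pow_card_eq_one' (x := g)
        rw [hk] at this
        rw [show (g : G) ^ q ^ k = 1 from congrArg Subtype.val this]; exact one_mem _
      have h6 := pow_gcd_mem h4 h5
      rw [Nat.Coprime.gcd_eq_one (Nat.coprime_pow_primes _ _ hp hq hpq), pow_one] at h6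
      exact hσ.schur _ fun y => by
        simp only [σ, MonoidHom.comp_apply, Subgroup.coe_subtype]
        rw [← map_mul, ← map_mul, Subgroup.mem_center_iff.1 h6]) h hx1
  have hlt : p ^ n - 2 < s := by
    by_contra h'
    exact h1 (pow_eq_zero_of_le (not_lt.1 h') hs)
  refine ⟨by omega, hle, fun _ => ⟨?_, fun hab => ?_⟩⟩
  · obtain ⟨m, hm⟩ := hσ.finrank_eq_pow hq hqK hQ
    exact ⟨m, h2 ▸ hm⟩
  · have h3 := hσ.finrank_le_one fun g k => by rw [← map_mul, ← map_mul, hab.is_comm.comm]
    have h4 : Module.finrank K V = 1 := le_antisymm h3 Module.finrank_pos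
    have h5 : p ^ n - 1 = 1 := by omega
    rw [h5, pow_one, sub_eq_zero] at h
    exact hx1 h

end Cfsg.Agent.S4282
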