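import Cfsg.Statements.S4283
import Cfsg.Agent.S0034
import Cfsg.Agent.H84.Frob

set_option autoImplicit false
set_option linter.style.haveILetI false
open Cfsg

namespace Cfsg.Agent.S4283

/-- Let G be a finite group with centre Z and let K, H be abelian subgroups of G containing Z such that G/Z is a Frobenius group with complement H/Z and kernel K/Z. Then the conjugacy class sizes of G are exactly 1, [G : K] and [G : H], and these two indices are coprime. (This is the converse half of the characterization of finite groups whose conjugacy class sizes are exactly 1, m and n with m and n coprime.) -/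
theorem result {G : Type*} [Group G] [Finite G] (K H : Subgroup G) (hZK : Subgroup.center G ≤ K) (hZH : Subgroup.center G ≤ H) (hK : IsMulCommutative K) (hH : IsMulCommutative H) (hFrob : Cfsg.IsFrobeniusComplement (H.map (QuotientGroup.mk' (Subgroup.center G)))) (hker : Cfsg.frobeniusKernel (H.map (QuotientGroup.mk' (Subgroup.center G))) = (K.map (QuotientGroup.mk' (Subgroup.center G)) : Set (G ⧸ Subgroup.center G))) : Set.range (fun x : G => (Subgroup.centralizer ({x} : Set G)).index) = ({1, K.index, H.index} : Set ℕ) ∧ K.index.Coprime H.index := by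
  set Z := Subgroup.center G with hZ
  set π := QuotientGroup.mk' Z with hπ
  have hsurj : Function.Surjective π := QuotientGroup.mk'_surjective Z
  have hkerπ : π.ker = Z := QuotientGroup.ker_mk' Z
  obtain ⟨hc1, hc2⟩ := S0034.result _ hFrob
  obtain ⟨hb, ht, hF⟩ := (H84.isFrob_iff _).1 hFrob
  have hmemH : ∀ x, π x ∈ H.map π ↔ x ∈ H := fun x => by
    rw [← Subgroup.mem_comap, Subgroup.comap_map_eq_self (hkerπ.le.trans hZH)]
  have hmemK : ∀ x, π x ∈ K.map π ↔ x ∈ K := fun x => by
    rw [← Subgroup.mem_comap, Subgroup.comap_map_eq_self (hkerπ.le.trans hZK)]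
  have hone : ∀ x, π x = 1 ↔ x ∈ Z := fun x => by rw [← MonoidHom.mem_ker, hkerπ]
  have hKiff : ∀ x, x ∈ K ↔ x ∈ Z ∨ ∀ g : G, g⁻¹ * x * g ∉ H := by
    intro x
    rw [← hmemK, ← SetLike.mem_coe, ← hker, H84.mem_frobeniusKernel_iff, hone]
    refine or_congr Iff.rfl ⟨fun h g hg => h (π g) ?_, fun h g hg => ?_⟩
    · rw [← map_inv, ← map_mul, ← map_mul, hmemH]; exact hg
    · obtain ⟨g, rfl⟩ := hsurj g
      rw [← map_inv, ← map_mul, ← map_mul, hmemH] at hg
      exact h g hg
  have hF' : ∀ g x : G, x ∈ H → g⁻¹ * x * g ∈ H → x ∉ Z → g ∈ H := by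
    intro g x hx hgx hxZ
    rw [← hmemH]
    refine hF (π g) (π x) ((hmemH _).2 hx) ?_ (fun h => hxZ ((hone _).1 h))
    rw [← map_inv, ← map_mul, ← map_mul, hmemH]; exact hgx
  have hCH : ∀ x ∈ H, x ∉ Z → Subgroup.centralizer ({x} : Set G) = H := by
    intro x hx hxZ
    ext y
    rw [Subgroup.mem_centralizer_singleton_iff]
    constructor
    · intro h
      refine hF' y x hx ?_ hxZ
      rw [mul_assoc, ← h, inv_mul_cancel_left]; exact hx
    · intro hy
      exact congrArg Subtype.val (hH.is_comm.comm (⟨y, hy⟩ : H) ⟨x, hx⟩)
  have hCK : ∀ x ∈ K, x ∉ Z → Subgroup.centralizer ({x} : Set G) = K := by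
    intro x hx hxZ
    ext y
    rw [Subgroup.mem_centralizer_singleton_iff]
    constructor
    · intro h
      by_contra hy
      rw [hKiff] at hy hx
      push Not at hy
      obtain ⟨hyZ, g, hg⟩ := hy
      apply (hx.resolve_left hxZ) g
      refine hF' _ (g⁻¹ * y * g) hg ?_ ?_
      · have : (g⁻¹ * x * g)⁻¹ * (g⁻¹ * y * g) * (g⁻¹ * x * g) = g⁻¹ * (x⁻¹ * (y * x)) * g := by
          group
        rw [this, h, inv_mul_cancel_left]; exact hg
      · intro hz
        apply hyZ
        have := (Subgroup.normal_of_characteristic (Subgroup.center G)).conj_mem _ hz g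
        simpa [mul_assoc] using this
    · intro hy
      exact congrArg Subtype.val (hK.is_comm.comm (⟨y, hy⟩ : K) ⟨x, hx⟩)
  have hHi : (H.map π).index = H.index := by
    rw [Subgroup.index_map_eq _ hsurj (hkerπ.le.trans hZH)]
  have hKi : (K.map π).index = K.index := by
    rw [Subgroup.index_map_eq _ hsurj (hkerπ.le.trans hZK)]
  have hcK : Nat.card (K.map π) = H.index := by
    rw [← hHi, ← hc1, hker]; rfl
  have hcH : Nat.card (H.map π) = K.index := by
    have e1 := (H.map π).card_mul_index
    have e2 := (K.map π).card_mul_index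
    rw [hHi] at e1
    rw [hcK, hKi, ← e1, mul_comm] at e2
    exact (Nat.eq_of_mul_eq_mul_right (Nat.pos_of_ne_zero Subgroup.index_ne_zero_of_finite) e2).symm
  constructor
  · ext n
    simp only [Set.mem_range, Set.mem_insert_iff, Set.mem_singleton_iff]
    constructor
    · rintro ⟨x, rfl⟩
      by_cases hxZ : x ∈ Z
      · left
        rw [Subgroup.index_eq_one, eq_top_iff]
        intro y _
        rw [Subgroup.mem_centralizer_singleton_iff]
        exact Subgroup.mem_center_iff.1 hxZ y
      · right
        by_cases hxK : x ∈ K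
        · left; rw [hCK x hxK hxZ]
        · right
          rw [hKiff] at hxK
          push Not at hxK
          obtain ⟨-, g, hg⟩ := hxK
          have hz : g⁻¹ * x * g ∉ Z := by
            intro hz
            apply hxZ
            have := (Subgroup.normal_of_characteristic (Subgroup.center G)).conj_mem _ hz g
            simpa [mul_assoc] using this
          rw [← hCH _ hg hz]
          have : Subgroup.centralizer ({x} : Set G) =
              (Subgroup.centralizer ({g⁻¹ * x * g} : Set G)).comap
                (MulAut.conj g⁻¹).toMonoidHom := by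
            ext y
            rw [Subgroup.mem_comap, Subgroup.mem_centralizer_singleton_iff,
              Subgroup.mem_centralizer_singleton_iff]
            simp only [MulEquiv.coe_toMonoidHom, MulAut.conj_apply, inv_inv, mul_assoc,
              mul_inv_cancel_left, mul_right_inj]
            rw [← mul_assoc, ← mul_assoc, mul_left_inj]
          rw [this, Subgroup.index_comap_of_surjective _ (MulAut.conj g⁻¹).surjective]
    · rintro (rfl | rfl | rfl)
      · exact ⟨1, by simp⟩
      · have : ∃ x ∈ K, x ∉ Z := by
          by_contra hcon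
          push Not at hcon
          have : K.map π = ⊥ := by
            rw [Subgroup.map_eq_bot_iff, hkerπ]; exact hcon
          rw [this, Subgroup.card_bot, ← hHi, eq_comm, Subgroup.index_eq_one] at hcK
          exact ht hcK
        obtain ⟨x, hx, hxZ⟩ := this
        exact ⟨x, by rw [hCK x hx hxZ]⟩
      · have : ∃ x ∈ H, x ∉ Z := by
          by_contra hcon
          push Not at hcon
          apply hb
          rw [Subgroup.map_eq_bot_iff, hkerπ]; exact hcon
        obtain ⟨x, hx, hxZ⟩ := this
        exact ⟨x, by rw [hCH x hx hxZ]⟩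
  · rw [hHi, hcH] at hc2
    have : H.index ≡ 1 [MOD K.index] := hc2
    rw [Nat.Coprime, Nat.gcd_comm, this.gcd_eq, Nat.gcd_one_left]

end Cfsg.Agent.S4283
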