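import Cfsg.Statements.S4291
import Cfsg.Agent.H24.FpfSolv

set_option autoImplicit false
open Cfsg

namespace Cfsg.Agent.S4291

open H24

theorem eq_of_isZGroup {K : Type*} [Group K] [Finite K] [IsZGroup K] {u v : K} (hu1 : u ≠ 1)
    (hu : u ^ 2 = 1) (hv1 : v ≠ 1) (hv : v ^ 2 = 1) (hc : u * v = v * u) : u = v := by
  have h2 : IsPGroup 2 (Subgroup.closure ({u, v} : Set K)) := by
    have hc' : IsMulCommutative (Subgroup.closure ({u, v} : Set K)) := by
      apply Subgroup.isMulCommutative_closure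
      rintro a (rfl | rfl) b (rfl | rfl)
      exacts [rfl, hc, hc.symm, rfl]
    intro g
    refine ⟨1, Subtype.ext ?_⟩
    obtain ⟨g, hg⟩ := g
    change g ^ 2 ^ 1 = 1
    induction hg using Subgroup.closure_induction with
    | mem a ha =>
      rcases ha with rfl | rfl
      exacts [hu, hv]
    | one => simp
    | mul a b ha hb iha ihb =>
      have : Commute a b := congrArg Subtype.val (hc'.is_comm.comm ⟨a, ha⟩ ⟨b, hb⟩)
      rw [this.mul_pow, iha, ihb, one_mul]
    | inv a _ ih => rw [inv_pow, ih, inv_one]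
  have := h2.isCyclic_of_isZGroup
  have m1 : u ∈ Subgroup.closure ({u, v} : Set K) := Subgroup.subset_closure (by simp)
  have m2 : v ∈ Subgroup.closure ({u, v} : Set K) := Subgroup.subset_closure (by simp)
  have ho : orderOf v = 2 := orderOf_eq_prime hv hv1
  obtain ⟨n, hn⟩ := H69.mem_zpowers_of_isCyclic (x := (⟨v, m2⟩ : Subgroup.closure ({u, v} : Set K)))
    (y := ⟨u, m1⟩) (Subtype.ext (by rw [← Subgroup.orderOf_coe]; exact ho ▸ hu))
  have hn' : v ^ n = u := congrArg Subtype.val hn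
  rcases Int.even_or_odd' n with ⟨k, rfl | rfl⟩
  · rw [zpow_mul, zpow_ofNat, hv, one_zpow] at hn'
    exact absurd hn'.symm hu1
  · rw [zpow_add, zpow_mul, zpow_ofNat, hv, one_zpow, one_mul, zpow_one] at hn'
    exact hn'.symm

theorem four (N : Subgroup (Equiv.Perm (Fin 4))) [IsZGroup N]
    (h : ∀ k ∈ alternatingGroup (Fin 4), ∀ g ∈ N, k * g * k⁻¹ ∈ N) : N = ⊥ := by
  by_contra hN
  obtain ⟨⟨g, hg⟩, hg1⟩ := Subgroup.ne_bot_iff_exists_ne_one.mp hN
  have key : ∀ g : Equiv.Perm (Fin 4), g ≠ 1 → ∃ k : Equiv.Perm (Fin 4), Equiv.Perm.sign k = 1 ∧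
      g * (k * g⁻¹ * k⁻¹) ≠ 1 ∧ (g * (k * g⁻¹ * k⁻¹)) ^ 2 = 1 ∧
      Equiv.Perm.sign (g * (k * g⁻¹ * k⁻¹)) = 1 := by decide +kernel
  have key2 : ∀ w : Equiv.Perm (Fin 4), w ≠ 1 → w ^ 2 = 1 → Equiv.Perm.sign w = 1 →
      ∃ k : Equiv.Perm (Fin 4), Equiv.Perm.sign k = 1 ∧ w * (k * w * k⁻¹) = (k * w * k⁻¹) * w ∧
        w ≠ k * w * k⁻¹ := by decide +kernel
  obtain ⟨k, hk, h1, h2, h3⟩ := key g fun e => hg1 (Subtype.ext e)
  have hw : g * (k * g⁻¹ * k⁻¹) ∈ N := mul_mem hg (h k hk _ (inv_mem hg))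
  generalize g * (k * g⁻¹ * k⁻¹) = w at *
  obtain ⟨l, hl, h4, h5⟩ := key2 w h1 h2 h3
  refine h5 (congrArg Subtype.val (eq_of_isZGroup (u := (⟨w, hw⟩ : N)) (v := ⟨_, h l hl w hw⟩)
    (fun e => h1 (congrArg Subtype.val e)) (Subtype.ext h2) (fun e => h1 ?_) (Subtype.ext ?_)
    (Subtype.ext h4)))
  · exact conj_eq_one_iff.mp (congrArg Subtype.val e)
  · change (l * w * l⁻¹) ^ 2 = 1
    rw [conj_pow, h2]; group

theorem five (N : Subgroup (Equiv.Perm (Fin 5))) [IsZGroup N]
    (h : ∀ k ∈ alternatingGroup (Fin 5), ∀ g ∈ N, k * g * k⁻¹ ∈ N) : N = ⊥ := by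
  have hn : (N.subgroupOf (alternatingGroup (Fin 5))).Normal := ⟨fun g hg k => h k k.2 g hg⟩
  rcases hn.eq_bot_or_eq_top with h1 | h1
  · rw [eq_bot_iff]
    intro g hg
    have key : ∀ k ∈ alternatingGroup (Fin 5), g * k = k * g := by
      intro k hk
      have h2 : g * (k * g⁻¹ * k⁻¹) ∈ alternatingGroup (Fin 5) := by
        rw [show g * (k * g⁻¹ * k⁻¹) = g * k * g⁻¹ * k⁻¹ by group]
        exact mul_mem (Subgroup.Normal.conj_mem inferInstance k hk g) (inv_mem hk)
      have h3 : (⟨_, h2⟩ : alternatingGroup (Fin 5)) ∈ N.subgroupOf (alternatingGroup (Fin 5)) :=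
        mul_mem hg (h k hk _ (inv_mem hg))
      rw [h1, Subgroup.mem_bot] at h3
      have h4 : g * (k * g⁻¹ * k⁻¹) = 1 := congrArg Subtype.val h3
      calc g * k = g * (k * g⁻¹ * k⁻¹) * (k * g) := by group
        _ = k * g := by rw [h4, one_mul]
    exact SL5.eq_one_of_commute_perm (key _ (Equiv.Perm.mem_alternatingGroup.mpr (by decide)))
      (key _ (Equiv.Perm.mem_alternatingGroup.mpr (by decide)))
  · exfalso
    have h2 : alternatingGroup (Fin 5) ≤ N := Subgroup.subgroupOf_eq_top.mp h1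
    have h3 : IsZGroup (alternatingGroup (Fin 5)) :=
      IsZGroup.of_injective (Subgroup.inclusion_injective h2)
    have h4 : Group.IsSolvable SL5 := Group.isSolvable_of_ker_le_range
      (Subgroup.zpowers (-1 : SL5)).subtype SL5.projA (by
        intro g hg
        rw [Subgroup.range_subtype, ← SL5.proj_ker]
        exact congrArg Subtype.val hg)
    exact SL5.not_isSolvable h4

section

variable {G : Type*} [Group G] [Finite G]

/-- Quotient without normal Z-subgroups. -/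
def Big (N : Subgroup G) : Prop :=
  ¬ N.index ∣ 4 ∧ ∀ K : Subgroup G, K.Normal → IsZGroup K → K ≤ N

theorem big_of {n : ℕ} (hn : ∀ (N : Subgroup (Equiv.Perm (Fin n))) [IsZGroup N],
    (∀ k ∈ alternatingGroup (Fin n), ∀ g ∈ N, k * g * k⁻¹ ∈ N) → N = ⊥)
    (hc : ¬ Nat.card (alternatingGroup (Fin n)) ∣ 4)
    (f : G →* Equiv.Perm (Fin n)) (hf : alternatingGroup (Fin n) ≤ f.range) : Big f.ker := by
  constructor
  · rw [Subgroup.index_ker]
    exact fun h => hc ((Subgroup.card_dvd_of_le hf).trans h)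
  · intro K hK hZ
    have : IsZGroup (K.map f) := IsZGroup.of_surjective (f.subgroupMap_surjective K)
    rw [← Subgroup.map_eq_bot_iff]
    apply hn
    intro k hk
    obtain ⟨k, rfl⟩ := hf hk
    rintro _ ⟨g, hg, rfl⟩
    exact ⟨_, hK.conj_mem g hg k, by simp⟩

theorem card_A4 : Nat.card (alternatingGroup (Fin 4)) = 12 := by
  have h2 := two_mul_nat_card_alternatingGroup (α := Fin 4)
  rw [Nat.card_perm, Nat.card_eq_fintype_card (α := Fin 4), Fintype.card_fin] at h2
  simp only [Nat.factorial] at h2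
  omega

omit [Finite G] in
theorem alt_aux {n : ℕ} (f : G →* alternatingGroup (Fin n)) (hf : Function.Surjective f) :
    ((alternatingGroup (Fin n)).subtype.comp f).ker = f.ker ∧
      alternatingGroup (Fin n) ≤ ((alternatingGroup (Fin n)).subtype.comp f).range := by
  constructor
  · ext g
    simp
  · intro k hk
    obtain ⟨g, hg⟩ := hf ⟨k, hk⟩
    exact ⟨g, congrArg Subtype.val hg⟩

theorem index_le_four (h : Fpf G) (K : Subgroup G) [K.Normal] (hK : ∀ g, g ^ 2 ∈ K) :
    K.index ≤ 4 := by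
  classical
  have h2 : ∀ q : G ⧸ K, q ^ 2 = 1 := fun q => by
    obtain ⟨g, rfl⟩ := QuotientGroup.mk_surjective q
    exact (QuotientGroup.eq_one_iff _).mpr (hK g)
  have hp : IsPGroup 2 (G ⧸ K) := fun q => ⟨1, h2 q⟩
  obtain ⟨P⟩ : Nonempty (Sylow 2 G) := inferInstance
  have h3 : ((P.mapSurjective (QuotientGroup.mk'_surjective K) : Sylow 2 (G ⧸ K)) :
      Subgroup (G ⧸ K)) = ⊤ := (Sylow.is_maximal' _ (hp.to_subgroup ⊤) le_top).symm
  let ψ : P →* G ⧸ K := (QuotientGroup.mk' K).comp (P : Subgroup G).subtype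
  have hψ : Function.Surjective ψ := fun q => by
    obtain ⟨g, hg, rfl⟩ : q ∈ (P : Subgroup G).map (QuotientGroup.mk' K) :=
      (h3 ▸ Subgroup.mem_top q :)
    exact ⟨⟨g, hg⟩, rfl⟩
  have hz : ∀ (s : G ⧸ K) (n : ℤ), s ^ n = 1 ∨ s ^ n = s := fun s n => by
    rcases Int.even_or_odd' n with ⟨k, rfl | rfl⟩
    · left; rw [zpow_mul, zpow_ofNat, h2, one_zpow]
    · right; rw [zpow_add, zpow_mul, zpow_ofNat, h2, one_zpow, one_mul, zpow_one]
  obtain ⟨s, t, hst⟩ : ∃ s t : G ⧸ K, ∀ q, q ∈ ({1, s, t, t * s} : Finset (G ⧸ K)) := by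
    rcases (h.subgroup P).cyclic_or_quaternion P.isPGroup' with h1 | ⟨-, n, ⟨e⟩⟩
    · obtain ⟨g, hg⟩ := IsCyclic.exists_generator (α := P)
      refine ⟨ψ g, 1, fun q => ?_⟩
      obtain ⟨x, rfl⟩ := hψ q
      obtain ⟨n, rfl⟩ := hg x
      simp only [map_zpow]
      rcases hz (ψ g) n with e | e <;> simp [e]
    · refine ⟨ψ (e.symm (.a 1)), ψ (e.symm (.xa 0)), fun q => ?_⟩
      obtain ⟨x, rfl⟩ := hψ q
      obtain ⟨y, rfl⟩ := e.symm.surjective x
      have ha : ∀ i, ψ (e.symm (.a i)) = 1 ∨ ψ (e.symm (.a i)) = ψ (e.symm (.a 1)) := fun i => by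
        have : (QuaternionGroup.a i : QuaternionGroup (2 ^ n)) = .a 1 ^ (i.val : ℤ) := by
          simp only [zpow_natCast, QuaternionGroup.a_one_pow, ZMod.natCast_zmod_val]
        rw [this, map_zpow, map_zpow]
        exact hz _ _
      cases y with
      | a i => rcases ha i with e1 | e1 <;> simp [e1]
      | xa i =>
        have : (QuaternionGroup.xa i : QuaternionGroup (2 ^ n)) = .xa 0 * .a i := by simp
        rw [this, map_mul, map_mul]
        rcases ha i with e1 | e1 <;> simp [e1]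
  let _ : Fintype (G ⧸ K) := ⟨_, hst⟩
  rw [Subgroup.index, Nat.card_eq_fintype_card]
  exact Finset.card_le_four

end

/-- Let G be a finite group that occurs as a Frobenius complement. Then G has exactly one normal subgroup N such that every Sylow subgroup of N is cyclic and the quotient of G by N is trivial or isomorphic to one of the following five groups: the Klein four-group, the alternating group of degree 4, the symmetric group of degree 4, the alternating group of degree 5, the symmetric group of degree 5. (The quotient is described by a surjective homomorphism with kernel N; the Klein four-group is written as the dihedral group of order 4.) -/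
theorem result {G : Type*} [Group G] [Finite G]
    (hFC : (∃ (L : Type) (_ : Group L) (_ : Finite L) (H : Subgroup L), Cfsg.IsFrobeniusComplement H ∧ Nonempty (G ≃* H))) :
    ∃! N : Subgroup G, N.Normal ∧ (∀ (p : ℕ) [Fact p.Prime] (P : Sylow p N), IsCyclic P) ∧
      (N = ⊤ ∨
        (∃ f : G →* DihedralGroup 2, Function.Surjective f ∧ f.ker = N) ∨
        (∃ f : G →* alternatingGroup (Fin 4), Function.Surjective f ∧ f.ker = N) ∨
        (∃ f : G →* Equiv.Perm (Fin 4), Function.Surjective f ∧ f.ker = N) ∨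
        (∃ f : G →* alternatingGroup (Fin 5), Function.Surjective f ∧ f.ker = N) ∨
        (∃ f : G →* Equiv.Perm (Fin 5), Function.Surjective f ∧ f.ker = N)) := by
  have h := fpf_of_exists_frob hFC
  have zg : ∀ N : Subgroup G, (∀ (p : ℕ) [Fact p.Prime] (P : Sylow p N), IsCyclic P) →
      IsZGroup N := fun N hN => ⟨fun p hp P => have := Fact.mk hp; hN p P⟩
  apply existsUnique_of_exists_of_unique
  · by_cases hs : Group.IsSolvable G
    · rcases h.solvable_cases with h1 | ⟨f, hf, h1⟩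
      · rcases h.nilpotent_cases h1 with h2 | ⟨f, hf, h2⟩
        · exact ⟨⊤, inferInstance, fun p _ P => inferInstance, Or.inl rfl⟩
        · exact ⟨f.ker, inferInstance, fun p _ P => inferInstance, Or.inr (Or.inl ⟨f, hf, rfl⟩)⟩
      · have hZ : IsZGroup f.ker := (h.subgroup _).isZGroup_of_no_four fun c hc =>
          Subtype.ext (hf c c.2 (congrArg Subtype.val hc))
        refine ⟨f.ker, inferInstance, fun p _ P => inferInstance, Or.inr (Or.inr ?_)⟩
        rcases h1 with h1 | h1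
        · refine Or.inl ⟨f.codRestrict _ fun g => h1 ▸ ⟨g, rfl⟩, ?_, f.ker_codRestrict _ _⟩
          rintro ⟨k, hk⟩
          obtain ⟨g, rfl⟩ : k ∈ f.range := h1 ▸ hk
          exact ⟨g, rfl⟩
        · exact Or.inr (Or.inl ⟨f, MonoidHom.range_eq_top.mp h1, rfl⟩)
    · obtain ⟨φ, hφ, hn, h3, f, hker, hf⟩ := h.exists_SL5 hs
      have hZ := h.isZGroup_cent hφ h3
      rw [← hker] at hZ
      refine ⟨f.ker, inferInstance, fun p _ P => inferInstance,
        Or.inr (Or.inr (Or.inr (Or.inr ?_)))⟩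
      rcases perm_five_range hf with h1 | h1
      · refine Or.inl ⟨f.codRestrict _ fun g => h1 ▸ ⟨g, rfl⟩, ?_, f.ker_codRestrict _ _⟩
        rintro ⟨k, hk⟩
        obtain ⟨g, rfl⟩ : k ∈ f.range := h1 ▸ hk
        exact ⟨g, rfl⟩
      · exact Or.inr ⟨f, MonoidHom.range_eq_top.mp h1, rfl⟩
  have tri : ∀ N : Subgroup G, (N = ⊤ ∨
        (∃ f : G →* DihedralGroup 2, Function.Surjective f ∧ f.ker = N) ∨
        (∃ f : G →* alternatingGroup (Fin 4), Function.Surjective f ∧ f.ker = N) ∨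
        (∃ f : G →* Equiv.Perm (Fin 4), Function.Surjective f ∧ f.ker = N) ∨
        (∃ f : G →* alternatingGroup (Fin 5), Function.Surjective f ∧ f.ker = N) ∨
        (∃ f : G →* Equiv.Perm (Fin 5), Function.Surjective f ∧ f.ker = N)) →
      N = ⊤ ∨ (¬ IsZGroup G ∧ N.index = 4 ∧ ∀ g, g ^ 2 ∈ N) ∨ Big N := by
    rintro N (h1 | ⟨f, hf, rfl⟩ | ⟨f, hf, rfl⟩ | ⟨f, hf, rfl⟩ | ⟨f, hf, rfl⟩ | ⟨f, hf, rfl⟩)
    · exact Or.inl h1
    · refine Or.inr (Or.inl ⟨fun hZ => ?_, ?_, fun g => ?_⟩)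
      · have : IsZGroup (DihedralGroup 2) := IsZGroup.of_surjective hf
        exact absurd (eq_of_isZGroup (u := (.r 1 : DihedralGroup 2)) (v := .sr 0) (by decide)
          (by decide) (by decide) (by decide) (by decide)) (by decide)
      · rw [Subgroup.index_ker, MonoidHom.range_eq_top.mpr hf, Subgroup.card_top,
          DihedralGroup.nat_card]
      · rw [MonoidHom.mem_ker, map_pow]
        generalize f g = t
        revert t
        decide
    · rw [← (alt_aux f hf).1]
      exact Or.inr (Or.inr (big_of four (by rw [card_A4]; decide) _ (alt_aux f hf).2))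
    · exact Or.inr (Or.inr (big_of four (by rw [card_A4]; decide) _
        (MonoidHom.range_eq_top.mpr hf ▸ le_top)))
    · rw [← (alt_aux f hf).1]
      exact Or.inr (Or.inr (big_of five (by rw [SL5.card_A5]; decide) _ (alt_aux f hf).2))
    · exact Or.inr (Or.inr (big_of five (by rw [SL5.card_A5]; decide) _
        (MonoidHom.range_eq_top.mpr hf ▸ le_top)))
  rintro N₁ N₂ ⟨n1, z1, t1⟩ ⟨n2, z2, t2⟩
  have z1 := zg _ z1
  have z2 := zg _ z2
  have top : ∀ N : Subgroup G, IsZGroup N → N = ⊤ → IsZGroup G := by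
    rintro N hN rfl
    exact IsZGroup.of_surjective (f := (⊤ : Subgroup G).subtype) fun g => ⟨⟨g, trivial⟩, rfl⟩
  rcases tri _ t1 with e1 | e1 | e1 <;> rcases tri _ t2 with e2 | e2 | e2
  · rw [e1, e2]
  · exact absurd (top _ z1 e1) e2.1
  · exact absurd ((Subgroup.index_dvd_of_le (e2.2 _ n1 z1)).trans (by simp [e1])) e2.1
  · exact absurd (top _ z2 e2) e1.1
  · have h1 := index_le_four h (N₁ ⊓ N₂) fun g => ⟨e1.2.2 g, e2.2.2 g⟩
    have key : ∀ N : Subgroup G, N₁ ⊓ N₂ ≤ N → N.index = 4 → N₁ ⊓ N₂ = N := by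
      intro N hle hN
      apply Subgroup.eq_of_le_of_card_ge hle
      have a1 := N.card_mul_index
      have a2 := (N₁ ⊓ N₂).card_mul_index
      rw [hN, ← a2] at a1
      nlinarith
    rw [← key _ inf_le_left e1.2.1, key _ inf_le_right e2.2.1]
  · exact absurd (e1.2.1 ▸ Subgroup.index_dvd_of_le (e2.2 _ n1 z1)) e2.1
  · exact absurd ((Subgroup.index_dvd_of_le (e1.2 _ n2 z2)).trans (by simp [e2])) e1.1
  · exact absurd (e2.2.1 ▸ Subgroup.index_dvd_of_le (e1.2 _ n2 z2)) e1.1
  · exact le_antisymm (e2.2 _ n1 z1) (e1.2 _ n2 z2)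

end Cfsg.Agent.S4291
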