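import Cfsg.Statements.S4292
import Cfsg.Agent.H84.Quat

set_option autoImplicit false
set_option linter.style.haveILetI false
open Cfsg

namespace Cfsg.Agent.S4292

theorem aux {A B V W : Type*} [Group A] [Finite A] [Nontrivial A] [Group B] [Finite B]
    [AddCommGroup V] [Module ℚ V] [AddCommGroup W] [Module ℚ W] [Nontrivial V] [Nontrivial W]
    (ρA : Representation ℚ A V) (ρB : Representation ℚ B W)
    (h1 : ∀ g, g ≠ 1 → ∀ v, ρA g v = v → v = 0) (h2 : ∀ g, g ≠ 1 → ∀ v, ρB g v = v → v = 0)
    (hc : (Nat.card A).Coprime (Nat.card B)) :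
    ∃ (L : Type) (_ : Group L) (_ : Finite L) (H : Subgroup L),
      Cfsg.IsFrobeniusComplement H ∧ Nonempty ((A × B) ≃* H) := by
  let ρ := Representation.tprod (ρA.comp (MonoidHom.fst A B)) (ρB.comp (MonoidHom.snd A B))
  refine H84.exists_frob_of_fpf_end (R := ℚ) (M := TensorProduct ℚ V W) ρ ?_
  rintro ⟨a, b⟩ hab v hv
  have h3 : ∀ k : ℕ, ρ (a ^ k, b ^ k) v = v := fun k => by
    induction k with
    | zero => rw [pow_zero, pow_zero, ← Prod.one_eq_mk, map_one]; rfl
    | succ k ih =>
      rw [pow_succ, pow_succ, ← Prod.mk_mul_mk, map_mul, Module.End.mul_apply, hv, ih]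
  by_cases ha : a = 1
  · have hb : b ≠ 1 := fun hb => hab (by rw [ha, hb]; rfl)
    have h4 : Function.Injective (ρB b - LinearMap.id : W →ₗ[ℚ] W) :=
      (injective_iff_map_eq_zero _).2 fun w hw => h2 b hb w (sub_eq_zero.1 hw)
    apply Module.Flat.lTensor_preserves_injective_linearMap (M := V) _ h4
    rw [map_zero, LinearMap.lTensor_sub, LinearMap.lTensor_id, LinearMap.sub_apply, sub_eq_zero]
    refine Eq.trans ?_ hv
    simp only [ρ, ha, Representation.tprod_apply, MonoidHom.comp_apply, MonoidHom.coe_fst,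
      MonoidHom.coe_snd, map_one]
    rfl
  · have ha' : a ^ Nat.card B ≠ 1 := fun h => ha (orderOf_eq_one_iff.1
      (Nat.eq_one_of_dvd_coprimes hc (orderOf_dvd_natCard a) (orderOf_dvd_of_pow_eq_one h)))
    have h4 : Function.Injective (ρA (a ^ Nat.card B) - LinearMap.id : V →ₗ[ℚ] V) :=
      (injective_iff_map_eq_zero _).2 fun w hw => h1 _ ha' w (sub_eq_zero.1 hw)
    apply Module.Flat.rTensor_preserves_injective_linearMap (M := W) _ h4
    rw [map_zero, LinearMap.rTensor_sub, LinearMap.rTensor_id, LinearMap.sub_apply, sub_eq_zero]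
    refine Eq.trans ?_ (h3 (Nat.card B))
    simp only [ρ, pow_card_eq_one', Representation.tprod_apply, MonoidHom.comp_apply,
      MonoidHom.coe_fst, MonoidHom.coe_snd, map_one]
    rfl

/-- Let A and B be nontrivial finite groups. Then the direct product A × B occurs as a Frobenius complement if and only if A and B both occur as Frobenius complements and the orders of A and B are coprime. -/
theorem result {A B : Type*} [Group A] [Finite A] [Nontrivial A] [Group B] [Finite B] [Nontrivial B] :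
    (∃ (L : Type) (_ : Group L) (_ : Finite L) (H : Subgroup L), Cfsg.IsFrobeniusComplement H ∧ Nonempty ((A × B) ≃* H)) ↔
    ((∃ (L : Type) (_ : Group L) (_ : Finite L) (H : Subgroup L), Cfsg.IsFrobeniusComplement H ∧ Nonempty (A ≃* H)) ∧
     (∃ (L : Type) (_ : Group L) (_ : Finite L) (H : Subgroup L), Cfsg.IsFrobeniusComplement H ∧ Nonempty (B ≃* H)) ∧
     (Nat.card A).Coprime (Nat.card B)) := by
  constructor
  · intro h
    have h1 := H24.fpf_of_exists_frob h
    have hA := h1.of_injective (MonoidHom.inl A B) fun _ _ h => congrArg Prod.fst h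
    have hB := h1.of_injective (MonoidHom.inr A B) fun _ _ h => congrArg Prod.snd h
    haveI := hA.nontrivial_fpfSpace ℚ
    haveI := hB.nontrivial_fpfSpace ℚ
    refine ⟨H84.exists_frob_of_fpf_end (H24.fpfRep ℚ A) (H24.fpfRep_fpf ℚ ?_),
      H84.exists_frob_of_fpf_end (H24.fpfRep ℚ B) (H24.fpfRep_fpf ℚ ?_), ?_⟩
    · exact_mod_cast Nat.card_pos.ne'
    · exact_mod_cast Nat.card_pos.ne'
    · refine Nat.coprime_of_dvd fun p hp h2 h3 => ?_
      haveI := Fact.mk hp
      obtain ⟨a, ha⟩ := exists_prime_orderOf_dvd_card' p h2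
      obtain ⟨b, hb⟩ := exists_prime_orderOf_dvd_card' p h3
      obtain ⟨k, hk⟩ := h1.mem_zpowers_of_commute (x := (a, 1)) (z := (1, b)) (by simp)
        (by rw [Prod.orderOf_mk, orderOf_one, Nat.lcm_one_left, hb, ← ha]; simp)
      have h4 : a = 1 := by simpa using (congrArg Prod.fst hk).symm
      rw [h4, orderOf_one] at ha
      exact hp.one_lt.ne ha
  · rintro ⟨hA, hB, hc⟩
    haveI := (H24.fpf_of_exists_frob hA).nontrivial_fpfSpace ℚ
    haveI := (H24.fpf_of_exists_frob hB).nontrivial_fpfSpace ℚ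
    have h1 := H24.fpfRep_fpf (G := A) ℚ (by exact_mod_cast Nat.card_pos.ne')
    have h2 := H24.fpfRep_fpf (G := B) ℚ (by exact_mod_cast Nat.card_pos.ne')
    exact aux (H24.fpfRep ℚ A) (H24.fpfRep ℚ B) h1 h2 hc

end Cfsg.Agent.S4292
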