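import Cfsg.Statements.S4295
import Cfsg.Agent.H84.Quat

set_option autoImplicit false
set_option linter.style.haveILetI false
open Cfsg

namespace Cfsg.Agent.S4295

/-- For a natural number m the following are equivalent: (a) some finite group has a Frobenius complement isomorphic to the quaternion group of order 8 whose Frobenius kernel (the identity together with the elements lying in no conjugate of the complement) has exactly m elements; (b) m is an odd perfect square greater than 1. -/
theorem result (m : ℕ) :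
    (∃ (L : Type) (_ : Group L) (_ : Finite L) (H : Subgroup L), Cfsg.IsFrobeniusComplement H ∧
        Nonempty (H ≃* QuaternionGroup 2) ∧ Nat.card (Cfsg.frobeniusKernel H) = m) ↔
    (Odd m ∧ IsSquare m ∧ 1 < m) := by
  constructor
  · rintro ⟨L, _, _, H, hF, ⟨e⟩, rfl⟩
    haveI : Fact (Nat.Prime 2) := ⟨Nat.prime_two⟩
    have hc : Nat.card H = 2 ^ 3 := by
      rw [Nat.card_congr e.toEquiv, Nat.card_eq_fintype_card, QuaternionGroup.card]; rfl
    have hH : IsPGroup 2 H := IsPGroup.of_card hc
    obtain ⟨P, hP⟩ := (hH.to_subgroup ⊤).exists_le_sylow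
    have h1 : ¬ IsCyclic P := by
      intro h
      have h2 : IsCyclic (QuaternionGroup 2) :=
        isCyclic_of_surjective (e.toMonoidHom.comp (P : Subgroup H).subtype)
          (e.surjective.comp fun x => ⟨⟨x, hP (Subgroup.mem_top x)⟩, rfl⟩)
      have h3 := h2.isMulCommutative.is_comm.comm (QuaternionGroup.a 1) (QuaternionGroup.xa 0)
      exact absurd h3 (by decide)
    obtain ⟨h2, h3⟩ := H84.odd_isSquare_of_frob H hF ⟨2, inferInstance, P, h1⟩
    refine ⟨h2, h3, ?_⟩
    obtain ⟨N, hN1, hN, hc⟩ := S0035.result H hF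
    rw [← hN1]
    refine (Subgroup.one_lt_card_iff_ne_bot N).2 ?_
    rintro rfl
    exact hF.2.1 (Subgroup.isComplement'_bot_left.mp hc)
  · rintro ⟨h1, ⟨k, rfl⟩, h2⟩
    have hk : Odd k := (Nat.odd_mul.1 h1).1
    have hk1 : 1 < k := by
      rcases k with _ | _ | k <;> omega
    haveI : Fact (1 < k) := ⟨hk1⟩
    haveI : NeZero k := ⟨by omega⟩
    obtain ⟨a, b, hab⟩ := H84.exists_sq_add_sq_add_one hk
    have h3 : (a : ZMod k) ^ 2 + b ^ 2 + 1 = 0 := by
      exact_mod_cast (ZMod.intCast_zmod_eq_zero_iff_dvd _ k).2 hab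
    obtain ⟨f, hf⟩ := H84.exists_quat_hom (R := Matrix (Fin 2) (Fin 2) (ZMod k))
      !![0, -1; 1, 0] !![(a : ZMod k), b; b, -a]
      (by ext i j; fin_cases i <;> fin_cases j <;> simp)
      (by
        ext i j; fin_cases i <;> fin_cases j <;> simp
        · linear_combination h3
        · ring
        · ring
        · linear_combination h3)
      (by ext i j; fin_cases i <;> fin_cases j <;> simp)
    let ρ : QuaternionGroup 2 →* Module.End (ZMod k) (Fin 2 → ZMod k) :=
      (Matrix.toLinAlgEquiv' (R := ZMod k) (n := Fin 2)).toRingEquiv.toMonoidHom.comp f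
    have hρ : ∀ v, ρ (QuaternionGroup.a 2) v = -v := fun v => by
      change Matrix.toLinAlgEquiv' (f _) v = _
      rw [hf, map_neg, map_one]; rfl
    obtain ⟨L, i1, i2, H, h4, ⟨e⟩, h5⟩ := H84.exists_frob_of_fpf_rep ρ fun c hc v hv => by
      have h4 : c = QuaternionGroup.a 2 ∨ c * c = QuaternionGroup.a 2 := by
        clear hv; revert c; decide
      have h5 : -v = v := by
        rw [← hρ]
        rcases h4 with h4 | h4
        · rw [← h4, hv]
        · rw [← h4, map_mul, Module.End.mul_apply, hv, hv]
      obtain ⟨t, ht⟩ := hk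
      have h6 : (2 * t + 1 : ZMod k) = 0 := by
        have := ZMod.natCast_self k
        rw [ht] at this ⊢
        exact_mod_cast this
      ext i
      have h7 : -v i = v i := congrFun h5 i
      change v i = 0
      linear_combination (v i) * h6 + t * h7
    refine ⟨L, i1, i2, H, h4, ⟨e.symm⟩, ?_⟩
    rw [h5, Nat.card_fun, Nat.card_zmod, Nat.card_eq_fintype_card, Fintype.card_fin, sq]

end Cfsg.Agent.S4295
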