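import Cfsg.Statements.S4297
import Cfsg.Agent.H84.FrobFpf

set_option autoImplicit false
set_option linter.style.haveILetI false
open Cfsg

namespace Cfsg.Agent.S4297

/-- the action of the dicyclic group on the complex plane squared -/
@[reducible] noncomputable def actQ (n : ℕ) [NeZero n] (ψ : AddChar (ZMod (2 * n)) ℂ)
    (hψ : ψ (n : ZMod (2 * n)) = -1) : DistribMulAction (QuaternionGroup n) (ℂ × ℂ) where
  smul g v := match g with
    | QuaternionGroup.a i => (ψ i * v.1, ψ (-i) * v.2)
    | QuaternionGroup.xa i => (-(ψ (-i) * v.2), ψ i * v.1)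
  one_smul v := by
    show (ψ 0 * v.1, ψ (-0) * v.2) = v
    simp
  mul_smul g h v := by
    have hn : ψ (-(n : ZMod (2 * n))) = -1 := by
      have h1 : ψ (-(n : ZMod (2 * n))) * ψ n = 1 := by
        rw [← AddChar.map_add_eq_mul]; simp
      rw [hψ] at h1
      linear_combination -h1
    rcases g with i | i <;> rcases h with j | j
    · show (ψ (i + j) * v.1, ψ (-(i + j)) * v.2) = (ψ i * (ψ j * v.1), ψ (-i) * (ψ (-j) * v.2))
      rw [neg_add, AddChar.map_add_eq_mul, AddChar.map_add_eq_mul]
      ext <;> simp only [] <;> ring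
    · show (-(ψ (-(j - i)) * v.2), ψ (j - i) * v.1) =
        (ψ i * (-(ψ (-j) * v.2)), ψ (-i) * (ψ j * v.1))
      rw [neg_sub, sub_eq_add_neg, sub_eq_add_neg, AddChar.map_add_eq_mul, AddChar.map_add_eq_mul]
      ext <;> simp only [] <;> ring
    · show (-(ψ (-(i + j)) * v.2), ψ (i + j) * v.1) =
        (-(ψ (-i) * (ψ (-j) * v.2)), ψ i * (ψ j * v.1))
      rw [neg_add, AddChar.map_add_eq_mul, AddChar.map_add_eq_mul]
      ext <;> simp only [] <;> ring
    · show (ψ (n + j - i) * v.1, ψ (-(n + j - i)) * v.2) =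
        (-(ψ (-i) * (ψ j * v.1)), ψ i * (-(ψ (-j) * v.2)))
      rw [neg_sub, sub_eq_add_neg, sub_eq_add_neg, neg_add, AddChar.map_add_eq_mul,
        AddChar.map_add_eq_mul, AddChar.map_add_eq_mul, AddChar.map_add_eq_mul, hψ, hn]
      ext <;> simp only [] <;> ring
  smul_zero g := by
    rcases g with i | i
    · show (ψ i * 0, ψ (-i) * 0) = 0
      simp
    · show (-(ψ (-i) * 0), ψ i * 0) = 0
      simp
  smul_add g v w := by
    rcases g with i | i
    · show (ψ i * (v.1 + w.1), ψ (-i) * (v.2 + w.2)) =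
        (ψ i * v.1 + ψ i * w.1, ψ (-i) * v.2 + ψ (-i) * w.2)
      ext <;> simp only [] <;> ring
    · show (-(ψ (-i) * (v.2 + w.2)), ψ i * (v.1 + w.1)) =
        (-(ψ (-i) * v.2) + -(ψ (-i) * w.2), ψ i * v.1 + ψ i * w.1)
      ext <;> simp only [] <;> ring


/-- For every n ≥ 2 the dicyclic group of order 4n (generated by an element a of order 2n and an element x with x² = aⁿ and x a x⁻¹ = a⁻¹) occurs as a Frobenius complement of some finite Frobenius group. -/
theorem result (n : ℕ) (hn : 2 ≤ n) :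
    ∃ (L : Type) (_ : Group L) (_ : Finite L) (H : Subgroup L), Cfsg.IsFrobeniusComplement H ∧ Nonempty (H ≃* QuaternionGroup n) := by
  haveI : NeZero n := ⟨by omega⟩
  haveI : NeZero (2 * n) := ⟨by omega⟩
  let ψ : AddChar (ZMod (2 * n)) ℂ := ZMod.stdAddChar
  have hinj : ∀ i, ψ i = 1 → i = 0 := by
    intro i hi
    apply ZMod.injective_stdAddChar
    rw [AddChar.map_zero_eq_one]; exact hi
  have hψ : ψ (n : ZMod (2 * n)) = -1 := by
    have h1 : ψ n * ψ n = 1 := by
      rw [← AddChar.map_add_eq_mul, ← two_mul]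
      have : (2 * (n : ZMod (2 * n))) = ((2 * n : ℕ) : ZMod (2 * n)) := by push_cast; ring
      rw [this, ZMod.natCast_self, AddChar.map_zero_eq_one]
    rcases mul_self_eq_one_iff.1 h1 with h | h
    · have := hinj _ h
      rw [ZMod.natCast_eq_zero_iff] at this
      have := Nat.le_of_dvd (by omega) this
      omega
    · exact h
  letI := actQ n ψ hψ
  obtain ⟨L, i1, i2, H, h1, ⟨e⟩⟩ := H84.exists_frob_of_fpf_distrib
    (C := QuaternionGroup n) (M := ℂ × ℂ) (by
      intro g hg v hv
      rcases g with i | i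
      · have hi : i ≠ 0 := by rintro rfl; exact hg rfl
        have hv : (ψ i * v.1, ψ (-i) * v.2) = v := hv
        have h1 : ψ i * v.1 = v.1 := congrArg Prod.fst hv
        have h2 : ψ (-i) * v.2 = v.2 := congrArg Prod.snd hv
        ext
        · by_contra h0
          exact hi (hinj _ (mul_right_cancel₀ h0 (by rw [h1, one_mul])))
        · by_contra h0
          exact hi (neg_eq_zero.1 (hinj _ (mul_right_cancel₀ h0 (by rw [h2, one_mul]))))
      · have hv : (-(ψ (-i) * v.2), ψ i * v.1) = v := hv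
        have h1 : -(ψ (-i) * v.2) = v.1 := congrArg Prod.fst hv
        have h2 : ψ i * v.1 = v.2 := congrArg Prod.snd hv
        have h3 : ψ (-i) * ψ i = 1 := by rw [← AddChar.map_add_eq_mul]; simp
        have h4 : v.1 = 0 := by
          have : 2 * v.1 = 0 := by linear_combination -h1 + ψ (-i) * h2 - v.1 * h3
          simpa using this
        ext
        · exact h4
        · rw [← h2, h4]; simp)
  exact ⟨L, i1, i2, H, h1, ⟨e.symm⟩⟩

end Cfsg.Agent.S4297
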