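import Cfsg.Statements.S4298
import Cfsg.Agent.H84.Frob

set_option autoImplicit false
set_option linter.style.haveILetI false
open Cfsg

namespace Cfsg.Agent.S4298

/-- table of an embedding of SL(2,3) into SL(2,5) -/
def tblN : ℕ → ℕ → ℕ → ℕ → ZMod 5 × ZMod 5 × ZMod 5 × ZMod 5
  | 1, 0, 0, 1 => (1, 0, 0, 1)
  | 1, 1, 0, 1 => (0, 1, 4, 4)
  | 1, 0, 1, 1 => (2, 1, 3, 2)
  | 1, 1, 1, 2 => (4, 1, 3, 1)
  | 1, 0, 2, 1 => (2, 4, 2, 2)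
  | 1, 1, 2, 0 => (1, 3, 3, 0)
  | 1, 2, 2, 2 => (2, 3, 0, 3)
  | 2, 1, 2, 0 => (1, 2, 1, 3)
  | 2, 0, 2, 2 => (3, 4, 2, 3)
  | 0, 1, 2, 0 => (3, 0, 1, 2)
  | 0, 1, 2, 2 => (0, 3, 3, 4)
  | 0, 1, 2, 1 => (2, 2, 1, 4)
  | 2, 2, 2, 1 => (1, 4, 2, 4)
  | 2, 0, 1, 2 => (3, 1, 3, 3)
  | 2, 2, 1, 0 => (4, 2, 2, 0)
  | 2, 0, 0, 2 => (4, 0, 0, 4)
  | 2, 2, 0, 2 => (0, 4, 1, 1)
  | 2, 1, 0, 2 => (1, 1, 4, 0)
  | 2, 1, 1, 1 => (3, 2, 0, 2)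
  | 1, 2, 1, 0 => (4, 3, 4, 2)
  | 0, 2, 1, 0 => (2, 0, 4, 3)
  | 0, 2, 1, 1 => (0, 2, 2, 1)
  | 0, 2, 1, 2 => (3, 3, 4, 1)
  | 1, 2, 0, 1 => (4, 4, 1, 0)
  | _, _, _, _ => (0, 0, 0, 0)

def tbl (a b c d : ZMod 3) : ZMod 5 × ZMod 5 × ZMod 5 × ZMod 5 := tblN a.val b.val c.val d.val

def mul4 (m n : ZMod 5 × ZMod 5 × ZMod 5 × ZMod 5) : ZMod 5 × ZMod 5 × ZMod 5 × ZMod 5 :=
  (m.1 * n.1 + m.2.1 * n.2.2.1, m.1 * n.2.1 + m.2.1 * n.2.2.2,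
    m.2.2.1 * n.1 + m.2.2.2 * n.2.2.1, m.2.2.1 * n.2.1 + m.2.2.2 * n.2.2.2)

def act4 (m : ZMod 5 × ZMod 5 × ZMod 5 × ZMod 5) (v : ZMod 5 × ZMod 5) : ZMod 5 × ZMod 5 :=
  (m.1 * v.1 + m.2.1 * v.2, m.2.2.1 * v.1 + m.2.2.2 * v.2)

theorem act4_mul (m n : ZMod 5 × ZMod 5 × ZMod 5 × ZMod 5) (v : ZMod 5 × ZMod 5) :
    act4 (mul4 m n) v = act4 m (act4 n v) := by
  simp only [act4, mul4]
  ext <;> simp only [] <;> ring

theorem tbl_mul : ∀ a b c d : ZMod 3, a * d - b * c = 1 → ∀ e f g h : ZMod 3, e * h - f * g = 1 →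
    tbl (a * e + b * g) (a * f + b * h) (c * e + d * g) (c * f + d * h) =
      mul4 (tbl a b c d) (tbl e f g h) := by
  decide +kernel

theorem tbl_fpf' : ∀ a b c d : ZMod 3, a * d - b * c = 1 → ∀ x y : ZMod 5,
    act4 (tbl a b c d) (x, y) = (x, y) → (x, y) = (0, 0) ∨ (a, b, c, d) = (1, 0, 0, 1) := by
  set_option synthInstance.maxSize 1000 in decide +kernel

theorem tbl_fpf (a b c d : ZMod 3) (h : a * d - b * c = 1) (v : ZMod 5 × ZMod 5)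
    (hv : act4 (tbl a b c d) v = v) : v = 0 ∨ (a = 1 ∧ b = 0 ∧ c = 0 ∧ d = 1) := by
  rcases tbl_fpf' a b c d h v.1 v.2 hv with h | h
  · left; exact h
  · right; simpa using h

theorem det_eq (A : Matrix.SpecialLinearGroup (Fin 2) (ZMod 3)) :
    A.1 0 0 * A.1 1 1 - A.1 0 1 * A.1 1 0 = 1 := by
  have := A.2
  rwa [Matrix.det_fin_two] at this

/-- the action of SL(2,3) on the plane over the field with five elements -/
@[reducible] def actSL : DistribMulAction (Matrix.SpecialLinearGroup (Fin 2) (ZMod 3)) (ZMod 5 × ZMod 5) where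
  smul A v := act4 (tbl (A.1 0 0) (A.1 0 1) (A.1 1 0) (A.1 1 1)) v
  one_smul v := by
    show act4 (tbl 1 0 0 1) v = v
    revert v; decide +kernel
  mul_smul A B v := by
    show act4 (tbl ((A * B).1 0 0) ((A * B).1 0 1) ((A * B).1 1 0) ((A * B).1 1 1)) v =
      act4 (tbl (A.1 0 0) (A.1 0 1) (A.1 1 0) (A.1 1 1))
        (act4 (tbl (B.1 0 0) (B.1 0 1) (B.1 1 0) (B.1 1 1)) v)
    rw [← act4_mul, ← tbl_mul _ _ _ _ (det_eq A) _ _ _ _ (det_eq B)]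
    simp [Matrix.mul_apply, Fin.sum_univ_two]
  smul_zero A := by
    show act4 _ 0 = 0
    simp [act4]
  smul_add A v w := by
    show act4 _ (v + w) = act4 _ v + act4 _ w
    simp only [act4]
    ext <;> simp <;> ring


/-- The group SL(2,3) of order 24 (the binary tetrahedral group) occurs as a Frobenius complement of some finite Frobenius group. -/
theorem result :
    ∃ (L : Type) (_ : Group L) (_ : Finite L) (H : Subgroup L), Cfsg.IsFrobeniusComplement H ∧ Nonempty (H ≃* Matrix.SpecialLinearGroup (Fin 2) (ZMod 3)) := by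
  letI := actSL
  haveI : Nontrivial (ZMod 5 × ZMod 5) := ⟨⟨(0, 0), (0, 1), by decide⟩⟩
  haveI : Nontrivial (Matrix.SpecialLinearGroup (Fin 2) (ZMod 3)) :=
    ⟨⟨1, ⟨!![1, 1; 0, 1], by decide⟩, fun h => by
      have := congrArg (fun A : Matrix.SpecialLinearGroup (Fin 2) (ZMod 3) => A.1 0 1) h
      revert this; decide⟩⟩
  obtain ⟨L, i1, i2, H, h1, ⟨e⟩, -⟩ := H84.exists_frob_of_fpf_add
    (C := Matrix.SpecialLinearGroup (Fin 2) (ZMod 3)) (V := ZMod 5 × ZMod 5) (by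
      intro A hA v hv
      rcases tbl_fpf _ _ _ _ (det_eq A) v hv with h | ⟨h1, h2, h3, h4⟩
      · exact h
      · exfalso
        apply hA
        ext i j
        fin_cases i <;> fin_cases j <;> simp [h1, h2, h3, h4])
  exact ⟨L, i1, i2, H, h1, ⟨e.symm⟩⟩

end Cfsg.Agent.S4298
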