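import Cfsg.Statements.S4299
import Cfsg.Agent.H84.FrobFpf

set_option autoImplicit false
open Cfsg

namespace Cfsg.Agent.S4299

/-- Every nontrivial finite cyclic group occurs as a Frobenius complement of some finite Frobenius group. -/
theorem result {C : Type*} [Group C] [Finite C] [IsCyclic C] [Nontrivial C] :
    ∃ (L : Type) (_ : Group L) (_ : Finite L) (H : Subgroup L), Cfsg.IsFrobeniusComplement H ∧ Nonempty (C ≃* H) := by
  haveI : NeZero (Nat.card C) := ⟨Nat.card_pos.ne'⟩
  have hcard : Nat.card C = Nat.card (rootsOfUnity (Nat.card C) ℂ) := by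
    rw [Complex.card_rootsOfUnity]
  let e : C ≃* rootsOfUnity (Nat.card C) ℂ := mulEquivOfCyclicCardEq hcard
  letI : DistribMulAction C ℂ := DistribMulAction.compHom ℂ e.toMonoidHom
  apply H84.exists_frob_of_fpf_distrib (M := ℂ)
  intro c hc v hv
  by_contra hv0
  apply hc
  have : (((e c : rootsOfUnity (Nat.card C) ℂ) : ℂˣ) : ℂ) * v = v := hv
  have h2 : (((e c : rootsOfUnity (Nat.card C) ℂ) : ℂˣ) : ℂ) = 1 :=
    mul_right_cancel₀ hv0 (by rw [this, one_mul])
  exact (map_eq_one_iff e e.injective).1 (Subtype.ext (Units.ext h2))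

end Cfsg.Agent.S4299
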