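import Cfsg.Statements.S4300

set_option autoImplicit false
set_option linter.style.haveILetI false
open Cfsg

namespace Cfsg.Agent.S4300

/-- Let G act faithfully and primitively on a set X, and suppose the stabilizer of some point is a simple group. Then either G is simple, or G has a normal subgroup, neither trivial nor the whole group, that acts regularly on X (transitively with trivial point stabilizers). -/
theorem result {G : Type*} [Group G] {X : Type*} [MulAction G X] [FaithfulSMul G X]
    (hprim : MulAction.IsPreprimitive G X) (x : X) (hsimple : IsSimpleGroup (MulAction.stabilizer G x)) :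
    IsSimpleGroup G ∨ ∃ N : Subgroup G, N.Normal ∧ N ≠ ⊥ ∧ N ≠ ⊤ ∧
      MulAction.IsPretransitive N X ∧ ∀ y : X, MulAction.stabilizer N y = ⊥ := by
  by_cases hG : IsSimpleGroup G
  · exact Or.inl hG
  right
  haveI : Nontrivial G := by
    obtain ⟨a, b, hab⟩ := hsimple.toNontrivial
    exact ⟨⟨a, b, fun h => hab (Subtype.ext h)⟩⟩
  have : ∃ N : Subgroup G, N.Normal ∧ N ≠ ⊥ ∧ N ≠ ⊤ := by
    by_contra h
    apply hG
    refine ⟨fun N hN => ?_⟩
    by_contra h2
    push Not at h2
    exact h ⟨N, hN, h2.1, h2.2⟩
  obtain ⟨N, hN, h1, h2⟩ := this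
  have htr : MulAction.IsPretransitive N X := by
    apply MulAction.IsQuasiPreprimitive.isPretransitive_of_normal
    intro h
    apply h1
    rw [eq_bot_iff]
    intro g hg
    rw [Subgroup.mem_bot]
    apply FaithfulSMul.eq_of_smul_eq_smul (α := X)
    intro y
    have : y ∈ MulAction.fixedPoints N X := h ▸ Set.mem_univ _
    rw [one_smul]
    exact this ⟨g, hg⟩
  refine ⟨N, hN, h1, h2, htr, ?_⟩
  have hx : ∀ g ∈ N, g • x = x → g = 1 := by
    rcases hsimple.eq_bot_or_eq_top_of_normal (N.subgroupOf (MulAction.stabilizer G x))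
      inferInstance with h | h
    · intro g hg hgx
      have : (⟨g, hgx⟩ : MulAction.stabilizer G x) ∈ N.subgroupOf (MulAction.stabilizer G x) := hg
      rw [h, Subgroup.mem_bot] at this
      exact congrArg Subtype.val this
    · exfalso
      apply h2
      rw [eq_top_iff]
      intro g _
      obtain ⟨n, hn⟩ := htr.exists_smul_eq x (g • x)
      have h3 : (n : G)⁻¹ * g ∈ MulAction.stabilizer G x := by
        rw [MulAction.mem_stabilizer_iff, mul_smul, inv_smul_eq_iff]
        exact hn.symm
      have h4 : (⟨_, h3⟩ : MulAction.stabilizer G x) ∈ N.subgroupOf (MulAction.stabilizer G x) :=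
        h ▸ Subgroup.mem_top _
      have := N.mul_mem n.2 (Subgroup.mem_subgroupOf.1 h4)
      simpa using this
  intro y
  rw [eq_bot_iff]
  intro n hn
  rw [Subgroup.mem_bot]
  obtain ⟨g, rfl⟩ := htr.exists_smul_eq x y
  have h3 : ((g⁻¹ * n * g : N) : G) • x = x := by
    show (g⁻¹ * n * g) • x = x
    rw [mul_smul, mul_smul, inv_smul_eq_iff]
    exact hn
  have h4 : g⁻¹ * n * g = 1 := Subtype.ext (hx _ (g⁻¹ * n * g).2 h3)
  have : n = g * (g⁻¹ * n * g) * g⁻¹ := by group
  rw [this, h4]; simp

end Cfsg.Agent.S4300
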