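import Cfsg.Statements.S4301

set_option autoImplicit false
set_option linter.style.haveILetI false
open Cfsg

namespace Cfsg.Agent.S4301

/-- One-point extension of a multiply transitive group. Let X be a set and G a group of permutations of Option X (the set X with one extra point ∗ = none) all of whose elements fix ∗, such that G is k-transitive on the points of X for some k ≥ 2, X having at least k points. Suppose a permutation h of Option X and an element g of G satisfy: h interchanges ∗ with a point x of X and fixes a point y of X; g interchanges x and y; (g h)³ and h² lie in G; and for every f in G fixing x, the product h f h lies in G and fixes x. Then an element of the group generated by G and h fixes ∗ exactly when it lies in G, and that group acts (k+1)-transitively on Option X. -/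
theorem result {X : Type*} (G : Subgroup (Equiv.Perm (Option X))) (hfix : ∀ f ∈ G, f none = none)
    (k : ℕ) (hk : 2 ≤ k) (hkX : Nonempty (Fin k ↪ X))
    (htrans : ∀ a b : Fin k ↪ X, ∃ f ∈ G, ∀ i, f (some (a i)) = some (b i))
    (h g : Equiv.Perm (Option X)) (hg : g ∈ G) (x y : X)
    (h1 : h none = some x) (h2 : h (some x) = none) (h3 : h (some y) = some y)
    (h4 : g (some x) = some y) (h5 : g (some y) = some x)
    (h6 : (g * h) ^ 3 ∈ G) (h7 : h ^ 2 ∈ G)
    (h8 : ∀ f ∈ G, f (some x) = some x → h * f * h ∈ G ∧ (h * f * h) (some x) = some x) :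
    (∀ f ∈ Subgroup.closure ((G : Set (Equiv.Perm (Option X))) ∪ {h}), f none = none ↔ f ∈ G) ∧
      MulAction.IsMultiplyPretransitive (Subgroup.closure ((G : Set (Equiv.Perm (Option X))) ∪ {h})) (Option X) (k + 1) := by
  classical
  have hxy : x ≠ y := by
    rintro rfl
    rw [h2] at h3
    cases h3
  obtain ⟨e⟩ := hkX
  -- two-transitivity
  have htwo : ∀ u v u' v' : X, u ≠ v → u' ≠ v' →
      ∃ f ∈ G, f (some u) = some u' ∧ f (some v) = some v' := by
    have hext : ∀ u v : X, u ≠ v → ∃ a : Fin k ↪ X, a ⟨0, by omega⟩ = u ∧ a ⟨1, by omega⟩ = v := by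
      intro u v huv
      have he : e ⟨0, by omega⟩ ≠ e ⟨1, by omega⟩ := fun h => by
        have := e.injective h
        simp at this
      obtain ⟨σ, hσ⟩ := Equiv.Perm.exists_extending_pair (α := Fin 2)
        (f := ![e ⟨0, by omega⟩, e ⟨1, by omega⟩]) (g := ![u, v])
        (by intro i j; fin_cases i <;> fin_cases j <;> simp [he, he.symm])
        (by intro i j; fin_cases i <;> fin_cases j <;> simp [huv, huv.symm])
      exact ⟨e.trans σ.toEmbedding, hσ 0, hσ 1⟩
    intro u v u' v' huv huv'
    obtain ⟨a, ha1, ha2⟩ := hext u v huv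
    obtain ⟨b, hb1, hb2⟩ := hext u' v' huv'
    obtain ⟨f, hf, hfab⟩ := htrans a b
    refine ⟨f, hf, ?_, ?_⟩
    · rw [← ha1, ← hb1]; exact hfab _
    · rw [← ha2, ← hb2]; exact hfab _
  have hsome : ∀ f ∈ G, ∀ u : X, ∃ v : X, f (some u) = some v := by
    intro f hf u
    cases hv : f (some u) with
    | none => exact absurd (f.injective (hv.trans (hfix f hf).symm)) (by simp)
    | some v => exact ⟨v, rfl⟩
  have hh2 : h * h ∈ G := by rwa [pow_two] at h7
  have hgh : ∃ a ∈ G, ∃ b ∈ G, h⁻¹ * g * h⁻¹ = a * h * b := by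
    refine ⟨(h * h)⁻¹ * g⁻¹ * (g * h) ^ 3 * (h * h)⁻¹, ?_, g⁻¹ * (h * h)⁻¹, ?_, ?_⟩
    · exact G.mul_mem (G.mul_mem (G.mul_mem (G.inv_mem hh2) (G.inv_mem hg)) h6) (G.inv_mem hh2)
    · exact G.mul_mem (G.inv_mem hg) (G.inv_mem hh2)
    · simp only [pow_succ, pow_zero, one_mul]
      group
  have hkey : ∀ f ∈ G, h * f * h ∈ G ∨ ∃ a ∈ G, ∃ b ∈ G, h * f * h = a * h * b := by
    intro f hf
    obtain ⟨z, hz⟩ := hsome f hf x
    by_cases hzx : z = x
    · left
      exact (h8 f hf (hzx ▸ hz)).1
    · right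
      obtain ⟨a, ha, ha1, ha2⟩ := htwo x y x z hxy (Ne.symm hzx)
      have hb : g⁻¹ * a⁻¹ * f ∈ G := G.mul_mem (G.mul_mem (G.inv_mem hg) (G.inv_mem ha)) hf
      have hbx : (g⁻¹ * a⁻¹ * f) (some x) = some x := by
        simp only [Equiv.Perm.mul_apply]
        rw [hz, ← ha2, Equiv.Perm.inv_eq_iff_eq, Equiv.Perm.inv_eq_iff_eq, h4]
      obtain ⟨c, hc, d, hd, hcd⟩ := hgh
      refine ⟨h * a * h * c, G.mul_mem (h8 a ha ha1).1 hc, d * (h * (g⁻¹ * a⁻¹ * f) * h),
        G.mul_mem hd (h8 _ hb hbx).1, ?_⟩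
      calc h * f * h = h * a * h * (h⁻¹ * g * h⁻¹) * (h * (g⁻¹ * a⁻¹ * f) * h) := by group
        _ = _ := by rw [hcd]; group
  let S : Subgroup (Equiv.Perm (Option X)) :=
    { carrier := {f | f ∈ G ∨ ∃ a ∈ G, ∃ b ∈ G, f = a * h * b}
      one_mem' := Or.inl G.one_mem
      mul_mem' := by
        rintro f f' (hf | ⟨a, ha, b, hb, rfl⟩) (hf' | ⟨a', ha', b', hb', rfl⟩)
        · exact Or.inl (G.mul_mem hf hf')
        · exact Or.inr ⟨f * a', G.mul_mem hf ha', b', hb', by group⟩
        · exact Or.inr ⟨a, ha, b * f', G.mul_mem hb hf', by group⟩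
        · rcases hkey (b * a') (G.mul_mem hb ha') with h9 | ⟨c, hc, d, hd, hcd⟩
          · left
            have : a * h * b * (a' * h * b') = a * (h * (b * a') * h) * b' := by group
            rw [this]
            exact G.mul_mem (G.mul_mem ha h9) hb'
          · right
            refine ⟨a * c, G.mul_mem ha hc, d * b', G.mul_mem hd hb', ?_⟩
            calc a * h * b * (a' * h * b') = a * (h * (b * a') * h) * b' := by group
              _ = _ := by rw [hcd]; group
      inv_mem' := by
        rintro f (hf | ⟨a, ha, b, hb, rfl⟩)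
        · exact Or.inl (G.inv_mem hf)
        · exact Or.inr ⟨b⁻¹ * (h * h)⁻¹, G.mul_mem (G.inv_mem hb) (G.inv_mem hh2), a⁻¹,
            G.inv_mem ha, by group⟩ }
  have hKS : Subgroup.closure ((G : Set (Equiv.Perm (Option X))) ∪ {h}) ≤ S := by
    rw [Subgroup.closure_le]
    rintro f (hf | rfl)
    · exact Or.inl hf
    · exact Or.inr ⟨1, G.one_mem, 1, G.one_mem, by group⟩
  have hGK : G ≤ Subgroup.closure ((G : Set (Equiv.Perm (Option X))) ∪ {h}) :=
    fun f hf => Subgroup.subset_closure (Or.inl hf)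
  have hhK : h ∈ Subgroup.closure ((G : Set (Equiv.Perm (Option X))) ∪ {h}) :=
    Subgroup.subset_closure (Or.inr rfl)
  constructor
  · intro f hf
    refine ⟨fun h0 => ?_, hfix f⟩
    rcases hKS hf with hf | ⟨a, ha, b, hb, rfl⟩
    · exact hf
    · exfalso
      simp only [Equiv.Perm.mul_apply] at h0
      rw [hfix b hb, h1] at h0
      obtain ⟨v, hv⟩ := hsome a ha x
      rw [hv] at h0
      cases h0
  · have hto : ∀ w : Option X, ∃ t ∈ Subgroup.closure ((G : Set (Equiv.Perm (Option X))) ∪ {h}),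
        t w = none := by
      intro w
      cases w with
      | none => exact ⟨1, Subgroup.one_mem _, rfl⟩
      | some u =>
        obtain ⟨v, hv⟩ : ∃ v : X, v ≠ u := by
          by_cases hu : x = u
          · exact ⟨y, hu ▸ hxy.symm⟩
          · exact ⟨x, hu⟩
        obtain ⟨f, hf, hf1, -⟩ := htwo u v x y hv.symm hxy
        exact ⟨h * f, Subgroup.mul_mem _ hhK (hGK hf), by
          rw [Equiv.Perm.mul_apply, hf1, h2]⟩
    have hred : ∀ a : Fin (k + 1) ↪ Option X,
        ∃ t ∈ Subgroup.closure ((G : Set (Equiv.Perm (Option X))) ∪ {h}), t (a 0) = none ∧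
          ∃ a' : Fin k ↪ X, ∀ i, t (a i.succ) = some (a' i) := by
      intro a
      obtain ⟨t, ht, ht0⟩ := hto (a 0)
      have : ∀ i : Fin k, ∃ v : X, t (a i.succ) = some v := by
        intro i
        cases hv : t (a i.succ) with
        | none =>
          exact absurd (a.injective (t.injective (hv.trans ht0.symm))) (Fin.succ_ne_zero i)
        | some v => exact ⟨v, rfl⟩
      choose a' ha' using this
      refine ⟨t, ht, ht0, ⟨a', fun i j hij => ?_⟩, ha'⟩
      have : t (a i.succ) = t (a j.succ) := by rw [ha', ha', hij]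
      exact Fin.succ_injective _ (a.injective (t.injective this))
    refine ⟨fun a b => ?_⟩
    obtain ⟨t, ht, ht0, a', ha'⟩ := hred a
    obtain ⟨s, hs, hs0, b', hb'⟩ := hred b
    obtain ⟨f, hf, hfab⟩ := htrans a' b'
    refine ⟨⟨s⁻¹ * f * t, Subgroup.mul_mem _ (Subgroup.mul_mem _ (Subgroup.inv_mem _ hs)
      (hGK hf)) ht⟩, ?_⟩
    ext1 i
    show (s⁻¹ * f * t) (a i) = b i
    simp only [Equiv.Perm.mul_apply]
    rw [Equiv.Perm.inv_eq_iff_eq]
    refine Fin.cases ?_ (fun i => ?_) i
    · rw [ht0, hs0, hfix f hf]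
    · rw [ha', hb', hfab]

end Cfsg.Agent.S4301
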