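import Cfsg.Statements.S4306
import Cfsg.Agent.H89.PQ3

set_option autoImplicit false
open Cfsg

namespace Cfsg.Agent.S4306


/-- Let `A` be a non-abelian group of order `pq` with `p, q` distinct primes, acting by automorphisms on a finite solvable group `G` of order prime to `pq`, so that only the identity of `G` is fixed by all of `A`. Then `G` has Fitting height at most 2: there is a normal nilpotent subgroup `F` of `G` with `G/F` nilpotent. -/
theorem result {G A : Type*} [Group G] [Finite G]
    [Group.IsSolvable G] [Group A] [Finite A] [MulDistribMulAction A G] (p q : ℕ) (hp : p.Prime) (hq : q.Prime) (hpq : p ≠ q)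
    (hA : Nat.card A = p * q) (hAna : ¬ IsMulCommutative A) (hcop : (Nat.card G).Coprime (p * q))
    (hfpf : ∀ g : G, (∀ a : A, a • g = g) → g = 1) :
    ∃ F : Subgroup G, ∃ hF : F.Normal, Group.IsNilpotent ↥F ∧ Group.IsNilpotent (G ⧸ F) := by
  have h : H44.lns 2 (⊤ : Subgroup G) = ⊥ := by
    rcases lt_or_gt_of_ne hpq with h | h
    · obtain ⟨s, hs⟩ := H89.exists_pq hp hq h hA hAna
      exact (hs.amb hcop hfpf).1
    · obtain ⟨s, hs⟩ := H89.exists_pq hq hp h (mul_comm p q ▸ hA) hAna
      exact (hs.amb (mul_comm p q ▸ hcop) hfpf).1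
  have hF := H44.lns_normal 1 (⊤ : Subgroup G)
  refine ⟨H44.lns 1 ⊤, hF, H44.nilRes_eq_bot_iff.1 h, ?_⟩
  have h1 : H44.nilRes (⊤ : Subgroup (G ⧸ H44.lns 1 (⊤ : Subgroup G))) = ⊥ := by
    rw [← Subgroup.map_top_of_surjective _ (QuotientGroup.mk'_surjective _), ← H44.map_nilRes,
      Subgroup.map_eq_bot_iff, QuotientGroup.ker_mk']
    exact le_rfl
  have := H44.nilRes_eq_bot_iff.1 h1
  exact Group.nilpotent_of_mulEquiv Subgroup.topEquiv

end Cfsg.Agent.S4306
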