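import Cfsg.Statements.S4309
import Cfsg.Agent.H19.Basic

set_option autoImplicit false
set_option linter.style.haveILetI false
open Cfsg

namespace Cfsg.Agent.S4309

/-- Let `π` be a set of primes, `G` a finite group with a Hall `π`-subgroup `H` (every prime divisor of the order of `H` lies in `π` and no prime of `π` divides its index), and `A` a normal subgroup of `G`. Then `H ∩ A` is a Hall `π`-subgroup of `A` and the image of `H` in `G/A` is a Hall `π`-subgroup of `G/A`. -/
theorem result {G : Type*} [Group G] [Finite G] (π : Set ℕ)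
    (H A : Subgroup G) [A.Normal] (hH : Cfsg.IsPiHall π H) :
    Cfsg.IsPiHall π ((H ⊓ A).subgroupOf A) ∧ Cfsg.IsPiHall π (H.map (QuotientGroup.mk' A)) := by
  obtain ⟨h1, h2⟩ := hH
  refine ⟨⟨fun p hp hd => h1 p hp ?_, fun p hp hπ hd => h2 p hp hπ ?_⟩,
    ⟨fun p hp hd => h1 p hp ?_, fun p hp hπ hd => h2 p hp hπ ?_⟩⟩
  · rw [Nat.card_congr (Subgroup.subgroupOfEquivOfLe (inf_le_right : H ⊓ A ≤ A)).toEquiv] at hd
    exact hd.trans (Subgroup.card_dvd_of_le inf_le_left)
  · have := H19.relIndex_dvd_index_of_normal_right H A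
    rw [← Subgroup.inf_relIndex_right] at this
    exact hd.trans this
  · exact hd.trans (Subgroup.card_map_dvd _ _)
  · exact hd.trans (Subgroup.index_map_dvd _ (QuotientGroup.mk'_surjective _))

end Cfsg.Agent.S4309
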