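import Cfsg.Statements.S4314
import Cfsg.Agent.S0143
import Cfsg.Agent.H84.SqFree

set_option autoImplicit false
set_option linter.style.haveILetI false
open Cfsg

namespace Cfsg.Agent.S4314

open Subgroup Cfsg.Agent.H83
open scoped commutatorElement

universe u

theorem solv (n : ℕ) : ∀ (G : Type u) [Group G] [Finite G], Nat.card G = n →
    (∀ x : G, cs(x) = 1 ∨ (cs(x)).Prime) → Group.IsSolvable G := by
  induction n using Nat.strong_induction_on with
  | _ n ih =>
  intro G _ _ hn h
  have h0 : ∀ {a b : ℕ}, a ∣ b → (b = 1 ∨ b.Prime) → (a = 1 ∨ a.Prime) := by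
    rintro a b hab (rfl | hb)
    · exact Or.inl (Nat.dvd_one.1 hab)
    · exact ((Nat.dvd_prime hb).1 hab).imp id fun (h : a = b) => h ▸ hb
  by_cases hN : ∃ N : Subgroup G, N.Normal ∧ N ≠ ⊥ ∧ N ≠ ⊤
  · obtain ⟨N, hN, h0', h1⟩ := hN
    haveI := ih _ (hn ▸ H19.card_lt_of_ne_top h1) N rfl fun x => h0 (cs_normal_dvd N x) (h x)
    haveI := ih _ (hn ▸ H19.card_quotient_lt h0') (G ⧸ N) rfl fun x => by
      obtain ⟨x, rfl⟩ := QuotientGroup.mk_surjective x
      exact h0 (cs_quotient_dvd N x) (h x)
    exact Group.isSolvable_of_ker_le_range N.subtype (QuotientGroup.mk' N) (by simp)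
  push Not at hN
  by_cases h1 : ∀ x : G, x ∈ center G
  · exact Group.isSolvable_of_comm fun a b => mem_center_iff.1 (h1 b) a
  push Not at h1
  obtain ⟨x, hx⟩ := h1
  have hx1 : x ≠ 1 := fun h => hx (h ▸ one_mem _)
  haveI : Nontrivial G := ⟨⟨x, 1, hx1⟩⟩
  haveI : IsSimpleGroup G := ⟨fun N hN' => by
    by_cases h2 : N = ⊥
    · exact Or.inl h2
    · exact Or.inr (hN N hN' h2)⟩
  have h2 := (h x).resolve_left fun h => hx (cs_eq_one_iff.1 h)
  haveI := Fact.mk (S0143.result _ 1 h2 x hx1 (pow_one _).symm)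
  haveI : IsCyclic G := isCyclic_of_prime_card rfl
  infer_instance

/-- Let `G` be a finite group every conjugacy class of which has size 1 or a prime. Then either `G` is nilpotent of class at most 2, or `G/Z(G)` is a non-abelian group of order `pq` for distinct primes `p, q` (a Frobenius group of order `pq`). -/
theorem result {G : Type*} [Group G] [Finite G]
    (h : ∀ x : G, (Subgroup.centralizer ({x} : Set G)).index = 1 ∨ ((Subgroup.centralizer ({x} : Set G)).index).Prime) :
    Subgroup.upperCentralSeries G 2 = ⊤ ∨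
      ∃ p q : ℕ, p.Prime ∧ q.Prime ∧ p ≠ q ∧ Nat.card (G ⧸ Subgroup.center G) = p * q ∧ ¬ IsMulCommutative (G ⧸ Subgroup.center G) := by
  haveI : Group.IsSolvable G := solv _ G rfl h
  have hsq : ∀ x : G, Squarefree cs(x) := fun x => (h x).elim (fun h => h ▸ squarefree_one)
    fun h => h.prime.squarefree
  have hc := H84.isCyclic_commutator_of_squarefree hsq
  have hs := H84.squarefree_card_commutator hsq
  by_cases h0 : commutator G ≤ center G
  · left
    refine eq_top_iff.2 fun x _ => Subgroup.mem_upperCentralSeries_succ_iff.2 fun y => ?_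
    rw [Subgroup.upperCentralSeries_one]
    exact h0 (commutator_mem_commutator (mem_top x) (mem_top y))
  right
  have hna : ¬ IsMulCommutative (G ⧸ center G) := fun h1 =>
    h0 (Normal.quotient_commutative_iff_commutator_le.1 h1)
  obtain ⟨p, hp, u, hu, ho, huZ⟩ := H84.exists_prime_order_not_mem hs h0
  haveI hun : (zpowers u).Normal := H19.normal_of_le_isCyclic (zpowers_le.2 hu)
  obtain ⟨w, hw⟩ := (Subgroup.isCyclic_iff_exists_zpowers_eq_top _).1 hc
  set F := centralizer ({w} : Set G) with hF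
  have hFD : F = centralizer (commutator G : Set G) := by
    rw [hF, ← hw, zpowers_eq_closure, centralizer_closure]
  haveI : F.Normal := by rw [hFD]; infer_instance
  have hDF : commutator G ≤ F := by
    rw [← hw]; exact zpowers_le_cent w
  have hdp : ∀ x : G, ∃ r : ℕ, r.Prime ∧ cs(x) ∣ r := fun x => (h x).elim
    (fun h => ⟨2, Nat.prime_two, h ▸ one_dvd _⟩) fun h => ⟨_, h, dvd_rfl⟩
  have hFu : F ≤ centralizer ({u} : Set G) := fun g hg =>
    mem_cent.2 ((hFD.le hg) u hu).symm
  have hut : ¬ ⊤ ≤ centralizer ({u} : Set G) := fun h1 =>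
    huZ (mem_center_iff.2 fun g => mem_cent.1 (h1 (mem_top g)))
  have hq : F.index.Prime := (h w).resolve_left fun h1 => hut ((index_eq_one.1 h1).ge.trans hFu)
  have hq' : F.relIndex ⊤ ∣ F.index := by rw [relIndex_top_right]
  have hFu' : centralizer ({u} : Set G) ≤ F := fun g hg =>
    H84.inf_le_of_relIndex_dvd_prime hq hq' (inf_le_left.trans hFu) hut (mem_inf.2 ⟨hg, mem_top g⟩)
  obtain ⟨y, hy⟩ : ∃ y, y ∉ F := by
    by_contra! h1
    exact hut fun g _ => hFu (h1 g)
  set C := centralizer ({y} : Set G) with hC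
  have huC : u ∉ C := fun h1 => hy (hFu' (mem_cent_comm.1 h1))
  have huF : u ∈ F := hDF hu
  have h1 : ∀ z ∈ F, z ∈ C → F ≤ centralizer ({z} : Set G) → z ∈ center G := by
    intro z _ hz h2
    have := H84.le_of_relIndex_dvd_prime hq hq' (inf_le_left.trans h2) (mem_top y)
      (mem_cent_comm.1 hz) hy
    exact mem_center_iff.2 fun g => mem_cent.1 (this (mem_top g))
  obtain ⟨r, hr, hrd⟩ := hdp y
  have hr' : C.relIndex F ∣ r := (H19.relIndex_dvd_index_of_normal_right C F).trans hrd
  have h2 : C ⊓ F = center G := by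
    refine le_antisymm ?_ (le_inf (center_le_centralizer _) (center_le_centralizer _))
    intro d hd
    have hs' := QuotientGroup.mk'_surjective (center G)
    let K := (centralizer ({(d : G ⧸ center G)} : Set (G ⧸ center G))).comap
      (QuotientGroup.mk' (center G))
    have hK : ∀ g, g ∈ K ↔ ⁅g, d⁆ ∈ center G := fun g => by
      rw [← QuotientGroup.eq_one_iff (N := center G), ← QuotientGroup.mk'_apply,
        map_commutatorElement, commutatorElement_eq_one_iff_mul_comm]
      exact mem_cent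
    have h3 : F ≤ K := by
      refine H84.le_of_relIndex_dvd_prime hr hr' (fun g hg => (hK g).2 ?_) huF ((hK u).2 ?_) huC
      · have h4 : ⁅g, d⁆ ∈ commutator G := commutator_mem_commutator (mem_top g) (mem_top d)
        refine h1 _ (hDF h4) ?_ fun f hf => mem_cent.2 ((hFD.le hf) _ h4).symm
        rw [commutatorElement_def]
        exact mul_mem (mul_mem (mul_mem hg.1 hd.1) (inv_mem hg.1)) (inv_mem hd.1)
      · rw [H84.commutatorElement_eq_one_iff_mem_cent.2 (hFu hd.2)]
        exact one_mem _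
    have h4 : ⊤ ≤ K := by
      refine H84.le_of_relIndex_dvd_prime hq hq' (inf_le_left.trans h3) (mem_top y) ((hK y).2 ?_) hy
      rw [H84.commutatorElement_eq_one_iff_mem_cent.2 hd.1]
      exact one_mem _
    have h5 : centralizer ({d * u} : Set G) ≤ F := by
      intro g hg
      have h6 := mem_cent.1 hg
      have h7 := mem_center_iff.1 ((hK g).1 (h4 (mem_top g)))
      have h8 : ⁅g, u⁆ ∈ center G := by
        have h9 : ⁅g, u⁆ = u⁻¹ * ⁅g, d⁆⁻¹ * u := by
          have h10 : u * ⁅g, u⁆ = ⁅g, u⁆ * u :=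
            ((hFD.le huF) _ (commutator_mem_commutator (mem_top g) (mem_top u))).symm
          have h11 := h7 d⁻¹
          have h12 : ⁅g, u⁆ = d⁻¹ * ⁅g, d⁆⁻¹ * d := by
            simp only [commutatorElement_def]
            calc g * u * g⁻¹ * u⁻¹ = g * d⁻¹ * g⁻¹ * (g * (d * u)) * g⁻¹ * u⁻¹ := by group
              _ = _ := by rw [h6]; group
          have h13 : d⁻¹ * ⁅g, d⁆⁻¹ * d = ⁅g, d⁆⁻¹ := by
            rw [mem_center_iff.1 (inv_mem ((hK g).1 (h4 (mem_top g)))) d⁻¹]; group
          rw [h12, h13, mem_center_iff.1 (inv_mem ((hK g).1 (h4 (mem_top g)))) u⁻¹]; group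
        rw [h9]
        have := (inferInstance : (center G).Normal).conj_mem _
          (inv_mem ((hK g).1 (h4 (mem_top g)))) u⁻¹
        rwa [inv_inv] at this
      have h9 : center G ⊓ zpowers u = ⊥ := H84.inf_eq_bot_of_card_dvd_prime hp
        (by rw [Nat.card_zpowers, ho]) fun h9 => huZ (h9 (mem_zpowers u))
      have h10 : ⁅g, u⁆ ∈ center G ⊓ zpowers u := mem_inf.2 ⟨h8,
        commutator_le_right ⊤ _ (commutator_mem_commutator (mem_top g) (mem_zpowers u))⟩
      rw [h9, mem_bot, H84.commutatorElement_eq_one_iff_mem_cent] at h10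
      exact hFu' (mem_cent_comm.1 h10)
    obtain ⟨s, hs, hsd⟩ := hdp (d * u)
    have h6 : F ≤ centralizer ({d * u} : Set G) := fun g hg =>
      H84.inf_le_of_relIndex_dvd_prime hs (P := ⊤) (by rwa [relIndex_top_right])
        (inf_le_left.trans h5) (fun h => hy (h (mem_top y))) (mem_inf.2 ⟨hg, mem_top g⟩)
    refine h1 d hd.2 hd.1 fun g hg => mem_cent.2 ?_
    have h7 := mem_cent.1 (h6 hg)
    have h8 := mem_cent.1 (hFu hg)
    calc g * d = g * (d * u) * u⁻¹ := by group
      _ = d * (u * g) * u⁻¹ := by rw [h7]; group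
      _ = d * g := by rw [← h8]; group
  have h3 : C.relIndex F = r := ((Nat.dvd_prime hr).1 hr').resolve_left fun h3 =>
    huC (relIndex_eq_one.1 h3 huF)
  have h4 : Nat.card (G ⧸ center G) = r * F.index := by
    rw [← h3, ← inf_relIndex_right, relIndex_mul_index inf_le_right, h2]; rfl
  refine ⟨r, F.index, hr, hq, fun h5 => hna ?_, h4, hna⟩
  haveI := Fact.mk hr
  exact IsPGroup.isMulCommutative_of_card_eq_prime_sq (p := r) (by rw [h4, ← h5, sq])

end Cfsg.Agent.S4314
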