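import Cfsg.Statements.S4316
import Cfsg.Agent.H59.WordNil
-- import your own Cfsg.Agent.* helpers here

set_option autoImplicit false
universe u
open Cfsg

namespace Cfsg.Agent.S4316
open Subgroup Cfsg.Agent.H49 Cfsg.Agent.H45 Cfsg.Agent.H59
open scoped commutatorElement

theorem card_le_of_fac {α β γ : Type*} [Finite β] (f : α → β) {g : α → γ}
    (hg : Function.Surjective g) (h : ∀ x y, f x = f y → g x = g y) : Nat.card γ ≤ Nat.card β :=
  Nat.card_le_card_of_injective (f ∘ Function.surjInv hg) fun x y e => by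
    rw [← Function.surjInv_eq hg x, ← Function.surjInv_eq hg y]; exact h _ _ e

theorem schur (D : Type*) [Group D] [Finite D] {I : ℕ} (h : (center D).index ≤ I) :
    Nat.card (commutator D) ≤ I ^ (I * (I * I) + 1) := by
  have h0 : 0 < (center D).index := Nat.pos_of_ne_zero FiniteIndex.index_ne_zero
  have h1 : Nat.card (commutatorSet D) ≤ (center D).index * (center D).index := by
    rw [index, ← Nat.card_prod]
    refine card_le_of_fac (α := D × D) (fun x => ((x.1 : D ⧸ center D), (x.2 : D ⧸ center D)))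
      (g := fun x => ⟨⁅x.1, x.2⁆, x.1, x.2, rfl⟩)
      (by rintro ⟨_, x, y, rfl⟩; exact ⟨(x, y), rfl⟩) fun ⟨x, y⟩ ⟨x', y'⟩ e => Subtype.ext ?_
    simp only [Prod.mk.injEq, QuotientGroup.eq] at e
    obtain ⟨u, rfl⟩ : ∃ u, x' = x * u := ⟨x⁻¹ * x', by group⟩
    obtain ⟨v, rfl⟩ : ∃ v, y' = y * v := ⟨y⁻¹ * y', by group⟩
    simp only [inv_mul_cancel_left, mem_center_iff] at e
    show ⁅x, y⁆ = ⁅x * u, y * v⁆
    calc ⁅x, y⁆ = x * (y * u) * (u⁻¹ * (x⁻¹ * v)) * (y * v)⁻¹ := by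
          rw [commutatorElement_def]; group
      _ = x * (u * y) * (v * u⁻¹ * x⁻¹) * (y * v)⁻¹ := by
          rw [e.1 y, ← mul_assoc u⁻¹, e.2 (u⁻¹ * x⁻¹), mul_assoc v]
      _ = _ := by rw [commutatorElement_def]; group
  refine (Nat.le_of_dvd (pow_pos h0 _) (card_commutator_dvd_index_center_pow D)).trans ?_
  have := h0.trans_le h
  gcongr
  exact h1.trans (Nat.mul_le_mul h h)

section
variable {X : Type*} [Group X] [Finite X] {q : ℕ} {A G C : Subgroup X}

theorem card_sub_le {P : Subgroup X → Prop} (h : ∀ B, P B → B ≤ A) :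
    Nat.card {B // P B} ≤ 2 ^ Nat.card A := by
  refine (Nat.card_le_card_of_injective (β := A → Prop) (fun B a => (a : X) ∈ B.1)
    fun B B' e => Subtype.ext (le_antisymm (fun x hx => ?_) fun x hx => ?_)).trans ?_
  · exact (congrFun e ⟨x, h _ B.2 hx⟩).mp hx
  · exact (congrFun e ⟨x, h _ B'.2 hx⟩).mpr hx
  · rw [Nat.card_fun, Nat.card_eq_fintype_card, Fintype.card_prop]

theorem relIndex_le_prod (hq : q.Prime) (hA : IsElementaryAbelian q A) (h0 : A ≠ ⊥)
    (hC : A ≤ 𝒩(C)) [Fintype {E : Subgroup X // E ≤ A ∧ E.relIndex A = q}] (K : Subgroup X) :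
    IsPi {q}ᶜ K → Group.IsNilpotent K → A ≤ 𝒩(K) → C.relIndex K ≤
      ∏ E : {E : Subgroup X // E ≤ A ∧ E.relIndex A = q}, C.relIndex (K ⊓ 𝒞(E.1)) := by
  classical
  induction K using WellFoundedLT.induction with
  | _ K ih =>
  intro h1 h2 h3
  by_cases hK : K ≤ C
  · rw [relIndex_eq_one.2 hK]
    exact Finset.prod_pos fun E _ => relIndex_pos _ _
  obtain ⟨M, h4, ⟨h5, h6⟩, hmax⟩ := exists_maximal_ge (fun M => M < K ∧ A ≤ 𝒩(M)) (X := C ⊓ K)
    ⟨lt_of_le_of_ne inf_le_right fun e => hK (e.ge.trans inf_le_left), norm_inf hC h3⟩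
  have top : ∀ R, R ≤ K → A ≤ 𝒩(R) → M ≤ R → ¬ R ≤ M → R = K := fun R a b c d =>
    by_contra fun e => d (hmax R ⟨lt_of_le_of_ne a e, b⟩ c).le
  have hn : K ≤ 𝒩(M) := (top _ inf_le_left (norm_inf h3 (norm_norm h6))
    (le_inf h5.le le_normalizer) (lt_inf_norm_of_nilpotent h2 h5).not_ge).ge.trans inf_le_right
  obtain ⟨E, hE⟩ : ∃ E : {E : Subgroup X // E ≤ A ∧ E.relIndex A = q}, ¬ K ⊓ 𝒞(E.1) ≤ M := by
    by_contra e
    exact h5.not_ge (le_of_hyperplanes hq hA h0 h1 h3 fun E a b => by_contra fun c => e ⟨⟨E, a, b⟩, c⟩)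
  have e1 : K ⊓ 𝒞(E.1) ⊔ M = K := top _ (sup_le inf_le_left h5.le)
    (norm_sup (norm_inf h3 (elem_norm_cent hA E.2.1)) h6) le_sup_right fun e => hE (le_sup_left.trans e)
  have e2 : ∀ L, L ≤ K → C.relIndex (M ⊓ L) * M.relIndex L = C.relIndex L := fun L hL => by
    rw [relIndex_inf_mul_relIndex, ← inf_relIndex_right (C ⊓ M), ← inf_relIndex_right C]
    congr 1
    exact le_antisymm (inf_le_inf_right _ inf_le_left)
      (le_inf (le_inf inf_le_left ((inf_le_inf_left _ hL).trans h4)) inf_le_right)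
  have e3 : M.relIndex K = M.relIndex (K ⊓ 𝒞(E.1)) := by
    conv_lhs => rw [← e1]
    exact relIndex_sup_of_norm (Or.inl (inf_le_left.trans hn))
  rw [← e2 K le_rfl, inf_eq_left.2 h5.le, e3, ← Finset.mul_prod_erase _ _ (Finset.mem_univ E),
    ← e2 _ (inf_le_left (b := 𝒞(E.1))), ← inf_assoc, inf_eq_left.2 h5.le, mul_right_comm]
  refine Nat.mul_le_mul_right _ ((ih M h5 (h1.of_le h5.le) (nilpotent_of_le h2 h5.le) h6).trans ?_)
  rw [← Finset.mul_prod_erase _ _ (Finset.mem_univ E)]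
  exact Nat.mul_le_mul_left _ (Finset.prod_le_prod' fun E _ =>
    relIndex_le_of_le_right (inf_le_inf_right _ h5.le) (relIndex_pos _ _).ne')

theorem relIndex_le (hq : q.Prime) (hA : IsElementaryAbelian q A) (h0 : A ≠ ⊥)
    (hC : A ≤ 𝒩(C)) (hG : IsPi {q}ᶜ G) (hn : A ≤ 𝒩(G)) (hGC : G ≤ 𝒩(C)) {N : ℕ} (hN : 0 < N)
    (h : ∀ E ≤ A, E.relIndex A = q → C.relIndex (G ⊓ 𝒞(E)) ≤ N) :
    C.relIndex G ≤ (N ^ 2 ^ Nat.card A).factorial := by
  cases nonempty_fintype {E : Subgroup X // E ≤ A ∧ E.relIndex A = q}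
  refine Nat.le_of_dvd (Nat.factorial_pos _) ((Nat.dvd_iff_prime_pow_dvd_dvd _ _).2
    fun r k hr hd => Nat.dvd_factorial (pow_pos hr.pos k) ?_)
  obtain ⟨P, h1, h2, -⟩ := inv_sylow_ge hq hr (elem_pi hq hA) hG hn (isPi_bot {r}) bot_le
    (le_norm_bot A)
  have h3 := h1.quo hGC
  rw [← card_quo hGC, ← card_mul_relIndex h3.le, card_quo (h1.le.trans hGC)] at hd
  refine (Nat.le_of_dvd (relIndex_pos _ _) ((isPiNat_singleton_pow hr k).dvd_of_dvd_mul_right
    h3.index hd)).trans ((relIndex_le_prod hq hA h0 hC P (hG.of_le h1.le) h1.pi.nilpotent h2).trans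
      ((Finset.prod_le_pow_card _ _ N fun E _ => ?_).trans ?_))
  · exact (relIndex_le_of_le_right (inf_le_inf_right _ h1.le) (relIndex_pos _ _).ne').trans
      (h E.1 E.2.1 E.2.2)
  · rw [Finset.card_univ, ← Nat.card_eq_fintype_card]
    exact Nat.pow_le_pow_right hN (card_sub_le fun _ h => h.1)

/-- the bound -/
def bd (q m : ℕ) : ℕ :=
  (((q ^ 3 * m) ^ (q ^ 3 * m)) ^ 2 ^ q ^ 3).factorial

theorem main {m : ℕ} (hq : q.Prime) (hA : IsElementaryAbelian q A) (hk : Nat.card A = q ^ 3)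
    (hG : IsPi {q}ᶜ G) (hn : A ≤ 𝒩(G)) (h : ∀ a ∈ A, a ≠ 1 → Nat.card (der (G ⊓ 𝒞[a])) ≤ m) :
    Nat.card (der G) ≤ bd q m ^ (bd q m * (bd q m * bd q m) + 1) * m ^ q ^ 3 := by
  classical
  have h0 : A ≠ ⊥ := ne_bot_of_pow_le hq hk.ge
  have hm : 0 < m := by
    obtain ⟨a, ha, a1⟩ := ne_bot_iff_exists.1 h0
    exact (card_pos' _).trans_le (h a ha a1)
  have F := fam_zero hq hA h0 hG hn
  have F1 := F.mul hq hA h0 hG F ref_F0 ref_F0
  let f : A → Subgroup X := fun a => if (a : X) = 1 then ⊥ else der (G ⊓ 𝒞[(a : X)])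
  have hf : ∀ a, Nat.card (f a) ≤ m := fun a => by
    simp only [f]; split_ifs with e
    · rw [card_bot]; exact hm
    · exact h a a.2 e
  have hfG : ∀ a, f a ≤ der G := fun a => by
    simp only [f]; split_ifs
    · exact bot_le
    · exact der_mono inf_le_left
  have cm : ∀ E ≤ A, E.relIndex A = q → ∀ E' ≤ A, E'.relIndex A = q →
      ∃ a, ⁅G ⊓ 𝒞(E), G ⊓ 𝒞(E')⁆ ≤ f a := fun E a1 a2 E' a3 a4 => by
    obtain ⟨b, b1, b2, b3⟩ := exists_mem_inf_hyperplanes hq hk.ge a1 a2 a3 a4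
    refine ⟨⟨b, a1 b1⟩, ?_⟩
    simp only [f, if_neg b3]
    exact commutator_mono (inf_le_inf_left _ (cent_le_cent1 b1)) (inf_le_inf_left _ (cent_le_cent1 b2))
  let T := {x : X // ∃ a, x ∈ f a}
  have hT : Nat.card T ≤ q ^ 3 * m := by
    cases nonempty_fintype A
    refine (Nat.card_le_card_of_surjective (α := Σ a, f a) (fun x => ⟨x.2, x.1, x.2.2⟩)
      fun ⟨x, a, hx⟩ => ⟨⟨a, x, hx⟩, rfl⟩).trans ?_
    rw [Nat.card_sigma, ← hk, Nat.card_eq_fintype_card, ← Finset.card_univ, ← smul_eq_mul]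
    exact Finset.sum_le_card_nsmul _ _ _ fun a _ => hf a
  have hT0 : 0 < Nat.card T := Nat.card_pos_iff.2 ⟨⟨1, 1, one_mem _⟩, inferInstance⟩
  have h1 : 𝒞(der G).relIndex G ≤ bd q m := by
    rw [bd, ← hk]
    refine relIndex_le hq hA h0 (norm_cent (norm_commutator hn hn)) hG hn (norm_cent norm_der)
      (pow_pos (Nat.mul_pos (card_pos' A) hm) _) fun E a1 a2 => ?_
    refine (card_le_of_fac (α := ↥(G ⊓ 𝒞(E))) (β := T → T) (fun g y =>
      if e : ∃ a, ⁅y.1, g.1⁆ ∈ f a then ⟨_, e⟩ else y) QuotientGroup.mk_surjective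
      fun g g' e => QuotientGroup.eq.2 (mem_subgroupOf.2 (zpowers_le.1 (cent_symm
        (F1.gen.trans (iSup₂_le ?_)))))).trans ?_
    · rintro _ ⟨_, ⟨E₁, b1, b2, rfl⟩, _, ⟨E₂, b3, b4, rfl⟩, E₃, b5, b6, rfl⟩ y hy
      obtain ⟨a, ha⟩ := cm E₁ b1 b2 E₂ b3 b4
      obtain ⟨b, hb⟩ := cm E₃ b5 b6 E a1 a2
      have hy' : y ∈ G ⊓ 𝒞(E₃) := ⟨der_le (hfG a (ha hy.1)), hy.2⟩
      have := congrFun e ⟨y, a, ha hy.1⟩
      rw [dif_pos ⟨b, hb (commutator_mem_commutator hy' g.2)⟩,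
        dif_pos ⟨b, hb (commutator_mem_commutator hy' g'.2)⟩, Subtype.mk.injEq] at this
      rw [cent_zpowers, mem_cent1]
      simp only [commutatorElement_def] at this
      calc y * ((g : X)⁻¹ * g') = g.1⁻¹ * (y * g.1 * y⁻¹ * g.1⁻¹)⁻¹ * y * g'.1 := by group
        _ = (g : X)⁻¹ * g' * y := by rw [this]; group
    · rw [Nat.card_fun, hk]
      exact (Nat.pow_le_pow_left hT _).trans
        (Nat.pow_le_pow_right (Nat.mul_pos (pow_pos hq.pos 3) hm) hT)
  have h2 : Nat.card (der (der G)) ≤ bd q m ^ (bd q m * (bd q m * bd q m) + 1) := by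
    have := schur (der G) (I := bd q m) (by
      refine le_trans (le_of_eq ?_) ((relIndex_le_of_le_right der_le (relIndex_pos _ _).ne').trans h1)
      congr 1
      ext x
      exact mem_center_iff.trans ⟨fun h y hy => congrArg Subtype.val (h ⟨y, hy⟩),
        fun h y => Subtype.ext (h y y.2)⟩)
    rwa [← card_map_of_injective (der G).subtype_injective, map_subtype_commutator] at this
  have h3 : ∀ s : Finset A, Nat.card ↥(der (der G) ⊔ s.sup f) ≤
      Nat.card (der (der G)) * m ^ s.card := fun s => by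
    induction s using Finset.induction_on with
    | empty => simp
    | insert a s ha ih =>
      rw [Finset.sup_insert, Finset.card_insert_of_notMem ha, sup_comm (f a), ← sup_assoc, pow_succ,
        ← mul_assoc]
      exact (Nat.le_of_dvd (Nat.mul_pos (card_pos' _) (card_pos' _)) (card_sup_dvd (Or.inr
        ((hfG a).trans (norm_of_der_le le_sup_left (sup_le der_le
          (Finset.sup_le fun a _ => hfG a))))))).trans (Nat.mul_le_mul ih (hf a))
  cases nonempty_fintype A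
  refine (card_le_of_le (F1.gen.trans (iSup₂_le ?_))).trans ((h3 Finset.univ).trans ?_)
  · rintro _ ⟨_, ⟨E₁, b1, b2, rfl⟩, _, ⟨E₂, b3, b4, rfl⟩, E₃, b5, b6, rfl⟩
    obtain ⟨a, ha⟩ := cm E₁ b1 b2 E₂ b3 b4
    exact inf_le_left.trans (ha.trans ((Finset.le_sup (Finset.mem_univ a)).trans le_sup_right))
  · rw [Finset.card_univ, ← Nat.card_eq_fintype_card, hk]
    exact Nat.mul_le_mul_right _ h2

end

/-- There is a function `f` of two natural-number arguments with the following property. Let `q` be a prime and `A` an elementary abelian group of order `q³` acting by automorphisms on a finite group `G` of order prime to `q`, and suppose that for every non-identity `a ∈ A` the derived subgroup of the fixed-point subgroup `C_G(a)` has order at most `m`. Then the derived subgroup of `G` has order at most `f(q, m)`. -/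
theorem result :
    ∃ f : ℕ → ℕ → ℕ, ∀ (q m : ℕ) (A G : Type u) [Group A] [Finite A] [Group G] [Finite G] [MulDistribMulAction A G],
      q.Prime → Nat.card A = q ^ 3 → (∀ a b : A, a * b = b * a) → (∀ a : A, a ^ q = 1) → ¬ q ∣ Nat.card G →
      (∀ a : A, a ≠ 1 → Nat.card ↥(commutator ↥(FixedPoints.subgroup (Subgroup.zpowers a) G)) ≤ m) →
      Nat.card ↥(commutator G) ≤ f q m := by
  refine ⟨fun q m => bd q m ^ (bd q m * (bd q m * bd q m) + 1) * m ^ q ^ 3, ?_⟩
  intro q m A G _ _ _ _ _ hq hA hab hexp hcop h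
  let φ := MulDistribMulAction.toMulAut A G
  let Γ := G ⋊[φ] A
  have : Finite Γ := Finite.of_equiv _ SemidirectProduct.equivProd.symm
  let i : G →* Γ := SemidirectProduct.inl
  let j : A →* Γ := SemidirectProduct.inr
  have hi : Function.Injective i := SemidirectProduct.inl_injective
  have e := MonoidHom.ofInjective hi
  have e' := MonoidHom.ofInjective (f := j) SemidirectProduct.inr_injective
  have conj : ∀ (a : A) (x : G), j a * i x * (j a)⁻¹ = i (a • x) := fun a x => by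
    rw [← map_inv]; exact (SemidirectProduct.inl_aut a x).symm
  have fix : ∀ (a : A), i.range ⊓ 𝒞[j a] ≤ (i.comp (FixedPoints.subgroup (zpowers a) G).subtype).range := by
    rintro a _ ⟨⟨x, rfl⟩, hx⟩
    refine ⟨⟨x, ?_⟩, rfl⟩
    rintro ⟨_, k, rfl⟩
    refine hi ((conj _ x).symm.trans ?_)
    rw [mul_inv_eq_iff_eq_mul, map_zpow]
    exact (Commute.zpow_right (mem_cent1.1 hx) k).eq.symm
  have key : ∀ {Y : Type u} [Group Y] (g : Y →* Γ), Function.Injective g →
      Nat.card (der g.range) = Nat.card (commutator Y) := fun g hg => by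
    rw [← card_map_of_injective hg, _root_.commutator_def, map_commutator, ← MonoidHom.range_eq_map]
    rfl
  rw [← key i hi]
  refine main (A := j.range) hq ⟨abelian_iff.2 ?_, ?_⟩ ((Nat.card_congr e'.toEquiv).symm.trans hA)
    ((isPi_compl_singleton hq).2 (by rwa [← Nat.card_congr e.toEquiv]))
    (le_norm_iff.2 (by rintro _ ⟨a, rfl⟩ _ ⟨x, rfl⟩; exact ⟨_, (conj _ x).symm⟩)) ?_
  · rintro _ ⟨a, rfl⟩ _ ⟨b, rfl⟩
    rw [← map_mul, ← map_mul, hab]
  · rintro _ ⟨a, rfl⟩
    rw [← map_pow, hexp, map_one]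
  · rintro _ ⟨a, rfl⟩ a1
    refine (card_le_of_le (der_mono (fix a))).trans ?_
    exact (key (i.comp (FixedPoints.subgroup (zpowers a) G).subtype)
      (hi.comp (subtype_injective _))).le.trans (h a fun e => a1 (by rw [e, map_one]))


end Cfsg.Agent.S4316
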