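import Cfsg.Statements.S4320
import Cfsg.Agent.H64.PIT

set_option autoImplicit false
open Cfsg

namespace Cfsg.Agent.S4320

/-- The Principal Ideal Theorem of class field theory in its group-theoretic form: for every finite group `G`, the transfer homomorphism from `G` into the abelianization `G'/G''` of its derived subgroup `G'` is the trivial homomorphism. -/
theorem result {G : Type*} [Group G] [Finite G] :
    MonoidHom.transfer (Abelianization.of : ↥(commutator G) →* Abelianization ↥(commutator G)) =
      (1 : G →* Abelianization ↥(commutator G)) := by
  ext g
  let T : (commutator G).LeftTransversal := default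
  let : Fintype (Abelianization G) := (commutator G).fintypeQuotientOfFiniteIndex
  let t : Abelianization G → G := fun q => T.2.leftQuotientEquiv q
  have ht : ∀ q, Abelianization.of (t q) = q := fun q => T.2.quotientGroupMk_leftQuotientEquiv q
  have hm : ∀ g q, (t q)⁻¹ * (g * t ((Abelianization.of g)⁻¹ * q)) ∈ commutator G := fun g q => by
    rw [← Abelianization.ker_of, MonoidHom.mem_ker]
    simp [ht]
  have := H64.sum_derivation (fun g q => Additive.ofMul (Abelianization.of (⟨_, hm g q⟩ : commutator G)))
    (fun x y q => by
      rw [← ofMul_mul, ← map_mul]
      congr 2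
      simp [mul_assoc]) g
  rw [← ofMul_prod] at this
  refine Eq.trans ?_ (Additive.ofMul.injective this)
  rw [MonoidHom.transfer_def _ T]
  refine Finset.prod_congr rfl fun q _ => congrArg _ (Subtype.ext ?_)
  obtain ⟨x, rfl⟩ := QuotientGroup.mk_surjective q
  simp only [Subgroup.smul_apply_eq_smul_apply_inv_smul]
  rfl


end Cfsg.Agent.S4320
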