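import Cfsg.Statements.S4421


set_option autoImplicit false
open Cfsg

namespace Cfsg.Agent.S4421

lemma mem_norm_iff {G : Type*} [Group G] (A : Subgroup G) (g : G) :
    g ∈ Subgroup.normalizer (A : Set G) ↔ A.map (MulAut.conj g).toMonoidHom = A := by
  rw [Subgroup.mem_normalizer_iff]
  constructor
  · intro h
    ext y
    simp only [Subgroup.mem_map, MulEquiv.coe_toMonoidHom, MulAut.conj_apply]
    constructor
    · rintro ⟨x, hx, rfl⟩
      exact (h x).mp hx
    · intro hy
      exact ⟨g⁻¹ * y * g, (h _).mpr (by simpa [mul_assoc] using hy), by group⟩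
  · intro h y
    conv_rhs => rw [← h]
    simp only [Subgroup.mem_map, MulEquiv.coe_toMonoidHom, MulAut.conj_apply]
    constructor
    · intro hy; exact ⟨y, hy, rfl⟩
    · rintro ⟨x, hx, hxy⟩
      have : x = y := by simpa using hxy
      exact this ▸ hx

lemma map_conj_mul {G : Type*} [Group G] (A : Subgroup G) (g h : G) :
    A.map (MulAut.conj (g * h)).toMonoidHom =
      (A.map (MulAut.conj h).toMonoidHom).map (MulAut.conj g).toMonoidHom := by
  rw [Subgroup.map_map]; congr 1; ext x; simp [mul_assoc]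

/-- A factorization of a normalizer from two-step control of fusion. Let `G` be a finite group and `A ≤ S ≤ H` subgroups of `G` such that: (i) `S` controls the `G`-fusion of `A` in the sense that every `G`-conjugate of `A` lying in `S` is an `S`-conjugate of `A`; (ii) `H` controls the `G`-fusion of `S` in the same sense; (iii) every conjugate of `S` by an element of the normalizer of `A` lies in `H`. Then `N_G(A) = N_H(A) · (N_G(S) ∩ N_G(A))`: every element of the normalizer of `A` is a product of an element of `H` normalizing `A` and an element normalizing both `S` and `A`. -/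
theorem result {G : Type*} [Group G] [Finite G] (A S H : Subgroup G)
    (hAS : A ≤ S) (hSH : S ≤ H)
    (h1 : ∀ g : G, A.map (MulAut.conj g).toMonoidHom ≤ S → ∃ s ∈ S, A.map (MulAut.conj g).toMonoidHom = A.map (MulAut.conj s).toMonoidHom)
    (h2 : ∀ g : G, S.map (MulAut.conj g).toMonoidHom ≤ H → ∃ y ∈ H, S.map (MulAut.conj g).toMonoidHom = S.map (MulAut.conj y).toMonoidHom)
    (h3 : ∀ x ∈ Subgroup.normalizer (A : Set G), S.map (MulAut.conj x).toMonoidHom ≤ H) :
    ∀ x ∈ Subgroup.normalizer (A : Set G), ∃ y ∈ H ⊓ Subgroup.normalizer (A : Set G),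
      ∃ z ∈ Subgroup.normalizer (S : Set G) ⊓ Subgroup.normalizer (A : Set G), x = y * z := by
  intro x hx
  obtain ⟨y, hyH, hy⟩ := h2 x (h3 x hx)
  have hz : y⁻¹ * x ∈ Subgroup.normalizer (S : Set G) := by
    rw [mem_norm_iff, map_conj_mul, hy, ← map_conj_mul]; ext; simp
  have hA : A.map (MulAut.conj y⁻¹).toMonoidHom ≤ S := by
    have h4 : A.map (MulAut.conj (y⁻¹ * x)).toMonoidHom ≤ S := by
      rw [← (mem_norm_iff S _).mp hz]; exact Subgroup.map_mono hAS
    rwa [map_conj_mul, (mem_norm_iff A x).mp hx] at h4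
  obtain ⟨s, hs, hsy⟩ := h1 _ hA
  have hys : y * s ∈ Subgroup.normalizer (A : Set G) := by
    rw [mem_norm_iff, map_conj_mul, ← hsy, ← map_conj_mul]; ext; simp
  refine ⟨y * s, ⟨H.mul_mem hyH (hSH hs), hys⟩, s⁻¹ * (y⁻¹ * x), ⟨?_, ?_⟩, by group⟩
  · exact Subgroup.mul_mem _ (Subgroup.inv_mem _ (Subgroup.le_normalizer hs)) hz
  · have : s⁻¹ * (y⁻¹ * x) = (y * s)⁻¹ * x := by group
    rw [this]
    exact Subgroup.mul_mem _ (Subgroup.inv_mem _ hys) hx

end Cfsg.Agent.S4421
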