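import Cfsg.Statements.S4422


set_option autoImplicit false
open Cfsg

namespace Cfsg.Agent.S4422



/-- Primitive divisors of `q^e - 1` are congruent to 1 modulo `e`. Let `q ≥ 2` and `e ≥ 1` be natural numbers and let `m` be a divisor of `q^e - 1` that is coprime to `q^i - 1` for every `1 ≤ i < e` (so `m` divides the primitive part of `q^e - 1`, the largest such divisor). Then `m ≡ 1 (mod e)`. -/
theorem result (q e m : ℕ) (hq : 2 ≤ q) (he : 1 ≤ e)
    (hm : m ∣ q ^ e - 1) (hcop : ∀ i : ℕ, 1 ≤ i → i < e → Nat.Coprime m (q ^ i - 1)) :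
    m % e = 1 % e := by
  have hpos : 0 < q ^ e - 1 := by
    have : 1 < q ^ e := Nat.one_lt_pow (by omega) (by omega)
    omega
  have hm0 : m ≠ 0 := by rintro rfl; simp at hm; omega
  change m ≡ 1 [MOD e]
  induction m using Nat.recOnPrimeCoprime with
  | zero => exact absurd rfl hm0
  | prime_pow r k hr =>
    rcases Nat.eq_zero_or_pos k with rfl | hk
    · simp [Nat.ModEq]
    have hrm : r ∣ r ^ k := dvd_pow_self r hk.ne'
    have := Fact.mk hr
    have key : ∀ i : ℕ, (q : ZMod r) ^ i = 1 ↔ r ∣ q ^ i - 1 := by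
      intro i
      have : 1 ≤ q ^ i := Nat.one_le_pow _ _ (by omega)
      rw [← ZMod.natCast_eq_zero_iff, Nat.cast_sub this]
      push_cast
      exact sub_eq_zero.symm
    have h1 : (q : ZMod r) ^ e = 1 := (key e).mpr (hrm.trans hm)
    have hq0 : (q : ZMod r) ≠ 0 := by
      intro h0; rw [h0, zero_pow (by omega)] at h1; exact zero_ne_one h1
    have hord : orderOf (q : ZMod r) = e := by
      rw [orderOf_eq_iff (by omega)]
      refine ⟨h1, fun i hi hi0 h => ?_⟩
      have h2 := (key i).mp h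
      have h3 := hcop i hi0 hi
      have h4 := Nat.Coprime.coprime_dvd_left hrm h3
      exact hr.one_lt.ne' (Nat.Coprime.eq_one_of_dvd h4 h2)
    have h5 : e ∣ r - 1 := hord ▸ ZMod.orderOf_dvd_card_sub_one hq0
    have h6 : r ≡ 1 [MOD e] := ((Nat.modEq_iff_dvd' hr.one_lt.le).mpr h5).symm
    simpa using h6.pow k
  | coprime a b ha hb hab iha ihb =>
    have h1 := iha ((dvd_mul_right a b).trans hm)
      (fun i h1 h2 => Nat.Coprime.coprime_dvd_left (dvd_mul_right a b) (hcop i h1 h2)) (by omega)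
    have h2 := ihb ((dvd_mul_left b a).trans hm)
      (fun i h1 h2 => Nat.Coprime.coprime_dvd_left (dvd_mul_left b a) (hcop i h1 h2)) (by omega)
    simpa using h1.mul h2

end Cfsg.Agent.S4422
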