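import Cfsg.Statements.S4425
import Cfsg.Agent.H86.AMat

set_option autoImplicit false
open Cfsg

namespace Cfsg.Agent.S4425

/-- Let χ be an irreducible character of the finite group G, p a prime, p^a the p-part of the order of G and p^b the p-part of the degree χ(1). Let χ̃ be the class function equal to p^a · χ on p-regular elements and zero on p-singular elements. Then p^(−b) · χ̃ is a generalized character of G, while p^(−(b+1)) · χ̃ is not. -/
theorem result {G : Type*} [Group G] [Finite G] (p : ℕ) [Fact p.Prime] (χ : Cfsg.IrrCharacter G) : Cfsg.IsGeneralizedCharacter G (fun x : G => if p ∣ orderOf x then (0 : ℂ) else ((p ^ ((Nat.card G).factorization p - (Cfsg.charDegree (χ : G → ℂ)).factorization p) : ℕ) : ℂ) * (χ : G → ℂ) x) ∧ ¬ Cfsg.IsGeneralizedCharacter G (fun x : G => if p ∣ orderOf x then (0 : ℂ) else ((p ^ (Nat.card G).factorization p : ℕ) : ℂ) / ((p ^ ((Cfsg.charDegree (χ : G → ℂ)).factorization p + 1) : ℕ) : ℂ) * (χ : G → ℂ) x) := by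
  classical
  have hp : p.Prime := Fact.out
  obtain ⟨M, hM⟩ := H86.exists_isPModular hp
  have := hM.2.1
  have := Fintype.ofFinite G
  have key : ∀ c : ℂ, (fun x : G => if p ∣ orderOf x then (0 : ℂ) else c * (χ : G → ℂ) x) =
      c • pRegularPart p (χ : G → ℂ) := by
    intro c
    funext x
    rw [Pi.smul_apply, H86.reg_apply]
    split_ifs <;> simp
  rw [key, key]
  constructor
  · refine H86.virt_of_forall_int (fun g x => ?_) fun ψ => ?_
    · simp only [Pi.smul_apply, H86.isClassFunction_reg (H34.irr_isClassFunction χ) g x]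
    · rw [H5.classInner_smul_left,
        H86.classInner_reg_comm (H53.virt_of_irr χ.2) (H53.virt_of_irr ψ.2)]
      push_cast
      exact H86.exists_int_pow_sub_mul hM (H53.virt_of_irr ψ.2) χ
  · intro h
    obtain ⟨k, hk⟩ := H86.pa_dvd_of_virt_of_vanish hp h fun g hg => by
      rw [Pi.smul_apply, H86.reg_of_singular _ hg, smul_zero]
    rw [Pi.smul_apply, H86.reg_one hp, ← H34.irr_degree_cast, smul_eq_mul] at hk
    have h0 := H86.p_ne_zero_complex hp
    have h1 : (charDegree (χ : G → ℂ) : ℂ) =
        (p : ℂ) ^ ((charDegree (χ : G → ℂ)).factorization p + 1) * k := by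
      push_cast at hk
      field_simp at hk
      linear_combination hk
    have h2 : (charDegree (χ : G → ℂ) : ℤ) =
        (p : ℤ) ^ ((charDegree (χ : G → ℂ)).factorization p + 1) * k := by exact_mod_cast h1
    have h3 : p ^ ((charDegree (χ : G → ℂ)).factorization p + 1) ∣ charDegree (χ : G → ℂ) := by
      have : ((p ^ ((charDegree (χ : G → ℂ)).factorization p + 1) : ℕ) : ℤ) ∣
          (charDegree (χ : G → ℂ) : ℤ) := ⟨k, by exact_mod_cast h2⟩
      exact_mod_cast this
    have := (hp.pow_dvd_iff_le_factorization (H34.irr_degree_ne_zero χ)).1 h3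
    omega

end Cfsg.Agent.S4425
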