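import Cfsg.Statements.S4426
import Cfsg.Agent.H86.AMat

set_option autoImplicit false
open Cfsg

namespace Cfsg.Agent.S4426

/-- Let χ be an irreducible character in the p-block B of the finite group G (relative to a maximal ideal M of the algebraic integers containing p), let p^a be the p-part of the order of G, and let χ̃ be the class function equal to p^a · χ on p-regular elements and zero elsewhere. For ξ ∈ B the inner product [χ̃, ξ] is an integer. The following are equivalent: (a) χ has height zero in B; (b) for some ξ ∈ B the integer [χ̃, ξ] is nonzero and the exact power of p dividing it equals the exact power of p dividing ξ(1); (c) the same holds for every ξ ∈ B. -/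
theorem result {G : Type*} [Group G] [Fintype G] (p : ℕ) [Fact p.Prime] (M : Ideal Cfsg.AlgInt) (hM : Cfsg.IsPModular p M) (B : Set (Cfsg.IrrCharacter G)) (hB : Cfsg.IsPBlock M B) (χ : Cfsg.IrrCharacter G) (hχ : χ ∈ B) : (Cfsg.blockHeight p B (χ : G → ℂ) = 0 ↔ ∃ ξ ∈ B, ∃ n : ℤ, Cfsg.classInner (fun x : G => if p ∣ orderOf x then (0 : ℂ) else ((p ^ (Nat.card G).factorization p : ℕ) : ℂ) * (χ : G → ℂ) x) (ξ : G → ℂ) = (n : ℂ) ∧ n ≠ 0 ∧ padicValInt p n = (Cfsg.charDegree (ξ : G → ℂ)).factorization p) ∧ (Cfsg.blockHeight p B (χ : G → ℂ) = 0 ↔ ∀ ξ ∈ B, ∃ n : ℤ, Cfsg.classInner (fun x : G => if p ∣ orderOf x then (0 : ℂ) else ((p ^ (Nat.card G).factorization p : ℕ) : ℂ) * (χ : G → ℂ) x) (ξ : G → ℂ) = (n : ℂ) ∧ n ≠ 0 ∧ padicValInt p n = (Cfsg.charDegree (ξ : G → ℂ)).factorization p) := by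
  classical
  have := hM.2.1
  have key : ∀ c : ℂ, (fun x : G => if p ∣ orderOf x then (0 : ℂ) else c * (χ : G → ℂ) x) =
      c • pRegularPart p (χ : G → ℂ) := by
    intro c
    funext x
    rw [Pi.smul_apply, H86.reg_apply]
    split_ifs <;> simp
  rw [key]
  have main : ∀ ξ ∈ B, blockHeight p B (χ : G → ℂ) = 0 ↔ ∃ n : ℤ, classInner
      (((p ^ (Nat.card G).factorization p : ℕ) : ℂ) • pRegularPart p (χ : G → ℂ)) (ξ : G → ℂ) =
      (n : ℂ) ∧ n ≠ 0 ∧ padicValInt p n = (charDegree (ξ : G → ℂ)).factorization p := by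
    intro ξ hξ
    obtain ⟨n, hn⟩ := H86.exists_int_pa_mul hM.1 (H53.virt_of_irr χ.2) (H53.virt_of_irr ξ.2)
    have h1 := H86.lam_irr_mem_locMax_iff hM hB hχ hξ
    have h2 := H86.lam_mem_locRing hM (H34.irr_isClassFunction χ)
      (fun g _ => H33.irr_mem_locRing χ g) ξ
    rw [H86.lam, hn, ← H34.irr_degree_cast] at h1 h2
    rw [H86.int_div_nat_mem_locMax_iff hM n (H34.irr_degree_ne_zero ξ)] at h1
    rw [H86.int_div_nat_mem_locRing_iff hM n (H34.irr_degree_ne_zero ξ)] at h2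
    rw [H5.classInner_smul_left]
    push_cast
    rw [hn]
    constructor
    · intro h
      exact ⟨n, rfl, H86.padicValInt_eq_of_dvd_of_not_dvd h2 fun h' => h1.1 h' h⟩
    · rintro ⟨m, hm, hm0, hv⟩
      obtain rfl : n = m := by exact_mod_cast hm
      by_contra h
      exact (H86.dvd_and_not_dvd_of_padicValInt_eq hm0 hv).2 (h1.2 h)
  exact ⟨⟨fun h => ⟨χ, hχ, (main χ hχ).1 h⟩, fun ⟨ξ, hξ, h⟩ => (main ξ hξ).2 h⟩,
    ⟨fun h ξ hξ => (main ξ hξ).1 h, fun h => (main χ hχ).2 (h χ hχ)⟩⟩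

end Cfsg.Agent.S4426
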