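import Cfsg.Statements.S4427
import Cfsg.Agent.H34.TrivIBr
import Cfsg.Agent.H86.Val

set_option autoImplicit false
open Cfsg

namespace Cfsg.Agent.S4427

/-- Let G be a finite group of order p^a · q^b · r^c with p, q, r distinct primes, and suppose that G has exactly q^b · r^c elements of order not divisible by p. Then G has a normal p-complement: a normal subgroup of order q^b · r^c. -/
theorem result {G : Type*} [Group G] [Finite G] (p q r a b c : ℕ) (hp : p.Prime) (hq : q.Prime) (hr : r.Prime) (hpq : p ≠ q) (hpr : p ≠ r) (hqr : q ≠ r) (hG : Nat.card G = p ^ a * q ^ b * r ^ c) (hcount : Nat.card {g : G // ¬ p ∣ orderOf g} = q ^ b * r ^ c) : ∃ N : Subgroup G, N.Normal ∧ Nat.card N = q ^ b * r ^ c := by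
  classical
  obtain ⟨M, hM⟩ := H86.exists_isPModular hp
  have := hM.2.1
  have := Fintype.ofFinite G
  have := Fact.mk hq
  have := Fact.mk hr
  obtain ⟨i, -, hi⟩ := H34.exists_triv_ibr (G := G) hM
  obtain ⟨Q, hQ⟩ := Sylow.exists_subgroup_card_pow_prime (G := G) q (n := b)
    (by rw [hG]; exact Dvd.dvd.mul_right (Dvd.intro_left _ rfl) _)
  obtain ⟨R, hR⟩ := Sylow.exists_subgroup_card_pow_prime (G := G) r (n := c)
    (by rw [hG]; exact Dvd.intro_left _ rfl)
  have hQp : ¬ p ∣ Nat.card Q := fun h => by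
    rw [hQ] at h
    exact hpq ((Nat.prime_dvd_prime_iff_eq hp hq).1 (hp.dvd_of_dvd_pow h))
  have hRp : ¬ p ∣ Nat.card R := fun h => by
    rw [hR] at h
    exact hpr ((Nat.prime_dvd_prime_iff_eq hp hr).1 (hp.dvd_of_dvd_pow h))
  have hcop : (Nat.card Q).Coprime (Nat.card R) := by
    rw [hQ, hR]
    exact Nat.Coprime.pow _ _ ((Nat.coprime_primes hq hr).2 hqr)
  have hidx : Q.index = p ^ a * r ^ c := by
    have h := Q.card_mul_index
    rw [hQ, hG] at h
    have h0 : 0 < q ^ b := pow_pos hq.pos _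
    apply Nat.eq_of_mul_eq_mul_left h0
    rw [h]; ring
  have hin : classInner (indFun Q (fun _ => 1)) (indFun R (fun _ => 1)) = (p ^ a : ℕ) := by
    rw [H6.classInner_indFun_right R _ (H6.indFun_isClassFunction Q _), H5.classInner_one_right,
      Finset.sum_eq_single 1 (fun x _ hx => ?_) (by simp)]
    · rw [OneMemClass.coe_one, H6.indFun_apply_one, hidx, hR]
      have : (r : ℂ) ≠ 0 := by exact_mod_cast hr.ne_zero
      push_cast
      field_simp
    · refine H6.indFun_eq_zero_of_forall_conj_notMem Q _ fun y hy => hx ?_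
      have h1 : orderOf (y⁻¹ * x * y) = orderOf (x : G) := by
        simpa using (MulAut.conj y⁻¹).orderOf_eq (x : G)
      have h2 : orderOf (x : G) ∣ Nat.card Q := h1 ▸ Subgroup.orderOf_dvd_natCard Q hy
      have h3 : orderOf (x : G) ∣ Nat.card R := Subgroup.orderOf_dvd_natCard R x.2
      have h4 : orderOf (x : G) = 1 := Nat.eq_one_of_dvd_coprimes hcop h2 h3
      exact Subtype.ext (orderOf_eq_one_iff.1 h4)
  obtain ⟨N, hN, hmem⟩ := H34.exists_normal_of_cartan_le hM hi (m := p ^ a)
    (by rw [hG, hcount, mul_assoc]) (H34.cartan_triv_le hM hi Q R hQp hRp hin)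
  refine ⟨N, hN, ?_⟩
  rw [← hcount]
  exact Nat.card_congr (Equiv.subtypeEquivRight hmem)

end Cfsg.Agent.S4427
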