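import Cfsg.Statements.S4429
import Cfsg.Agent.H16.M11b

set_option autoImplicit false
open Cfsg

namespace Cfsg.Agent.S4429

/-- Let G be a simple group of order 7920. Then G has exactly ten irreducible complex characters, and their degrees, listed with multiplicity, are 1, 10, 10, 10, 11, 16, 16, 44, 45, 55: for every natural number n, the number of irreducible characters of degree n is 1 if n ∈ {1, 11, 44, 45, 55}, 3 if n = 10, 2 if n = 16, and 0 otherwise. -/
theorem result {G : Type*} [Group G] [Finite G] [IsSimpleGroup G] (hG : Nat.card G = 7920) : Nat.card (Cfsg.IrrCharacter G) = 10 ∧ ∀ n : ℕ, Nat.card {χ : Cfsg.IrrCharacter G // Cfsg.charDegree (χ : G → ℂ) = n} = (if n = 1 ∨ n = 11 ∨ n = 44 ∨ n = 45 ∨ n = 55 then 1 else if n = 10 then 3 else if n = 16 then 2 else 0) := by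
  classical
  obtain ⟨hD, c1, c10, c11, c16, c44, c45, c55⟩ := H16.M11.degrees hG
  have h1 := H16.card_cnt (G := G) Finset.univ _ fun χ _ => hD χ
  simp only [Finset.mem_insert, Finset.mem_singleton, Nat.reduceEqDiff, or_self,
    not_false_eq_true, Finset.sum_insert, Finset.sum_singleton, c1, c10, c11, c16, c44, c45, c55,
    OfNat.one_ne_ofNat, Finset.card_univ] at h1
  refine ⟨by rw [Nat.card_eq_fintype_card, h1]; rfl, fun n => ?_⟩
  have h2 : Nat.card {χ : Cfsg.IrrCharacter G // Cfsg.charDegree (χ : G → ℂ) = n} =
      (H16.fib (G := G) Finset.univ n).card := by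
    rw [Nat.card_eq_fintype_card, Fintype.card_subtype]
    rfl
  rw [h2]
  split_ifs with a b c
  · rcases a with rfl | rfl | rfl | rfl | rfl <;> assumption
  · rw [b, c10]
  · rw [c, c16]
  · rw [Finset.card_eq_zero, Finset.eq_empty_iff_forall_notMem]
    intro χ hχ
    have := hD χ
    rw [(H16.mem_fib.mp hχ).2] at this
    simp only [Finset.mem_insert, Finset.mem_singleton] at this
    omega

end Cfsg.Agent.S4429
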