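import Cfsg.Statements.S4430
import Cfsg.Agent.H86.AMat

set_option autoImplicit false
open Cfsg

namespace Cfsg.Agent.S4430

/-- Let H be a subgroup of the finite group G, b a block of H whose induced block B₀ in G is defined (relative to a maximal ideal M of the algebraic integers containing p), and ξ ∈ b. For a block B of G let n_B be the value at 1 of the B-part of the induced character ξ^G (a natural number: the sum over χ ∈ B of the multiplicity of χ in ξ^G times χ(1)). Then for B = B₀ the exact power of p dividing n_B equals the exact power of p dividing ξ^G(1), while for every other block B either n_B = 0 or n_B is divisible by a strictly higher power of p than ξ^G(1). -/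
theorem result {G : Type*} [Group G] [Fintype G] (p : ℕ) [Fact p.Prime] (M : Ideal Cfsg.AlgInt) (hM : Cfsg.IsPModular p M) (H : Subgroup G) [Fintype H] (b : Set (Cfsg.IrrCharacter H)) (B₀ : Set (Cfsg.IrrCharacter G)) (hind : Cfsg.IsInducedBlock M H b B₀) (ξ : Cfsg.IrrCharacter H) (hξ : ξ ∈ b) : (∃ n : ℕ, Cfsg.blockPart B₀ (Cfsg.indFun H (ξ : H → ℂ)) 1 = (n : ℂ) ∧ n ≠ 0 ∧ n.factorization p = (Cfsg.charDegree (Cfsg.indFun H (ξ : H → ℂ))).factorization p) ∧ ∀ B : Set (Cfsg.IrrCharacter G), Cfsg.IsPBlock M B → B ≠ B₀ → ∃ n : ℕ, Cfsg.blockPart B (Cfsg.indFun H (ξ : H → ℂ)) 1 = (n : ℂ) ∧ (n = 0 ∨ (Cfsg.charDegree (Cfsg.indFun H (ξ : H → ℂ))).factorization p < n.factorization p) := by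
  classical
  have := hM.2.1
  have hθ := H6.isCharacter_indFun H (H34.irr_isCharacter ξ)
  obtain ⟨χ₀, h₀⟩ := H33.block_nonempty hind.2.1
  have hd : (charDegree (indFun H (ξ : H → ℂ)) : ℂ) = H.index * (ξ : H → ℂ) 1 := by
    rw [H34.charDegree_cast hθ, H6.indFun_apply_one]
  have hi : (H.index : ℂ) ≠ 0 := by exact_mod_cast H.index_ne_zero_of_finite
  have hξ0 := H5.degree_ne_zero ξ.2
  have hd0 : charDegree (indFun H (ξ : H → ℂ)) ≠ 0 := by
    intro h; rw [h] at hd; exact mul_ne_zero hi hξ0 (by simpa using hd.symm)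
  have key : ∀ B : Set (IrrCharacter G), IsPBlock M B → ∃ n : ℕ,
      blockPart B (indFun H (ξ : H → ℂ)) 1 = n ∧
      (n : ℂ) / charDegree (indFun H (ξ : H → ℂ)) - H33.om (χ₀ : G → ℂ) (blockCoeff B) ∈
        H32.locMax M := by
    intro B hB
    obtain ⟨n, hn⟩ := H5.exists_nat_degree (H86.isCharacter_blockPart B hθ)
    refine ⟨n, hn, ?_⟩
    have h1 := H33.om_induced hind hξ h₀ (H33.blockCoeff_conj B)
      (H33.blockCoeff_mem_locRing hM hB)
    convert h1 using 2
    have h2 := H34.sum_blockCoeff_mul B (indFun H (ξ : H → ℂ))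
    have h3 := H6.sum_indFun_mul H (ξ : H → ℂ) (H33.blockCoeff_conj B)
    have h4 : blockPart B (indFun H (ξ : H → ℂ)) 1 =
        ∑ g, indFun H (ξ : H → ℂ) g * blockCoeff B g := by
      rw [Finset.sum_congr rfl fun g _ => mul_comm _ _, h2, H86.blockPart_apply,
        ← H86.sum_fs_eq_sum_univ B _ fun χ hχ => if_neg hχ]
      exact Finset.sum_congr rfl fun χ hχ => by rw [if_pos (H86.mem_fs.1 hχ), mul_comm]
    have hG : (Nat.card G : ℂ) = Nat.card H * H.index := by
      exact_mod_cast H.card_mul_index.symm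
    have hH : (Nat.card H : ℂ) ≠ 0 := H5.natCard_ne_zero
    rw [← h4, hn, hG] at h3
    rw [hd, H33.om, Finset.sum_congr rfl fun g _ => mul_comm _ _]
    field_simp at h3 ⊢
    linear_combination h3
  constructor
  · obtain ⟨n, hn, h⟩ := key B₀ hind.2.1
    rw [H33.om_blockCoeff_of_mem h₀] at h
    have h1 := H32.not_mem_locMax_of_sub_one_mem h
    have h2 := H32.mem_locRing_of_sub_mem (one_mem _) h
    have hn0 : n ≠ 0 := by rintro rfl; exact h1 (by simp)
    refine ⟨n, hn, hn0, ?_⟩
    have h3 := mt (H86.nat_div_nat_mem_locMax hM (n := n) hd0) h1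
    have h4 := (H86.int_div_nat_mem_locRing_iff hM (n : ℤ) hd0).1 (by simpa using h2)
    have h5 := (hM.1.pow_dvd_iff_le_factorization hn0).1 (by exact_mod_cast h4)
    omega
  · intro B hB hne
    obtain ⟨n, hn, h⟩ := key B hB
    rw [H33.om_blockCoeff_of_notMem (fun h' => hne (H33.block_eq_of_mem hB hind.2.1 h' h₀)),
      sub_zero] at h
    refine ⟨n, hn, ?_⟩
    by_cases hn0 : n = 0
    · exact Or.inl hn0
    · right
      by_contra h'
      exact H86.nat_div_nat_not_mem_locMax hM hd0 hn0 (not_lt.1 h') h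

end Cfsg.Agent.S4430
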