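import Cfsg.Statements.S4431
import Cfsg.Agent.H86.AMat

set_option autoImplicit false
open Cfsg

namespace Cfsg.Agent.S4431

/-- Let H be a subgroup of the finite group G and b a block of H whose induced block B₀ in G is defined (relative to a maximal ideal M of the algebraic integers containing p). Let χ be an irreducible character of G, ψ ∈ b, and let η be the class function on H equal to p^a · χ on the p-regular elements of H and zero elsewhere, p^a being the p-part of the order of H. Then (a) if χ ∉ B₀, the number [η, ψ]/ψ(1) lies in the local ideal at M; (b) if χ ∈ B₀ has height zero, it does not. -/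
theorem result {G : Type*} [Group G] [Fintype G] (p : ℕ) [Fact p.Prime] (M : Ideal Cfsg.AlgInt) (hM : Cfsg.IsPModular p M) (H : Subgroup G) [Fintype H] (b : Set (Cfsg.IrrCharacter H)) (B₀ : Set (Cfsg.IrrCharacter G)) (hind : Cfsg.IsInducedBlock M H b B₀) (χ : Cfsg.IrrCharacter G) (ψ : Cfsg.IrrCharacter H) (hψ : ψ ∈ b) : (χ ∉ B₀ → Cfsg.MemLocalIdeal M (Cfsg.classInner (fun h : H => if p ∣ orderOf h then (0 : ℂ) else ((p ^ (Nat.card H).factorization p : ℕ) : ℂ) * (χ : G → ℂ) h) (ψ : H → ℂ) / (ψ : H → ℂ) 1)) ∧ (χ ∈ B₀ → Cfsg.blockHeight p B₀ (χ : G → ℂ) = 0 → ¬ Cfsg.MemLocalIdeal M (Cfsg.classInner (fun h : H => if p ∣ orderOf h then (0 : ℂ) else ((p ^ (Nat.card H).factorization p : ℕ) : ℂ) * (χ : G → ℂ) h) (ψ : H → ℂ) / (ψ : H → ℂ) 1)) := by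
  classical
  have := hM.2.1
  have key : (fun h : H => if p ∣ orderOf h then (0 : ℂ) else
      ((p ^ (Nat.card H).factorization p : ℕ) : ℂ) * (χ : G → ℂ) h) =
      ((p : ℂ) ^ (Nat.card H).factorization p) • pRegularPart p (fun h : H => (χ : G → ℂ) h) := by
    funext x
    rw [Pi.smul_apply, H86.reg_apply]
    split_ifs <;> simp
  rw [key, H5.classInner_smul_left]
  obtain ⟨χ₀, h₀⟩ := H33.block_nonempty hind.2.1
  have h := H86.lam_restrict hM hind hψ h₀ (H34.irr_isClassFunction χ)
    fun g _ => H33.irr_mem_locRing χ g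
  refine ⟨fun hχ => h.2 ?_, fun hχ hh h' => ?_⟩
  · rw [H86.lam_irr_eq_zero hM hind.2.1 hχ h₀]; exact zero_mem _
  · exact (H86.lam_irr_mem_locMax_iff hM hind.2.1 hχ h₀).1 (h.1 h') hh

end Cfsg.Agent.S4431
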