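import Cfsg.Statements.S4437
import Cfsg.Agent.H34.Inertial

set_option autoImplicit false
open Cfsg

namespace Cfsg.Agent.S4437

/-- Let P be a p-subgroup of the finite group G, H = P·C_G(P), and b a block of H (relative to a maximal ideal M of the algebraic integers containing p) having P as a defect group; let B be the block of G induced by b. Let T be the stabilizer of b in N_G(P): the elements g of N_G(P) such that the g-conjugate of every member of b is again a member of b. Then B has defect group P if and only if p does not divide the index of H in T. -/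
theorem result {G : Type*} [Group G] [Fintype G] (p : ℕ) [Fact p.Prime] (M : Ideal Cfsg.AlgInt) (hM : Cfsg.IsPModular p M) (P : Subgroup G) (hP : IsPGroup p P) (H : Subgroup G) [Fintype H] (hH : H = P ⊔ Subgroup.centralizer (P : Set G)) (b : Set (Cfsg.IrrCharacter H)) (hb : Cfsg.IsPBlock M b) (hbP : Cfsg.IsDefectGroup p M b (P.subgroupOf H)) (B : Set (Cfsg.IrrCharacter G)) (hind : Cfsg.IsInducedBlock M H b B) (T : Subgroup G) (hT : ∀ g : G, g ∈ T ↔ (g ∈ Subgroup.normalizer (P : Set G) ∧ ∀ θ ∈ b, ∀ θ' : Cfsg.IrrCharacter H, (∀ h h' : H, (h' : G) = g * h * g⁻¹ → (θ' : H → ℂ) h' = (θ : H → ℂ) h) → θ' ∈ b)) : Cfsg.IsDefectGroup p M B P ↔ ¬ p ∣ H.relIndex T := by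
  have := hM.2.1
  have := Fintype.ofFinite (H87.No P)
  have h1 : P ≤ H := hH ▸ le_sup_left
  have h2 : H87.Ce P ≤ H := hH ▸ le_sup_right
  have h3 : H ≤ H87.No P := hH ▸ H34.sup_Ce_le_No P
  have h4 : H87.No P ≤ H87.No H := hH ▸ H34.No_le_No_sup_Ce P
  have hTN : T ≤ H87.No P := fun g hg => ((hT g).mp hg).1
  obtain ⟨c, hc⟩ := H34.exists_indBlk_inclusion hM hP h1 h2 h3 le_rfl hb
  have hcB : H34.IndBlk M (H87.No P).subtype c B := hc.trans_iff.mpr hind
  have hS : (H34.NEmb.incl h3 h4).Stab (T.subgroupOf (H87.No P)) b := by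
    refine H34.NEmb.stab_of_block hb fun n => ?_
    rw [← Subgroup.inv_mem_iff, Subgroup.mem_subgroupOf, hT]
    refine ⟨fun h θ hθ => h.2 θ hθ _ fun x x' hx => ?_, fun h => ⟨(n⁻¹).2, fun θ hθ θ' h' => ?_⟩⟩
    · rw [H34.NEmb.act_apply]
      refine congrArg _ (Subtype.ext ?_)
      rw [H34.incl_cj_coe, hx]
      simp [mul_assoc]
    · convert h θ hθ
      ext x
      rw [H34.NEmb.act_apply]
      refine h' _ _ ?_
      rw [H34.incl_cj_coe]
      simp [mul_assoc]
  have hPn : (P.subgroupOf (H87.No P)).Normal := H34.normal_subgroupOf_of_le_No le_rfl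
  have hd := hS.defect_eq_of_Ce_le hM hb hc.2.1 (H34.IndBlk.covers hM hc) hPn hP.comap_subtype
    (by rw [H34.range_incl]; exact fun x hx => h1 hx)
    (by rw [H34.range_incl]; exact H34.Ce_subgroupOf_le (h1.trans h3) h2)
  rw [H34.range_incl, Subgroup.relIndex_subgroupOf hTN] at hd
  have hcard : Nat.card (P.subgroupOf (H87.No P)) = p ^ blockDefect p b := by
    rw [← H34.card_defectGroup hM hb hbP,
      Nat.card_congr (Subgroup.subgroupOfEquivOfLe h1).toEquiv,
      Nat.card_congr (Subgroup.subgroupOfEquivOfLe (h1.trans h3)).toEquiv]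
  have hr : H.relIndex T ≠ 0 := Subgroup.index_ne_zero_of_finite
  rw [hcB.isDefectGroup_No_iff hM]
  constructor
  · intro h hdvd
    have e := H34.card_defectGroup hM hc.2.1 h
    rw [hcard] at e
    have e2 := Nat.pow_right_injective hM.1.two_le e
    have := hM.1.factorization_pos_of_dvd hr hdvd
    omega
  · intro h
    refine H34.isDefectGroup_of_normal_of_card hM hc.2.1 hPn ?_
    rw [hcard, hd, Nat.factorization_eq_zero_of_not_dvd h, add_zero]

end Cfsg.Agent.S4437
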