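import Cfsg.Statements.S4442
import Cfsg.Agent.H35.ResC

set_option autoImplicit false
open Cfsg

namespace Cfsg.Agent.S4442

/-- Blocks of defect one. Let p be an odd prime and G a finite group whose Sylow p-subgroup P has order p; let C = C_G(P) and N = N_G(P), and fix a maximal ideal M of the algebraic integers containing p. Let B be a block of G with defect group P, b a block of C inducing B, and θ the member of b having P in its kernel (there is exactly one). Let T be the stabilizer of θ in N (the elements g ∈ N with θ(g c g⁻¹) = θ(c) for all c ∈ C) and e the index of C in T. Then e divides p − 1 and B contains exactly e + (p − 1)/e irreducible characters. Moreover B is the disjoint union of a set X of e characters and a set Y of (p − 1)/e characters such that, with f the index of C in N: every χ ∈ X has χ(1) ≡ ±(f/e)·θ(1) (mod p), there is one sign ε with ψ(1) ≡ ε f θ(1) (mod p) for all ψ ∈ Y, and all members of Y agree on the p-regular elements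 of G. -/
theorem result {G : Type*} [Group G] [Finite G] (p : ℕ) [Fact p.Prime] (M : Ideal Cfsg.AlgInt) (hM : Cfsg.IsPModular p M) (hodd : p ≠ 2) (P : Sylow p G) (hP : Nat.card P = p) (B : Set (Cfsg.IrrCharacter G)) (hB : Cfsg.IsPBlock M B) (hBP : Cfsg.IsDefectGroup p M B P) (b : Set (Cfsg.IrrCharacter (Subgroup.centralizer ((P : Subgroup G) : Set G)))) (hind : Cfsg.IsInducedBlock M (Subgroup.centralizer ((P : Subgroup G) : Set G)) b B) (θ : Cfsg.IrrCharacter (Subgroup.centralizer ((P : Subgroup G) : Set G))) (hθ : θ ∈ b) (hθP : ∀ x : Subgroup.centralizer ((P : Subgroup G) : Set G), (x : G) ∈ (P : Subgroup G) → (θ : Subgroup.centralizer ((P : Subgroup G) : Set G) → ℂ) x = (θ : Subgroup.centralizer ((P : Subgroup G) : Set G) → ℂ) 1) (T : Subgroup G) (hT : ∀ g : G, g ∈ T ↔ (g ∈ Subgroup.normalizer ((P : Subgroup G) : Set G) ∧ ∀ c c' : Subgroup.centralizer ((P : Subgroup G) : Set G), (c' : G) = g * c * g⁻¹ → (θ : Subgroup.centralizer ((P : Subgroup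 G) : Set G) → ℂ) c' = (θ : Subgroup.centralizer ((P : Subgroup G) : Set G) → ℂ) c)) (e f : ℕ) (he : (Subgroup.centralizer ((P : Subgroup G) : Set G)).relIndex T = e) (hf : (Subgroup.centralizer ((P : Subgroup G) : Set G)).relIndex (Subgroup.normalizer ((P : Subgroup G) : Set G)) = f) : e ∣ p - 1 ∧ Nat.card B = e + (p - 1) / e ∧ ∃ X Y : Set (Cfsg.IrrCharacter G), B = X ∪ Y ∧ Disjoint X Y ∧ Nat.card X = e ∧ Nat.card Y = (p - 1) / e ∧ (∀ χ ∈ X, (Cfsg.charDegree (χ : G → ℂ) : ℤ) ≡ ((f / e * Cfsg.charDegree (θ : Subgroup.centralizer ((P : Subgroup G) : Set G) → ℂ) : ℕ) : ℤ) [ZMOD p] ∨ (Cfsg.charDegree (χ : G → ℂ) : ℤ) ≡ -((f / e * Cfsg.charDegree (θ : Subgroup.centralizer ((P : Subgroup G) : Set G) → ℂ) : ℕ) : ℤ) [ZMOD p]) ∧ (∃ ε : ℤ, (ε = 1 ∨ ε = -1) ∧ ∀ ψ ∈ Y, (Cfsg.charDegree (ψ : G → ℂ) : ℤ) ≡ ε * ((f * Cfsg.charDegree (θ : Subgroup.centralizer ((P : Subgroup G) : Set G) → ℂ) : ℕ) : ℤ) [ZMOD p]) ∧ ∀ ψ ∈ Y, ∀ ψ' ∈ Y, ∀ g : G, ¬ p ∣ orderOf g → (ψ :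 G → ℂ) g = (ψ' : G → ℂ) g := by
  classical
  have := hM.2.1
  obtain ⟨x, hx, hPx⟩ := H35.exists_zpowers_eq_of_card Fact.out hP
  obtain ⟨S, rfl⟩ := H35.exists_setup hx (H35.not_sq_dvd_of_sylow P hP)
  have hC : ∀ g, g ∈ Subgroup.centralizer ((P : Subgroup G) : Set G) ↔ Commute S.x g := fun g => by
    rw [hPx, H35.centralizer_zpowers, Subgroup.mem_centralizer_singleton_iff]
    exact eq_comm
  have hθP' := fun (c : Subgroup.centralizer ((P : Subgroup G) : Set G))
    (h : (c : G) ∈ Subgroup.zpowers S.x) => hθP c (hPx.ge h)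
  have hirr := S.isIrr_toC hC θ.2 hθP'
  rw [S.relIndex_inertia hC θ.2 hθP' (fun g => by rw [hT, ← hPx])] at he
  have hf' : S.V.index = f := by
    rw [← hf, ← S.relIndex_eq, hPx, H35.centralizer_zpowers]
  rw [S.index_V_eq (H5.isClassFunction_of_isIrr hirr), he] at hf'
  obtain ⟨D, -⟩ := S.exists_blk hirr (H35.triv G)
  have he0 : 0 < e := he ▸ Nat.card_pos
  have hY : D.Y.card = (p - 1) / e := by rw [← D.cardY, he, Nat.mul_div_cancel _ he0]
  have hBD : B = (D.X : Set (IrrCharacter G)) ∪ D.Y := by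
    obtain ⟨χ₀, hχ₀⟩ := D.nonempty_Y
    obtain ⟨χ, rfl⟩ := hB
    have h1 : SameBlock M (χ₀ : G → ℂ) χ := fun g => by
      have h2 := hind.2.2 θ hθ χ (fun g => by rw [sub_self]; exact (H32.locMax M).zero_mem) g
      rw [S.inducedCentralChar_eq hC θ.2 hθP'] at h2
      exact H32.sub_mem_locMax_trans (S.centralChar_sub_mem hM hirr χ₀.2
        (D.psi_not_mem hM (Or.inr hχ₀) one_ne_zero) g) h2
    exact D.blockOf_eq hM hirr (D.mem_of_sameBlock hM hirr (Or.inr hχ₀) h1)
  have hd : (θ : Subgroup.centralizer ((P : Subgroup G) : Set G) → ℂ) (S.toC hC 1) =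
      charDegree (θ : Subgroup.centralizer ((P : Subgroup G) : Set G) → ℂ) := by
    rw [map_one, H35.cast_degree_irr]
  refine ⟨he ▸ H35.card_dvd_pred _, ?_, D.X, D.Y, hBD, Finset.disjoint_coe.mpr D.disj, ?_, ?_,
    fun χ hχ => ?_, ⟨D.ε, D.ε_sign, fun ψ hψ => ?_⟩,
    fun ψ hψ ψ' hψ' g hg => D.eq_on_regular hψ hψ' hg⟩
  · rw [hBD, ← Finset.coe_union, ← hY, ← he, ← D.cardX, ← Finset.card_union_of_disjoint D.disj]
    simp
  · simpa using D.cardX.trans he
  · simpa using hY
  · have h := D.degX χ hχ _ _ (H35.cast_degree_irr χ) hd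
    simp only [← ZMod.intCast_eq_intCast_iff, ← hf', Nat.mul_div_cancel _ he0]
    rcases D.δ_sign χ hχ with h1 | h1 <;> rw [h1] at h
    · exact Or.inl (by simpa using h)
    · exact Or.inr (by simpa using h)
  · have h := D.degY ψ hψ _ _ (H35.cast_degree_irr ψ) hd
    rw [← ZMod.intCast_eq_intCast_iff, ← hf']
    push_cast
    rw [h, he]
    ring

end Cfsg.Agent.S4442
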