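import Cfsg.Statements.S4443
import Cfsg.Agent.H34.Robinson2

set_option autoImplicit false
open Cfsg

namespace Cfsg.Agent.S4443

/-- Let D be a normal p-subgroup of the finite group G, of order p^d, let p^a be the p-part of the order of G, and fix a Sylow p-subgroup S and a maximal ideal M of the algebraic integers containing p. Index by a finite type ι (via an injective map K) exactly the conjugacy classes of p-regular elements x of G for which D is a Sylow p-subgroup of C_G(x). For classes K_i, K_j let ω(i, j) be the number of pairs (y, z) ∈ K_i × K_j with z y⁻¹ ∈ S; this number is divisible by p^(a−d). Then the number of p-blocks of G having D as a defect group equals the rank over ℤ/pℤ of the matrix with (i, j) entry ω(i, j)/p^(a−d) reduced modulo p. -/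
theorem result {G : Type*} [Group G] [Finite G] (p : ℕ) [Fact p.Prime] (M : Ideal Cfsg.AlgInt) (hM : Cfsg.IsPModular p M) (D : Subgroup G) [D.Normal] (hD : IsPGroup p D) (S : Sylow p G) {ι : Type*} [Fintype ι] [DecidableEq ι] (K : ι → ConjClasses G) (hKinj : Function.Injective K) (hK : ∀ C : ConjClasses G, (∃ i, K i = C) ↔ ∃ x ∈ C.carrier, ¬ p ∣ orderOf x ∧ ∃ Q : Sylow p (Subgroup.centralizer ({x} : Set G)), (Q : Subgroup (Subgroup.centralizer ({x} : Set G))).map (Subgroup.centralizer ({x} : Set G)).subtype = D) : Nat.card {B : Set (Cfsg.IrrCharacter G) // Cfsg.IsPBlock M B ∧ Cfsg.IsDefectGroup p M B D} = (Matrix.of fun i j : ι => ((Nat.card {yz : G × G // yz.1 ∈ (K i).carrier ∧ yz.2 ∈ (K j).carrier ∧ yz.2 * yz.1⁻¹ ∈ (S : Subgroup G)} / p ^ ((Nat.card G).factorization p - (Nat.card D).factorization p) : ℕ) : ZMod p)).rank := by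
  have := hM.2.1
  have hS : H87.SylIn p (S : Subgroup G) ⊤ := H87.sylIn_top_iff.mpr ⟨S, rfl⟩
  choose r h1 h2 h3 using fun i => (hK (K i)).mp ⟨i, rfl⟩
  have h4 : ∀ i, H87.SylIn p D (H34.Cg (r i)) := fun i => by
    obtain ⟨Q, hQ⟩ := h3 i
    exact H87.sylIn_iff.mpr ⟨Q, hQ.symm⟩
  have h5 : ∀ i x, x ∈ (K i).carrier ↔ IsConj (r i) x := fun i x => by
    rw [← ConjClasses.mem_carrier_iff_mk_eq.mp (h1 i), ConjClasses.mem_carrier_iff_mk_eq,
      ConjClasses.mk_eq_mk_iff_isConj, isConj_comm]
  rw [H34.card_blocks_eq_rank hM hS hKinj r (fun i => ConjClasses.mem_carrier_iff_mk_eq.mp (h1 i))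
    h4 (fun g hg hg' => (hK _).mpr ⟨g, ConjClasses.mem_carrier_mk, hg, by
      obtain ⟨Q, hQ⟩ := H87.sylIn_iff.mp hg'
      exact ⟨Q, hQ.symm⟩⟩) hD]
  have hDS : D ≤ S := hS.normal_le hD le_top (by rw [H87.No, Subgroup.normalizer_eq_top])
  have h6 : D.relIndex S = p ^ ((Nat.card G).factorization p - (Nat.card D).factorization p) := by
    have e1 : Nat.card D * D.relIndex S = Nat.card S := by
      rw [Subgroup.relIndex, ← Nat.card_congr (Subgroup.subgroupOfEquivOfLe hDS).toEquiv,
        Subgroup.card_mul_index]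
    obtain ⟨k, hk⟩ := IsPGroup.iff_card.mp hD
    obtain ⟨j, hj⟩ : ∃ j, D.relIndex S = p ^ j := hS.pgp.index _
    rw [S.card_eq_multiplicity, hk, hj, ← pow_add] at e1
    rw [hj, ← Nat.pow_right_injective hM.1.two_le e1, hk, hM.1.factorization_pow,
      Finsupp.single_eq_same, Nat.add_sub_cancel_left]
  congr 2
  ext i j
  rw [h6, H34.cnt]
  simp only [h5]

end Cfsg.Agent.S4443
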