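import Cfsg.Statements.S4445
import Cfsg.Agent.H89.GlaubS
import Cfsg.Agent.H1.Glauberman
import Cfsg.Agent.H5.ClassFn

set_option autoImplicit false
open Cfsg

namespace Cfsg.Agent.S4445

open Cfsg.Agent.H5 Cfsg.Agent.H89 Subgroup

/-- Inside a finite group Γ let the solvable subgroup S normalise G with the orders of G and S coprime. Then the number of S-invariant irreducible characters of G (χ(s g s⁻¹) = χ(g) for all s ∈ S, g ∈ G) equals the number of conjugacy classes of G mapped to themselves by conjugation by every element of S. -/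
theorem result {Γ : Type*} [Group Γ] [Fintype Γ] (G S : Subgroup Γ) [Fintype G] (hnorm : ∀ s ∈ S, ∀ g ∈ G, s * g * s⁻¹ ∈ G) (hcop : (Nat.card G).Coprime (Nat.card S)) (hsolv : Group.IsSolvable S) : Nat.card {χ : Cfsg.IrrCharacter G // (∀ s ∈ S, ∀ g g' : G, (g' : Γ) = s * g * s⁻¹ → (χ : G → ℂ) g' = (χ : G → ℂ) g)} = Nat.card {K : ConjClasses G // ∀ s ∈ S, ∀ g g' : G, (g' : Γ) = s * g * s⁻¹ → ConjClasses.mk g = K → ConjClasses.mk g' = K} := by
  have hS := le_normalizer_of_conj hnorm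
  refine (card_sInv_eq S hsolv G hS hcop).trans ?_
  rw [card_irrCharacter]
  set C := G ⊓ centralizer (S : Set Γ) with hC
  have hCG : C ≤ G := inf_le_left
  refine Nat.card_congr (Equiv.ofBijective
    (fun K => ⟨ConjClasses.map (inclusion hCG) K, ?_⟩) ⟨fun K K' e => ?_, fun K => ?_⟩)
  · obtain ⟨c, rfl⟩ := ConjClasses.mk_surjective K
    intro s hs g g' hg e
    rw [← e, ConjClasses.mk_eq_mk_iff_isConj]
    obtain ⟨y, hy⟩ := isConj_iff.1 (ConjClasses.mk_eq_mk_iff_isConj.1 e)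
    have hy' : (y : Γ) * g * (y : Γ)⁻¹ = c := congrArg Subtype.val hy
    have hc := mem_centralizer_iff.1 c.2.2 s hs
    refine isConj_iff.2 ⟨y⁻¹ * ⟨s * y * s⁻¹, hnorm s hs y y.2⟩, Subtype.ext ?_⟩
    change (y : Γ)⁻¹ * (s * y * s⁻¹) * g' * ((y : Γ)⁻¹ * (s * y * s⁻¹))⁻¹ = g
    rw [hg]
    calc _ = (y : Γ)⁻¹ * (s * (y * g * (y : Γ)⁻¹) * s⁻¹) * y := by group
      _ = (y : Γ)⁻¹ * (y * g * (y : Γ)⁻¹) * y := by rw [hy', hc, mul_inv_cancel_right]
      _ = g := by group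
  · obtain ⟨c, rfl⟩ := ConjClasses.mk_surjective K
    obtain ⟨c', rfl⟩ := ConjClasses.mk_surjective K'
    obtain ⟨y, hy⟩ := isConj_iff.1 (ConjClasses.mk_eq_mk_iff_isConj.1 (congrArg Subtype.val e))
    have hy' : (y : Γ) * c * (y : Γ)⁻¹ = c' := congrArg Subtype.val hy
    obtain ⟨d, hd, hd'⟩ := H1.glauberman_conj S G hS hcop.symm (Or.inl hsolv)
      (centralizer {(c : Γ)})
      (fun s hs => mem_centralizer_singleton_iff.2 (mem_centralizer_iff.1 c.2.2 s hs)) y y.2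
      (fun s hs => by
        rw [mem_centralizer_singleton_iff]
        have hc := mem_centralizer_iff.1 c'.2.2 s hs
        rw [← hy'] at hc
        calc (y : Γ)⁻¹ * s * y * c = (y : Γ)⁻¹ * (s * (y * c * (y : Γ)⁻¹)) * y := by group
          _ = _ := by rw [hc]; group)
    rw [mem_centralizer_singleton_iff] at hd'
    refine ConjClasses.mk_eq_mk_iff_isConj.2 (isConj_iff.2 ⟨⟨d, hd⟩, Subtype.ext ?_⟩)
    change d * c * d⁻¹ = c'
    rw [← hy']
    calc d * c * d⁻¹ = y * ((y : Γ)⁻¹ * d * c) * d⁻¹ := by group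
      _ = _ := by rw [hd']; group
  · obtain ⟨K, hK⟩ := K
    obtain ⟨g, rfl⟩ := ConjClasses.mk_surjective K
    obtain ⟨n, hn, hn'⟩ := H1.glauberman_fixed S G hS hcop.symm (Or.inl hsolv)
      (centralizer {(g : Γ)}) (fun s hs => by
        obtain ⟨y, hy⟩ := isConj_iff.1 (ConjClasses.mk_eq_mk_iff_isConj.1
          (hK s hs g ⟨_, hnorm s hs g g.2⟩ rfl rfl).symm)
        have hy' : (y : Γ) * g * (y : Γ)⁻¹ = s * g * s⁻¹ := congrArg Subtype.val hy
        refine ⟨y, y.2, mem_centralizer_singleton_iff.2 ?_⟩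
        calc (y : Γ)⁻¹ * s * g = (y : Γ)⁻¹ * (s * g * s⁻¹) * s := by group
          _ = _ := by rw [← hy']; group)
    refine ⟨ConjClasses.mk ⟨n * g * n⁻¹, G.mul_mem (G.mul_mem hn g.2) (G.inv_mem hn),
      mem_centralizer_iff.2 fun s hs => ?_⟩, Subtype.ext ?_⟩
    · have := mem_centralizer_singleton_iff.1 (hn' s hs)
      calc s * (n * g * n⁻¹) = n * (n⁻¹ * s * n * g) * n⁻¹ := by group
        _ = _ := by rw [this]; group
    · exact (ConjClasses.mk_eq_mk_iff_isConj.2 (isConj_iff.2 ⟨(⟨n, hn⟩ : G), rfl⟩)).symm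

end Cfsg.Agent.S4445
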