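import Cfsg.Statements.S4446
import Cfsg.Agent.H89.GlaubInt

set_option autoImplicit false
open Cfsg

namespace Cfsg.Agent.S4446

open Cfsg.Agent.H5 Cfsg.Agent.H89

/-- Let the finite group Γ be generated by a normal subgroup G and a cyclic subgroup S of coprime orders, C = G ⊓ C(S), and let χ be an S-invariant irreducible character of G with canonical extension χ̂ to Γ (the extension whose determinantal order is coprime to the order of S). Then there are exactly one irreducible character β of C and one sign ε such that χ̂(c s) = ε β(c) for every c ∈ C and every generator s of S; this β is a constituent of the restriction of χ to C; distinct S-invariant χ give distinct β; and every irreducible character of C arises in this way. -/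
theorem result {Γ : Type*} [Group Γ] [Fintype Γ] (G S : Subgroup Γ) [Fintype G] (hnorm : ∀ s ∈ S, ∀ g ∈ G, s * g * s⁻¹ ∈ G) (hcop : (Nat.card G).Coprime (Nat.card S)) (htop : G ⊔ S = ⊤) (hcyc : IsCyclic S) (C : Subgroup Γ) [Fintype C] (hC : C = G ⊓ Subgroup.centralizer (S : Set Γ)) (hCG : C ≤ G) : (∀ (χ : Cfsg.IrrCharacter G) (χh : Cfsg.IrrCharacter Γ), (∀ s ∈ S, ∀ g g' : G, (g' : Γ) = s * g * s⁻¹ → (χ : G → ℂ) g' = (χ : G → ℂ) g) → (∀ g : G, (χh : Γ → ℂ) g = (χ : G → ℂ) g) → (Cfsg.detOrder (χh : Γ → ℂ)).Coprime (Nat.card S) → (∃! βε : Cfsg.IrrCharacter C × ℤ, (βε.2 = 1 ∨ βε.2 = -1) ∧ ∀ c : C, ∀ s : Γ, Subgroup.zpowers s = S → (χh : Γ → ℂ) ((c : Γ) * s) = (βε.2 : ℂ) * (βε.1 : C → ℂ) c) ∧ ∀ β : Cfsg.IrrCharacter C, ∀ ε : ℤ, (ε = 1 ∨ ε = -1) → (∀ c : C, ∀ s : Γ, Subgroup.zpowers s = S → (χh : Γ → ℂ) ((c : Γ) * s) = (ε : ℂ) * (β : C → ℂ) c) → Cfsg.classInner (fun c : C => (χ : G → ℂ) ⟨c, hCG c.2⟩) (β : C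 → ℂ) ≠ 0) ∧ (∀ (χ χ' : Cfsg.IrrCharacter G) (χh χh' : Cfsg.IrrCharacter Γ), (∀ s ∈ S, ∀ g g' : G, (g' : Γ) = s * g * s⁻¹ → (χ : G → ℂ) g' = (χ : G → ℂ) g) → (∀ s ∈ S, ∀ g g' : G, (g' : Γ) = s * g * s⁻¹ → (χ' : G → ℂ) g' = (χ' : G → ℂ) g) → (∀ g : G, (χh : Γ → ℂ) g = (χ : G → ℂ) g) → (∀ g : G, (χh' : Γ → ℂ) g = (χ' : G → ℂ) g) → (Cfsg.detOrder (χh : Γ → ℂ)).Coprime (Nat.card S) → (Cfsg.detOrder (χh' : Γ → ℂ)).Coprime (Nat.card S) → ∀ β : Cfsg.IrrCharacter C, ∀ ε ε' : ℤ, (ε = 1 ∨ ε = -1) → (ε' = 1 ∨ ε' = -1) → (∀ c : C, ∀ s : Γ, Subgroup.zpowers s = S → (χh : Γ → ℂ) ((c : Γ) * s) = (ε : ℂ) * (β : C → ℂ) c) → (∀ c : C, ∀ s : Γ, Subgroup.zpowers s = S → (χh' : Γ → ℂ) ((c : Γ) * s) = (ε' : ℂ) * (β : C → ℂ) c) → χ = χ') ∧ (∀ β : Cfsg.IrrCharacter C, ∃ (χ : Cfsg.IrrCharacter G) (χh : Cfsg.IrrCharacter Γ) (ε : ℤ), (∀ s ∈ S, ∀ g g' : G, (g' : Γ) = s * g * s⁻¹ → (χ : G → ℂ) g' = (χ : G → ℂ) g) ∧ (∀ g : G, (χh :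 Γ → ℂ) g = (χ : G → ℂ) g) ∧ (Cfsg.detOrder (χh : Γ → ℂ)).Coprime (Nat.card S) ∧ (ε = 1 ∨ ε = -1) ∧ ∀ c : C, ∀ s : Γ, Subgroup.zpowers s = S → (χh : Γ → ℂ) ((c : Γ) * s) = (ε : ℂ) * (β : C → ℂ) c) := by
  classical
  haveI hG : G.Normal := normal_of_sup_eq_top hnorm htop
  have hidx : G.subtype.range.index = Nat.card S := by
    rw [Subgroup.range_subtype]; exact index_eq_card_of_sup G S hcop htop
  obtain ⟨s, rfl⟩ := exists_zpowers_eq_of_isCyclic hcyc
  rw [centralizer_zpowers] at hC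
  have D := cycData_subtype G C hCG hC (by rw [← Nat.card_zpowers]; exact hcop.symm)
  have htop' : G.subtype.range ⊔ Subgroup.zpowers s = ⊤ := by rwa [Subgroup.range_subtype]
  have key : ∀ ψ : Γ → ℂ, IsCharacter Γ ψ → IsCanon (Nat.card G) ψ → ∀ (c : C) (s' : Γ),
      Subgroup.zpowers s' = Subgroup.zpowers s → ψ ((c : Γ) * s') = ψ ((c : Γ) * s) := by
    intro ψ hψ hc c s' hs'
    obtain ⟨m, hm, rfl⟩ := exists_pow_of_zpowers_eq hs'
    exact D.apply_pow_eq hψ hc c hm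
  have hirr : ∀ (χ : IrrCharacter G) (χh : IrrCharacter Γ),
      (∀ g : G, (χh : Γ → ℂ) g = (χ : G → ℂ) g) →
      IsIrrCharacter G (fun g => (χh : Γ → ℂ) (G.subtype g)) := fun χ χh h => by
    have : (fun g => (χh : Γ → ℂ) (G.subtype g)) = χ := funext h
    rw [this]; exact χ.2
  have hε0 : ∀ ε : ℤ, (ε = 1 ∨ ε = -1) → (ε : ℂ) ≠ 0 := by
    rintro ε (rfl | rfl) <;> simp
  refine ⟨fun χ χh _ hext hdet => ?_, ?_, fun β => ?_⟩
  · have hψ := isCharacter_of_isIrr χh.2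
    have hcan : IsCanon (Nat.card G) (χh : Γ → ℂ) :=
      isCanon_of_detOrder G.subtype D.normal (D.index_coprime htop') hψ (hirr χ χh hext)
        (hidx ▸ hdet.symm)
    obtain ⟨β, ε, hε, h⟩ := D.exists_sign hψ (hirr χ χh hext) hcan
    refine ⟨⟨(β, ε), ⟨hε, fun c s' hs' => ?_⟩, ?_⟩, fun β' ε' hε' h' hzero => ?_⟩
    · rw [key _ hψ hcan c s' hs']; exact h c
    · rintro ⟨β', ε'⟩ ⟨hε', h'⟩
      have h1 := classInner_sign_irr h β'
      have h2 := classInner_sign_irr (fun c => h' c s rfl) β'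
      have h3 : (if β = β' then (ε : ℂ) else 0) = ε' := by
        rw [← h1]; simpa using h2
      by_cases hb : β = β'
      · rw [if_pos hb] at h3
        exact Prod.ext hb.symm (by exact_mod_cast h3.symm)
      · rw [if_neg hb] at h3
        exact absurd h3.symm (hε0 ε' hε')
    · have h1 := D.isCharacter_eta hψ (isCharacter_of_isIrr β'.2)
      have h2 := eq_zero_of_degree_eq_zero h1 (by
        rw [← hzero]
        congr 1
        funext c
        simp only [OneMemClass.coe_one, mul_one]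
        exact hext ⟨c, hCG c.2⟩)
      have h3 := congrFun h2 ⟨s, Subgroup.mem_zpowers s⟩
      have h4 := classInner_sign_irr (fun c => h' c s rfl) β'
      rw [if_pos rfl] at h4
      exact hε0 ε' hε' (h4.symm.trans h3)
  · intro χ χ' χh χh' _ _ hext hext' _ _ β ε ε' hε hε' h h'
    by_contra hne
    have h1 := D.classInner_eq_zero (isCharacter_of_isIrr χh.2) (isCharacter_of_isIrr χh'.2)
      (hirr χ χh hext) (hirr χ' χh' hext') (fun e => hne (Subtype.ext (funext fun g => by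
        rw [← hext, ← hext']; exact congrFun e g)))
    have e2 : (fun c : C => (χh' : Γ → ℂ) (G.subtype (Subgroup.inclusion hCG c) * s)) =
        (ε' : ℂ) • (β : C → ℂ) := funext fun c => h' c s rfl
    have h4 := classInner_sign_irr (fun c => h c s rfl) β
    rw [if_pos rfl] at h4
    rw [e2, classInner_smul_right] at h1
    rcases mul_eq_zero.1 h1 with h5 | h5
    · exact hε0 ε' hε' (by simpa using h5)
    · exact hε0 ε hε (h4.symm.trans h5)
  · obtain ⟨ψ, ε, hψ, hres, hdet, hcan, hε, h⟩ := D.exists_of_irr htop' β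
    refine ⟨⟨_, hres⟩, ⟨ψ, hψ⟩, ε, fun t _ g g' hg => ?_, fun g => rfl, hidx ▸ hdet.symm, hε,
      fun c s' hs' => ?_⟩
    · change ψ g' = ψ g
      rw [hg]; exact isClassFunction_of_isIrr hψ _ _
    · exact (key _ (isCharacter_of_isIrr hψ) hcan c s' hs').trans (h c)

end Cfsg.Agent.S4446
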