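import Cfsg.Statements.S4451
import Cfsg.Agent.H89.GlaubInt
import Cfsg.Agent.H89.UnitChar
import Cfsg.Agent.H31.PPart
import Cfsg.Agent.H88.Deg

set_option autoImplicit false
open Cfsg

namespace Cfsg.Agent.S4451

set_option linter.style.haveILetI false
open Cfsg.Agent.H5 Cfsg.Agent.H89

/-- Let the finite group Γ be generated by a normal subgroup G and a cyclic subgroup S of coprime orders such that every non-identity element of S has the same centraliser C = G ⊓ C(S) in G. Let χ be an S-invariant irreducible character of G, χ̂ its canonical extension to Γ (determinantal order coprime to the order of S), and β the irreducible character of C with χ̂(c s) = ε₀ β(c) for c ∈ C and generators s of S (ε₀ = ±1). Then there are a sign ε = ±1, which may differ from ε₀, and a linear character μ of S with μ² = 1, such that: (a) χ̂(c x) = ε β(c) μ(x) for all c ∈ C and all x ∈ S other than 1; (b) the restriction of χ to C equals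 |S|·ϑ + ε β for some character ϑ of C or ϑ = 0; (c) |S| divides χ(1) − ε β(1). -/
theorem result {Γ : Type*} [Group Γ] [Fintype Γ] (G S : Subgroup Γ) [Fintype G] (hnorm : ∀ s ∈ S, ∀ g ∈ G, s * g * s⁻¹ ∈ G) (hcop : (Nat.card G).Coprime (Nat.card S)) (htop : G ⊔ S = ⊤) (hcyc : IsCyclic S) (C : Subgroup Γ) [Fintype C] (hC : C = G ⊓ Subgroup.centralizer (S : Set Γ)) (hCG : C ≤ G) (hfpf : ∀ x ∈ S, x ≠ 1 → G ⊓ Subgroup.centralizer ({x} : Set Γ) = C) (χ : Cfsg.IrrCharacter G) (hinv : (∀ s ∈ S, ∀ g g' : G, (g' : Γ) = s * g * s⁻¹ → (χ : G → ℂ) g' = (χ : G → ℂ) g)) (χh : Cfsg.IrrCharacter Γ) (hext : (∀ g : G, (χh : Γ → ℂ) g = (χ : G → ℂ) g)) (hdet : (Cfsg.detOrder (χh : Γ → ℂ)).Coprime (Nat.card S)) (β : Cfsg.IrrCharacter C) (ε₀ : ℤ) (hε₀ : ε₀ = 1 ∨ ε₀ = -1) (hβ : ∀ c : C, ∀ s : Γ, Subgroup.zpowers s = S → (χh : Γ → ℂ) ((c : Γ) * s) = (ε₀ : ℂ) * (β : C → ℂ) c) : ∃ ε : ℤ, (ε = 1 ∨ ε = -1) ∧ (∃ μ : S → ℂ, Cfsg.IsCharacter S μ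 ∧ μ 1 = 1 ∧ (∀ x : S, μ x * μ x = 1) ∧ ∀ c : C, ∀ x : S, x ≠ 1 → (χh : Γ → ℂ) ((c : Γ) * x) = (ε : ℂ) * (β : C → ℂ) c * μ x) ∧ (∃ ϑ : C → ℂ, Cfsg.IsCharacter C ϑ ∧ (fun c : C => (χ : G → ℂ) ⟨c, hCG c.2⟩) = fun c => (Nat.card S : ℂ) * ϑ c + (ε : ℂ) * (β : C → ℂ) c) ∧ (Nat.card S : ℤ) ∣ (Cfsg.charDegree (χ : G → ℂ) : ℤ) - ε * (Cfsg.charDegree (β : C → ℂ) : ℤ) := by
  classical
  haveI hG : G.Normal := normal_of_sup_eq_top hnorm htop
  letI : Fintype S := Fintype.ofFinite _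
  have hidx : G.subtype.range.index = Nat.card S := by
    rw [Subgroup.range_subtype]; exact index_eq_card_of_sup G S hcop htop
  have hψ := isCharacter_of_isIrr χh.2
  have hirr : IsIrrCharacter G (fun g => (χh : Γ → ℂ) (G.subtype g)) := by
    have : (fun g => (χh : Γ → ℂ) (G.subtype g)) = χ := funext hext
    rw [this]; exact χ.2
  have hcan : IsCanon (Nat.card G) (χh : Γ → ℂ) :=
    isCanon_of_detOrder G.subtype (by rwa [Subgroup.range_subtype]) (hidx ▸ hcop.symm) hψ hirr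
      (hidx ▸ hdet.symm)
  suffices h : ∃ ε : ℤ, (ε = 1 ∨ ε = -1) ∧ (∃ μ : S → ℂ, IsCharacter S μ ∧ μ 1 = 1 ∧
      (∀ x : S, μ x * μ x = 1) ∧ ∀ c : C, ∀ x : S, x ≠ 1 →
        (χh : Γ → ℂ) ((c : Γ) * x) = (ε : ℂ) * (β : C → ℂ) c * μ x) ∧
      (∃ ϑ : C → ℂ, IsCharacter C ϑ ∧ (fun c : C => (χ : G → ℂ) ⟨c, hCG c.2⟩) =
        fun c => (Nat.card S : ℂ) * ϑ c + (ε : ℂ) * (β : C → ℂ) c) by
    obtain ⟨ε, hε, h1, ϑ, hϑ, h2⟩ := h
    refine ⟨ε, hε, h1, ⟨ϑ, hϑ, h2⟩, charDegree ϑ, ?_⟩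
    have h3 : (χ : G → ℂ) 1 = (Nat.card S : ℂ) * ϑ 1 + (ε : ℂ) * (β : C → ℂ) 1 := congrFun h2 1
    rw [← H88.irr_charDegree_cast, ← H88.irr_charDegree_cast, ← H88.charDegree_cast hϑ] at h3
    have h4 : (charDegree (χ : G → ℂ) : ℤ) =
        Nat.card S * charDegree ϑ + ε * charDegree (β : C → ℂ) := by exact_mod_cast h3
    rw [h4]; ring
  obtain ⟨s, hs⟩ := exists_zpowers_eq_of_isCyclic hcyc
  have hsS : s ∈ S := hs ▸ Subgroup.mem_zpowers s
  have hcomm : ∀ a b : S, a * b = b * a := fun a b => by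
    letI := hcyc.commGroup
    exact mul_comm a b
  rcases subsingleton_or_nontrivial S with hS | hS
  · have hs1 : s = 1 := congrArg Subtype.val (Subsingleton.elim (⟨s, hsS⟩ : S) 1)
    refine ⟨ε₀, hε₀, ⟨fun _ => 1, isCharacter_one, rfl, fun _ => mul_one _,
      fun c x hx => absurd (Subsingleton.elim x 1) hx⟩, 0, isCharacter_zero, funext fun c => ?_⟩
    have := hβ c s hs
    rw [hs1, mul_one] at this
    rw [← this, ← hext]; simp
  have D : ∀ x : S, x ≠ 1 → CycData G.subtype (Subgroup.inclusion hCG) (x : Γ) := fun x hx =>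
    cycData_subtype G C hCG (hfpf x x.2 (fun h => hx (Subtype.ext h))).symm
      (hcop.symm.coprime_dvd_left (S.orderOf_dvd_natCard x.2))
  let η : IrrCharacter C → S → ℂ := fun β' x =>
    classInner (fun c : C => (χh : Γ → ℂ) ((c : Γ) * x)) β'
  have hη : ∀ β', IsCharacter S (η β') := fun β' =>
    isCharacter_partial_inner C.subtype S.subtype (fun c x =>
      (Subgroup.mem_centralizer_iff.1 (hC ▸ c.2 : (c : Γ) ∈ G ⊓ Subgroup.centralizer (S : Set Γ)).2
        x x.2).symm) hψ (isCharacter_of_isIrr β'.2)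
  let P : S → Prop := fun x => ∃ ε : ℤ, (ε = 1 ∨ ε = -1) ∧
    ∀ c : C, (χh : Γ → ℂ) ((c : Γ) * x) = ε * (β : C → ℂ) c
  have hA : ∀ (p k : ℕ) (u x : S), p.Prime → u ^ p ^ k = 1 → x ≠ 1 → P (u * x) → P x := by
    rintro p k u x hp hu hx ⟨ε, hε, h⟩
    obtain ⟨β', ε', hε', h'⟩ := (D x hx).exists_sign hψ hirr hcan
    by_cases e : β' = β
    · exact ⟨ε', hε', e ▸ h'⟩
    exfalso
    have h1 := int_dvd_sub_of_char hcomm hp (hη β) hu x (a := ε) (b := 0)
      ((classInner_sign_irr h β).trans (if_pos rfl))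
      ((classInner_sign_irr h' β).trans ((if_neg e).trans Int.cast_zero.symm))
    have h2 : p ∣ 1 := by
      rcases hε with rfl | rfl
      · rw [sub_zero] at h1; exact_mod_cast h1
      · rw [sub_zero, Int.dvd_neg] at h1; exact_mod_cast h1
    exact hp.one_lt.ne' (Nat.dvd_one.1 h2)
  have hB : ∀ (q : ℕ) (x : S), q.Prime → x ^ q ≠ 1 → P x → P (x ^ q) := by
    intro q x hq hx hP
    obtain ⟨u, v, rfl, huv, -, -, ⟨k, hk⟩, hv⟩ := H31.exists_p_parts hq x
    by_cases hv1 : v = 1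
    · subst hv1
      rw [mul_one] at hx hP ⊢
      refine hA q k (u * (u ^ q)⁻¹) _ hq ?_ hx (by rwa [inv_mul_cancel_right])
      rw [(Commute.self_pow u q).inv_right.mul_pow, inv_pow, ← pow_mul, mul_comm q, pow_mul, hk]
      simp
    · obtain ⟨ε, hε, h⟩ := hA q k u v hq hk hv1 hP
      refine hA q k (u ^ q)⁻¹ _ hq ?_ hx ⟨ε, hε, fun c => ?_⟩
      · rw [inv_pow, ← pow_mul, mul_comm q, pow_mul, hk]; simp
      · rw [huv.mul_pow, inv_mul_cancel_left, ← h]
        exact (D v hv1).apply_pow_eq hψ hcan c (by rw [Subgroup.orderOf_coe]; exact hv.symm)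
  have hP : ∀ x : S, x ≠ 1 → P x := by
    have h1 : ∀ k : ℕ, (⟨s, hsS⟩ : S) ^ k ≠ 1 → P (⟨s, hsS⟩ ^ k) := by
      intro k
      induction k using induction_on_primes with
      | zero => exact fun h => absurd (pow_zero _) h
      | one => exact fun _ => ⟨ε₀, hε₀, fun c => by simpa using hβ c s hs⟩
      | prime_mul p a hp ih =>
        intro h
        rw [mul_comm, pow_mul] at h ⊢
        exact hB p _ hp h (ih fun e => h (by rw [e, one_pow]))
    intro x hx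
    obtain ⟨k, hk⟩ := mem_powers_iff_mem_zpowers.2 (hs ▸ x.2 : (x : Γ) ∈ Subgroup.zpowers s)
    have : x = ⟨s, hsS⟩ ^ k := Subtype.ext hk.symm
    rw [this] at hx ⊢
    exact h1 k hx
  obtain ⟨k, ε, μ, hε, h1, h2⟩ := exists_regular_add_sign hcomm (hη β) (fun x hx => by
    obtain ⟨ε, hε, h⟩ := hP x hx
    rw [show η β x = ε from (classInner_sign_irr h β).trans (if_pos rfl)]
    rcases hε with rfl | rfl <;> simp)
  have h3 : ∀ x : S, x ≠ 1 → ∃ ε' : ℤ, (ε' = 1 ∨ ε' = -1) ∧ (ε' : ℂ) = ε * μ x ∧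
      ∀ c : C, (χh : Γ → ℂ) ((c : Γ) * x) = ε' * (β : C → ℂ) c := fun x hx => by
    obtain ⟨ε', hε', h⟩ := hP x hx
    exact ⟨ε', hε', ((classInner_sign_irr h β).trans (if_pos rfl)).symm.trans (h2 x hx), h⟩
  refine ⟨ε, hε, ⟨fun x => (μ x : ℂ), isCharacter_monoidHom μ, by simp, fun x => ?_,
    fun c x hx => ?_⟩, ?_⟩
  · by_cases hx : x = 1
    · simp [hx]
    obtain ⟨ε', hε', h4, -⟩ := h3 x hx
    have h5 : (ε' : ℂ) * ε' = 1 := by rcases hε' with rfl | rfl <;> simp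
    have h6 : (ε : ℂ) * ε = 1 := by rcases hε with rfl | rfl <;> simp
    rw [h4] at h5
    linear_combination h5 - ((μ x : ℂ) * μ x) * h6
  · obtain ⟨ε', -, h4, h5⟩ := h3 x hx
    rw [h5, h4]; ring
  · have hres : IsCharacter C fun c : C => (χ : G → ℂ) ⟨c, hCG c.2⟩ :=
      isCharacter_comp (isCharacter_of_isIrr χ.2) (Subgroup.inclusion hCG)
    have hη1 : ∀ β', η β' 1 = classInner (fun c : C => (χ : G → ℂ) ⟨c, hCG c.2⟩) β' := fun β' => by
      simp only [η, OneMemClass.coe_one, mul_one]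
      congr 1
      funext c
      exact hext ⟨c, hCG c.2⟩
    have h4 : ∀ β' : IrrCharacter C, ∃ t : ℕ,
        classInner (fun c : C => (χ : G → ℂ) ⟨c, hCG c.2⟩) β' =
          Nat.card S * t + if β = β' then (ε : ℂ) else 0 := fun β' => by
      by_cases e : β = β'
      · subst e
        exact ⟨k, by rw [← hη1, h1, if_pos rfl, mul_comm]⟩
      · obtain ⟨m, hm⟩ := exists_nat_degree (hη β')
        obtain ⟨t, ht⟩ := card_dvd_of_vanish (hη β') (fun x hx => by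
          obtain ⟨ε', -, h⟩ := hP x hx
          exact (classInner_sign_irr h β').trans (if_neg e)) hm
        exact ⟨t, by rw [← hη1, hm, ht, if_neg e]; simp⟩
    choose t ht using h4
    refine ⟨_, isCharacter_iff_exists_nat.2 ⟨t, rfl⟩, funext fun c => ?_⟩
    rw [classFunction_apply_eq_sum (isClassFunction_of_isCharacter hres) c]
    simp only [ht, add_mul, Finset.sum_add_distrib, ite_mul, zero_mul, Finset.sum_ite_eq,
      Finset.mem_univ, if_true, Finset.sum_apply, Pi.smul_apply, smul_eq_mul, Finset.mul_sum,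
      mul_assoc]

end Cfsg.Agent.S4451
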