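import Cfsg.Statements.S4452
import Cfsg.Agent.H89.CoprimeDeg

set_option autoImplicit false
open Cfsg

namespace Cfsg.Agent.S4452

open Cfsg.Agent.H5 Cfsg.Agent.H89 Subgroup

/-- Let the finite group G be the product of a normal subgroup K and a solvable subgroup H of coprime orders, and let N = N_G(H). Then the number of irreducible characters of G of degree coprime to the order of H equals the number of irreducible characters of N of degree coprime to the order of H. (The two sets are in fact in a canonical bijection; only the equality of their sizes is stated here.) -/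
theorem result {G : Type*} [Group G] [Finite G] (K H : Subgroup G) [K.Normal] (hKH : K ⊔ H = ⊤) (hcop : (Nat.card K).Coprime (Nat.card H)) (hsolv : Group.IsSolvable H) : Nat.card {χ : Cfsg.IrrCharacter G // (Cfsg.charDegree (χ : G → ℂ)).Coprime (Nat.card H)} = Nat.card {η : Cfsg.IrrCharacter (Subgroup.normalizer (H : Set G)) // (Cfsg.charDegree (η : Subgroup.normalizer (H : Set G) → ℂ)).Coprime (Nat.card H)} := by
  set N := normalizer (H : Set G) with hN
  have hHN : H ≤ N := le_normalizer
  have hcen : K ⊓ N ≤ centralizer (H : Set G) := fun k hk => mem_centralizer_iff.2 fun h hh => by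
    have h1 : h * k * h⁻¹ * k⁻¹ ∈ K ⊓ H :=
      ⟨K.mul_mem (Normal.conj_mem inferInstance _ hk.1 h) (K.inv_mem hk.1), by
        have := H.mul_mem hh ((mem_normalizer_iff.1 hk.2 h⁻¹).1 (H.inv_mem hh))
        simpa [mul_assoc] using this⟩
    rw [(disjoint_of_coprime_natCard hcop).eq_bot, mem_bot, mul_inv_eq_one,
      mul_inv_eq_iff_eq_mul] at h1
    exact h1
  have heq : K ⊓ centralizer (H : Set G) = K ⊓ N :=
    le_antisymm (inf_le_inf_left _ (centralizer_le_normalizer _)) (le_inf inf_le_left hcen)
  have hsup : K.subgroupOf N ⊔ H.subgroupOf N = ⊤ := by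
    rw [eq_top_iff]
    intro n _
    have h1 : (n : G) ∈ K ⊔ H := hKH ▸ mem_top _
    rw [← SetLike.mem_coe, normal_mul] at h1
    obtain ⟨k, hk, h, hh, e⟩ := h1
    have hkN : k ∈ N := by
      have := N.mul_mem n.2 (N.inv_mem (hHN hh))
      rw [← e] at this
      simpa using this
    have : n = ⟨k, hkN⟩ * ⟨h, hHN hh⟩ := Subtype.ext e.symm
    rw [this]
    exact mul_mem_sup hk hh
  have hcH : Nat.card (H.subgroupOf N) = Nat.card H := H2.card_subgroupOf_of_le hHN
  have h1 := card_coprime_degree (K.subgroupOf N) (H.subgroupOf N) hsup (by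
    rw [hcH, H2.card_subgroupOf]
    exact hcop.coprime_dvd_left (card_dvd_of_le inf_le_left))
  rw [hcH] at h1
  rw [h1, card_coprime_degree K H hKH hcop,
    card_sInv_eq H hsolv K (by rw [normalizer_eq_top]; exact le_top) hcop,
    card_hom_congr (subgroupOfEquivOfLe hHN), heq]
  congr 1
  have hc2 : K.subgroupOf N ≤ centralizer (H.subgroupOf N : Set N) := fun k hk =>
    mem_centralizer_iff.2 fun h hh => Subtype.ext
      (mem_centralizer_iff.1 (hcen (mem_inf.2 ⟨hk, k.2⟩)) h hh)
  rw [Nat.card_congr (Equiv.subtypeUnivEquiv fun χ => sInv_of_centralizer hc2 _),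
    ← inf_subgroupOf_right]
  exact (card_irr_congr (subgroupOfEquivOfLe inf_le_right)).symm

end Cfsg.Agent.S4452
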