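import Cfsg.Statements.S4453
import Cfsg.Agent.H89.RelMain

set_option autoImplicit false
open Cfsg

namespace Cfsg.Agent.S4453

set_option linter.style.haveILetI false
open Cfsg.Agent.H5 Cfsg.Agent.H89 Subgroup

/-- Inside a finite group Γ let S normalise the solvable subgroup G of odd order with the orders of G and S coprime, let C = G ⊓ C(S), and let L ≤ K be S-invariant normal subgroups of G with K/L abelian, G = KC and H = LC (so C ≤ H ≤ G). Then for each S-invariant irreducible character χ of G there is exactly one S-invariant irreducible character ψ of H whose multiplicity in the restriction of χ to H is odd, and χ ↦ ψ is a bijection from the S-invariant irreducible characters of G onto those of H (distinct χ give distinct ψ, and every S-invariant ψ arises). -/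
theorem result {Γ : Type*} [Group Γ] [Fintype Γ] (G S : Subgroup Γ) [Fintype G] (hnorm : ∀ s ∈ S, ∀ g ∈ G, s * g * s⁻¹ ∈ G) (hcop : (Nat.card G).Coprime (Nat.card S)) (hGsolv : Group.IsSolvable G) (hodd : Odd (Nat.card G)) (C : Subgroup Γ) [Fintype C] (hC : C = G ⊓ Subgroup.centralizer (S : Set Γ)) (hCG : C ≤ G) (K L H : Subgroup Γ) [Fintype H] (hLK : L ≤ K) (hKG : K ≤ G) (hKn : ∀ g ∈ G, ∀ k ∈ K, g * k * g⁻¹ ∈ K) (hLn : ∀ g ∈ G, ∀ l ∈ L, g * l * g⁻¹ ∈ L) (hKS : ∀ s ∈ S, ∀ k ∈ K, s * k * s⁻¹ ∈ K) (hLS : ∀ s ∈ S, ∀ l ∈ L, s * l * s⁻¹ ∈ L) (hab : ∀ a ∈ K, ∀ b ∈ K, a * b * a⁻¹ * b⁻¹ ∈ L) (hGKC : K ⊔ C = G) (hH : H = L ⊔ C) (hHG : H ≤ G) : (∀ χ : Cfsg.IrrCharacter G, (∀ s ∈ S, ∀ g g' : G, (g' : Γ) = s * g * s⁻¹ → (χ : G → ℂ) g' = (χ : G → ℂ) g) → ∃! ψ : Cfsg.IrrCharacter H, (∀ s ∈ S, ∀ g g' : H, (g' : Γ) = s * g * s⁻¹ → (ψ : H → ℂ) g' = (ψ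 : H → ℂ) g) ∧ ∃ m : ℕ, Cfsg.classInner (fun h : H => (χ : G → ℂ) ⟨h, hHG h.2⟩) (ψ : H → ℂ) = (m : ℂ) ∧ Odd m) ∧ (∀ χ χ' : Cfsg.IrrCharacter G, (∀ s ∈ S, ∀ g g' : G, (g' : Γ) = s * g * s⁻¹ → (χ : G → ℂ) g' = (χ : G → ℂ) g) → (∀ s ∈ S, ∀ g g' : G, (g' : Γ) = s * g * s⁻¹ → (χ' : G → ℂ) g' = (χ' : G → ℂ) g) → ∀ ψ : Cfsg.IrrCharacter H, (∀ s ∈ S, ∀ g g' : H, (g' : Γ) = s * g * s⁻¹ → (ψ : H → ℂ) g' = (ψ : H → ℂ) g) → ∀ m m' : ℕ, Cfsg.classInner (fun h : H => (χ : G → ℂ) ⟨h, hHG h.2⟩) (ψ : H → ℂ) = (m : ℂ) → Odd m → Cfsg.classInner (fun h : H => (χ' : G → ℂ) ⟨h, hHG h.2⟩) (ψ : H → ℂ) = (m' : ℂ) → Odd m' → χ = χ') ∧ (∀ ψ : Cfsg.IrrCharacter H, (∀ s ∈ S, ∀ g g' : H, (g' : Γ) = s * g * s⁻¹ → (ψ : H → ℂ) g' = (ψ : H → ℂ) g) → ∃ χ : Cfsg.IrrCharacter G, (∀ s ∈ S, ∀ g g' : G, (g' : Γ) = s * g * s⁻¹ → (χ : G → ℂ) g' = (χ : G → ℂ) g) ∧ ∃ m : ℕ, Cfsg.classInner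 (fun h : H => (χ : G → ℂ) ⟨h, hHG h.2⟩) (ψ : H → ℂ) = (m : ℂ) ∧ Odd m) := by
  have hSG := le_normalizer_of_conj hnorm
  have hSL := le_normalizer_of_conj hLS
  have hGL := le_normalizer_of_conj hLn
  have hLG := hLK.trans hKG
  have hcen : ∀ c ∈ C, ∀ s ∈ S, s * c = c * s := fun c hc s hs =>
    mem_centralizer_iff.1 (mem_inf.1 (hC ▸ hc)).2 s hs
  have hfix : IsFixMod S G L H := fun g => ⟨fun hg => ⟨hHG hg, fun s hs => by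
      rw [hH, ← SetLike.mem_coe, coe_mul_of_right_le_normalizer_left _ _ (hCG.trans hGL)] at hg
      obtain ⟨l, hl, c, hc, rfl⟩ := hg
      have : s * (l * c) * s⁻¹ * (l * c)⁻¹ = s * l * s⁻¹ * l⁻¹ := by
        calc _ = s * l * (c * s⁻¹) * c⁻¹ * l⁻¹ := by group
          _ = _ := by rw [← hcen c hc _ (S.inv_mem hs)]; group
      beta_reduce
      rw [this]
      exact L.mul_mem (hLS s hs l hl) (L.inv_mem hl)⟩, fun ⟨hg, h⟩ => by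
    obtain ⟨n, hn, h1⟩ := H1.coset_fixed S L hSL
      (hcop.symm.coprime_dvd_right (card_dvd_of_le hLG)) (Or.inr (H1.solvable_of_le hLG hGsolv))
      g⁻¹ fun a ha => by simpa [mul_assoc] using L.inv_mem (h a ha)
    have h2 : g⁻¹ * n ∈ C := hC ▸ ⟨G.mul_mem (G.inv_mem hg) (hLG hn), h1⟩
    simpa [hH] using mul_mem_sup hn (C.inv_mem h2)⟩
  have hGS : ⁅G, S⁆ ≤ K := commutator_le.2 fun g hg s hs => by
    rw [← hGKC, ← SetLike.mem_coe, coe_mul_of_right_le_normalizer_left _ _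
      (hCG.trans (le_normalizer_of_conj hKn))] at hg
    obtain ⟨k, hk, c, hc, rfl⟩ := hg
    have : k * c * s * (k * c)⁻¹ * s⁻¹ = k * (s * k⁻¹ * s⁻¹) := by
      rw [mul_assoc k, ← hcen c hc s hs]; group
    rw [commutatorElement_def, this]
    exact K.mul_mem hk (hKS s hs _ (K.inv_mem hk))
  have h := rcorr_main Nat.prime_two hSG hSL hLG hGL hfix
    (hcop.coprime_dvd_left (index_dvd_card _)) (Or.inr hGsolv)
    (Or.inr ⟨rfl, hodd.of_dvd_nat (index_dvd_card _),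
      (commutator_mono hGS hGS).trans (commutator_le.2 hab), hGsolv⟩)
  have key : ∀ (χ : IrrCharacter G) (ψ : IrrCharacter H),
      (∃ m : ℕ, classInner (fun h : H => (χ : G → ℂ) ⟨h, hHG h.2⟩) (ψ : H → ℂ) = (m : ℂ) ∧
        Odd m) ↔ (mlt (inclusion hHG) (χ : G → ℂ) (ψ : H → ℂ) : ZMod 2) ≠ 0 := fun χ ψ => by
    rw [ZMod.natCast_ne_zero_iff_odd]
    exact ⟨fun ⟨m, h1, h2⟩ => by rwa [mlt_eq_of (inclusion hHG) h1],
      fun h1 => ⟨_, mlt_irr (inclusion hHG) χ ψ, h1⟩⟩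
  refine ⟨fun χ hχ => ?_, fun χ χ' hχ hχ' ψ hψ m m' h1 h2 h3 h4 => ?_, fun ψ hψ => ?_⟩
  · obtain ⟨ψ, h1, h2⟩ := h.exists_ne_zero Nat.prime_two χ hχ
    exact ⟨ψ, ⟨h1, (key χ ψ).2 h2⟩, fun ψ' h3 => h.unique hχ h3.1 h1 ((key χ ψ').1 h3.2) h2⟩
  · exact h.inj χ χ' hχ hχ' ψ hψ ((key χ ψ).1 ⟨m, h1, h2⟩) ((key χ' ψ).1 ⟨m', h3, h4⟩)
  · obtain ⟨χ, h1, h2⟩ := h.surj ψ hψ
    exact ⟨χ, h1, (key χ ψ).2 h2⟩

end Cfsg.Agent.S4453
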