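import Cfsg.Statements.S4454
import Cfsg.Agent.H89.CosetSum
import Cfsg.Agent.H89.UnitChar

set_option autoImplicit false
open Cfsg

namespace Cfsg.Agent.S4454

set_option linter.style.haveILetI false
open Cfsg.Agent.H5 Cfsg.Agent.H89 Subgroup
open scoped ComplexConjugate

/-- Let N ≤ G be normal subgroups of the finite group Γ with Γ/G cyclic and Γ/N a Frobenius group with kernel G/N: G ≠ Γ, N ≠ G, and no element of Γ outside G fixes a non-identity coset of N in G under conjugation. Let ϑ be an irreducible character of N invariant under conjugation by Γ and suppose ϑ is fully ramified in G: the character of G induced from ϑ equals e·χ for an irreducible character χ of G and a natural number e. Then the index of G in Γ divides e − 1 or e + 1. -/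
theorem result {Γ : Type*} [Group Γ] [Fintype Γ] (G N : Subgroup Γ) [hG : G.Normal] [hN : N.Normal] [Fintype G] [Fintype N] (hNG : N ≤ G) (hGlt : G ≠ ⊤) (hNlt : N ≠ G) (hcyc : IsCyclic (Γ ⧸ G)) (hfrob : ∀ x : Γ, x ∉ G → ∀ g : Γ, g ∈ G → x * g * x⁻¹ * g⁻¹ ∈ N → g ∈ N) (θ : Cfsg.IrrCharacter N) (hinv : ∀ (x : Γ) (n : N), (θ : N → ℂ) ⟨x * n * x⁻¹, hN.conj_mem n n.2 x⟩ = (θ : N → ℂ) n) (χ : Cfsg.IrrCharacter G) (e : ℕ) (hram : Cfsg.indFun (N.subgroupOf G) (fun n : N.subgroupOf G => (θ : N → ℂ) ⟨(n : G), n.2⟩) = fun g => (e : ℂ) * (χ : G → ℂ) g) : (G.index : ℤ) ∣ (e : ℤ) - 1 ∨ (G.index : ℤ) ∣ (e : ℤ) + 1 := by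
  classical
  letI : Fintype (N.subgroupOf G) := Fintype.ofFinite _
  letI : Fintype (Γ ⧸ G) := Fintype.ofFinite _
  have hnN : ∀ X : Subgroup Γ, X ≤ normalizer (N : Set Γ) := fun X => by
    rw [normalizer_eq_top]; exact le_top
  have hnG : ∀ X : Subgroup Γ, X ≤ normalizer (G : Set Γ) := fun X => by
    rw [normalizer_eq_top]; exact le_top
  have hθ : SInv ⊤ N θ := fun s _ g g' e => (congrArg (θ : N → ℂ) (Subtype.ext e)).trans (hinv s g)
  have hmlt : ∀ χ' : IrrCharacter G, (mlt (inclusion hNG) (χ' : G → ℂ) (θ : N → ℂ) : ℂ) =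
      if χ' = χ then (e : ℂ) else 0 := fun χ' => by
    have h1 := H6.classInner_indFun_right (N.subgroupOf G)
      (fun n : N.subgroupOf G => (θ : N → ℂ) ⟨(n : G), n.2⟩) (isClassFunction_of_isIrr χ'.2)
    have h2 : (fun g => (e : ℂ) * (χ : G → ℂ) g) = (e : ℂ) • (χ : G → ℂ) := rfl
    rw [hram, h2, classInner_smul_right, classInner_irrCharacter] at h1
    rw [← mlt_irr, ← classInner_comp_equiv (subgroupOfEquivOfLe hNG)]
    refine h1.symm.trans ?_
    split_ifs <;> simp
  obtain ⟨χ', hχ'⟩ := exists_irr_over (inclusion hNG) (inclusion_injective _) θ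
  have hχχ : χ' = χ := by
    by_contra h
    have := hmlt χ'
    rw [if_neg h] at this
    exact hχ' (by exact_mod_cast this)
  subst hχχ
  have hχ : SInv ⊤ G χ' := (sInv_iff_irrAct (hnG ⊤)).2 fun s => by
    by_contra h
    have := hmlt (irrAct ⊤ G (hnG ⊤) s χ')
    rw [if_neg h, ← (sInv_iff_irrAct (hnN ⊤)).1 hθ s, mlt_irrAct] at this
    exact hχ' (by exact_mod_cast this)
  have hres : ∀ n : N, (χ' : G → ℂ) (inclusion hNG n) = e * (θ : N → ℂ) n := fun n => by
    rw [classFunction_apply_eq_sum (isClassFunction_of_isCharacter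
      (isCharacter_comp (isCharacter_of_isIrr χ'.2) (inclusion hNG))) n, Finset.sum_eq_single θ,
      mlt_irr, hmlt, if_pos rfl]
    · intro θ' _ hne
      have : mlt (inclusion hNG) (χ' : G → ℂ) (θ' : N → ℂ) = 0 := by
        by_contra h
        obtain ⟨g, hg⟩ := exists_irrAct_eq_of_mlt (hnN G) hNG hχ' h
        exact hne (hg.symm.trans ((sInv_iff_irrAct (hnN G)).1 (hθ.mono le_top) g))
      rw [mlt_irr, this]; simp
    · simp
  obtain ⟨ψ, hψ, hψe⟩ := H30.exists_extension_of_isCyclic hcyc χ'.2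
    (fun g n => hχ g (mem_top g) n _ rfl)
  obtain ⟨xq, hxq⟩ := hcyc.exists_generator
  obtain ⟨x, rfl⟩ := QuotientGroup.mk_surjective xq
  haveI : Nontrivial (Γ ⧸ G) := QuotientGroup.nontrivial_iff.2 hGlt
  have hxG : x ∉ G := fun h => by
    obtain ⟨q, hq⟩ := exists_ne (1 : Γ ⧸ G)
    obtain ⟨k, rfl⟩ := hxq q
    exact hq (by simp [(QuotientGroup.eq_one_iff x).2 h])
  let H : Subgroup Γ := N ⊔ zpowers x
  have hNH : N ≤ H := le_sup_left
  haveI hn : (inclusion hNH).range.Normal := normal_range_inclusion hNH (hnN H)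
  let x' : H := ⟨x, (le_sup_right : zpowers x ≤ H) (mem_zpowers x)⟩
  have htop : (inclusion hNH).range ⊔ zpowers x' = ⊤ := by
    apply map_injective H.subtype_injective
    rw [Subgroup.map_sup, MonoidHom.map_zpowers, MonoidHom.map_range, ← MonoidHom.range_eq_map,
      range_subtype]
    congr 1
    exact range_subtype N
  obtain ⟨θh, hθh, hθe⟩ := exists_ext_of_isCyclic (inclusion hNH) (inclusion_injective _)
    (isCyclic_quotient_of_sup_zpowers _ htop) θ.2
    (fun y g g' e => hθ y (mem_top _) g g' (congrArg Subtype.val e))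
  have hθi : IsIrrCharacter N fun n => θh (inclusion hNH n) := by rw [funext hθe]; exact θ.2
  obtain ⟨η, hη, hη1, hηe⟩ := exists_eq_mul_of_res_eq_smul (inclusion hNH) (inclusion_injective _)
    hn (isCharacter_of_isIrr hθh) hθi (isCharacter_restrict (isCharacter_of_isIrr hψ) H)
    (e := e) (fun n => by rw [hθe, ← hres, ← hψe]; rfl)
  have hHG : ∀ y : H, (y : Γ) ∈ G → (y : Γ) ∈ N := fun y hy => by
    have h1 := y.2
    rw [← SetLike.mem_coe, normal_mul] at h1
    obtain ⟨a, ha, _, ⟨k, rfl⟩, e⟩ := h1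
    simp only at e
    rw [← e] at hy ⊢
    refine N.mul_mem ha (hfrob x hxG _ ((G.mul_mem_cancel_left (hNG ha)).1 hy) ?_)
    have : x * x ^ k * x⁻¹ * (x ^ k)⁻¹ = 1 := by group
    rw [this]; exact N.one_mem
  let f : H →* Γ ⧸ G := (QuotientGroup.mk' G).comp H.subtype
  have hf : Function.Surjective f := fun q => by
    obtain ⟨k, rfl⟩ := hxq q
    exact ⟨x' ^ k, by simp [f, x']⟩
  obtain ⟨η', hη', hηf⟩ := exists_isCharacter_comp_eq f hf hη fun y hy =>
    hη1 ⟨y, hHG y ((QuotientGroup.eq_one_iff (y : Γ)).1 hy)⟩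
  obtain ⟨k, ε, μ, hε, h1, -⟩ := exists_regular_add_sign (fun a b => by
    letI := hcyc.commGroup
    exact mul_comm a b) hη' (fun q hq => by
    obtain ⟨y, rfl⟩ := hf q
    have hy : (y : Γ) ∉ G := fun h => hq ((QuotientGroup.eq_one_iff (y : Γ)).2 h)
    have h2 := sum_coset_eq_of_inj G.subtype G.subtype_injective (by rwa [range_subtype])
      (inclusion hNG) (inclusion_injective _) y (fun g n n' h => by
        refine ⟨⟨g, hfrob y hy g g.2 ?_⟩, rfl⟩
        rw [← QuotientGroup.eq_one_iff]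
        have h3 := congrArg (QuotientGroup.mk' N) h
        have h4 : ∀ n : N, QuotientGroup.mk' N (G.subtype (inclusion hNG n)) = 1 := fun n =>
          (QuotientGroup.eq_one_iff _).2 n.2
        simp only [map_mul, map_inv, h4, one_mul] at h3
        change QuotientGroup.mk' N _ = 1
        simp only [map_mul, map_inv]
        rw [mul_inv_eq_iff_eq_mul] at h3
        change QuotientGroup.mk' N g * _ = _ * QuotientGroup.mk' N g at h3
        rw [← h3]; group)
      (fun z => ψ z * conj (ψ z)) (fun g z => by rw [isClassFunction_of_isIrr hψ])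
    rw [sum_coset_mul_conj_self G.subtype G.subtype_injective (by rwa [range_subtype])
      (isCharacter_of_isIrr hψ) (by
        have : (fun g => ψ (G.subtype g)) = χ' := funext hψe
        rw [this]; exact χ'.2)] at h2
    have h3 : ∀ n : N, ψ (G.subtype (inclusion hNG n) * y) = η y * θh (inclusion hNH n * y) :=
      fun n => by
        rw [← apply_mul_of_apply_eq_degree hη (hη1 n) y]
        exact congrFun hηe (inclusion hNH n * y)
    have h4 := sum_coset_mul_conj_self (inclusion hNH) (inclusion_injective _) hn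
      (isCharacter_of_isIrr hθh) hθi y
    have h5 : η y * conj (η y) = 1 := by
      rw [h2, ← mul_one (η y * conj (η y)), ← h4, mul_left_comm, Finset.mul_sum]
      congr 1
      exact Finset.sum_congr rfl fun n _ => by rw [h3, map_mul]; ring
    rw [Complex.mul_conj'] at h5
    have h6 : ‖η y‖ ^ 2 = 1 := by exact_mod_cast h5
    rw [← congrFun hηf y]
    exact (pow_eq_one_iff_of_nonneg (norm_nonneg _) two_ne_zero).1 h6)
  have h2 : η' 1 = e := by
    have h3 : ψ 1 = η 1 * θh 1 := congrFun hηe 1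
    have h4 := hψe 1
    have h5 := hres 1
    have h6 := hθe 1
    rw [map_one] at h5 h6
    rw [hηf] at h3
    simp only [map_one] at h3
    rw [OneMemClass.coe_one, h5, h3, h6] at h4
    exact mul_right_cancel₀ (degree_ne_zero θ.2) h4
  rw [h2] at h1
  have h3 : (e : ℤ) = k * G.index + ε := by exact_mod_cast h1
  rcases hε with rfl | rfl
  · exact Or.inl ⟨k, by rw [h3]; ring⟩
  · exact Or.inr ⟨k, by rw [h3]; ring⟩

end Cfsg.Agent.S4454
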