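import Cfsg.Statements.S4459
import Cfsg.Agent.H88.CD2

set_option autoImplicit false
open Cfsg

namespace Cfsg.Agent.S4459

open Cfsg.Agent.H5 Cfsg.Agent.H6 Cfsg.Agent.H88
open scoped ComplexConjugate

theorem classInner_restrict_of_vanish' {G : Type*} [Group G] [Fintype G] (H : Subgroup G)
    [Fintype H] {χ : G → ℂ} (ψ : G → ℂ) (hv : ∀ g, g ∉ H → χ g = 0) :
    classInner (fun x : H => χ x) (fun x : H => ψ x) = H.index * classInner χ ψ := by
  classical
  have h1 : ∑ g : G, χ g * conj (ψ g) = ∑ x : H, χ x * conj (ψ x) := by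
    rw [← sum_extendByZero_mul H (fun x => χ x) (fun g => conj (ψ g))]
    refine Finset.sum_congr rfl fun g _ => ?_
    by_cases hg : g ∈ H
    · rw [extendByZero_of_mem _ _ hg]
    · rw [extendByZero_of_notMem _ _ hg, hv g hg]
  rw [classInner, classInner, h1, ← H.card_mul_index]
  have : (Nat.card H : ℂ) ≠ 0 := natCard_ne_zero
  have : (H.index : ℂ) ≠ 0 := Nat.cast_ne_zero.mpr H.index_ne_zero_of_finite
  push_cast
  field_simp

theorem sq_le_index_center {G : Type*} [Group G] [Finite G] {χ : G → ℂ}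
    (h : IsIrrCharacter G χ) : charDegree χ ^ 2 ≤ (Subgroup.center G).index := by
  classical
  have := Fintype.ofFinite G
  have h1 := classInner_irr_self h
  rw [classInner_self_eq, Complex.ofReal_eq_one,
    inv_mul_eq_one₀ (Nat.cast_ne_zero.mpr Nat.card_pos.ne')] at h1
  have h2 : ∑ g ∈ Finset.univ.filter (· ∈ Subgroup.center G), ‖χ g‖ ^ 2 ≤ ∑ g, ‖χ g‖ ^ 2 :=
    Finset.sum_le_sum_of_subset_of_nonneg (Finset.filter_subset _ _) fun _ _ _ => by positivity
  rw [Finset.sum_congr rfl (g := fun _ => ((charDegree χ : ℝ)) ^ 2) fun z hz => by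
      rw [norm_apply_of_mem_center h (Finset.mem_filter.mp hz).2,
        norm_degree (isCharacter_of_isIrr h)], Finset.sum_const, ← h1,
      ← (Subgroup.center G).card_mul_index, ← Fintype.card_subtype, ← Nat.card_eq_fintype_card,
      nsmul_eq_mul] at h2
  have h3 : Nat.card (Subgroup.center G) * charDegree χ ^ 2 ≤
      Nat.card (Subgroup.center G) * (Subgroup.center G).index := by exact_mod_cast h2
  exact Nat.le_of_mul_le_mul_left h3 Nat.card_pos

theorem comm_of_relIndex_prime {G : Type*} [Group G] {Z T : Subgroup G} [Z.Normal] {p : ℕ}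
    (hp : p.Prime) (h : Z.relIndex T = p) (hc : T ≤ Subgroup.centralizer (Z : Set G)) :
    ∀ a ∈ T, ∀ b ∈ T, a * b = b * a := fun a ha b hb => by
  have := Fact.mk hp
  have : IsCyclic (T ⧸ Z.subgroupOf T) := isCyclic_of_prime_card h
  have := (QuotientGroup.mk' (Z.subgroupOf T)).isMulCommutative_of_isCyclic_of_ker_le_center
    fun x hx => Subgroup.mem_center_iff.mpr fun y =>
      Subtype.ext (hc y.2 x ((QuotientGroup.eq_one_iff x).mp hx)).symm
  exact congrArg Subtype.val (this.is_comm.comm (⟨a, ha⟩ : T) ⟨b, hb⟩)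

theorem index_ker_of_pow_eq_one {G : Type*} [Group G] {p : ℕ} (hp : p.Prime) (κ : G →* ℂˣ)
    (h : ∀ g, κ g ^ p = 1) (h1 : κ ≠ 1) : κ.ker.index = p := by
  have h5 : κ.range ≤ rootsOfUnity p ℂ := by
    rintro _ ⟨g, rfl⟩
    rw [mem_rootsOfUnity, h]
  have : NeZero p := ⟨hp.ne_zero⟩
  have h6 := Subgroup.card_dvd_of_le h5
  rw [Complex.card_rootsOfUnity] at h6
  rw [Subgroup.index_ker]
  refine ((Nat.dvd_prime hp).mp h6).resolve_left fun e => ?_
  rw [Subgroup.card_eq_one, MonoidHom.range_eq_bot_iff] at e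
  exact h1 e

theorem key {G : Type*} [Group G] [Finite G] {p : ℕ} (hp : p.Prime) (Z : Subgroup G) [Z.Normal]
    (hZ : Z.index = p ^ 2) (hG : commutator G ≤ Z)
    (h : ∀ μ, stab Z μ ≠ ⊤ → (stab Z μ).index = p) {a b : Z →* ℂˣ} (ha : stab Z a ≠ ⊤)
    (hb : stab Z b ≠ ⊤) (hab : stab Z a ≠ stab Z b) :
    ∃ κ : Z →* ℂˣ, κ.ker.index = p ∧
      (∀ z, z ∈ κ.ker ↔ ∀ g : G, a (MulAut.conjNormal g z) = a z) ∧
      (∀ z, z ∈ κ.ker ↔ ∀ g : G, b (MulAut.conjNormal g z) = b z) := by
  have hn : ∀ μ, (stab Z μ).Normal := fun μ => normal_of_commutator_le (hG.trans (le_stab Z μ))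
  have hco : ∀ μ, stab Z μ ≠ ⊤ → IsCoatom (stab Z μ) := fun μ hμ =>
    H3.isCoatom_of_index_prime (by rw [h μ hμ]; exact hp)
  have h1 : ∀ (ν : Z →* ℂˣ) (t : G),
      stab Z ν ≤ stab Z (ν.comp (MulAut.conjNormal t : MulAut Z) / ν) := fun ν t s hs => by
    rw [mem_stab]
    intro n
    have e1 := mem_stab.mp ((hn ν).conj_mem s hs t) (MulAut.conjNormal t n)
    have e2 : MulAut.conjNormal (t * s * t⁻¹) (MulAut.conjNormal t n) =
        MulAut.conjNormal t (MulAut.conjNormal s n) := Subtype.ext (by simp [mul_assoc])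
    rw [e2] at e1
    simp only [MonoidHom.div_apply, MonoidHom.comp_apply, MonoidHom.coe_coe]
    rw [e1, mem_stab.mp hs]
  have hinf : stab Z a ⊓ stab Z b = Z := by
    symm
    refine eq_of_le_of_index_le (le_inf (le_stab Z a) (le_stab Z b)) ?_
    have := hn a
    rw [← Subgroup.relIndex_mul_index (inf_le_right : stab Z a ⊓ stab Z b ≤ stab Z b),
      Subgroup.inf_relIndex_right, ← Subgroup.relIndex_sup_left,
      (hco a ha).sup_eq_top_of_ne (hco b hb) hab, Subgroup.relIndex_top_right, h a ha, h b hb, hZ, sq]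
  obtain ⟨t, ht, htZ⟩ : ∃ t ∈ stab Z (a * b), t ∉ Z := by
    by_contra hc
    push Not at hc
    have h2 := Subgroup.index_antitone hc
    have h3 := hp.one_lt
    by_cases h4 : stab Z (a * b) = ⊤
    · rw [h4, Subgroup.index_top, hZ] at h2; nlinarith
    · rw [h _ h4, hZ] at h2; nlinarith
  let κ := a.comp (MulAut.conjNormal t : MulAut Z) / a
  have f2 : ∀ n, a (MulAut.conjNormal t n) = κ n * a n := fun n => by simp [κ]
  have f3 : ∀ n, b (MulAut.conjNormal t n) = (κ n)⁻¹ * b n := fun n => by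
    have := mem_stab.mp ht n
    simp only [MonoidHom.mul_apply, f2] at this
    rw [eq_inv_mul_iff_mul_eq]
    apply mul_left_cancel (a := a n)
    rw [← this, mul_left_comm, mul_assoc]
  have e2 : stab Z κ = ⊤ := by
    rw [eq_top_iff, ← (hco a ha).sup_eq_top_of_ne (hco b hb) hab]
    refine sup_le (h1 a t) fun s hs => mem_stab.mpr fun n => ?_
    have := mem_stab.mp (h1 b t hs) n
    simpa [f3] using this
  have e1 : ∀ (g : G) n, κ (MulAut.conjNormal g n) = κ n := fun g =>
    mem_stab.mp (e2 ▸ Subgroup.mem_top g)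
  have hκ : κ ≠ 1 := fun e => htZ (hinf ▸ ⟨mem_stab.mpr fun n => by rw [f2, e]; simp,
    mem_stab.mpr fun n => by rw [f3, e]; simp⟩)
  have e3 : ∀ (k : ℕ) n, a (MulAut.conjNormal (t ^ k) n) = κ n ^ k * a n := fun k => by
    induction k with
    | zero => simp
    | succ k ih =>
      intro n
      rw [pow_succ, map_mul, MulAut.mul_apply, ih, e1, f2, pow_succ, mul_assoc]
  have e4 : ∀ c : Z →* ℂˣ, stab Z c ≠ ⊤ → t ∉ stab Z c →
      (∀ z ∈ κ.ker, c (MulAut.conjNormal t z) = c z) →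
      ∀ z ∈ κ.ker, ∀ g : G, c (MulAut.conjNormal g z) = c z := by
    intro c hc htc h2 z hz g
    let S : Subgroup G :=
      { carrier := {g | ∀ z ∈ κ.ker, c (MulAut.conjNormal g z) = c z}
        mul_mem' := fun {x y} hx hy z hz => by
          rw [map_mul, MulAut.mul_apply, hx _ (by rwa [MonoidHom.mem_ker, e1]), hy z hz]
        one_mem' := fun z _ => by simp
        inv_mem' := fun {x} hx z hz => by
          rw [← hx _ (show MulAut.conjNormal x⁻¹ z ∈ κ.ker by rwa [MonoidHom.mem_ker, e1])]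
          simp }
    have : S = ⊤ := (hco c hc).2 S (lt_of_le_of_ne (fun s hs z _ => mem_stab.mp hs z)
      fun e => htc (e ▸ h2))
    exact (show g ∈ S from this ▸ Subgroup.mem_top g) z hz
  refine ⟨κ, index_ker_of_pow_eq_one hp κ (fun n => ?_) hκ,
    fun z => ⟨e4 a ha (fun h2 => hκ (MonoidHom.ext fun n => ?_)) (fun z hz => ?_) z,
      fun h2 => ?_⟩,
    fun z => ⟨e4 b hb (fun h2 => hκ (MonoidHom.ext fun n => ?_)) (fun z hz => ?_) z,
      fun h2 => ?_⟩⟩
  · have := hn a
    have h2 := e3 p n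
    rwa [mem_stab.mp (h a ha ▸ Subgroup.pow_index_mem (stab Z a) t), eq_comm, mul_eq_right] at h2
  · simpa [f2] using mem_stab.mp h2 n
  · rw [f2, MonoidHom.mem_ker.mp hz, one_mul]
  · simpa [f2] using h2 t
  · simpa [f3] using mem_stab.mp h2 n
  · rw [f3, MonoidHom.mem_ker.mp hz, inv_one, one_mul]
  · simpa [f3] using h2 t

/-- Let G be a non-abelian finite group and p a prime. Then the irreducible character degrees of G are exactly 1 and p if and only if either G has an abelian normal subgroup of index p or the centre of G has index p³. -/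
theorem result {G : Type*} [Group G] [Finite G] (hG : ∃ a b : G, a * b ≠ b * a) (p : ℕ) (hp : p.Prime) : ((∀ χ : Cfsg.IrrCharacter G, Cfsg.charDegree (χ : G → ℂ) = 1 ∨ Cfsg.charDegree (χ : G → ℂ) = p) ∧ ∃ χ : Cfsg.IrrCharacter G, Cfsg.charDegree (χ : G → ℂ) = p) ↔ ((∃ A : Subgroup G, A.Normal ∧ (∀ a ∈ A, ∀ b ∈ A, a * b = b * a) ∧ A.index = p) ∨ (Subgroup.center G).index = p ^ 3) := by
  classical
  have := Fact.mk hp
  have := Fintype.ofFinite G
  have hG' : commutator G ≠ ⊥ := fun e => by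
    obtain ⟨a, b, hab⟩ := hG
    exact hab (commutator_eq_bot_iff_comm.mp e a b)
  symm
  constructor
  · intro h
    have h1 : ∀ χ : IrrCharacter G, charDegree (χ : G → ℂ) = 1 ∨ charDegree (χ : G → ℂ) = p := by
      intro χ
      rcases h with ⟨A, hA, hab, hi⟩ | h
      · exact (Nat.dvd_prime hp).mp (hi ▸ charDegree_dvd_index_of_comm χ.2 A hab)
      · have h2 := charDegree_dvd_index_of_comm χ.2 (Subgroup.center G)
          fun a _ b hb => Subgroup.mem_center_iff.mp hb a
        have h3 := sq_le_index_center χ.2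
        rw [h] at h2 h3
        obtain ⟨k, -, hk⟩ := (Nat.dvd_prime_pow hp).mp h2
        rw [hk, ← pow_mul, Nat.pow_le_pow_iff_right hp.one_lt] at h3
        have : k = 0 ∨ k = 1 := by omega
        rcases this with rfl | rfl <;> simp [hk]
    obtain ⟨χ, hχ, h2⟩ := exists_irr_charDegree_ne_one hG
    exact ⟨h1, ⟨χ, hχ⟩, (h1 ⟨χ, hχ⟩).resolve_left h2⟩
  rintro ⟨hcd', -⟩
  have hcd : ∀ χ, IsIrrCharacter G χ → charDegree χ = 1 ∨ charDegree χ = p :=
    fun χ hχ => hcd' ⟨χ, hχ⟩
  rw [or_iff_not_imp_left]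
  intro hA
  obtain ⟨q, e, hq, -, P, A, -, hAn, hP, hAZ, -, -, hPA⟩ := (two_degrees hcd hG').resolve_left hA
  have := Fact.mk hq
  have := (isPGroup_quotient_of_sup_eq_top hP hPA).isNilpotent
  have : Group.IsNilpotent G := isNilpotent_of_ker_le_center (QuotientGroup.mk' A)
    (by rwa [QuotientGroup.ker_mk'])
  obtain ⟨K, hK, hQ⟩ := exists_minNA_quotient hG'
  have hs := QuotientGroup.mk'_surjective K
  obtain ⟨φ, hφ, hφ1⟩ := exists_irr_ne_one_of_commutator_ne_bot hQ.1
  have hφp : charDegree φ = p := (hcd _ (isIrrCharacter_inflate K hφ)).resolve_left hφ1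
  have : Nontrivial (G ⧸ K) := by
    by_contra hc
    rw [not_nontrivial_iff_subsingleton] at hc
    exact hQ.1 (Subsingleton.elim _ _)
  have hQZ := hQ.2 _ inferInstance (Group.IsNilpotent.center_ne_bot (G ⧸ K))
  have hf := hQ.faithful hφ hφ1
  let Z := (Subgroup.center (G ⧸ K)).comap (QuotientGroup.mk' K)
  have := Fintype.ofFinite Z
  have hZ : Z.index = p ^ 2 := by
    rw [Subgroup.index_comap_of_surjective _ hs, ← charDegree_sq_eq_index_center hφ hf hQZ, hφp]
  have hGZ : commutator G ≤ Z := by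
    rwa [← Subgroup.map_le_iff_le_comap, map_commutator_of_surjective _ hs]
  have hcZ : Subgroup.center G ≤ Z := fun z hz => Subgroup.mem_center_iff.mpr fun x => by
    obtain ⟨x, rfl⟩ := hs x
    rw [← map_mul, ← map_mul, Subgroup.mem_center_iff.mp hz]
  have hφ' := isIrrCharacter_inflate K hφ
  have hZab : ∀ a ∈ Z, ∀ b ∈ Z, a * b = b * a := fun a ha b hb => by
    refine congrArg Subtype.val (comm_of_forall_charDegree_eq_one (G := Z) (fun ψ hψ => ?_)
      ⟨a, ha⟩ ⟨b, hb⟩)
    by_contra hψ1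
    have h1 : ∀ ψ : Z → ℂ, IsIrrCharacter Z ψ → charDegree ψ ≠ 1 →
        ∃ χ, IsIrrCharacter G χ ∧ (fun z : Z => χ z) = ψ := fun ψ hψ hψ1 => by
      obtain ⟨χ, hχ, hne⟩ := exists_irr_over Z hψ
      refine ⟨χ, hχ, restrict_eq_of_degree_le Z (isCharacter_of_isIrr hχ) hψ hne ?_⟩
      have h2 := charDegree_dvd_of_normal Z hχ hψ hne
      rcases hcd χ hχ with h | h
      · rw [h]; exact charDegree_pos hψ
      · rw [h] at h2 ⊢
        exact (((Nat.dvd_prime hp).mp h2).resolve_left hψ1).ge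
    -- the central character of `φ`
    obtain ⟨μ', hμ', hne⟩ := exists_irr_under' (Subgroup.center (G ⧸ K)) hφ
    obtain ⟨μ, rfl⟩ := exists_monoidHom_of_comm (subgroup_comm
      fun a _ b hb => Subgroup.mem_center_iff.mp hb a) hμ'
    have h2 := res_eq_smul_of_invariant _ hφ hμ' hne fun g => by
      ext n
      rw [conjChar_apply]
      congr 2
      exact Subtype.ext (by simp [Subgroup.mem_center_iff.mp n.2 g])
    have h3 := congrFun h2 1
    simp only [OneMemClass.coe_one, Pi.smul_apply, map_one, Units.val_one, smul_eq_mul,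
      mul_one] at h3
    rw [← h3, ← charDegree_cast (isCharacter_of_isIrr hφ), hφp] at h2
    let ν : Z →* ℂˣ := μ.comp ((QuotientGroup.mk' K).subgroupComap _)
    have h4 := isIrrCharacter_monoidHom_mul hψ ν
    obtain ⟨χ, hχ, e1⟩ := h1 ψ hψ hψ1
    obtain ⟨χ', hχ', e2⟩ := h1 _ h4 (by
      rwa [charDegree_congr (χ := fun g => (ν g : ℂ) * ψ g) (θ := ψ) (by simp)])
    obtain ⟨k, hk⟩ := exists_nat_classInner
      (isCharacter_mul (isCharacter_of_isIrr hφ') (isCharacter_of_isIrr hχ))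
      (isCharacter_of_isIrr hχ')
    have h5 := classInner_restrict_of_vanish' Z (χ := (fun g : G => φ g) * χ) χ' fun g hg => by
      rw [Pi.mul_apply, apply_eq_zero_of_class_two hφ hf hQZ (g := (g : G ⧸ K)) hg, zero_mul]
    have h6 : (fun x : Z => ((fun g : G => φ g) * χ) x) = (p : ℂ) • fun g => (ν g : ℂ) * ψ g := by
      ext z
      have := congrFun h2 ⟨z, z.2⟩
      simp only [Pi.smul_apply, smul_eq_mul] at this
      simp only [Pi.mul_apply, Pi.smul_apply, smul_eq_mul, this, ← e1, mul_assoc]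
      rfl
    rw [h6, e2, classInner_smul_left, classInner_irr_self h4, hk, hZ, mul_one] at h5
    have h7 : p = p ^ 2 * k := by exact_mod_cast h5
    rw [sq, mul_assoc, eq_comm, mul_eq_left₀ hp.ne_zero] at h7
    exact hp.one_lt.ne' (Nat.eq_one_of_mul_eq_one_right h7)
  have h1 : ∀ μ, stab Z μ ≠ ⊤ → (stab Z μ).index = p := fun μ hμ => by
    obtain ⟨χ, hχ, hne⟩ := exists_irr_over Z (isIrrCharacter_monoidHom μ)
    have h2 := index_inertia_dvd_charDegree Z hχ (isIrrCharacter_monoidHom μ) hne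
    rcases hcd χ hχ with h | h
    · rw [h, Nat.dvd_one, Subgroup.index_eq_one] at h2
      exact absurd h2 hμ
    · exact ((Nat.dvd_prime hp).mp (h ▸ h2)).resolve_left fun e => hμ (Subgroup.index_eq_one.mp e)
  have h2 : ∀ T : Subgroup G, Z ≤ T → T.index = p → ¬ ∀ μ, T ≤ stab Z μ := fun T hT hi h => by
    refine hA ⟨T, normal_of_commutator_le (hGZ.trans hT), comm_of_relIndex_prime (Z := Z) hp ?_
      fun t ht => mem_centralizer_of_forall_stab Z hZab fun μ => h μ ht, hi⟩
    have := Subgroup.relIndex_mul_index hT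
    rw [hi, hZ, sq] at this
    exact Nat.eq_of_mul_eq_mul_right hp.pos this
  obtain ⟨a, ha⟩ : ∃ a, stab Z a ≠ ⊤ := by
    by_contra hc
    push Not at hc
    obtain ⟨T, hT⟩ := Sylow.exists_subgroup_card_pow_prime (G := G ⧸ Z) p (n := 1) (by
      rw [← Subgroup.index_eq_card, hZ]; exact pow_dvd_pow p one_le_two)
    refine h2 (T.comap (QuotientGroup.mk' Z)) (QuotientGroup.le_comap_mk' Z T) ?_
      fun μ => hc μ ▸ le_top
    rw [Subgroup.index_comap_of_surjective _ (QuotientGroup.mk'_surjective Z)]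
    have := T.card_mul_index
    rw [hT, ← Subgroup.index_eq_card, hZ, pow_one, sq] at this
    exact Nat.eq_of_mul_eq_mul_left hp.pos this
  obtain ⟨b, hb⟩ := not_forall.mp (h2 _ (le_stab Z a) (h1 a ha))
  have hb' : stab Z b ≠ ⊤ := fun e => hb (e ▸ le_top)
  have hab : stab Z a ≠ stab Z b := fun e => hb e.le
  obtain ⟨κ, hκ, hκa, hκb⟩ := key hp Z hZ hGZ h1 ha hb' hab
  have h3 : (Subgroup.center G).subgroupOf Z = κ.ker := by
    ext z
    rw [Subgroup.mem_subgroupOf, Subgroup.mem_center_iff]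
    refine ⟨fun h => (hκa z).mpr fun g => ?_, fun hz g => ?_⟩
    · congr 1
      exact Subtype.ext (by simp [h g])
    · have h4 : MulAut.conjNormal g z * z⁻¹ = 1 := eq_one_of_forall_irr fun χ hχ => by
        obtain ⟨c, rfl⟩ := exists_monoidHom_of_comm (subgroup_comm hZab) hχ
        have : c (MulAut.conjNormal g z) = c z := by
          by_cases hc : stab Z c = ⊤
          · exact mem_stab.mp (hc ▸ Subgroup.mem_top g) z
          by_cases hca : stab Z a = stab Z c
          · obtain ⟨κ', -, h5, h6⟩ := key hp Z hZ hGZ h1 hb' hc (hca ▸ hab.symm)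
            exact (h6 z).mp ((h5 z).mpr ((hκb z).mp hz)) g
          · obtain ⟨κ', -, h5, h6⟩ := key hp Z hZ hGZ h1 ha hc hca
            exact (h6 z).mp ((h5 z).mpr ((hκa z).mp hz)) g
        simp [this]
      have h5 := congrArg Subtype.val (mul_inv_eq_one.mp h4)
      rwa [MulAut.conjNormal_apply, mul_inv_eq_iff_eq_mul] at h5
  rw [← Subgroup.relIndex_mul_index hcZ, Subgroup.relIndex, h3, hκ, hZ]
  ring

end Cfsg.Agent.S4459
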