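import Cfsg.Statements.S4460
import Cfsg.Agent.H88.CD3

set_option autoImplicit false
open Cfsg

namespace Cfsg.Agent.S4460

open Cfsg.Agent.H5 Cfsg.Agent.H6 Cfsg.Agent.H88

/-- A finite group with exactly three distinct irreducible character degrees is solvable of derived length at most 3: its third derived subgroup is trivial. -/
theorem result {G : Type*} [Group G] [Finite G] (hcd : Nat.card {n : ℕ // ∃ χ : Cfsg.IrrCharacter G, Cfsg.charDegree (χ : G → ℂ) = n} = 3) : derivedSeries G 3 = ⊥ := by
  classical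
  have h1 : ({n : ℕ | ∃ χ : IrrCharacter G, charDegree (χ : G → ℂ) = n}).ncard = 3 := hcd
  obtain ⟨a, b, c, -, -, -, h⟩ := Set.ncard_eq_three.mp h1
  have h2 : ∀ χ, IsIrrCharacter G χ → charDegree χ = a ∨ charDegree χ = b ∨ charDegree χ = c :=
    fun χ hχ => by
      have : charDegree χ ∈ ({a, b, c} : Set ℕ) := h ▸ ⟨⟨χ, hχ⟩, rfl⟩
      simpa using this
  have h3 := h2 _ isIrrCharacter_one
  rw [charDegree_one] at h3
  rcases h3 with rfl | rfl | rfl
  · exact derivedSeries_three_eq_bot h2
  · exact derivedSeries_three_eq_bot (m := a) (n := c) fun χ hχ => by have := h2 χ hχ; tauto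
  · exact derivedSeries_three_eq_bot (m := a) (n := b) fun χ hχ => by have := h2 χ hχ; tauto

end Cfsg.Agent.S4460
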