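import Cfsg.Statements.S4462
import Cfsg.Agent.H88.Garrison

set_option autoImplicit false
open Cfsg

namespace Cfsg.Agent.S4462

open Cfsg.Agent.H5 Cfsg.Agent.H6 Cfsg.Agent.H88

universe u

def cd (G : Type u) [Group G] : Set ℕ := {d | ∃ χ : G → ℂ, IsIrrCharacter G χ ∧ charDegree χ = d}

theorem cd_finite (G : Type u) [Group G] [Finite G] : (cd G).Finite := by
  refine (Set.finite_range fun χ : IrrCharacter G => charDegree (χ : G → ℂ)).subset ?_
  rintro _ ⟨χ, hχ, rfl⟩
  exact ⟨⟨χ, hχ⟩, rfl⟩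

theorem aux (n : ℕ) : ∀ (G : Type u) [Group G] [Finite G], Group.IsSolvable G → (cd G).ncard ≤ n →
    ∃ N : ℕ → Subgroup G, N 0 = ⊥ ∧ N n = ⊤ ∧ Monotone N ∧ (∀ i, (N i).Normal) ∧
      ∀ i, ∀ _ : ((N i).subgroupOf (N (i + 1))).Normal,
        Group.IsNilpotent (↥(N (i + 1)) ⧸ (N i).subgroupOf (N (i + 1))) := by
  induction n with
  | zero =>
    intro G _ _ _ h
    have h1 : (cd G).Nonempty := ⟨_, _, isIrrCharacter_one (G := G), rfl⟩
    have := (Set.ncard_pos (cd_finite G)).mpr h1
    omega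
  | succ n ih =>
    intro G _ _ hs h
    let F := fittingSubgroup G
    have hF := H44.fitting_isNilpotent (G := G)
    have key : ∃ N : ℕ → Subgroup (G ⧸ F), N 0 = ⊥ ∧ N n = ⊤ ∧ Monotone N ∧ (∀ i, (N i).Normal) ∧
      ∀ i, ∀ _ : ((N i).subgroupOf (N (i + 1))).Normal,
        Group.IsNilpotent (↥(N (i + 1)) ⧸ (N i).subgroupOf (N (i + 1))) := by
      by_cases hF1 : F = ⊤
      · have : Subsingleton (G ⧸ F) := QuotientGroup.subsingleton_iff.mpr hF1
        exact ⟨fun _ => ⊥, rfl, Subsingleton.elim _ _, monotone_const, fun _ => inferInstance,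
          fun _ _ => inferInstance⟩
      refine ih _ inferInstance (Nat.le_of_lt_succ (lt_of_lt_of_le (Set.ncard_lt_ncard
        ⟨?_, fun hc => ?_⟩ (cd_finite G)) h))
      · rintro _ ⟨φ, hφ, rfl⟩
        exact ⟨_, isIrrCharacter_comp hφ (QuotientGroup.mk' F) (QuotientGroup.mk'_surjective F), rfl⟩
      · obtain ⟨b, hb, hmax⟩ := (cd_finite G).exists_maximal
          ⟨_, _, isIrrCharacter_one (G := G), rfl⟩
        obtain ⟨φ, hφ, rfl⟩ := hc hb
        have hχ := isIrrCharacter_comp hφ (QuotientGroup.mk' F) (QuotientGroup.mk'_surjective F)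
        have hle : F ≤ charKer (isCharacter_of_isIrr hχ) := fun x hx => by
          change φ (x : G ⧸ F) = φ ((1 : G) : G ⧸ F)
          rw [(QuotientGroup.eq_one_iff x).mpr hx]; rfl
        obtain ⟨ψ, hψ, hlt, -⟩ := garrison hχ (by
          by_cases h1 : charKer (isCharacter_of_isIrr hχ) ≤ fittingSubgroup G
          · exact Or.inr ⟨le_antisymm h1 hle, inferInstance, fun e => hF1 (top_le_iff.mp (e ▸ h1))⟩
          · exact Or.inl h1)
        exact hlt.not_ge (hmax ⟨ψ, hψ, rfl⟩ hlt.le)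
    obtain ⟨N, h0, h1, h2, h3, h4⟩ := key
    have hs' := QuotientGroup.mk'_surjective F
    refine ⟨fun i => Nat.rec ⊥ (fun j _ => (N j).comap (QuotientGroup.mk' F)) i, rfl, ?_,
      monotone_nat_of_le_succ ?_, ?_, ?_⟩
    · change (N n).comap _ = ⊤
      rw [h1, Subgroup.comap_top]
    · rintro (_ | i)
      · exact bot_le
      · exact Subgroup.comap_mono (h2 (Nat.le_succ i))
    · rintro (_ | i)
      · exact (inferInstance : (⊥ : Subgroup G).Normal)
      · exact (h3 i).comap _
    · rintro (_ | i) hn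
      · have : Group.IsNilpotent ((N 0).comap (QuotientGroup.mk' F)) := by
          rw [h0, MonoidHom.comap_bot, QuotientGroup.ker_mk']; exact hF
        exact nilpotent_quotient_of_nilpotent (G := (N 0).comap (QuotientGroup.mk' F)) _
      · have := h3 i
        have := h4 i inferInstance
        let f : (N (i + 1)).comap (QuotientGroup.mk' F) →* _ :=
          (QuotientGroup.mk' ((N i).subgroupOf (N (i + 1)))).comp
            ((QuotientGroup.mk' F).subgroupComap (N (i + 1)))
        have hf : Function.Surjective f := (QuotientGroup.mk'_surjective _).comp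
          ((QuotientGroup.mk' F).subgroupComap_surjective_of_surjective _ hs')
        have hk : f.ker = ((N i).comap (QuotientGroup.mk' F)).subgroupOf
            ((N (i + 1)).comap (QuotientGroup.mk' F)) := by
          ext x
          rw [MonoidHom.mem_ker]
          exact QuotientGroup.eq_one_iff _
        exact nilpotent_of_mulEquiv ((QuotientGroup.quotientKerEquivOfSurjective f hf).symm.trans
          (QuotientGroup.quotientMulEquivOfEq hk))

/-- Let G be a finite solvable group with exactly n distinct irreducible character degrees. Then G has normal subgroups 1 = N₀ ≤ N₁ ≤ ⋯ ≤ Nₙ = G with every quotient N_{i+1}/N_i nilpotent (the nilpotent length of G is at most n). -/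
theorem result {G : Type*} [Group G] [Finite G] (hsolv : Group.IsSolvable G) (n : ℕ) (hcd : Nat.card {d : ℕ // ∃ χ : Cfsg.IrrCharacter G, Cfsg.charDegree (χ : G → ℂ) = d} = n) : ∃ N : Fin (n + 1) → Subgroup G, N 0 = ⊥ ∧ N (Fin.last n) = ⊤ ∧ Monotone N ∧ (∀ i, (N i).Normal) ∧ ∀ i : Fin n, ∀ h : (N i.castSucc).subgroupOf (N i.succ) |>.Normal, Group.IsNilpotent (↥(N i.succ) ⧸ (N i.castSucc).subgroupOf (N i.succ)) := by
  obtain ⟨N, h0, h1, h2, h3, h4⟩ := aux n G hsolv (by
    rw [← hcd, ← Nat.card_coe_set_eq]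
    refine le_of_eq (Nat.card_congr (Equiv.subtypeEquivRight fun d => ?_))
    exact ⟨fun ⟨χ, hχ, e⟩ => ⟨⟨χ, hχ⟩, e⟩, fun ⟨χ, e⟩ => ⟨χ.1, χ.2, e⟩⟩)
  exact ⟨fun i => N i, h0, h1, fun i j hij => h2 hij, fun i => h3 i, fun i => h4 i⟩

end Cfsg.Agent.S4462
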