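import Cfsg.Statements.S4463
import Cfsg.Agent.H88.Deg5
import Cfsg.Agent.H5.ClassFn
import Cfsg.Agent.H88.CD2

set_option autoImplicit false
open Cfsg

namespace Cfsg.Agent.S4463

open Cfsg.Agent.H5 Cfsg.Agent.H6 Cfsg.Agent.H88
open scoped ComplexConjugate commutatorElement Nat

universe u

def Bd (G : Type u) [Group G] (b : ℕ) : Prop := ∀ χ, IsIrrCharacter G χ → charDegree χ ≤ b

section
variable {G : Type u} [Group G] [Finite G] {b : ℕ}

theorem Bd.ext (h : Bd G b) {H : Subgroup G} {θ : H → ℂ} (hθ : IsIrrCharacter H θ)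
    (hd : b ≤ charDegree θ) : ∃ χ, IsIrrCharacter G χ ∧ (fun x : H => χ x) = θ := by
  have := Fintype.ofFinite H
  obtain ⟨χ, hχ, hne⟩ := exists_irr_over H hθ
  exact ⟨χ, hχ, restrict_eq_of_degree_le H (isCharacter_of_isIrr hχ) hθ hne ((h χ hχ).trans hd)⟩

theorem Bd.half (h : Bd G b) (K : Subgroup G) [K.Normal] (hK : commutator (G ⧸ K) ≠ ⊥) :
    Bd K (b / 2) := fun τ hτ => by
  have := Fintype.ofFinite G
  have := Fintype.ofFinite K
  rw [Nat.le_div_iff_mul_le two_pos]
  obtain ⟨χ, hχ, hne⟩ := exists_irr_over K hτ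
  obtain ⟨e, -, he⟩ := exists_charDegree_eq_mul K hχ hτ hne
  by_cases h1 : 2 ≤ e
  · exact le_trans (by rw [he, mul_comm]; exact Nat.mul_le_mul_right _ h1) (h χ hχ)
  have h2 := restrict_eq_of_degree_le K (isCharacter_of_isIrr hχ) hτ hne (by
    rw [he]; exact (Nat.mul_le_mul_right _ (by omega : e ≤ 1)).trans (one_mul _).le)
  obtain ⟨ψ, hψ, h3⟩ := exists_irr_ne_one_of_commutator_ne_bot hK
  have hψ' := isIrrCharacter_inflate K hψ
  have h4 := h _ (H30.isIrr_mul_of_ker K (isCharacter_of_isIrr hχ) (h2 ▸ hτ) hψ' fun n hn => by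
    rw [(QuotientGroup.eq_one_iff n).mpr hn]; rfl)
  rw [charDegree_mul (isCharacter_of_isIrr hψ') (isCharacter_of_isIrr hχ), charDegree_inflate,
    ← charDegree_restrict K χ, h2] at h4
  have := charDegree_pos hψ
  exact le_trans (by rw [mul_comm]; exact Nat.mul_le_mul_right _ (by omega)) h4

theorem Bd.core (h : Bd G b) {H : Subgroup G} {θ : H → ℂ} (hθ : IsIrrCharacter H θ)
    (hd : b ≤ charDegree θ) (x : H) (hx : θ x ≠ 0) : (x : G) ∈ H.normalCore := by
  have := Fintype.ofFinite G
  have := Fintype.ofFinite H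
  obtain ⟨χ, hχ, rfl⟩ := h.ext hθ hd
  have h2 := apply_eq_of_forall_constituent
    (isCharacter_indFun H (isCharacter_of_isIrr hθ)) (g := x) (c := χ x) (d := χ 1)
    fun ψ hψ hne => by
      rw [classInner_indFun_ne_zero_iff H _ (isClassFunction_of_isIrr hψ)] at hne
      have h1 := restrict_eq_of_degree_le H (isCharacter_of_isIrr hψ) hθ hne ((h ψ hψ).trans hd)
      rw [show ψ x = χ x from congrFun h1 x, show ψ 1 = χ 1 from congrFun h1 1, mul_comm]
  rw [indFun_res H (isClassFunction_of_isIrr hχ)] at h2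
  have h3 : indFun H (fun _ => 1) x = indFun H (fun _ => 1) 1 := by
    simp only [Pi.mul_apply] at h2
    apply mul_left_cancel₀ (mul_ne_zero (degree_ne_zero hχ) hx)
    linear_combination h2
  intro b
  simpa using mem_of_indFun_one_eq_degree H h3 b⁻¹

theorem index_le_sq {χ : G → ℂ} (hχ : IsIrrCharacter G χ) (K : Subgroup G)
    (h : ∀ g, χ g ≠ 0 → g ∈ K) : K.index ≤ charDegree χ ^ 2 := by
  classical
  have := Fintype.ofFinite G
  have h1 := sum_normSq_eq_card hχ
  rw [← Finset.sum_filter_of_ne (p := (· ∈ K)) fun g _ hg => h g fun e => hg (by simp [e])] at h1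
  have h2 := Finset.sum_le_card_nsmul (Finset.univ.filter (· ∈ K)) (fun g => ‖χ g‖ ^ 2)
    ((charDegree χ : ℝ) ^ 2) fun g _ => pow_le_pow_left₀ (norm_nonneg _)
      (norm_le_charDegree (isCharacter_of_isIrr hχ) g) 2
  rw [h1, ← Fintype.card_subtype, ← Nat.card_eq_fintype_card, nsmul_eq_mul,
    ← K.card_mul_index] at h2
  exact Nat.le_of_mul_le_mul_left (by exact_mod_cast h2) (Nat.card_pos (α := K))

theorem Bd.small_class [Nontrivial G] (h : Bd G b) :
    ∃ x : G, x ≠ 1 ∧ (Subgroup.centralizer ({x} : Set G)).index ≤ b ^ 2 := by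
  classical
  have := Fintype.ofFinite G
  by_contra hc
  push Not at hc
  have h1 := sum_card_centralizer (G := G)
  rw [← Finset.add_sum_erase _ _ (Finset.mem_univ (1 : G)), show Subgroup.centralizer
    ({1} : Set G) = ⊤ from eq_top_iff.mpr fun g _ =>
      Subgroup.mem_centralizer_singleton_iff.mpr (by simp), Subgroup.card_top,
    ← card_irrCharacter, Nat.card_eq_fintype_card (α := IrrCharacter G), ← Finset.card_univ,
    ← Finset.card_erase_add_one (Finset.mem_univ (trivIrr G))] at h1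
  have h2 := sum_charDegree_sq (G := G)
  rw [← Finset.add_sum_erase _ _ (Finset.mem_univ (trivIrr G)), charDegree_trivIrr] at h2
  have h3 := Finset.sum_le_card_nsmul (Finset.univ.erase (trivIrr G))
    (fun χ => charDegree (χ : G → ℂ) ^ 2) (b ^ 2) fun χ _ => Nat.pow_le_pow_left (h χ χ.2) 2
  have h4 : ∑ x ∈ Finset.univ.erase (1 : G), Nat.card (Subgroup.centralizer ({x} : Set G)) * b ^ 2 <
      ∑ x ∈ Finset.univ.erase (1 : G), Nat.card G := by
    obtain ⟨y, hy⟩ := exists_ne (1 : G)
    refine Finset.sum_lt_sum_of_nonempty ⟨y, by simpa using hy⟩ fun x hx => ?_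
    rw [← (Subgroup.centralizer ({x} : Set G)).card_mul_index]
    exact Nat.mul_lt_mul_of_pos_left (hc x (Finset.ne_of_mem_erase hx)) Nat.card_pos
  have h5 := Finset.card_erase_add_one (Finset.mem_univ (1 : G))
  rw [Finset.card_univ, ← Nat.card_eq_fintype_card] at h5
  rw [← Finset.sum_mul, Finset.sum_const, smul_eq_mul] at h4
  rw [smul_eq_mul] at h3
  have h6 : ∑ x ∈ Finset.univ.erase (1 : G), Nat.card (Subgroup.centralizer ({x} : Set G)) =
      Nat.card G * (Finset.univ.erase (trivIrr G)).card := by linarith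
  rw [h6, mul_assoc, mul_comm _ (Nat.card G)] at h4
  have := Nat.lt_of_mul_lt_mul_left h4
  omega

theorem Bd.step (h : Bd G b) (hG : commutator G ≠ ⊥) :
    ∃ (H : Subgroup G) (c : ℕ), c < b ∧ Bd H c ∧ H.index * c ! ^ 2 ≤ b ! ^ 2 := by
  classical
  have := Fintype.ofFinite G
  obtain ⟨K, _, hK⟩ := exists_minNA_quotient hG
  have hπ := QuotientGroup.mk'_surjective K
  have hQ : Bd (G ⧸ K) b := fun ϕ hϕ => h _ (isIrrCharacter_inflate K hϕ)
  obtain ⟨ψ, hψ, hψ1⟩ := exists_irr_ne_one_of_commutator_ne_bot hK.1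
  have hb : 2 ≤ b := le_trans (by have := charDegree_pos hψ; omega) (hQ ψ hψ)
  suffices key : ∀ (U : Subgroup (G ⧸ K)), U.index ≤ b ^ 2 → (∀ θ : U.comap (QuotientGroup.mk' K) → ℂ,
      IsIrrCharacter _ θ → charDegree θ = b → ∃ c, b / 2 ≤ c ∧ c < b ∧ K.index * c ! ^ 2 ≤ b ! ^ 2) →
      ∃ (H : Subgroup G) (c : ℕ), c < b ∧ Bd H c ∧ H.index * c ! ^ 2 ≤ b ! ^ 2 by
    have hKU : ∀ (U : Subgroup (G ⧸ K)) (θ : U.comap (QuotientGroup.mk' K) → ℂ),
        IsIrrCharacter _ θ → charDegree θ = b → (∀ x, θ x ≠ 0 → (x : G) ∈ K) →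
        K.index ≤ b ^ 2 * U.index := fun U θ hθ hd hv => by
      rw [← Subgroup.relIndex_mul_index (QuotientGroup.le_comap_mk' K U),
        Subgroup.index_comap_of_surjective _ hπ, ← hd]
      exact Nat.mul_le_mul_right _ (index_le_sq hθ _ hv)
    by_cases hZ : Subgroup.center (G ⧸ K) ≠ ⊥
    · have h1 := charDegree_sq_eq_index_center hψ (hK.faithful hψ hψ1) (hK.2 _ inferInstance hZ)
      refine key (Subgroup.center _) (h1 ▸ Nat.pow_le_pow_left (hQ ψ hψ) 2) fun θ hθ hd => ?_
      exfalso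
      obtain ⟨χ, hχ, rfl⟩ := h.ext hθ hd.ge
      have hψ' := isCharacter_of_isIrr (isIrrCharacter_inflate K hψ)
      have h2 := isCharacter_mul hψ' (isCharacter_of_isIrr hχ)
      have := Fintype.ofFinite ((Subgroup.center (G ⧸ K)).comap (QuotientGroup.mk' K))
      have h3 := classInner_restrict_of_vanish ((Subgroup.center (G ⧸ K)).comap (QuotientGroup.mk' K))
        (χ := (fun g : G => ψ g) * χ) fun g hg => by
          rw [Pi.mul_apply, apply_eq_zero_of_class_two hψ (hK.faithful hψ hψ1)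
            (hK.2 _ inferInstance hZ) (g := (g : G ⧸ K)) hg, zero_mul]
      have h5 : ∀ x : (Subgroup.center (G ⧸ K)).comap (QuotientGroup.mk' K),
          ‖((fun g : G => ψ g) * χ) x‖ ^ 2 = (charDegree ψ : ℝ) ^ 2 * ‖χ x‖ ^ 2 := fun x => by
        rw [Pi.mul_apply, norm_mul, norm_apply_of_mem_center hψ (z := ((x : G) : G ⧸ K)) x.2,
          norm_degree (isCharacter_of_isIrr hψ), mul_pow]
      rw [Subgroup.index_comap_of_surjective _ hπ, ← h1, classInner_self_eq,
        Finset.sum_congr rfl fun x _ => h5 x, ← Finset.mul_sum,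
        sum_normSq_eq_card hθ, mul_comm, mul_assoc,
        mul_inv_cancel₀ (Nat.cast_ne_zero.mpr Nat.card_pos.ne'), mul_one] at h3
      have h4 := h _ (isIrr_of_classInner_self_eq_one h2 (mul_left_cancel₀
        (pow_ne_zero 2 (Nat.cast_ne_zero.mpr (charDegree_ne_zero hψ))) (by
          rw [mul_one]; exact_mod_cast h3.symm)))
      rw [charDegree_mul hψ' (isCharacter_of_isIrr hχ), charDegree_inflate,
        show charDegree χ = b from hd] at h4
      have := charDegree_pos hψ
      have : 2 * b ≤ charDegree ψ * b := Nat.mul_le_mul_right _ (by omega)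
      omega
    rw [not_not] at hZ
    by_cases hs : Group.IsSolvable (G ⧸ K)
    · obtain ⟨p, hp, hpow, hab, h1 | ⟨hC, hpf⟩⟩ := hK.structure
      · exact absurd (le_bot_iff.mp (hZ ▸ h1.2)) hK.1
      obtain ⟨ϕ, hϕ, hf⟩ := exists_irr_degree_eq_index_of_fpf _ hK.1 hab hC
      have hf1 : (commutator (G ⧸ K)).index ≤ b := hf ▸ hQ ϕ hϕ
      have : Nontrivial (G ⧸ K) := by
        by_contra e
        rw [not_nontrivial_iff_subsingleton] at e
        exact hK.1 (Subsingleton.elim _ _)
      have hf2 : 1 < (commutator (G ⧸ K)).index :=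
        Subgroup.one_lt_index_of_ne_top (IsSolvable.commutator_lt_top_of_nontrivial _).ne
      refine key (commutator _) (hf1.trans (Nat.le_self_pow two_ne_zero b)) fun θ hθ hd => ?_
      have h1 := (dvd_or_exists_degree_of_frobenius_section _ hπ _ hp hpow hab hK.1 hC
        hθ).resolve_right (by
          rintro ⟨χ, hχ, e⟩
          have := h χ hχ
          rw [e, hd] at this
          nlinarith)
      have h2 : 3 ≤ b := by
        by_contra e
        obtain rfl : b = 2 := by omega
        rw [hd] at h1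
        exact hpf (h1.trans (dvd_of_eq (by omega)))
      have h3 := hKU _ θ hθ hd fun x hx => by
        obtain ⟨g, hg⟩ : ∃ g, g ∉ commutator (G ⧸ K) := by
          by_contra e
          push Not at e
          rw [(Subgroup.eq_top_iff' _).mpr e, Subgroup.index_top] at hf2
          omega
        obtain ⟨g, rfl⟩ := hπ g
        rw [← QuotientGroup.eq_one_iff]
        refine hC _ hg _ x.2 ?_
        have hx' := (inferInstance : (commutator (G ⧸ K)).Normal).conj_mem _ x.2
          (QuotientGroup.mk' K g)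
        suffices hc : IsConj (⟨_, hx'⟩ : commutator (G ⧸ K)) ⟨_, x.2⟩ by
          obtain ⟨c, hc⟩ := isConj_iff.mp hc
          rw [subgroup_comm hab c, mul_inv_cancel_right] at hc
          exact mul_inv_eq_iff_eq_mul.mp (congrArg Subtype.val hc)
        refine (isConj_iff_forall_irr _ _).mpr fun lam => ?_
        obtain ⟨μ, hμ⟩ := exists_monoidHom_of_comm (subgroup_comm hab) lam.2
        have hy := (inferInstance : ((commutator (G ⧸ K)).comap
          (QuotientGroup.mk' K)).Normal).conj_mem _ x.2 g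
        obtain ⟨χ, hχ, rfl⟩ := h.ext hθ hd.ge
        obtain ⟨χ', hχ', e⟩ := h.ext (isIrrCharacter_monoidHom_mul hθ
          (μ.comp ((QuotientGroup.mk' K).subgroupComap _))) (hd.ge.trans (le_of_eq
            (charDegree_congr (by simp))))
        have h4 := (congrFun e ⟨_, hy⟩).symm.trans
          ((isClassFunction_of_isIrr hχ' x g).trans (congrFun e x))
        rw [show χ ((⟨_, hy⟩ : (commutator (G ⧸ K)).comap (QuotientGroup.mk' K)) : G) = χ x from
          isClassFunction_of_isIrr hχ x g] at h4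
        rw [hμ]
        exact mul_right_cancel₀ hx h4
      obtain ⟨c, rfl⟩ := Nat.exists_eq_add_of_le' hb
      refine ⟨c, by omega, by omega, ?_⟩
      rw [Nat.factorial_succ, Nat.factorial_succ, ← mul_assoc, mul_pow]
      refine Nat.mul_le_mul_right _ (h3.trans ((Nat.mul_le_mul_left _ hf1).trans ?_))
      rw [mul_pow]
      refine Nat.mul_le_mul_left _ ?_
      have : 1 ≤ c := by omega
      nlinarith
    · have hV : ¬ ∀ a ∈ commutator (G ⧸ K), ∀ b ∈ commutator (G ⧸ K), a * b = b * a := fun e =>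
        hs ⟨⟨2, commutator_self_eq_bot_iff.mpr e⟩⟩
      have h1 : 5 ≤ b := by
        by_contra e
        refine hs (isSolvable_of_three_degrees (m := 3) (n := 4) fun ϕ hϕ => ?_)
        have := hQ ϕ hϕ
        have := charDegree_pos hϕ
        suffices charDegree ϕ ≠ 2 by omega
        intro h2
        have hf := hK.faithful hϕ (by omega)
        by_cases h3 : 2 ∣ Nat.card (commutator (G ⧸ K))
        · obtain ⟨⟨t, ht⟩, ht2⟩ := exists_prime_orderOf_dvd_card' 2 h3
          rw [Subgroup.orderOf_mk] at ht2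
          exact H43.ne_one_of_orderOf ht2 (Subgroup.mem_bot.mp (hZ ▸ mem_center_of_degree_two
            (isCharacter_of_isIrr hϕ) h2 hf (H43.mul_self_of_orderOf ht2) ht))
        · have := Fintype.ofFinite (commutator (G ⧸ K))
          refine hV fun a ha b hb => commutatorElement_eq_one_iff_mul_comm.mp (hf _
            (apply_eq_degree_of_forall_constituent (isCharacter_restrict (isCharacter_of_isIrr hϕ) _)
            (g := ⁅(⟨a, ha⟩ : commutator (G ⧸ K)), ⟨b, hb⟩⁆) fun η hη hne =>
            (commutator_le_charKer_iff hη).mpr ?_ _ (commutatorElement_mem_commutator' _ _)))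
          exact ((Nat.dvd_prime Nat.prime_two).mp (h2 ▸ charDegree_dvd_of_normal _ hϕ hη
            hne)).resolve_right fun e => h3 (e ▸ H32.charDegree_dvd_card ⟨η, hη⟩)
      have : Nontrivial (G ⧸ K) := by
        by_contra e
        rw [not_nontrivial_iff_subsingleton] at e
        exact hK.1 (Subsingleton.elim _ _)
      obtain ⟨x, hx1, hx⟩ := hQ.small_class
      refine key _ hx fun θ hθ hd => ?_
      have h2 := hKU _ θ hθ hd fun y hy => by
        have h3 := h.core hθ hd.ge y hy
        by_contra h4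
        have h5 := hK.2 _ (Subgroup.Normal.map inferInstance _ hπ) fun e => h4 (by
          have := (Subgroup.map_eq_bot_iff _).mp e h3
          rwa [QuotientGroup.ker_mk'] at this)
        have h6 := h5.trans (Subgroup.map_le_iff_le_comap.mpr (Subgroup.normalCore_le _))
        have h7 := hK.2 (Subgroup.centralizer (commutator (G ⧸ K) : Set (G ⧸ K))) inferInstance
          fun e => hx1 (Subgroup.mem_bot.mp (e ▸ fun a ha =>
            Subgroup.mem_centralizer_singleton_iff.mp (h6 ha)))
        exact hV fun a ha b hb => h7 hb a ha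
      obtain ⟨c, rfl⟩ := Nat.exists_eq_add_of_le' (show 3 ≤ b by omega)
      refine ⟨c, by omega, by omega, ?_⟩
      rw [Nat.factorial_succ, Nat.factorial_succ, Nat.factorial_succ, ← mul_assoc, ← mul_assoc,
        mul_pow]
      refine Nat.mul_le_mul_right _ (h2.trans ((Nat.mul_le_mul_left _ hx).trans ?_))
      rw [← mul_pow, mul_assoc]
      refine Nat.pow_le_pow_left (Nat.mul_le_mul_left _ ?_) 2
      have : 2 ≤ c := by omega
      nlinarith
  intro U hU h1
  by_cases h2 : Bd (U.comap (QuotientGroup.mk' K)) (b - 1)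
  · refine ⟨_, b - 1, by omega, h2, ?_⟩
    rw [Subgroup.index_comap_of_surjective _ hπ, ← Nat.mul_factorial_pred (by omega : b ≠ 0), mul_pow]
    exact Nat.mul_le_mul_right _ hU
  · obtain ⟨θ, hθ, h3⟩ : ∃ θ, IsIrrCharacter (U.comap (QuotientGroup.mk' K)) θ ∧
        b - 1 < charDegree θ := by simpa [Bd] using h2
    obtain ⟨χ, hχ, h4⟩ := exists_charDegree_le_of_subgroup _ hθ
    have := h χ hχ
    obtain ⟨c, h5, h6, h7⟩ := h1 θ hθ (by omega)
    exact ⟨K, c, h6, fun τ hτ => (h.half K hK.1 τ hτ).trans h5, h7⟩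

end

theorem aux (b : ℕ) : ∀ (G : Type u) [Group G] [Finite G], Bd G b →
    ∃ A : Subgroup G, (∀ x ∈ A, ∀ y ∈ A, x * y = y * x) ∧ A.index ≤ b ! ^ 2 := by
  induction b using Nat.strong_induction_on with
  | _ b ih =>
  intro G _ _ h
  by_cases hG : commutator G = ⊥
  · exact ⟨⊤, fun x _ y _ => commutator_eq_bot_iff_comm.mp hG x y, by
      rw [Subgroup.index_top]; exact Nat.pos_of_ne_zero (pow_ne_zero _ (Nat.factorial_ne_zero b))⟩
  obtain ⟨H, c, hc, h1, h2⟩ := h.step hG
  obtain ⟨A, h3, h4⟩ := ih c hc H h1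
  refine ⟨A.map H.subtype, ?_, ?_⟩
  · rintro _ ⟨x, hx, rfl⟩ _ ⟨y, hy, rfl⟩
    exact congrArg Subtype.val (h3 x hx y hy)
  · rw [Subgroup.index_map_subtype, mul_comm]
    exact (Nat.mul_le_mul_left _ h4).trans h2

/-- Let b be the largest irreducible character degree of the finite group G. Then G has an abelian subgroup of index at most (b!)². -/
theorem result {G : Type*} [Group G] [Finite G] (b : ℕ) (hb : IsGreatest {d : ℕ | ∃ χ : Cfsg.IrrCharacter G, Cfsg.charDegree (χ : G → ℂ) = d} b) : ∃ A : Subgroup G, (∀ x ∈ A, ∀ y ∈ A, x * y = y * x) ∧ A.index ≤ (Nat.factorial b) ^ 2 := by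
  exact aux b G fun χ hχ => hb.2 ⟨⟨χ, hχ⟩, rfl⟩

end Cfsg.Agent.S4463
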