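import Cfsg.Statements.S4464
import Cfsg.Agent.H88.Deg5

set_option autoImplicit false
open Cfsg

namespace Cfsg.Agent.S4464

open Cfsg.Agent.H5 Cfsg.Agent.H6 Cfsg.Agent.H88

/-- Let p be a prime and G a finite group all of whose irreducible character degrees are less than p. Then G has a normal abelian Sylow p-subgroup. -/
theorem result {G : Type*} [Group G] [Finite G] (p : ℕ) (hp : p.Prime) (hb : ∀ χ : Cfsg.IrrCharacter G, Cfsg.charDegree (χ : G → ℂ) < p) : ∃ P : Subgroup G, P.Normal ∧ (∀ x ∈ P, ∀ y ∈ P, x * y = y * x) ∧ IsPGroup p P ∧ ¬ p ∣ P.index := by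
  have := Fact.mk hp
  obtain ⟨P⟩ : Nonempty (Sylow p G) := inferInstance
  refine ⟨P, sylow_normal_of_degree_lt P fun χ hχ => hb ⟨χ, hχ⟩, fun x hx y hy => ?_, P.isPGroup',
    P.not_dvd_index⟩
  refine congrArg Subtype.val (comm_of_forall_charDegree_eq_one (G := P) (fun θ hθ => ?_)
    ⟨x, hx⟩ ⟨y, hy⟩)
  obtain ⟨χ, hχ, h⟩ := exists_charDegree_le_of_subgroup _ hθ
  obtain ⟨k, hk⟩ := exists_charDegree_eq_pow P.isPGroup' hθ
  have h1 := h.trans_lt (hb ⟨χ, hχ⟩)
  rw [hk] at h1 ⊢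
  by_contra e
  exact h1.not_ge (Nat.le_self_pow (fun e' => e (by rw [e', pow_zero])) p)

end Cfsg.Agent.S4464
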