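import Cfsg.Statements.S4465
import Cfsg.Agent.H31.Linear

set_option autoImplicit false
open Cfsg

namespace Cfsg.Agent.S4465

theorem result {G : Type*} [Group G] [Finite G] (χ : G → ℂ) (hχ : Cfsg.IsCharacter G χ) (hfaith : ∀ g : G, χ g = χ 1 → g = 1) (n : ℕ) (hn : Cfsg.charDegree χ = n) : ∃ A : Subgroup G, (∀ x ∈ A, ∀ y ∈ A, x * y = y * x) ∧ (∀ q : ℕ, q.Prime → q ∣ Nat.card A → n + 1 < q) ∧ ∀ q : ℕ, q.Prime → q ∣ A.index → q ≤ n + 1 := by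
  have hL : H31.Lin n G :=
    H31.lin_of_faithful hχ hfaith ((H31.degree_eq_charDegree hχ).trans (by rw [hn])) le_rfl
  obtain ⟨A, hA⟩ := hL.exists_hall
  exact ⟨A, fun x hx y hy => hL.comm_of_subgroup
    (fun q hq hd => Nat.lt_of_succ_lt (hA.1 q hq hd)) hx hy, hA.1,
    fun q hq hd => not_lt.mp (hA.2 q hq hd)⟩

end Cfsg.Agent.S4465
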