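import Cfsg.Statements.S4467
import Cfsg.Agent.H31.Winter2

set_option autoImplicit false
open Cfsg

namespace Cfsg.Agent.S4467

theorem result {G : Type*} [Group G] [Finite G] (χ : Cfsg.IrrCharacter G) (hfaith : ∀ g : G, (χ : G → ℂ) g = (χ : G → ℂ) 1 → g = 1) (n : ℕ) (hn : Cfsg.charDegree (χ : G → ℂ) = n) (hsolv : Group.IsSolvable G) (p : ℕ) (hp : p.Prime) (P : Sylow p G) (hP : ¬ (P : Subgroup G).Normal) : ∃ q : ℕ, IsPrimePow q ∧ q ∣ n ∧ ((q : ℤ) ≡ -1 [ZMOD p] ∨ (q : ℤ) ≡ 0 [ZMOD p] ∨ (q : ℤ) ≡ 1 [ZMOD p]) := by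
  haveI := Fact.mk hp
  obtain ⟨x, y, a, b, hx, hy, h⟩ := H31.exists_mul_not_pElt P hP
  exact H31.winter hsolv χ.2
    ((H31.degree_eq_charDegree (H5.isCharacter_of_isIrr χ.2)).trans (by rw [hn])) hx hy
    fun c hc => h c (hfaith _ hc)

end Cfsg.Agent.S4467
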