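import Cfsg.Statements.S4469
import Cfsg.Agent.H31.Linear
import Cfsg.Agent.S4470

set_option autoImplicit false
open Cfsg

namespace Cfsg.Agent.S4469

open scoped commutatorElement in
theorem exists_normal_index_dvd {G : Type*} [Group G] [Fintype G] [Group.IsNilpotent G]
    {χ : G → ℂ} (hχ : IsCharacter G χ) : ∃ K : Subgroup G, K.Normal ∧
      (∀ d : ℕ, χ 1 = d → K.index ∣ d.factorial) ∧ ∀ a ∈ K, ∀ b ∈ K, χ ⁅a, b⁆ = χ 1 := by
  classical
  refine H5.isCharacter_induction (P := fun χ => ∃ K : Subgroup G, K.Normal ∧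
      (∀ d : ℕ, χ 1 = d → K.index ∣ d.factorial) ∧ ∀ a ∈ K, ∀ b ∈ K, χ ⁅a, b⁆ = χ 1)
    ⟨⊤, inferInstance, fun d _ => by simp, fun _ _ _ _ => rfl⟩ (fun ψ hψ => ?_) ?_ hχ
  · obtain ⟨H, l, rfl⟩ := H6.isMonomialChar_of_isNilpotent hψ
    refine ⟨H.normalCore, inferInstance, fun d hd => ?_, fun a ha b hb => ?_⟩
    · rw [H6.indFun_apply_one, map_one, Units.val_one, mul_one, Nat.cast_inj] at hd
      rw [Subgroup.normalCore_eq_ker, Subgroup.index_ker, ← hd, H.index_eq_card,
        ← Nat.card_perm]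
      exact Subgroup.card_subgroup_dvd_card _
    · rw [H6.indFun_apply, H6.indFun_apply]
      congr 1
      refine Finset.sum_congr rfl fun x _ => ?_
      have ha' : x⁻¹ * a * x ∈ H := by simpa using ha x⁻¹
      have hb' : x⁻¹ * b * x ∈ H := by simpa using hb x⁻¹
      have : x⁻¹ * ⁅a, b⁆ * x = (⁅(⟨_, ha'⟩ : H), (⟨_, hb'⟩ : H)⁆ : H) := by
        simp [commutatorElement_def, mul_assoc]
      rw [this, H6.extendByZero_coe, mul_one, inv_mul_cancel, H6.extendByZero_one_apply,
        map_commutatorElement, commutatorElement_eq_one_iff_mul_comm.mpr (mul_comm _ _), map_one]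
  · rintro φ ψ hφ hψ ⟨K, hK, hK1, hK2⟩ ⟨L, hL, hL1, hL2⟩
    refine ⟨K ⊓ L, inferInstance, fun d hd => ?_, fun a ha b hb => ?_⟩
    · obtain ⟨d1, h1⟩ := H5.exists_nat_degree hφ
      obtain ⟨d2, h2⟩ := H5.exists_nat_degree hψ
      rw [Pi.add_apply, h1, h2, ← Nat.cast_add, Nat.cast_inj] at hd
      rw [← Subgroup.relIndex_mul_index (inf_le_right : K ⊓ L ≤ L), Subgroup.inf_relIndex_right,
        ← hd]
      exact (Nat.mul_dvd_mul ((Subgroup.relIndex_dvd_index_of_normal K L).trans (hK1 d1 h1))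
        (hL1 d2 h2)).trans (Nat.factorial_mul_factorial_dvd_factorial_add d1 d2)
    · rw [Pi.add_apply, Pi.add_apply, hK2 a ha.1 b hb.1, hL2 a ha.2 b hb.2]

theorem result {G : Type*} [Group G] [Finite G] (χ : G → ℂ) (hχ : Cfsg.IsCharacter G χ) (hfaith : ∀ g : G, χ g = χ 1 → g = 1) (n : ℕ) (hn : Cfsg.charDegree χ = n) : ∃ A : Subgroup G, A.Normal ∧ (∀ x ∈ A, ∀ y ∈ A, x * y = y * x) ∧ A.index ≤ Nat.factorial n * 12 ^ (n * (Nat.primeCounting (n + 1) + 1)) := by
  classical
  have hd : χ 1 = n := (H31.degree_eq_charDegree hχ).trans (by rw [hn])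
  have hL : H31.Lin n G := H31.lin_of_faithful hχ hfaith hd le_rfl
  obtain ⟨A, hAn, hAc, hA⟩ := S4470.result χ hχ hfaith n hn
  obtain ⟨H, hH⟩ := hL.exists_hall
  refine ⟨A, hAn, hAc, ?_⟩
  have h1 : A.relIndex H ≤ 12 ^ n := hA H fun x hx y hy => hL.comm_of_subgroup
    (fun q hq hd => Nat.lt_of_succ_lt (hH.1 q hq hd)) hx hy
  set m := (H ⊔ A).index with hm
  have hm0 : m ≠ 0 := Subgroup.index_ne_zero_of_finite
  have h2 : ∀ p ∈ (n + 2).primesBelow, p ^ m.factorization p ≤
      p ^ n.factorial.factorization p * 12 ^ n := by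
    intro p hp
    have hp := Nat.prime_of_mem_primesBelow hp
    haveI := Fact.mk hp
    obtain ⟨P⟩ : Nonempty (Sylow p G) := inferInstance
    haveI := P.isPGroup'.isNilpotent
    haveI := Fintype.ofFinite P
    obtain ⟨K, -, hK1, hK2⟩ := exists_normal_index_dvd (H5.isCharacter_restrict hχ P)
    have h3 : p ^ m.factorization p ∣ A.relIndex P := by
      have h4 := (Nat.ordProj_dvd m p).trans (Subgroup.index_dvd_of_le (le_sup_right : A ≤ H ⊔ A))
      rw [← Subgroup.relIndex_mul_index (le_sup_right : A ≤ (P : Subgroup G) ⊔ A),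
        Subgroup.relIndex_sup_right] at h4
      exact Nat.Coprime.dvd_of_dvd_mul_right (Nat.Coprime.pow_left _
        ((Nat.Prime.coprime_iff_not_dvd hp).mpr fun h =>
          P.not_dvd_index (h.trans (Subgroup.index_dvd_of_le le_sup_left)))) h4
    have h4 : K.index ≤ p ^ n.factorial.factorization p := by
      obtain ⟨k, hk⟩ := P.isPGroup'.index K
      rw [hk]
      exact Nat.pow_le_pow_right hp.pos
        ((hp.pow_dvd_iff_le_factorization n.factorial_ne_zero).mp (hk ▸ hK1 n hd))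
    have h5 : (A.subgroupOf P).relIndex K ≤ 12 ^ n := by
      have := hA (K.map (P : Subgroup G).subtype) (by
        rintro _ ⟨a, ha, rfl⟩ _ ⟨b, hb, rfl⟩
        exact commutatorElement_eq_one_iff_mul_comm.mp (hfaith _ (hK2 a ha b hb)))
      rwa [← Subgroup.relIndex, ← Subgroup.relIndex_comap] at this
    have h6 : A.relIndex P ≤ (A.subgroupOf P).relIndex K * K.index := by
      rw [← Subgroup.inf_relIndex_right (A.subgroupOf P), Subgroup.relIndex_mul_index inf_le_right]
      exact Nat.le_of_dvd (Nat.pos_of_ne_zero Subgroup.index_ne_zero_of_finite)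
        (Subgroup.index_dvd_of_le inf_le_left)
    refine (Nat.le_of_dvd (Nat.pos_of_ne_zero Subgroup.index_ne_zero_of_finite) h3).trans
      (h6.trans ?_)
    rw [mul_comm]
    exact Nat.mul_le_mul h4 h5
  have h3 : m ≤ n.factorial * (12 ^ n) ^ (n + 1).primeCounting := by
    have h4 : m = ∏ p ∈ (n + 2).primesBelow, p ^ m.factorization p := by
      nth_rewrite 1 [← Nat.prod_factorization_pow_eq_self hm0]
      refine Finsupp.prod_of_support_subset _ (fun q hq => ?_) _ fun _ _ => pow_zero _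
      have hq' := Nat.mem_primeFactors.mp hq
      exact Nat.mem_primesBelow.mpr ⟨Nat.lt_succ_of_le (not_lt.mp (hH.2 q hq'.1
        (hq'.2.1.trans (Subgroup.index_dvd_of_le le_sup_left)))), hq'.1⟩
    rw [h4]
    refine (Finset.prod_le_prod' h2).trans ?_
    rw [Finset.prod_mul_distrib, Finset.prod_const, Nat.primesBelow_card_eq_primeCounting']
    refine Nat.mul_le_mul_right _ (Nat.le_of_dvd n.factorial_pos ?_)
    refine Finset.prod_dvd_of_isRelPrime (fun p hp q hq hpq => ?_) fun p _ => Nat.ordProj_dvd _ _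
    exact Nat.coprime_iff_isRelPrime.mp (Nat.coprime_pow_primes _ _
      (Nat.prime_of_mem_primesBelow hp) (Nat.prime_of_mem_primesBelow hq) hpq)
  rw [← Subgroup.relIndex_mul_index (le_sup_right : A ≤ H ⊔ A), Subgroup.relIndex_sup_right,
    pow_mul, pow_succ, ← mul_assoc, mul_comm]
  exact Nat.mul_le_mul h3 h1

end Cfsg.Agent.S4469
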