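import Cfsg.Statements.S4471
import Cfsg.Agent.H86.MonoLin
import Cfsg.Agent.H78.TW
import Cfsg.Agent.H46.Spec
import Cfsg.Agent.H44.Cores
import Cfsg.Agent.H3.PGroup

set_option autoImplicit false
open Cfsg

namespace Cfsg.Agent.S4471

open Cfsg.Agent.H6 in
theorem key {G : Type*} [Group G] [Finite G] (χ : IrrCharacter G) (hfaith : ∀ g : G, (χ : G → ℂ) g = (χ : G → ℂ) 1 → g = 1) (n : ℕ) (hn : (χ : G → ℂ) 1 = n) (p : ℕ) (hp : p.Prime) (h7 : 7 ≤ p) (hn2 : n < 2 * p) (hnp : n ≠ p) (P : Sylow p G) (x : G) (hx : x ∈ (P : Subgroup G)) (y : G) (hy : y ∈ (P : Subgroup G)) (hxy : x * y ≠ y * x) : ¬ p ^ 2 ∣ (pCore p G).index := by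
  classical
  have := Fact.mk hp
  have := Fintype.ofFinite G
  have hχ := H5.isCharacter_of_isIrr χ.2
  have hχP := H5.isCharacter_restrict hχ (P : Subgroup G)
  have hdeg : ∀ ψ, IsIrrCharacter P ψ → ∀ d : ℕ, ψ 1 = d → d < 2 * p → d = 1 ∨ d = p := by
    intro ψ hψ d hd hd2
    obtain ⟨k, hk⟩ := IsPGroup.iff_card.1 P.isPGroup'
    obtain ⟨j, -, rfl⟩ := (Nat.dvd_prime_pow hp).1 (hk ▸ H5.degree_dvd_card hψ hd)
    rcases j with _ | _ | j
    · simp
    · simp
    · exfalso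
      have : 1 ≤ p ^ j := Nat.one_le_pow _ _ hp.pos
      rw [pow_succ, pow_succ] at hd2
      have := Nat.lt_of_mul_lt_mul_right hd2
      nlinarith
  have hc : commutator (P : Subgroup G) ≠ ⊥ := fun h => hxy (by
    have h1 := Subgroup.commutator_mem_commutator
      (Subgroup.mem_top (⟨x, hx⟩ : (P : Subgroup G))) (Subgroup.mem_top ⟨y, hy⟩)
    rw [← commutator_def, h, Subgroup.mem_bot, commutatorElement_eq_one_iff_mul_comm] at h1
    exact congrArg Subtype.val h1)
  obtain ⟨z, hz, hzc, hzo⟩ := H3.exists_mem_center_orderOf_eq P.isPGroup' _ hc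
  have hz1 : (z : G) ≠ 1 := fun h => hp.ne_one (by
    rw [← hzo, show z = 1 from Subtype.ext h, orderOf_one])
  obtain ⟨ψ, hψ, hψc, hψ1⟩ : ∃ ψ, IsIrrCharacter P ψ ∧
      classInner (fun g : (P : Subgroup G) => (χ : G → ℂ) g) ψ ≠ 0 ∧ ψ 1 ≠ 1 := by
    by_contra hcon
    push Not at hcon
    exact hz1 (hfaith _ (apply_eq_degree_of_forall_constituent hχP (g := z) fun ψ h1 h2 => by
      rw [hcon ψ h1 h2, H86.hom_commutator_eq (H5.isCharacter_of_isIrr h1) (hcon ψ h1 h2) hz]))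
  obtain ⟨d, -, hd⟩ := H5.exists_pos_nat_degree hψ
  have hdn := degree_le_of_constituent hχP hψ hψc hn hd
  obtain rfl : d = p := (hdeg ψ hψ d hd (by omega)).resolve_left fun h => hψ1 (by simp [hd, h])
  have hφ := H5.isCharacter_sub_of_constituent hχP hψ hψc
  have hφ1 : ((fun g : (P : Subgroup G) => (χ : G → ℂ) g) - ψ) 1 = ((n - d : ℕ) : ℂ) := by
    rw [Nat.cast_sub hdn, Pi.sub_apply, hd, ← hn]; rfl
  obtain ⟨ω, -, hω, hωz⟩ := H5.exists_apply_mul_eq_of_norm_eq (H5.isCharacter_of_isIrr hψ)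
    (H5.norm_apply_of_mem_center hψ hzc)
  rw [hzo] at hω
  have hv : ∀ j : ℕ, (χ : G → ℂ) ((z : G) ^ j) = d * ω ^ j + ((n - d : ℕ) : ℂ) := by
    intro j
    have h1 : ψ (z ^ j) = d * ω ^ j := by
      induction j with
      | zero => simp [hd]
      | succ j ih => rw [pow_succ', hωz, ih]; ring
    have h2 := apply_eq_degree_of_forall_constituent hφ (g := z ^ j) fun θ h1 h2 => by
      obtain ⟨c, -, hc⟩ := H5.exists_pos_nat_degree h1
      have h3 := degree_le_of_constituent hφ h1 h2 hφ1 hc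
      obtain rfl : c = 1 := (hdeg θ h1 c hc (by omega)).resolve_right (by omega)
      rw [Nat.cast_one] at hc
      rw [hc, H86.hom_commutator_eq (H5.isCharacter_of_isIrr h1) hc (Subgroup.pow_mem _ hz j)]
    rw [hφ1, Pi.sub_apply, h1, sub_eq_iff_eq_add'] at h2
    exact h2
  have hωn : ‖ω‖ = 1 := H5.norm_eq_one_of_pow_eq_one' hp.ne_zero hω
  obtain ⟨i, hi0, hip, hi⟩ := H86.exists_pow_near_one {ω} (by simpa using hωn) (p := d)
    (by simp; omega)
  set y := (z : G) ^ i with hy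
  have hzd : (z : G) ^ d = 1 := orderOf_dvd_iff_pow_eq_one.1 (by rw [Subgroup.orderOf_coe, hzo])
  have hyd : y ^ d = 1 := by rw [hy, ← pow_mul, mul_comm, pow_mul, hzd, one_pow]
  have hξ : (ω ^ i) ^ d = 1 := by rw [← pow_mul, mul_comm, pow_mul, hω, one_pow]
  have hvy : ∀ j : ℕ, (χ : G → ℂ) (y ^ j) = d * (ω ^ i) ^ j + ((n - d : ℕ) : ℂ) := fun j => by
    rw [hy, ← pow_mul, hv, pow_mul]
  have hξ1 : ω ^ i ≠ 1 := fun h => by
    have h1 := hfaith y (by
      have := hvy 1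
      rw [pow_one, h, one_pow, mul_one, Nat.cast_sub hdn] at this
      rw [this, hn]; ring)
    have h2 := orderOf_dvd_of_pow_eq_one h1
    rw [Subgroup.orderOf_coe, hzo] at h2
    exact absurd (Nat.le_of_dvd hi0 h2) (not_le.2 hip)
  have hcomm := H86.commute_conj_of_two_eig hχ hfaith hp.ne_zero hyd hξ (hi ω (by simp)) hvy
  let N := Subgroup.normalClosure {y}
  have hN : ∀ a ∈ N, ∀ b ∈ N, a * b = b * a := by
    have h1 : Group.conjugatesOfSet {y} ⊆ Subgroup.centralizer (Group.conjugatesOfSet {y}) := by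
      intro a ha b hb
      obtain ⟨_, rfl, ha⟩ := Group.mem_conjugatesOfSet_iff.1 ha
      obtain ⟨_, rfl, hb⟩ := Group.mem_conjugatesOfSet_iff.1 hb
      obtain ⟨a, rfl⟩ := isConj_iff.1 ha
      obtain ⟨b, rfl⟩ := isConj_iff.1 hb
      have := congrArg (fun w => b * w * b⁻¹) (hcomm (b⁻¹ * a)).eq
      simp only [mul_inv_rev, inv_inv] at this
      calc b * y * b⁻¹ * (a * y * a⁻¹) = b * (y * (b⁻¹ * a * y * (a⁻¹ * b))) * b⁻¹ := by group
        _ = _ := by rw [this]; group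
    intro a ha b hb
    have h2 : N ≤ Subgroup.centralizer (Group.conjugatesOfSet {y}) := (Subgroup.closure_le _).2 h1
    have h3 : N ≤ Subgroup.centralizer (N : Set G) :=
      (Subgroup.closure_le _).2 fun c hc w hw => (h2 hw c hc).symm
    exact h3 hb a ha
  obtain ⟨θ, hθ, hθc⟩ := H5.exists_irr_constituent (H5.isCharacter_restrict hχ N) fun h =>
    H5.degree_ne_zero χ.2 (congrFun h 1)
  have hNc : ∀ a b : N, a * b = b * a := fun a b => Subtype.ext (hN a a.2 b b.2)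
  have hθ1 := H5.degree_eq_one_of_comm hNc hθ
  obtain ⟨e, he⟩ := H5.exists_nat_classInner (H5.isCharacter_restrict hχ N)
    (H5.isCharacter_of_isIrr hθ)
  have hen : e ∣ n := ⟨(inertia N θ).index, by
    have := clifford_degree N χ.2 hθ hθc
    rw [hn, he, hθ1, mul_one] at this
    exact_mod_cast this⟩
  have hed : e ∣ n - d := by
    let y' : N := ⟨y, Subgroup.subset_normalClosure rfl⟩
    let O := Finset.univ.image (fun x : G => conjChar N x θ)
    have hO : ∀ φ ∈ O, ∀ j : ℕ, φ (y' ^ j) = φ y' ^ j := by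
      intro φ hφ j
      obtain ⟨g, -, rfl⟩ := Finset.mem_image.1 hφ
      obtain ⟨lam, h⟩ := H5.exists_monoidHom_of_comm hNc (isIrr_conjChar N hθ g)
      simp [h]
    have h1 := H86.sum_pow_mul_inv O (fun φ => φ y') hp.ne_zero (μ := 1) (fun φ hφ => by
      rw [← hO φ hφ, show y' ^ d = 1 from Subtype.ext hyd]
      obtain ⟨g, -, rfl⟩ := Finset.mem_image.1 hφ
      rw [conjChar_apply_one, hθ1]) (one_pow _)
    have h2 : ∀ j : ℕ, (e : ℂ) * ∑ φ ∈ O, φ y' ^ j = d * (ω ^ i) ^ j + ((n - d : ℕ) : ℂ) := by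
      intro j
      have := congrFun (clifford N χ.2 hθ hθc) (y' ^ j)
      rw [he, Pi.smul_apply, Finset.sum_apply, Finset.sum_congr rfl fun φ hφ => hO φ hφ j] at this
      rw [← hvy]; exact this.symm
    have h3 := congrArg ((e : ℂ) * ·) h1
    simp only [inv_one, one_pow, mul_one, Finset.mul_sum, h2] at h3
    rw [Finset.sum_add_distrib, ← Finset.mul_sum, H86.geom_sum_root hξ, if_neg hξ1,
      Finset.sum_const, Finset.card_range, mul_zero, zero_add, nsmul_eq_mul, mul_left_comm,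
      mul_right_inj' (Nat.cast_ne_zero.2 hp.ne_zero)] at h3
    exact ⟨_, by exact_mod_cast h3⟩
  have he1 : e = 1 := by
    have h1 : e ∣ d := by
      have := (Nat.dvd_sub hen hed)
      rwa [Nat.sub_sub_self hdn] at this
    refine ((Nat.dvd_prime hp).1 h1).resolve_right fun h => ?_
    obtain ⟨c, rfl⟩ := h ▸ hen
    have hc1 : c < 2 := by nlinarith [hp.pos]
    have hc2 : 1 ≤ c := by nlinarith [hp.pos]
    exact hnp (by rw [show c = 1 by omega, mul_one])
  obtain ⟨h1, h2⟩ := H86.mono_of_mult_one N χ.2 hfaith hθ hθ1 (by rw [he, he1, Nat.cast_one])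
  set D := (inertia N θ).normalCore
  have hD := h2 D inferInstance (Subgroup.normalCore_le _)
  have h3 : D.index ∣ n.factorial := by
    rw [show n = (inertia N θ).index by exact_mod_cast hn.symm.trans h1]
    exact H78.index_normalCore_dvd _
  obtain ⟨R⟩ : Nonempty (Sylow d D) := inferInstance
  have hR : (R : Subgroup D).Normal := ⟨fun a ha b => by
    rwa [show b * a = a * b from Subtype.ext (hD _ b.2 _ a.2), mul_inv_cancel_right]⟩
  have := R.characteristic_of_normal hR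
  have h4 := Subgroup.index_dvd_of_le (H44.le_pCore (p := d)
    (N := (R : Subgroup D).map D.subtype) inferInstance (R.isPGroup'.map _))
  rw [Subgroup.index_map_subtype] at h4
  intro h5
  exact H46.not_sq_dvd_factorial hp hn2 (((((Nat.Prime.coprime_iff_not_dvd hp).2
    R.not_dvd_index).pow_left 2).dvd_of_dvd_mul_left (h5.trans h4)).trans h3)


/-- Let p ≥ 7 be a prime and let the finite group G have a faithful irreducible character of degree n with n < 2p and n ≠ p. If the Sylow p-subgroups of G are non-abelian then p² does not divide the index of O_p(G) in G; consequently, in every case G/O_p(G) has abelian Sylow p-subgroups. -/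
theorem result {G : Type*} [Group G] [Finite G] (χ : Cfsg.IrrCharacter G) (hfaith : ∀ g : G, (χ : G → ℂ) g = (χ : G → ℂ) 1 → g = 1) (n : ℕ) (hn : Cfsg.charDegree (χ : G → ℂ) = n) (p : ℕ) (hp : p.Prime) (h7 : 7 ≤ p) (hn2 : n < 2 * p) (hnp : n ≠ p) : ((∃ P : Sylow p G, ∃ x ∈ (P : Subgroup G), ∃ y ∈ (P : Subgroup G), x * y ≠ y * x) → ¬ p ^ 2 ∣ (Cfsg.pCore p G).index) ∧ ∀ Q : Sylow p (G ⧸ Cfsg.pCore p G), ∀ x ∈ (Q : Subgroup (G ⧸ Cfsg.pCore p G)), ∀ y ∈ (Q : Subgroup (G ⧸ Cfsg.pCore p G)), x * y = y * x := by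
  have := Fact.mk hp
  obtain ⟨m, -, hm⟩ := H5.exists_pos_nat_degree χ.2
  obtain rfl : m = n := by rw [← hn, charDegree, hm]; simp
  have h1 : (∃ P : Sylow p G, ∃ x ∈ (P : Subgroup G), ∃ y ∈ (P : Subgroup G), x * y ≠ y * x) →
      ¬ p ^ 2 ∣ (pCore p G).index := fun ⟨P, x, hx, y, hy, hxy⟩ =>
    key χ hfaith m hm p hp h7 hn2 hnp P x hx y hy hxy
  refine ⟨h1, fun Q x hx y hy => ?_⟩
  by_cases h : ∃ P : Sylow p G, ∃ x ∈ (P : Subgroup G), ∃ y ∈ (P : Subgroup G), x * y ≠ y * x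
  · obtain ⟨k, hk⟩ := IsPGroup.iff_card.1 Q.isPGroup'
    have hk1 : k ≤ 1 := by
      by_contra hc
      exact h1 h ((pow_dvd_pow p (show 2 ≤ k by omega)).trans
        (hk ▸ Subgroup.card_subgroup_dvd_card (Q : Subgroup (G ⧸ pCore p G))))
    have : IsCyclic Q := isCyclic_of_card_dvd_prime (p := p)
      (hk ▸ (pow_dvd_pow p hk1).trans (by rw [pow_one]))
    exact congrArg Subtype.val (IsCyclic.commGroup.mul_comm (⟨x, hx⟩ : Q) ⟨y, hy⟩)
  · push Not at h
    obtain ⟨P, rfl⟩ := Sylow.mapSurjective_surjective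
      (QuotientGroup.mk'_surjective (pCore p G)) p Q
    obtain ⟨x, hx, rfl⟩ := hx
    obtain ⟨y, hy, rfl⟩ := hy
    rw [← map_mul, ← map_mul, h P x hx y hy]

end Cfsg.Agent.S4471
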