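import Cfsg.Statements.S4472
import Cfsg.Agent.H89.PBound2
import Cfsg.Agent.H89.PQDeg
import Cfsg.Agent.H22.PSolvable
import Cfsg.Agent.H1.InvSylow
import Cfsg.Agent.H2.Basic

set_option autoImplicit false
open Cfsg

namespace Cfsg.Agent.S4472

set_option linter.style.haveILetI false
open Cfsg.Agent.H5 Cfsg.Agent.H89 Subgroup
open scoped Pointwise

/-- Let the finite p-solvable group G have a faithful character of degree n, and let p^a be the index of O_p(G) in a Sylow p-subgroup of G (the p-part of [G : O_p(G)]). Then a ≤ Σ_{i ≥ 0} ⌊n / ((p − 1) p^i)⌋ (a finite sum; the terms vanish for p^i > n). -/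
theorem result {G : Type*} [Group G] [Finite G] (χ : G → ℂ) (hχ : Cfsg.IsCharacter G χ) (hfaith : ∀ g : G, χ g = χ 1 → g = 1) (n : ℕ) (hn : Cfsg.charDegree χ = n) (p : ℕ) (hp : p.Prime) (hsolv : Cfsg.IsPSolvable p G) : ((Cfsg.pCore p G).index).factorization p ≤ ∑ i ∈ Finset.range (n + 1), n / ((p - 1) * p ^ i) := by
  haveI := Fact.mk hp
  set O := pCore p G with hO
  have hOp : IsPGroup p O := H22.isPGroup_pCore
  let π := QuotientGroup.mk' O
  let M := (pPrimeCore p (G ⧸ O)).comap π
  have hOM : O ≤ M := fun x hx => by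
    change π x ∈ pPrimeCore p (G ⧸ O)
    rw [show π x = 1 from (QuotientGroup.eq_one_iff x).2 hx]
    exact one_mem _
  have hMπ : M.map π = pPrimeCore p (G ⧸ O) :=
    map_comap_eq_self_of_surjective (QuotientGroup.mk'_surjective O) _
  have hi : (O.subgroupOf M).index = Nat.card (pPrimeCore p (G ⧸ O)) := by
    have := relIndex_ker M π
    rw [QuotientGroup.ker_mk', hMπ] at this
    exact this
  have hOp' : IsPGroup p (O.subgroupOf M) := hOp.of_equiv (subgroupOfEquivOfLe hOM).symm
  have hcop : (Nat.card (O.subgroupOf M)).Coprime (O.subgroupOf M).index := by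
    obtain ⟨k, hk⟩ := IsPGroup.iff_card.1 hOp'
    rw [hk, hi]
    exact Nat.Coprime.pow_left _ H22.coprime_card_pPrimeCore.symm
  obtain ⟨K₀, hK₀⟩ := exists_right_complement'_of_coprime hcop
  set K := K₀.map M.subtype with hKdef
  have hKc : (Nat.card K).Coprime p := by
    rw [card_map_of_injective M.subtype_injective, ← hK₀.symm.index_eq_card, hi]
    exact H22.coprime_card_pPrimeCore
  have hOK : O ⊔ K = M := by
    have := congrArg (Subgroup.map M.subtype) hK₀.sup_eq_top
    rwa [Subgroup.map_sup, map_subgroupOf_eq_of_le hOM, ← MonoidHom.range_eq_map,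
      range_subtype] at this
  have hfr : ∀ g : G, ∃ o ∈ O, o⁻¹ * g ∈ normalizer (K : Set G) := fun g => by
    have hg : g ∈ normalizer (M : Set G) := by simp [normalizer_eq_top]
    have h1 : IsComplement' (O.subgroupOf M) (H1.conjAut M g hg • K₀) := by
      refine isComplement'_of_coprime ?_ ?_
      · rw [← Nat.card_congr (equivSMul (H1.conjAut M g hg) K₀).toEquiv, hK₀.card_mul_card]
      · rw [← Nat.card_congr (equivSMul (H1.conjAut M g hg) K₀).toEquiv, ← hK₀.symm.index_eq_card]
        exact hcop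
    obtain ⟨o, ho, e⟩ := H1.complement_conj _ hcop (Or.inl (by
      haveI := hOp'.isNilpotent
      infer_instance)) _ _ hK₀ h1
    refine ⟨o, ho, ?_⟩
    have e' := congrArg (Subgroup.map M.subtype) e
    rw [H1.map_conjAut_smul, H1.map_subtype_conj_smul, ← hKdef] at e'
    rw [← H2.conj_smul_eq_iff_mem_normalizer, map_mul, mul_smul, ← e', ← mul_smul, ← map_mul,
      inv_mul_cancel, map_one, one_smul]
  let φ := π.comp (normalizer (K : Set G)).subtype
  have hφ : Function.Surjective φ := fun y => by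
    obtain ⟨g, rfl⟩ := QuotientGroup.mk'_surjective O y
    obtain ⟨o, ho, h⟩ := hfr g
    refine ⟨⟨_, h⟩, ?_⟩
    change π (o⁻¹ * g) = π g
    rw [map_mul, show π o⁻¹ = 1 from (QuotientGroup.eq_one_iff _).2 (inv_mem ho), one_mul]
  obtain ⟨S₀⟩ : Nonempty (Sylow p (normalizer (K : Set G))) := inferInstance
  set S := (S₀ : Subgroup _).map (normalizer (K : Set G)).subtype with hS
  have hSp : IsPGroup p S := S₀.isPGroup'.map _
  have hSK : S ≤ normalizer (K : Set G) := map_subtype_le _
  have ha : O.relIndex S = p ^ O.index.factorization p := by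
    have h1 := (S₀.mapSurjective hφ).card_eq_multiplicity
    have h2 := relIndex_ker S π
    rw [QuotientGroup.ker_mk', hS, Subgroup.map_map] at h2
    exact h2.trans h1
  haveI : (K.subgroupOf (K ⊔ S)).Normal :=
    (normal_subgroupOf_iff_le_normalizer le_sup_left).2 (sup_le le_normalizer hSK)
  have hS' : IsPGroup p (S.subgroupOf (K ⊔ S)) :=
    hSp.of_equiv (subgroupOfEquivOfLe le_sup_right).symm
  have hKc' : (Nat.card (K.subgroupOf (K ⊔ S))).Coprime p := by
    rwa [Nat.card_congr (subgroupOfEquivOfLe le_sup_left).toEquiv]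
  have h1 := relIndex_centralizer_le_bnd hp (K.subgroupOf (K ⊔ S)) _ hS' (by
      obtain ⟨k, hk⟩ := IsPGroup.iff_card.1
        (isPGroup_quotient_of_sup _ _ hS' (subgroupOf_sup_subgroupOf K S))
      rw [index_eq_card, hk]
      exact Nat.Coprime.pow_left _ hKc'.symm) hKc' (isCharacter_restrict hχ (K ⊔ S))
    (fun k _ h => Subtype.ext (hfaith k h)) ((H88.charDegree_restrict _ χ).trans hn).le
  rw [← Nat.pow_le_pow_iff_right hp.one_lt, ← ha, ← relIndex_subgroupOf (le_sup_right (a := K))]
  refine le_trans (index_antitone fun x hx => ?_) h1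
  have hx' : π x ∈ centralizer (pPrimeCore p (G ⧸ O) : Set (G ⧸ O)) := by
    rw [← hMπ, ← hOK, Subgroup.map_sup, (map_eq_bot_iff O).2 (QuotientGroup.ker_mk' O).ge,
      bot_sup_eq]
    rintro _ ⟨k, hk, rfl⟩
    have := congrArg Subtype.val (mem_centralizer_iff.1 (mem_subgroupOf.1 hx)
      ⟨k, mem_sup_left hk⟩ hk)
    rw [← map_mul, ← map_mul]
    exact congrArg π this
  have h2 : π x ∈ S.map π ⊓ pPrimeCore p (G ⧸ O) := ⟨mem_map_of_mem _ x.2,
    H22.IsPSolvable.centralizer_pPrimeCore_le (H22.IsPSolvable.quotient hsolv O)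
      H22.pCore_quotient_pCore hx'⟩
  rw [H22.inf_eq_bot_of_pgroup_coprime (hSp.map π) H22.coprime_card_pPrimeCore] at h2
  exact (QuotientGroup.eq_one_iff (N := O) (x : G)).1 h2

end Cfsg.Agent.S4472
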