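import Cfsg.Statements.S4473
import Cfsg.Agent.H28.Pgl2
import Cfsg.Agent.H28.MobClass
import Cfsg.Agent.H88.Deg2

set_option autoImplicit false
open Cfsg

namespace Cfsg.Agent.S4473

set_option linter.style.haveILetI false
open Cfsg.Agent.H5 Cfsg.Agent.H28 Subgroup MulAction OnePoint Matrix
open scoped MatrixGroups

theorem aff_eq_one {b : ℂ} {n : ℕ} (hn : n ≠ 0) (h : aff (1 : ℂˣ) b ^ n = 1) :
    aff (1 : ℂˣ) b = 1 := by
  rw [aff_pow, ← aff_one_zero] at h
  have h1 := (aff_inj h).2
  simp only [Units.val_one, one_pow, Finset.sum_const, Finset.card_range, nsmul_eq_mul, mul_one,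
    mul_eq_zero, Nat.cast_eq_zero, hn, false_or] at h1
  rw [h1, aff_one_zero]

theorem mob_one [DecidableEq ℂ] (K : Subgroup PGL(2, ℂ)) [Finite K] : Mob 1 ℂ K (OnePoint ℂ) := by
  have hfin : ∀ g : K, ∃ n, n ≠ 0 ∧ (g : PGL(2, ℂ)) ^ n = 1 := fun g =>
    ⟨orderOf g, (orderOf_pos g).ne', by exact_mod_cast congrArg Subtype.val (pow_orderOf_eq_one g)⟩
  refine ⟨fun g => pgl_fix (g : PGL(2, ℂ)), fun g x y z a b c d e f =>
    Subtype.ext (pgl_three _ x y z a b c d e f), fun g x y h _ _ _ => by simpa using h,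
    fun g x hx hg => ?_, fun x => ?_⟩
  · obtain ⟨n, hn, hgn⟩ := hfin g
    change (g : PGL(2, ℂ)) • x = x at hx
    change ∃ y, y ≠ x ∧ (g : PGL(2, ℂ)) • y = y
    have hg' : (g : PGL(2, ℂ)) ≠ 1 := by simpa using hg
    generalize (g : PGL(2, ℂ)) = g at hx hg' hgn
    obtain ⟨t, rfl⟩ := exists_smul_infty x
    obtain ⟨a, b, e⟩ := exists_aff (g := t⁻¹ * g * t) (by simp [mul_smul, hx])
    have e' : g = t * aff a b * t⁻¹ := by rw [← e]; group
    have h1 : (1 : ℂ) - a ≠ 0 := fun h => hg' (by
      obtain rfl : a = 1 := Units.ext (sub_eq_zero.1 h).symm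
      rw [e', conj_pow, conj_eq_one_iff] at hgn
      rw [e', aff_eq_one hn hgn]
      group)
    refine ⟨t • ((b / (1 - a) : ℂ) : OnePoint ℂ), by simp, ?_⟩
    rw [e', mul_smul, mul_smul, inv_smul_smul, aff_smul_coe]
    congr 2
    field_simp
    ring
  · obtain ⟨t, rfl⟩ := exists_smul_infty x
    let c : stabilizer K (t • (∞ : OnePoint ℂ)) →* stabilizer PGL(2, ℂ) (∞ : OnePoint ℂ) :=
      ((MulAut.conj t⁻¹).toMonoidHom.comp (K.subtype.comp (Subgroup.subtype _))).codRestrict _
        fun g => by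
          have : ((g : K) : PGL(2, ℂ)) • t • (∞ : OnePoint ℂ) = t • ∞ := g.2
          simp [mul_smul, this]
    refine ⟨mult.comp c, fun g => ⟨fun h => ?_, fun h => ?_⟩⟩
    · obtain ⟨b, hb⟩ := exists_eq_aff_mult (c g)
      obtain ⟨n, hn, hgn⟩ := hfin g
      rw [MonoidHom.comp_apply] at h
      rw [h] at hb
      change t⁻¹ * ((g : K) : PGL(2, ℂ)) * t⁻¹⁻¹ = _ at hb
      have h1 := aff_eq_one (b := b) hn (by rw [← hb, conj_pow, hgn]; group)
      rw [h1, conj_eq_one_iff] at hb
      rw [pow_one]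
      exact Subtype.ext hb
    · rw [pow_one] at h
      rw [show g = 1 from Subtype.ext h, map_one]


/-- Let the finite group G have a faithful irreducible character χ of degree 2 that is primitive: χ is not induced from a character of any proper subgroup. Then the centre of G has index 12, 24 or 60. -/
theorem result {G : Type*} [Group G] [Fintype G] (χ : Cfsg.IrrCharacter G) (hfaith : ∀ g : G, (χ : G → ℂ) g = (χ : G → ℂ) 1 → g = 1) (h2 : Cfsg.charDegree (χ : G → ℂ) = 2) (hprim : ∀ H : Subgroup G, H ≠ ⊤ → ∀ θ : H → ℂ, Cfsg.IsCharacter H θ → (χ : G → ℂ) ≠ Cfsg.indFun H θ) : (Subgroup.center G).index = 12 ∨ (Subgroup.center G).index = 24 ∨ (Subgroup.center G).index = 60 := by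
  classical
  obtain ⟨χ, hχ⟩ := χ
  have hχ' := hχ
  obtain ⟨n, ρ, hρ, rfl⟩ := hχ'
  obtain rfl : n = 2 := by
    have := H88.charDegree_character ρ
    rw [Module.finrank_fin_fun] at this
    exact this.symm.trans h2
  let σ : G →* GL (Fin 2) ℂ :=
    ((LinearMap.toMatrixAlgEquiv' (R := ℂ) (n := Fin 2)).toMonoidHom.comp ρ).toHomUnits
  have hσ : ∀ g, (σ g : Matrix (Fin 2) (Fin 2) ℂ) = LinearMap.toMatrixAlgEquiv' (ρ g) := fun _ => rfl
  have hσi : Function.Injective σ := (injective_iff_map_eq_one σ).2 fun g hg => hfaith g (by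
    have h1 : ρ g = 1 := (LinearMap.toMatrixAlgEquiv' (R := ℂ) (n := Fin 2)).injective (by
      rw [← hσ, hg, map_one]; rfl)
    change ρ.character g = ρ.character 1
    simp only [Representation.character, h1, map_one])
  let f : G →* PGL(2, ℂ) := ProjGenLinGroup.mk.comp σ
  have hker : f.ker = center G := by
    ext g
    rw [MonoidHom.mem_ker, MonoidHom.comp_apply, ProjGenLinGroup.mk_eq_one]
    constructor
    · intro h
      exact mem_center_iff.2 fun x => hσi (by rw [map_mul, map_mul, mem_center_iff.1 h])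
    · intro h
      obtain ⟨c, hc⟩ := exists_scalar_of_comm ρ (ρ g) fun x => by
        rw [← map_mul, ← map_mul, mem_center_iff.1 h]
      refine mem_center_iff.2 fun x => Units.ext ?_
      rw [Units.val_mul, Units.val_mul, hσ, hc, _root_.map_smul, map_one]
      simp
  have hcard : (center G).index = Nat.card f.range := by rw [← hker, index_ker]
  haveI : Finite f.range := Finite.of_surjective _ f.rangeRestrict_surjective
  have hM := mob_one f.range
  have key : ∀ x : OnePoint ℂ, (stabilizer f.range x).index ≤ 2 → False := fun x hx => by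
    obtain ⟨lam, hlam⟩ := hM.chi x
    let H := (stabilizer f.range x).comap f.rangeRestrict
    have hi : H.index ≤ 2 := by rwa [index_comap_of_surjective _ f.rangeRestrict_surjective]
    let μ : H →* ℂˣ := lam.comp (f.rangeRestrict.subgroupComap _)
    haveI : Finite μ.range := Finite.of_surjective _ μ.rangeRestrict_surjective
    haveI : IsCyclic μ.range := isCyclic_subgroup_units _
    have hab : ∀ a b : H, a * b = b * a := commutative_of_cyclic_center_quotient μ.rangeRestrict
      fun a ha => by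
        have h1 : μ a = 1 := congrArg Subtype.val ha
        have h3 := (hlam _).1 h1
        rw [pow_one] at h3
        have h4 : (a : G) ∈ f.ker := congrArg Subtype.val h3
        rw [hker] at h4
        exact mem_center_iff.2 fun b => Subtype.ext (mem_center_iff.1 h4 b)
    obtain ⟨θ, hθ, hne⟩ := H88.exists_irr_under' H hχ
    have hθ1 : charDegree θ = 1 :=
      H88.charDegree_eq_of_eq (by simpa using degree_eq_one_of_comm hab hθ)
    have h5 := H88.charDegree_le_index_mul H hχ (isCharacter_of_isIrr hθ) hne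
    change charDegree ρ.character = 2 at h2
    rw [hθ1, h2] at h5
    refine hprim H (fun h => ?_) θ (isCharacter_of_isIrr hθ)
      (H88.indFun_eq_of_degree_le H hχ (isCharacter_of_isIrr hθ) hne (by rw [hθ1, h2]; omega)).symm
    rw [h, index_top] at h5
    omega
  rw [hcard]
  rcases hM.classify_tame (fun x => eq_bot_iff.2 fun g hg => by simpa using hg.2) with
    ⟨x, hx⟩ | ⟨x, hx⟩ | ⟨⟨e⟩⟩ | ⟨⟨e⟩⟩ | ⟨⟨e⟩⟩
  · refine (key x ?_).elim
    rw [show stabilizer f.range x = ⊤ from eq_top_iff.2 fun g _ => hx g, index_top]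
    omega
  · exact (key x hx.le).elim
  · left
    rw [Nat.card_congr e.toEquiv, nat_card_alternatingGroup]
    simp [Nat.factorial]
  · right; left
    rw [Nat.card_congr e.toEquiv, Nat.card_perm]
    simp [Nat.factorial]
  · right; right
    rw [Nat.card_congr e.toEquiv, nat_card_alternatingGroup]
    simp [Nat.factorial]

end Cfsg.Agent.S4473
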