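import Cfsg.Statements.S4474
import Cfsg.Agent.H31.Bilin

set_option autoImplicit false
open Cfsg

namespace Cfsg.Agent.S4474

theorem result {G : Type*} [Group G] [Fintype G] (χ : Cfsg.IrrCharacter G) : ((Nat.card G : ℂ)⁻¹ * ∑ s : G, (χ : G → ℂ) (s * s)) = 1 ↔ ∃ (n : ℕ) (ρ : Representation ℝ G (Fin n → ℝ)), ∀ g : G, ((LinearMap.trace ℝ (Fin n → ℝ) (ρ g) : ℝ) : ℂ) = (χ : G → ℂ) g := by
  obtain ⟨χ, hχ⟩ := χ
  refine ⟨fun h => ?_, fun ⟨n, σ, h⟩ => H31.fsIndicator_eq_one_of_real hχ σ h⟩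
  have hreal : ∀ g, (χ g).im = 0 := by
    by_contra hc
    push Not at hc
    have := H6.fsIndicator_eq_zero_of_not_real hχ hc
    rw [H6.fsIndicator_def, h] at this
    exact one_ne_zero this
  obtain ⟨n, ρ, hirr, rfl⟩ := hχ
  obtain ⟨A, h1, h2⟩ := H31.exists_real_structure ρ hreal h
  exact ⟨n, H31.exists_real_of_real_structure ρ h1 h2⟩

end Cfsg.Agent.S4474
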