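import Cfsg.Statements.S4477
import Cfsg.Agent.H31.Aft
import Cfsg.Agent.H4.MaxClass

set_option autoImplicit false
open Cfsg

open Subgroup Cfsg.Agent.H31

namespace Cfsg.Agent.S4477

theorem result {G : Type*} [Group G] [Finite G] (hG : IsPGroup 2 G) (ht : Nat.card {x : G // orderOf x = 2} % 4 = 1) : IsCyclic G ∨ (commutator G).index = 4 := by
  refine (aft hG (by rw [card_sq_eq]; omega)).elim Or.inl fun ⟨w, hw⟩ => ?_
  obtain ⟨n, hn⟩ := hG.exists_card_eq
  by_cases hc : IsCyclic G
  · exact Or.inl hc
  have h1 := H4.sq_le_index_commutator hG hc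
  have h2 := Nat.le_of_dvd Nat.card_pos (commutator G).index_dvd_card
  by_cases h3 : 3 ≤ n
  · exact Or.inr (H4.index_commutator_of_maximal_class h3 hn
      (H4.nilpotencyClass_eq_of_card_centralizer_le n (by omega) G hn w hw))
  · have := Nat.pow_le_pow_right two_pos (show n ≤ 2 by omega)
    exact Or.inr (by omega)

end Cfsg.Agent.S4477
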