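import Cfsg.Statements.S4478
import Cfsg.Agent.H88.Vanish
import Cfsg.Agent.H6.FrobSchur
import Cfsg.Agent.H88.Deg
import Cfsg.Agent.H6.DefectZero

set_option autoImplicit false
open Cfsg

namespace Cfsg.Agent.S4478

open Cfsg.Agent

theorem sum_odd_sq {G : Type*} [Group G] [Fintype G] (f : G → ℂ) :
    ∑ g ∈ Finset.univ.filter (fun g : G => ¬ 2 ∣ orderOf g), f (g * g)
      = ∑ g ∈ Finset.univ.filter (fun g : G => ¬ 2 ∣ orderOf g), f g := by
  classical
  have hco : ∀ g : G, ¬ 2 ∣ orderOf g → (orderOf g).Coprime 2 := fun g hg =>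
    ((Nat.Prime.coprime_iff_not_dvd Nat.prime_two).2 hg).symm
  have hord : ∀ g : G, ¬ 2 ∣ orderOf g → orderOf (g * g) = orderOf g := fun g hg => by
    rw [← pow_two]; exact (hco g hg).orderOf_pow
  have hrec : ∀ g : G, ¬ 2 ∣ orderOf g → (g * g) ^ ((orderOf g + 1) / 2) = g := fun g hg => by
    rw [← pow_two, ← pow_mul]
    have : 2 * ((orderOf g + 1) / 2) = orderOf g + 1 := by omega
    rw [this, pow_succ, pow_orderOf_eq_one, one_mul]
  refine Finset.sum_bij (fun g _ => g * g) ?_ ?_ ?_ ?_
  · intro g hg
    simp only [Finset.mem_filter, Finset.mem_univ, true_and] at hg ⊢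
    rwa [hord g hg]
  · intro a ha b hb hab
    simp only [Finset.mem_filter, Finset.mem_univ, true_and] at ha hb
    have h1 : orderOf a = orderOf b := by rw [← hord a ha, ← hord b hb, hab]
    rw [← hrec a ha, ← hrec b hb, hab, h1]
  · intro b hb
    simp only [Finset.mem_filter, Finset.mem_univ, true_and] at hb
    refine ⟨b ^ ((orderOf b + 1) / 2), ?_, ?_⟩
    · simp only [Finset.mem_filter, Finset.mem_univ, true_and]
      intro h
      exact hb (h.trans (orderOf_pow_dvd _))
    · rw [← pow_add]
      have : (orderOf b + 1) / 2 + (orderOf b + 1) / 2 = orderOf b + 1 := by omega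
      rw [this, pow_succ, pow_orderOf_eq_one, one_mul]
  · intro g _; rfl

/-- Let G be a finite group of even order and χ an irreducible character of G whose degree x is divisible by the full power of 2 dividing the order of G and, for every odd prime p such that G has an element of order 2p, by the full power of p dividing the order of G. Then all involutions of G are conjugate, the centralizer of every involution has order exactly x with x coprime to its index, and the Frobenius–Schur indicator of χ equals 1. -/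
theorem result {G : Type*} [Group G] [Fintype G] (heven : Even (Nat.card G)) (χ : Cfsg.IrrCharacter G) (h2 : 2 ^ (Nat.card G).factorization 2 ∣ Cfsg.charDegree (χ : G → ℂ)) (hp : ∀ p : ℕ, p.Prime → p ≠ 2 → (∃ g : G, orderOf g = 2 * p) → p ^ (Nat.card G).factorization p ∣ Cfsg.charDegree (χ : G → ℂ)) : (∀ s t : G, orderOf s = 2 → orderOf t = 2 → IsConj s t) ∧ (∀ s : G, orderOf s = 2 → Nat.card (Subgroup.centralizer ({s} : Set G)) = Cfsg.charDegree (χ : G → ℂ) ∧ (Nat.card (Subgroup.centralizer ({s} : Set G))).Coprime (Subgroup.centralizer ({s} : Set G)).index) ∧ (Nat.card G : ℂ)⁻¹ * ∑ g : G, (χ : G → ℂ) (g * g) = 1 := by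
  classical
  have hχ := χ.2
  set x := Cfsg.charDegree (χ : G → ℂ) with hx
  have hx0 : x ≠ 0 := H88.charDegree_ne_zero hχ
  have hx1 : (x : ℂ) = (χ : G → ℂ) 1 := H88.irr_charDegree_cast χ
  have hn0 : Nat.card G ≠ 0 := Nat.card_pos.ne'
  have hz : ∀ p : ℕ, p.Prime → p ^ (Nat.card G).factorization p ∣ x → ∀ g : G, p ∣ orderOf g →
      (χ : G → ℂ) g = 0 := fun p pp hd g hg =>
    H88.apply_eq_zero_of_defect_zero hχ pp ((pp.pow_dvd_iff_le_factorization hx0).1 hd) hg
  have : Fact (Nat.Prime 2) := ⟨Nat.prime_two⟩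
  obtain ⟨s₀, hs₀⟩ := exists_prime_orderOf_dvd_card' (G := G) 2 heven.two_dvd
  have hne1 : (χ : G → ℂ) ≠ fun _ => 1 := by
    intro h
    have := hz 2 Nat.prime_two h2 s₀ (by rw [hs₀])
    rw [h] at this
    exact one_ne_zero this
  set T := Finset.univ.filter (fun g : G => orderOf g = 2) with hT
  have hodd : ∑ g ∈ Finset.univ.filter (fun g : G => ¬ 2 ∣ orderOf g), (χ : G → ℂ) (g * g) = 0 := by
    rw [sum_odd_sq]
    have h0 := H5.sum_irr_eq_zero hχ hne1
    rw [← Finset.sum_filter_add_sum_filter_not Finset.univ (fun g : G => 2 ∣ orderOf g),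
      Finset.sum_eq_zero (s := Finset.univ.filter (fun g : G => 2 ∣ orderOf g)), zero_add] at h0
    · exact h0
    · intro g hg
      exact hz 2 Nat.prime_two h2 g (Finset.mem_filter.1 hg).2
  have heven' : ∑ g ∈ Finset.univ.filter (fun g : G => 2 ∣ orderOf g), (χ : G → ℂ) (g * g)
      = T.card * x := by
    rw [← Finset.sum_filter_add_sum_filter_not _ (fun g : G => orderOf g = 2),
      Finset.sum_eq_zero (s := Finset.filter (fun g : G => ¬ orderOf g = 2) _), add_zero]
    · rw [Finset.filter_filter]
      have : Finset.univ.filter (fun g : G => 2 ∣ orderOf g ∧ orderOf g = 2) = T := by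
        ext g
        simp only [hT, Finset.mem_filter, Finset.mem_univ, true_and]
        exact ⟨fun h => h.2, fun h => ⟨by rw [h], h⟩⟩
      rw [this, Finset.sum_congr rfl (g := fun _ => (x : ℂ))]
      · simp
      · intro g hg
        have h := (Finset.mem_filter.1 hg).2
        rw [← pow_two, ← h, pow_orderOf_eq_one, hx1]
    · intro g hg
      simp only [Finset.mem_filter, Finset.mem_univ, true_and] at hg
      obtain ⟨⟨m, hm⟩, hne⟩ := hg
      have hm1 : m ≠ 1 := by rintro rfl; exact hne hm
      have hg0 : orderOf g ≠ 0 := (orderOf_pos g).ne'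
      have hm0 : m ≠ 0 := by rintro rfl; exact hg0 hm
      have hgg : orderOf (g * g) = m := by
        rw [← pow_two, orderOf_pow_of_dvd (by norm_num) ⟨m, hm⟩, hm]; simp
      obtain ⟨p, pp, hpm⟩ := Nat.exists_prime_and_dvd hm1
      by_cases hp2 : p = 2
      · subst hp2
        exact hz 2 Nat.prime_two h2 _ (by rwa [hgg])
      · obtain ⟨k, hk⟩ := hpm
        have hk0 : k ≠ 0 := by rintro rfl; exact hm0 hk
        refine hz p pp (hp p pp hp2 ⟨g ^ k, ?_⟩) _ (by rw [hgg]; exact ⟨k, hk⟩)
        rw [orderOf_pow_of_dvd hk0 ⟨2 * p, by rw [hm, hk]; ring⟩, hm, hk, ← mul_assoc,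
          Nat.mul_div_cancel _ (Nat.pos_of_ne_zero hk0)]
  have hsum : ∑ g : G, (χ : G → ℂ) (g * g) = T.card * x := by
    rw [← Finset.sum_filter_add_sum_filter_not Finset.univ (fun g : G => 2 ∣ orderOf g), hodd,
      heven', add_zero]
  have hT0 : T.card ≠ 0 := Finset.card_ne_zero.2 ⟨s₀, by simp [hT, hs₀]⟩
  have hnC : (Nat.card G : ℂ) ≠ 0 := by exact_mod_cast hn0
  have hν : (Nat.card G : ℂ)⁻¹ * ∑ g : G, (χ : G → ℂ) (g * g) = 1 := by
    rcases H6.fsIndicator_trichotomy hχ with h | h | h
    · rw [H6.fsIndicator_def, hsum] at h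
      exfalso
      have : (T.card : ℂ) * x ≠ 0 := by exact_mod_cast mul_ne_zero hT0 hx0
      exact mul_ne_zero (inv_ne_zero hnC) this h
    · rwa [H6.fsIndicator_def] at h
    · rw [H6.fsIndicator_def, hsum] at h
      exfalso
      field_simp at h
      have h' : ((T.card * x + Nat.card G : ℕ) : ℂ) = 0 := by push_cast; rw [h]; ring
      have : T.card * x + Nat.card G = 0 := by exact_mod_cast h'
      omega
  have htx : T.card * x = Nat.card G := by
    rw [hsum] at hν
    field_simp at hν
    exact_mod_cast hν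
  have hfull : ∀ s : G, orderOf s = 2 → ∀ p : ℕ, p.Prime →
      p ∣ Nat.card (Subgroup.centralizer ({s} : Set G)) → p ^ (Nat.card G).factorization p ∣ x := by
    intro s hs p pp hd
    by_cases hp2 : p = 2
    · subst hp2; exact h2
    · have : Fact p.Prime := ⟨pp⟩
      obtain ⟨c, hc⟩ := exists_prime_orderOf_dvd_card' p hd
      have hcs : Commute s (c : G) := by
        have := c.2
        rw [Subgroup.mem_centralizer_iff] at this
        exact this s rfl
      have hc' : orderOf (c : G) = p := by rw [Subgroup.orderOf_coe, hc]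
      refine hp p pp hp2 ⟨s * c, ?_⟩
      rw [hcs.orderOf_mul_eq_mul_orderOf_of_coprime, hs, hc']
      rw [hs, hc']
      exact (Nat.coprime_primes Nat.prime_two pp).2 (Ne.symm hp2)
  have hdvd : ∀ s : G, orderOf s = 2 → Nat.card (Subgroup.centralizer ({s} : Set G)) ∣ x := by
    intro s hs
    rw [← Nat.factorization_prime_le_iff_dvd Nat.card_pos.ne' hx0]
    intro p pp
    by_cases hd : p ∣ Nat.card (Subgroup.centralizer ({s} : Set G))
    · have h1 := (pp.pow_dvd_iff_le_factorization hx0).1 (hfull s hs p pp hd)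
      refine le_trans ?_ h1
      exact (Nat.factorization_le_iff_dvd Nat.card_pos.ne' hn0).2
        (Subgroup.card_subgroup_dvd_card _) p
    · rw [Nat.factorization_eq_zero_of_not_dvd hd]; exact Nat.zero_le _
  have hsub : ∀ s : G, orderOf s = 2 → Finset.univ.filter (IsConj s) ⊆ T := by
    intro s hs g hg
    simp only [hT, Finset.mem_filter, Finset.mem_univ, true_and] at hg ⊢
    obtain ⟨c, hc⟩ := isConj_iff.1 hg
    rw [← hc, H6.orderOf_conj_eq, hs]
  have key : ∀ s : G, orderOf s = 2 → Nat.card (Subgroup.centralizer ({s} : Set G)) = x ∧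
      (Subgroup.centralizer ({s} : Set G)).index = T.card := by
    intro s hs
    have h1 := Finset.card_le_card (hsub s hs)
    rw [H5.card_filter_isConj] at h1
    have h3 := Nat.le_of_dvd (Nat.pos_of_ne_zero hx0) (hdvd s hs)
    have h4 := (Subgroup.centralizer ({s} : Set G)).card_mul_index
    rw [← htx] at h4
    have hxp := Nat.pos_of_ne_zero hx0
    have hTp := Nat.pos_of_ne_zero hT0
    constructor
    · by_contra hne
      have : Nat.card (Subgroup.centralizer ({s} : Set G)) < x := lt_of_le_of_ne h3 hne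
      nlinarith
    · by_contra hne
      have : (Subgroup.centralizer ({s} : Set G)).index < T.card := lt_of_le_of_ne h1 hne
      nlinarith
  refine ⟨?_, ?_, hν⟩
  · intro s t hs ht
    have heq : Finset.univ.filter (IsConj s) = T := by
      apply Finset.eq_of_subset_of_card_le (hsub s hs)
      rw [H5.card_filter_isConj, (key s hs).2]
    have : t ∈ T := by simp [hT, ht]
    rw [← heq] at this
    exact (Finset.mem_filter.1 this).2
  · intro s hs
    refine ⟨(key s hs).1, ?_⟩
    apply Nat.coprime_of_dvd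
    intro p pp h1 h3
    have h5 := hfull s hs p pp h1
    have h4 := (Subgroup.centralizer ({s} : Set G)).card_mul_index
    rw [(key s hs).1] at h4
    have h6 : p ^ ((Nat.card G).factorization p + 1) ∣ Nat.card G := by
      rw [pow_succ]
      exact (Nat.mul_dvd_mul h5 h3).trans (by rw [h4])
    exact Nat.pow_succ_factorization_not_dvd hn0 pp h6

end Cfsg.Agent.S4478
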