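import Cfsg.Statements.S4480
import Cfsg.Agent.S4479
import Cfsg.Agent.S0895

set_option autoImplicit false
open Cfsg

namespace Cfsg.Agent.S4480

open H34 H86
open scoped ComplexConjugate

/-- Same setting as the Klein-four order formula: G of order 4·g₀ (g₀ odd) with no normal 2-complement, P a Sylow 2-subgroup, J an involution of P, M over 2, principal 2-block {1, χ₁, χ₂, χ₃} with χ_i(J) = ε_i = ±1. Suppose ε₁ε₂ε₃ = −1 and ε₃ = −1, and put q = x₃ = χ₃(1). Then there is a natural number m with 4·c(J) = m·c(P)·(q + 1), and the order of G equals (m³·c(P)/4)·(q³ − q)/2, that is 8·#G = m³·c(P)·(q³ − q). -/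
theorem result {G : Type*} [Group G] [Finite G] (M : Ideal Cfsg.AlgInt) (hM : Cfsg.IsPModular 2 M) (g₀ : ℕ) (hg₀ : Odd g₀) (hG : Nat.card G = 4 * g₀) (hnc : ¬ ∃ N : Subgroup G, N.Normal ∧ Nat.card N = g₀) (P : Sylow 2 G) (J : G) (hJ : J ∈ (P : Subgroup G)) (hJ2 : orderOf J = 2) (χ₁ χ₂ χ₃ : Cfsg.IrrCharacter G) (ε₁ ε₂ ε₃ : ℤ) (hB : Cfsg.principalBlock M G = {χ : Cfsg.IrrCharacter G | (χ : G → ℂ) = (fun _ => 1) ∨ χ = χ₁ ∨ χ = χ₂ ∨ χ = χ₃}) (hdist : (χ₁ : G → ℂ) ≠ (fun _ => 1) ∧ (χ₂ : G → ℂ) ≠ (fun _ => 1) ∧ (χ₃ : G → ℂ) ≠ (fun _ => 1) ∧ χ₁ ≠ χ₂ ∧ χ₁ ≠ χ₃ ∧ χ₂ ≠ χ₃) (hε : (ε₁ = 1 ∨ ε₁ = -1) ∧ (ε₂ = 1 ∨ ε₂ = -1) ∧ (ε₃ = 1 ∨ ε₃ = -1)) (hval : (χ₁ : G → ℂ) J = ε₁ ∧ (χ₂ : G → ℂ) J = ε₂ ∧ (χ₃ : G → ℂ) J = ε₃) (hprod : ε₁ * ε₂ * ε₃ = -1) (hε₃ : ε₃ = -1) : ∃ m : ℕ, 4 * Nat.card (Subgroup.centralizer ({J} : Set G)) = m * Nat.card (Subgroup.centralizer ((P : Subgroup G) : Set G)) * (Cfsg.charDegree (χ₃ :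 G → ℂ) + 1) ∧ 8 * Nat.card G = m ^ 3 * Nat.card (Subgroup.centralizer ((P : Subgroup G) : Set G)) * (Cfsg.charDegree (χ₃ : G → ℂ) ^ 3 - Cfsg.charDegree (χ₃ : G → ℂ)) := by
  have := hM.2.1
  have := Fintype.ofFinite G
  obtain ⟨hK, h, hconj⟩ := klein_setup (P := P) hg₀ hG hnc
  have e1 := S4479.result M hM g₀ hg₀ hG hnc P J hJ hJ2 χ₁ χ₂ χ₃ ε₁ ε₂ ε₃ hB hdist hε hval
  have e2 := S4479.degree_eq hM hJ2 hB hdist hval
  have p1 := irr_degree_ne_zero χ₁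
  have p2 := irr_degree_ne_zero χ₂
  have p3 := irr_degree_ne_zero χ₃
  subst hε₃
  obtain ⟨rfl, rfl⟩ : ε₁ = 1 ∧ ε₂ = 1 := by
    rcases hε.1 with rfl | rfl <;> rcases hε.2.1 with rfl | rfl
    · exact ⟨rfl, rfl⟩
    · norm_num at hprod
    · norm_num at hprod
    · omega
  have hJJ : J * J = 1 := by rw [← sq, orderOf_dvd_iff_pow_eq_one.mp hJ2.dvd]
  have hodd : ∀ χ : IrrCharacter G, (χ : G → ℂ) J = (1 : ℤ) → Odd (charDegree (χ : G → ℂ)) := by
    intro χ hχ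
    obtain ⟨n, hn⟩ := exists_int_of_mul_self' (irr_isCharacter χ) hJJ
    have : (1 : ℤ) = charDegree (χ : G → ℂ) - 2 * n := by exact_mod_cast hχ.symm.trans hn
    exact Nat.odd_iff.mpr (by omega)
  have hν : ∀ χ : IrrCharacter G, (χ : G → ℂ) J = (1 : ℤ) →
      H6.fsIndicator (χ : G → ℂ) = 0 ∨ H6.fsIndicator (χ : G → ℂ) = 1 := fun χ hχ => by
    by_cases hr : ∀ g, ((χ : G → ℂ) g).im = 0
    · exact Or.inr (S0895.result _ χ.2 hr _ (irr_degree_cast χ).symm (hodd χ hχ))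
    · exact Or.inl (H6.fsIndicator_eq_zero_of_not_real χ.2 (not_forall.mp hr))
  have e3 := sum_fsIndicator_eq_zero hM (H33.isPBlock_principalBlock (G := G))
    (H33.isPPart_self Nat.prime_two ⟨1, hJ2⟩) fun s y hy hc => by
      obtain ⟨z, hz⟩ := H33.exists_isPPart Nat.prime_two s
      obtain ⟨x, hx⟩ := exists_conj_mem_sylow' P (H33.IsPPart.pElt hz)
      have hz2 : z * z = 1 := by
        have := congrArg Subtype.val (IsKleinFour.mul_self (⟨_, hx⟩ : (P : Subgroup G)))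
        simpa using this
      obtain ⟨w, rfl, hc', -, hw⟩ := hz
      have : ¬ 2 ∣ orderOf (z * w * (z * w)) := by
        rw [hc'.symm.mul_mul_mul_comm, hz2, one_mul]
        exact H33.regular_mul Nat.prime_two (Commute.refl w) hw hw
      rw [(H33.IsPPart.eq_one_iff Nat.prime_two hy).mpr this] at hc
      simp [isConj_one_right.mp hc] at hJ2
  rw [S4479.sum_block hB hdist] at e3
  simp only [hval.1, hval.2.1, hval.2.2, H33.oneIrr_apply, map_one, map_intCast] at e3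
  have hν0 : H6.fsIndicator (H33.oneIrr G : G → ℂ) = 1 := by
    simp [H6.fsIndicator_def, H33.oneIrr_apply]
  have hν1 : H6.fsIndicator (χ₁ : G → ℂ) = 0 := by
    rcases hν χ₁ hval.1 with e | e
    · exact e
    rcases hν χ₂ hval.2.1 with e' | e' <;> rcases H6.fsIndicator_trichotomy χ₃.2 with e'' | e'' | e'' <;>
      rw [hν0, e, e', e''] at e3 <;> norm_num at e3
  obtain ⟨g, hg⟩ := (H6.fsIndicator_eq_zero_iff χ₁.2).mp hν1
  let χ₁' : IrrCharacter G := ⟨_, H5.isIrrCharacter_conj χ₁.2⟩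
  have hm : χ₁' ∈ principalBlock M G := H33.mem_principalBlock_of_ringHom hM (starRingEnd ℂ)
    (χ := χ₁) (by rw [hB]; simp) fun _ => rfl
  have hx : charDegree (χ₂ : G → ℂ) = charDegree (χ₁ : G → ℂ) := by
    rw [hB] at hm
    rcases hm with e | e | e | e
    · refine (hdist.1 (funext fun x => ?_)).elim
      simpa [χ₁'] using congrArg conj (congrFun e x)
    · exact (hg (Complex.conj_eq_iff_im.mp (congrFun (congrArg Subtype.val e) g))).elim
    · apply charDegree_eq_of_cast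
      rw [← e, irr_degree_cast]
      exact conj_irr_one χ₁
    · have := congrFun (congrArg Subtype.val e) J
      simp only [χ₁', hval.1, hval.2.2, map_intCast] at this
      norm_num at this
  obtain ⟨k, hk⟩ := hodd χ₁ hval.1
  have hq : charDegree (χ₃ : G → ℂ) = 4 * k + 3 := by omega
  obtain ⟨n, hn⟩ : Nat.card (Subgroup.centralizer ((P : Subgroup G) : Set G)) ∣ Nat.card (Cg J) :=
    Subgroup.card_dvd_of_le (Subgroup.centralizer_le (Set.singleton_subset_iff.mpr hJ))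
  have hi := (Cg J).card_mul_index
  have pP : Nat.card (Subgroup.centralizer ((P : Subgroup G) : Set G)) ≠ 0 := Nat.card_pos.ne'
  have pc : Nat.card (Cg J) ≠ 0 := Nat.card_pos.ne'
  rw [hx, hk, hq, ← hi] at e1
  rw [hq, ← hi]
  change ∃ m, 4 * Nat.card (Cg J) = _ ∧ _
  change _ = 8 * _ * (Nat.card (Cg J) : ℚ) ^ 3 / _ at e1
  rw [hn] at e1 pc ⊢
  generalize Nat.card (Subgroup.centralizer ((P : Subgroup G) : Set G)) = cP at *
  generalize (Cg J).index = i at *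
  have hn0 : n ≠ 0 := right_ne_zero_of_mul pc
  have e4 : i * (k + 1) ^ 2 = (4 * k + 3) * (2 * k + 1) * n ^ 2 := by
    have f1 : (4 * k + 3 + -1 : ℚ) ≠ 0 := by
      have : (0 : ℚ) ≤ k := by positivity
      exact (by linarith : (0 : ℚ) < 4 * k + 3 + -1).ne'
    apply Nat.cast_injective (R := ℚ)
    push_cast at e1 ⊢
    field_simp at e1
    rw [eq_div_iff (by rwa [mul_comm])] at e1
    have f2 : (2 * k + 1 : ℚ) ≠ 0 := by positivity
    apply mul_left_cancel₀ f2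
    linear_combination e1 / 8
  have e5 : k + 1 ∣ n := by
    rw [← Nat.pow_dvd_pow_iff two_ne_zero]
    refine Nat.Coprime.dvd_of_dvd_mul_left ?_ (e4 ▸ dvd_mul_left _ _)
    refine Nat.Coprime.pow_left _ (Nat.Coprime.mul_right ?_ ?_)
    · rw [← Nat.isCoprime_iff_coprime]
      exact ⟨4, -1, by push_cast; ring⟩
    · rw [← Nat.isCoprime_iff_coprime]
      exact ⟨2, -1, by push_cast; ring⟩
  obtain ⟨m, rfl⟩ := e5
  refine ⟨m, by ring, ?_⟩
  have e6 : i = (4 * k + 3) * (2 * k + 1) * m ^ 2 := by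
    apply Nat.eq_of_mul_eq_mul_right (m := (k + 1) ^ 2) (by positivity)
    rw [e4]; ring
  rw [e6, show (4 * k + 3) ^ 3 - (4 * k + 3) = (4 * k + 3) * (4 * k + 2) * (4 * k + 4) from
    Nat.sub_eq_of_eq_add (by ring)]
  ring

end Cfsg.Agent.S4480
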