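import Cfsg.Statements.S4482
import Cfsg.Agent.H22.DihOrder

set_option autoImplicit false
open Cfsg

namespace Cfsg.Agent.S4482

/-- An order formula for groups with dihedral Sylow 2-subgroups and one class of involutions. Let G be a finite group whose Sylow 2-subgroup P = ⟨σ, τ⟩ is dihedral of order 2^n ≥ 8 (σ of order 2^(n−1), τ an involution inverting σ), let J be the central involution σ^(2^(n−2)), and suppose J, τ and στ are conjugate in G. Fix M over 2 and let χ₁ be an irreducible character in the principal 2-block taking one constant value δ₁ = ±1 at every non-identity power of σ, with χ₁ ≠ 1. Then, with x₁ = χ₁(1) and c(·) denoting orders of centralizers, x₁ ≠ δ₁ and #G · (x₁ − δ₁)² = 2·x₁(x₁ + δ₁)·c(J)³·(1/c(J, τ) + 1/c(J, στ))², where c(J, y) is the order of the joint centralizer of J and y. -/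
theorem result {G : Type*} [Group G] [Finite G] (M : Ideal Cfsg.AlgInt) (hM : Cfsg.IsPModular 2 M) (n : ℕ) (hn : 3 ≤ n) (P : Sylow 2 G) (σ τ : G) (hσ : σ ∈ (P : Subgroup G)) (hτ : τ ∈ (P : Subgroup G)) (hσo : orderOf σ = 2 ^ (n - 1)) (hτo : orderOf τ = 2) (hrel : τ * σ * τ⁻¹ = σ⁻¹) (hgen : Subgroup.closure ({σ, τ} : Set G) = (P : Subgroup G)) (hconj : IsConj (σ ^ (2 ^ (n - 2))) τ ∧ IsConj (σ ^ (2 ^ (n - 2))) (σ * τ)) (χ₁ : Cfsg.IrrCharacter G) (hχ₁ : χ₁ ∈ Cfsg.principalBlock M G) (h1 : (χ₁ : G → ℂ) ≠ (fun _ => 1)) (δ₁ : ℤ) (hδ₁ : δ₁ = 1 ∨ δ₁ = -1) (hval : ∀ l : ℕ, 0 < l → l < 2 ^ (n - 1) → (χ₁ : G → ℂ) (σ ^ l) = δ₁) : (Cfsg.charDegree (χ₁ : G → ℂ) : ℤ) ≠ δ₁ ∧ (Nat.card G : ℚ) * ((Cfsg.charDegree (χ₁ : G → ℂ) : ℚ) - δ₁) ^ 2 = 2 * (Cfsg.charDegree (χ₁ : G → ℂ) : ℚ) * ((Cfsg.charDegree (χ₁ : G → ℂ) : ℚ) + δ₁) * (Nat.card (Subgroup.centralizer ({σ ^ (2 ^ (n - 2))} : Set G))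 : ℚ) ^ 3 * (1 / (Nat.card (Subgroup.centralizer ({σ ^ (2 ^ (n - 2)), τ} : Set G)) : ℚ) + 1 / (Nat.card (Subgroup.centralizer ({σ ^ (2 ^ (n - 2)), σ * τ} : Set G)) : ℚ)) ^ 2 := by
  obtain ⟨k, rfl⟩ : ∃ k, n = k + 3 := ⟨n - 3, by omega⟩
  have := Fintype.ofFinite G
  have hk : 4 ≤ 2 ^ (k + 2) := by
    rw [pow_add]; have := Nat.one_le_two_pow (n := k); omega
  have h : H22.DihSyl P σ τ (σ ^ 2 ^ (k + 1)) k := by
    refine ⟨⟨hσ, hτ, H8.mul_self_of_orderOf_two hτo, hrel, fun hA => ?_, ?_⟩, hσo, rfl⟩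
    · rw [H42.comm_of_mem_zpowers hA (Subgroup.mem_zpowers σ), mul_inv_cancel_right] at hrel
      have := Nat.le_of_dvd two_pos
        (orderOf_dvd_of_pow_eq_one ((sq σ).trans (mul_eq_one_iff_eq_inv.2 hrel)))
      rw [hσo] at this
      exact absurd (hk.trans this) (by norm_num)
    · rw [← hgen, Subgroup.zpowers_eq_closure, Subgroup.zpowers_eq_closure,
        ← Subgroup.closure_union]
      rfl
  obtain ⟨h2, h3⟩ := h.order_formula hM (fun t ht => h.one_class hconj.1 hconj.2 ht) hχ₁ h1 hδ₁ hval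
  have h4 := h.card_refls
  change _ ∧ _ = _ * (Nat.card (H34.Cg (σ ^ 2 ^ (k + 1))) : ℚ) ^ 3 *
    (1 / (Nat.card (Subgroup.centralizer ({σ ^ 2 ^ (k + 1), τ} : Set G)) : ℚ) +
      1 / (Nat.card (Subgroup.centralizer ({σ ^ 2 ^ (k + 1), σ * τ} : Set G)) : ℚ)) ^ 2
  rw [H22.card_centralizer_pair ⟨τ, h.P_le h.hy⟩,
    H22.card_centralizer_pair ⟨σ * τ, h.P_le (mul_mem h.hx h.hy)⟩]
  have h5 := (H34.Cg (⟨τ, h.P_le h.hy⟩ : H34.Cg _)).card_mul_index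
  have h6 := (H34.Cg (⟨σ * τ, h.P_le (mul_mem h.hx h.hy)⟩ : H34.Cg _)).card_mul_index
  have h7 := (H34.Cg (⟨τ, h.P_le h.hy⟩ : H34.Cg _)).index_ne_zero_of_finite
  have h8 := Nat.card_pos (α := H34.Cg (⟨τ, h.P_le h.hy⟩ : H34.Cg _))
  have h9 := Nat.card_pos (α := H34.Cg (⟨σ * τ, h.P_le (mul_mem h.hx h.hy)⟩ : H34.Cg _))
  have h10 := Nat.card_pos (α := H34.Cg (σ ^ 2 ^ (k + 1)))
  have h11 := H33.charDegree_ne_zero χ₁
  rw [h4] at h2
  refine ⟨fun e => ?_, ?_⟩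
  · rw [sub_eq_zero.2 e, zero_pow two_ne_zero, mul_zero] at h2
    refine absurd h2.symm (mul_ne_zero (mul_ne_zero (mul_ne_zero ?_ h3) ?_) ?_) <;> positivity
  · generalize Nat.card (H34.Cg (⟨τ, h.P_le h.hy⟩ : H34.Cg _)) = a at *
    generalize Nat.card (H34.Cg (⟨σ * τ, h.P_le (mul_mem h.hx h.hy)⟩ : H34.Cg _)) = b at *
    generalize (H34.Cg (⟨τ, h.P_le h.hy⟩ : H34.Cg _)).index = c at *
    generalize (H34.Cg (⟨σ * τ, h.P_le (mul_mem h.hx h.hy)⟩ : H34.Cg _)).index = d at *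
    generalize Nat.card (H34.Cg (σ ^ 2 ^ (k + 1))) = m at *
    have e : (m : ℚ) * (1 / a + 1 / b) = c + d := by
      rw [mul_add]
      nth_rw 1 [← h5]
      rw [← h6]
      field_simp
      push_cast
      ring
    have h12 := congrArg (Int.cast : ℤ → ℚ) h2
    push_cast at h12
    rw [h12, ← e]
    ring

end Cfsg.Agent.S4482
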