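import Cfsg.Statements.S4484
import Cfsg.Agent.H86.Blich
import Cfsg.Agent.H86.Val
import Cfsg.Agent.H33.Orth
import Cfsg.Agent.H5.Burnside

set_option autoImplicit false
open Cfsg

namespace Cfsg.Agent.S4484

open scoped InnerProductSpace in
open Module in
theorem exists_eig {G : Type*} [Group G] [Finite G] {χ : G → ℂ} (h : IsIrrCharacter G χ) (x : G) :
    ∃ (d : ℕ) (γ : Fin d → ℂ), χ 1 = d ∧ (∀ k, γ k ^ orderOf x = 1) ∧
      (∀ j : ℕ, χ (x ^ j) = ∑ k, γ k ^ j) ∧ ∀ (i : ℕ) (k₀ : Fin d),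
        (∀ k, ‖(γ k / γ k₀) ^ i - 1‖ < 1) → Subgroup.normalClosure {x ^ i} = ⊤ →
        ‖χ (x ^ i)‖ = ‖χ 1‖ := by
  obtain ⟨n, ρ, hirr, rfl⟩ := h
  obtain ⟨σ, e, he, hσ⟩ := H86.exists_unitary_rep ρ
  obtain ⟨b, γ, hb⟩ := H86.exists_orthonormal_eigenbasis (fun _ : Unit => σ x)
    (fun _ => hσ x) (fun _ => H86.pow_card_eq_one_rep σ x) (fun _ _ => Commute.refl _)
  have hch : ∀ g, ρ.character g = σ.character g := by
    intro g
    have : σ g = e.conj (ρ g) := by
      ext1 v; obtain ⟨v, rfl⟩ := e.surjective v; simp [he]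
    simp only [Representation.character, this, LinearMap.trace_conj']
  have hpow : ∀ (j : ℕ) k, σ (x ^ j) (b k) = γ k () ^ j • b k := by
    intro j k
    induction j with
    | zero => simp
    | succ j ih => rw [pow_succ, map_mul, Module.End.mul_apply, hb k (), map_smul, ih, smul_smul,
        pow_succ']
  have hγ : ∀ k, γ k () ^ orderOf x = 1 := by
    intro k
    have h1 := hpow (orderOf x) k
    rw [pow_orderOf_eq_one, map_one, Module.End.one_apply] at h1
    have h2 : (γ k () ^ orderOf x - 1) • b k = 0 := by rw [sub_smul, ← h1, one_smul, sub_self]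
    exact sub_eq_zero.1 ((smul_eq_zero.1 h2).resolve_right (b.toBasis.ne_zero k))
  have hn : ∀ k, ‖γ k ()‖ = 1 := fun k =>
    H5.norm_eq_one_of_pow_eq_one' (orderOf_pos x).ne' (hγ k)
  refine ⟨_, fun k => γ k (), by rw [hch, σ.char_one], hγ, fun j => ?_, fun i k₀ hi hN => ?_⟩
  · rw [hch]
    exact H5.trace_eq_sum_of_eigenbasis _ b.toBasis _ (hpow j)
  · set l := γ k₀ () ^ i with hl
    have hl1 : ‖l‖ = 1 := by rw [hl, norm_pow, hn, one_pow]
    have h0 : γ k₀ () ≠ 0 := fun h => by simpa [h] using hn k₀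
    let δ := fun k => γ k () ^ i - l
    have hδ : ‖δ‖ < 1 := (pi_norm_lt_iff one_pos).2 fun k => by
      have : δ k = ((γ k () / γ k₀ ()) ^ i - 1) * l := by
        simp only [δ, hl, div_pow]; field_simp
      rw [this, norm_mul, hl1, mul_one]; exact hi k
    have hop := H86.opNorm_le_of_eigenbasis b (H86.clm σ (x ^ i) - l • 1) δ fun k => by
      simp only [ContinuousLinearMap.sub_apply, H86.clm_apply, hpow, δ, sub_smul,
        ContinuousLinearMap.smul_apply, ContinuousLinearMap.one_apply]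
    have hB := H86.blichfeldt σ hσ (x ^ i) l hl1 hδ fun v =>
      ((H86.clm σ (x ^ i) - l • 1).le_opNorm v).trans
        (mul_le_mul_of_nonneg_right hop (norm_nonneg _))
    set W := Module.End.eigenspace (σ (x ^ i)) l with hW
    have hall : ∀ g : G, ∀ v ∈ W, σ g v ∈ W := by
      intro g
      have hg : g ∈ Subgroup.normalClosure {x ^ i} := hN ▸ Subgroup.mem_top g
      rw [Subgroup.normalClosure, ← Subgroup.mem_toSubmonoid,
        Subgroup.closure_toSubmonoid_of_finite] at hg
      induction hg using Submonoid.closure_induction with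
      | mem z hz =>
        obtain ⟨a, rfl, hz⟩ := Group.mem_conjugatesOfSet_iff.1 hz
        obtain ⟨c, rfl⟩ := isConj_iff.1 hz
        exact hB c
      | one => simp
      | mul a a' _ _ ha ha' => intro v hv; rw [map_mul]; exact ha _ (ha' v hv)
    let U : Subrepresentation ρ := ⟨W.comap e.toLinearMap, fun g v hv => by
      change e (ρ g v) ∈ W
      rw [← he]; exact hall g _ hv⟩
    have hU : U = ⊤ := (eq_bot_or_eq_top U).resolve_left fun hU => by
      have h1 : e.symm (b k₀) ∈ U.toSubmodule := by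
        change e (e.symm (b k₀)) ∈ W
        rw [e.apply_symm_apply]; exact Module.End.mem_eigenspace_iff.2 (hpow i k₀)
      rw [hU] at h1
      exact b.toBasis.ne_zero k₀ (e.symm.map_eq_zero_iff.1 h1)
    rw [ρ.char_one, Complex.norm_natCast, H5.norm_character_eq_iff]
    refine ⟨l, LinearMap.ext fun v => e.injective ?_⟩
    have h1 : v ∈ U.toSubmodule := by rw [hU]; trivial
    rw [← he, Module.End.mem_eigenspace_iff.1 (show e v ∈ W from h1)]
    simp

theorem sum_pow_root {ξ : ℂ} {p : ℕ} (h : ξ ^ p = 1) :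
    ∑ j ∈ Finset.range p, ξ ^ j = if ξ = 1 then (p : ℂ) else 0 := by
  split_ifs with h1
  · simp [h1]
  · rw [geom_sum_eq h1, h, sub_self, zero_div]


/-- A refinement of Burnside's result on simple groups of order divisible by only two primes. Let G be a finite simple group of order p^a · q^b · g₀ with p, q distinct primes, a > 0, g₀ coprime to p and q, and the order of G different from p. Then g₀ − 1 > log p / log 6, that is 6^(g₀ − 1) > p. -/
theorem result {G : Type*} [Group G] [Finite G] [IsSimpleGroup G] (p q a b g₀ : ℕ) (hp : p.Prime) (hq : q.Prime) (hpq : p ≠ q) (ha : 0 < a) (hg : Nat.card G = p ^ a * q ^ b * g₀) (hcop : ¬ p ∣ g₀) (hcoq : ¬ q ∣ g₀) (hne : Nat.card G ≠ p) : p < 6 ^ (g₀ - 1) := by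
  classical
  by_contra hlt
  have := Fact.mk hp
  have := Fintype.ofFinite G
  have hpG : p ∣ Nat.card G := hg ▸ ((dvd_pow_self p ha.ne').mul_right _).mul_right _
  have hnp : ¬ (Nat.card G).Prime := fun h => hne ((Nat.prime_dvd_prime_iff_eq hp h).1 hpG).symm
  -- a `p`-central element of order `p`
  obtain ⟨x, hx, hxc⟩ : ∃ x : G, orderOf x = p ∧
      ¬ p ∣ (Subgroup.centralizer ({x} : Set G)).index := by
    obtain ⟨P⟩ : Nonempty (Sylow p G) := inferInstance
    have hP : Nontrivial P := (Subgroup.nontrivial_iff_ne_bot _).2 (P.ne_bot_of_dvd_card hpG)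
    have hZ := P.isPGroup'.center_nontrivial
    have hZp : IsPGroup p (Subgroup.center P) := P.isPGroup'.to_subgroup _
    obtain ⟨z, hz⟩ := exists_prime_orderOf_dvd_card' (G := Subgroup.center P) p
      (hZp.card_eq_or_dvd.resolve_left (Finite.one_lt_card (α := Subgroup.center P)).ne')
    refine ⟨((z : P) : G), by rw [Subgroup.orderOf_coe, Subgroup.orderOf_coe, hz], fun h => ?_⟩
    refine P.not_dvd_index (h.trans (Subgroup.index_dvd_of_le fun w hw => ?_))
    rw [Subgroup.mem_centralizer_singleton_iff]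
    exact congrArg Subtype.val (Subgroup.mem_center_iff.1 z.2 ⟨w, hw⟩)
  have hx1 : ∀ i, 0 < i → i < p → x ^ i ≠ 1 := fun i h0 hi h =>
    absurd (Nat.le_of_dvd h0 (hx ▸ orderOf_dvd_of_pow_eq_one h)) (not_le.2 hi)
  obtain ⟨M, hM⟩ := H86.exists_isPModular hp
  have := hM.2.1
  -- a character of the principal block of degree prime to `q`
  obtain ⟨χ, hχB, hχ1, hχq⟩ : ∃ χ : IrrCharacter G, χ ∈ principalBlock M G ∧
      (χ : G → ℂ) ≠ (fun _ => 1) ∧ ∀ n : ℕ, (χ : G → ℂ) 1 = n → ¬ q ∣ n := by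
    by_contra hc
    push Not at hc
    have h0 := H33.block_orthogonality hM (H32.isPBlock_principalBlock (M := M) (G := G))
      (g := x) (h := 1) (x := x) (y := 1) ⟨1, mul_one x, Commute.one_right x, ⟨1, by simp [hx]⟩,
        by simpa using hp.ne_one⟩ ⟨1, mul_one 1, Commute.refl 1, ⟨0, by simp⟩,
        by simpa using hp.ne_one⟩
      (fun h => hx1 1 one_pos hp.one_lt (by simpa using h))
    rw [H33.finsum_mem_irr, inv_one, ← Finset.add_sum_erase _ _
      (a := ⟨fun _ => 1, H5.isIrrCharacter_one⟩)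
      (Finset.mem_filter.2 ⟨Finset.mem_univ _, H32.one_mem_principalBlock⟩)] at h0
    have hq0 : (q : ℂ) ≠ 0 := Nat.cast_ne_zero.2 hq.ne_zero
    have h1 : IsIntegral ℤ (((1 : ℕ) : ℂ) / q) := by
      rw [show ((1 : ℕ) : ℂ) = _ from (by simpa using eq_neg_of_add_eq_zero_left h0), neg_div,
        Finset.sum_div]
      refine (IsIntegral.sum _ fun ψ hψ => ?_).neg
      obtain ⟨h2, h3⟩ := Finset.mem_erase.1 hψ
      obtain ⟨n, hn, m, rfl⟩ := hc ψ (Finset.mem_filter.1 h3).2 fun h => h2 (Subtype.ext h)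
      rw [hn, show (ψ : G → ℂ) x * ((q * m : ℕ) : ℂ) / q = (ψ : G → ℂ) x * m by
        push_cast; field_simp]
      exact (H5.isIntegral_apply (H5.isCharacter_of_isIrr ψ.2) x).mul (isIntegral_natCast m)
    exact hq.ne_one (Nat.dvd_one.1 (H5.dvd_of_isIntegral_div hq.ne_zero h1))
  obtain ⟨d, γ, hd, hγ, hch, hB⟩ := exists_eig χ.2 x
  rw [hx] at hγ
  have hd0 : d ≠ 0 := fun h => H5.degree_ne_zero χ.2 (by rw [hd, h, Nat.cast_zero])
  have hdc : (d : ℂ) ≠ 0 := Nat.cast_ne_zero.2 hd0
  have hγ0 : ∀ k, γ k ≠ 0 := fun k h => by simpa [h, hp.ne_zero] using hγ k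
  set h := (Subgroup.centralizer ({x} : Set G)).index with hh
  have hhd : h ∣ q ^ b * g₀ := by
    have h1 : h ∣ p ^ a * (q ^ b * g₀) := mul_assoc (p ^ a) _ _ ▸ hg ▸ Subgroup.index_dvd_card _
    exact (((Nat.Prime.coprime_iff_not_dvd hp).2 hxc).symm.pow_right a).dvd_of_dvd_mul_left h1
  -- multiplicities
  have hmult : ∀ k₀, d ≤ g₀ * (Finset.univ.filter fun k => γ k = γ k₀).card := by
    intro k₀
    set m := (Finset.univ.filter fun k => γ k = γ k₀).card with hm
    have hm0 : 0 < m := Finset.card_pos.2 ⟨k₀, by simp⟩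
    let t : ℕ → ℂ := fun j => h * (χ : G → ℂ) (x ^ j) / d * (γ k₀)⁻¹ ^ j
    have hs : ∑ j ∈ Finset.range p, t j = ((p * h * m : ℕ) : ℂ) / d := by
      have : ∀ j, t j = h / d * ∑ k, (γ k / γ k₀) ^ j := fun j => by
        simp only [t, hch, div_eq_mul_inv, mul_pow, ← Finset.sum_mul]; ring
      simp only [this]
      rw [← Finset.mul_sum, Finset.sum_comm, Finset.sum_congr rfl fun k _ => sum_pow_root
        (show (γ k / γ k₀) ^ p = 1 by rw [div_pow, hγ, hγ, div_one])]
      simp only [div_eq_one_iff_eq (hγ0 k₀)]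
      rw [← Finset.sum_filter, Finset.sum_const, ← hm]
      push_cast; rw [nsmul_eq_mul]; ring
    have hr : ∀ j : ℕ, ((γ k₀)⁻¹ ^ j) ^ p = 1 := fun j => by
      rw [← pow_mul, mul_comm, pow_mul, inv_pow, hγ, inv_one, one_pow]
    have hri : ∀ j : ℕ, IsIntegral ℤ ((γ k₀)⁻¹ ^ j) := fun j =>
      IsIntegral.of_pow hp.pos (by rw [hr]; exact isIntegral_one)
    have hω : ∀ j ∈ Finset.range p, IsIntegral ℤ (h * (χ : G → ℂ) (x ^ j) / d) ∧
        h * (χ : G → ℂ) (x ^ j) / d - h ∈ H32.locMax M := by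
      intro j hj
      rcases Nat.eq_zero_or_pos j with rfl | hj0
      · rw [pow_zero, hd, mul_div_cancel_right₀ _ hdc, sub_self]
        exact ⟨isIntegral_natCast h, Submodule.zero_mem _⟩
      have hc : Subgroup.centralizer ({x ^ j} : Set G) = Subgroup.centralizer {x} := by
        have hco : j.Coprime (orderOf x) := hx ▸
          (Nat.coprime_of_lt_prime hj0.ne' (Finset.mem_range.1 hj) hp).symm
        obtain ⟨r, hr⟩ := exists_pow_eq_self_of_coprime hco
        ext w
        simp only [Subgroup.mem_centralizer_singleton_iff]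
        exact ⟨fun hw => hr ▸ (Commute.pow_right hw r).eq, fun hw => (Commute.pow_right hw j).eq⟩
      have h1 := H5.isIntegral_centralChar χ.2 (x ^ j)
      have h2 := H32.sub_mem_locMax_comm (H32.mem_locMax.2 (hχB (x ^ j)))
      simp only [centralChar, hc, hd, mul_one, div_one] at h1 h2
      exact ⟨h1, h2⟩
    have h1 : d ∣ p * h * m := H5.dvd_of_isIntegral_div hd0
      (hs ▸ IsIntegral.sum _ fun j hj => (hω j hj).1.mul (hri j))
    obtain ⟨c, hc⟩ := h1
    have h2 : (c : ℂ) ∈ H32.locMax M := by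
      have h3 : ∑ j ∈ Finset.range p, (t j - h * 1) ∈ H32.locMax M :=
        Submodule.sum_mem _ fun j hj => H32.mul_sub_mul_mem_locMax
          (H32.mem_locRing_of_isIntegral (hω j hj).1) (Subring.one_mem _) (hω j hj).2
          (H32.sub_one_mem_locMax_of_pow_p_pow hM (k := 1) (by rw [pow_one, hr]))
      rw [Finset.sum_sub_distrib, hs, hc, Nat.cast_mul, mul_div_cancel_left₀ _ hdc] at h3
      refine H32.mem_locMax_of_sub_mem ?_ h3
      rw [Finset.sum_const, Finset.card_range, mul_one, nsmul_eq_mul, ← Nat.cast_mul,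
        H32.natCast_mem_locMax_iff hM]
      exact dvd_mul_right p h
    obtain ⟨c, rfl⟩ := (H32.natCast_mem_locMax_iff hM).1 h2
    have h3 : d ∣ h * m := ⟨c, Nat.eq_of_mul_eq_mul_left hp.pos (by rw [← mul_assoc, hc]; ring)⟩
    have h4 : d ∣ q ^ b * (g₀ * m) := h3.trans (mul_assoc (q ^ b) _ _ ▸ mul_dvd_mul_right hhd m)
    have hg0 : 0 < g₀ := Nat.pos_of_ne_zero fun h => hcop (h ▸ dvd_zero p)
    exact Nat.le_of_dvd (mul_pos hg0 hm0)
      ((((Nat.Prime.coprime_iff_not_dvd hq).2 (hχq d hd)).symm.pow_right b).dvd_of_dvd_mul_left h4)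
  have hS : (Finset.univ.image γ).card ≤ g₀ := by
    refine Nat.le_of_mul_le_mul_right ?_ (Nat.pos_of_ne_zero hd0)
    calc (Finset.univ.image γ).card * d = ∑ _μ ∈ Finset.univ.image γ, d := by simp
      _ ≤ ∑ μ ∈ Finset.univ.image γ, g₀ * (Finset.univ.filter fun k => γ k = μ).card :=
        Finset.sum_le_sum fun μ hμ => by
          obtain ⟨k, -, rfl⟩ := Finset.mem_image.1 hμ
          exact hmult k
      _ = g₀ * d := by
        rw [← Finset.mul_sum, ← Finset.card_eq_sum_card_image, Finset.card_univ, Fintype.card_fin]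
  let k₀ : Fin d := ⟨0, Nat.pos_of_ne_zero hd0⟩
  have hn : ∀ k, ‖γ k‖ = 1 := fun k => H5.norm_eq_one_of_pow_eq_one' hp.ne_zero (hγ k)
  obtain ⟨i, hi0, hip, hi⟩ := H86.exists_pow_near_one
    (((Finset.univ.image γ).erase (γ k₀)).image (· / γ k₀)) (p := p) (by
      intro z hz
      obtain ⟨w, hw, rfl⟩ := Finset.mem_image.1 hz
      obtain ⟨k, -, rfl⟩ := Finset.mem_image.1 (Finset.mem_of_mem_erase hw)
      rw [norm_div, hn, hn, div_one]) (by
      have h1 : (((Finset.univ.image γ).erase (γ k₀)).image (· / γ k₀)).card ≤ g₀ - 1 :=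
        Finset.card_image_le.trans (by
          rw [Finset.card_erase_of_mem (Finset.mem_image_of_mem _ (Finset.mem_univ _))]; omega)
      refine lt_of_le_of_ne ((Nat.pow_le_pow_right (by norm_num) h1).trans (not_lt.1 hlt))
        fun h => ?_
      have h2 := (Nat.Prime.eq_one_of_pow (h ▸ hp))
      rw [h2] at h
      exact absurd (h ▸ hp) (by norm_num))
  have hN : Subgroup.normalClosure {x ^ i} = ⊤ :=
    (Subgroup.normalClosure_normal.eq_bot_or_eq_top).resolve_left fun h =>
      hx1 i hi0 hip (Subgroup.mem_bot.1 (h ▸ Subgroup.subset_normalClosure rfl))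
  have h1 := hB i k₀ (fun k => by
    by_cases hk : γ k = γ k₀
    · simp [hk, hγ0]
    · exact hi _ (Finset.mem_image_of_mem _ (Finset.mem_erase.2
        ⟨hk, Finset.mem_image_of_mem _ (Finset.mem_univ _)⟩))) hN
  refine hnp (H5.prime_card_of_simple_of_mem_center (hx1 i hi0 hip)
    (Subgroup.mem_center_iff.2 fun g => ?_))
  have h2 := H5.eq_one_of_simple_of_apply_eq χ.2 hχ1
    (H5.apply_commutator_of_norm_eq (H5.isCharacter_of_isIrr χ.2) h1 g)
  rw [mul_inv_eq_one, mul_inv_eq_iff_eq_mul] at h2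
  exact h2.symm

end Cfsg.Agent.S4484
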