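import Cfsg.Statements.S4485
import Cfsg.Agent.H31.BL2
import Cfsg.Agent.H31.Linear

set_option autoImplicit false
open Cfsg

namespace Cfsg.Agent.S4485

universe u

theorem aux {p d : ℕ} [Fact p.Prime] (m : ℕ) : ∀ (G : Type u) [Group G] [Finite G],
    Nat.card G = m → ∀ P : Sylow p G, (∀ x ∈ (P : Subgroup G), x ≠ 1 →
      Subgroup.centralizer ({x} : Set G) = Subgroup.centralizer ((P : Subgroup G) : Set G)) →
    d ^ 2 + 1 < Nat.card P → H31.Lin d G → (P : Subgroup G).Normal := by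
  induction m using Nat.strong_induction_on with
  | _ m IH =>
  intro G _ _ hm P hstar hd hL
  haveI := Fintype.ofFinite G
  by_cases hM : ∀ K : Subgroup G, K.Normal → (P : Subgroup G) ≤ K → K = ⊤
  · have hab : ∀ a b : G, a * b = b * a := fun a b => by
      refine mul_inv_eq_one.mp (hL _ fun ψ f hψ hf hfd => ?_)
      by_contra h1
      obtain ⟨h2, -⟩ := H31.brauer_leonard P hstar hψ (fun e => h1 (by rw [e])) hf
        (lt_of_le_of_lt (Nat.succ_le_succ (Nat.pow_le_pow_left hfd 2)) hd) hM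
      obtain ⟨l, rfl⟩ := H5.exists_monoidHom_of_degree_one (H5.isCharacter_of_isIrr hψ)
        (by rw [hf, h2, Nat.cast_one])
      exact h1 (by simp [mul_comm (l a)])
    exact ⟨fun a ha g => by rwa [hab g a, mul_inv_cancel_right]⟩
  · push Not at hM
    obtain ⟨K, h1, h2, h3⟩ := hM
    have h4 := IH _ (hm ▸ H31.card_lt_of_ne_top h3) K rfl (P.subtype h2) (fun x hx hx1 => by
      ext c
      have := SetLike.ext_iff.mp (hstar x hx fun e => hx1 (Subtype.ext e)) (c : G)
      rw [Subgroup.mem_centralizer_singleton_iff] at this ⊢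
      rw [Subtype.ext_iff]
      exact this.trans ⟨fun h y hy => Subtype.ext (h y hy),
        fun h y hy => congrArg Subtype.val (h ⟨y, h2 hy⟩ hy)⟩)
      (by rwa [← Nat.card_congr (Subgroup.subgroupOfEquivOfLe h2).toEquiv] at hd) (hL.subgroup K)
    refine ⟨fun a ha g => ?_⟩
    obtain ⟨k, hk⟩ := P.isPGroup' ⟨a, ha⟩
    exact H81.mem_sylow_of_normal (P.subtype h2) h4 (g := ⟨_, h1.conj_mem a (h2 ha) g⟩) (k := k)
      (Subtype.ext (by simp [show a ^ p ^ k = 1 from congrArg Subtype.val hk]))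

theorem result {G : Type*} [Group G] [Finite G] (p : ℕ) (hp : p.Prime) (hpG : p ∣ Nat.card G) (P : Sylow p G) (hstar : ∀ x ∈ (P : Subgroup G), x ≠ 1 → Subgroup.centralizer ({x} : Set G) = Subgroup.centralizer ((P : Subgroup G) : Set G)) (n : ℕ) (hn : Nat.card P = p ^ n) (χ : G → ℂ) (hχ : Cfsg.IsCharacter G χ) (hfaith : ∀ g : G, χ g = χ 1 → g = 1) (hdeg : Cfsg.charDegree χ ^ 2 + 1 < p ^ n) : (P : Subgroup G).Normal := by
  haveI := Fact.mk hp
  exact aux _ G rfl P hstar (hn ▸ hdeg)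
    (H31.lin_of_faithful hχ hfaith (H31.degree_eq_charDegree hχ) le_rfl)

end Cfsg.Agent.S4485
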