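import Cfsg.Statements.S4486
import Cfsg.Agent.H31.BL2
import Cfsg.Agent.H31.Linear

set_option autoImplicit false
open Cfsg

namespace Cfsg.Agent.S4486

theorem result {G : Type*} [Group G] [Finite G] (p : ℕ) (hp : p.Prime) (hpG : p ∣ Nat.card G) (P : Sylow p G) (hstar : ∀ x ∈ (P : Subgroup G), x ≠ 1 → Subgroup.centralizer ({x} : Set G) = Subgroup.centralizer ((P : Subgroup G) : Set G)) (n : ℕ) (hn : Nat.card P = p ^ n) (χ : Cfsg.IrrCharacter G) (h1 : (χ : G → ℂ) ≠ fun _ => 1) (hdeg : Cfsg.charDegree (χ : G → ℂ) ^ 2 + 1 < p ^ n) : (∃ K : Subgroup G, K.Normal ∧ K ≠ ⊤ ∧ (P : Subgroup G) ≤ K) ∨ ((∃ N : Subgroup G, N.Normal ∧ N.index = p ^ n) ∧ Cfsg.charDegree (χ : G → ℂ) = 1) := by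
  haveI := Fact.mk hp
  haveI := Fintype.ofFinite G
  by_cases hM : ∀ K : Subgroup G, K.Normal → (P : Subgroup G) ≤ K → K = ⊤
  · obtain ⟨h2, h3⟩ := H31.brauer_leonard P hstar χ.2 h1
      (H31.degree_eq_charDegree (H5.isCharacter_of_isIrr χ.2)) (hn ▸ hdeg) hM
    exact Or.inr ⟨⟨_, inferInstance,
      (MonoidHom.ker_transferSylow_isComplement' P h3).symm.index_eq_card.trans hn⟩, h2⟩
  · push Not at hM
    obtain ⟨K, h2, h3, h4⟩ := hM
    exact Or.inl ⟨K, h2, h4, h3⟩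

end Cfsg.Agent.S4486
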