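import Cfsg.Statements.S4487
import Cfsg.Agent.H34.Defect
import Cfsg.Agent.H44.Cores

set_option autoImplicit false
open Cfsg

namespace Cfsg.Agent.S4487

/-- Let G be a finite group and p a prime such that G has no non-trivial normal subgroup of order prime to p and C_G(O_p(G)) ≤ O_p(G). Then G has a single p-block: any two irreducible characters lie in the same block relative to every maximal ideal M of the algebraic integers containing p. -/
theorem result {G : Type*} [Group G] [Finite G] (p : ℕ) [Fact p.Prime] (M : Ideal Cfsg.AlgInt) (hM : Cfsg.IsPModular p M) (hcore : Cfsg.pPrimeCore p G = ⊥) (hconstr : Subgroup.centralizer ((Cfsg.pCore p G) : Set G) ≤ Cfsg.pCore p G) (χ ψ : Cfsg.IrrCharacter G) : Cfsg.SameBlock M (χ : G → ℂ) (ψ : G → ℂ) := by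
  have := hM.2.1
  refine H34.sameBlock_of_regular hM fun g hg => ?_
  by_cases h1 : g = 1
  · subst h1
    simp [centralChar, mul_div_assoc, div_self (H5.degree_ne_zero χ.2), div_self (H5.degree_ne_zero ψ.2)]
  · have key : ∀ φ : IrrCharacter G, centralChar (φ : G → ℂ) g ∈ H32.locMax M := fun φ => by
      by_contra H
      have h2 := hconstr (H34.mem_Ce_of_centralChar_not_mem hM inferInstance H44.pCore_isPGroup φ H)
      obtain ⟨k, hk⟩ := IsPGroup.iff_orderOf.mp (H44.pCore_isPGroup (p := p) (G := G)) ⟨g, h2⟩
      exact h1 (H33.eq_one_of_pElt_of_regular ⟨k, by simpa using hk⟩ hg)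
    exact sub_mem (key χ) (key ψ)

end Cfsg.Agent.S4487
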