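import Cfsg.Statements.S4489
import Cfsg.Agent.H89.PBound

set_option autoImplicit false
open Cfsg

namespace Cfsg.Agent.S4489

set_option linter.style.haveILetI false
open Cfsg.Agent.H5 Cfsg.Agent.H89 Subgroup

/-- Let P be a finite p-group of order p^a with a > 0, and χ a faithful irreducible character of P of degree f whose field of values ℚ(χ) has degree (p − 1)·p^t over ℚ. Then a ≤ (f − 1)/(p − 1) + (t + 1)·f; in integer form, (p − 1)·a ≤ (f − 1) + (p − 1)(t + 1)·f. -/
theorem result {P : Type*} [Group P] [Finite P] (p a : ℕ) (hp : p.Prime) (ha : 0 < a) (hP : Nat.card P = p ^ a) (χ : Cfsg.IrrCharacter P) (hfaith : ∀ g : P, (χ : P → ℂ) g = (χ : P → ℂ) 1 → g = 1) (f t : ℕ) (hf : Cfsg.charDegree (χ : P → ℂ) = f) (hfield : Module.finrank ℚ (IntermediateField.adjoin ℚ (Set.range (χ : P → ℂ))) = (p - 1) * p ^ t) : (p - 1) * a ≤ (f - 1) + (p - 1) * (t + 1) * f := by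
  haveI := Fact.mk hp
  have hPp : IsPGroup p P := IsPGroup.of_card hP
  have hc := isCharacter_of_isIrr χ.2
  have hk : charKer hc = ⊥ := eq_bot_iff.2 fun g hg => hfaith g hg
  have hne : (χ : P → ℂ) ≠ fun _ => 1 := fun h => by
    have : charKer hc = ⊤ := eq_top_iff.2 fun x _ => by rw [mem_charKer, h]
    have h1 := index_top (G := P)
    rw [← this, hk, index_bot, hP] at h1
    exact (Nat.one_lt_pow ha.ne' hp.one_lt).ne' h1
  obtain ⟨s, hs, hb⟩ := pbound hp hPp χ.2 hne
  rw [finrank_adjoin_range_eq_gd fun x => (isIntegral_apply hc x).tower_top, hs] at hfield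
  obtain rfl := Nat.pow_right_injective hp.two_le
    (Nat.eq_of_mul_eq_mul_left (Nat.sub_pos_of_lt hp.one_lt) hfield)
  have h2 := hb a (by rw [hk, index_bot, hP])
  have h3 := H88.charDegree_pos χ.2
  rw [hf] at h2 h3
  omega

end Cfsg.Agent.S4489
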