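import Cfsg.Statements.S4490
import Cfsg.Agent.H33.Princ
import Cfsg.Agent.S0908

set_option autoImplicit false
open Cfsg

namespace Cfsg.Agent.S4490

/-- Let G be a finite group and M a maximal ideal of the algebraic integers containing 2. Every 2-block B of G whose defect groups are the Sylow 2-subgroups of G (a block of full defect) and which is not the principal block is different from its complex-conjugate block, the block formed by the complex conjugates of the members of B. -/
theorem result {G : Type*} [Group G] [Finite G] (M : Ideal Cfsg.AlgInt) (hM : Cfsg.IsPModular 2 M) (B : Set (Cfsg.IrrCharacter G)) (hB : Cfsg.IsPBlock M B) (P : Sylow 2 G) (hfull : Cfsg.IsDefectGroup 2 M B (P : Subgroup G)) (hnp : B ≠ Cfsg.principalBlock M G) : {ψ : Cfsg.IrrCharacter G | ∃ χ ∈ B, (ψ : G → ℂ) = fun g => (starRingEnd ℂ) ((χ : G → ℂ) g)} ≠ B := by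
  intro hreal
  have := hM.2.1
  have := Fintype.ofFinite G
  have : Fact (Nat.Prime 2) := ⟨Nat.prime_two⟩
  obtain ⟨χ, hχ, h0⟩ := H33.exists_minVal_eq (p := 2) (H33.block_nonempty hB)
  have h1 := H33.blockDefect_add_minVal (p := 2) (H33.block_nonempty hB)
  have hdef : blockDefect 2 B = (Nat.card G).factorization 2 := by
    have := S0908.result 2 M hM B hB _ hfull
    rw [Sylow.card_eq_multiplicity] at this
    exact (Nat.pow_right_injective le_rfl this).symm
  have hodd : ¬ 2 ∣ charDegree (χ : G → ℂ) := by
    intro h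
    have := (Nat.prime_two.dvd_iff_one_le_factorization (H33.charDegree_ne_zero χ)).1 h
    omega
  have hψ : (⟨_, H5.isIrrCharacter_conj χ.2⟩ : IrrCharacter G) ∈ B := by
    rw [← hreal]; exact ⟨χ, hχ, rfl⟩
  refine hnp (H33.block_eq_of_mem hB H33.isPBlock_principalBlock hχ
    (H33.mem_principalBlock_of_two hM P.isPGroup' χ hodd fun g hg hgP => ?_))
  have h2 := H33.div_sub_div_mem_of_sameBlock hM (H33.sameBlock_of_mem hB hψ hχ)
    (H33.not_dvd_index_centralizer P hgP)
  simp only [← H5.isIrr_apply_inv χ.2, inv_one] at h2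
  have h3 := H32.mul_mem_locMax_left (H33.irr_mem_locRing χ 1) h2
  have h4 := H5.degree_ne_zero χ.2
  convert h3 using 1
  field_simp

end Cfsg.Agent.S4490
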