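import Cfsg.Statements.S4492
import Cfsg.Agent.H34.FongP

set_option autoImplicit false
open Cfsg

namespace Cfsg.Agent.S4492

/-- Let G be a finite p-solvable group, N = O_{p'}(G) its largest normal subgroup of order prime to p, and θ an irreducible character of N invariant under conjugation by G; fix a maximal ideal M of the algebraic integers containing p. Then the irreducible characters of G lying over θ (those whose restriction to N contains θ) form a single p-block of G, and the defect groups of that block are exactly the Sylow p-subgroups of G. -/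
theorem result {G : Type*} [Group G] [Fintype G] (p : ℕ) [Fact p.Prime] (M : Ideal Cfsg.AlgInt) (hM : Cfsg.IsPModular p M) (hsolv : Cfsg.IsPSolvable p G) (N : Subgroup G) [hN : N.Normal] [Fintype N] (hNdef : N = Cfsg.pPrimeCore p G) (θ : Cfsg.IrrCharacter N) (hinv : ∀ (g : G) (n : N), (θ : N → ℂ) ⟨g * n * g⁻¹, hN.conj_mem n n.2 g⟩ = (θ : N → ℂ) n) : ∃ B : Set (Cfsg.IrrCharacter G), Cfsg.IsPBlock M B ∧ (∀ χ : Cfsg.IrrCharacter G, χ ∈ B ↔ Cfsg.classInner (fun n : N => (χ : G → ℂ) n) (θ : N → ℂ) ≠ 0) ∧ (∀ P : Sylow p G, Cfsg.IsDefectGroup p M B (P : Subgroup G)) ∧ ∀ D : Subgroup G, Cfsg.IsDefectGroup p M B D → ∃ P : Sylow p G, D = (P : Subgroup G) := by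
  have := hM.2.1
  subst hNdef
  have hN' : ¬ p ∣ Nat.card (pPrimeCore p G) :=
    (Nat.Prime.coprime_iff_not_dvd hM.1).mp (H22.coprime_card_pPrimeCore (p := p) (G := G)).symm
  have hi : (H34.NEmb.ofNormal (pPrimeCore p G)).Inv {θ} := by
    rintro g _ rfl
    refine Subtype.ext (funext fun n => ?_)
    rw [H34.NEmb.act_apply, H34.NEmb.ofNormal_cj]
    exact hinv g n
  have hB := H34.isPBlock_overSet_of_isCharP hM hN' hi (QuotientGroup.mk'_surjective (pPrimeCore p G))
    (by rw [QuotientGroup.ker_mk']; exact (Subgroup.range_subtype _).symm)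
    (H22.IsPSolvable.isCharP_quotient hsolv)
  have hd := (H34.full_defect_overSet hM hN' hi hB).ge
  refine ⟨_, hB, fun χ => ⟨?_, fun h => ⟨θ, rfl, h⟩⟩, fun P => ?_, fun D hD => ?_⟩
  · rintro ⟨_, rfl, h⟩
    exact h
  · exact H34.isDefectGroup_of_sylIn_top hM hB hd (H87.sylIn_top_iff.mpr ⟨P, rfl⟩)
  · obtain ⟨P, hP⟩ := H87.sylIn_top_iff.mp (H34.sylIn_top_of_isDefectGroup hM hB hd hD)
    exact ⟨P, hP.symm⟩

end Cfsg.Agent.S4492
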