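import Cfsg.Statements.S4493
import Cfsg.Agent.H88.ItoP

set_option autoImplicit false
open Cfsg

namespace Cfsg.Agent.S4493

open Cfsg.Agent.H5 Cfsg.Agent.H6 Cfsg.Agent.H88

/-- Let G be a finite solvable group and p a prime. Then G has a normal abelian Sylow p-subgroup if and only if no irreducible character degree of G is divisible by p. -/
theorem result {G : Type*} [Group G] [Finite G] (hsolv : Group.IsSolvable G) (p : ℕ) (hp : p.Prime) : (∃ P : Subgroup G, P.Normal ∧ (∀ x ∈ P, ∀ y ∈ P, x * y = y * x) ∧ IsPGroup p P ∧ ¬ p ∣ P.index) ↔ ∀ χ : Cfsg.IrrCharacter G, ¬ p ∣ Cfsg.charDegree (χ : G → ℂ) := by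
  have := Fact.mk hp
  constructor
  · rintro ⟨P, h1, h2, -, h3⟩ χ hd
    exact h3 (hd.trans (charDegree_dvd_index_of_comm χ.2 _ h2))
  · intro h
    obtain ⟨P⟩ : Nonempty (Sylow p G) := inferInstance
    have h1 := sylow_normal_of_not_dvd H22.isPSolvable_of_isSolvable (fun χ hχ => h ⟨χ, hχ⟩) P
    exact ⟨P, h1, comm_of_normal_of_not_dvd P.isPGroup' (fun χ hχ => h ⟨χ, hχ⟩), P.isPGroup',
      P.not_dvd_index⟩

end Cfsg.Agent.S4493
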