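import Cfsg.Statements.S4495
import Cfsg.Agent.H85.SelfCent

set_option autoImplicit false
open Cfsg

namespace Cfsg.Agent.S4495

open Subgroup

/-- Let the finite group G contain an element x of prime order p with C_G(x) = ⟨x⟩, and let t be the number of conjugacy classes of elements of order p. If t ≠ p − 1 then the commutator subgroup has index at most (p − 1)/t; if t = p − 1 it has index exactly p. -/
theorem result {G : Type*} [Group G] [Finite G] (p : ℕ) (hp : p.Prime) (x : G) (hx : orderOf x = p) (hC : Subgroup.centralizer ({x} : Set G) = Subgroup.zpowers x) (t : ℕ) (ht : Nat.card {C : ConjClasses G // ∃ g ∈ C.carrier, orderOf g = p} = t) : (t ≠ p - 1 → (commutator G).index * t ≤ p - 1) ∧ (t = p - 1 → (commutator G).index = p) := by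
  have h : H85.SC p x := ⟨hp, hx, hC⟩
  subst ht
  refine ⟨fun ht => ?_, fun ht => (h.of_not_mem (h.classes_eq_iff.mp ht)).2⟩
  have hx' : x ∈ commutator G := by_contra fun hx' => ht (h.classes_eq_iff.mpr hx')
  have h1 : (commutator G).index ∣
      (zpowers x).relIndex (normalizer ((zpowers x : Subgroup G) : Set G)) := by
    rw [← relIndex_top_right, ← h.sup_normalizer _ hx', relIndex_sup_right]
    exact relIndex_dvd_of_le_left _ (zpowers_le.mpr hx')
  rw [← h.classes_mul, mul_comm]
  exact Nat.mul_le_mul_left _ (Nat.le_of_dvd (Nat.pos_of_ne_zero index_ne_zero_of_finite) h1)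

end Cfsg.Agent.S4495
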