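import Cfsg.Statements.S4496
import Cfsg.Agent.H85.SelfCent

set_option autoImplicit false
open Cfsg

namespace Cfsg.Agent.S4496

open Subgroup

/-- Let the finite group G contain an element x of prime order p with C_G(x) = ⟨x⟩. Then: (a) every normal subgroup of order divisible by p contains the commutator subgroup; (b) every normal subgroup S of order prime to p has order dividing the number of subgroups of order p of G and congruent to 1 modulo p, and in G/S the image of x again has prime order p and commutes only with its own powers. -/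
theorem result {G : Type*} [Group G] [Finite G] (p : ℕ) (hp : p.Prime) (x : G) (hx : orderOf x = p) (hC : Subgroup.centralizer ({x} : Set G) = Subgroup.zpowers x) (S : Subgroup G) [S.Normal] : (p ∣ Nat.card S → commutator G ≤ S) ∧ (¬ p ∣ Nat.card S → Nat.card S ∣ Nat.card {H : Subgroup G // Nat.card H = p} ∧ Nat.card S % p = 1 ∧ orderOf (QuotientGroup.mk x : G ⧸ S) = p ∧ Subgroup.centralizer ({(QuotientGroup.mk x : G ⧸ S)} : Set (G ⧸ S)) = Subgroup.zpowers (QuotientGroup.mk x : G ⧸ S)) := by
  have h : H85.SC p x := ⟨hp, hx, hC⟩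
  have := Fact.mk hp
  refine ⟨fun hd => h.commutator_le S ((h.mem_iff_dvd S).mpr hd), fun hd => ?_⟩
  have hxS : x ∉ S := mt (h.mem_iff_dvd S).mp hd
  refine ⟨?_, ?_, (h.quotient S hxS).ord, (h.quotient S hxS).cent⟩
  · rw [h.card_subgroups, ← relIndex_bot_left, ← h.normalizer_inf_eq_bot S hxS, inf_relIndex_right]
    exact H3.relIndex_dvd_index_of_normal_right _ _
  · let _ : MulAction (zpowers x) S := MulAction.compHom S
      ((MulAut.conjNormal (H := S)).comp (zpowers x).subtype)
    have hp' : IsPGroup p (zpowers x) := IsPGroup.of_card (n := 1) (by rw [h.card_zpowers, pow_one])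
    have h1 := hp'.card_modEq_card_fixedPoints S
    have h2 : MulAction.fixedPoints (zpowers x) S = {1} := by
      ext s
      rw [Set.mem_singleton_iff, MulAction.mem_fixedPoints]
      refine ⟨fun hs => ?_, by rintro rfl m; exact map_one (MulAut.conjNormal (H := S) (m : G))⟩
      have h3 : x * s * x⁻¹ = s := congrArg Subtype.val (hs ⟨x, mem_zpowers x⟩)
      have h4 : (s : G) ∈ zpowers x ⊓ S :=
        ⟨hC ▸ mem_centralizer_singleton_iff.mpr (mul_inv_eq_iff_eq_mul.mp h3).symm, s.2⟩
      rw [h.inf_eq_bot hxS, mem_bot] at h4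
      exact Subtype.ext h4
    rw [h2, Nat.card_unique (α := ({1} : Set S))] at h1
    exact Eq.trans h1 (Nat.mod_eq_of_lt hp.one_lt)

end Cfsg.Agent.S4496
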