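import Cfsg.Statements.S4497
import Cfsg.Agent.H85.SelfCent

set_option autoImplicit false
open Cfsg

namespace Cfsg.Agent.S4497

open Subgroup

/-- Let the finite group G contain an element x of prime order p with C_G(x) = ⟨x⟩, let t be the number of conjugacy classes of elements of order p, and let S* = O_{p′}(G) be the largest normal subgroup of order prime to p. Then S* ≤ G′; if t ≠ p − 1 the quotient G′/S* is simple (in particular non-trivial); if t = p − 1 then G′ = S*. -/
theorem result {G : Type*} [Group G] [Finite G] (p : ℕ) (hp : p.Prime) (x : G) (hx : orderOf x = p) (hC : Subgroup.centralizer ({x} : Set G) = Subgroup.zpowers x) (t : ℕ) (ht : Nat.card {C : ConjClasses G // ∃ g ∈ C.carrier, orderOf g = p} = t) : Cfsg.pPrimeCore p G ≤ commutator G ∧ (t ≠ p - 1 → ∀ h : ((Cfsg.pPrimeCore p G).subgroupOf (commutator G)).Normal, IsSimpleGroup (↥(commutator G) ⧸ (Cfsg.pPrimeCore p G).subgroupOf (commutator G))) ∧ (t = p - 1 → commutator G = Cfsg.pPrimeCore p G) := by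
  have h : H85.SC p x := ⟨hp, hx, hC⟩
  have := Fact.mk hp
  subst ht
  refine ⟨h.le_commutator _ h.not_mem_pPrimeCore, fun ht hn => ?_,
    fun ht => (h.of_not_mem (h.classes_eq_iff.mp ht)).1⟩
  have hx' : x ∈ commutator G := by_contra fun hx' => ht (h.classes_eq_iff.mpr hx')
  have h' := h.subgroup hx'
  set S := (pPrimeCore p G).subgroupOf (commutator G) with hS
  have hS' : pPrimeCore p (commutator G) = S := H22.pPrimeCore_of_normal _
  have hxS : (⟨x, hx'⟩ : commutator G) ∉ S := h.not_mem_pPrimeCore
  have : Nontrivial (commutator G ⧸ S) :=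
    ⟨⟨_, 1, mt (QuotientGroup.eq_one_iff _).mp hxS⟩⟩
  refine ⟨fun M hM => ?_⟩
  have hf := QuotientGroup.mk'_surjective S
  by_cases hxM : (⟨x, hx'⟩ : commutator G) ∈ M.comap (QuotientGroup.mk' S)
  · right
    suffices M.comap (QuotientGroup.mk' S) = ⊤ by
      rw [← map_comap_eq_self_of_surjective hf M, this, map_top_of_surjective _ hf]
    have h1 := h'.commutator_le _ hxM
    by_cases h2 : (⟨x, hx'⟩ : commutator G) ∈ commutator (commutator G)
    · have h3 : x ∈ ⁅commutator G, commutator G⁆ := by
        rw [← map_subtype_commutator]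
        exact ⟨_, h2, rfl⟩
      have h4 := h.commutator_le _ h3
      rw [eq_top_iff]
      intro g _
      have h5 := h4 g.2
      rw [← map_subtype_commutator] at h5
      obtain ⟨y, hy, hyg⟩ := h5
      exact h1 ((Subtype.ext hyg : y = g) ▸ hy)
    · have h3 := index_dvd_of_le h1
      rw [(h'.of_not_mem h2).2, Nat.dvd_prime hp] at h3
      rcases h3 with h3 | h3
      · exact index_eq_one.mp h3
      · exfalso
        apply h'.not_sq
        rw [← (M.comap (QuotientGroup.mk' S)).card_mul_index, h3, pow_two]
        exact Nat.mul_dvd_mul_right ((h'.mem_iff_dvd _).mp hxM) _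
  · left
    have h1 : M.comap (QuotientGroup.mk' S) ≤ S := by
      refine le_trans (H22.le_pPrimeCore inferInstance ?_) hS'.le
      rwa [Nat.coprime_comm, Nat.Prime.coprime_iff_not_dvd hp, ← h'.mem_iff_dvd]
    rw [← map_comap_eq_self_of_surjective hf M, Subgroup.map_eq_bot_iff, QuotientGroup.ker_mk']
    exact h1

end Cfsg.Agent.S4497
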