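import Cfsg.Statements.S4498
import Cfsg.Agent.H33.Princ

set_option autoImplicit false
open Cfsg

namespace Cfsg.Agent.S4498

/-- Let p and q be distinct primes dividing the order of the finite group G, and suppose G has no element of order p·q. Fix maximal ideals M_p over p and M_q over q of the algebraic integers. Then the principal p-block and the principal q-block of G have a non-principal irreducible character in common. -/
theorem result {G : Type*} [Group G] [Finite G] (p q : ℕ) [Fact p.Prime] [Fact q.Prime] (hpq : p ≠ q) (hp : p ∣ Nat.card G) (hq : q ∣ Nat.card G) (hno : ∀ g : G, orderOf g ≠ p * q) (Mp Mq : Ideal Cfsg.AlgInt) (hMp : Cfsg.IsPModular p Mp) (hMq : Cfsg.IsPModular q Mq) : ∃ χ : Cfsg.IrrCharacter G, (χ : G → ℂ) ≠ (fun _ => 1) ∧ χ ∈ Cfsg.principalBlock Mp G ∧ χ ∈ Cfsg.principalBlock Mq G := by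
  classical
  have := Fintype.ofFinite G
  have i1 := hMp.2.1
  have i2 := hMq.2.1
  have hpp : p.Prime := Fact.out
  have hqq : q.Prime := Fact.out
  by_contra! hcon
  have hG : (Nat.card G : ℂ) ≠ 0 := H5.natCard_ne_zero
  -- the inner product of the two indicator functions
  have h1 : classInner (H33.rInd p : G → ℂ) (H33.rInd q) =
      ((Nat.card G : ℂ)⁻¹ * ∑ g : G, H33.rInd p g) * ((Nat.card G : ℂ)⁻¹ * ∑ g : G, H33.rInd q g) := by
    rw [H5.classInner_eq_sum_irr H33.rInd_isClassFunction,
      Finset.sum_eq_single (H33.oneIrr G)]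
    · have hc := H5.isCharacter_of_isIrr (H33.oneIrr G).2
      rw [← H5.conj_classInner (H33.rInd q), H33.classInner_rInd hc, H33.classInner_rInd hc]
      simp [H33.regSum, H33.conj_rInd, H33.oneIrr_apply]
    · intro χ _ hχ
      have hχc := H5.isCharacter_of_isIrr χ.2
      rw [← H5.conj_classInner (H33.rInd q), H33.classInner_rInd hχc, H33.classInner_rInd hχc]
      by_cases h : χ ∈ principalBlock Mp G
      · rw [H33.regSum_eq_zero hMq (hcon χ (fun h => hχ (Subtype.ext h)) h)]; simp
      · rw [H33.regSum_eq_zero hMp h]; simp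
    · simp
  have h2 : ∀ g : G, H33.rInd p g * H33.rInd q g = H33.rInd p g + H33.rInd q g - 1 := by
    intro g
    by_cases h : p ∣ orderOf g
    · have h' : ¬ q ∣ orderOf g := by
        intro h'
        have h3 : p * q ∣ orderOf g :=
          Nat.Coprime.mul_dvd_of_dvd_of_dvd ((Nat.coprime_primes hpp hqq).2 hpq) h h'
        exact hno (g ^ (orderOf g / (p * q))) (orderOf_pow_orderOf_div (orderOf_pos g).ne' h3)
      rw [H33.rInd_of_singular h, H33.rInd_of_regular h']; simp
    · rw [H33.rInd_of_regular h]; simp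
  have h3 : ((Nat.card G : ℂ) - ∑ g : G, H33.rInd p g) *
      ((Nat.card G : ℂ) - ∑ g : G, H33.rInd q g) = 0 := by
    simp only [classInner, H33.conj_rInd, h2, Finset.sum_sub_distrib, Finset.sum_add_distrib,
      Finset.sum_const, Finset.card_univ, ← Nat.card_eq_fintype_card, nsmul_eq_mul, mul_one] at h1
    field_simp at h1
    linear_combination -h1
  have key : ∀ r : ℕ, r.Prime → r ∣ Nat.card G →
      (Nat.card G : ℂ) - ∑ g : G, H33.rInd r g ≠ 0 := by
    intro r hr hrG h
    have := Fact.mk hr
    obtain ⟨x, hx⟩ := exists_prime_orderOf_dvd_card' r hrG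
    have h4 : ∑ g : G, (H33.rInd r g : ℂ) = (Nat.card {y : G // ¬ r ∣ orderOf y} : ℂ) := by
      rw [← H33.regSum_one]; simp [H33.regSum]
    rw [h4, sub_eq_zero, Nat.cast_inj] at h
    have h5 : Nat.card {y : G // ¬ r ∣ orderOf y} < Nat.card G :=
      Finite.card_subtype_lt (x := x) (by rw [hx]; simp)
    omega
  exact mul_ne_zero (key p hpp hp) (key q hqq hq) h3

end Cfsg.Agent.S4498
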