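import Cfsg.Statements.S4500
import Cfsg.Agent.H33.Gal
import Cfsg.Agent.H86.AMat
import Cfsg.Agent.H5.Burnside

set_option autoImplicit false
open Cfsg

namespace Cfsg.Agent.S4500

theorem aux {G : Type*} [Group G] [Finite G] [Nontrivial G] (p q r a b c : ℕ) (hp : p.Prime)
    (hq : q.Prime) (hr : r.Prime) (ha : a ≤ 2) (hpq : p ≠ q) (hpr : p ≠ r)
    (hG : Nat.card G = p ^ a * q ^ b * r ^ c) :
    ∃ χ : IrrCharacter G, (χ : G → ℂ) ≠ (fun _ => 1) ∧
      ∃ k : ℕ, charDegree (χ : G → ℂ) = q ^ k := by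
  classical
  have := Fintype.ofFinite G
  rcases Nat.eq_zero_or_pos a with h0 | h0
  · have hs : Group.IsSolvable G := H5.isSolvable_of_card_dvd_prime_pow_mul hq hr
      (a := b) (b := c) (by rw [hG, h0, pow_zero, one_mul])
    have h1 : commutator G ≠ ⊤ := (Group.IsSolvable.commutator_lt_top_of_nontrivial G).ne
    have h2 : 1 < Nat.card (G →* ℂˣ) := by
      rw [H5.card_monoidHom_eq_index_commutator]
      exact Subgroup.one_lt_index_of_ne_top h1
    have := Finite.one_lt_card_iff_nontrivial.1 h2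
    obtain ⟨μ, hμ⟩ := exists_ne (1 : G →* ℂˣ)
    refine ⟨⟨_, H5.isIrrCharacter_monoidHom μ⟩, fun h => hμ (MonoidHom.ext fun g => ?_), 0, ?_⟩
    · exact Units.ext (congrFun h g)
    · simp [charDegree]
  obtain ⟨M, hM⟩ := H86.exists_isPModular hp
  obtain ⟨M', hM'⟩ := H86.exists_isPModular hr
  have i1 := hM.2.1
  have i2 := hM'.2.1
  have := Fact.mk hp
  have hfac : (Nat.card G).factorization p = a := by
    rw [hG, Nat.factorization_mul (mul_ne_zero (pow_ne_zero _ hp.ne_zero)
      (pow_ne_zero _ hq.ne_zero)) (pow_ne_zero _ hr.ne_zero), Nat.factorization_mul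
      (pow_ne_zero _ hp.ne_zero) (pow_ne_zero _ hq.ne_zero)]
    simp [hp.factorization, hq.factorization, hr.factorization, hpq.symm, hpr.symm]
  obtain ⟨x, hx⟩ := exists_prime_orderOf_dvd_card' (G := G) p
    (hG ▸ Dvd.dvd.mul_right (Dvd.dvd.mul_right (dvd_pow_self p h0.ne') _) _)
  have h1 := H33.sum_degree_mul_eq_zero_of_blockCoeff (A := principalBlock M G)
      (H33.blockCoeff_eq_zero_of_singular hM H33.isPBlock_principalBlock
        (g := x⁻¹) (by rw [orderOf_inv, hx]))
  by_contra! hcon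
  rw [← Finset.add_sum_erase _ _ (a := H33.oneIrr G)
    (Finset.mem_filter.2 ⟨Finset.mem_univ _, H33.oneIrr_mem_principalBlock⟩),
    H33.oneIrr_apply, H33.oneIrr_apply, one_mul, add_eq_zero_iff_eq_neg] at h1
  refine H32.one_not_mem_locMax (M := M') (h1 ▸ neg_mem ((H32.locMax M').sum_mem fun χ hχ => ?_))
  rw [Finset.mem_erase, Finset.mem_filter] at hχ
  refine H32.mul_mem_locMax_right ?_ (H33.irr_mem_locRing χ x)
  rw [← H33.irr_charDegree_cast, H32.natCast_mem_locMax_iff hM']
  by_contra hrd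
  have hmin : H33.minVal p (principalBlock M G) = 0 := by
    have := H33.minVal_le (p := p) (H33.oneIrr_mem_principalBlock (M := M) (G := G))
    rw [show charDegree (H33.oneIrr G : G → ℂ) = 1 from H33.charDegree_one] at this
    simpa using this
  have hpd : ¬ p ∣ charDegree (χ : G → ℂ) := by
    intro h
    have h2 := (hp.dvd_iff_one_le_factorization (H33.charDegree_ne_zero χ)).1 h
    have h3 := H86.height_add_two_le hM H33.isPBlock_principalBlock hχ.2.2
      (by rw [H33.blockHeight_eq]; omega)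
    rw [H33.blockHeight_eq, H33.blockDefect_eq] at h3
    omega
  have h4 : charDegree (χ : G → ℂ) ∣ q ^ b := by
    have h5 := H33.charDegree_dvd_card χ
    rw [hG] at h5
    exact (Nat.Coprime.pow_right a ((Nat.Prime.coprime_iff_not_dvd hp).2 hpd).symm).dvd_of_dvd_mul_left
      ((Nat.Coprime.pow_right c ((Nat.Prime.coprime_iff_not_dvd hr).2 hrd).symm).dvd_of_dvd_mul_right h5)
  obtain ⟨k, -, hk⟩ := (Nat.dvd_prime_pow hq).1 h4
  exact hcon χ (fun h => hχ.1 (Subtype.ext h)) k hk


/-- Let G be a non-trivial finite group of order p^a · q^b · r^c with p, q, r distinct primes and a ≤ 2. Then G has a non-principal irreducible character whose degree is a power of q, and a non-principal irreducible character whose degree is a power of r; the power may be the zeroth, so a non-principal linear character serves for both. -/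
theorem result {G : Type*} [Group G] [Finite G] [Nontrivial G] (p q r a b c : ℕ) (hp : p.Prime) (hq : q.Prime) (hr : r.Prime) (hpq : p ≠ q) (hpr : p ≠ r) (hqr : q ≠ r) (ha : a ≤ 2) (hG : Nat.card G = p ^ a * q ^ b * r ^ c) : (∃ χ : Cfsg.IrrCharacter G, (χ : G → ℂ) ≠ (fun _ => 1) ∧ ∃ k : ℕ, Cfsg.charDegree (χ : G → ℂ) = q ^ k) ∧ ∃ χ : Cfsg.IrrCharacter G, (χ : G → ℂ) ≠ (fun _ => 1) ∧ ∃ k : ℕ, Cfsg.charDegree (χ : G → ℂ) = r ^ k := by
  exact ⟨aux p q r a b c hp hq hr ha hpq hpr hG,
    aux p r q a c b hp hr hq ha hpr hpq (by rw [hG]; ring)⟩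

end Cfsg.Agent.S4500
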