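import Cfsg.Statements.S4501
import Cfsg.Agent.H34.SimpleTri
import Cfsg.Agent.H35.SmallOrd
import Cfsg.Agent.S0494
import Cfsg.Agent.S0495
import Cfsg.Agent.S0948
import Cfsg.Agent.S4479
import Cfsg.Agent.S3968
import Cfsg.Agent.H5.Burnside

set_option autoImplicit false
open Cfsg

namespace Cfsg.Agent.S4501

theorem eq_two_of_prime_dvd {z : ℤ} (h4 : z % 4 = 2) (h : ∀ r : ℕ, r.Prime → (r : ℤ) ∣ z → r = 2) :
    z = 2 ∨ z = -2 := by
  obtain ⟨w, rfl⟩ : 2 ∣ z := by omega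
  have : w.natAbs = 1 := by
    by_contra h1
    obtain ⟨r, hr, hd⟩ := Nat.exists_prime_and_dvd h1
    have h2 : (r : ℤ) ∣ w := Int.natCast_dvd.2 hd
    obtain rfl := h r hr (h2.mul_left 2)
    omega
  omega

theorem eq_pow_of_not_dvd {p q a b x : ℕ} (hp : p.Prime) (hq : q.Prime) (hx : x ∣ p ^ a * q ^ b)
    (h : ¬ q ∣ x) : ∃ i ≤ a, x = p ^ i :=
  (Nat.dvd_prime_pow hp).1 ((Nat.Coprime.pow_right b
    ((Nat.Prime.coprime_iff_not_dvd hq).2 h).symm).dvd_of_dvd_mul_right hx)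

theorem arith {p q a b : ℕ} (hp : p.Prime) (hq : q.Prime) (hpq : p ≠ q) (hp2 : p ≠ 2) (ha : a ≤ 2)
    {x₁ x₂ x₃ : ℕ} {y₁ y₂ y₃ : ℤ} (e₁ : y₁.natAbs = x₁) (e₂ : y₂.natAbs = x₂)
    (e₃ : y₃.natAbs = x₃) (hs : 1 + y₁ + y₂ + y₃ = 0) (m₁ : y₁ % 4 = 1) (m₂ : y₂ % 4 = 1)
    (m₃ : y₃ % 4 = 1) (n₁ : x₁ ≠ 1) (n₂ : x₂ ≠ 1) (n₃ : x₃ ≠ 1)
    (d₁ : x₁ ∣ p ^ a * q ^ b) (d₂ : x₂ ∣ p ^ a * q ^ b) (d₃ : x₃ ∣ p ^ a * q ^ b)
    (h₁ : ¬ q ∣ x₁) (h₂ : ¬ p ∣ x₂)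
    (H : ∀ r : ℕ, r.Prime → (r : ℤ) ∣ (y₁ + 1) * (y₂ + 1) * (y₃ + 1) → r = 2 ∨ r = p ∨ r = q)
    (P : ∀ x, x = x₁ ∨ x = x₂ ∨ x = x₃ → x.Prime → ¬ x ^ 2 ∣ p ^ a * q ^ b) :
    p ^ a * q ^ b = 15 := by
  obtain ⟨i, hi, hx₁⟩ := eq_pow_of_not_dvd hp hq d₁ h₁
  obtain ⟨j, hj, hx₂⟩ := eq_pow_of_not_dvd hq hp (mul_comm (p ^ a) _ ▸ d₂) h₂
  have i0 : i ≠ 0 := by rintro rfl; exact n₁ (by simpa using hx₁)
  have j0 : j ≠ 0 := by rintro rfl; exact n₂ (by simpa using hx₂)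
  have py₁ : (p : ℤ) ∣ y₁ := Int.natCast_dvd.2 (by rw [e₁, hx₁]; exact dvd_pow_self p i0)
  have qy₂ : (q : ℤ) ∣ y₂ := Int.natCast_dvd.2 (by rw [e₂, hx₂]; exact dvd_pow_self q j0)
  have qy₁ : ¬ (q : ℤ) ∣ y₁ := fun h => h₁ (e₁ ▸ Int.natCast_dvd.1 h)
  have py₂ : ¬ (p : ℤ) ∣ y₂ := fun h => h₂ (e₂ ▸ Int.natCast_dvd.1 h)
  have h3 : y₃ + 1 = 2 ∨ y₃ + 1 = -2 := eq_two_of_prime_dvd (by omega) fun r hr h => by
    rcases H r hr (h.mul_left _) with e | e | e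
    · exact e
    · subst e
      exact (py₂ (by rw [show y₂ = -(y₃ + 1) - y₁ by omega]; exact h.neg_right.sub py₁)).elim
    · subst e
      exact (qy₁ (by rw [show y₁ = -(y₃ + 1) - y₂ by omega]; exact h.neg_right.sub qy₂)).elim
  obtain rfl : y₃ = -3 := by omega
  obtain rfl : x₃ = 3 := e₃.symm
  have h9 := P 3 (by simp) Nat.prime_three
  have hb : ∀ {r c : ℕ} {n : ℕ}, ¬ r ^ 2 ∣ n → r ^ c ∣ n → c ≤ 1 := fun h h' => by
    by_contra! hc
    exact h ((pow_dvd_pow _ hc).trans h')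
  rcases (Nat.Prime.dvd_mul Nat.prime_three).1 d₃ with h | h
  · obtain rfl : 3 = p :=
      (Nat.prime_dvd_prime_iff_eq Nat.prime_three hp).1 (Nat.prime_three.dvd_of_dvd_pow h)
    have := hb h9 (Dvd.intro _ rfl)
    obtain rfl : a = 1 := by omega
    obtain rfl : i = 1 := by omega
    obtain rfl : y₁ = -3 := by omega
    obtain rfl : y₂ = 5 := by omega
    obtain rfl : x₂ = 5 := e₂.symm
    obtain rfl : q = 5 := by
      have : q ∣ 5 := by exact_mod_cast qy₂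
      exact (Nat.prime_dvd_prime_iff_eq hq (by norm_num)).1 this
    have := hb (P 5 (by simp) (by norm_num)) (Dvd.intro_left _ rfl)
    obtain rfl : b = 1 := by omega
    rfl
  · obtain rfl : 3 = q :=
      (Nat.prime_dvd_prime_iff_eq Nat.prime_three hq).1 (Nat.prime_three.dvd_of_dvd_pow h)
    have := hb h9 (Dvd.intro_left _ rfl)
    obtain rfl : b = 1 := by omega
    have h2 : y₂ + 1 = 2 ∨ y₂ + 1 = -2 := eq_two_of_prime_dvd (by omega) fun r hr h => by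
      rcases H r hr ((h.mul_left _).mul_right _) with e | e | e
      · exact e
      · subst e
        have : (r : ℤ) ∣ 3 := by
          rw [show (3 : ℤ) = (y₂ + 1) + y₁ by omega]; exact h.add py₁
        have : r ∣ 3 := by exact_mod_cast this
        exact (hpq ((Nat.prime_dvd_prime_iff_eq hr Nat.prime_three).1 this)).elim
      · subst e
        exact (qy₁ (by push_cast at h ⊢; omega)).elim
    obtain rfl : y₂ = -3 := by omega
    obtain rfl : y₁ = 5 := by omega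
    obtain rfl : x₁ = 5 := e₁.symm
    obtain rfl : p = 5 := by
      have : p ∣ 5 := by exact_mod_cast py₁
      exact (Nat.prime_dvd_prime_iff_eq hp (by norm_num)).1 this
    have := hb (P 5 (by simp) (by norm_num)) (Dvd.intro _ rfl)
    obtain rfl : a = 1 := by omega
    rfl

theorem arith' {p q a b : ℕ} (hp : p.Prime) (hq : q.Prime) (hpq : p ≠ q) (hp2 : p ≠ 2)
    (ha : a ≤ 2) {x₁ x₂ x₃ : ℕ} {y₁ y₂ y₃ : ℤ} (e₁ : y₁.natAbs = x₁) (e₂ : y₂.natAbs = x₂)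
    (e₃ : y₃.natAbs = x₃) (hs : 1 + y₁ + y₂ + y₃ = 0) (m₁ : y₁ % 4 = 1) (m₂ : y₂ % 4 = 1)
    (m₃ : y₃ % 4 = 1) (n₁ : x₁ ≠ 1) (n₂ : x₂ ≠ 1) (n₃ : x₃ ≠ 1)
    (d₁ : x₁ ∣ p ^ a * q ^ b) (d₂ : x₂ ∣ p ^ a * q ^ b) (d₃ : x₃ ∣ p ^ a * q ^ b)
    (h₁ : ¬ q ∣ x₁)
    (H : ∀ r : ℕ, r.Prime → (r : ℤ) ∣ (y₁ + 1) * (y₂ + 1) * (y₃ + 1) → r = 2 ∨ r = p ∨ r = q)
    (P : ∀ x, x = x₁ ∨ x = x₂ ∨ x = x₃ → x.Prime → ¬ x ^ 2 ∣ p ^ a * q ^ b) :
    p ^ a * q ^ b = 15 := by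
  by_cases h₂ : p ∣ x₂
  swap
  · exact arith hp hq hpq hp2 ha e₁ e₂ e₃ hs m₁ m₂ m₃ n₁ n₂ n₃ d₁ d₂ d₃ h₁ h₂ H P
  by_cases h₃ : p ∣ x₃
  swap
  · exact arith hp hq hpq hp2 ha e₁ e₃ e₂ (by omega) m₁ m₃ m₂ n₁ n₃ n₂ d₁ d₃ d₂ h₁ h₃
      (fun r hr h => H r hr (by rwa [mul_right_comm])) (fun x hx => P x (by tauto))
  obtain ⟨i, hi, hx₁⟩ := eq_pow_of_not_dvd hp hq d₁ h₁
  have i0 : i ≠ 0 := by rintro rfl; exact n₁ (by simpa using hx₁)
  have py₁ : (p : ℤ) ∣ y₁ := Int.natCast_dvd.2 (by rw [e₁, hx₁]; exact dvd_pow_self p i0)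
  have py₂ : (p : ℤ) ∣ y₂ := Int.natCast_dvd.2 (e₂ ▸ h₂)
  have py₃ : (p : ℤ) ∣ y₃ := Int.natCast_dvd.2 (e₃ ▸ h₃)
  have : (p : ℤ) ∣ 1 := by
    rw [show (1 : ℤ) = -(y₁ + y₂ + y₃) by omega]; exact ((py₁.add py₂).add py₃).neg_right
  exact (hp.one_lt.ne' (by exact_mod_cast Int.eq_one_of_dvd_one (by positivity) this)).elim

theorem four {G : Type*} [Group G] [Finite G] [IsSimpleGroup G] (hs : ¬ Group.IsSolvable G)
    {p q a b : ℕ} (hp : p.Prime) (hq : q.Prime) (hpq : p ≠ q) (ha : a ≤ 2)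
    (h : Nat.card G = 4 * p ^ a * q ^ b) : Nat.card G = 60 := by
  classical
  have hp2 : p ≠ 2 := by
    rintro rfl
    exact hs (H5.isSolvable_of_card_dvd_prime_pow_mul hp hq (a := a + 2) (b := b)
      (by rw [h]; exact ⟨1, by ring⟩))
  have hq2 : q ≠ 2 := by
    rintro rfl
    exact hs (H5.isSolvable_of_card_dvd_prime_pow_mul hp hq (a := a) (b := b + 2)
      (by rw [h]; exact ⟨1, by ring⟩))
  have hodd : Odd (p ^ a * q ^ b) := (hp.odd_of_ne_two hp2).pow.mul (hq.odd_of_ne_two hq2).pow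
  have hG : Nat.card G = 4 * (p ^ a * q ^ b) := by rw [h, mul_assoc]
  obtain ⟨hperf, hZ⟩ := H35.simple_perfect (G := G) (by
    rw [hG, show 4 * (p ^ a * q ^ b) = 2 * (2 * (p ^ a * q ^ b)) by ring]
    exact Nat.not_prime_mul (by norm_num) (by omega))
  have hnc : ¬ ∃ N : Subgroup G, N.Normal ∧ Nat.card N = p ^ a * q ^ b := by
    rintro ⟨N, hN, hc⟩
    rcases hN.eq_bot_or_eq_top with e | e
    · rw [e, Subgroup.card_bot] at hc
      exact hs (H5.isSolvable_of_card_dvd_prime_pow_mul Nat.prime_two hq (a := 2) (b := 0)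
        (by rw [hG, ← hc]; norm_num))
    · rw [e, Subgroup.card_top, hG] at hc
      have := hodd.pos
      omega
  obtain ⟨M, hM⟩ := H86.exists_isPModular Nat.prime_two
  have := Fact.mk Nat.prime_two
  obtain ⟨T⟩ : Nonempty (Sylow 2 G) := inferInstance
  obtain ⟨hK, -, hconj⟩ := H34.klein_setup (P := T) hodd hG hnc
  have hone : ∀ s t : G, orderOf s = 2 → orderOf t = 2 → IsConj s t := fun s t hs ht => by
    obtain ⟨x, hx⟩ := H34.exists_conj_mem_sylow' T (x := s) ⟨1, hs⟩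
    obtain ⟨y, hy⟩ := H34.exists_conj_mem_sylow' T (x := t) ⟨1, ht⟩
    have o1 : orderOf (x * s * x⁻¹) = 2 := by
      rw [← hs]; simpa using (MulAut.conj x).orderOf_eq s
    have o2 : orderOf (y * t * y⁻¹) = 2 := by
      rw [← ht]; simpa using (MulAut.conj y).orderOf_eq t
    exact ((isConj_iff.2 ⟨x, rfl⟩).trans (hconj _ hx _ hy o1 o2)).trans
      (isConj_iff.2 ⟨y, rfl⟩).symm
  obtain ⟨ζ₂, ζ₃, ζ₄, ε, hε, n2, n3, h23, h24, h34, hB, hval, c2, c3, c4, -⟩ :=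
    S0948.result M hM T hK hone
  obtain ⟨J, hJ2⟩ := exists_prime_orderOf_dvd_card' (G := T) 2 (by rw [hK.card_four]; norm_num)
  rw [← Subgroup.orderOf_coe] at hJ2
  obtain ⟨v2, v3, v4⟩ := hval J hJ2
  have n4 : (ζ₄ : G → ℂ) ≠ fun _ => 1 := fun e => by rw [e] at v4; norm_num at v4
  have hv : (ζ₂ : G → ℂ) J = (1 : ℤ) ∧ (ζ₃ : G → ℂ) J = ε ∧ (ζ₄ : G → ℂ) J = (-1 : ℤ) :=
    ⟨by simpa using v2, v3, by simpa using v4⟩
  have e1 := S4479.result M hM _ hodd hG hnc T J J.2 hJ2 ζ₂ ζ₃ ζ₄ 1 ε (-1) hB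
    ⟨n2, n3, n4, h23, h24, h34⟩ ⟨Or.inl rfl, hε, Or.inr rfl⟩ hv
  have e2 := S4479.degree_eq hM hJ2 hB ⟨n2, n3, n4, h23, h24, h34⟩ hv
  have hdeg : ∀ χ : IrrCharacter G, (χ : G → ℂ) ≠ (fun _ => 1) → Odd (charDegree (χ : G → ℂ)) →
      2 ≤ charDegree (χ : G → ℂ) ∧ charDegree (χ : G → ℂ) ∣ p ^ a * q ^ b ∧
      ((charDegree (χ : G → ℂ)).Prime → ¬ charDegree (χ : G → ℂ) ^ 2 ∣ p ^ a * q ^ b) :=
    fun χ h1 ho => by
    have h1' : χ ≠ H35.triv G := fun e => h1 (by rw [e]; rfl)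
    refine ⟨H35.two_le_degree hperf h1', ?_, fun hpr hd => ?_⟩
    · have := H5.degree_dvd_card χ.2 (H35.cast_degree_irr χ)
      rw [hG] at this
      exact (Nat.Coprime.pow_right 2 (Nat.coprime_two_right.2 ho)).dvd_of_dvd_mul_left this
    · exact S3968.result _ hpr χ (H35.cast_degree_irr χ) (H35.simple_faithful h1')
        (hG ▸ hd.mul_left 4) hZ
  obtain ⟨l2, d2, s2⟩ := hdeg ζ₂ n2 (Nat.odd_iff.2 (by omega))
  obtain ⟨l3, d3, s3⟩ := hdeg ζ₃ n3 (Nat.odd_iff.2 (by omega))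
  obtain ⟨l4, d4, s4⟩ := hdeg ζ₄ n4 (Nat.odd_iff.2 (by omega))
  have dJ := (Subgroup.centralizer ({(J : G)} : Set G)).card_subgroup_dvd_card
  have pP : Nat.card (Subgroup.centralizer ((T : Subgroup G) : Set G)) ≠ 0 := Nat.card_pos.ne'
  generalize charDegree (ζ₂ : G → ℂ) = x₁ at *
  generalize charDegree (ζ₃ : G → ℂ) = x₂ at *
  generalize charDegree (ζ₄ : G → ℂ) = x₃ at *
  generalize Nat.card (Subgroup.centralizer ((T : Subgroup G) : Set G)) = cP at *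
  generalize Nat.card (Subgroup.centralizer ({(J : G)} : Set G)) = cJ at *
  have z1 : (x₁ : ℚ) + (1 : ℤ) ≠ 0 := by exact_mod_cast (by omega : (x₁ : ℤ) + 1 ≠ 0)
  have z2 : (x₂ : ℚ) + ε ≠ 0 := by exact_mod_cast (by omega : (x₂ : ℤ) + ε ≠ 0)
  have z3 : (x₃ : ℚ) + (-1 : ℤ) ≠ 0 := by exact_mod_cast (by omega : (x₃ : ℤ) + -1 ≠ 0)
  have z4 : (cP : ℚ) ≠ 0 := by exact_mod_cast pP
  have e3 : (Nat.card G : ℤ) * cP ^ 2 * ((x₁ + 1) * (x₂ + ε) * (x₃ + -1)) =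
      ((8 * (x₁ * x₂ * x₃) * cJ ^ 3 : ℕ) : ℤ) := by
    apply Int.cast_injective (α := ℚ)
    push_cast at e1 z1 z3 ⊢
    rw [e1]
    field_simp
  have H : ∀ r : ℕ, r.Prime → (r : ℤ) ∣ (x₁ + 1) * (ε * x₂ + 1) * (-x₃ + 1) →
      r = 2 ∨ r = p ∨ r = q := fun r hr hd => by
    have h1 : (r : ℤ) ∣ (x₁ + 1) * (x₂ + ε) * (x₃ + -1) := by
      rcases hε with rfl | rfl
      · exact hd.neg_right.trans (dvd_of_eq (by ring))
      · exact hd.trans (dvd_of_eq (by ring))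
    have h2 : r ∣ 8 * (x₁ * x₂ * x₃) * cJ ^ 3 := by
      have := h1.mul_left ((Nat.card G : ℤ) * cP ^ 2)
      rw [e3] at this
      exact_mod_cast this
    have h3 : r ∣ 4 * (p ^ a * q ^ b) := by
      rcases hr.dvd_mul.1 h2 with h2 | h2
      · rcases hr.dvd_mul.1 h2 with h2 | h2
        · exact ((hr.dvd_of_dvd_pow (show r ∣ 2 ^ 3 from h2)).trans (by norm_num)).mul_right _
        · rcases hr.dvd_mul.1 h2 with h2 | h2
          · rcases hr.dvd_mul.1 h2 with h2 | h2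
            · exact (h2.trans d2).mul_left _
            · exact (h2.trans d3).mul_left _
          · exact (h2.trans d4).mul_left _
      · exact hG ▸ (hr.dvd_of_dvd_pow h2).trans dJ
    rcases hr.dvd_mul.1 h3 with h3 | h3
    · exact Or.inl ((Nat.prime_dvd_prime_iff_eq hr Nat.prime_two).1
        (hr.dvd_of_dvd_pow (show r ∣ 2 ^ 2 from h3)))
    · rcases hr.dvd_mul.1 h3 with h3 | h3
      · exact Or.inr (Or.inl ((Nat.prime_dvd_prime_iff_eq hr hp).1 (hr.dvd_of_dvd_pow h3)))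
      · exact Or.inr (Or.inr ((Nat.prime_dvd_prime_iff_eq hr hq).1 (hr.dvd_of_dvd_pow h3)))
  have P : ∀ x, x = x₁ ∨ x = x₂ ∨ x = x₃ → x.Prime → ¬ x ^ 2 ∣ p ^ a * q ^ b := by
    rintro x (rfl | rfl | rfl)
    exacts [s2, s3, s4]
  have a1 : (x₁ : ℤ).natAbs = x₁ := by simp
  have a2 : (ε * x₂ : ℤ).natAbs = x₂ := by rcases hε with rfl | rfl <;> simp
  have a3 : (-x₃ : ℤ).natAbs = x₃ := by simp
  have m1 : (x₁ : ℤ) % 4 = 1 := by omega
  have m2 : (ε * x₂ : ℤ) % 4 = 1 := by rcases hε with rfl | rfl <;> omega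
  have m3 : (-x₃ : ℤ) % 4 = 1 := by omega
  have hsum : 1 + (x₁ : ℤ) + ε * x₂ + -x₃ = 0 := by linear_combination e2
  rw [hG]
  suffices p ^ a * q ^ b = 15 by rw [this]
  by_cases h₁ : q ∣ x₁
  swap
  · exact arith' hp hq hpq hp2 ha a1 a2 a3 hsum m1 m2 m3 (by omega) (by omega) (by omega)
      d2 d3 d4 h₁ H P
  by_cases h₂ : q ∣ x₂
  swap
  · exact arith' hp hq hpq hp2 ha a2 a1 a3 (by omega) m2 m1 m3 (by omega) (by omega) (by omega)
      d3 d2 d4 h₂ (fun r hr h => H r hr (h.trans (dvd_of_eq (by ring)))) (fun x hx => P x (by omega))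
  by_cases h₃ : q ∣ x₃
  swap
  · exact arith' hp hq hpq hp2 ha a3 a1 a2 (by omega) m3 m1 m2 (by omega) (by omega) (by omega)
      d4 d2 d3 h₃ (fun r hr h => H r hr (h.trans (dvd_of_eq (by ring)))) (fun x hx => P x (by omega))
  have q1 : (q : ℤ) ∣ x₁ := Int.natCast_dvd_natCast.2 h₁
  have q2 : (q : ℤ) ∣ x₂ := Int.natCast_dvd_natCast.2 h₂
  have q3 : (q : ℤ) ∣ x₃ := Int.natCast_dvd_natCast.2 h₃
  have : (q : ℤ) ∣ 1 := by
    rw [show (1 : ℤ) = x₃ - x₁ - ε * x₂ by linear_combination hsum]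
    exact (q3.sub q1).sub (q2.mul_left _)
  exact (hq.one_lt.ne' (by exact_mod_cast Int.eq_one_of_dvd_one (by positivity) this)).elim

theorem arith3 {p q b x y : ℕ} (hp : p.Prime) (hq : q.Prime) (hp3 : p ≠ 3) (hq3 : q ≠ 3)
    (hx : 2 ≤ x) (hy : 2 ≤ y) (dx : x ∣ p ^ 2 * q ^ b) (dy : y ∣ p ^ 2 * q ^ b)
    (h : x = y + 1 ∨ y = x + 1) (hqx : ¬ q ∣ x)
    (P : ∀ z, z = x ∨ z = y → z.Prime → ¬ z ^ 2 ∣ p ^ 2 * q ^ b) : p ^ 2 * q ^ b = 20 := by
  obtain ⟨i, hi, rfl⟩ := eq_pow_of_not_dvd hp hq dx hqx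
  obtain rfl : i = 2 := by
    interval_cases i
    · simp at hx
    · exact (P _ (Or.inl rfl) (by simpa using hp) (by simp)).elim
    · rfl
  have hpy : ¬ p ∣ y := fun hd => by
    have h1 : p ∣ p ^ 2 := dvd_pow_self p two_ne_zero
    rcases h with h | h
    · rw [h] at h1; exact hp.one_lt.ne' (Nat.dvd_one.1 ((Nat.dvd_add_right hd).1 h1))
    · rw [h] at hd; exact hp.one_lt.ne' (Nat.dvd_one.1 ((Nat.dvd_add_right h1).1 hd))
  obtain ⟨j, hj, rfl⟩ := eq_pow_of_not_dvd hq hp (mul_comm (p ^ 2) _ ▸ dy) hpy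
  have j0 : j ≠ 0 := by rintro rfl; simp at hy
  rcases hp.eq_two_or_odd' with rfl | ⟨k, rfl⟩
  · rcases h with h | h
    · have : q ∣ 3 := by rw [show 3 = q ^ j by omega]; exact dvd_pow_self q j0
      exact (hq3 ((Nat.prime_dvd_prime_iff_eq hq Nat.prime_three).1 this)).elim
    · have h5 : q ^ j = 5 := by omega
      obtain rfl : q = 5 := (Nat.prime_dvd_prime_iff_eq hq (by norm_num)).1
        (h5 ▸ dvd_pow_self q j0)
      have := P _ (Or.inr rfl) (by rw [h5]; norm_num)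
      rw [h5] at this
      obtain rfl : b = 1 := by
        by_contra hb
        exact this ((pow_dvd_pow 5 (by omega)).mul_left _)
      rfl
  · exfalso
    have e : (2 * k + 1) ^ 2 = 4 * (k * (k + 1)) + 1 := by ring
    obtain rfl : q = 2 := ((Nat.prime_dvd_prime_iff_eq Nat.prime_two hq).1
      (Nat.prime_two.dvd_of_dvd_pow (n := j) (by omega))).symm
    have hk : k ≠ 0 := by rintro rfl; norm_num at hp
    rcases h with h | h
    · have h3 : 3 ∣ k * (k + 1) := by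
        have : ¬ 3 ∣ 2 * k + 1 := fun h =>
          hp3 ((Nat.prime_dvd_prime_iff_eq Nat.prime_three hp).1 h).symm
        have hk : k % 3 = 0 ∨ k % 3 = 2 := by omega
        rcases hk with hk | hk
        · exact Dvd.dvd.mul_right (Nat.dvd_of_mod_eq_zero hk) _
        · exact Dvd.dvd.mul_left (by omega) _
      have := Nat.le_of_dvd two_pos (Nat.prime_three.dvd_of_dvd_pow (m := 2) (n := j) (by omega))
      omega
    · have hpos : 0 < k * (k + 1) := by positivity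
      obtain _ | _ | j := j
      · exact j0 rfl
      · omega
      · rw [pow_add, pow_add] at h; omega

theorem three {G : Type*} [Group G] [Finite G] [IsSimpleGroup G] (hs : ¬ Group.IsSolvable G)
    {p q a b : ℕ} (hp : p.Prime) (hq : q.Prime) (hpq : p ≠ q) (ha : a ≤ 2)
    (h : Nat.card G = 3 * p ^ a * q ^ b) : Nat.card G = 60 ∨ Nat.card G = 168 := by
  classical
  have hp3 : p ≠ 3 := by
    rintro rfl
    exact hs (H5.isSolvable_of_card_dvd_prime_pow_mul hp hq (a := a + 1) (b := b)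
      (by rw [h]; exact ⟨1, by ring⟩))
  have hq3 : q ≠ 3 := by
    rintro rfl
    exact hs (H5.isSolvable_of_card_dvd_prime_pow_mul hp hq (a := a) (b := b + 1)
      (by rw [h]; exact ⟨1, by ring⟩))
  interval_cases a
  · exact (hs (H5.isSolvable_of_card_dvd_prime_pow_mul Nat.prime_three hq (a := 1) (b := b)
      (by rw [h]; exact ⟨1, by ring⟩))).elim
  · exact H34.card_of_prq (fun hc => hs (Group.isSolvable_of_comm fun x y =>
      hc.commGroup.mul_comm x y)) hp hq Nat.prime_three hpq hp3 hq3 (b := b) (by rw [h]; ring)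
  left
  have := Fact.mk Nat.prime_three
  have hG : Nat.card G = 3 * (p ^ 2 * q ^ b) := by rw [h, mul_assoc]
  have h3 : ¬ 3 ∣ p ^ 2 * q ^ b := fun h => (Nat.prime_three.dvd_mul.1 h).elim
    (fun h => hp3 ((Nat.prime_dvd_prime_iff_eq Nat.prime_three hp).1
      (Nat.prime_three.dvd_of_dvd_pow h)).symm)
    (fun h => hq3 ((Nat.prime_dvd_prime_iff_eq Nat.prime_three hq).1
      (Nat.prime_three.dvd_of_dvd_pow h)).symm)
  obtain ⟨S, B, φ, hB, hφ, hP, hZ, -, -, he1, hep, hm⟩ := H35.simple_setup 3 _ hG h3 (fun e =>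
    hp.one_lt.ne' (Nat.dvd_one.1 (e ▸ (dvd_pow_self p two_ne_zero).mul_right _)))
  have he : S.V.index = 2 := ((Nat.dvd_prime Nat.prime_two).1 hep).resolve_left he1
  obtain ⟨χ, hχ⟩ := Finset.card_eq_one.1 ((B.card_erase hB).trans (by rw [he]))
  have hχm : χ ∈ B.X.erase (H35.triv G) := by rw [hχ]; simp
  have e := B.degree_eq' hB hφ
  rw [hχ, Finset.sum_singleton] at e
  obtain ⟨l1, d1, s1, -⟩ := B.numX hP hχm
  obtain ⟨l2, d2, s2, -⟩ := B.numY hB hP hφ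
  have hd : S.V.index * Nat.card (Sylow 3 G) ∣ p ^ 2 * q ^ b :=
    hm ▸ Dvd.intro_left _ (mul_assoc _ _ _).symm
  have P : ∀ z, z = charDegree (χ : G → ℂ) ∨ z = charDegree (φ : G → ℂ) → z.Prime →
      ¬ z ^ 2 ∣ p ^ 2 * q ^ b := by
    have : ∀ ψ : IrrCharacter G, 2 ≤ charDegree (ψ : G → ℂ) → (charDegree (ψ : G → ℂ)).Prime →
        ¬ charDegree (ψ : G → ℂ) ^ 2 ∣ p ^ 2 * q ^ b := fun ψ h2 hpr hd =>
      S3968.result _ hpr ψ (H35.cast_degree_irr ψ) (H35.simple_faithful (fun e => by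
        rw [e, H35.degree_triv] at h2; omega)) (hG ▸ hd.mul_left 3) hZ
    rintro z (rfl | rfl)
    exacts [this χ l1, this φ l2]
  generalize charDegree (χ : G → ℂ) = x at *
  generalize charDegree (φ : G → ℂ) = y at *
  have hxy : x = y + 1 ∨ y = x + 1 := by
    rcases s1 with s1 | s1 <;> rcases s2 with s2 | s2 <;> rw [s1, s2] at e <;> omega
  rw [hG]
  suffices p ^ 2 * q ^ b = 20 by rw [this]
  by_cases hx : q ∣ x
  · refine arith3 hp hq hp3 hq3 l2 l1 (d2.trans hd) (d1.trans hd) hxy.symm (fun hy => ?_)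
      (fun z hz => P z hz.symm)
    rcases hxy with e | e
    · rw [e] at hx; exact hq.one_lt.ne' (Nat.dvd_one.1 ((Nat.dvd_add_right hy).1 hx))
    · rw [e] at hy; exact hq.one_lt.ne' (Nat.dvd_one.1 ((Nat.dvd_add_right hx).1 hy))
  · exact arith3 hp hq hp3 hq3 l1 l2 (d1.trans hd) (d2.trans hd) hxy hx P

/-- Let G be a non-abelian finite simple group and p, q distinct primes. If the order of G is 4·p^a·q^b with a ≤ 2, then G is isomorphic to the alternating group of degree 5. If the order of G is 3·p^a·q^b with a ≤ 2, then G is isomorphic to the alternating group of degree 5 or to PSL(2,7). -/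
theorem result {G : Type*} [Group G] [Finite G] [IsSimpleGroup G] (hna : ∃ x y : G, x * y ≠ y * x) (p q a b : ℕ) (hp : p.Prime) (hq : q.Prime) (hpq : p ≠ q) (ha : a ≤ 2) : (Nat.card G = 4 * p ^ a * q ^ b → Nonempty (G ≃* alternatingGroup (Fin 5))) ∧ (Nat.card G = 3 * p ^ a * q ^ b → Nonempty (G ≃* alternatingGroup (Fin 5)) ∨ Nonempty (G ≃* Matrix.ProjectiveSpecialLinearGroup (Fin 2) (ZMod 7))) := by
  have hs : ¬ Group.IsSolvable G := fun h => by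
    obtain ⟨x, y, hxy⟩ := hna
    exact hxy (IsSimpleGroup.comm_iff_isSolvable.2 h x y)
  refine ⟨fun h => S0494.result (four hs hp hq hpq ha h), fun h => ?_⟩
  have := Fact.mk (by norm_num : Nat.Prime 7)
  exact (three hs hp hq hpq ha h).imp S0494.result fun h => S0495.result h (ZMod.card 7)

end Cfsg.Agent.S4501
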