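import Cfsg.Statements.S4502
import Cfsg.Agent.H35.McKay1
import Cfsg.Agent.H5.ClassFn

set_option autoImplicit false
open Cfsg

namespace Cfsg.Agent.S4502

/-- Let G be a finite group whose order is divisible by the prime p exactly once, and let P be a Sylow p-subgroup. Then the number of irreducible characters of G of degree not divisible by p equals the number of conjugacy classes of the normalizer of P. -/
theorem result {G : Type*} [Group G] [Finite G] (p : ℕ) [Fact p.Prime] (hdiv : p ∣ Nat.card G) (hsq : ¬ p ^ 2 ∣ Nat.card G) (P : Sylow p G) : Nat.card {χ : Cfsg.IrrCharacter G // ¬ p ∣ Cfsg.charDegree (χ : G → ℂ)} = Nat.card (ConjClasses (Subgroup.normalizer ((P : Subgroup G) : Set G))) := by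
  obtain ⟨y, hy⟩ := exists_prime_orderOf_dvd_card' p hdiv
  obtain ⟨Q, hQ⟩ := H35.exists_sylow_eq_zpowers hy hsq
  obtain ⟨g, rfl⟩ := MulAction.exists_smul_eq G Q P
  obtain ⟨S, hS⟩ := H35.exists_setup (x := g * y * g⁻¹) (by
    rw [← hy]; exact (MulAut.conj g).orderOf_eq y) hsq
  have h : ((g • Q : Sylow p G) : Subgroup G) = Subgroup.zpowers S.x := by
    rw [hS, Sylow.coe_subgroup_smul, hQ]
    exact MonoidHom.map_zpowers _ y
  rw [h, S.card_coprime_degree_eq _ le_rfl, ← H5.card_irrCharacter]
  refine Nat.card_congr (Equiv.subtypeUnivEquiv fun χ h1 => ?_)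
  have h2 := H6.degree_dvd_index_of_abelian_normal ((Subgroup.zpowers S.x).subgroupOf _) (by
    rintro a ⟨i, hi⟩ b ⟨j, hj⟩
    apply Subtype.ext
    change (a : G) * b = b * a
    rw [← show S.x ^ i = a from hi, ← show S.x ^ j = b from hj, zpow_mul_comm]) χ.2
    (H35.cast_degree_irr χ)
  have h3 := ((Subgroup.zpowers S.x).subgroupOf (Subgroup.normalizer
    ((Subgroup.zpowers S.x : Subgroup G) : Set G))).card_mul_index
  rw [Nat.card_congr (Subgroup.subgroupOfEquivOfLe Subgroup.le_normalizer).toEquiv,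
    Nat.card_zpowers, S.hx] at h3
  refine hsq (Dvd.dvd.trans ?_ (Subgroup.card_subgroup_dvd_card (Subgroup.normalizer
    ((Subgroup.zpowers S.x : Subgroup G) : Set G))))
  rw [← h3, pow_two]
  exact Nat.mul_dvd_mul_left p (h1.trans h2)

end Cfsg.Agent.S4502
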