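import Cfsg.Statements.S4506
import Cfsg.Agent.H86.AMat
import Cfsg.Agent.H33.Height
import Cfsg.Agent.H87.Dict2
import Cfsg.Agent.H7.Galois

set_option autoImplicit false
open Cfsg

namespace Cfsg.Agent.S4506

open H86

variable {G : Type*} [Group G] [Finite G] {p : ℕ}

theorem fix_regular (hp : p.Prime) {σ : ℂ ≃+* ℂ} {n : ℕ}
    (hn : n = Nat.card G / p ^ (Nat.card G).factorization p)
    (hσ : σ (Complex.exp (2 * Real.pi * Complex.I / n)) =
      Complex.exp (2 * Real.pi * Complex.I / n)) {y : G} (hy : ¬ p ∣ orderOf y) :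
    orderOf y ∣ n ∧ ∀ z : ℂ, z ^ n = 1 → σ z = z := by
  have h0 : n ≠ 0 := hn ▸ (Nat.ordCompl_pos p (Nat.card_pos (α := G)).ne').ne'
  refine ⟨?_, fun z hz => ?_⟩
  · refine (Nat.Coprime.pow_right ((Nat.card G).factorization p)
      ((hp.coprime_iff_not_dvd).2 hy).symm).dvd_of_dvd_mul_left ?_
    rw [hn, Nat.ordProj_mul_ordCompl_eq_self]
    exact orderOf_dvd_natCard y
  · have : NeZero n := ⟨h0⟩
    obtain ⟨i, -, rfl⟩ := (Complex.isPrimitiveRoot_exp n h0).eq_pow_of_pow_eq_one hz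
    rw [map_pow, hσ]

theorem exists_pow (hp : p.Prime) {σ : ℂ ≃+* ℂ} {n : ℕ}
    (hn : n = Nat.card G / p ^ (Nat.card G).factorization p)
    (hσ : σ (Complex.exp (2 * Real.pi * Complex.I / n)) =
      Complex.exp (2 * Real.pi * Complex.I / n)) {χ : G → ℂ} (hχ : IsCharacter G χ) {x y : G}
    (hx : orderOf x = p) (hy : ¬ p ∣ orderOf y) (hc : Commute x y) :
    ∃ k ∈ Finset.Ico 1 p, σ (χ (x * y)) = χ (x ^ k * y) := by
  obtain ⟨h1, h2⟩ := fix_regular hp hn hσ hy
  obtain ⟨m, hm, h3⟩ := H7.exists_coprime_pow_of_ringEquiv σ (Nat.card_pos (α := G)).ne'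
  have h0 : orderOf y ≠ 0 := (orderOf_pos y).ne'
  have hζ := Complex.isPrimitiveRoot_exp _ h0
  have h4 := (h3 _ ((hζ.pow_eq_one_iff_dvd _).2 (orderOf_dvd_natCard y))).symm.trans
    (h2 _ ((hζ.pow_eq_one_iff_dvd _).2 h1))
  have h5 : y ^ m = y := by
    refine Eq.trans ?_ (pow_one y)
    rw [pow_eq_pow_iff_modEq, hζ.eq_orderOf, ← (hζ.isOfFinOrder h0).pow_eq_pow_iff_modEq, h4,
      pow_one]
  refine ⟨m % p, Finset.mem_Ico.2 ⟨Nat.pos_of_ne_zero fun h => ?_, Nat.mod_lt _ hp.pos⟩, ?_⟩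
  · exact hp.one_lt.ne' (Nat.eq_one_of_dvd_coprimes hm (Nat.dvd_of_mod_eq_zero h)
      (hx ▸ orderOf_dvd_natCard x))
  · refine (H7.ringHom_apply_character σ.toRingHom h3 hχ pow_card_eq_one').trans ?_
    rw [← hx, pow_mod_orderOf, hc.mul_pow, h5]

/-- Let G be a finite group, p a prime, p^a the p-part of the order of G and g′ its p′-part. Call two irreducible characters p-conjugate when one is obtained from the other by applying a field automorphism of ℂ that fixes the g′-th roots of unity, and let r be the number of characters p-conjugate to the irreducible character χ (χ included). Then the exponent of p in r·χ(1) is at most a; and if p^a divides r·χ(1) then p^a already divides χ(1). -/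
theorem result {G : Type*} [Group G] [Finite G] (p : ℕ) (hp : p.Prime) (χ : Cfsg.IrrCharacter G) (r : ℕ) (hr : Nat.card {ψ : Cfsg.IrrCharacter G // ∃ σ : ℂ ≃+* ℂ, σ (Complex.exp (2 * Real.pi * Complex.I / ((Nat.card G / p ^ (Nat.card G).factorization p) : ℕ))) = Complex.exp (2 * Real.pi * Complex.I / ((Nat.card G / p ^ (Nat.card G).factorization p) : ℕ)) ∧ (ψ : G → ℂ) = fun g => σ ((χ : G → ℂ) g)} = r) : (r * Cfsg.charDegree (χ : G → ℂ)).factorization p ≤ (Nat.card G).factorization p ∧ (p ^ (Nat.card G).factorization p ∣ r * Cfsg.charDegree (χ : G → ℂ) → p ^ (Nat.card G).factorization p ∣ Cfsg.charDegree (χ : G → ℂ)) := by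
  classical
  have := Fintype.ofFinite G
  obtain ⟨M, hM⟩ := exists_isPModular hp
  have := hM.2.1
  have := Fact.mk hp
  set n := Nat.card G / p ^ (Nat.card G).factorization p with hn
  set ζ := Complex.exp (2 * Real.pi * Complex.I / n) with hζ
  set S : Set (IrrCharacter G) :=
    {ψ | ∃ σ : ℂ ≃+* ℂ, σ ζ = ζ ∧ (ψ : G → ℂ) = fun g => σ ((χ : G → ℂ) g)} with hS
  have hrS : (fs S).card = r := (card_fs S).trans hr
  have hχc := H5.isCharacter_of_isIrr χ.2
  have hB := H32.isPBlock_blockOf (M := M) χ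
  have hχ := H32.mem_blockOf_self (M := M) χ
  set B := blockOf M (χ : G → ℂ)
  have hreg : ∀ ψ ∈ S, ∀ y, ¬ p ∣ orderOf y → (ψ : G → ℂ) y = (χ : G → ℂ) y := by
    rintro ψ ⟨σ, hσ, h⟩ y hy
    obtain ⟨h1, h2⟩ := fix_regular hp hn hσ hy
    rw [h]
    exact (H7.ringHom_apply_character (m := 1) σ.toRingHom (by simpa using h2) hχc
      (orderOf_dvd_iff_pow_eq_one.1 h1)).trans (by rw [pow_one])
  have ha : ∀ ψ ∈ S, aM p B (χ : G → ℂ) ψ = aM p B (χ : G → ℂ) χ := fun ψ hψ => by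
    rw [aM_comm, aM, aM, reg_congr (hreg ψ hψ)]
  obtain ⟨χ₀, h₀, hh₀⟩ := exists_height_zero (p := p) ⟨χ, hχ⟩
  have hsq := sum_aM_sq hM hB hχ
  set m := aM p B (χ : G → ℂ) χ with hm
  have hp0 : (0 : ℤ) < p ^ blockDefect p B := pow_pos (by exact_mod_cast hp.pos) _
  have hm0 : 0 < m := by
    refine (pos_iff_pos_of_mul_pos (?_ : 0 < (p : ℤ) ^ blockDefect p B * m)).1 hp0
    rw [← hsq]
    exact Finset.sum_pos' (fun _ _ => sq_nonneg _) ⟨χ₀, mem_fs.2 h₀,
      sq_pos_of_ne_zero (aM_comm B χ χ₀ ▸ aM_ne_zero hM hB h₀ hh₀ hχ)⟩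
  have hSB : fs S ⊆ fs B := fun ψ hψ => mem_fs.2 (by
    by_contra h
    have h1 := ha ψ (mem_fs.1 hψ)
    rw [aM, classInner_reg_eq_zero hM hB hχ h] at h1
    simp only [mul_zero, Complex.zero_re, Int.floor_zero] at h1
    omega)
  have h1 := Finset.sum_sdiff (f := fun β : IrrCharacter G => aM p B (χ : G → ℂ) β ^ 2) hSB
  rw [hsq, Finset.sum_congr rfl fun ψ hψ => congrArg (· ^ 2) (ha ψ (mem_fs.1 hψ)),
    Finset.sum_const, hrS, nsmul_eq_mul] at h1
  have h2 := Finset.sum_nonneg (s := fs B \ fs S)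
    (f := fun β : IrrCharacter G => aM p B (χ : G → ℂ) β ^ 2) fun _ _ => sq_nonneg _
  have h3 : (r : ℤ) * m ≤ p ^ blockDefect p B := by nlinarith
  have hr0 : r ≠ 0 := by
    rw [← hrS]
    exact Finset.card_ne_zero.2 ⟨χ, mem_fs.2 ⟨RingEquiv.refl ℂ, rfl, rfl⟩⟩
  have h4 := Int.le_of_dvd hm0
    (pow_height_dvd_aM hM (H7.isGeneralizedCharacter_of_isCharacter' hχc) hχ)
  have h5 : (p : ℤ) ^ r.factorization p ≤ r := by
    exact_mod_cast Nat.ordProj_le p hr0
  have e1 := H33.blockDefect_add_minVal (p := p) ⟨χ, hχ⟩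
  have e2 := H33.blockHeight_eq (p := p) B χ
  have e3 := H33.minVal_le (p := p) hχ
  have hp1 : (1 : ℤ) < p := by exact_mod_cast hp.one_lt
  have h6 : r.factorization p + blockHeight p B χ ≤ blockDefect p B := by
    rw [← pow_le_pow_iff_right₀ hp1, pow_add]
    exact (mul_le_mul h5 h4 (by positivity) (by positivity)).trans h3
  have e4 : (r * charDegree (χ : G → ℂ)).factorization p =
      r.factorization p + (charDegree (χ : G → ℂ)).factorization p := by
    rw [Nat.factorization_mul hr0 (H33.charDegree_ne_zero χ), Finsupp.add_apply]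
  refine ⟨by omega, fun h => ?_⟩
  rw [hp.pow_dvd_iff_le_factorization (mul_ne_zero hr0 (H33.charDegree_ne_zero χ))] at h
  rw [hp.pow_dvd_iff_le_factorization (H33.charDegree_ne_zero χ)]
  by_contra hlt
  have e5 : blockDefect p B = r.factorization p + blockHeight p B χ := by omega
  rw [e5, pow_add] at h3
  have h7 : m ≤ p ^ blockHeight p B χ := le_of_mul_le_mul_left
    ((mul_le_mul_of_nonneg_right h5 hm0.le).trans h3) (by positivity)
  have h8 : blockHeight p B χ = 0 := by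
    by_contra h8
    have := (Int.le_of_dvd hm0 ((pow_height_succ_dvd_aM_iff hM hB hχ hχ).2 h8)).trans h7
    rw [pow_le_pow_iff_right₀ hp1] at this
    omega
  rw [h8, pow_zero] at h7 h3 h4
  have hm1 : m = 1 := le_antisymm h7 h4
  rw [hm1, mul_one, mul_one] at h3
  have h9 : (r : ℤ) = p ^ blockDefect p B := by rw [e5, h8, add_zero]; exact le_antisymm h3 h5
  have h10 : fs B ⊆ fs S := fun β hβ => by
    by_contra hβ'
    rw [hm1, h9, one_pow, add_eq_right, Finset.sum_eq_zero_iff_of_nonneg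
      fun _ _ => sq_nonneg _] at h1
    exact aM_ne_zero hM hB hχ h8 (mem_fs.1 hβ)
      (pow_eq_zero_iff two_ne_zero |>.1 (h1 β (Finset.mem_sdiff.2 ⟨hβ, hβ'⟩)))
  obtain ⟨y, hy⟩ := H87.exists_isDefectClass hB
  have hyr := H33.IsDefectClass.regular hM hB hy
  obtain ⟨⟨x, hx⟩, hxp⟩ := exists_prime_orderOf_dvd_card' (G := Subgroup.centralizer ({y} : Set G))
    p (Nat.dvd_of_factorization_pos (by
      rw [H33.defectClass_factorization_centralizer hM hB hy]; omega))
  rw [← Subgroup.orderOf_coe] at hxp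
  have hc : Commute x y := Subgroup.mem_centralizer_singleton_iff.1 hx
  have hx' : ∃ k, orderOf x = p ^ k := ⟨1, hxp.trans (pow_one p).symm⟩
  -- the Galois group fixes `χ (x * y)`
  let Γ := MulAction.stabilizer (RingAut ℂ) ζ
  have h11 : (MulAction.stabilizer Γ (χ : G → ℂ)).index = r := by
    rw [MulAction.index_stabilizer, ← hr, ← Nat.card_coe_set_eq]
    refine (Nat.card_congr (Equiv.ofBijective (fun ψ => ⟨(ψ.1 : G → ℂ),
      ψ.2.elim fun σ h => ⟨⟨σ, h.1⟩, h.2.symm⟩⟩) ⟨?_, ?_⟩)).symm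
    · exact fun a b h => Subtype.ext (Subtype.ext (Subtype.mk.inj h))
    · rintro ⟨_, σ, rfl⟩
      exact ⟨⟨⟨_, H7.isIrrCharacter_ringEquiv σ.1 χ.2⟩, σ.1, σ.2, rfl⟩, rfl⟩
  have h12 : (MulAction.stabilizer Γ ((χ : G → ℂ) (x * y))).index < p := by
    rw [MulAction.index_stabilizer]
    refine (Set.ncard_le_ncard (t := ((Finset.Ico 1 p).image fun k => (χ : G → ℂ) (x ^ k * y) :
      Finset ℂ)) ?_).trans_lt ?_
    · rintro _ ⟨σ, rfl⟩
      obtain ⟨k, hk, h⟩ := exists_pow hp hn σ.2 hχc hxp hyr hc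
      exact Finset.mem_coe.2 (Finset.mem_image.2 ⟨k, hk, h.symm⟩)
    · rw [Set.ncard_coe_finset]
      refine Finset.card_image_le.trans_lt ?_
      rw [Nat.card_Ico]
      have := hp.pos
      omega
  have h13 : (MulAction.stabilizer Γ ((χ : G → ℂ) (x * y))).index ∣ p ^ blockDefect p B := by
    rw [show p ^ blockDefect p B = r by exact_mod_cast h9.symm, ← h11]
    exact Subgroup.index_dvd_of_le fun σ hσ => congrFun hσ (x * y)
  obtain ⟨i, -, hi⟩ := (Nat.dvd_prime_pow hp).1 h13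
  rw [hi] at h12
  have hi0 : i = 0 := by
    have := (Nat.pow_lt_pow_iff_right hp.one_lt).1 (h12.trans_eq (pow_one p).symm)
    omega
  rw [hi0, pow_zero, Subgroup.index_eq_one] at hi
  have h14 := H33.block_orthogonality hM hB (H33.isPPart_mul hc hx' hyr)
    (H33.isPPart_one_of_regular (y := (1 : G)) (by simpa using hp.one_lt.ne')) (by
      rw [isConj_one_left]
      rintro rfl
      exact hp.one_lt.ne (by simpa using hxp))
  rw [finsum_mem_fs, Finset.sum_congr rfl (g := fun _ => (χ : G → ℂ) (x * y) * (χ : G → ℂ) 1),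
    Finset.sum_const, nsmul_eq_mul, mul_eq_zero, mul_eq_zero] at h14
  · rcases h14 with h | h | h
    · exact (Finset.card_ne_zero.2 ⟨χ, mem_fs.2 hχ⟩) (by exact_mod_cast h)
    · have := H33.char_mul_sub_mem hM hχc hc hx'
      rw [h, zero_sub] at this
      exact H33.apply_defectClass_notMem hM hB hy hχ h8 (neg_mem_iff.1 this)
    · exact H5.degree_ne_zero χ.2 h
  · intro β hβ
    have hβS := mem_fs.1 (h10 hβ)
    rw [inv_one, hreg β hβS 1 (by simpa using hp.one_lt.ne')]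
    obtain ⟨σ, hσ, h⟩ := hβS
    have : (⟨σ, hσ⟩ : Γ) ∈ MulAction.stabilizer Γ ((χ : G → ℂ) (x * y)) := hi ▸ Subgroup.mem_top _
    rw [h]
    exact congrArg (· * _) this

end Cfsg.Agent.S4506
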