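import Cfsg.Statements.S4507
import Cfsg.Agent.H35.BlkExt
import Cfsg.Agent.H7.Galois

set_option autoImplicit false
open Cfsg

namespace Cfsg.Agent.S4507

theorem aux {G : Type*} [Group G] [Finite G] {p : ℕ} [hp : Fact p.Prime] (S : H35.Setup G p)
    {g' m : ℕ} (hg : Nat.card G = p * g') (hm : m ≡ 1 [MOD g']) (σ : ℂ ≃+* ℂ)
    (hσ : ∀ z : ℂ, z ^ Nat.card G = 1 → σ z = z ^ m) {χ : G → ℂ} (hχ : IsCharacter G χ) :
    (∀ g, ¬ p ∣ orderOf g → σ (χ g) = χ g) ∧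
      ∀ i (v : S.V), σ (χ (S.xp i * (v : S.K))) = χ (S.xp (m * i) * (v : S.K)) := by
  have h1 : ∀ g : G, ¬ p ∣ orderOf g → g ^ m = g := fun g h => by
    have h2 : orderOf g ∣ g' :=
      ((Nat.Prime.coprime_iff_not_dvd hp.out).mpr h).symm.dvd_of_dvd_mul_left
        (hg ▸ orderOf_dvd_natCard g)
    conv_rhs => rw [← pow_one g]
    exact pow_eq_pow_iff_modEq.mpr (hm.of_dvd h2)
  have h2 : ∀ g, σ (χ g) = χ (g ^ m) := fun g =>
    H7.ringHom_apply_character σ.toRingHom hσ hχ pow_card_eq_one'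
  refine ⟨fun g h => by rw [h2, h1 g h], fun i v => ?_⟩
  rw [h2, (S.commute_xp i v).mul_pow, S.xp_pow, h1 _ (S.not_dvd_orderOf v), mul_comm i]

/-- Let G be a finite group whose order g is divisible by the prime p exactly once, g′ = g/p, and fix a maximal ideal M of the algebraic integers containing p. Call two irreducible characters p-conjugate when a field automorphism of ℂ fixing the g′-th roots of unity carries one to the other. Let B be a p-block of positive defect (its defect group is a Sylow p-subgroup). Then B contains a subset Y (the exceptional family) such that: Y is a full p-conjugacy class (its members are pairwise p-conjugate and every p-conjugate of a member of Y lies in Y); every member of B outside Y is p-conjugate only to itself; the size t of Y divides p − 1 and B has exactly t + (p − 1)/t members; and there are signs δ_χ = ±1 (χ ∈ B) such that for every p-regular element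 x and every θ ∈ Y, Σ_{χ ∈ B ∖ Y} δ_χ χ(x) + δ_θ θ(x) = 0. -/
theorem result {G : Type*} [Group G] [Finite G] (p : ℕ) [Fact p.Prime] (M : Ideal Cfsg.AlgInt) (hM : Cfsg.IsPModular p M) (hdiv : p ∣ Nat.card G) (hsq : ¬ p ^ 2 ∣ Nat.card G) (B : Set (Cfsg.IrrCharacter G)) (hB : Cfsg.IsPBlock M B) (hd : 0 < Cfsg.blockDefect p B) : ∃ Y : Set (Cfsg.IrrCharacter G), Y ⊆ B ∧ Y.Nonempty ∧ (∀ θ ∈ Y, ∀ ψ : Cfsg.IrrCharacter G, (∃ σ : ℂ ≃+* ℂ, σ (Complex.exp (2 * Real.pi * Complex.I / ((Nat.card G / p ^ (Nat.card G).factorization p) : ℕ))) = Complex.exp (2 * Real.pi * Complex.I / ((Nat.card G / p ^ (Nat.card G).factorization p) : ℕ)) ∧ (ψ : G → ℂ) = fun g => σ ((θ : G → ℂ) g)) ↔ ψ ∈ Y) ∧ (∀ χ ∈ B, χ ∉ Y → ∀ ψ : Cfsg.IrrCharacter G, (∃ σ : ℂ ≃+* ℂ, σ (Complex.exp (2 * Real.pi * Complex.I / ((Nat.card G / p ^ (Nat.card G).factorization p) : ℕ))) = Complex.exp (2 * Real.pi * Complex.I / ((Nat.card G / p ^ (Nat.card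 G).factorization p) : ℕ)) ∧ (ψ : G → ℂ) = fun g => σ ((χ : G → ℂ) g)) → ψ = χ) ∧ Nat.card Y ∣ p - 1 ∧ Nat.card B = Nat.card Y + (p - 1) / Nat.card Y ∧ ∃ δ : Cfsg.IrrCharacter G → ℤ, (∀ χ ∈ B, δ χ = 1 ∨ δ χ = -1) ∧ ∀ x : G, ¬ p ∣ orderOf x → ∀ θ ∈ Y, (∑ᶠ χ ∈ B \ Y, (δ χ : ℂ) * (χ : G → ℂ) x) + (δ θ : ℂ) * (θ : G → ℂ) x = 0 := by
  classical
  have hp : p.Prime := Fact.out
  have := hM.2.1
  obtain ⟨x, hx⟩ := exists_prime_orderOf_dvd_card' p hdiv
  obtain ⟨S, rfl⟩ := H35.exists_setup hx hsq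
  have hfac : (Nat.card G).factorization p = 1 := by
    have h1 := hp.factorization_pos_of_dvd Nat.card_pos.ne' hdiv
    rw [hp.pow_dvd_iff_le_factorization Nat.card_pos.ne'] at hsq
    omega
  obtain ⟨g', hg⟩ := hdiv
  have hg0 : g' ≠ 0 := by rintro rfl; exact Nat.card_pos.ne' hg
  have hcop : p.Coprime g' := hp.coprime_iff_not_dvd.mpr fun h =>
    hsq (by rw [hg, pow_two]; exact Nat.mul_dvd_mul_left p h)
  have hg' : Nat.card G / p ^ (Nat.card G).factorization p = g' := by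
    rw [hfac, pow_one, hg, Nat.mul_div_cancel_left _ hp.pos]
  rw [hg']
  have hζ := Complex.isPrimitiveRoot_exp g' hg0
  set ζ := Complex.exp (2 * Real.pi * Complex.I / (g' : ℕ)) with hζdef
  have key1 : ∀ σ : ℂ ≃+* ℂ, σ ζ = ζ → ∃ a : (ZMod p)ˣ, ∀ χ : G → ℂ, IsCharacter G χ →
      (∀ g, ¬ p ∣ orderOf g → σ (χ g) = χ g) ∧
      ∀ i (v : S.V), σ (χ (S.xp i * (v : S.K))) = χ (S.xp (a * i) * (v : S.K)) := by
    intro σ h
    obtain ⟨m, hm, hσ⟩ := H7.exists_coprime_pow_of_ringEquiv σ (Nat.card_pos (α := G)).ne'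
    have h1 : m ≡ 1 [MOD g'] := by
      rw [hσ ζ (by rw [hg, mul_comm, pow_mul, hζ.pow_eq_one, one_pow])] at h
      rw [hζ.eq_orderOf, ← (hζ.isOfFinOrder hg0).pow_eq_pow_iff_modEq, h, pow_one]
    exact ⟨ZMod.unitOfCoprime m (hm.coprime_dvd_right ⟨g', hg⟩), fun χ hχ => aux S hg h1 σ hσ hχ⟩
  have key2 : ∀ a : (ZMod p)ˣ, ∃ σ : ℂ ≃+* ℂ, σ ζ = ζ ∧ ∀ χ : G → ℂ, IsCharacter G χ →
      (∀ g, ¬ p ∣ orderOf g → σ (χ g) = χ g) ∧
      ∀ i (v : S.V), σ (χ (S.xp i * (v : S.K))) = χ (S.xp (a * i) * (v : S.K)) := by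
    intro a
    obtain ⟨m, h1, h2⟩ := Nat.chineseRemainder hcop (a : ZMod p).val 1
    have h3 : (m : ZMod p) = a := by rw [(ZMod.natCast_eq_natCast_iff _ _ _).mpr h1]; simp
    have h4 : m.Coprime (Nat.card G) := by
      rw [hg]
      refine Nat.Coprime.mul_right (Nat.Coprime.symm (hp.coprime_iff_not_dvd.mpr ?_))
        (Nat.coprime_of_mul_modEq_one 1 (by rwa [mul_one]))
      rw [← ZMod.natCast_eq_zero_iff, h3]
      exact a.ne_zero
    obtain ⟨σ, hσ⟩ := H7.exists_ringEquiv_pow (Nat.card_pos (α := G)).ne' h4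
    refine ⟨σ, ?_, fun χ hχ => h3 ▸ aux S hg h2 σ hσ hχ⟩
    rw [hσ ζ (by rw [hg, mul_comm, pow_mul, hζ.pow_eq_one, one_pow])]
    conv_rhs => rw [← pow_one ζ]
    rw [(hζ.isOfFinOrder hg0).pow_eq_pow_iff_modEq, ← hζ.eq_orderOf]
    exact h2
  obtain ⟨χ₀, hχ₀, hdeg⟩ : ∃ χ ∈ B, ¬ p ∣ charDegree (χ : G → ℂ) := by
    obtain ⟨χ, rfl⟩ := hB
    have hne : ((fun χ : IrrCharacter G => (charDegree (χ : G → ℂ)).factorization p) ''
        blockOf M (χ : G → ℂ)).Nonempty :=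
      ⟨_, χ, fun g => by rw [sub_self]; exact (H32.locMax M).zero_mem, rfl⟩
    obtain ⟨ψ, hψ, h⟩ := Nat.sInf_mem hne
    rw [blockDefect, hfac, ← h] at hd
    refine ⟨ψ, hψ, fun h1 => ?_⟩
    have := hp.factorization_pos_of_dvd (H35.degree_pos ψ).ne' h1
    simp only at hd
    omega
  obtain ⟨θ, j, hj, hθ⟩ := S.exists_psi_ne_zero (H5.isCharacter_of_isIrr χ₀.2) hdeg
  obtain ⟨D, -⟩ := S.exists_blk θ.2 (H35.triv G)
  have hBD : B = (D.X : Set (IrrCharacter G)) ∪ D.Y := by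
    obtain ⟨χ, rfl⟩ := hB
    exact D.blockOf_eq hM θ.2 (D.mem_of_sameBlock hM θ.2 (D.mem_of_psi_ne_zero hj hθ)
      fun g => H32.sub_mem_locMax_comm (hχ₀ g))
  have hX : ∀ χ ∈ B, χ ∉ (D.Y : Set (IrrCharacter G)) → χ ∈ D.X := fun χ h1 h2 =>
    (hBD ▸ h1 : χ ∈ (D.X : Set (IrrCharacter G)) ∪ D.Y).resolve_right h2
  have hcl := fun χ : IrrCharacter G => H5.isClassFunction_of_isIrr χ.2
  have hch := fun χ : IrrCharacter G => H5.isCharacter_of_isIrr χ.2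
  have hY0 : 0 < D.Y.card := D.nonempty_Y.card_pos
  refine ⟨D.Y, hBD ▸ Set.subset_union_right, D.nonempty_Y, fun χ hχ ψ => ⟨?_, fun hψ => ?_⟩,
    ?_, ?_, ?_, fun χ => if χ ∈ D.Y then -D.ε else D.δ χ, fun χ hχ => ?_, fun g hg χ hχ => ?_⟩
  · rintro ⟨σ, h1, h2⟩
    obtain ⟨a, ha⟩ := key1 σ h1
    obtain ⟨φ, ⟨hφ, u, hu, e⟩, -⟩ := D.orb (D.α χ * a)
    have : ψ = φ := Subtype.ext (S.classFun_ext (hcl ψ) (hcl φ) (fun g hg => by
      rw [h2, ← D.eq_on_regular hχ hφ hg]; exact (ha _ (hch χ)).1 g hg) fun i hi v => by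
        rw [h2, ← D.applyY_mul θ.2 hχ hφ hu e hi]; exact (ha _ (hch χ)).2 i v)
    exact this ▸ hφ
  · obtain ⟨σ, h1, ha⟩ := key2 ((D.α χ)⁻¹ * D.α ψ)
    refine ⟨σ, h1, S.classFun_ext (hcl ψ) (fun g h => by simp only [hcl χ g h])
      (fun g hg => ?_) fun i hi v => ?_⟩
    · rw [← D.eq_on_regular hχ hψ hg]; exact ((ha _ (hch χ)).1 g hg).symm
    · rw [← D.applyY_mul θ.2 hχ hψ (one_mem _) (a := (D.α χ)⁻¹ * D.α ψ) (by simp) hi]
      exact ((ha _ (hch χ)).2 i v).symm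
  · rintro χ hχ hχY ψ ⟨σ, h1, h2⟩
    obtain ⟨a, ha⟩ := key1 σ h1
    exact Subtype.ext (S.classFun_ext (hcl ψ) (hcl χ) (fun g hg => by
      rw [h2]; exact (ha _ (hch χ)).1 g hg) fun i hi v => by
        rw [h2, ← D.applyX_mul θ.2 (hX χ hχ hχY) a.ne_zero hi]; exact (ha _ (hch χ)).2 i v)
  · simpa using Dvd.intro _ D.cardY
  · rw [hBD, ← Finset.coe_union, ← D.cardY, ← D.cardX]
    simp [Finset.card_union_of_disjoint D.disj, Nat.mul_div_cancel_left _ hY0, add_comm]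
  · simp only
    split_ifs with h
    · rcases D.ε_sign with h | h <;> simp [h]
    · exact D.δ_sign χ (hX χ hχ h)
  · have h1 : B \ (D.Y : Set (IrrCharacter G)) = D.X := by
      rw [hBD, Set.union_sdiff_cancel_right (Finset.disjoint_coe.mpr D.disj).le_bot]
    simp only
    rw [h1, finsum_mem_coe_finset, Finset.sum_congr rfl fun ψ hψ => by
      rw [if_neg (Finset.disjoint_left.mp D.disj hψ)], ← D.reg χ hχ g hg, if_pos (by exact hχ)]
    simp

end Cfsg.Agent.S4507
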