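import Cfsg.Statements.S4508
import Cfsg.Agent.H35.DetReg

set_option autoImplicit false
open Cfsg

namespace Cfsg.Agent.S4508

/-- Let the finite group G contain an element x of prime order p with C_G(x) = ⟨x⟩, and let t be the number of conjugacy classes of elements of order p. If G has an irreducible character of degree p − 1, then t is even or the commutator subgroup has even index. -/
theorem result {G : Type*} [Group G] [Finite G] (p : ℕ) (hp : p.Prime) (x : G) (hx : orderOf x = p) (hC : Subgroup.centralizer ({x} : Set G) = Subgroup.zpowers x) (t : ℕ) (ht : Nat.card {C : ConjClasses G // ∃ g ∈ C.carrier, orderOf g = p} = t) (χ : Cfsg.IrrCharacter G) (hχ : Cfsg.charDegree (χ : G → ℂ) + 1 = p) : Even t ∨ Even (commutator G).index := by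
  have : Fact p.Prime := ⟨hp⟩
  obtain ⟨S, rfl⟩ := H35.exists_setup hx (H35.not_sq_dvd_of_centralizer_eq hx hC)
  obtain ⟨B, hB⟩ := S.exists_principal
  have hV := S.card_V_eq_one hC
  have h1 := H35.card_classes_mul_relIndex S.hx S.hsq
  rw [S.relIndex_eq, Nat.card_congr (Equiv.subtypeEquivRight (q := fun C : ConjClasses G =>
    ∃ g ∈ C.carrier, orderOf g = p) fun C => by
      simp only [ConjClasses.mem_carrier_iff_mk_eq]), ht] at h1
  by_cases h2 : p = 2
  · subst h2
    right
    obtain ⟨φ, hφ⟩ := B.nonempty_Y
    have he : S.V.index = 1 := Nat.dvd_one.mp S.index_dvd_pred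
    have hX : B.X = {H35.triv G} := by
      obtain ⟨a, ha⟩ := Finset.card_eq_one.mp (B.cardX'.trans he)
      rw [ha, Finset.mem_singleton] at hB
      rw [ha, hB]
    have h3 := B.degree_eq hφ
    rw [hX, Finset.sum_singleton, B.δ_triv hB, H35.degree_triv] at h3
    have h4 : B.ε = 1 := B.ε_sign.resolve_right fun e => by rw [e] at h3; omega
    obtain ⟨lam, hl⟩ := H5.exists_monoidHom_of_degree_one (H5.isCharacter_of_isIrr φ.2) (by
      rw [h4, one_mul] at h3
      rw [H35.cast_degree_irr]
      exact_mod_cast h3)
    have h5 := B.sum_Y hφ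
    rw [show (Finset.univ.erase 0 : Finset (ZMod 2)) = {1} from rfl, Finset.sum_singleton, h4, he,
      hl] at h5
    exact H35.even_index_commutator lam (h5.trans (by simp))
  · exact B.even_or_even hV h2 hχ h1

end Cfsg.Agent.S4508
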