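import Cfsg.Statements.S4509
import Cfsg.Agent.H85.SelfCent

set_option autoImplicit false
open Cfsg

namespace Cfsg.Agent.S4509

open Subgroup
open scoped commutatorElement

/-- Let the finite group G contain an element x of prime order p with C_G(x) = ⟨x⟩; let t be the number of conjugacy classes of elements of order p and 1 + n·p the number of subgroups of order p. Then G has a normal subgroup of order 1 + n·p if and only if either t = p − 1, or t < p − 1 and G″ ≠ G′. Moreover, if t = p − 1 then G′ has order 1 + n·p and G/G′ is cyclic of order p; and if t < p − 1 and G″ ≠ G′ then G″ has order 1 + n·p and G′ has order p·(1 + n·p). -/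
theorem result {G : Type*} [Group G] [Finite G] (p : ℕ) (hp : p.Prime) (x : G) (hx : orderOf x = p) (hC : Subgroup.centralizer ({x} : Set G) = Subgroup.zpowers x) (t : ℕ) (ht : Nat.card {C : ConjClasses G // ∃ g ∈ C.carrier, orderOf g = p} = t) (n : ℕ) (hn : Nat.card {H : Subgroup G // Nat.card H = p} = 1 + n * p) : ((∃ S : Subgroup G, S.Normal ∧ Nat.card S = 1 + n * p) ↔ (t = p - 1 ∨ (t < p - 1 ∧ derivedSeries G 2 ≠ derivedSeries G 1))) ∧ (t = p - 1 → Nat.card (commutator G) = 1 + n * p ∧ IsCyclic (G ⧸ commutator G) ∧ (commutator G).index = p) ∧ (t < p - 1 → derivedSeries G 2 ≠ derivedSeries G 1 → Nat.card (derivedSeries G 2) = 1 + n * p ∧ Nat.card (commutator G) = p * (1 + n * p)) := by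
  have h : H85.SC p x := ⟨hp, hx, hC⟩
  have := Fact.mk hp
  subst ht
  have d1 : derivedSeries G 1 = commutator G := derivedSeries_one G
  have d2 : derivedSeries G 2 = ⁅commutator G, commutator G⁆ := by rw [derivedSeries_succ, d1]
  rw [d1, d2]
  have A : Nat.card {C : ConjClasses G // ∃ g ∈ C.carrier, orderOf g = p} = p - 1 →
      Nat.card (commutator G) = 1 + n * p ∧ IsCyclic (G ⧸ commutator G) ∧
        (commutator G).index = p := fun ht => by
    have hx' := h.classes_eq_iff.mp ht
    exact ⟨hn ▸ h.card_commutator_of_not_mem hx', isCyclic_of_prime_card (h.of_not_mem hx').2,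
      (h.of_not_mem hx').2⟩
  have B : Nat.card {C : ConjClasses G // ∃ g ∈ C.carrier, orderOf g = p} < p - 1 →
      ⁅commutator G, commutator G⁆ ≠ commutator G →
      Nat.card ↥⁅commutator G, commutator G⁆ = 1 + n * p ∧
        Nat.card (commutator G) = p * (1 + n * p) := fun ht hne => by
    have hx' : x ∈ commutator G := by_contra fun hx' => ht.ne (h.classes_eq_iff.mpr hx')
    have h' := h.subgroup hx'
    have h2 : (⟨x, hx'⟩ : commutator G) ∉ commutator (commutator G) := fun h2 => by
      have h3 : x ∈ ⁅commutator G, commutator G⁆ := by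
        rw [← map_subtype_commutator]
        exact ⟨_, h2, rfl⟩
      exact hne (le_antisymm (commutator_le_right _ _) (h.commutator_le _ h3))
    have h3 := h'.card_commutator_of_not_mem h2
    rw [h.index_subgroupOf _ hx', hn] at h3
    refine ⟨?_, ?_⟩
    · rw [← map_subtype_commutator, card_map_of_injective (subtype_injective _), h3]
    · rw [← (commutator (commutator G)).card_mul_index, (h'.of_not_mem h2).2, h3, mul_comm]
  refine ⟨⟨?_, ?_⟩, A, B⟩
  · rintro ⟨S, hS, hcard⟩
    rcases h.classes_le.eq_or_lt with ht | ht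
    · exact Or.inl ht
    refine Or.inr ⟨ht, fun he => ?_⟩
    have hx' : x ∈ commutator G := by_contra fun hx' => ht.ne (h.classes_eq_iff.mpr hx')
    have hxS : x ∉ S := by
      rw [h.mem_iff_dvd, hcard, Nat.dvd_add_left (dvd_mul_left _ _), Nat.dvd_one]
      exact hp.ne_one
    set N := normalizer ((zpowers x : Subgroup G) : Set G)
    have h1 : N ⊔ S = ⊤ := by
      rw [← card_eq_iff_eq_top]
      have h2 := H21.card_sup_mul_card_inf (show N ≤ normalizer (S : Set G) by
        rw [normalizer_eq_top]; exact le_top)
      rw [sup_comm, inf_comm, mul_comm (Nat.card S), h.normalizer_inf_eq_bot S hxS, card_bot, mul_one, hcard, ← hn, h.card_subgroups,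
        card_mul_index] at h2
      exact h2
    have h2 : (zpowers x ⊔ S).Normal := by
      rw [← normalizer_eq_top_iff, eq_top_iff, ← h1, sup_le_iff]
      refine ⟨?_, le_sup_right.trans le_normalizer⟩
      exact le_trans (le_inf le_rfl (by rw [normalizer_eq_top]; exact le_top))
        (normalizer_inf_normalizer_le_normalizer_sup _ _)
    have h3 := h.commutator_le _ (mem_sup_left (mem_zpowers x) : x ∈ zpowers x ⊔ S)
    have h4 : ⁅zpowers x ⊔ S, zpowers x ⊔ S⁆ ≤ S := by
      conv_rhs => rw [← QuotientGroup.ker_mk' S]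
      rw [← Subgroup.map_eq_bot_iff, map_commutator, Subgroup.map_sup, QuotientGroup.map_mk'_self,
        sup_bot_eq, MonoidHom.map_zpowers, commutator_self_eq_bot_iff]
      infer_instance
    exact hxS (h4 (commutator_mono h3 h3 (he.symm ▸ hx')))
  · rintro (ht | ⟨ht, hne⟩)
    · exact ⟨_, inferInstance, (A ht).1⟩
    · exact ⟨_, inferInstance, (B ht hne).1⟩

end Cfsg.Agent.S4509
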