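import Cfsg.Statements.S4513
import Cfsg.Agent.H86.NilAb

set_option autoImplicit false
open Cfsg

namespace Cfsg.Agent.S4513

open H86 H87 H32 Subgroup

theorem eq_or_eq {G : Type*} [Group G] {x y : G} (hx : orderOf x = 2) (hy : y ∈ zpowers x) :
    y = 1 ∨ y = x := by
  obtain ⟨n, rfl⟩ := hy
  have h2 : x ^ (2 : ℤ) = 1 := by rw [zpow_ofNat, ← hx, pow_orderOf_eq_one]
  rcases Int.even_or_odd' n with ⟨k, rfl | rfl⟩
  · left; simp only [zpow_mul, h2, one_zpow]
  · right; simp only [zpow_add, zpow_mul, h2, one_zpow, zpow_one, one_mul]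


/-- Blocks of defect one for p = 2. Let M be a maximal ideal of the algebraic integers containing 2, B a 2-block of the finite group G whose defect group is the subgroup generated by an involution x, C = C_G(x), b a block of C inducing B and θ a member of b taking the same value at x as at 1 (there is exactly one). Then B consists of exactly two irreducible characters, which agree on every element of odd order, and they can be labelled χ₁, χ₂ with signs ε₁, ε₂ = ±1, ε₁ε₂ = −1, such that χᵢ(x y) = εᵢ θ(y) for every element y of C of odd order. -/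
theorem result {G : Type*} [Group G] [Finite G] (M : Ideal Cfsg.AlgInt) (hM : Cfsg.IsPModular 2 M) (x : G) (hx : orderOf x = 2)
    (B : Set (Cfsg.IrrCharacter G)) (hB : Cfsg.IsPBlock M B) (hBD : Cfsg.IsDefectGroup 2 M B (Subgroup.zpowers x))
    (b : Set (Cfsg.IrrCharacter ↥(Subgroup.centralizer ({x} : Set G)))) (hb : Cfsg.IsInducedBlock M (Subgroup.centralizer ({x} : Set G)) b B)
    (θ : Cfsg.IrrCharacter ↥(Subgroup.centralizer ({x} : Set G))) (hθ : θ ∈ b)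
    (hθx : ∀ z : ↥(Subgroup.centralizer ({x} : Set G)), (z : G) = x → (θ : ↥(Subgroup.centralizer ({x} : Set G)) → ℂ) z = (θ : ↥(Subgroup.centralizer ({x} : Set G)) → ℂ) 1) :
    Nat.card B = 2 ∧ (∀ χ ∈ B, ∀ ψ ∈ B, ∀ g : G, ¬ 2 ∣ orderOf g → (χ : G → ℂ) g = (ψ : G → ℂ) g) ∧
      ∃ χ₁ ∈ B, ∃ χ₂ ∈ B, χ₁ ≠ χ₂ ∧ ∃ ε₁ ε₂ : ℤ, (ε₁ = 1 ∨ ε₁ = -1) ∧ (ε₂ = 1 ∨ ε₂ = -1) ∧ ε₁ * ε₂ = -1 ∧
        ∀ y : ↥(Subgroup.centralizer ({x} : Set G)), ¬ 2 ∣ orderOf y →
          (χ₁ : G → ℂ) (x * y) = (ε₁ : ℂ) * (θ : ↥(Subgroup.centralizer ({x} : Set G)) → ℂ) y ∧ (χ₂ : G → ℂ) (x * y) = (ε₂ : ℂ) * (θ : ↥(Subgroup.centralizer ({x} : Set G)) → ℂ) y := by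
  have := hM.2.1
  have : Fact (Nat.Prime 2) := ⟨Nat.prime_two⟩
  have := res_charP hM
  have := Fintype.ofFinite G
  have := Fintype.ofFinite (centralizer ({x} : Set G))
  have hC := isCent_centralizer x
  have hu : ∃ n, orderOf x = 2 ^ n := ⟨1, hx⟩
  have hbp := (hC.bpair_iff hM hu hb.1 hB).1 hb
  have hdef := isDef_of_isDefectGroup hM hB hBD
  have h : Ctx M 2 B (zpowers x) (idm M (centralizer ({x} : Set G)).subtype b) :=
    ⟨hM, hB, hbp.maxPair_of_isDef hdef⟩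
  have hx1 : x ≠ 1 := fun h1 => by rw [h1, orderOf_one] at hx; exact absurd hx (by decide)
  have hxx : x * x = 1 := by rw [← sq, ← hx, pow_orderOf_eq_one]
  have hNo : No (zpowers x) ≤ Ce (zpowers x) := fun g hg => by
    rw [← hC.eq_Ce]
    rcases eq_or_eq hx ((mem_normalizer_iff.1 hg x).1 (mem_zpowers x)) with h1 | h1
    · exact absurd (conj_eq_one_iff.1 h1) hx1
    · exact (hC g).2 (mul_inv_eq_iff_eq_mul.1 h1)
  have hab : zpowers x ≤ Ce (zpowers x) := le_normalizer.trans hNo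
  have hn := (h.nilp_iff_of_abelian hab).2 (inf_le_left.trans hNo)
  have hnB := h.isNilpotentBlock hn
  have hcomm : ∀ a ∈ zpowers x, ∀ c ∈ zpowers x, a * c = c * a := fun a ha c hc =>
    mem_Ce.1 (hab hc) a ha
  have huniq : ∀ f, BPair 2 ⊤ ⊤ (eB M B) (zpowers x) f →
      f = idm M (centralizer ({x} : Set G)).subtype b := fun f hf => by
    obtain ⟨t, ht, rfl⟩ := hdef.bpair_conj le_rfl top_le_No_top (blk_eB hB) hbp hf
    exact (Ce_le_stab h.pair (hNo ht.2)).2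
  have hle : zpowers x ≤ centralizer ({x} : Set G) := hC.eq_Ce ▸ hab
  have hbD : IsDefectGroup 2 M b ((zpowers x).subgroupOf (centralizer ({x} : Set G))) := by
    have h1 := h.isDef_of_central (mem_zpowers x) (hab (mem_zpowers x))
    rw [← h.eq_bi (Sub.refl _ _), top_inf_eq, ← hC.eq_Ce] at h1
    exact (isDefectGroup_subgroupOf_iff hM hle hb.1).2 h1
  have hZ : (zpowers x).subgroupOf (centralizer ({x} : Set G)) ≤ center _ := fun a ha =>
    mem_center_iff.2 fun c => Subtype.ext (mem_Ce.1 (hC.eq_Ce.le c.2) a ha).symm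
  have hbn := nilpotent_of_central hM hb.1 hbD hZ
  have hbab : ∀ a ∈ (zpowers x).subgroupOf (centralizer ({x} : Set G)),
      ∀ c ∈ (zpowers x).subgroupOf (centralizer ({x} : Set G)), a * c = c * a :=
    fun a _ c hc => mem_center_iff.1 (hZ hc) a
  obtain ⟨χ, hχ⟩ := isPBlock_nonempty hB
  have h0 := height_of_nilp_abelian hM hnB hBD hcomm hχ
  obtain ⟨n, hn1⟩ := exists_int_dn (c := b) hC (by rw [sq, hxx]) (H53.virt_of_irr χ.2)
  have hn2 : n = 1 ∨ n = -1 := by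
    have h1 := h.pow_mul_cn_of_nilp hn hχ h0 ⟨x, mem_zpowers x⟩
    have h2 := card_mul_con_eq (u := x) hM hbn hbD hbab (χ : G → ℂ) χ
    rw [h.df_of_central (mem_zpowers x) (hab (mem_zpowers x)),
      h.cn_eq_con hC hb.1 (Sub.refl _ _)] at h1
    rw [Nat.card_congr (subgroupOfEquivOfLe hle).toEquiv, h.card_eq, Nat.cast_pow, h1, hn1, map_intCast] at h2
    exact mul_self_eq_one_iff.1 (by exact_mod_cast h2.symm)
  obtain ⟨Φ, hΦ⟩ := h.exists_equiv_of_nilp hn hχ h0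
  obtain ⟨l, hl, hl1⟩ : ∃ l : zpowers x → ℂ, IsIrrCharacter _ l ∧ l ⟨x, mem_zpowers x⟩ ≠ l 1 := by
    by_contra h1
    push Not at h1
    exact hx1 (congrArg Subtype.val (H5.eq_one_of_forall_irr h1))
  have hl2 : l 1 = 1 := H5.degree_eq_one_of_comm (fun a c => Subtype.ext (hcomm _ a.2 _ c.2)) hl
  have hl3 : l ⟨x, mem_zpowers x⟩ = -1 := by
    refine (mul_self_eq_one_iff.1 ?_).resolve_left (hl2 ▸ hl1)
    rw [← H5.map_mul_of_degree_one (H5.isCharacter_of_isIrr hl) hl2, ← hl2]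
    exact congrArg l (Subtype.ext hxx)
  have e1 : ∀ y : centralizer ({x} : Set G), ¬ 2 ∣ orderOf y →
      (χ : G → ℂ) (x * y) = n * (θ : centralizer ({x} : Set G) → ℂ) y := fun y hy => by
    rw [apply_eq_gen hM hB hχ hu hC hb.1 huniq hy, gen_eq_dn_smul hM hbn hbD hbab hθ, hn1,
      Pi.smul_apply, reg_of_regular _ hy, smul_eq_mul]
  have e2 : ∀ y : centralizer ({x} : Set G), ¬ 2 ∣ orderOf y →
      ((Φ ⟨l, hl⟩ : IrrCharacter G) : G → ℂ) (x * y) =
        (-n : ℤ) * (θ : centralizer ({x} : Set G) → ℂ) y := fun y hy => by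
    rw [apply_eq_gen hM hB (Φ ⟨l, hl⟩).2 hu hC hb.1 huniq hy, hΦ, h.gen_st (h.stab_of_nilp hn
      (irr_cf hl)) (irr_cf χ.2) ⟨x, mem_zpowers x⟩ hC hb.1 (Sub.refl _ _),
      gen_eq_dn_smul hM hbn hbD hbab hθ, hn1, Pi.smul_apply, Pi.smul_apply,
      reg_of_regular _ hy, smul_eq_mul, smul_eq_mul, hl3]
    push_cast
    ring
  refine ⟨?_, fun χ hχ ψ hψ g hg => ?_, χ, hχ, _, (Φ ⟨l, hl⟩).2, fun h1 => ?_, n, -n, hn2,
    by omega, by rcases hn2 with rfl | rfl <;> rfl, fun y hy => ⟨e1 y hy, e2 y hy⟩⟩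
  · rw [card_of_nilp_abelian hM hnB hBD hcomm, Nat.card_zpowers, hx]
  · have h1 := congrFun (reg_eq_of_nilp_abelian hM hnB hBD hcomm hχ hψ) g
    rwa [reg_of_regular _ hg, reg_of_regular _ hg] at h1
  · have h2 : ¬ 2 ∣ orderOf (1 : centralizer ({x} : Set G)) := by simp
    have h3 := e2 1 h2
    rw [← h1, e1 1 h2] at h3
    have h4 : n = -n := by exact_mod_cast mul_right_cancel₀ (H5.degree_ne_zero θ.2) h3
    omega

end Cfsg.Agent.S4513
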