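import Cfsg.Statements.S4633
import Cfsg.Agent.H87.Dict6

set_option autoImplicit false
open Cfsg

namespace Cfsg.Agent.S4633

open Cfsg.Agent.H87 Cfsg.Agent.H32 MonoidAlgebra

/-- Let B be a block of the finite group G relative to a maximal ideal M of the algebraic integers containing the prime p, with a nontrivial cyclic defect group P. Let c be a block of C_G(P) inducing B and T the stabilizer of c in N_G(P) (the elements of N_G(P) conjugating c to itself); T contains C_G(P). Then T/C_G(P) is cyclic of order dividing p − 1, and it acts freely on the non-identity elements of P: an element of T fixing some non-identity element of P under conjugation lies in C_G(P). -/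
theorem result {G : Type*} [Group G] [Finite G] (p : ℕ) [Fact p.Prime] (M : Ideal Cfsg.AlgInt) (hM : Cfsg.IsPModular p M) (B : Set (Cfsg.IrrCharacter G)) (hB : Cfsg.IsPBlock M B) (P : Subgroup G) (hPD : Cfsg.IsDefectGroup p M B P) (hP1 : P ≠ ⊥) (hcyc : IsCyclic P) (c : Set (Cfsg.IrrCharacter (Subgroup.centralizer (P : Set G)))) (hc : Cfsg.IsInducedBlock M (Subgroup.centralizer (P : Set G)) c B) (T : Subgroup G) (hT : ∀ g : G, g ∈ T ↔ (g ∈ Subgroup.normalizer (P : Set G) ∧ Cfsg.StabilizesBlock (Subgroup.centralizer (P : Set G)) c g)) [hn : ((Subgroup.centralizer (P : Set G)).subgroupOf T).Normal] : IsCyclic (T ⧸ (Subgroup.centralizer (P : Set G)).subgroupOf T) ∧ (Subgroup.centralizer (P : Set G)).relIndex T ∣ p - 1 ∧ ∀ g ∈ T, ∀ x ∈ P, x ≠ 1 → g * x * g⁻¹ = x → g ∈ Subgroup.centralizer (P : Set G) := by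
  have := hM.2.1
  have := res_charP hM
  have hp : p.Prime := Fact.out
  have hm := maxPair_of_induced hM hPD hc
  have hcb := (isInducedBlock_iff.1 hc).1
  have hab := le_Ce_of_cyclic hcyc
  have hT' := stab_eq_of_iff hcb hT
  have hP := hm.bpair.pair.pgp
  have h1 := hm.not_dvd_relIndex (good hM) le_rfl top_le_No_top (blk_eB hB)
  rw [top_inf_eq, top_inf_eq, ← hT', sup_eq_left.2 hab] at h1
  have hTP : T ≤ No P := hT'.le.trans inf_le_left
  have free : ∀ g ∈ T, ∀ x ∈ P, x ≠ 1 → g * x * g⁻¹ = x → g ∈ Ce P := by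
    intro g hg x hx hx1 h
    obtain ⟨n, hn⟩ := exists_pow_mem_Ce_of_cyclic hcyc hP (hTP hg) hx hx1 h
    exact mem_of_pow_mem_of_relIndex (hTP.trans (No_le_No_Ce P)) h1 hg hn
  have : Nontrivial P := (Subgroup.nontrivial_iff_ne_bot P).2 hP1
  obtain ⟨z, hz⟩ := exists_prime_orderOf_dvd_card' (G := P) p
    (hP.card_eq_or_dvd.resolve_left Finite.one_lt_card.ne')
  have hz' : orderOf (z : G) = p := by rw [Subgroup.orderOf_coe, hz]
  have hz1 : (z : G) ≠ 1 := fun h => hp.one_lt.ne (by rw [← hz', h, orderOf_one])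
  let Z := Subgroup.zpowers (z : G)
  have hZP : Z ≤ P := Subgroup.zpowers_le.2 z.2
  have hZ : Nat.card Z = p := by rw [Nat.card_zpowers, hz']
  let φ : T →* MulAut Z :=
    Z.normalizerMonoidHom.comp (Subgroup.inclusion (hTP.trans (No_le_No_of_cyclic hcyc hZP)))
  have hker : φ.ker = (Ce P).subgroupOf T := by
    ext g
    rw [MonoidHom.mem_ker, Subgroup.mem_subgroupOf]
    constructor
    · intro h
      have h2 : φ g ⟨z, Subgroup.mem_zpowers _⟩ = ⟨z, Subgroup.mem_zpowers _⟩ := by rw [h]; rfl
      exact free g g.2 z z.2 hz1 (congrArg Subtype.val h2)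
    · intro h
      ext u
      show (g : G) * u * (g : G)⁻¹ = u
      rw [← mem_Ce.1 h u (hZP u.2)]; simp
  have hcy : IsCyclic (MulAut Z) := by
    have := ZMod.isCyclic_units_prime (hZ ▸ hp : (Nat.card Z).Prime)
    exact isCyclic_of_injective (IsCyclic.mulAutMulEquiv Z).toMonoidHom
      (IsCyclic.mulAutMulEquiv Z).injective
  have hinj : Function.Injective (QuotientGroup.lift _ φ hker.ge) :=
    (QuotientGroup.injective_lift_iff _ _ _).2 hker.symm
  refine ⟨isCyclic_of_injective _ hinj, ?_, free⟩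
  rw [← Nat.totient_prime hp, ← hZ, ← IsCyclic.card_mulAut]
  exact Subgroup.card_dvd_of_injective _ hinj

end Cfsg.Agent.S4633
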