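import Cfsg.Statements.S4634
import Cfsg.Agent.H87.FrobQ

set_option autoImplicit false
open Cfsg

namespace Cfsg.Agent.S4634

open Cfsg.Agent.H87 Cfsg.Agent.H32 MonoidAlgebra

/-- Let B be a block of the finite group G relative to a maximal ideal M of the algebraic integers containing the prime p, with a nontrivial cyclic defect group P, let c be a block of C_G(P) inducing B, T the stabilizer of c in N_G(P) and e the index of C_G(P) in T. Let F be any finite group of order #P · e having a cyclic subgroup Q of order #P that is its own centralizer (F is then the semidirect product of Q by a cyclic group of order e acting faithfully). Then there is a perfect isometry from the set of all irreducible characters of F onto B whose signs agree on all the characters of F that do not contain Q in their kernel. -/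
theorem result {G : Type*} [Group G] [Finite G] (p : ℕ) [Fact p.Prime] (M : Ideal Cfsg.AlgInt) (hM : Cfsg.IsPModular p M) (B : Set (Cfsg.IrrCharacter G)) (hB : Cfsg.IsPBlock M B) (P : Subgroup G) (hPD : Cfsg.IsDefectGroup p M B P) (hP1 : P ≠ ⊥) (hcyc : IsCyclic P) (c : Set (Cfsg.IrrCharacter (Subgroup.centralizer (P : Set G)))) (hc : Cfsg.IsInducedBlock M (Subgroup.centralizer (P : Set G)) c B) (T : Subgroup G) (hT : ∀ g : G, g ∈ T ↔ (g ∈ Subgroup.normalizer (P : Set G) ∧ Cfsg.StabilizesBlock (Subgroup.centralizer (P : Set G)) c g)) (e : ℕ) (he : (Subgroup.centralizer (P : Set G)).relIndex T = e) (F : Type*) [Group F] [Finite F] (hF : Nat.card F = Nat.card P * e) (Q : Subgroup F) (hQ : IsCyclic Q) (hQcard : Nat.card Q = Nat.card P) (hQC : Subgroup.centralizer (Q : Set F) = Q) : ∃ (I : Cfsg.IrrCharacter F → Cfsg.IrrCharacter G) (ε : Cfsg.IrrCharacter F → ℤ), Cfsg.IsPerfectIsometry p M (Set.univ : Set (Cfsg.IrrCharacter F)) B I ε ∧ ∀ η η' : Cfsg.IrrCharacter F, (∃ x ∈ Q,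 (η : F → ℂ) x ≠ (η : F → ℂ) 1) → (∃ x ∈ Q, (η' : F → ℂ) x ≠ (η' : F → ℂ) 1) → ε η = ε η' := by
  have := hM.2.1
  have := res_charP hM
  have h : H86.Ctx M p B P _ := ⟨hM, hB, maxPair_of_induced hM hPD hc⟩
  have h1 : Nat.card (iq P (idm M (Ce P).subtype c)) = e := by
    rw [card_iq h.pair, ← stab_eq_of_iff (isInducedBlock_iff.1 hc).1 hT, he]
  obtain ⟨δ, ε, ζ, X, s, hs⟩ := exists_std_of_cyclic h hP1
  have hp := hM.1
  have h2 : p ∣ Nat.card P :=
    (h.pgp.card_eq_or_dvd).resolve_left fun h0 => hP1 (Subgroup.card_eq_one.1 h0)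
  have h3 : e ∣ p - 1 := h1 ▸ FpfA.card_dvd_pred hs.fpf h2
  have h4 : Q.index = e := Nat.eq_of_mul_eq_mul_left (Nat.card_pos (α := Q))
    (by rw [Q.card_mul_index, hF, hQcard])
  have hQp : IsPGroup p Q := by
    obtain ⟨n, hn⟩ := IsPGroup.iff_card.1 h.pgp
    exact IsPGroup.of_card (hQcard.trans hn)
  have := hp.two_le
  obtain ⟨h5, h6⟩ := normal_of_index_lt hQp (h4 ▸ (Nat.le_of_dvd (by omega) h3).trans_lt (by omega))
  have h' := ctx_univ hM h5 hQC.le
  have hQ1 : Q ≠ ⊥ := fun h0 => hP1 (by rw [← Subgroup.card_eq_one, ← hQcard, h0, Subgroup.card_bot])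
  obtain ⟨δ', ε', ζ', X', s', hs'⟩ := exists_std_of_cyclic h' hQ1
  have hN : ∀ g, g ∈ No Q ⊓ stab (1 : MonoidAlgebra (Res M) F) := fun g =>
    ⟨(Subgroup.normalizer_eq_top Q).ge trivial, inv_one ⊤ g trivial⟩
  have h7 : Nat.card (iq Q (1 : MonoidAlgebra (Res M) F)) = e := by
    rw [card_iq h'.pair, (Subgroup.eq_top_iff' _).2 hN, Subgroup.relIndex_top_right, Ce, hQC, h4]
  let α : P ≃* Q := mulEquivOfCyclicCardEq hQcard.symm
  have h8 : (iq P (idm M (Ce P).subtype c)).map (MulAut.congr α).toMonoidHom = iq Q 1 :=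
    (aut_eq_of_card_eq hQp (by
      rw [h7, Subgroup.card_map_of_injective (MulAut.congr α).injective, h1]) (h7 ▸ h3)).symm
  obtain ⟨I, E, h9, -⟩ := hs.exists_perfect hs' α fun γ => by
    rw [← h8]
    exact (Subgroup.mem_map_iff_mem (f := (MulAut.congr α).toMonoidHom)
      (MulAut.congr α).injective).symm
  refine ⟨I, E, h9, fun η η' => sign_eq_of_perfect hQp (fun g hg k hk hgk => ?_) h9⟩
  obtain ⟨γ, hγ, h10⟩ := exists_mem_iq (hN g)
  rcases hs'.fpf γ hγ ⟨k, hk⟩ (Subtype.ext (by rw [h10, hgk, mul_inv_cancel_right])) with a | a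
  · refine (hg (hQC.le (mem_Ce.2 fun q hq => ?_))).elim
    have := h10 ⟨q, hq⟩
    rw [a, MulAut.one_apply] at this
    exact (eq_mul_inv_iff_mul_eq.1 this)
  · exact congrArg Subtype.val a

end Cfsg.Agent.S4634
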