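import Cfsg.Statements.S4635
import Cfsg.Agent.H87.CycS

set_option autoImplicit false
open Cfsg

namespace Cfsg.Agent.S4635

open Cfsg.Agent.H87 Cfsg.Agent.H32 MonoidAlgebra

/-- Let B be a block of the finite group G relative to a maximal ideal M of the algebraic integers containing the prime p, with a nontrivial cyclic defect group P; let Z be the subgroup of order p of P and H = N_G(Z), which contains N_G(P). Let c be the block of H with defect group P that induces B. Then B and c contain the same number of irreducible characters, have the same p-regular rank, and there is a perfect isometry from c onto B. -/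
theorem result {G : Type*} [Group G] [Finite G] (p : ℕ) [Fact p.Prime] (M : Ideal Cfsg.AlgInt) (hM : Cfsg.IsPModular p M) (B : Set (Cfsg.IrrCharacter G)) (hB : Cfsg.IsPBlock M B) (P : Subgroup G) (hPD : Cfsg.IsDefectGroup p M B P) (hP1 : P ≠ ⊥) (hcyc : IsCyclic P) (Z : Subgroup G) (hZ : Z ≤ P) (hZcard : Nat.card Z = p) (H : Subgroup G) (hH : H = Subgroup.normalizer (Z : Set G)) (c : Set (Cfsg.IrrCharacter H)) (hcD : Cfsg.IsDefectGroup p M c (P.subgroupOf H)) (hc : Cfsg.IsInducedBlock M H c B) : Nat.card c = Nat.card B ∧ Cfsg.blockRank p c = Cfsg.blockRank p B ∧ ∃ (I : Cfsg.IrrCharacter H → Cfsg.IrrCharacter G) (ε : Cfsg.IrrCharacter H → ℤ), Cfsg.IsPerfectIsometry p M c B I ε := by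
  have := hM.2.1
  obtain ⟨e, e', α, h, h', hα⟩ :=
    exists_ctx_of_induced hM (hH ▸ No_le_No_of_cyclic hcyc hZ) hcD hc hPD
  have : IsCyclic (P.subgroupOf H) := isCyclic_of_surjective α α.surjective
  have h1 : P.subgroupOf H ≠ ⊥ := fun h0 => hP1 (by
    rw [← Subgroup.card_eq_one, Nat.card_congr α.toEquiv, h0, Subgroup.card_bot])
  obtain ⟨δ, ε, ζ, X, s, hs⟩ := exists_std_of_cyclic h hP1
  obtain ⟨δ', ε', ζ', X', s', hs'⟩ := exists_std_of_cyclic h' h1
  obtain ⟨I, E, h2, -⟩ := hs.exists_perfect hs' α hα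
  exact ⟨Nat.card_congr h2.1.equiv, by rw [rank_eq_of_cyclic h hP1, rank_eq_of_cyclic h' h1,
    card_eq_of_congr α hα], I, E, h2⟩

end Cfsg.Agent.S4635
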