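import Cfsg.Statements.S4636
import Cfsg.Agent.H42.Index2
import Cfsg.Agent.H72.Conj

set_option autoImplicit false
open scoped Pointwise
open Cfsg

namespace Cfsg.Agent.S4636

open Subgroup

/-- Let P be a nontrivial cyclic p-subgroup of the finite group G and Z its subgroup of order p. For every x outside N_G(Z), P meets its conjugate xPx⁻¹ trivially; consequently N_G(Q) ≤ N_G(Z) for every nontrivial subgroup Q of P. -/
theorem result {G : Type*} [Group G] [Finite G] (p : ℕ) [Fact p.Prime] (P : Subgroup G) (hP : IsPGroup p P) (hP1 : P ≠ ⊥) (hcyc : IsCyclic P) (Z : Subgroup G) (hZ : Z ≤ P) (hZcard : Nat.card Z = p) : (∀ x : G, x ∉ Subgroup.normalizer (Z : Set G) → P ⊓ MulAut.conj x • P = ⊥) ∧ ∀ Q : Subgroup G, Q ≤ P → Q ≠ ⊥ → Subgroup.normalizer (Q : Set G) ≤ Subgroup.normalizer (Z : Set G) := by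
  obtain ⟨a, rfl⟩ := (Subgroup.isCyclic_iff_exists_zpowers_eq_top P).mp hcyc
  have key : ∀ x : G, x ∉ normalizer (Z : Set G) → zpowers a ⊓ MulAut.conj x • zpowers a = ⊥ := by
    intro x hx
    by_contra h
    apply hx
    have h1 : IsPGroup p ↥(zpowers a ⊓ MulAut.conj x • zpowers a) := hP.to_le inf_le_left
    have : Nontrivial ↥(zpowers a ⊓ MulAut.conj x • zpowers a) := (nontrivial_iff_ne_bot _).mpr h
    obtain ⟨k, hk0, hk⟩ := h1.nontrivial_iff_card.mp this
    obtain ⟨y, hy⟩ := exists_prime_orderOf_dvd_card' (G := ↥(zpowers a ⊓ MulAut.conj x • zpowers a))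
      p (by rw [hk]; exact dvd_pow_self p hk0.ne')
    rw [← Subgroup.orderOf_coe] at hy
    have e1 : zpowers (y : G) = Z := H42.eq_of_le_zpowers_of_card (zpowers_le.mpr y.2.1) hZ
      (by rw [Nat.card_zpowers, hy, hZcard])
    have e2 : zpowers (y : G) = H72.cj x Z := H42.eq_of_le_zpowers_of_card (x := x * a * x⁻¹)
      (by rw [← H72.cj_zpowers]; exact zpowers_le.mpr y.2.2)
      (by rw [← H72.cj_zpowers]; exact H72.cj_mono x hZ)
      (by rw [Nat.card_zpowers, hy, H72.card_cj, hZcard])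
    exact H72.cj_eq_iff.mp (e2.symm.trans e1)
  refine ⟨key, fun Q hQ hQ1 x hx => ?_⟩
  by_contra h
  apply hQ1
  rw [eq_bot_iff, ← key x h]
  refine le_inf hQ ?_
  rw [← H72.cj_eq_of_mem_normalizer hx]
  exact H72.cj_mono x hQ

end Cfsg.Agent.S4636
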