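import Cfsg.Statements.S4637
import Cfsg.Agent.H87.Perf

set_option autoImplicit false
open Cfsg

namespace Cfsg.Agent.S4637

open Cfsg.Agent.H87 Cfsg.Agent.H32 MonoidAlgebra

/-- Let B be a block of the finite group G relative to a maximal ideal M of the algebraic integers containing 2, with a Klein four defect group P. Let c be a block of C_G(P) inducing B, T the stabilizer of c in N_G(P) and e the index of C_G(P) in T (the inertial index). Then e is 1 or 3, B contains exactly four irreducible characters, and the 2-regular rank of B (its number of irreducible Brauer characters) equals e. -/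
theorem result {G : Type*} [Group G] [Finite G] (M : Ideal Cfsg.AlgInt) (hM : Cfsg.IsPModular 2 M) (B : Set (Cfsg.IrrCharacter G)) (hB : Cfsg.IsPBlock M B) (P : Subgroup G) (hPD : Cfsg.IsDefectGroup 2 M B P) (hV : IsKleinFour P) (c : Set (Cfsg.IrrCharacter (Subgroup.centralizer (P : Set G)))) (hc : Cfsg.IsInducedBlock M (Subgroup.centralizer (P : Set G)) c B) (T : Subgroup G) (hT : ∀ g : G, g ∈ T ↔ (g ∈ Subgroup.normalizer (P : Set G) ∧ Cfsg.StabilizesBlock (Subgroup.centralizer (P : Set G)) c g)) (e : ℕ) (he : (Subgroup.centralizer (P : Set G)).relIndex T = e) : (e = 1 ∨ e = 3) ∧ Nat.card B = 4 ∧ Cfsg.blockRank 2 B = e := by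
  have := hM.2.1
  have := res_charP hM
  have h : H86.Ctx M 2 B P _ := ⟨hM, hB, maxPair_of_induced hM hPD hc⟩
  have h1 : Nat.card (iq P (idm M (Ce P).subtype c)) = e := by
    rw [card_iq h.pair, ← stab_eq_of_iff (isInducedBlock_iff.1 hc).1 hT, he]
  have hA : ∀ a b : P, a * b = b * a := IsKleinFour.isMulCommutative.is_comm.comm
  have hab : P ≤ Ce P := fun a ha => mem_Ce.2 fun b hb => congrArg Subtype.val (hA ⟨b, hb⟩ ⟨a, ha⟩)
  obtain ⟨h2, h3, δ, ε, ζ, X, s, hs⟩ := exists_std_of_three h hab card_inv_of_klein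
  have h6 := hs.toFrob.card_eq
  rw [h3, h1, hV.card_four] at h6
  rw [h1] at h2 h3
  refine ⟨h2, ?_, h3⟩
  rcases h2 with rfl | rfl <;> omega

end Cfsg.Agent.S4637
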