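import Cfsg.Statements.S4638
import Cfsg.Agent.H87.Perf

set_option autoImplicit false
open Cfsg

namespace Cfsg.Agent.S4638

open Cfsg.Agent.H87 Cfsg.Agent.H32 MonoidAlgebra

/-- Let B be a block of the finite group G relative to a maximal ideal M of the algebraic integers containing 2, with a Klein four defect group P, and let c be its Brauer correspondent: the block of N_G(P) with defect group P that induces B. Then there is a perfect isometry from c onto B. -/
theorem result {G : Type*} [Group G] [Finite G] (M : Ideal Cfsg.AlgInt) (hM : Cfsg.IsPModular 2 M) (B : Set (Cfsg.IrrCharacter G)) (hB : Cfsg.IsPBlock M B) (P : Subgroup G) (hPD : Cfsg.IsDefectGroup 2 M B P) (hV : IsKleinFour P) (c : Set (Cfsg.IrrCharacter (Subgroup.normalizer (P : Set G)))) (hcD : Cfsg.IsDefectGroup 2 M c (P.subgroupOf (Subgroup.normalizer (P : Set G)))) (hc : Cfsg.IsInducedBlock M (Subgroup.normalizer (P : Set G)) c B) : ∃ (I : Cfsg.IrrCharacter (Subgroup.normalizer (P : Set G)) → Cfsg.IrrCharacter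 G) (ε : Cfsg.IrrCharacter (Subgroup.normalizer (P : Set G)) → ℤ), Cfsg.IsPerfectIsometry 2 M c B I ε := by
  have := hM.2.1
  obtain ⟨e, e', α, h, h', hα⟩ := exists_ctx_of_induced hM le_rfl hcD hc hPD
  have hV' : IsKleinFour (P.subgroupOf (No P)) :=
    ⟨Nat.card_congr α.toEquiv ▸ hV.card_four, Monoid.exponent_eq_of_mulEquiv α ▸ hV.exponent_two⟩
  have hab : ∀ {K : Type _} [Group K] (Q : Subgroup K) [IsKleinFour Q], Q ≤ Ce Q :=
    fun Q _ a ha => mem_Ce.2 fun b hb => congrArg Subtype.val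
      (IsKleinFour.isMulCommutative.is_comm.comm (⟨b, hb⟩ : Q) ⟨a, ha⟩)
  obtain ⟨-, -, δ, ε, ζ, X, s, hs⟩ := exists_std_of_three h (hab P) card_inv_of_klein
  obtain ⟨-, -, δ', ε', ζ', X', s', hs'⟩ := exists_std_of_three h' (hab _) card_inv_of_klein
  obtain ⟨I, E, h1, -⟩ := hs.exists_perfect hs' α hα
  exact ⟨I, E, h1⟩

end Cfsg.Agent.S4638
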