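import Cfsg.Statements.S4639
import Cfsg.Agent.H87.CycS

set_option autoImplicit false
open Cfsg

namespace Cfsg.Agent.S4639

open Cfsg.Agent.H87 Cfsg.Agent.H32 MonoidAlgebra

/-- Let B be a block of the finite group G relative to a maximal ideal M of the algebraic integers containing the prime p, with a nontrivial commutative defect group P. Let c be a block of C_G(P) inducing B, T the stabilizer of c in N_G(P) and e the index of C_G(P) in T. Suppose that T/C_G(P) is commutative (all commutators of elements of T lie in C_G(P)) and acts freely on the non-identity elements of P (an element of T fixing a non-identity element of P under conjugation lies in C_G(P)). Then B has at most e + (#P − 1)/e irreducible characters and p-regular rank at most e; equality holds in the first bound exactly when it holds in the second; and both equalities hold when e ≤ 3. -/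
theorem result {G : Type*} [Group G] [Finite G] (p : ℕ) [Fact p.Prime] (M : Ideal Cfsg.AlgInt) (hM : Cfsg.IsPModular p M) (B : Set (Cfsg.IrrCharacter G)) (hB : Cfsg.IsPBlock M B) (P : Subgroup G) (hPD : Cfsg.IsDefectGroup p M B P) (hP1 : P ≠ ⊥) (hPab : ∀ x ∈ P, ∀ y ∈ P, x * y = y * x) (c : Set (Cfsg.IrrCharacter (Subgroup.centralizer (P : Set G)))) (hc : Cfsg.IsInducedBlock M (Subgroup.centralizer (P : Set G)) c B) (T : Subgroup G) (hT : ∀ g : G, g ∈ T ↔ (g ∈ Subgroup.normalizer (P : Set G) ∧ Cfsg.StabilizesBlock (Subgroup.centralizer (P : Set G)) c g)) (e : ℕ) (he : (Subgroup.centralizer (P : Set G)).relIndex T = e) (hEab : ∀ g ∈ T, ∀ h ∈ T, g * h * g⁻¹ * h⁻¹ ∈ Subgroup.centralizer (P : Set G)) (hfree : ∀ g ∈ T, ∀ x ∈ P, x ≠ 1 → g * x * g⁻¹ = x → g ∈ Subgroup.centralizer (P : Set G)) : Nat.card B ≤ e + (Nat.card P - 1) / e ∧ Cfsg.blockRank p B ≤ e ∧ (Nat.card B = e + (Nat.card P - 1) / e ↔ Cfsg.blockRank p B = e) ∧ (e ≤ 3 → Nat.card B = e + (Nat.card P - 1) / e ∧ Cfsg.blockRank p B = e) := by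
  have := hM.2.1
  have h : H86.Ctx M p B P _ := ⟨hM, hB, maxPair_of_induced hM hPD hc⟩
  have hT' := stab_eq_of_iff (isInducedBlock_iff.1 hc).1 hT
  have h0 : Nat.card (iq P (idm M (Ce P).subtype c)) = e := by rw [card_iq h.pair, ← hT', he]
  obtain ⟨δ, hF⟩ := exists_frob h (fun x hx => mem_Ce.2 fun y hy => hPab y hy x hx)
    (fpf_iq_iff.2 (hT' ▸ hfree))
  have h1 := hF.rank_le hP1
  have h2 := hF.card_eq
  have h3 : 0 < e := h0 ▸ Nat.card_pos
  rw [h0] at h1 h2
  have h4 : Nat.card B = blockRank p B + (Nat.card P - 1) / e := by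
    have h5 : 0 < Nat.card P := Nat.card_pos
    rw [← Nat.mul_div_cancel (Nat.card B) h3, add_comm, ← Nat.add_mul_div_right _ _ h3]
    congr 1; omega
  have h5 : e ≤ 3 → blockRank p B = e := fun h5 => by
    rcases hF.rank_small hP1 (h0 ▸ h5) with h6 | h6 | h6
    · rw [h6, h0]
    · have : Fact (Nat.Prime 7) := ⟨by decide⟩
      have := isCyclic_of_prime_card h6
      rw [rank_eq_of_cyclic h hP1, h0]
    · have : Fact (Nat.Prime 13) := ⟨by decide⟩
      have := isCyclic_of_prime_card h6
      rw [rank_eq_of_cyclic h hP1, h0]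
  exact ⟨by omega, h1, by omega, fun h6 => ⟨by rw [h4, h5 h6], h5 h6⟩⟩

end Cfsg.Agent.S4639
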