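import Cfsg.Statements.S4640
import Cfsg.Agent.H86.NilAb
import Cfsg.Agent.H34.Cover

set_option autoImplicit false
open Cfsg

namespace Cfsg.Agent.S4640

open H86 H87 H32 Subgroup ComplexConjugate

theorem sum_hom {Q : Type*} [Group Q] [Finite Q] [Fintype (Q →* ℂˣ)] (hQ : ∀ a b : Q, a * b = b * a)
    {x : Q} (hx : x ≠ 1) : ∑ l : Q →* ℂˣ, (l x : ℂ) = 0 := by
  refine sum_hom_units_eq_zero ((Units.coeHom ℂ).comp (MonoidHom.eval x)) fun h => hx ?_
  refine H5.eq_one_of_forall_irr fun χ hχ => ?_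
  obtain ⟨l, rfl⟩ := H5.exists_monoidHom_of_comm hQ hχ
  simpa using DFunLike.congr_fun h l

theorem card_hom {Q : Type*} [Group Q] [Finite Q] (hQ : ∀ a b : Q, a * b = b * a) :
    Nat.card (Q →* ℂˣ) = Nat.card Q := by
  rw [H5.card_monoidHom_eq_index_commutator, show _root_.commutator Q = ⊥ from ?_, index_bot]
  rw [commutator_def, commutator_eq_bot_iff_le_centralizer]
  exact fun a _ b _ => hQ b a

theorem ci_res {G : Type*} [Group G] [Fintype G] (N : Subgroup G) [N.Normal] [Fintype N]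
    [Fintype (G ⧸ N →* ℂˣ)] (hQ : ∀ a b : G ⧸ N, a * b = b * a) (χ ψ : G → ℂ) :
    classInner (fun n : N => χ n) (fun n : N => ψ n) =
      ∑ l : G ⧸ N →* ℂˣ, classInner (fun g : G => (l g : ℂ) * χ g) ψ := by
  classical
  simp only [classInner]
  rw [← Finset.mul_sum, Finset.sum_comm, Finset.sum_congr rfl fun (g : G) _ =>
    show ∑ l : G ⧸ N →* ℂˣ, (l g : ℂ) * χ g * conj (ψ g) =
      if g ∈ N then N.index * (χ g * conj (ψ g)) else 0 from ?_, ← Finset.sum_filter,
    Finset.sum_subtype (p := (· ∈ N)) _ (by simp), ← Finset.mul_sum, ← N.card_mul_index,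
    Nat.cast_mul, mul_inv, mul_assoc, inv_mul_cancel_left₀ (Nat.cast_ne_zero.2 N.index_ne_zero_of_finite)]
  simp only [mul_assoc]
  rw [← Finset.sum_mul]
  split_ifs with h
  · rw [(QuotientGroup.eq_one_iff g).2 h]
    simp only [map_one, Units.val_one, Finset.sum_const, Finset.card_univ, nsmul_eq_mul, mul_one]
    rw [← Nat.card_eq_fintype_card, card_hom hQ, index]
  · rw [sum_hom hQ (mt (QuotientGroup.eq_one_iff g).1 h), zero_mul]


/-- Let N be a normal subgroup of the finite group G of index a power of the prime p, M a maximal ideal of the algebraic integers containing p, b a block of N stabilized by every element of G, and B a block of G covering b (some member of B has a member of b as a constituent of its restriction to N). Suppose that B has a commutative defect group P. Then G = NP and P ∩ N is a defect group of b; every member of B restricts to a member of b; every member of b is the restriction of exactly [G : N] members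 of B; B contains exactly [G : N] times as many irreducible characters as b; and B and b have the same p-regular rank. -/
theorem result {G : Type*} [Group G] [Fintype G] (p : ℕ) [Fact p.Prime] (M : Ideal Cfsg.AlgInt) (hM : Cfsg.IsPModular p M) (N : Subgroup G) [N.Normal] [Fintype N] (hNi : ∃ k : ℕ, N.index = p ^ k) (b : Set (Cfsg.IrrCharacter N)) (hb : Cfsg.IsPBlock M b) (hstab : ∀ g : G, Cfsg.StabilizesBlock N b g) (B : Set (Cfsg.IrrCharacter G)) (hB : Cfsg.IsPBlock M B) (hcov : ∃ χ ∈ B, ∃ θ ∈ b, Cfsg.classInner (fun n : N => (χ : G → ℂ) n) (θ : N → ℂ) ≠ 0) (P : Subgroup G) (hPD : Cfsg.IsDefectGroup p M B P) (hPab : ∀ x ∈ P, ∀ y ∈ P, x * y = y * x) : N ⊔ P = ⊤ ∧ Cfsg.IsDefectGroup p M b ((P ⊓ N).subgroupOf N) ∧ (∀ χ ∈ B, ∃ θ ∈ b, ∀ n : N, (χ : G → ℂ) n = (θ : N → ℂ) n) ∧ (∀ θ ∈ b, Nat.card {χ : Cfsg.IrrCharacter G // χ ∈ B ∧ ∀ n : N, (χ : G → ℂ) n = (θ : N → ℂ) n} = N.index) ∧ Nat.card B = N.index * Nat.card b ∧ Cfsg.blockRank p B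 = Cfsg.blockRank p b := by
  classical
  have := hM.2.1
  have := res_charP hM
  obtain ⟨k, hk⟩ := hNi
  have hn := top_le_No_of_normal N
  have hq : PQuot p N ⊤ := pQuot_of_relIndex hn (by rw [relIndex_top_right, hk])
  have hz := (emb_subtype N).blk_idm hb
  have hi : Inv ⊤ (idm M N.subtype b) := fun g _ => ((stabilizesBlock_iff hb).1 (hstab g)).2
  have hz' : Blk ⊤ ⊤ (idm M N.subtype b) :=
    ((good hM).blk_iff_of_pQuot le_top le_rfl hq).1 (hz.of_inv le_top hi)
  have hcv : ∀ {B' : Set (IrrCharacter G)}, IsPBlock M B' → ∀ χ ∈ B', ∀ θ ∈ b,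
      classInner (fun n : N => (χ : G → ℂ) n) (θ : N → ℂ) ≠ 0 → eB M B' = idm M N.subtype b :=
    fun hB' χ hχ θ hθ h => IsPrim.eq_of_mul_ne_zero (isComm_fix le_rfl) (blk_eB hB') hz'
      ((covers_subtype_iff N hB' hb).1 ⟨χ, hχ, θ, hθ, h⟩)
  have he : eB M B = idm M N.subtype b := by
    obtain ⟨χ, hχ, θ, hθ, h⟩ := hcov
    exact hcv hB χ hχ θ hθ h
  have hmem : ∀ (χ : IrrCharacter G) (θ : IrrCharacter N),
      classInner (fun n : N => (χ : G → ℂ) n) (θ : N → ℂ) ≠ 0 → (χ ∈ B ↔ θ ∈ b) := fun χ θ h => by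
    refine ⟨fun hχ => ?_, fun hθ => ?_⟩
    · have hc := H33.isPBlock_blockOf (M := M) θ
      have h1 := (covers_subtype_iff N hB hc).1 ⟨χ, hχ, θ, H33.mem_blockOf_self θ, h⟩
      rw [he] at h1
      rw [idm_inj N.subtype_injective hb hc (IsPrim.eq_of_mul_ne_zero (isComm_fix le_rfl) hz
        ((emb_subtype N).blk_idm hc) h1)]
      exact H33.mem_blockOf_self θ
    · have hc := H33.isPBlock_blockOf (M := M) χ
      rw [eB_inj' hB hc (he.trans (hcv hc χ (H33.mem_blockOf_self χ) θ hθ h).symm)]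
      exact H33.mem_blockOf_self χ
  have hD := isDef_of_isDefectGroup hM hB hPD
  have hsup : N ⊔ P = ⊤ := (good hM).sup_eq_of_pQuot le_top hn hq hz hi (he ▸ hD)
  have hsurj : ∀ x : G ⧸ N, ∃ u ∈ P, (u : G ⧸ N) = x := fun x => by
    obtain ⟨g, rfl⟩ := QuotientGroup.mk_surjective x
    obtain ⟨n, hn, u, hu, rfl⟩ := mem_sup_of_le_No (le_top.trans hn) (hsup ▸ mem_top g)
    exact ⟨u, hu, by rw [QuotientGroup.mk_mul, (QuotientGroup.eq_one_iff n).2 hn, one_mul]⟩
  have hQ : ∀ a b : G ⧸ N, a * b = b * a := fun a b => by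
    obtain ⟨u, hu, rfl⟩ := hsurj a
    obtain ⟨v, hv, rfl⟩ := hsurj b
    rw [← QuotientGroup.mk_mul, hPab u hu v hv, QuotientGroup.mk_mul]
  have : Finite (G ⧸ N →* ℂˣ) := Nat.finite_of_card_ne_zero (by
    rw [card_hom hQ]; exact Nat.card_pos.ne')
  have := Fintype.ofFinite (G ⧸ N →* ℂˣ)
  have hreg : ∀ g : G, ¬ p ∣ orderOf g → g ∈ N := fun g hg => hq.mem_of_regular (mem_top g) hg
  obtain ⟨e, h⟩ := exists_ctx hM hB hPD
  have hirr : ∀ (l : G ⧸ N →* ℂˣ) (χ : IrrCharacter G),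
      IsIrrCharacter G fun g : G => (l g : ℂ) * (χ : G → ℂ) g := fun l χ =>
    H5.isIrrCharacter_monoidHom_mul χ.2 (l.comp (QuotientGroup.mk' N))
  have hfree : ∀ χ ∈ B, ∀ l : G ⧸ N →* ℂˣ, (fun g : G => (l g : ℂ) * (χ : G → ℂ) g) = χ → l = 1 :=
    fun χ hχ l hl => MonoidHom.ext fun x => by
      obtain ⟨u, hu, rfl⟩ := hsurj x
      by_contra h1
      have := Fintype.ofFinite (Ce (zpowers u))
      refine h.cn_self_ne_zero_of_central hu (mem_Ce.2 fun v hv => hPab v hv u hu) hχ ?_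
      have h2 : pRegularPart p (shift (Ce (zpowers u)) u (χ : G → ℂ)) = 0 :=
        reg_eq_zero_iff.2 fun s hs => by
          have h3 := congrFun hl (u * s)
          rw [QuotientGroup.mk_mul, (QuotientGroup.eq_one_iff _).2
            (hreg s (by rwa [orderOf_coe])), mul_one] at h3
          by_contra h4
          exact h1 (Units.ext ((mul_eq_right₀ h4).1 h3))
      rw [cn_eq, con, gen, h2, blockPart_zero, H5.classInner_self_eq_zero]
  have hres : ∀ χ ∈ B, IsIrrCharacter N fun n : N => (χ : G → ℂ) n := fun χ hχ => by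
    refine H5.isIrr_of_classInner_self_eq_one
      (H5.isCharacter_restrict (H5.isCharacter_of_isIrr χ.2) N) ?_
    rw [ci_res N hQ, Finset.sum_eq_single_of_mem 1 (Finset.mem_univ _) fun l _ hl =>
      H5.classInner_irr_ne (hirr l χ) χ.2 (mt (hfree χ hχ l) hl)]
    simpa using H5.classInner_irr_self χ.2
  have h3 : ∀ χ ∈ B, ∃ θ ∈ b, ∀ n : N, (χ : G → ℂ) n = (θ : N → ℂ) n := fun χ hχ =>
    ⟨⟨_, hres χ hχ⟩, (hmem χ _ (by
      rw [show classInner _ _ = 1 from H5.classInner_irr_self (hres χ hχ)]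
      exact one_ne_zero)).1 hχ, fun _ => rfl⟩
  have hex : ∀ θ ∈ b, ∃ χ ∈ B, ∀ n : N, (χ : G → ℂ) n = (θ : N → ℂ) n := fun θ hθ => by
    obtain ⟨χ, hχ⟩ := H34.exists_over N.subtype_injective θ
    have h1 := (hmem χ θ hχ).2 hθ
    exact ⟨χ, h1, congrFun (H5.eq_of_classInner_irr_ne_zero (hres χ h1) θ.2 hχ)⟩
  have h4 : ∀ θ ∈ b, Nat.card {χ : IrrCharacter G // χ ∈ B ∧ ∀ n : N,
      (χ : G → ℂ) n = (θ : N → ℂ) n} = N.index := fun θ hθ => by
    obtain ⟨χ, hχ, hχθ⟩ := hex θ hθ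
    have h1 : ∀ (l : G ⧸ N →* ℂˣ) (n : N), (l (n : G) : ℂ) * (χ : G → ℂ) n = (θ : N → ℂ) n :=
      fun l n => by rw [(QuotientGroup.eq_one_iff _).2 n.2, map_one, Units.val_one, one_mul, hχθ]
    rw [index, ← card_hom hQ]
    have h0 : ∀ l : G ⧸ N →* ℂˣ, (⟨_, hirr l χ⟩ : IrrCharacter G) ∈ B := fun l => by
      refine (hmem _ θ ?_).2 hθ
      rw [show classInner _ _ = classInner (θ : N → ℂ) θ from congrArg₂ _ (funext (h1 l)) rfl,
        H5.classInner_irr_self θ.2]
      exact one_ne_zero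
    refine (Nat.card_eq_of_bijective (fun l => ⟨⟨_, hirr l χ⟩, h0 l, h1 l⟩)
      ⟨fun l m hlm => ?_, fun ψ => ?_⟩).symm
    · have h2 := congrArg (fun x => (x.1 : G → ℂ)) hlm
      refine inv_mul_eq_one.1 (hfree χ hχ _ (funext fun g => ?_))
      rw [MonoidHom.mul_apply, Units.val_mul, mul_assoc, ← show _ = (m g : ℂ) * (χ : G → ℂ) g from
        congrFun h2 g, MonoidHom.inv_apply, Units.inv_mul_cancel_left]
    · have h2 := ci_res N hQ (χ : G → ℂ) (ψ.1 : G → ℂ)
      rw [funext hχθ, funext ψ.2.2, H5.classInner_irr_self θ.2] at h2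
      obtain ⟨l, -, hl⟩ := Finset.exists_ne_zero_of_sum_ne_zero (h2 ▸ one_ne_zero)
      exact ⟨l, Subtype.ext (Subtype.ext (H5.eq_of_classInner_irr_ne_zero (hirr l χ) ψ.1.2 hl))⟩
  refine ⟨hsup, (isDefectGroup_subgroupOf_iff hM inf_le_right hb).2 (IsDef.inf_of_cover le_top hn
    (blk_eB hB) hz (he ▸ by rw [he, hz.idem]; exact hz.ne_zero) hD
    (Br_ne_zero_mono inf_le_left (he ▸ hD.ne))), h3, h4, ?_, ?_⟩
  · choose f hf hf' using h3
    rw [← Nat.card_congr (Equiv.sigmaFiberEquiv fun χ : B => (⟨f χ χ.2, hf χ χ.2⟩ : b)),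
      Nat.card_sigma, Finset.sum_congr rfl fun θ _ => show _ = N.index from ?_, Finset.sum_const,
      Finset.card_univ, smul_eq_mul, mul_comm, Nat.card_eq_fintype_card]
    rw [← h4 θ θ.2]
    exact Nat.card_eq_of_bijective (fun x => ⟨x.1.1, x.1.2, fun n => (hf' _ x.1.2 n).trans
      (congrArg (fun t : b => (t.1 : N → ℂ) n) x.2)⟩)
      ⟨fun x y h => Subtype.ext (Subtype.ext (Subtype.mk.inj h)), fun y =>
        ⟨⟨⟨y.1, y.2.1⟩, Subtype.ext (Subtype.ext (funext fun n =>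
          (hf' _ y.2.1 n).symm.trans (y.2.2 n)))⟩, rfl⟩⟩
  · let E := Function.ExtendByZero.linearMap ℂ ((↑) : N → G)
    have hE : Function.Injective E := Function.extend_injective Subtype.val_injective _
    have h5 : ∀ (χ : G → ℂ) (θ : N → ℂ), (∀ n : N, χ n = θ n) →
        E (pRegularPart p θ) = pRegularPart p χ := fun χ θ h => funext fun g => by
      by_cases hg : g ∈ N
      · refine (Subtype.val_injective.extend_apply _ _ (⟨g, hg⟩ : N)).trans ?_
        rw [← funext h, reg_restrict]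
      · refine (Function.extend_apply' _ _ _ fun ⟨n, hn⟩ => hg (hn ▸ n.2)).trans ?_
        rw [reg_of_singular _ (by_contra fun h1 => hg (hreg g h1)), Pi.zero_apply]
    rw [blockRank, blockRank, (Submodule.equivMapOfInjective E hE _).finrank_eq,
      Submodule.map_span, ← Set.image_comp]
    refine congrArg (fun S : Set (G → ℂ) => Module.finrank ℂ (Submodule.span ℂ S))
      (Set.ext fun F => ⟨fun ⟨χ, hχ, hF⟩ => ?_, fun ⟨θ, hθ, hF⟩ => ?_⟩)
    · obtain ⟨θ, hθ, h⟩ := h3 χ hχ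
      exact ⟨θ, hθ, (h5 _ _ h).trans hF⟩
    · obtain ⟨χ, hχ, h⟩ := hex θ hθ
      exact ⟨χ, hχ, (h5 _ _ h).symm.trans hF⟩

end Cfsg.Agent.S4640
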