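import Cfsg.Statements.S4642
import Cfsg.Agent.H34.PrinType

set_option autoImplicit false
open Cfsg

namespace Cfsg.Agent.S4642

/-- Let G be a finite group, p a prime, M a maximal ideal of the algebraic integers containing p, K the largest normal subgroup of G of order prime to p, and L the preimage in G of the largest normal p-subgroup of G/K. Let Q be a Sylow p-subgroup of L and suppose C_G(Q) ≤ L. Let θ be an irreducible character of K invariant under conjugation by every element of G, and let B be the set of irreducible characters of G whose restriction to K contains θ. Then B is a block of G, every Sylow p-subgroup of G is a defect group of B, and B is of principal type: for every p-subgroup R of G exactly one block of C_G(R) induces B. -/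
theorem result {G : Type*} [Group G] [Fintype G] (p : ℕ) [Fact p.Prime] (M : Ideal Cfsg.AlgInt) (hM : Cfsg.IsPModular p M) (K : Subgroup G) (hK : K = Cfsg.pPrimeCore p G) [Fintype K] (L : Subgroup G) (hL : L = Cfsg.pPrimePCore p G) (Q : Subgroup G) (hQL : Q ≤ L) (hQp : IsPGroup p Q) (hQS : ¬ p ∣ Q.relIndex L) (hCQ : Subgroup.centralizer (Q : Set G) ≤ L) (θ : Cfsg.IrrCharacter K) (hθ : ∀ g : G, Cfsg.IsConjCharOf K g (θ : K → ℂ) (θ : K → ℂ)) (B : Set (Cfsg.IrrCharacter G)) (hBdef : ∀ χ : Cfsg.IrrCharacter G, χ ∈ B ↔ Cfsg.classInner (fun k : K => (χ : G → ℂ) k) (θ : K → ℂ) ≠ 0) : Cfsg.IsPBlock M B ∧ (∀ S : Sylow p G, Cfsg.IsDefectGroup p M B S) ∧ ∀ R : Subgroup G, IsPGroup p R → ∃! f : Set (Cfsg.IrrCharacter (Subgroup.centralizer (R : Set G))), Cfsg.IsInducedBlock M (Subgroup.centralizer (R : Set G)) f B := by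
  have := hM.2.1
  subst hK hL
  have hN' : ¬ p ∣ Nat.card (pPrimeCore p G) :=
    (Nat.Prime.coprime_iff_not_dvd hM.1).mp (H22.coprime_card_pPrimeCore (p := p) (G := G)).symm
  have hi : (H34.NEmb.ofNormal (pPrimeCore p G)).Inv {θ} := by
    rintro g _ rfl
    refine Subtype.ext (funext fun n => ?_)
    rw [H34.NEmb.act_apply]
    exact hθ g n _ ((H34.NEmb.ofNormal _).ι_cj g n)
  have hQ : H22.IsCharP p (G ⧸ pPrimeCore p G) :=
    (H22.centralizer_le_pPrimePCore_iff (H92.sylIn_of_not_dvd_relIndex hQL hQp hQS)).mp hCQ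
  have hB := H34.isPBlock_overSet_of_isCharP hM hN' hi (QuotientGroup.mk'_surjective (pPrimeCore p G))
    (by rw [QuotientGroup.ker_mk']; exact (Subgroup.range_subtype _).symm) hQ
  have hd := (H34.full_defect_overSet hM hN' hi hB).ge
  have hBe : B = H34.overSet (pPrimeCore p G).subtype {θ} := Set.ext fun χ => by
    rw [hBdef]
    exact ⟨fun h => ⟨θ, rfl, h⟩, by rintro ⟨_, rfl, h⟩; exact h⟩
  subst hBe
  refine ⟨hB, fun P => ?_, fun R hR => ?_⟩
  · exact H34.isDefectGroup_of_sylIn_top hM hB hd (H87.sylIn_top_iff.mpr ⟨P, rfl⟩)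
  · simpa only [H34.indBlk_subtype] using H34.existsUnique_indBlk_Ce hM hN' hi hQ hR

end Cfsg.Agent.S4642
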