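import Cfsg.Statements.S4644
import Cfsg.Agent.H86.Wat

set_option autoImplicit false
open Cfsg

namespace Cfsg.Agent.S4644

open H86 H87 H32 Subgroup


/-- Let B be a block of the finite group G relative to a maximal ideal M of the algebraic integers containing the prime p, with a commutative defect group P; let c be a block of C_G(P) inducing B and T the stabilizer of c in N_G(P). Let u be an element of P fixed under conjugation by every element of T, H = C_G(u) (so C_G(P) ≤ H), and f the block of H induced by c inside H. Then B and f have the same p-regular rank and the same number of irreducible characters. -/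
theorem result {G : Type*} [Group G] [Finite G] (p : ℕ) [Fact p.Prime] (M : Ideal Cfsg.AlgInt) (hM : Cfsg.IsPModular p M) (B : Set (Cfsg.IrrCharacter G)) (hB : Cfsg.IsPBlock M B) (P : Subgroup G) (hPD : Cfsg.IsDefectGroup p M B P) (hPab : ∀ x ∈ P, ∀ y ∈ P, x * y = y * x) (c : Set (Cfsg.IrrCharacter (Subgroup.centralizer (P : Set G)))) (hc : Cfsg.IsInducedBlock M (Subgroup.centralizer (P : Set G)) c B) (T : Subgroup G) (hT : ∀ g : G, g ∈ T ↔ (g ∈ Subgroup.normalizer (P : Set G) ∧ Cfsg.StabilizesBlock (Subgroup.centralizer (P : Set G)) c g)) (u : G) (hu : u ∈ P) (huT : ∀ g ∈ T, g * u * g⁻¹ = u) (H : Subgroup G) (hH : H = Subgroup.centralizer ({u} : Set G)) (f : Set (Cfsg.IrrCharacter H)) (hf : Cfsg.IsInducedBlockIn M H (Subgroup.centralizer (P : Set G)) c f) : Cfsg.blockRank p B = Cfsg.blockRank p f ∧ Nat.card B = Nat.card f := by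
  have := hM.2.1
  have h : Ctx M p B P (idm M (Ce P).subtype c) := ⟨hM, hB, maxPair_of_induced hM hPD hc⟩
  have hab : P ≤ Ce P := fun x hx => mem_Ce.2 fun y hy => hPab y hy x hx
  rw [stab_eq_of_iff hc.1 hT] at *
  rw [← Ce_zpowers] at hH
  subst hH
  obtain ⟨h1, h2⟩ := (isInducedBlockIn_Ce_iff hM h.pgp (zpowers_le.2 hu)
    (hab.trans (Ce_anti (zpowers_le.2 hu))) hc.1).1 hf
  rw [h.eq_blk h1 h2]
  exact ⟨(h.lb_eq_rank hab hu huT).symm, (h.card_blk_eq hab hu huT).symm⟩

end Cfsg.Agent.S4644
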