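import Cfsg.Statements.S4689
import Cfsg.Agent.H86.Nil

set_option autoImplicit false
open Cfsg

namespace Cfsg.Agent.S4689

/-- Fix a prime p and a maximal ideal M of the algebraic integers containing p, and a nilpotent p-block B of the finite group G. Then B has p-regular rank one (a single irreducible Brauer character), and some χ₀ ∈ B restricts to that Brauer character: every χ ∈ B agrees on the p-regular elements with a natural-number multiple of χ₀. -/
theorem result {G : Type*} [Group G] [Fintype G] (p : ℕ) [Fact p.Prime] (M : Ideal Cfsg.AlgInt) (hM : Cfsg.IsPModular p M) (B : Set (Cfsg.IrrCharacter G)) (hnil : Cfsg.IsNilpotentBlock p M B) : Cfsg.blockRank p B = 1 ∧ ∃ χ₀ ∈ B, ∀ χ ∈ B, ∃ d : ℕ, ∀ x : G, Cfsg.pRegularPart p (χ : G → ℂ) x = (d : ℂ) * Cfsg.pRegularPart p (χ₀ : G → ℂ) x := by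
  have := hM.2.1
  refine ⟨H86.blockRank_of_nilpotent hM hnil, ?_⟩
  obtain ⟨P, hP⟩ := H32.exists_isDefectGroup p hnil.1
  obtain ⟨e, h, hn⟩ := H86.exists_ctx_of_nilpotent hM hnil hP
  obtain ⟨χ, hχ, h0⟩ := H86.exists_height_zero (p := p) (H32.isPBlock_nonempty h.hB)
  obtain ⟨Φ, hΦ⟩ := h.exists_equiv_of_nilp hn hχ h0
  refine ⟨χ, hχ, fun ψ hψ => ?_⟩
  obtain ⟨l, hl⟩ := Φ.surjective ⟨ψ, hψ⟩
  obtain ⟨d, hd⟩ := H5.exists_nat_degree (H5.isCharacter_of_isIrr l.2)
  have h1 := h.reg_eq_of_nilp hn hχ l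
  rw [← hΦ, hl, hd] at h1
  exact ⟨d, fun x => congrFun h1 x⟩

end Cfsg.Agent.S4689
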