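import Cfsg.Statements.S4645
import Cfsg.Agent.H87.Dict6
import Cfsg.Agent.S4689

set_option autoImplicit false
open Cfsg

namespace Cfsg.Agent.S4645

open Cfsg.Agent.H87 Cfsg.Agent.H32 MonoidAlgebra

/-- Let B be a block of the finite group G relative to a maximal ideal M of the algebraic integers containing the prime p, with a nontrivial cyclic defect group P; let c be a block of C_G(P) inducing B and T the stabilizer of c in N_G(P). Let Q be a nontrivial subgroup of P (so C_G(P) ≤ C_G(Q)), f the block of C_G(Q) induced by c inside C_G(Q), and T' the stabilizer of f in N_G(Q). Then T' = T·C_G(Q), the index of C_G(Q) in T' equals the index of C_G(P) in T, f has p-regular rank 1, and f is a nilpotent block of C_G(Q). -/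
theorem result {G : Type*} [Group G] [Finite G] (p : ℕ) [Fact p.Prime] (M : Ideal Cfsg.AlgInt) (hM : Cfsg.IsPModular p M) (B : Set (Cfsg.IrrCharacter G)) (hB : Cfsg.IsPBlock M B) (P : Subgroup G) (hPD : Cfsg.IsDefectGroup p M B P) (hP1 : P ≠ ⊥) (hcyc : IsCyclic P) (c : Set (Cfsg.IrrCharacter (Subgroup.centralizer (P : Set G)))) (hc : Cfsg.IsInducedBlock M (Subgroup.centralizer (P : Set G)) c B) (T : Subgroup G) (hT : ∀ g : G, g ∈ T ↔ (g ∈ Subgroup.normalizer (P : Set G) ∧ Cfsg.StabilizesBlock (Subgroup.centralizer (P : Set G)) c g)) (Q : Subgroup G) (hQP : Q ≤ P) (hQ1 : Q ≠ ⊥) (f : Set (Cfsg.IrrCharacter (Subgroup.centralizer (Q : Set G)))) (hf : Cfsg.IsInducedBlockIn M (Subgroup.centralizer (Q : Set G)) (Subgroup.centralizer (P : Set G)) c f) (T' : Subgroup G) (hT' : ∀ g : G, g ∈ T' ↔ (g ∈ Subgroup.normalizer (Q : Set G) ∧ Cfsg.StabilizesBlock (Subgroup.centralizer (Q : Set G)) f g)) : T' = T ⊔ Subgroup.centralizer (Q : Set G) ∧ (Subgroup.centralizer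 (Q : Set G)).relIndex T' = (Subgroup.centralizer (P : Set G)).relIndex T ∧ Cfsg.blockRank p f = 1 ∧ Cfsg.IsNilpotentBlock p M f := by
  have := hM.2.1
  have := res_charP hM
  have hm := maxPair_of_induced hM hPD hc
  have hcb := (isInducedBlock_iff.1 hc).1
  have hab := le_Ce_of_cyclic hcyc
  have hP := hm.bpair.pair.pgp
  obtain ⟨hf, hs⟩ := (isInducedBlockIn_Ce_iff hM hP hQP (hab.trans (Ce_anti hQP)) hcb).1 hf
  have hfp := hs.pair_iff.2 hm.bpair.pair
  have eT := stab_eq_of_iff hcb hT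
  have eT' := stab_eq_of_iff hf hT'
  have h1 := hm.not_dvd_relIndex (good hM) le_rfl top_le_No_top (blk_eB hB)
  rw [top_inf_eq, top_inf_eq, ← eT, sup_eq_left.2 hab] at h1
  have hTP : T ≤ No P := eT.le.trans inf_le_left
  have hTQ : T ≤ No Q := hTP.trans (No_le_No_of_cyclic hcyc hQP)
  have free : Ce Q ⊓ T ≤ Ce P := by
    intro g hg
    obtain ⟨x, hx, hx1⟩ := (Subgroup.nontrivial_iff_exists_ne_one Q).1
      ((Subgroup.nontrivial_iff_ne_bot Q).2 hQ1)
    obtain ⟨n, hn⟩ := exists_pow_mem_Ce_of_cyclic hcyc hP (hTP hg.2) (hQP hx) hx1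
      (by rw [← mem_Ce.1 hg.1 x hx]; simp)
    exact mem_of_pow_mem_of_relIndex (hTP.trans (No_le_No_Ce P)) h1 hg.2 hn
  have h2 : T' = Ce Q ⊔ T := by
    refine le_antisymm (fun x hx => ?_) (sup_le ((Ce_le_stab hfp).trans eT'.ge) fun y hy => ?_)
    · rw [eT'] at hx
      obtain ⟨c, hc, h⟩ := hm.burnside' le_rfl top_le_No_top (blk_eB hB) hab hs (g := x)
        ⟨⟨trivial, hx.1⟩, hx.2⟩
      rw [← inv_mul_cancel_left c x]
      exact Subgroup.mul_mem_sup ((Ce Q).inv_mem hc.1.2) (eT.ge ⟨h.1.2, h.2⟩)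
    · have h4 := hs.cj (x := y) (top_le_No_top trivial)
      rw [mem_No_iff_cjS.1 (hTQ hy), mem_No_iff_cjS.1 (hTP hy), mem_stab.1 (eT.le hy).2] at h4
      exact eT'.ge ⟨hTQ hy, h4.unique hm.bpair.pair hs⟩
  have h3 : IsNilpotentBlock p M f :=
    (isNilpotentBlock_iff_of_sub hM (blk_eB hB) hm hab hf hs).2 (eT ▸ free)
  have := Fintype.ofFinite (Ce Q)
  refine ⟨h2.trans (sup_comm _ _), ?_, (S4689.result p M hM f h3).1, h3⟩
  have h4 := card_autInducedBy T' Q
  rw [inf_eq_left.2 (eT'.le.trans inf_le_left), inf_eq_right.2 ((Ce_le_stab hfp).trans eT'.ge)]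
    at h4
  rw [← h4, h2, autInducedBy_sup_Ce le_rfl (hTQ.trans (No_le_No_Ce Q)), card_autInducedBy,
    inf_eq_left.2 hTQ]
  congr 1
  exact le_antisymm ((inf_comm _ _).le.trans free)
    (le_inf ((Ce_le_stab hm.bpair.pair).trans eT.ge) (Ce_anti hQP))

end Cfsg.Agent.S4645
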