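import Cfsg.Statements.S4647
import Cfsg.Agent.H32.BasicAlg
import Cfsg.Agent.H32.MinDim
import Cfsg.Agent.H87.Nilp

set_option autoImplicit false
open Cfsg

namespace Cfsg.Agent.S4647

/-- Let B be a block of the finite group G relative to a maximal ideal M of the algebraic integers containing the prime p, p^a the p-part of the order of G and p^d the order of a defect group D of B. If Σ_{χ ∈ B} χ(1)² = p^(2a−d) (the least possible value), then B is nilpotent. -/
theorem result {G : Type*} [Group G] [Finite G] (p : ℕ) [Fact p.Prime] (M : Ideal Cfsg.AlgInt) (hM : Cfsg.IsPModular p M) (B : Set (Cfsg.IrrCharacter G)) (hB : Cfsg.IsPBlock M B) (D : Subgroup G) (hD : Cfsg.IsDefectGroup p M B D) (a d : ℕ) (ha : (Nat.card G).factorization p = a) (hd : Nat.card D = p ^ d) (hmin : ∑ᶠ χ ∈ B, Cfsg.charDegree (χ : G → ℂ) ^ 2 = p ^ (2 * a - d)) : Cfsg.IsNilpotentBlock p M B := by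
  classical
  open Cfsg.Agent.H32 Cfsg.Agent.H87 in
  have := hM.2.1
  have := H32.res_charP hM
  have := Fintype.ofFinite G
  have hr : Module.finrank (H32.Res M) (LinearMap.range (LinearMap.mulRight (H32.Res M)
      (H87.eB M B))) = p ^ (2 * a - d) := by
    have h1 := H32.finrank_range_mul_mul (M := M) IsIdempotentElem.one
      (H32.isIdempotentElem_blockIdem B) (one_mem _) (H32.blockIdem_mem_RG hB)
    rw [H32.redG_one, LinearMap.mulLeft_one, LinearMap.comp_id, H32.projC_eq, H32.ev_sum_fun] at h1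
    rw [← hmin, H86.finsum_mem_fs]
    apply Nat.cast_injective (R := ℂ)
    refine h1.trans ?_
    rw [Nat.cast_sum, ← H86.sum_fs_eq_sum_univ B _ fun χ h => by
      rw [H32.ev_smul_fun, ← mul_one (H32.blockIdem B), H32.ev_blockIdem_mul_of_not_mem h, mul_zero]]
    refine Finset.sum_congr rfl fun χ h => ?_
    rw [H32.ev_smul_fun, ← mul_one (H32.blockIdem B), H32.ev_one,
      H32.ev_blockIdem_mul_of_mem (H86.mem_fs.1 h), H32.ev_one, Nat.cast_pow,
      H32.cast_charDegree_irr, sq]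
  rw [H87.isNilpotentBlock_iff_nilp hM hB]
  intro Q z hQ x hx _ hx'
  obtain ⟨S, hS⟩ := hQ.pair.pgp.exists_le_sylow
  have hb := H87.blk_eB hB
  have h1 := H87.isDef_of_isDefectGroup hM hB hD
  obtain ⟨t, -, ht⟩ := (H87.sylIn_top_iff.2 ⟨S, rfl⟩).le_conj h1.pgp le_top
  have hda : d ≤ a := by
    have := Subgroup.card_subgroup_dvd_card D
    rw [hd] at this
    exact ha ▸ (hM.1.pow_dvd_iff_le_factorization Nat.card_pos.ne').1 this
  obtain ⟨w, hw, h2⟩ := H32.control_of_finrank_le S.2 hb (h1.cj_of_mem hb.inv (Subgroup.mem_top t⁻¹))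
    (by simpa using H87.cjS_mono t⁻¹ ht) (by
      rw [hr, H87.card_cjS, hd, S.card_eq_multiplicity, ha, ← pow_add, ← pow_add]
      exact Nat.pow_le_pow_right hM.1.pos (by omega)) hS hQ.Br_ne_zero hx.2
  have h3 : ∀ n : ℕ, ∀ q ∈ Q, x ^ n * q * (x ^ n)⁻¹ = w ^ n * q * (w ^ n)⁻¹ := fun n => by
    induction n with
    | zero => simp
    | succ n ih =>
      intro q hq
      have h3 := h2 _ (H87.conj_mem_of_No (pow_mem hx.2 n) hq)
      calc x ^ (n + 1) * q * (x ^ (n + 1))⁻¹ = x * (x ^ n * q * (x ^ n)⁻¹) * x⁻¹ := by group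
        _ = w * (w ^ n * q * (w ^ n)⁻¹) * w⁻¹ := by rw [h3, ih q hq]
        _ = _ := by group
  obtain ⟨n, hn⟩ := S.2 ⟨w, hw⟩
  have h4 : x ^ p ^ n ∈ H87.Ce Q := H87.mem_Ce.2 fun q hq => by
    have := h3 (p ^ n) q hq
    rw [show w ^ p ^ n = 1 from congrArg Subtype.val hn, mul_inv_eq_iff_eq_mul] at this
    simp [this]
  obtain ⟨m, hm⟩ := exists_pow_eq_self_of_coprime (x := x) (n := p ^ n)
    (((hM.1.coprime_iff_not_dvd).2 hx').pow_left n)
  exact hm ▸ pow_mem h4 m

end Cfsg.Agent.S4647
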