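import Cfsg.Statements.S4648
import Cfsg.Agent.H32.BasicAlg
import Cfsg.Agent.H86.Wat
import Cfsg.Agent.H86.NilAb
import Cfsg.Agent.H87.Glue

set_option autoImplicit false
open Cfsg

namespace Cfsg.Agent.S4648

open Cfsg.Agent.H32 Cfsg.Agent.H86 Cfsg.Agent.H87 in
theorem nilp_of_card_eq {M : Ideal AlgInt} [M.IsMaximal] {G : Type*} [Group G] [Finite G] {p : ℕ}
    {B : Set (IrrCharacter G)} {P : Subgroup G} {e : MonoidAlgebra (Res M) G} (h : Ctx M p B P e)
    (hab : P ≤ Ce P) (hl : ∀ u : P, lb p P e u = 1) (hk : Nat.card B = Nat.card P) :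
    Nilp p ⊤ (eB M B) := by
  have := Fintype.ofFinite P
  have h1 := h.card_eq_sum
  simp only [hl, Nat.cast_one, mul_one, hk] at h1
  have h2 : ∑ u : P, H86.wt p P e u = ∑ _u : P, (1 : ℝ) := by
    rw [Finset.sum_const, Finset.card_univ, ← Nat.card_eq_fintype_card, nsmul_eq_mul, mul_one]
    exact_mod_cast h1.symm
  have h3 : ∀ u : P, 1 ≤ Nat.card {v : P // Fz p P e u v} := fun u =>
    have : Nonempty {v : P // Fz p P e u v} := ⟨u, h.fz_refl u.2⟩
    Nat.card_pos
  have h4 := (Finset.sum_eq_sum_iff_of_le fun u _ => by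
    rw [h.wt_eq u.2]; exact inv_le_one_of_one_le₀ (by exact_mod_cast h3 u)).1 h2
  rw [h.nilp_iff_of_abelian hab]
  intro g hg
  obtain ⟨γ, hγ, h5⟩ := exists_mem_iq hg
  rw [mem_Ce]
  intro x hx
  have h6 := h4 ⟨x, hx⟩ (Finset.mem_univ _)
  rw [h.wt_eq hx, inv_eq_one, Nat.cast_eq_one] at h6
  have h7 := (Nat.card_eq_one_iff_unique.1 h6).1.elim 
    ⟨γ ⟨x, hx⟩, (fz_iff_iq h hab ⟨x, hx⟩ _).2 ⟨γ, hγ, rfl⟩⟩ ⟨⟨x, hx⟩, h.fz_refl hx⟩
  have h8 := h5 ⟨x, hx⟩
  rw [show γ ⟨x, hx⟩ = ⟨x, hx⟩ from congrArg Subtype.val h7] at h8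
  exact eq_mul_inv_iff_mul_eq.1 h8

theorem fpf_of_le_four {P : Type*} [Group P] [Finite P] {p : ℕ} (hp : p.Prime)
    (h : Nat.card P = p ∨ p = 2 ∧ Nat.card P = 4) {Γ : Subgroup (MulAut P)}
    (hΓ : ¬ p ∣ Nat.card Γ) : H34.FpfA Γ := by
  intro γ hγ y hy
  by_cases h1 : y = 1
  · exact Or.inr h1
  left
  rcases h with h | ⟨rfl, h⟩
  · have : Fact p.Prime := ⟨hp⟩
    ext x
    obtain ⟨n, rfl⟩ := mem_zpowers_of_prime_card h h1 (g' := x)
    simp [hy]
  · have h2 : γ ^ 2 = 1 := by
      ext x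
      by_contra H
      have hx : γ x ≠ x := fun h => H (by simp [pow_two, h])
      have a1 : x ≠ 1 := by rintro rfl; simp at hx
      have a2 : x ≠ y := by rintro rfl; exact hx hy
      have i := γ.injective
      have b1 : γ x ≠ 1 := by simpa
      have b2 : γ x ≠ y := fun h => a2 (i (h.trans hy.symm))
      have c1 : γ (γ x) ≠ 1 := by simpa
      have c2 : γ (γ x) ≠ y := fun h => b2 (i (h.trans hy.symm))
      have c3 : γ (γ x) ≠ γ x := fun h => hx (i h)
      have c4 : γ (γ x) ≠ x := by simpa [pow_two] using H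
      classical
      have := Fintype.ofFinite P
      have := Finset.card_le_univ ({γ (γ x), γ x, x, y, 1} : Finset P)
      rw [Finset.card_insert_of_notMem (by simp [*]), Finset.card_insert_of_notMem (by simp [*]),
        Finset.card_insert_of_notMem (by simp [*]), Finset.card_pair h1,
        ← Nat.card_eq_fintype_card, h] at this
      omega
    have h3 : orderOf γ ∣ Nat.card Γ := Subgroup.orderOf_dvd_natCard Γ hγ
    rcases (Nat.dvd_prime Nat.prime_two).1 (orderOf_dvd_of_pow_eq_one h2) with h4 | h4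
    · exact orderOf_eq_one_iff.1 h4
    · exact (hΓ (h4 ▸ h3)).elim

/-- Let B be a block of the finite group G relative to a maximal ideal M of the algebraic integers containing the prime p, with a nontrivial defect group D. If B has p-regular rank 1 and at most four irreducible characters, then B is nilpotent, D has exactly as many elements as B has irreducible characters, and p is 2 or 3. -/
theorem result {G : Type*} [Group G] [Finite G] (p : ℕ) [Fact p.Prime] (M : Ideal Cfsg.AlgInt) (hM : Cfsg.IsPModular p M) (B : Set (Cfsg.IrrCharacter G)) (hB : Cfsg.IsPBlock M B) (D : Subgroup G) (hD : Cfsg.IsDefectGroup p M B D) (hD1 : D ≠ ⊥) (hl : Cfsg.blockRank p B = 1) (hk : Nat.card B ≤ 4) : Cfsg.IsNilpotentBlock p M B ∧ Nat.card D = Nat.card B ∧ (p = 2 ∨ p = 3) := by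
  classical
  have := hM.2.1
  have hp := hM.1
  have hk' := H32.card_eq_of_rank_one_of_le_four hM hB hl hk
  obtain ⟨e, h⟩ := H86.exists_ctx hM hB hD
  have hc := h.card_eq
  have h1 : Nat.card D ≠ 1 := fun h => hD1 (Subgroup.card_eq_one.1 h)
  have h2 : Nat.card D = p ∧ (p = 2 ∨ p = 3) ∨ p = 2 ∧ Nat.card D = 4 := by
    rw [hc] at h1 ⊢
    rw [hk'] at hk
    have h2 := hp.two_le
    generalize blockDefect p B = d at *
    obtain _ | _ | d := d
    · simp at h1
    · have : p ≠ 4 := by rintro rfl; exact absurd hp (by decide)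
      simp only [zero_add, pow_one, true_and] at hk ⊢
      omega
    · have h3 : 0 < p ^ d := pow_pos hp.pos d
      rw [pow_succ, pow_succ] at hk ⊢
      have h4 : p = 2 := by
        by_contra H
        have := Nat.mul_le_mul (Nat.mul_le_mul h3 (show 3 ≤ p by omega)) (show 3 ≤ p by omega)
        omega
      subst h4
      omega
  have hab : D ≤ H87.Ce D := by
    have : IsMulCommutative D := by
      rcases h2 with h2 | ⟨rfl, h2⟩
      · have := isCyclic_of_prime_card h2.1
        infer_instance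
      · exact IsPGroup.isMulCommutative_of_card_eq_prime_sq (p := 2) h2
    intro x hx
    rw [H87.mem_Ce]
    intro y hy
    exact congrArg Subtype.val (mul_comm' (⟨y, hy⟩ : D) ⟨x, hx⟩)
  have hf := fpf_of_le_four hp (by tauto) (H87.not_dvd_card_iq h hab)
  refine ⟨h.isNilpotentBlock (nilp_of_card_eq h hab (fun u => ?_) (hk'.trans hc.symm)),
    hc.trans hk'.symm, by tauto⟩
  by_cases hu : u = 1
  · subst hu; exact h.lb_one.trans hl
  · exact H87.r1_of_fpf h hab hf hu

end Cfsg.Agent.S4648
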