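import Cfsg.Statements.S4649
import Cfsg.Agent.H87.CycS

set_option autoImplicit false
open Cfsg

namespace Cfsg.Agent.S4649

open Cfsg.Agent.H87 Cfsg.Agent.H32 MonoidAlgebra

/-- A block with cyclic defect group, of a finite group relative to a maximal ideal M of the algebraic integers containing the prime p, is nilpotent if and only if its p-regular rank is 1 (it has a unique irreducible Brauer character). -/
theorem result {G : Type*} [Group G] [Finite G] (p : ℕ) [Fact p.Prime] (M : Ideal Cfsg.AlgInt) (hM : Cfsg.IsPModular p M) (B : Set (Cfsg.IrrCharacter G)) (hB : Cfsg.IsPBlock M B) (P : Subgroup G) (hPD : Cfsg.IsDefectGroup p M B P) (hcyc : IsCyclic P) : Cfsg.IsNilpotentBlock p M B ↔ Cfsg.blockRank p B = 1 := by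
  have := hM.2.1
  have := res_charP hM
  refine ⟨H86.blockRank_of_nilpotent hM, fun h1 => ?_⟩
  obtain ⟨e, h⟩ := H86.exists_ctx hM hB hPD
  rw [isNilpotentBlock_iff_nilp hM hB, nilp_iff_of_abelian (good hM) (blk_eB hB) h.hm
    (le_Ce_of_cyclic hcyc), top_inf_eq]
  by_cases hP : P = ⊥
  · simp [hP]
  · rwa [rank_eq_of_cyclic h hP, card_iq h.pair, Subgroup.relIndex_eq_one] at h1

end Cfsg.Agent.S4649
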