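import Cfsg.Statements.S4650
import Cfsg.Agent.H87.Dict6

set_option autoImplicit false
open Cfsg

namespace Cfsg.Agent.S4650

open Cfsg.Agent.H87 Cfsg.Agent.H32 MonoidAlgebra

/-- Let B be a block of the finite group G relative to a maximal ideal M of the algebraic integers containing the prime p, with a nontrivial commutative defect group P; let c be a block of C_G(P) inducing B and T the stabilizer of c in N_G(P). Then T/C_G(P) acts freely on the non-identity elements of P (an element of T fixing a non-identity element of P under conjugation lies in C_G(P)) if and only if, for every nontrivial subgroup Q of P, the block of C_G(Q) induced by c inside C_G(Q) is a nilpotent block of C_G(Q). -/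
theorem result {G : Type*} [Group G] [Finite G] (p : ℕ) [Fact p.Prime] (M : Ideal Cfsg.AlgInt) (hM : Cfsg.IsPModular p M) (B : Set (Cfsg.IrrCharacter G)) (hB : Cfsg.IsPBlock M B) (P : Subgroup G) (hPD : Cfsg.IsDefectGroup p M B P) (hPab : ∀ x ∈ P, ∀ y ∈ P, x * y = y * x) (hP1 : P ≠ ⊥) (c : Set (Cfsg.IrrCharacter (Subgroup.centralizer (P : Set G)))) (hc : Cfsg.IsInducedBlock M (Subgroup.centralizer (P : Set G)) c B) (T : Subgroup G) (hT : ∀ g : G, g ∈ T ↔ (g ∈ Subgroup.normalizer (P : Set G) ∧ Cfsg.StabilizesBlock (Subgroup.centralizer (P : Set G)) c g)) : (∀ g ∈ T, ∀ x ∈ P, x ≠ 1 → g * x * g⁻¹ = x → g ∈ Subgroup.centralizer (P : Set G)) ↔ ∀ Q : Subgroup G, Q ≤ P → Q ≠ ⊥ → ∀ f : Set (Cfsg.IrrCharacter (Subgroup.centralizer (Q : Set G))), Cfsg.IsInducedBlockIn M (Subgroup.centralizer (Q : Set G)) (Subgroup.centralizer (P : Set G)) c f → Cfsg.IsNilpotentBlock p M f := by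
  have := hM.2.1
  have := res_charP hM
  have hm := maxPair_of_induced hM hPD hc
  have hcb := (isInducedBlock_iff.1 hc).1
  have hab : P ≤ Ce P := fun x hx => mem_Ce.2 fun y hy => hPab y hy x hx
  have hT' := stab_eq_of_iff hcb hT
  have hP := hm.bpair.pair.pgp
  constructor
  · intro h Q hQP hQ1 f hf
    obtain ⟨hf, hs⟩ := (isInducedBlockIn_Ce_iff hM hP hQP (hab.trans (Ce_anti hQP)) hcb).1 hf
    rw [isNilpotentBlock_iff_of_sub hM (blk_eB hB) hm hab hf hs, ← hT']
    intro g hg
    obtain ⟨x, hx, hx1⟩ := (Subgroup.nontrivial_iff_exists_ne_one Q).1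
      ((Subgroup.nontrivial_iff_ne_bot Q).2 hQ1)
    exact h g hg.2 x (hQP hx) hx1 (by rw [← mem_Ce.1 hg.1 x hx]; simp)
  · intro h g hg x hx hx1 hgx
    have hQP : Subgroup.zpowers x ≤ P := Subgroup.zpowers_le.2 hx
    obtain ⟨z, hs⟩ := exists_sub hm.bpair.pair hQP
    obtain ⟨f, hf, rfl⟩ := (hs.pair_iff.2 hm.bpair.pair).exists_idm
    have h1 := h _ hQP (by simpa using hx1) f
      ((isInducedBlockIn_Ce_iff hM hP hQP (hab.trans (Ce_anti hQP)) hcb).2 ⟨hf.2, hs⟩)
    rw [isNilpotentBlock_iff_of_sub hM (blk_eB hB) hm hab hf.2 hs, ← hT'] at h1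
    exact h1 ⟨(Ce_zpowers x).ge (Subgroup.mem_centralizer_singleton_iff.2
      (mul_inv_eq_iff_eq_mul.1 hgx)), hg⟩

end Cfsg.Agent.S4650
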