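import Cfsg.Statements.S4651
import Cfsg.Agent.H86.Chain
import Cfsg.Agent.H86.Chain2

set_option autoImplicit false
open Cfsg

namespace Cfsg.Agent.S4651

/-- An alternating-sum identity over chains of p-subgroups (the character-count form behind the chain reformulation of Alperin's weight conjecture, which holds unconditionally for the difference k − l). Let b be a block of the finite group G relative to a maximal ideal M of the algebraic integers containing the prime p. Consider the nonempty chains s = {Q_0 < Q_1 < ⋯ < Q_m} of nontrivial p-subgroups of G in which every member is normal in the largest member; let N_G(s) be the intersection of the normalizers of the members (the stabilizer of the chain), and let b_s be the set of irreducible characters of N_G(s) lying in blocks of N_G(s) that induce b. Then #G · (k(b) − l(b)) equals the sum over all such chains s of (−1)^m · #N_G(s) · (k(b_s) − l(b_s)), where k counts irreducible characters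 and l is the p-regular rank; equivalently, k(b) − l(b) is the alternating sum of k(b_s) − l(b_s) over representatives of the conjugacy classes of such chains. -/
theorem result {G : Type*} [Group G] [Finite G] (p : ℕ) [Fact p.Prime] (M : Ideal Cfsg.AlgInt) (hM : Cfsg.IsPModular p M) (b : Set (Cfsg.IrrCharacter G)) (hb : Cfsg.IsPBlock M b) : (Nat.card G : ℤ) * ((Nat.card b : ℤ) - (Cfsg.blockRank p b : ℤ)) = ∑ᶠ s ∈ {s : Finset (Subgroup G) | s.Nonempty ∧ (∀ Q ∈ s, ∀ R ∈ s, Q ≤ R ∨ R ≤ Q) ∧ (∀ Q ∈ s, Q ≠ ⊥ ∧ IsPGroup p Q) ∧ ∃ T ∈ s, ∀ Q ∈ s, Q ≤ T ∧ T ≤ Subgroup.normalizer ((Q : Subgroup G) : Set G)}, (-1 : ℤ) ^ (s.card - 1) * (Nat.card (((⨅ Q ∈ s, Subgroup.normalizer ((Q : Subgroup G) : Set G) : Subgroup G))) : ℤ) * ((Nat.card {ψ : Cfsg.IrrCharacter (((⨅ Q ∈ s, Subgroup.normalizer ((Q : Subgroup G) : Set G) : Subgroup G))) | ∃ β : Set (Cfsg.IrrCharacter (((⨅ Q ∈ s, Subgroup.normalizer ((Q : Subgroup G) : Set G) : Subgroup G)))), ψ ∈ β ∧ Cfsg.IsInducedBlock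 M (((⨅ Q ∈ s, Subgroup.normalizer ((Q : Subgroup G) : Set G) : Subgroup G))) β b} : ℤ) - (Cfsg.blockRank p {ψ : Cfsg.IrrCharacter (((⨅ Q ∈ s, Subgroup.normalizer ((Q : Subgroup G) : Set G) : Subgroup G))) | ∃ β : Set (Cfsg.IrrCharacter (((⨅ Q ∈ s, Subgroup.normalizer ((Q : Subgroup G) : Set G) : Subgroup G)))), ψ ∈ β ∧ Cfsg.IsInducedBlock M (((⨅ Q ∈ s, Subgroup.normalizer ((Q : Subgroup G) : Set G) : Subgroup G))) β b} : ℤ)) := by
  classical
  have := hM.2.1
  have := H32.res_charP hM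
  have := Fintype.ofFinite G
  have := Fintype.ofFinite (Subgroup G)
  have hS : {s : Finset (Subgroup G) | s.Nonempty ∧ (∀ Q ∈ s, ∀ R ∈ s, Q ≤ R ∨ R ≤ Q) ∧
      (∀ Q ∈ s, Q ≠ ⊥ ∧ IsPGroup p Q) ∧ ∃ T ∈ s, ∀ Q ∈ s, Q ≤ T ∧
        T ≤ Subgroup.normalizer ((Q : Subgroup G) : Set G)} =
      ((Finset.univ.filter (H86.NCh p)).erase ∅ : Finset (Finset (Subgroup G))) := by
    ext s
    simp only [Set.mem_ofPred_eq, Finset.coe_erase, Finset.coe_filter, Finset.mem_univ, true_and,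
      Set.mem_sdiff, Set.mem_singleton_iff]
    refine ⟨fun ⟨h1, h2, h3, T, hT, h4⟩ => ⟨⟨h2, h3, fun Q hQ R hR =>
      (h4 R hR).1.trans (h4 Q hQ).2⟩, h1.ne_empty⟩, fun ⟨h, h0⟩ => ?_⟩
    have h1 := Finset.nonempty_iff_ne_empty.2 h0
    have h2 : s.sup id ∈ s := h.sup_mem.resolve_left fun e => by
      obtain ⟨Q, hQ⟩ := h1
      exact (h.pgp Q hQ).1 (le_bot_iff.1 (e ▸ Finset.le_sup (f := id) hQ))
    exact ⟨h1, h.tot, h.pgp, _, h2, fun Q hQ => ⟨Finset.le_sup (f := id) hQ, h.nrm Q hQ _ h2⟩⟩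
  rw [hS, finsum_mem_coe_finset]
  let F : G → Finset (Subgroup G) → ℤ := fun u s => if u ∈ H86.chN s then
    (H86.Phi p (H86.chN s ⊓ H87.Ce (Subgroup.zpowers u))
      (H87.Br (H86.chT u s) (H87.eB M b)) : ℤ) else 0
  let U : Finset G := Finset.univ.filter fun u => (∃ n, orderOf u = p ^ n) ∧ u ≠ 1
  have h0 : ∑ s with H86.NCh p s, (-1) ^ s.card * ∑ u ∈ U, F u s = 0 := by
    simp only [Finset.mul_sum]
    rw [Finset.sum_comm]
    refine Finset.sum_eq_zero fun u hu => ?_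
    obtain ⟨⟨n, hn⟩, h1⟩ := (Finset.mem_filter.1 hu).2
    simp only [F, mul_ite, mul_zero]
    rw [← Finset.sum_filter]
    exact H86.sum_chains_eq_zero (IsPGroup.of_card (n := n) (by rw [Nat.card_zpowers, hn])) h1 _
      (fun s => by simp) fun C T => (H86.Phi p C (H87.Br T (H87.eB M b)) : ℤ)
  rw [← Finset.add_sum_erase _ _ (a := ∅)
    (by simpa using ⟨by simp, by simp, by simp⟩)] at h0
  have h1 := H86.Emb.card_sub_rank hM H87.emb_id (H87.eB_mem_fix b ⊤) (H87.blk_eB hb).idem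
  rw [H86.As_id_eB hb] at h1
  have h2 : ∑ u ∈ U, F u ∅ = (Nat.card G : ℤ) * ((Nat.card b : ℤ) - (blockRank p b : ℤ)) := by
    rw [h1]
    refine Finset.sum_congr rfl fun u _ => ?_
    simp [F, H86.chN, H86.chT]
  rw [Finset.card_empty, pow_zero, one_mul] at h0
  rw [← h2, eq_neg_of_add_eq_zero_left h0, ← Finset.sum_neg_distrib]
  refine Finset.sum_congr rfl fun s hs => ?_
  obtain ⟨h3, h4⟩ := Finset.mem_erase.1 hs
  have h := (Finset.mem_filter.1 h4).2
  have hz : H87.Br (s.sup id) (H87.eB M b) ∈ H87.fix (H32.Res M) (H86.chN s) (H86.chN s) :=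
    H87.fix_mono (inf_le_right.trans (H86.Ce_sup_le_chN s)) (le_inf le_top h.le_No_sup)
      (H87.Br_mem_fix (H87.eB_mem_fix b ⊤) _)
  have h5 := H86.Emb.card_sub_rank hM (H87.emb_subtype _) hz
    (H87.Br_idem h.isPGroup (H87.inv_eB b _) (H87.blk_eB hb).idem)
  rw [← H86.As_Br hM h.isPGroup h.top_le h.le_No_sup (H86.Ce_sup_le_chN s) hb] at h5
  obtain ⟨n, hn⟩ := Nat.exists_eq_succ_of_ne_zero (Finset.card_ne_zero.2
    (Finset.nonempty_iff_ne_empty.2 h3))
  rw [mul_assoc, h5, hn, Nat.succ_sub_one, pow_succ, mul_neg_one, neg_mul, neg_neg]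
  congr 1
  refine Finset.sum_congr rfl fun u _ => ?_
  simp only [F, H86.chT, H87.Br_Br, sup_comm]

end Cfsg.Agent.S4651
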