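import Cfsg.Statements.S4654
import Cfsg.Agent.H87.Dict5

set_option autoImplicit false
open Cfsg

namespace Cfsg.Agent.S4654

open Cfsg.Agent.H87 Cfsg.Agent.H32 MonoidAlgebra

theorem card_filter_cj {k G : Type*} [CommRing k] [Group G] [Fintype G] (a : k[G]) (t : G)
    [DecidablePred fun x => cj x a = cj t a] :
    (Finset.univ.filter fun x => cj x a = cj t a).card = Nat.card (stab a) := by
  rw [← Fintype.card_subtype, ← Nat.card_eq_fintype_card]
  refine Nat.card_congr ⟨fun x => ⟨t⁻¹ * x.1, ?_⟩, fun y => ⟨t * y.1, ?_⟩, fun x => ?_, fun y => ?_⟩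
  · rw [mem_stab, cj_mul, x.2, cj_inv_cj]
  · rw [cj_mul, mem_stab.1 y.2]
  · simp
  · simp

/-- Fix a prime p and a maximal ideal M of the algebraic integers containing p. Let P be a normal p-subgroup of the finite group G, B a p-block of G and e a p-block of C_G(P) such that (P, e) is a Brauer pair of B (as P is normal, this says that e occurs in the idempotent of B, which is supported on C_G(P)). Let T be the stabilizer of e in G under conjugation. Then the idempotent of e is a block idempotent of T: some block E of T has, at every element of T, the same idempotent coefficient as e (zero off C_G(P)); and the idempotent of B is the sum of the distinct G-conjugates of the idempotent of e: its coefficient at g is the sum over all x in G of the coefficient of e at x⁻¹ g x, divided by the order of T. -/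
theorem result {G : Type*} [Group G] [Fintype G] (p : ℕ) [Fact p.Prime] (M : Ideal Cfsg.AlgInt) (hM : Cfsg.IsPModular p M) (P : Subgroup G) [P.Normal] (hP : IsPGroup p P) (B : Set (Cfsg.IrrCharacter G)) (e : Set (Cfsg.IrrCharacter (Subgroup.centralizer (P : Set G)))) (hBe : Cfsg.IsBrauerPairOf p M B P e) (T : Subgroup G) (hT : ∀ x : G, x ∈ T ↔ Cfsg.StabilizesBlock (Subgroup.centralizer (P : Set G)) e x) : (∃ E : Set (Cfsg.IrrCharacter T), Cfsg.IsPBlock M E ∧ ∀ t : T, Cfsg.blockCoeff E t = Cfsg.subgroupBlockCoeff (Subgroup.centralizer (P : Set G)) e (t : G)) ∧ ∀ g : G, Cfsg.blockCoeff B g = (Nat.card T : ℂ)⁻¹ * ∑ x : G, Cfsg.subgroupBlockCoeff (Subgroup.centralizer (P : Set G)) e (x⁻¹ * g * x) := by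
  have := hM.2.1
  have := res_charP hM
  classical
  have he := hBe.1.2
  have hB := hBe.2.1
  have hn := top_le_No_of_normal P
  have hnC : ⊤ ≤ No (Ce P) := hn.trans (No_le_No_Ce P)
  have hT' : T = stab (idm M (Ce P).subtype e) := by
    rw [stab_eq_of_iff' he hT, top_le_iff.1 hnC, top_inf_eq]
  have hp := pair_idm hBe.1
  have hE := emb_subtype (Ce P)
  constructor
  · obtain ⟨F, hF, -, e2⟩ := exists_block_of_pair (T := T) hM hBe.1
      (hT' ▸ (le_stab hp).trans inf_le_right) (hT' ▸ (Ce_le_stab hp).trans inf_le_right)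
      (le_inf (le_top.trans hn) hT'.le)
    exact ⟨F, hF, e2⟩
  have h1 := (supp_Ce_of_idem le_rfl hP le_top hn (eB_mem_fix (M := M) B ⊤)
    (blk_eB hB).idem).mono inf_le_right
  have h2 := (emb_id (G := G)).supp_cidm hB le_top hnC (by rwa [idm_id])
  rw [cidm_id] at h2
  have hc : ∀ x, cjS x (Ce P) = Ce P := fun x => mem_No_iff_cjS.1 (hnC (Subgroup.mem_top x))
  have hfix : ∀ x, cj x (cidm (Ce P).subtype e) ∈ fix ℂ (Ce P) (Ce P) := fun x => by
    rw [← cidm_cjEquiv x (hc x)]; exact hE.cidm_mem_fix _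
  have hR : (Nat.card T : ℂ)⁻¹ • ∑ x : G, cj x (cidm (Ce P).subtype e) ∈ fix ℂ (Ce P) (Ce P) :=
    Subalgebra.smul_mem _ (sum_mem fun x _ => hfix x) _
  have hbe : eB M B * idm M (Ce P).subtype e = idm M (Ce P).subtype e := by
    have := (IsBrauerPairOf.bpair hM hBe).br
    rwa [Br_of_supp h1] at this
  have hbb : Blk (Ce P) ⊤ (eB M B) := (blk_eB hB).of_supp le_top h1
  have key : blockIdem B = (Nat.card T : ℂ)⁻¹ • ∑ x : G, cj x (cidm (Ce P).subtype e) := by
    rw [← hE.up_pb_of_supp h2, ← hE.up_pb_of_supp hR.1]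
    have hi : Inv (Ce P) (blockIdem B) := (inv_blockIdem B).mono le_top
    congr 1
    refine Zc_ext (mem_Zc_iff_inv.2 (hE.inv_pb hi)) (mem_Zc_iff_inv.2 (hE.inv_pb hR.2)) fun ξ => ?_
    have hf := isPBlock_blockOf (M := M) ξ
    have hx : ∀ x, omega (ξ : Ce P → ℂ) (pb (Ce P).subtype (cj x (cidm (Ce P).subtype e))) =
        if cj x (idm M (Ce P).subtype e) = idm M (Ce P).subtype (blockOf M (ξ : Ce P → ℂ))
        then 1 else 0 := fun x => by
      have hb := H34.IsPBlock.blkComap he (cjEquiv x (hc x)).symm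
      rw [← cidm_cjEquiv x (hc x), ← idm_cjEquiv x (hc x), cidm, pb_up hE.inj, omega_blockIdem]
      refine if_congr ⟨fun h => ?_, fun h => ?_⟩ rfl rfl
      · rw [← eq_blockOf_of_mem hb h]
      · rw [idm_inj hE.inj hb hf h]; exact mem_blockOf_self ξ
    rw [map_smul, map_sum, map_smul, map_sum]
    simp only [hx, Finset.sum_boole]
    have hlam := hE.lam_eq_one_iff hf (mem_blockOf_self ξ) (z := eB M B) ⟨h1, inv_eB B _⟩
      (blk_eB hB).idem
    rw [eB, hE.lam_rd ξ hi (blockIdem_mem_RG hB)] at hlam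
    have h01 := omega_mul ξ.2 (mem_Zc_iff_inv.2 (hE.inv_pb hi)) (pb (Ce P).subtype (blockIdem B))
    rw [← hE.pb_mul h2, blockIdem_mul_self] at h01
    rcases IsIdempotentElem.iff_eq_zero_or_one.1 h01.symm with h | h
    · rw [h, Finset.filter_eq_empty_iff.2, Finset.card_empty, Nat.cast_zero, smul_zero]
      intro x _ hx
      rw [h, redC_zero] at hlam
      refine zero_ne_one (hlam.2 ?_)
      have := congrArg (cj x) hbe
      rwa [map_mul, inv_eB B ⊤ x (Subgroup.mem_top x), hx] at this
    · rw [h, redC_one] at hlam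
      obtain ⟨t, -, ht⟩ := hbb.conj_of_le le_rfl le_top hnC hnC (hE.blk_idm he) (hE.blk_idm hf) hbe
        (hlam.1 rfl)
      rw [h, ← ht, card_filter_cj, ← hT', smul_eq_mul, inv_mul_cancel₀]
      exact_mod_cast Nat.card_pos.ne'
  intro g
  rw [← coeff_blockIdem, key, coeff_smul_apply, coeff_sum_apply, smul_eq_mul]
  simp only [coeff_cj, coeff_cidm_subtype]

end Cfsg.Agent.S4654
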