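import Cfsg.Statements.S4657
import Cfsg.Agent.H87.Dict3

set_option autoImplicit false
open Cfsg

namespace Cfsg.Agent.S4657

open Cfsg.Agent.H87 Cfsg.Agent.H32 MonoidAlgebra

/-- Fix a prime p and a maximal ideal M of the algebraic integers containing p. Every Brauer pair (P, e) of the finite group G is a Brauer pair of exactly one p-block B of G. -/
theorem result {G : Type*} [Group G] [Fintype G] (p : ℕ) [Fact p.Prime] (M : Ideal Cfsg.AlgInt) (hM : Cfsg.IsPModular p M) (P : Subgroup G) (e : Set (Cfsg.IrrCharacter (Subgroup.centralizer (P : Set G)))) (hPe : Cfsg.IsBrauerPair p M P e) : ∃! B : Set (Cfsg.IrrCharacter G), Cfsg.IsBrauerPairOf p M B P e := by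
  have := hM.2.1
  have := res_charP hM
  obtain ⟨b, ⟨hb, hbe⟩, hu⟩ := (pair_idm hPe).existsUnique_blk (T := ⊤) le_rfl le_top
  obtain ⟨B, hB, rfl⟩ := exists_eB_eq hb
  refine ⟨B, (isBrauerPairOf_iff hM hB hPe.2).2 ⟨pair_idm hPe, le_top, hbe⟩, fun B' hB' => ?_⟩
  exact eB_inj' hB'.2.1 hB (hu _ ⟨blk_eB hB'.2.1, (IsBrauerPairOf.bpair hM hB').br⟩)

end Cfsg.Agent.S4657
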