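import Cfsg.Statements.S4661
import Cfsg.Agent.H87.Dict3

set_option autoImplicit false
open Cfsg

namespace Cfsg.Agent.S4661

open Cfsg.Agent.H87 Cfsg.Agent.H32 MonoidAlgebra

/-- Fix a prime p and a maximal ideal M of the algebraic integers containing p. Let (P, e) be a maximal Brauer pair of the p-block B of the finite group G, Q ≤ P, and f the p-block of C_G(Q) with (Q, f) ≤ (P, e). Then C_P(Q) is contained in a defect group of f (as a block of the group C_G(Q)); and for some x in G the conjugate pair (x Q x⁻¹, conjugate of f) again lies below (P, e) and C_P(x Q x⁻¹) is a defect group of the conjugate of f in C_G(x Q x⁻¹). -/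
theorem result {G : Type*} [Group G] [Fintype G] (p : ℕ) [Fact p.Prime] (M : Ideal Cfsg.AlgInt) (hM : Cfsg.IsPModular p M) (B : Set (Cfsg.IrrCharacter G)) (P Q : Subgroup G) (e : Set (Cfsg.IrrCharacter (Subgroup.centralizer (P : Set G)))) (f : Set (Cfsg.IrrCharacter (Subgroup.centralizer (Q : Set G)))) (hmax : Cfsg.IsMaximalBrauerPair p M B P e) (hQP : Q ≤ P) (hf : Cfsg.IsPBlock M f) (hle : Cfsg.SubpairLE p M Q f P e) : (∃ D : Subgroup (Subgroup.centralizer (Q : Set G)), Cfsg.IsDefectGroup p M f D ∧ (P ⊓ Subgroup.centralizer (Q : Set G)).subgroupOf (Subgroup.centralizer (Q : Set G)) ≤ D) ∧ ∃ x : G, Cfsg.SubpairLE p M (Q.map (MulAut.conj x).toMonoidHom) (Cfsg.conjBlock Q x f) P e ∧ Cfsg.IsDefectGroup p M (Cfsg.conjBlock Q x f) ((P ⊓ Subgroup.centralizer ((Q.map (MulAut.conj x).toMonoidHom) : Set G)).subgroupOf (Subgroup.centralizer ((Q.map (MulAut.conj x).toMonoidHom) : Set G))) := by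
  have := hM.2.1
  have := res_charP hM
  have hm := IsMaximalBrauerPair.maxPair hM hmax
  have hs := SubpairLE.sub hM hle
  have hB := hmax.1.2.1
  constructor
  · obtain ⟨D, hD, hle⟩ := Sub.exists_isDef hm.bpair.pair hs (Ce_le_No Q)
    exact ⟨D.subgroupOf _, (isDefectGroup_subgroupOf_iff hM hD.le hf).2 hD,
      Subgroup.subgroupOf_mono _ hle⟩
  · obtain ⟨D, hD⟩ := exists_isDef' p (Ce Q) ((emb_subtype (Ce Q)).blk_idm hf).ne_zero
    obtain ⟨x, -, hx, hxD⟩ := hm.conj_sub_isDef le_rfl top_le_No_top (blk_eB hB)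
      (hm.bpair.of_sub le_rfl (eB_mem_fix B ⊤) (blk_eB hB).idem hs) le_top (Ce_le_No Q)
      ((emb_subtype (Ce Q)).idm_mem_fix f).2 hD
    refine ⟨x, (subpairLE_iff hM (isPBlock_conjBlock hf x) hmax.1.1.2).2
      (by rwa [idm_conjBlock]), ?_⟩
    rw [isDefectGroup_subgroupOf_iff hM inf_le_right (isPBlock_conjBlock hf x), idm_conjBlock]
    have := hD.cj x
    rwa [hxD, cjS_Ce] at this

end Cfsg.Agent.S4661
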