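import Cfsg.Statements.S4662
import Cfsg.Agent.H87.Dict5

set_option autoImplicit false
open Cfsg

namespace Cfsg.Agent.S4662

open Cfsg.Agent.H87 Cfsg.Agent.H32 MonoidAlgebra

/-- Fix a prime p and a maximal ideal M of the algebraic integers containing p. Let (P, e) be a maximal Brauer pair of the p-block B of the finite group G, Q ≤ P, and f the p-block of C_G(Q) with (Q, f) ≤ (P, e). Let T be the stabilizer of f in N_G(Q). Then the idempotent of f is a block idempotent of T, and N_P(Q) is contained in a defect group of that block of T; moreover for some x in G the conjugate pair (x Q x⁻¹, conjugate of f) again lies below (P, e) and, with T' the stabilizer of the conjugate of f in N_G(x Q x⁻¹), N_P(x Q x⁻¹) is a defect group of the block of T' whose idempotent is that of the conjugate of f. -/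
theorem result {G : Type*} [Group G] [Fintype G] (p : ℕ) [Fact p.Prime] (M : Ideal Cfsg.AlgInt) (hM : Cfsg.IsPModular p M) (B : Set (Cfsg.IrrCharacter G)) (P Q : Subgroup G) (e : Set (Cfsg.IrrCharacter (Subgroup.centralizer (P : Set G)))) (f : Set (Cfsg.IrrCharacter (Subgroup.centralizer (Q : Set G)))) (hmax : Cfsg.IsMaximalBrauerPair p M B P e) (hQP : Q ≤ P) (hf : Cfsg.IsPBlock M f) (hle : Cfsg.SubpairLE p M Q f P e) (T : Subgroup G) (hT : ∀ y : G, y ∈ T ↔ y ∈ Subgroup.normalizer (Q : Set G) ∧ Cfsg.StabilizesBlock (Subgroup.centralizer (Q : Set G)) f y) : (∃ F : Set (Cfsg.IrrCharacter T), Cfsg.IsPBlock M F ∧ (∀ t : T, Cfsg.blockCoeff F t = Cfsg.subgroupBlockCoeff (Subgroup.centralizer (Q : Set G)) f (t : G)) ∧ ∃ D : Subgroup T, Cfsg.IsDefectGroup p M F D ∧ (P ⊓ Subgroup.normalizer (Q : Set G)).subgroupOf T ≤ D) ∧ ∃ x : G, Cfsg.SubpairLE p M (Q.map (MulAut.conj x).toMonoidHom) (Cfsg.conjBlock Q x f) P e ∧ ∀ (T' : Subgroup G), (∀ y : G, y ∈ T'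 ↔ y ∈ Subgroup.normalizer ((Q.map (MulAut.conj x).toMonoidHom) : Set G) ∧ Cfsg.StabilizesBlock (Subgroup.centralizer ((Q.map (MulAut.conj x).toMonoidHom) : Set G)) (Cfsg.conjBlock Q x f) y) → ∃ F' : Set (Cfsg.IrrCharacter T'), Cfsg.IsPBlock M F' ∧ (∀ t : T', Cfsg.blockCoeff F' t = Cfsg.subgroupBlockCoeff (Subgroup.centralizer ((Q.map (MulAut.conj x).toMonoidHom) : Set G)) (Cfsg.conjBlock Q x f) (t : G)) ∧ Cfsg.IsDefectGroup p M F' ((P ⊓ Subgroup.normalizer ((Q.map (MulAut.conj x).toMonoidHom) : Set G)).subgroupOf T') := by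
  have := hM.2.1
  have := res_charP hM
  have hm := IsMaximalBrauerPair.maxPair hM hmax
  have hs := SubpairLE.sub hM hle
  have hB := hmax.1.2.1
  have hp : IsBrauerPair p M Q f := (SubpairLE.pair_iff hle).2 hmax.1.1
  obtain rfl := stab_eq_of_iff hf hT
  have hinf : ∀ {Q : Subgroup G} {z}, Sub p ⊤ Q z P (idm M (Ce P).subtype e) →
      P ⊓ (No Q ⊓ stab z) = P ⊓ No Q := fun h =>
    le_antisymm (inf_le_inf_left _ inf_le_left) (le_inf inf_le_left
      (le_inf inf_le_right (inv_iff_le_stab.1 (h.inv hm.bpair.pair))))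
  constructor
  · obtain ⟨F, hF, e1, e2⟩ := exists_block_of_pair hM hp (le_stab (pair_idm hp))
      (Ce_le_stab (pair_idm hp)) le_rfl
    obtain ⟨D, hD, hle⟩ := Sub.exists_isDef hm.bpair.pair hs
      (K := No Q ⊓ stab (idm M (Ce Q).subtype f)) inf_le_left
    exact ⟨F, hF, e2, D.subgroupOf _, (isDefectGroup_subgroupOf_iff hM hD.le hF).2 (by rwa [e1]),
      Subgroup.subgroupOf_mono _ (hinf hs ▸ hle)⟩
  · obtain ⟨D, hD⟩ := exists_isDef' p (No Q ⊓ stab (idm M (Ce Q).subtype f))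
      (pair_idm hp).blk.ne_zero
    obtain ⟨x, -, hx, hxD⟩ := hm.conj_sub_isDef le_rfl top_le_No_top (blk_eB hB)
      (hm.bpair.of_sub le_rfl (eB_mem_fix B ⊤) (blk_eB hB).idem hs) le_top inf_le_left
      (inv_iff_le_stab.2 inf_le_right) hD
    have hf' := isPBlock_conjBlock hf x
    refine ⟨x, (subpairLE_iff hM hf' hmax.1.1.2).2 (by rwa [idm_conjBlock]), fun T' hT' => ?_⟩
    obtain rfl := stab_eq_of_iff hf' hT'
    have hp' : IsBrauerPair p M _ (conjBlock Q x f) := ⟨isPGroup_cjS x hp.1, hf'⟩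
    obtain ⟨F, hF, e1, e2⟩ := exists_block_of_pair hM hp' (le_stab (pair_idm hp'))
      (Ce_le_stab (pair_idm hp')) le_rfl
    refine ⟨F, hF, e2, ?_⟩
    have h1 := hD.cj x
    rw [hxD, cjS_inf, cjS_No, cjS_stab, hinf hx, ← idm_conjBlock] at h1
    rwa [isDefectGroup_subgroupOf_iff hM h1.le hF, e1]

end Cfsg.Agent.S4662
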