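import Cfsg.Statements.S4664
import Cfsg.Agent.H86.Reg

set_option autoImplicit false
open Cfsg

namespace Cfsg.Agent.S4664

/-- Fix a prime p and a maximal ideal M of the algebraic integers containing p, and let B be a p-block of the finite group G. Let m be the p'-part of the order of G and η = exp(2πi/m). Then every coefficient of the idempotent of B lies in the cyclotomic field ℚ(η). -/
theorem result {G : Type*} [Group G] [Fintype G] (p : ℕ) [Fact p.Prime] (M : Ideal Cfsg.AlgInt) (hM : Cfsg.IsPModular p M) (B : Set (Cfsg.IrrCharacter G)) (hB : Cfsg.IsPBlock M B) (g : G) : Cfsg.blockCoeff B g ∈ IntermediateField.adjoin ℚ ({Complex.exp (2 * Real.pi * Complex.I / ((Nat.card G / p ^ (Nat.card G).factorization p : ℕ) : ℂ))} : Set ℂ) := by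
  classical
  have := hM.2.1
  by_cases hg : p ∣ orderOf g
  · rw [H33.blockCoeff_eq_zero_of_singular hM hB hg]; exact zero_mem _
  set m := Nat.card G / p ^ (Nat.card G).factorization p with hm
  have hm0 : m ≠ 0 := (Nat.ordCompl_pos p (Nat.card_pos (α := G)).ne').ne'
  have hη := Complex.isPrimitiveRoot_exp m hm0
  have hdvd : orderOf g⁻¹ ∣ m := by
    rw [orderOf_inv]
    refine Nat.Coprime.dvd_of_dvd_mul_left (m := p ^ (Nat.card G).factorization p)
      ((hM.1.coprime_iff_not_dvd.2 hg).symm.pow_right _) ?_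
    rw [hm, Nat.ordProj_mul_ordCompl_eq_self]
    exact orderOf_dvd_natCard g
  rw [blockCoeff, H86.finsum_mem_fs]
  refine mul_mem (inv_mem (natCast_mem _ _)) (sum_mem fun χ _ => mul_mem ?_ ?_)
  · rw [← H34.irr_degree_cast]; exact natCast_mem _ _
  · rw [← H5.isIrr_apply_inv χ.2]
    obtain ⟨d, μ, -, hμ, h⟩ := H5.exists_eigenvalues (H34.irr_isCharacter χ) g⁻¹
    have := h 1
    rw [zpow_one] at this
    rw [this]
    refine sum_mem fun i _ => ?_
    have h1 : μ i ^ m = 1 := by
      obtain ⟨k, hk⟩ := hdvd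
      rw [hk, pow_mul, hμ, one_pow]
    have : NeZero m := ⟨hm0⟩
    obtain ⟨j, -, hj⟩ := hη.eq_pow_of_pow_eq_one h1
    rw [zpow_one, ← hj]
    exact pow_mem (IntermediateField.subset_adjoin _ _ (Set.mem_singleton _)) j

end Cfsg.Agent.S4664
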