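import Cfsg.Statements.S4665
import Cfsg.Agent.H86.AMat

set_option autoImplicit false
open Cfsg

namespace Cfsg.Agent.S4665

/-- Fix a prime p, a maximal ideal M of the algebraic integers containing p, and a p-block B of the finite group G, and let p^a be the p-part of the order of G. Let χ be an integer combination of the irreducible characters in B. If the function that agrees with χ on p-regular elements and vanishes on p-singular elements is again an integer combination of the irreducible characters in B, then p^a divides χ(1). -/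
theorem result {G : Type*} [Group G] [Fintype G] (p : ℕ) [Fact p.Prime] (M : Ideal Cfsg.AlgInt) (hM : Cfsg.IsPModular p M) (B : Set (Cfsg.IrrCharacter G)) (hB : Cfsg.IsPBlock M B) (χ : G → ℂ) (hχ : (∃ n : Cfsg.IrrCharacter G → ℤ, ∀ g : G, χ g = ∑ᶠ ψ ∈ B, (n ψ : ℂ) * (ψ : G → ℂ) g)) (h0 : (∃ n : Cfsg.IrrCharacter G → ℤ, ∀ g : G, Cfsg.pRegularPart p χ g = ∑ᶠ ψ ∈ B, (n ψ : ℂ) * (ψ : G → ℂ) g)) : ∃ k : ℤ, χ 1 = (p ^ (Nat.card G).factorization p : ℂ) * k := by
  obtain ⟨n, hn⟩ := h0
  have h : IsGeneralizedCharacter G (pRegularPart p χ) := by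
    have : pRegularPart p χ = ∑ ψ ∈ H86.fs B, n ψ • (ψ : G → ℂ) := by
      funext g
      rw [hn, H86.finsum_mem_fs, Finset.sum_apply]
      simp
    rw [this]
    exact H53.virt_sum _ _ fun ψ _ => H53.virt_zsmul _ (H53.virt_of_irr ψ.2)
  have := H86.pa_dvd_of_virt_of_vanish hM.1 h fun g hg => H86.reg_of_singular _ hg
  rwa [H86.reg_one hM.1] at this

end Cfsg.Agent.S4665
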