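import Cfsg.Statements.S4666
import Cfsg.Agent.H86.AMat

set_option autoImplicit false
open Cfsg

namespace Cfsg.Agent.S4666

/-- Fix a prime p and a maximal ideal M of the algebraic integers containing p, and a p-block B of the finite group G of defect d. For every integer combination χ of the irreducible characters in B, p^d times the function that agrees with χ on p-regular elements and vanishes elsewhere is again an integer combination of the irreducible characters in B. -/
theorem result {G : Type*} [Group G] [Fintype G] (p : ℕ) [Fact p.Prime] (M : Ideal Cfsg.AlgInt) (hM : Cfsg.IsPModular p M) (B : Set (Cfsg.IrrCharacter G)) (hB : Cfsg.IsPBlock M B) (χ : G → ℂ) (hχ : (∃ n : Cfsg.IrrCharacter G → ℤ, ∀ g : G, χ g = ∑ᶠ ψ ∈ B, (n ψ : ℂ) * (ψ : G → ℂ) g)) : (∃ n : Cfsg.IrrCharacter G → ℤ, ∀ g : G, (p ^ Cfsg.blockDefect p B : ℂ) * Cfsg.pRegularPart p χ g = ∑ᶠ ψ ∈ B, (n ψ : ℂ) * (ψ : G → ℂ) g) := by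
  have := hM.2.1
  obtain ⟨n, hn⟩ := hχ
  have h1 : χ = ∑ ψ ∈ H86.fs B, n ψ • (ψ : G → ℂ) := by
    funext g
    rw [hn, H86.finsum_mem_fs, Finset.sum_apply]
    simp
  have h : IsGeneralizedCharacter G χ := by
    rw [h1]
    exact H53.virt_sum _ _ fun ψ _ => H53.virt_zsmul _ (H53.virt_of_irr ψ.2)
  have h2 : blockPart B χ = χ := by
    conv_lhs => rw [h1, H86.blockPart_sum]
    conv_rhs => rw [h1]
    refine Finset.sum_congr rfl fun ψ hψ => ?_
    rw [← Int.cast_smul_eq_zsmul ℂ, H86.blockPart_smul,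
      H86.blockPart_irr_of_mem (H86.mem_fs.1 hψ)]
  refine ⟨fun ψ => H86.aM p B χ ψ, fun g => ?_⟩
  rw [H86.finsum_mem_fs, ← h2, ← H86.blockPart_reg hM hB, H86.blockPart_apply, Finset.mul_sum, h2]
  refine Finset.sum_congr rfl fun ψ hψ => ?_
  rw [H86.aM_cast hM h (H86.mem_fs.1 hψ), mul_assoc]

end Cfsg.Agent.S4666
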