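import Cfsg.Statements.S4668
import Cfsg.Agent.H87.Dict5

set_option autoImplicit false
open Cfsg

namespace Cfsg.Agent.S4668

open Cfsg.Agent.H87 Cfsg.Agent.H32 MonoidAlgebra

theorem step {G : Type*} [Group G] [Finite G] {p : ℕ} [Fact p.Prime] {Q R : Subgroup G}
    (hR : IsPGroup p R) {x : G} (hx : ¬ p ∣ orderOf x) (hxR : x ∈ No R) (hQR : Q ≤ R)
    (hxQ : x ∈ Ce Q) (h : ∀ c ∈ R, c ∈ Ce Q → c * x = x * c) : x ∈ Ce R := by
  by_contra hc
  let C := R ⊓ Subgroup.centralizer {x}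
  have hlt : C < R := lt_of_le_of_ne inf_le_left fun e =>
    hc (mem_Ce_iff_le.2 (inf_eq_left.1 e))
  obtain ⟨y, hy, hyC⟩ := SetLike.exists_of_lt (lt_inf_No hR hlt)
  have hQC : Q ≤ C := le_inf hQR (mem_Ce_iff_le.1 hxQ)
  have hxC : x ∈ Ce C := mem_Ce_iff_le.2 inf_le_right
  have h1 : y * x * y⁻¹ * x⁻¹ ∈ R := by
    rw [mul_assoc y, mul_assoc y]
    exact R.mul_mem hy.1 (conj_mem_of_No hxR (R.inv_mem hy.1))
  have h2 : y * x * y⁻¹ * x⁻¹ ∈ Ce C :=
    (Ce C).mul_mem (conj_mem_of_No (No_le_No_Ce C hy.2) hxC) ((Ce C).inv_mem hxC)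
  have h3 : Commute (y * x * y⁻¹ * x⁻¹) x := h _ h1 (Ce_anti hQC h2)
  have h4 : (y * x * y⁻¹ * x⁻¹) ^ orderOf x = 1 := by
    have e : (y * x * y⁻¹ * x⁻¹ * x) ^ orderOf x = 1 := by
      rw [inv_mul_cancel_right, conj_pow, pow_orderOf_eq_one]; simp
    rwa [h3.mul_pow, pow_orderOf_eq_one, mul_one] at e
  obtain ⟨n, hn⟩ := hR ⟨_, h1⟩
  have h5 : (y * x * y⁻¹ * x⁻¹) ^ p ^ n = 1 := congrArg Subtype.val hn
  have hc : (p ^ n).Coprime (orderOf x) :=
    ((Nat.Prime.coprime_iff_not_dvd Fact.out).2 hx).pow_left n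
  have h6 : y * x * y⁻¹ * x⁻¹ = 1 := by
    have := pow_gcd_eq_one.2 ⟨h5, h4⟩
    rwa [hc.gcd_eq_one, pow_one] at this
  refine hyC ⟨hy.1, Subgroup.mem_centralizer_singleton_iff.2 ?_⟩
  rwa [mul_inv_eq_one, mul_inv_eq_iff_eq_mul] at h6

/-- Fix a prime p and a maximal ideal M of the algebraic integers containing p. Let Q₀ < Q₁ < ⋯ < Q_m be a strictly increasing chain of p-subgroups of the finite group G and N the intersection of their normalizers. Then every block idempotent of N is supported on C_G(Q_m): for every p-block E of N, the idempotent coefficient of E vanishes at every element of N outside C_G(Q_m). -/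
theorem result {G : Type*} [Group G] [Fintype G] (p : ℕ) [Fact p.Prime] (M : Ideal Cfsg.AlgInt) (hM : Cfsg.IsPModular p M) (m : ℕ) (Q : Fin (m + 1) → Subgroup G) (hQ : StrictMono Q) (hQp : ∀ i, IsPGroup p (Q i)) (N : Subgroup G) (hN : ∀ g : G, g ∈ N ↔ ∀ i, g ∈ Subgroup.normalizer (Q i : Set G)) (E : Set (Cfsg.IrrCharacter N)) (hE : Cfsg.IsPBlock M E) (n : N) (hn : (n : G) ∉ Subgroup.centralizer (Q (Fin.last m) : Set G)) : Cfsg.blockCoeff E n = 0 := by
  have := hM.2.1
  have := res_charP hM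
  have hmono := hQ.monotone
  have hNQ : ∀ i, N ≤ No (Q i) := fun i g hg => (hN g).1 hg i
  have hb := (emb_subtype N).blk_idm hE
  have key : ∀ x, (idm M N.subtype E).coeff x ≠ 0 → ∀ i : Fin (m + 1), x ∈ Ce (Q i) := by
    intro x hx i
    have hxN := hb.supp.mem hx
    have hcen : ∀ j, x ∈ Ce (Q j ⊓ N) := fun j =>
      ((supp_Ce_of_idem le_rfl ((hQp j).to_le inf_le_left) inf_le_right
        ((le_inf (hNQ j) Subgroup.le_normalizer).trans (No_inf_No_le _ _)) hb.mem hb.idem).mem hx).2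
    induction i using Fin.induction with
    | zero =>
      refine Ce_anti (le_inf le_rfl fun g hg => (hN g).2 fun j => ?_) (hcen 0)
      exact Subgroup.le_normalizer (hmono (Fin.zero_le j) hg)
    | succ i ih =>
      refine step (hQp _) ((good hM).reg N _ hb x hx) (hNQ _ hxN) (hmono (Fin.castSucc_le_succ i))
        ih fun c hc hc' => mem_Ce.1 (hcen i.succ) c ⟨hc, (hN c).2 fun j => ?_⟩
      rcases le_or_gt j i.castSucc with h | h
      · exact Ce_le_No _ (Ce_anti (hmono h) hc')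
      · exact Subgroup.le_normalizer (hmono (Fin.castSucc_lt_iff_succ_le.1 h) hc)
  have h2 := (emb_subtype N).supp_cidm hE (H := N ⊓ Ce (Q (Fin.last m))) inf_le_left
    ((le_inf Subgroup.le_normalizer ((hNQ _).trans (No_le_No_Ce _))).trans (No_inf_No_le _ _))
    fun x hx => by
      by_contra h0
      exact hx ⟨hb.supp.mem h0, key x h0 _⟩
  rw [← coeff_cidm N.subtype_injective]
  exact h2 _ fun h => hn h.2

end Cfsg.Agent.S4668
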