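import Cfsg.Statements.S4670
import Cfsg.Agent.H87.Dict5

set_option autoImplicit false
open Cfsg

namespace Cfsg.Agent.S4670

open Cfsg.Agent.H87 Cfsg.Agent.H32 MonoidAlgebra

/-- Fix a prime p and a maximal ideal M of the algebraic integers containing p. Let P be a p-subgroup of the finite group G and H a subgroup containing N_G(P). For every p-block B of G with defect group P there is exactly one p-block c of H with defect group P whose idempotent agrees with that of B, modulo the local ideal at M, at every element of C_G(P) (their Brauer-map images at P coincide); and every p-block c of H with defect group P arises in this way from exactly one such B. This is the Brauer correspondence over H. -/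
theorem result {G : Type*} [Group G] [Fintype G] (p : ℕ) [Fact p.Prime] (M : Ideal Cfsg.AlgInt) (hM : Cfsg.IsPModular p M) (P H : Subgroup G) (hP : IsPGroup p P) (hH : Subgroup.normalizer (P : Set G) ≤ H) : (∀ B : Set (Cfsg.IrrCharacter G), Cfsg.IsPBlock M B → Cfsg.IsDefectGroup p M B P → ∃! c : Set (Cfsg.IrrCharacter H), Cfsg.IsPBlock M c ∧ Cfsg.IsDefectGroup p M c (P.subgroupOf H) ∧ ∀ x : G, x ∈ Subgroup.centralizer (P : Set G) → Cfsg.MemLocalIdeal M (Cfsg.blockCoeff B x - Cfsg.subgroupBlockCoeff H c x)) ∧ (∀ c : Set (Cfsg.IrrCharacter H), Cfsg.IsPBlock M c → Cfsg.IsDefectGroup p M c (P.subgroupOf H) → ∃! B : Set (Cfsg.IrrCharacter G), Cfsg.IsPBlock M B ∧ Cfsg.IsDefectGroup p M B P ∧ ∀ x : G, x ∈ Subgroup.centralizer (P : Set G) → Cfsg.MemLocalIdeal M (Cfsg.blockCoeff B x - Cfsg.subgroupBlockCoeff H c x)) := by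
  have := hM.2.1
  have := res_charP hM
  have hPH : P ≤ H := Subgroup.le_normalizer.trans hH
  have e1 : ⊤ ⊓ Ce P = H ⊓ Ce P := by
    rw [top_inf_eq, inf_eq_right.2 ((Ce_le_No P).trans hH)]
  have e2 : ⊤ ⊓ No P = H ⊓ No P := by rw [top_inf_eq, inf_eq_right.2 hH]
  constructor
  · intro B hB hD
    have hD' := (isDefectGroup_iff_isDef hM hB).1 hD
    obtain ⟨z, hz, hzD, hzB⟩ := exists_blk_Br_eq (H := H) (T := H) le_rfl Subgroup.le_normalizer
      (e1 ▸ e2 ▸ hD'.blk_Br le_rfl top_le_No_top (blk_eB hB)) (e2 ▸ hD'.isDef_Br (blk_eB hB))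
    obtain ⟨c, hc, rfl⟩ := (emb_subtype H).exists_idm_eq hz
    refine ⟨c, ⟨hc, (isDefectGroup_subgroupOf_iff hM hPH hc).2 hzD,
      (Br_eq_iff hB hc P).1 hzB.symm⟩, fun c' hc' => ?_⟩
    have h1 := (Br_eq_iff hB hc'.1 P).2 hc'.2.2
    exact idm_inj H.subtype_injective hc'.1 hc (blk_eq_of_Br_eq le_rfl hPH hP
      ((emb_subtype H).blk_idm hc'.1) hz (h1 ▸ hD'.ne) (h1.symm.trans hzB.symm))
  · intro c hc hD
    have hD' := (isDefectGroup_subgroupOf_iff hM hPH hc).1 hD
    have hcb := (emb_subtype H).blk_idm hc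
    obtain ⟨z, hz, hzD, hzB⟩ := exists_blk_Br_eq (H := ⊤) (T := ⊤) le_rfl Subgroup.le_normalizer
      (e1 ▸ e2 ▸ hD'.blk_Br le_rfl Subgroup.le_normalizer hcb) (e2 ▸ hD'.isDef_Br hcb)
    obtain ⟨B, hB, rfl⟩ := exists_eB_eq hz
    refine ⟨B, ⟨hB, (isDefectGroup_iff_isDef hM hB).2 hzD, (Br_eq_iff hB hc P).1 hzB⟩,
      fun B' hB' => ?_⟩
    have h1 := (Br_eq_iff hB'.1 hc P).2 hB'.2.2
    exact eB_inj' hB'.1 hB (blk_eq_of_Br_eq le_rfl le_top hP (blk_eB hB'.1) hz
      (h1 ▸ hD'.ne) (h1.trans hzB.symm))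

end Cfsg.Agent.S4670
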