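import Cfsg.Statements.S4672
import Cfsg.Agent.H87.Dict5

set_option autoImplicit false
open Cfsg

namespace Cfsg.Agent.S4672

open Cfsg.Agent.H87 Cfsg.Agent.H32 MonoidAlgebra

/-- Fix a prime p and a maximal ideal M of the algebraic integers containing p. Let N be a normal subgroup of the finite group G of p-power index and c a p-block of N stable under conjugation by G. Then the idempotent of c is a block idempotent of G: there is a p-block B of G whose idempotent coefficients agree with those of c on N and vanish off N; and for every defect group P of such a block B, G = NP and P ∩ N is a defect group of c. -/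
theorem result {G : Type*} [Group G] [Fintype G] (p : ℕ) [Fact p.Prime] (M : Ideal Cfsg.AlgInt) (hM : Cfsg.IsPModular p M) (N : Subgroup G) [N.Normal] (hN : ∃ k : ℕ, N.index = p ^ k) (c : Set (Cfsg.IrrCharacter N)) (hc : Cfsg.IsPBlock M c) (hst : ∀ x : G, Cfsg.StabilizesBlock N c x) : (∃ B : Set (Cfsg.IrrCharacter G), Cfsg.IsPBlock M B ∧ ∀ g : G, Cfsg.blockCoeff B g = Cfsg.subgroupBlockCoeff N c g) ∧ ∀ B : Set (Cfsg.IrrCharacter G), Cfsg.IsPBlock M B → (∀ g : G, Cfsg.blockCoeff B g = Cfsg.subgroupBlockCoeff N c g) → ∀ P : Subgroup G, Cfsg.IsDefectGroup p M B P → N ⊔ P = ⊤ ∧ Cfsg.IsDefectGroup p M c ((P ⊓ N).subgroupOf N) := by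
  have := hM.2.1
  have := res_charP hM
  obtain ⟨a, ha⟩ := hN
  have hn := top_le_No_of_normal N
  have hq : PQuot p N ⊤ := pQuot_of_relIndex hn (by rwa [Subgroup.relIndex_top_right])
  have hi : Inv ⊤ (idm M N.subtype c) := fun x _ => ((stabilizesBlock_iff hc).1 (hst x)).2
  have hcb := (emb_subtype N).blk_idm hc
  constructor
  · obtain ⟨B, hB, e⟩ := exists_eB_eq (((good hM).blk_iff_of_pQuot le_top le_rfl hq).1
      (hcb.of_inv le_top hi))
    exact ⟨B, hB, coeff_eq_of_eB_eq hn hc hB e⟩
  · intro B hB h P hP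
    have e := eB_eq_of_coeff_eq (M := M) h
    have hP' := (isDefectGroup_iff_isDef hM hB).1 hP
    refine ⟨(good hM).sup_eq_of_pQuot le_top hn hq hcb hi (e ▸ hP'), ?_⟩
    rw [isDefectGroup_subgroupOf_iff hM inf_le_right hc]
    exact hP'.inf_of_cover le_top hn (blk_eB hB) hcb (by rw [e, hcb.idem.eq]; exact hcb.ne_zero)
      (Br_ne_zero_mono inf_le_left (e ▸ hP'.ne))

end Cfsg.Agent.S4672
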