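import Cfsg.Statements.S4673
import Cfsg.Agent.H87.Dict5

set_option autoImplicit false
open Cfsg

namespace Cfsg.Agent.S4673

open Cfsg.Agent.H87 Cfsg.Agent.H32 MonoidAlgebra

/-- Fix a prime p and a maximal ideal M of the algebraic integers containing p. Let N ≤ L be normal subgroups of the finite group G with L/N a p-group, let B be a p-block of G covering the p-block c of N (some member of B has a constituent in c on restriction to N), and suppose that N contains a defect group of B. Then the stabilizer T of c in G satisfies T ∩ L = N. -/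
theorem result {G : Type*} [Group G] [Fintype G] (p : ℕ) [Fact p.Prime] (M : Ideal Cfsg.AlgInt) (hM : Cfsg.IsPModular p M) (N L : Subgroup G) [N.Normal] [L.Normal] [Fintype N] (hNL : N ≤ L) (hLN : ∃ k : ℕ, (N.subgroupOf L).index = p ^ k) (B : Set (Cfsg.IrrCharacter G)) (hB : Cfsg.IsPBlock M B) (c : Set (Cfsg.IrrCharacter N)) (hc : Cfsg.IsPBlock M c) (hcov : (∃ χ ∈ B, ∃ θ ∈ c, Cfsg.classInner (fun n : N => (χ : G → ℂ) n) (θ : N → ℂ) ≠ 0)) (hD : ∃ D : Subgroup G, Cfsg.IsDefectGroup p M B D ∧ D ≤ N) (T : Subgroup G) (hT : ∀ x : G, x ∈ T ↔ Cfsg.StabilizesBlock N c x) : T ⊓ L = N := by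
  have := hM.2.1
  have := res_charP hM
  obtain ⟨a, ha⟩ := hLN
  obtain ⟨D, hD, hDN⟩ := hD
  have hn := top_le_No_of_normal N
  have hT' : T = stab (idm M N.subtype c) := by
    rw [stab_eq_of_iff' hc hT, top_le_iff.1 hn, top_inf_eq]
  have hcb := (emb_subtype N).blk_idm hc
  have hNT : N ≤ T := hT' ▸ inv_iff_le_stab.1 hcb.inv
  have hq : PQuot p N L := pQuot_of_relIndex (le_top.trans hn) ha
  have hi : Inv (T ⊓ L) (idm M N.subtype c) := inv_iff_le_stab.2 (hT' ▸ inf_le_left)
  obtain ⟨R, hR, hRp, hR0, hRS⟩ := (good hM).exists_sup_eq (le_inf hNT hNL) (le_top.trans hn)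
    (hq.mono inf_le_right) hcb hi
  have hD' := (isDefectGroup_iff_isDef hM hB).1 hD
  have hcov' := (covers_subtype_iff N hB hc).1 hcov
  obtain ⟨d, hd, hdc⟩ := exists_blk_ge hNL hcb
  have hRL := hR.trans inf_le_right
  have h1 : Br R d ≠ 0 := fun h => hR0 (by
    rw [← hdc, Br_mul hRp (hd.inv.mono hRL) (hi.mono hR), h, zero_mul])
  have h2 := left_ne_zero_of_mul (Br_mul_ne_zero_of_cover le_top (top_le_No_of_normal L)
    (eB_mem_fix B ⊤) (blk_eB hB).idem (((good hM).blk_iff_of_pQuot hNL le_rfl hq).1 hd)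
    (fun h => hcov' (by rw [← hdc, ← mul_assoc, h, zero_mul])) hRL hRp h1)
  obtain ⟨t, -, ht⟩ := hD'.le_conj le_rfl (blk_eB hB) le_top hRp h2
  rw [← hRS, sup_eq_left]
  exact ht.trans ((cjS_mono t hDN).trans (mem_No_iff_cjS.1 (hn (Subgroup.mem_top t))).le)

end Cfsg.Agent.S4673
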