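import Cfsg.Statements.S4674
import Cfsg.Agent.H87.Dict6

set_option autoImplicit false
open Cfsg

namespace Cfsg.Agent.S4674

open Cfsg.Agent.H87 Cfsg.Agent.H32 MonoidAlgebra

/-- Fix a prime p and a maximal ideal M of the algebraic integers containing p. Let N be a normal subgroup of the finite group G, Q a p-subgroup of N, H = N_G(Q) and L = H ∩ N = N_N(Q). Let d be a p-block of N with defect group Q and e the p-block of L with defect group Q that induces d inside N (its Brauer correspondent). Then block induction from H to G is a bijection from the p-blocks of H covering e onto the p-blocks of G covering d: every block of H covering e induces exactly one block of G, and that block covers d; and every block of G covering d is induced by exactly one block of H covering e. -/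
theorem result {G : Type*} [Group G] [Fintype G] (p : ℕ) [Fact p.Prime] (M : Ideal Cfsg.AlgInt) (hM : Cfsg.IsPModular p M) (N : Subgroup G) [N.Normal] [Fintype N] (Q : Subgroup G) (hQ : IsPGroup p Q) (hQN : Q ≤ N) [Fintype ↥(Subgroup.normalizer (Q : Set G) ⊓ N)] (d : Set (Cfsg.IrrCharacter N)) (hd : Cfsg.IsPBlock M d) (hdQ : Cfsg.IsDefectGroup p M d (Q.subgroupOf N)) (e : Set (Cfsg.IrrCharacter ↥(Subgroup.normalizer (Q : Set G) ⊓ N))) (he : Cfsg.IsPBlock M e) (heQ : Cfsg.IsDefectGroup p M e (Q.subgroupOf (Subgroup.normalizer (Q : Set G) ⊓ N))) (hed : Cfsg.IsInducedBlockIn M N (Subgroup.normalizer (Q : Set G) ⊓ N) e d) : (∀ c : Set (Cfsg.IrrCharacter ↥(Subgroup.normalizer (Q : Set G))), Cfsg.IsPBlock M c → (∃ ψ ∈ c, ∃ ξ ∈ e, Cfsg.classInner (fun l : ↥(Subgroup.normalizer (Q : Set G) ⊓ N) => (ψ : ↥(Subgroup.normalizer (Q : Set G)) → ℂ) (Subgroup.inclusion inf_le_left l)) (ξ : ↥(Subgroup.normalizer (Q : Set G) ⊓ N) → ℂ) ≠ 0) → ∃! B : Set (Cfsg.IrrCharacter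 G), Cfsg.IsInducedBlock M (Subgroup.normalizer (Q : Set G)) c B ∧ (∃ χ ∈ B, ∃ θ ∈ d, Cfsg.classInner (fun n : N => (χ : G → ℂ) n) (θ : N → ℂ) ≠ 0)) ∧ (∀ B : Set (Cfsg.IrrCharacter G), Cfsg.IsPBlock M B → (∃ χ ∈ B, ∃ θ ∈ d, Cfsg.classInner (fun n : N => (χ : G → ℂ) n) (θ : N → ℂ) ≠ 0) → ∃! c : Set (Cfsg.IrrCharacter ↥(Subgroup.normalizer (Q : Set G))), (Cfsg.IsPBlock M c ∧ ∃ ψ ∈ c, ∃ ξ ∈ e, Cfsg.classInner (fun l : ↥(Subgroup.normalizer (Q : Set G) ⊓ N) => (ψ : ↥(Subgroup.normalizer (Q : Set G)) → ℂ) (Subgroup.inclusion inf_le_left l)) (ξ : ↥(Subgroup.normalizer (Q : Set G) ⊓ N) → ℂ) ≠ 0) ∧ Cfsg.IsInducedBlock M (Subgroup.normalizer (Q : Set G)) c B) := by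
  have := hM.2.1
  have := res_charP hM
  have hn := top_le_No_of_normal N
  have hL : Emb (No Q ⊓ N).subtype (N ⊓ No Q) := (emb_subtype _).of_eq (inf_comm _ _)
  have hH : Emb (No Q).subtype (⊤ ⊓ No Q) := (emb_subtype _).of_eq (top_inf_eq _).symm
  have hQL : Q ≤ N ⊓ No Q := le_inf hQN Subgroup.le_normalizer
  have hQH : Q ≤ ⊤ ⊓ No Q := le_inf le_top Subgroup.le_normalizer
  have hdb := (emb_subtype N).blk_idm hd
  have heb := hL.blk_idm he
  have hdD := (isDefectGroup_subgroupOf_iff hM hQN hd).1 hdQ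
  have heD : IsDef p (N ⊓ No Q) (idm M (No Q ⊓ N).subtype e) Q :=
    inf_comm (No Q) N ▸ (isDefectGroup_subgroupOf_iff hM (hQL.trans (inf_comm _ _).le) he).1 heQ
  have heB := Br_eq_self_of_idem le_rfl hQ hQL inf_le_right heb.mem heb.idem
  have hde : Br Q (idm M N.subtype d) = idm M (No Q ⊓ N).subtype e := by
    have h1 := Ind.Br_mul_Br hM hL (emb_subtype N) inf_le_left hQ hQN
      (inf_le_inf_left _ (Ce_le_No Q)) (inv_of_le_fix hQL) he hd
      ((isInducedBlockIn_iff inf_le_right).1 hed).2.2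
    rw [heB] at h1
    exact Br_eq_of_cover le_rfl Subgroup.le_normalizer hdb heb heb heD
      (by rw [heb.idem.eq]; exact heb.ne_zero) (by rw [h1]; exact heb.ne_zero)
  have hcov : ∀ c : Set (IrrCharacter (No Q)), IsPBlock M c →
      ((∃ ψ ∈ c, ∃ ξ ∈ e, classInner (fun l : ↥(No Q ⊓ N) => (ψ : No Q → ℂ)
        (Subgroup.inclusion inf_le_left l)) (ξ : ↥(No Q ⊓ N) → ℂ) ≠ 0) ↔
        idm M (No Q).subtype c * idm M (No Q ⊓ N).subtype e ≠ 0) := fun c hc =>
    covers_iff (j := Subgroup.inclusion inf_le_left) (No Q).subtype_injective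
      (Subgroup.inclusion_injective _) (fun _ => rfl) hc he
  have hcB : ∀ c : Set (IrrCharacter (No Q)), IsPBlock M c →
      Br Q (idm M (No Q).subtype c) = idm M (No Q).subtype c := fun c hc =>
    Br_eq_self_of_idem le_rfl hQ hQH inf_le_right (hH.blk_idm hc).mem (hH.blk_idm hc).idem
  have hind : ∀ c : Set (IrrCharacter (No Q)), IsPBlock M c → ∀ B, IsPBlock M B →
      (IsInducedBlock M (No Q) c B ↔ Br Q (eB M B) * idm M (No Q).subtype c ≠ 0) := by
    intro c hc B hB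
    rw [isInducedBlock_iff, and_iff_right hc, and_iff_right hB,
      ind_iff_Br hM hH emb_id le_top hQ le_top (inf_le_inf_left _ (Ce_le_No Q))
        (inv_of_le_fix hQH) hc hB (by rw [hcB c hc]; exact (hH.blk_idm hc).ne_zero),
      hcB c hc, idm_id]
  have key : ∀ c : Set (IrrCharacter (No Q)), IsPBlock M c →
      idm M (No Q).subtype c * idm M (No Q ⊓ N).subtype e ≠ 0 → ∀ B,
      IsInducedBlock M (No Q) c B → Br Q (eB M B) = idm M (No Q).subtype c := by
    intro c hc h B hB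
    have hB' := (isInducedBlock_iff.1 hB).2.1
    exact Br_eq_of_cover le_top hn (blk_eB hB') (hH.blk_idm hc) heb heD h ((hind c hc B hB').1 hB)
  constructor
  · intro c hc h
    rw [hcov c hc] at h
    obtain ⟨B, hB, hI⟩ := exists_ind hM hH emb_id le_top hQ le_top
      (inf_le_inf_left _ (Ce_le_No Q)) (inv_of_le_fix hQH) hc
      (by rw [hcB c hc]; exact (hH.blk_idm hc).ne_zero)
    have hI' := isInducedBlock_iff.2 ⟨hc, hB, hI⟩
    refine ⟨B, ⟨hI', (covers_subtype_iff N hB hd).2 fun h0 => h ?_⟩, fun B' hB' =>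
      Ind.unique emb_id hc (isInducedBlock_iff.1 hB'.1).2.1 hB (isInducedBlock_iff.1 hB'.1).2.2 hI⟩
    have h1 := Br_mul (k := Res M) hQ (inv_eB B Q) (hdb.inv.mono hQN)
    rw [h0, map_zero, key c hc h B hI', hde] at h1
    exact h1.symm
  · intro B hB h
    rw [covers_subtype_iff N hB hd] at h
    have h1 := Br_mul_ne_zero_of_cover le_top hn (blk_eB hB).mem (blk_eB hB).idem hdb h hQN hQ
      hdD.ne
    rw [hde] at h1
    obtain ⟨z, hz, h2⟩ := exists_prim_mul_ne_zero (isComm_fix (k := Res M) (le_refl (⊤ ⊓ No Q))) h1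
    obtain ⟨c, hc, rfl⟩ := hH.exists_idm_eq hz
    have h3 : idm M (No Q).subtype c * Br Q (eB M B) = Br Q (eB M B) * idm M (No Q).subtype c :=
      fix_comm le_rfl hz.mem
        (fix_mono (inf_le_inf_left _ (Ce_le_No Q)) le_rfl (Br_mem_fix (blk_eB hB).mem Q))
    have h4 : idm M (No Q).subtype c * idm M (No Q ⊓ N).subtype e ≠ 0 := fun h0 => h2 (by
      rw [← mul_assoc, h3, mul_assoc, h0, mul_zero])
    have h5 := (hind c hc B hB).2 fun h0 => h2 (by rw [← mul_assoc, h3, h0, zero_mul])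
    refine ⟨c, ⟨⟨hc, (hcov c hc).2 h4⟩, h5⟩, fun c' hc' => idm_inj (No Q).subtype_injective
      hc'.1.1 hc ((key c' hc'.1.1 ((hcov c' hc'.1.1).1 hc'.1.2) B hc'.2).symm.trans
        (key c hc h4 B h5))⟩

end Cfsg.Agent.S4674
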