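import Cfsg.Statements.S4679
import Cfsg.Agent.H87.Nilp

set_option autoImplicit false
open Cfsg

namespace Cfsg.Agent.S4679

open Cfsg.Agent.H87 Cfsg.Agent.H32 MonoidAlgebra

/-- Fix a prime p and a maximal ideal M of the algebraic integers containing p, a p-block B of the finite group G with maximal Brauer pair (P, e), its fusion system F on P, a Brauer pair (Q, f) ≤ (P, e), and let T be the stabilizer of f in N_G(Q). Then Q is fully normalized in F if and only if N_P(Q) is a defect group of the block of T whose idempotent is that of f. -/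
theorem result {G : Type*} [Group G] [Fintype G] (p : ℕ) [Fact p.Prime] (M : Ideal Cfsg.AlgInt) (hM : Cfsg.IsPModular p M) (B : Set (Cfsg.IrrCharacter G)) (P : Subgroup G) (e : Set (Cfsg.IrrCharacter (Subgroup.centralizer (P : Set G)))) (hmax : Cfsg.IsMaximalBrauerPair p M B P e) (F : Cfsg.FusionSystem P) (hF : Cfsg.IsBlockFusionSystemOn p M B P e F) (Q : Subgroup G) (f : Set (Cfsg.IrrCharacter (Subgroup.centralizer (Q : Set G)))) (hQP : Q ≤ P) (hf : Cfsg.IsPBlock M f) (hle : Cfsg.SubpairLE p M Q f P e) (T : Subgroup G) (hT : ∀ y : G, y ∈ T ↔ y ∈ Subgroup.normalizer (Q : Set G) ∧ Cfsg.StabilizesBlock (Subgroup.centralizer (Q : Set G)) f y) : F.IsFullyNormalized Q ↔ ∃ F' : Set (Cfsg.IrrCharacter T), Cfsg.IsPBlock M F' ∧ (∀ t : T, Cfsg.blockCoeff F' t = Cfsg.subgroupBlockCoeff (Subgroup.centralizer (Q : Set G)) f (t : G)) ∧ Cfsg.IsDefectGroup p M F' ((P ⊓ Subgroup.normalizer (Q : Set G)).subgroupOf T) := by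
  have := hM.2.1
  have := res_charP hM
  have hm := IsMaximalBrauerPair.maxPair hM hmax
  have hs := SubpairLE.sub hM hle
  have hp := hs.pair_iff.2 hm.bpair.pair
  have hT' := stab_eq_of_iff hf hT
  have hle' : P ⊓ No Q ≤ T :=
    hT' ▸ le_inf inf_le_right (inv_iff_le_stab.1 (hs.inv hm.bpair.pair))
  rw [(IsBlockFusionSystemOn.isBFS hM hF).fullyNormalized_iff le_rfl top_le_No_top
    (blk_eB hmax.1.2.1) hm hs, top_inf_eq, ← hT']
  constructor
  · intro h
    obtain ⟨F', h1, h2, h3⟩ := exists_block_of_pair hM ⟨hp.pgp, hf⟩ ((le_stab hp).trans hT'.ge)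
      ((Ce_le_stab hp).trans hT'.ge) hT'.le
    exact ⟨F', h1, h3, (isDefectGroup_subgroupOf_iff hM hle' h1).2 (h2 ▸ h)⟩
  · rintro ⟨F', h1, h2, h3⟩
    exact idm_eq_of_coeff_eq (M := M) ((Ce_le_stab hp).trans hT'.ge) h2 ▸
      (isDefectGroup_subgroupOf_iff hM hle' h1).1 h3

end Cfsg.Agent.S4679
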