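import Cfsg.Statements.S4681
import Cfsg.Agent.H87.Nilp

set_option autoImplicit false
open Cfsg

namespace Cfsg.Agent.S4681

open Cfsg.Agent.H87 Cfsg.Agent.H32 MonoidAlgebra

/-- Fix a prime p and a maximal ideal M of the algebraic integers containing p. Let B₀ be the principal p-block of the finite group G, P a Sylow p-subgroup and e₀ the principal p-block of C_G(P). Then (P, e₀) is a maximal Brauer pair of B₀, and the fusion system of B₀ on (P, e₀) is the fusion system of G on P: its maps from each subgroup of P are exactly the conjugation maps into P by elements of G. -/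
theorem result {G : Type*} [Group G] [Fintype G] (p : ℕ) [Fact p.Prime] (M : Ideal Cfsg.AlgInt) (hM : Cfsg.IsPModular p M) (S : Sylow p G) : Cfsg.IsMaximalBrauerPair p M (Cfsg.principalBlock M G) (S : Subgroup G) (Cfsg.principalBlock M (Subgroup.centralizer ((S : Subgroup G) : Set G))) ∧ ∀ F : Cfsg.FusionSystem (S : Subgroup G), Cfsg.IsBlockFusionSystemOn p M (Cfsg.principalBlock M G) (S : Subgroup G) (Cfsg.principalBlock M (Subgroup.centralizer ((S : Subgroup G) : Set G))) F → ∀ Q : Subgroup G, F.Hom Q = (Cfsg.groupFusionSystem (S : Subgroup G)).Hom Q := by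
  have := hM.2.1
  have := res_charP hM
  have hB : IsPBlock M (principalBlock M G) := isPBlock_principalBlock
  have he : IsPBlock M (principalBlock M (Ce (S : Subgroup G))) := isPBlock_principalBlock
  have hp := pair_idm (M := M) (⟨S.isPGroup', he⟩ : IsBrauerPair p M (S : Subgroup G) _)
  have h1 := aug_idm_principal (M := M) (Ce (S : Subgroup G)).subtype
  refine ⟨(isMaximalBrauerPair_iff hM hB he).2
    ((bpair_of_aug le_rfl (blk_eB hB) aug_eB_principal hp le_top h1).maxPair_of_isDef
      ((isDef_iff_sylIn_of_aug (k := Res M) (inv_eB (principalBlock M G) ⊤) aug_eB_principal).2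
        (sylIn_top_iff.2 ⟨S, rfl⟩))), fun F hF Q => H91.Hom_eq_iff_M.2 fun φ => ?_⟩
  rw [IsBlockFusionSystemOn.isBFS hM hF, H91.M_group_iff]
  constructor
  · rintro ⟨g, -, h2, f, h3, h4⟩
    exact ⟨h3.le, fun x hx => h2 x hx ▸ h4.le (conj_mem_cjS hx), g, h2⟩
  · rintro ⟨h2, h3, g, h4⟩
    obtain ⟨f, hf⟩ := exists_sub hp h2
    refine ⟨g, trivial, h4, f, hf, sub_of_aug ((hf.pair_iff.2 hp).cj (top_le_No_top trivial)) hp
      ?_ (by rw [aug_cj]; exact hf.aug_eq h1) h1⟩
    rw [← im_eq_cjS h4]
    exact H91.im_le_iff.2 h3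

end Cfsg.Agent.S4681
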