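import Cfsg.Statements.S4682
import Cfsg.Agent.H87.Nilp

set_option autoImplicit false
open Cfsg

namespace Cfsg.Agent.S4682

open Cfsg.Agent.H87 Cfsg.Agent.H32 MonoidAlgebra

/-- Fix a prime p and a maximal ideal M of the algebraic integers containing p, a p-block B of the finite group G with maximal Brauer pair (P, e), P abelian, and a Brauer pair (Q, f) ≤ (P, e). Let T_Q be the stabilizer of f in N_G(Q) and T_P the stabilizer of e in N_G(P). Then every element of T_Q is a product of an element of T_P and an element of C_G(Q); and the index of C_G(Q) in T_Q equals the index of T_P ∩ C_G(Q) in T_P ∩ N_G(Q). -/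
theorem result {G : Type*} [Group G] [Fintype G] (p : ℕ) [Fact p.Prime] (M : Ideal Cfsg.AlgInt) (hM : Cfsg.IsPModular p M) (B : Set (Cfsg.IrrCharacter G)) (P : Subgroup G) (e : Set (Cfsg.IrrCharacter (Subgroup.centralizer (P : Set G)))) (hmax : Cfsg.IsMaximalBrauerPair p M B P e) (hab : ∀ x ∈ P, ∀ y ∈ P, x * y = y * x) (Q : Subgroup G) (f : Set (Cfsg.IrrCharacter (Subgroup.centralizer (Q : Set G)))) (hQP : Q ≤ P) (hf : Cfsg.IsPBlock M f) (hle : Cfsg.SubpairLE p M Q f P e) (TQ : Subgroup G) (hTQ : ∀ y : G, y ∈ TQ ↔ y ∈ Subgroup.normalizer (Q : Set G) ∧ Cfsg.StabilizesBlock (Subgroup.centralizer (Q : Set G)) f y) (TP : Subgroup G) (hTP : ∀ y : G, y ∈ TP ↔ y ∈ Subgroup.normalizer (P : Set G) ∧ Cfsg.StabilizesBlock (Subgroup.centralizer (P : Set G)) e y) : (∀ x ∈ TQ, ∃ y ∈ TP, ∃ c ∈ Subgroup.centralizer (Q : Set G), x = y * c) ∧ ((Subgroup.centralizer (Q : Set G)).subgroupOf TQ).index = ((TP ⊓ Subgroup.centralizer (Q : Set G)).subgroupOf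 (TP ⊓ Subgroup.normalizer (Q : Set G))).index := by
  have := hM.2.1
  have := res_charP hM
  have hm := IsMaximalBrauerPair.maxPair hM hmax
  have hs := SubpairLE.sub hM hle
  have hp := hs.pair_iff.2 hm.bpair.pair
  have hQ := stab_eq_of_iff hf hTQ
  have hP := stab_eq_of_iff hmax.1.1.2 hTP
  have h1 : ∀ x ∈ TQ, ∃ y ∈ TP, ∃ c ∈ Ce Q, x = y * c := by
    intro x hx
    rw [hQ] at hx
    obtain ⟨c, hc, h⟩ := hm.burnside' le_rfl top_le_No_top (blk_eB hmax.1.2.1)
      (fun x hx => mem_Ce.2 fun y hy => hab y hy x hx) hs (g := x) ⟨⟨trivial, hx.1⟩, hx.2⟩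
    refine ⟨c * x, hP ▸ ⟨h.1.2, h.2⟩, x⁻¹ * c⁻¹ * x,
      conj_mem_of_No' (No_le_No_Ce Q hx.1) ((Ce Q).inv_mem hc.1.2), by group⟩
  refine ⟨h1, ?_⟩
  have h2 : autInducedBy TQ Q = autInducedBy TP Q := by
    ext α
    rw [H91.mem_autInducedBy_iff, H91.mem_autInducedBy_iff]
    constructor
    · rintro ⟨x, hx, h⟩
      obtain ⟨y, hy, c, hc, rfl⟩ := h1 x hx
      exact ⟨y, hy, fun u => (h u).trans (conj_eq_of_mem_Ce (by simpa using hc) u.2)⟩
    · rintro ⟨y, hy, h⟩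
      have h3 := H91.mem_normalizer_of_aut h
      rw [hP] at hy
      have h4 := hs.cj (x := y) (top_le_No_top trivial)
      rw [mem_No_iff_cjS.1 h3, mem_No_iff_cjS.1 hy.1, mem_stab.1 hy.2] at h4
      exact ⟨y, hQ ▸ ⟨h3, h4.unique hm.bpair.pair hs⟩, h⟩
  have h3 := card_autInducedBy TQ Q
  rw [h2, card_autInducedBy, inf_eq_left.2 (hQ.le.trans inf_le_left),
    inf_eq_right.2 ((Ce_le_stab hp).trans hQ.ge)] at h3
  exact h3.symm

end Cfsg.Agent.S4682
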