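import Cfsg.Statements.S4687
import Cfsg.Agent.H87.Nilp

set_option autoImplicit false
open Cfsg

namespace Cfsg.Agent.S4687

open Cfsg.Agent.H87 Cfsg.Agent.H32 MonoidAlgebra

/-- Fix a prime p and a maximal ideal M of the algebraic integers containing p, and a p-block B of the finite group G with maximal Brauer pair (P, e), P abelian. Then B is nilpotent if and only if its inertial quotient is trivial: every element of N_G(P) stabilizing e centralizes P. -/
theorem result {G : Type*} [Group G] [Fintype G] (p : ℕ) [Fact p.Prime] (M : Ideal Cfsg.AlgInt) (hM : Cfsg.IsPModular p M) (B : Set (Cfsg.IrrCharacter G)) (P : Subgroup G) (e : Set (Cfsg.IrrCharacter (Subgroup.centralizer (P : Set G)))) (hmax : Cfsg.IsMaximalBrauerPair p M B P e) (hab : ∀ x ∈ P, ∀ y ∈ P, x * y = y * x) : Cfsg.IsNilpotentBlock p M B ↔ ∀ x : G, x ∈ Subgroup.normalizer (P : Set G) → Cfsg.StabilizesBlock (Subgroup.centralizer (P : Set G)) e x → x ∈ Subgroup.centralizer (P : Set G) := by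
  have := hM.2.1
  have := res_charP hM
  rw [isNilpotentBlock_iff_nilp hM hmax.1.2.1, nilp_iff_of_abelian (good hM) (blk_eB hmax.1.2.1)
    (IsMaximalBrauerPair.maxPair hM hmax) fun x hx => mem_Ce.2 fun y hy => hab y hy x hx]
  refine ⟨fun h x hx hs => h ⟨⟨trivial, hx⟩, ((stabilizesBlock_iff hmax.1.1.2).1 hs).2⟩,
    fun h x hx => h x hx.1.2 ((stabilizesBlock_iff hmax.1.1.2).2 ⟨No_le_No_Ce P hx.1.2, hx.2⟩)⟩

end Cfsg.Agent.S4687
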