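import Cfsg.Statements.S4688
import Cfsg.Agent.H87.Nilp

set_option autoImplicit false
open Cfsg

namespace Cfsg.Agent.S4688

open Cfsg.Agent.H87 Cfsg.Agent.H32 MonoidAlgebra

/-- Fix a prime p and a maximal ideal M of the algebraic integers containing p, and a nilpotent p-block B of the finite group G with maximal Brauer pair (P, e). Then for every Brauer pair (Q, f) of B, f is a nilpotent block of C_G(Q); and if moreover (Q, f) ≤ (P, e), then C_P(Q) is a defect group of f as a block of C_G(Q). -/
theorem result {G : Type*} [Group G] [Fintype G] (p : ℕ) [Fact p.Prime] (M : Ideal Cfsg.AlgInt) (hM : Cfsg.IsPModular p M) (B : Set (Cfsg.IrrCharacter G)) (P : Subgroup G) (e : Set (Cfsg.IrrCharacter (Subgroup.centralizer (P : Set G)))) (hmax : Cfsg.IsMaximalBrauerPair p M B P e) (hnil : Cfsg.IsNilpotentBlock p M B) (Q : Subgroup G) (f : Set (Cfsg.IrrCharacter (Subgroup.centralizer (Q : Set G)))) (hQf : Cfsg.IsBrauerPairOf p M B Q f) : Cfsg.IsNilpotentBlock p M f ∧ (Cfsg.SubpairLE p M Q f P e → Cfsg.IsDefectGroup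 p M f ((P ⊓ Subgroup.centralizer (Q : Set G)).subgroupOf (Subgroup.centralizer (Q : Set G)))) := by
  have := hM.2.1
  have := res_charP hM
  have hB := hmax.1.2.1
  have hn := (isNilpotentBlock_iff_nilp hM hB).1 hnil
  constructor
  · rw [(emb_subtype _).isNilpotentBlock_iff hM hQf.1.2]
    simpa using hn.of_bpair (blk_eB hB) (IsBrauerPairOf.bpair hM hQf)
  · intro hle
    rw [isDefectGroup_subgroupOf_iff hM inf_le_right hQf.1.2]
    simpa using hn.isDef_inf_Ce (good hM) (blk_eB hB) (IsMaximalBrauerPair.maxPair hM hmax)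
      (SubpairLE.sub hM hle)

end Cfsg.Agent.S4688
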