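import Cfsg.Statements.S4690
import Cfsg.Agent.H86.Nil

set_option autoImplicit false
open Cfsg

namespace Cfsg.Agent.S4690

/-- Fix a prime p and a maximal ideal M of the algebraic integers containing p, and a nilpotent p-block B of the finite group G with defect group P. Then there is a bijection from B onto the irreducible characters of P carrying the height of each χ ∈ B to the exponent of p in the degree of its image. -/
theorem result {G : Type*} [Group G] [Fintype G] (p : ℕ) [Fact p.Prime] (M : Ideal Cfsg.AlgInt) (hM : Cfsg.IsPModular p M) (B : Set (Cfsg.IrrCharacter G)) (hnil : Cfsg.IsNilpotentBlock p M B) (P : Subgroup G) (hP : Cfsg.IsDefectGroup p M B P) : ∃ Φ : B ≃ Cfsg.IrrCharacter P, ∀ χ : B, Cfsg.blockHeight p B ((χ : Cfsg.IrrCharacter G) : G → ℂ) = (Cfsg.charDegree ((Φ χ : Cfsg.IrrCharacter P) : P → ℂ)).factorization p := by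
  have := hM.2.1
  obtain ⟨e, h, hn⟩ := H86.exists_ctx_of_nilpotent hM hnil hP
  obtain ⟨χ, hχ, h0⟩ := H86.exists_height_zero (p := p) (H32.isPBlock_nonempty h.hB)
  obtain ⟨Φ, hΦ⟩ := h.exists_equiv_of_nilp hn hχ h0
  refine ⟨Φ.symm, fun ψ => ?_⟩
  obtain ⟨l, rfl⟩ := Φ.surjective ψ
  have h1 := congrFun (h.reg_eq_of_nilp hn hχ l) 1
  rw [← hΦ, Pi.smul_apply, H86.reg_one hM.1, H86.reg_one hM.1, ← H32.cast_charDegree_irr,
    ← H32.cast_charDegree_irr, ← H32.cast_charDegree_irr, smul_eq_mul, ← Nat.cast_mul,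
    Nat.cast_inj] at h1
  rw [Φ.symm_apply_apply, H32.blockHeight_eq, h1, Nat.factorization_mul (H32.charDegree_ne_zero _)
    (H32.charDegree_ne_zero _), Finsupp.add_apply, (H32.blockHeight_eq_zero_iff hχ).1 h0,
    Nat.add_sub_cancel]

end Cfsg.Agent.S4690
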