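import Cfsg.Statements.S4693
import Cfsg.Agent.H87.Nilp

set_option autoImplicit false
open Cfsg

namespace Cfsg.Agent.S4693

open Cfsg.Agent.H87 Cfsg.Agent.H32 MonoidAlgebra

/-- Fix a prime p and a maximal ideal M of the algebraic integers containing p, a p-block B of the finite group G with maximal Brauer pair (P, e) and fusion system F on P, and a Brauer pair (Q, f) ≤ (P, e) with Q centric in F. Suppose every element of G normalizes Q and stabilizes f. Then the idempotent of B agrees with that of f modulo M at every element of G, and f is the idempotent of a nilpotent block of Q·C_G(Q): some p-block of Q·C_G(Q) has the idempotent coefficients of f and is nilpotent. -/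
theorem result {G : Type*} [Group G] [Fintype G] (p : ℕ) [Fact p.Prime] (M : Ideal Cfsg.AlgInt) (hM : Cfsg.IsPModular p M) (B : Set (Cfsg.IrrCharacter G)) (P : Subgroup G) (e : Set (Cfsg.IrrCharacter (Subgroup.centralizer (P : Set G)))) (hmax : Cfsg.IsMaximalBrauerPair p M B P e) (F : Cfsg.FusionSystem P) (hF : Cfsg.IsBlockFusionSystemOn p M B P e F) (Q : Subgroup G) (f : Set (Cfsg.IrrCharacter (Subgroup.centralizer (Q : Set G)))) (hQP : Q ≤ P) (hf : Cfsg.IsPBlock M f) (hle : Cfsg.SubpairLE p M Q f P e) (hcen : F.IsCentric Q) (hG : ∀ x : G, x ∈ Subgroup.normalizer (Q : Set G) ∧ Cfsg.StabilizesBlock (Subgroup.centralizer (Q : Set G)) f x) : (∀ g : G, Cfsg.MemLocalIdeal M (Cfsg.blockCoeff B g - Cfsg.subgroupBlockCoeff (Subgroup.centralizer (Q : Set G)) f g)) ∧ ∃ F' : Set (Cfsg.IrrCharacter ↥(Q ⊔ Subgroup.centralizer (Q : Set G))), Cfsg.IsPBlock M F' ∧ (∀ t : ↥(Q ⊔ Subgroup.centralizer (Q : Set G)), Cfsg.blockCoeff F' t = Cfsg.subgroupBlockCoeff (Subgroup.centralizer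 (Q : Set G)) f (t : G)) ∧ Cfsg.IsNilpotentBlock p M F' := by
  have := hM.2.1
  have := res_charP hM
  have hB := hmax.1.2.1
  have hm := IsMaximalBrauerPair.maxPair hM hmax
  have hs := SubpairLE.sub hM hle
  have hp := hs.pair_iff.2 hm.bpair.pair
  have hT : ⊤ ≤ No Q ⊓ stab (idm M (Ce Q).subtype f) := fun x _ =>
    ⟨(hG x).1, ((stabilizesBlock_iff hf).1 (hG x).2).2⟩
  have h1 := (hm.bpair.of_sub le_rfl (blk_eB hB).mem (blk_eB hB).idem hs).br
  rw [Br_eq_self_of_idem le_rfl hp.pgp le_top (hT.trans inf_le_left) (blk_eB hB).mem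
    (blk_eB hB).idem] at h1
  have h2 : eB M B = idm M (Ce Q).subtype f :=
    IsPrim.eq_of_mul_ne_zero (isComm_fix le_rfl) (blk_eB hB) (hp.blk_self le_top le_top hT)
      (by rw [h1]; exact hp.blk.ne_zero)
  refine ⟨fun g => ?_, ?_⟩
  · exact (Br_eq_iff hB hf ⊥).1 (congrArg _ h2) g (by simp)
  obtain ⟨F', h3, h4, h5⟩ := exists_block_of_pair hM ⟨hp.pgp, hf⟩ (T := Q ⊔ Ce Q) le_sup_left
    le_sup_right (le_top.trans hT)
  refine ⟨F', h3, h5, ?_⟩
  have h6 := ((IsBlockFusionSystemOn.isBFS hM hF).centric_iff le_rfl top_le_No_top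
    (blk_eB hB) hm hs).1 hcen
  rw [top_inf_Ce_inf_stab hp] at h6
  have h7 := (hp.isDef_sup_iff le_top).2 (by simpa using h6)
  rw [top_inf_eq] at h7
  rw [(emb_subtype _).isNilpotentBlock_iff hM h3, h4, sup_comm]
  exact nilp_of_isDef_sup le_rfl (Subgroup.le_normalizer.trans (No_le_No_Ce Q))
    (hp.blk_self le_sup_right le_sup_left (le_top.trans hT)) h7

end Cfsg.Agent.S4693
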