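import Cfsg.Statements.S4694
import Cfsg.Agent.H87.Dict7

set_option autoImplicit false
open Cfsg

namespace Cfsg.Agent.S4694

open Cfsg.Agent.H87 Cfsg.Agent.H32 MonoidAlgebra

/-- Fix a prime p and a maximal ideal M of the algebraic integers containing p, a p-block B of the finite group G and a Brauer pair (Q, e) of B. Let T be the stabilizer of e in N_G(Q) and suppose that (Q, e) carries a weight: the block of T whose idempotent is that of e contains an irreducible character χ that is constant on the cosets of Q and whose degree has p-part equal to the p-part of the index of Q in T. Then Z(Q) is a defect group of e as a block of C_G(Q), and Q is the largest normal p-subgroup of T: every p-subgroup of T normalized by T lies in Q. -/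
theorem result {G : Type*} [Group G] [Fintype G] (p : ℕ) [Fact p.Prime] (M : Ideal Cfsg.AlgInt) (hM : Cfsg.IsPModular p M) (B : Set (Cfsg.IrrCharacter G)) (Q : Subgroup G) (e : Set (Cfsg.IrrCharacter (Subgroup.centralizer (Q : Set G)))) (hQe : Cfsg.IsBrauerPairOf p M B Q e) (T : Subgroup G) (hT : ∀ y : G, y ∈ T ↔ y ∈ Subgroup.normalizer (Q : Set G) ∧ Cfsg.StabilizesBlock (Subgroup.centralizer (Q : Set G)) e y) (F' : Set (Cfsg.IrrCharacter T)) (hF' : Cfsg.IsPBlock M F') (hF'e : ∀ t : T, Cfsg.blockCoeff F' t = Cfsg.subgroupBlockCoeff (Subgroup.centralizer (Q : Set G)) e (t : G)) (χ : Cfsg.IrrCharacter T) (hχ : χ ∈ F') (hχQ : ∀ q : G, q ∈ Q → ∀ t : T, ∀ t' : T, (t' : G) = q * (t : G) → (χ : T → ℂ) t' = (χ : T → ℂ) t) (hdeg : (Cfsg.charDegree (χ : T → ℂ)).factorization p + (Nat.card Q).factorization p = (Nat.card T).factorization p) : Cfsg.IsDefectGroup p M e ((Q ⊓ Subgroup.centralizer (Q : Set G)).subgroupOf (Subgroup.centralizer (Q : Set G))) ∧ ∀ R : Subgroup G, R ≤ T → IsPGroup p R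 → (∀ t ∈ T, t ∈ Subgroup.normalizer (R : Set G)) → R ≤ Q := by
  have := hM.2.1
  have := res_charP hM
  have hpr : p.Prime := Fact.out
  have he := hQe.1
  have hp := pair_idm (M := M) he
  have eT := stab_eq_of_iff he.2 hT
  have hQT : Q ≤ T := (le_stab hp).trans eT.ge
  have hCT : Ce Q ≤ T := (Ce_le_stab hp).trans eT.ge
  have hTQ : T ≤ No Q := eT.le.trans inf_le_left
  have hker : ∀ t : T, (t : G) ∈ Q → (χ : T → ℂ) t = (χ : T → ℂ) 1 := fun t ht =>
    hχQ t ht 1 t (by simp)
  constructor
  · have hLT : Q ⊔ Ce Q ≤ T := sup_le hQT hCT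
    have hTL : T ≤ No (Q ⊔ Ce Q) :=
      (le_inf hTQ (hTQ.trans (No_le_No_Ce Q))).trans (No_inf_No_le_sup _ _)
    have := Fintype.ofFinite ↥(Q ⊔ Ce Q)
    let E := H34.NEmb.incl hLT hTL
    obtain ⟨θ, hθ⟩ := H34.exists_under E.ι χ
    obtain ⟨m, hm, hd⟩ := hθ.exists_degree_eq_mul
    have hm0 : m ≠ 0 := fun h => charDegree_ne_zero χ (by rw [hd, h, zero_mul])
    have h1 := (Nat.factorization_le_iff_dvd hm0 Subgroup.index_ne_zero_of_finite).mpr hm p
    have h2 := factorization_index_add (p := p) E.ι.range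
    have h3 : Nat.card E.ι.range = Nat.card ↥(Q ⊔ Ce Q) :=
      (Nat.card_congr (MonoidHom.ofInjective E.inj).toEquiv).symm
    have h4 := factorization_index_add (p := p) (Q.subgroupOf (Q ⊔ Ce Q))
    rw [card_subgroupOf le_sup_left] at h4
    rw [hd, Nat.factorization_mul hm0 (charDegree_ne_zero θ), Finsupp.add_apply] at hdeg
    rw [h3] at h2
    have h5 := isDefectGroup_of_canon hM (θ := θ) ⟨H34.subgroupOf_sup_Ce_eq_top Q,
      he.1.comap_subtype, by omega, fun u hu => by
        rw [H5.apply_eq_degree_of_constituent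
          (H5.isCharacter_comp (H5.isCharacter_of_isIrr χ.2) E.ι) θ.2 hθ
          ((hker (E.ι u) hu).trans (by rw [map_one]))]⟩
    have hb : IsPBlock M (blockOf M (θ : ↥(Q ⊔ Ce Q) → ℂ)) := isPBlock_blockOf θ
    have h6 := (covers_iff (M := M) (j := E.ι) (ι := (Q ⊔ Ce Q).subtype) T.subtype_injective E.inj
      (fun _ => rfl) hF' hb).1 ⟨χ, hχ, θ, mem_blockOf_self θ, hθ⟩
    rw [idm_eq_of_coeff_eq hCT hF'e] at h6
    have h7 := IsPrim.eq_of_mul_ne_zero (isComm_fix le_rfl)
      (hp.blk_self le_sup_left le_sup_right (hLT.trans eT.le)) ((emb_subtype _).blk_idm hb) h6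
    rw [isDefectGroup_subgroupOf_iff hM le_sup_left hb, ← h7, sup_comm] at h5
    rw [isDefectGroup_subgroupOf_iff hM inf_le_right he.2]
    simpa using (hp.isDef_sup_iff le_top).1 (by simpa using h5)
  · intro R hRT hR hn
    have : (Q.subgroupOf T).Normal := Subgroup.normal_subgroupOf_of_le_normalizer hTQ
    have hRn : (R.subgroupOf T).Normal := Subgroup.normal_subgroupOf_of_le_normalizer hn
    have hπ := QuotientGroup.mk'_surjective (Q.subgroupOf T)
    obtain ⟨φ, rfl⟩ := H34.exists_infl_eq hπ (χ := χ) fun g hg =>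
      hker g ((QuotientGroup.eq_one_iff g).1 hg)
    have hb : IsPBlock M (blockOf M (φ : T ⧸ Q.subgroupOf T → ℂ)) := isPBlock_blockOf φ
    obtain ⟨D, hD⟩ := H34.exists_defectGroup hM hb
    have h1 := H34.card_defectGroup hM hb hD
    have h2 := factorization_index_add (p := p) (Q.subgroupOf T)
    rw [card_subgroupOf hQT] at h2
    rw [H34.charDegree_infl] at hdeg
    rw [(blockDefect_eq_zero_iff hM φ).2 (by rw [Subgroup.index] at h2; omega), pow_zero,
      Subgroup.card_eq_one] at h1
    have h3 := H34.le_defectGroup_of_normal hM hb hD (hRn.map _ hπ) (hR.comap_subtype.map _)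
    rw [h1, le_bot_iff, Subgroup.map_eq_bot_iff, QuotientGroup.ker_mk'] at h3
    exact fun x hx => h3 (x := ⟨x, hRT hx⟩) hx

end Cfsg.Agent.S4694
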