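import Cfsg.Statements.S4696
import Cfsg.Agent.H87.CycS

set_option autoImplicit false
open Cfsg

namespace Cfsg.Agent.S4696

open Cfsg.Agent.H87 Cfsg.Agent.H32 MonoidAlgebra

/-- Let p be a prime, M a maximal ideal of the algebraic integers containing p, and B a p-block of the finite group G whose defect group D is cyclic of order p^a with a ≥ 1. Let C = C_G(D), let b be a block of C inducing B, let T be the stabilizer of b in N_G(D) (the elements g of N_G(D) such that the g-conjugate of every member of b is again in b), and let e be the index of C in T (the inertial index of B). Then e divides p − 1, every irreducible character in B has height zero, and B is the disjoint union of a set X of e characters and a set Y of (p^a − 1)/e characters, the members of Y agreeing on p-regular elements, for which there are signs δ_χ = ±1 (χ ∈ X) and δ₀ = ±1 such that: for every ψ ∈ Y and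 every p-regular g, δ₀ ψ(g) + Σ_{χ ∈ X} δ_χ χ(g) = 0; for all χ, χ' ∈ X the integers δ_χ χ(1) and δ_χ' χ'(1) are congruent modulo p^a; and for ψ ∈ Y and χ ∈ X, ψ(1) ≡ −e δ₀ δ_χ χ(1) modulo p^a. -/
theorem result {G : Type*} [Group G] [Finite G] (p : ℕ) [Fact p.Prime] (M : Ideal Cfsg.AlgInt) (hM : Cfsg.IsPModular p M) (D : Subgroup G) (hD : IsCyclic D) (a : ℕ) (ha : 1 ≤ a) (hDa : Nat.card D = p ^ a) (B : Set (Cfsg.IrrCharacter G)) (hB : Cfsg.IsPBlock M B) (hBD : Cfsg.IsDefectGroup p M B D) (b : Set (Cfsg.IrrCharacter (Subgroup.centralizer (D : Set G)))) (hind : Cfsg.IsInducedBlock M (Subgroup.centralizer (D : Set G)) b B) (T : Subgroup G) (hT : ∀ g : G, g ∈ T ↔ (g ∈ Subgroup.normalizer (D : Set G) ∧ ∀ θ ∈ b, ∀ θ' : Cfsg.IrrCharacter (Subgroup.centralizer (D : Set G)), (∀ h h' : Subgroup.centralizer (D : Set G), (h' : G) = g * h * g⁻¹ → (θ' : Subgroup.centralizer (D : Set G)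 → ℂ) h' = (θ : Subgroup.centralizer (D : Set G) → ℂ) h) → θ' ∈ b)) (e : ℕ) (he : (Subgroup.centralizer (D : Set G)).relIndex T = e) : e ∣ p - 1 ∧ (∀ χ ∈ B, Cfsg.blockHeight p B (χ : G → ℂ) = 0) ∧ ∃ X Y : Set (Cfsg.IrrCharacter G), B = X ∪ Y ∧ Disjoint X Y ∧ Nat.card X = e ∧ Nat.card Y = (p ^ a - 1) / e ∧ (∀ ψ ∈ Y, ∀ ψ' ∈ Y, ∀ g : G, ¬ p ∣ orderOf g → (ψ : G → ℂ) g = (ψ' : G → ℂ) g) ∧ ∃ (δ : Cfsg.IrrCharacter G → ℤ) (δ₀ : ℤ), (∀ χ ∈ X, δ χ = 1 ∨ δ χ = -1) ∧ (δ₀ = 1 ∨ δ₀ = -1) ∧ (∀ ψ ∈ Y, ∀ g : G, ¬ p ∣ orderOf g → (δ₀ : ℂ) * (ψ : G → ℂ) g + ∑ᶠ χ ∈ X, (δ χ : ℂ) * (χ : G → ℂ) g = 0) ∧ (∀ χ ∈ X, ∀ χ' ∈ X, δ χ * (Cfsg.charDegree (χ : G → ℂ) : ℤ) ≡ δ χ' * (Cfsg.charDegree (χ' : G → ℂ) : ℤ) [ZMOD (p : ℤ) ^ a]) ∧ (∀ ψ ∈ Y, ∀ χ ∈ X, (Cfsg.charDegree (ψ : G → ℂ) : ℤ) ≡ -((e : ℤ) * δ₀ * δ χ * (Cfsg.charDegree (χ : G → ℂ) : ℤ)) [ZMOD (p : ℤ) ^ a]) := by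
  have := hM.2.1
  have h : H86.Ctx M p B D _ := ⟨hM, hB, maxPair_of_induced hM hBD hind⟩
  have hP : D ≠ ⊥ := fun h0 => by
    rw [h0, Subgroup.card_bot, eq_comm, Nat.pow_eq_one] at hDa
    have := hM.1.one_lt
    omega
  have h0 := (card_iq_of_iff (isInducedBlock_iff.1 hind).1 h.pair hT).trans he
  obtain ⟨δ, ε, ζ, X, s, hs⟩ := exists_std_of_cyclic h hP
  have h1 := hs.card_exc
  have h3 : 0 < e := h0 ▸ Nat.card_pos
  rw [h0, hDa] at h1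
  have h2 := fun χ ψ (h1 : χ ∈ X) h2 => hs.dvd_degree (ψ := ψ) h1 h2
  rw [hDa, Nat.cast_pow] at h2
  refine ⟨h0 ▸ FpfA.card_dvd_pred hs.fpf (hDa ▸ dvd_pow_self p (by omega)),
    fun χ => hs.height_eq_zero hP, X, exc ζ, Set.ext hs.mem_iff,
    Set.disjoint_right.2 fun χ => hs.notMem_X, by simpa [h0] using hs.card,
    by rw [← h1, Nat.add_sub_cancel, Nat.mul_div_cancel _ h3], fun ψ h4 ψ' h5 g => hs.reg_eq h4 h5,
    s, -ε, hs.signX, by rcases hs.sign with h4 | h4 <;> simp [h4], ?_, fun χ h4 χ' h5 => ?_,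
    fun ψ h4 χ h5 => ?_⟩
  · rintro _ ⟨l, hl, rfl⟩ g hg
    rw [finsum_mem_coe_finset, hs.reg l hl g hg]
    simp
  · have := (Subgroup.nontrivial_iff_ne_bot D).2 hP
    obtain ⟨u, hu⟩ := exists_ne (1 : D)
    obtain ⟨l, hl⟩ := H34.exists_lc_ne_one hs.comm hu
    have h6 : ζ l ∈ exc ζ := ⟨l, fun h7 => hl (by simp [h7]), rfl⟩
    simpa using (Int.modEq_iff_dvd.2 (by simpa using dvd_sub (h2 _ _ h5 h6) (h2 _ _ h4 h6)))
  · have h6 := (h2 _ _ h5 h4).mul_left (e * ε)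
    have h7 : ((Nat.card (exc ζ) : ℤ) * e + 1) = p ^ a := by exact_mod_cast h1
    refine Int.modEq_iff_dvd.2 ?_
    have h8 := dvd_sub h6 (dvd_mul_right ((p : ℤ) ^ a) (charDegree (ψ : G → ℂ)))
    refine h8.trans (dvd_of_eq ?_)
    rw [← h7]
    linear_combination ((e : ℤ) * Nat.card (exc ζ) * charDegree (ψ : G → ℂ)) * hs.sq_eq

end Cfsg.Agent.S4696
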