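import Cfsg.Statements.S4697
import Cfsg.Agent.H87.KB

set_option autoImplicit false
open Cfsg

namespace Cfsg.Agent.S4697

open Cfsg.Agent.H87 Cfsg.Agent.H32 MonoidAlgebra

theorem le_Ce_of_comm {G : Type*} [Group G] {D : Subgroup G} (hab : IsMulCommutative D) :
    D ≤ Ce D := fun x hx => mem_Ce.2 fun y hy =>
  congrArg Subtype.val (hab.is_comm.comm (⟨y, hy⟩ : D) ⟨x, hx⟩)

theorem exists_gen3 {A : Type*} [CommGroup A] [Finite A] {p : ℕ} [hp : Fact p.Prime]
    (hA : IsPGroup p A) (h : Group.rank A = 3) : ∃ u v w : A,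
      (∀ g, ∃ i j k : ℤ, g = u ^ i * (v ^ j * w ^ k)) ∧ Nat.card A ≤ orderOf u ^ 3 := by
  classical
  obtain ⟨S, h1, h2⟩ := Group.rank_spec A
  rw [h] at h1
  obtain ⟨u, hu, h3⟩ := S.exists_max_image orderOf (Finset.card_pos.1 (by omega))
  obtain ⟨v, w, -, h4⟩ := Finset.card_eq_two.1
    (show (S.erase u).card = 2 by rw [Finset.card_erase_of_mem hu, h1])
  refine ⟨u, v, w, fun g => ?_, ?_⟩
  · have h5 : g ∈ Subgroup.closure (S : Set A) := h2 ▸ trivial
    rw [← Finset.insert_erase hu, h4, Finset.coe_insert, Set.insert_eq, Subgroup.closure_union,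
      Finset.coe_pair, Subgroup.mem_sup] at h5
    obtain ⟨x, hx, y, hy, rfl⟩ := h5
    obtain ⟨i, rfl⟩ := Subgroup.mem_closure_singleton.1 hx
    obtain ⟨j, k, rfl⟩ := Subgroup.mem_closure_pair.1 hy
    exact ⟨i, j, k, rfl⟩
  · refine Nat.le_of_dvd (pow_pos (orderOf_pos u) 3) (h ▸ card_dvd_exponent_pow_rank' A fun g => ?_)
    have h5 : Subgroup.closure (S : Set A) ≤ (powMonoidHom (orderOf u) : A →* A).ker :=
      (Subgroup.closure_le _).2 fun x hx => by
        obtain ⟨a, ha⟩ := IsPGroup.iff_orderOf.1 hA x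
        obtain ⟨b, hb⟩ := IsPGroup.iff_orderOf.1 hA u
        have := h3 x hx
        rw [ha, hb, Nat.pow_le_pow_iff_right hp.out.one_lt] at this
        exact orderOf_dvd_iff_pow_eq_one.1 (ha ▸ hb ▸ pow_dvd_pow p this)
    exact h5 (h2 ▸ trivial)

/-- Let p be a prime, M a maximal ideal of the algebraic integers containing p, and B a p-block of the finite group G with an abelian defect group D of order p^d. If D has rank 2 (its least number of generators is 2) then B contains at most p^d irreducible characters; if D has rank 3 then the number k of irreducible characters in B satisfies k^3 ≤ p^(5d). -/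
theorem result {G : Type*} [Group G] [Finite G] (p : ℕ) [Fact p.Prime] (M : Ideal Cfsg.AlgInt) (hM : Cfsg.IsPModular p M) (B : Set (Cfsg.IrrCharacter G)) (hB : Cfsg.IsPBlock M B) (D : Subgroup G) (hBD : Cfsg.IsDefectGroup p M B D) (hab : IsMulCommutative D) (d : ℕ) (hDd : Nat.card D = p ^ d) : (Group.rank D = 2 → Nat.card B ≤ p ^ d) ∧ (Group.rank D = 3 → Nat.card B ^ 3 ≤ p ^ (5 * d)) := by
  classical
  have := hM.2.1
  obtain ⟨e, h⟩ := H86.exists_ctx hM hB hBD
  have hc := le_Ce_of_comm hab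
  let : CommGroup D := { (inferInstance : Group D) with mul_comm := hab.is_comm.comm }
  refine ⟨fun h1 => ?_, fun h1 => ?_⟩
  · obtain ⟨S, h2, h3⟩ := Group.rank_spec D
    obtain ⟨u, v, -, rfl⟩ := Finset.card_eq_two.1 (h2.trans h1)
    refine hDd ▸ card_le_of_quot_cyclic h u.2 (hc u.2) v.2 fun g hg => ?_
    have h5 : (⟨g, hg⟩ : D) ∈ Subgroup.closure {u, v} := by rw [← Finset.coe_pair, h3]; trivial
    obtain ⟨i, j, h6⟩ := Subgroup.mem_closure_pair.1 h5
    exact ⟨i, j, (congrArg Subtype.val h6).symm⟩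
  · obtain ⟨u, v, w, h2, h3⟩ := exists_gen3 h.pgp h1
    obtain ⟨C, hC, b, Z, _, h4, h5, h6, h7, hZ, -, h8, h9⟩ := exists_major h u.2 (hc u.2)
    have := Fintype.ofFinite G
    have := Fintype.ofFinite C
    obtain ⟨e', h'⟩ := H86.exists_ctx hM (h6.isPBlock_dom hM h4.1).1 h8
    have h10 := card_le_of_quot_cyclic h' (u := (⟨v, h7 v.2⟩ : C)) (v := (⟨w, h7 w.2⟩ : C))
      ⟨_, v.2, rfl⟩ (mem_Ce.2 (by
        rintro _ ⟨g, hg, rfl⟩
        rw [QuotientGroup.mk'_apply, ← QuotientGroup.mk_mul, ← QuotientGroup.mk_mul]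
        exact congrArg _ (Subtype.ext (mem_Ce.1 (hc v.2) _ hg)))) ⟨_, w.2, rfl⟩ (by
        rintro _ ⟨g, hg, rfl⟩
        obtain ⟨i, j, k, h11⟩ := h2 ⟨g, hg⟩
        refine ⟨j, k, ?_⟩
        rw [show g = hC.elt ^ i * (⟨v, h7 v.2⟩ ^ j * ⟨w, h7 w.2⟩ ^ k) from
          Subtype.ext (congrArg Subtype.val h11 :), map_mul, QuotientGroup.mk'_apply,
          (QuotientGroup.eq_one_iff (hC.elt ^ i)).2 (hZ ▸ Subgroup.zpow_mem_zpowers _ i), one_mul]
        rfl)
    have h11 := card_le_pow_mul_rank hM hC (h.pElt u.2) h4 h5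
    rw [← H32.card_defectGroup hM hB hBD, ← h6.rank_dom hM h4.1] at h11
    have h12 := h11.trans (Nat.mul_le_mul_left _ ((H86.blockRank_le_card _).trans h10))
    rw [Subgroup.orderOf_coe] at h9
    rw [mul_comm 5, pow_mul, ← hDd]
    refine (Nat.pow_le_pow_left h12 3).trans ?_
    refine Nat.le_of_mul_le_mul_right ?_ (pow_pos (orderOf_pos u) 3)
    rw [← mul_pow, mul_assoc, h9, ← sq, ← pow_mul, show 2 * 3 = 5 + 1 from rfl, pow_succ]
    exact Nat.mul_le_mul_left _ h3

end Cfsg.Agent.S4697
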