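import Cfsg.Statements.S4699
import Mathlib.LinearAlgebra.Eigenspace.Zero
import Mathlib.FieldTheory.Finite.Basic

set_option autoImplicit false
open Cfsg

namespace Cfsg.Agent.S4699

open Polynomial in
theorem sub_one_pow {F A : Type*} [Field F] [Ring A] [Algebra F A] (p : ℕ) [Fact p.Prime]
    [CharP F p] (n : ℕ) (x : A) : (x - 1) ^ p ^ n = x ^ p ^ n - 1 := by
  simpa using congrArg (aeval x) (sub_pow_char_pow (p := p) (n := n) (X : F[X]) 1)

open Polynomial in
theorem geom_eq {F A : Type*} [Field F] [Ring A] [Algebra F A] (p : ℕ) [hp : Fact p.Prime]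
    [CharP F p] (n : ℕ) (x : A) : ∑ i ∈ Finset.range (p ^ n), x ^ i = (x - 1) ^ (p ^ n - 1) := by
  have h : ∑ i ∈ Finset.range (p ^ n), (X : F[X]) ^ i = (X - 1) ^ (p ^ n - 1) := by
    apply mul_right_cancel₀ (X_sub_C_ne_zero (1 : F))
    rw [C_1, geom_sum_mul, ← pow_succ, Nat.sub_add_cancel (Nat.one_le_pow _ _ hp.out.pos),
      sub_one_pow (F := F)]
  simpa using congrArg (aeval x) h

/-- A relative trace from the trivial subgroup is killed by a power of `x - 1`. -/
theorem pow_mul_trace {F A : Type*} [Field F] [Ring A] [Algebra F A] (p : ℕ) [Fact p.Prime]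
    [CharP F p] (n : ℕ) {x y : A} (hxy : y * x = 1) (hyx : x * y = 1) {l m : ℕ} (hl : (x - 1) ^ l = 0)
    (hm : 2 * l ≤ p ^ n + m) (φ : A) :
    (x - 1) ^ m * ∑ i ∈ Finset.range (p ^ n), x ^ i * φ * y ^ i = 0 := by
  set L : Module.End F A := LinearMap.mulLeft F (x - 1)
  set R : Module.End F A := -LinearMap.mulRight F (x - 1)
  set S : Module.End F A := LinearMap.mulRight F y
  have h1 := geom_eq (F := F) p n (LinearMap.mulLeft F x * S)
  have h2 : LinearMap.mulLeft F x * S - 1 = (L + R) * S := by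
    ext a
    simp [L, R, S, sub_mul, mul_sub, mul_assoc, hxy]
  have c1 : Commute L R := by ext a; simp [L, R, mul_assoc]
  have c2 : Commute (L + R) S := by
    ext a; simp [L, R, S, mul_assoc, sub_mul, mul_sub, add_mul, hxy, hyx]
  have c3 : Commute (LinearMap.mulLeft F x) S := by ext a; simp [S, mul_assoc]
  have h3 : L ^ m * (L + R) ^ (p ^ n - 1) = 0 := by
    rw [c1.add_pow', Finset.mul_sum]
    refine Finset.sum_eq_zero fun ij hij => ?_
    rw [Finset.mem_antidiagonal] at hij
    rw [mul_smul_comm, ← mul_assoc, ← pow_add]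
    by_cases h : l ≤ ij.2
    · have : R ^ l = 0 := by simp [R, neg_pow (LinearMap.mulRight F (x - 1)), hl]
      rw [pow_eq_zero_of_le h this, mul_zero, smul_zero]
    · have : L ^ l = 0 := by simp [L, hl]
      rw [pow_eq_zero_of_le (by omega) this, zero_mul, smul_zero]
  rw [h2, c2.mul_pow] at h1
  have h4 := congrArg (fun T => (L ^ m * T) φ) h1
  simp only [← mul_assoc, h3, zero_mul, LinearMap.zero_apply, c3.mul_pow] at h4
  simpa [L, S, mul_assoc, Finset.mul_sum] using h4

theorem pow_mul_pow_sub_one {F A : Type*} [Field F] [Ring A] [Algebra F A] (p : ℕ) [hp : Fact p.Prime]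
    [CharP F p] {x : A} {m : ℕ} (hl : (x - 1) ^ (m + p) = 0) {a : ℕ} (ha : ¬ p ∣ a) :
    (x - 1) ^ m * (x ^ a - 1) ^ (p - 1) = (x - 1) ^ (m + (p - 1)) := by
  have h0 := hp.out.pos
  set Y := (x - 1) ^ (m + (p - 1)) with hY
  have h1 : Y * x = Y := by
    rw [← sub_eq_zero, ← mul_sub_one, hY, ← pow_succ, ← hl]; congr 1; omega
  have h2 : ∀ i, Y * x ^ i = Y := fun i => by
    induction i with
    | zero => simp
    | succ i ih => rw [pow_succ, ← mul_assoc, ih, h1]
  have h3 : ∀ k, Y * (∑ i ∈ Finset.range a, x ^ i) ^ k = (a : F) ^ k • Y := fun k => by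
    induction k with
    | zero => simp
    | succ k ih =>
      rw [pow_succ, ← mul_assoc, ih, smul_mul_assoc, Finset.mul_sum]
      simp [h2, pow_succ, mul_smul, Nat.cast_smul_eq_nsmul]
  have c : Commute (x - 1) (∑ i ∈ Finset.range a, x ^ i) :=
    Commute.sum_right _ _ _ fun i _ => ((Commute.refl x).sub_left (Commute.one_left x)).pow_right i
  have h4 : (a : F) ^ (p - 1) = 1 := by
    have := congrArg (ZMod.castHom (dvd_refl p) F) (ZMod.pow_card_sub_one_eq_one
      (a := (a : ZMod p)) (by rwa [Ne, ZMod.natCast_eq_zero_iff]))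
    simpa using this
  rw [← mul_geom_sum, c.mul_pow, ← mul_assoc, ← pow_add, ← hY, h3, h4, one_smul]

/-- Summation over the free orbits of a cyclic group. -/
theorem exists_reps {G Ω : Type*} [Group G] [Finite G] [MulAction G Ω] [Fintype Ω] (x : G)
    [DecidablePred fun c : Ω => x • c = c]
    (h : ∀ (g : Subgroup.zpowers x) (c : Ω), g • c = c → g = 1 ∨ x • c = c) : ∃ s : Finset Ω,
      ∀ {M : Type*} [AddCommMonoid M] (W : Ω → M), ∑ c with ¬ x • c = c, W c =
        ∑ i ∈ Finset.range (orderOf x), ∑ c ∈ s, W (x ^ i • c) := by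
  classical
  let r := MulAction.orbitRel (Subgroup.zpowers x) Ω
  refine ⟨Finset.univ.filter fun c => ¬ x • c = c ∧ (Quotient.mk r c).out = c, fun W => ?_⟩
  rw [← Finset.sum_product']
  symm
  refine Finset.sum_bij (fun ic _ => x ^ ic.1 • ic.2) ?_ ?_ ?_ fun _ _ => rfl
  · rintro ⟨i, c⟩ hc
    simp only [Finset.mem_product, Finset.mem_filter, Finset.mem_univ, true_and] at hc ⊢
    rw [← mul_smul, ← pow_succ', pow_succ, mul_smul, smul_left_cancel_iff]
    exact hc.2.1
  · rintro ⟨i, c⟩ hc ⟨j, d⟩ hd hij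
    simp only [Finset.mem_product, Finset.mem_filter, Finset.mem_univ, true_and,
      Finset.mem_range] at hc hd hij
    have h1 : (⟨(x ^ i)⁻¹ * x ^ j, by simp [mul_mem]⟩ : Subgroup.zpowers x) • d = c := by
      rw [Subgroup.mk_smul, mul_smul, ← hij, inv_smul_smul]
    obtain rfl : c = d := by
      rw [← hc.2.2, ← hd.2.2, Quotient.sound (s := r) ⟨_, h1⟩]
    have h2 := congrArg Subtype.val ((h _ _ h1).resolve_right hc.2.1)
    rw [pow_injOn_Iio_orderOf hc.1 hd.1 (inv_mul_eq_one.1 h2)]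
  · intro c hc
    obtain ⟨⟨g, hg⟩, h1⟩ : r c (Quotient.mk r c).out := r.symm (Quotient.mk_out c)
    obtain ⟨i, hi, rfl⟩ := Finset.mem_image.1 (mem_zpowers_iff_mem_range_orderOf.1 hg)
    refine ⟨(i, (Quotient.mk r c).out), ?_, h1⟩
    simp only [Finset.mem_product, Finset.mem_filter, Finset.mem_univ, true_and, hi,
      Quotient.out_eq, and_true] at hc ⊢
    intro h2
    apply hc
    rw [← h1]
    simp only [Subgroup.mk_smul]
    rw [← mul_smul, ← pow_succ', pow_succ, mul_smul, h2]

/-- Let p be a prime and G a finite group whose Sylow p-subgroup P is cyclic of order p^n with n ≥ 2 and meets every other Sylow p-subgroup trivially. Then every faithful irreducible representation of G on a finite-dimensional space over a finite field of characteristic p has dimension at least p^n − (p − 1). -/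
theorem result {G : Type*} [Group G] [Finite G] (p : ℕ) [Fact p.Prime] (P : Sylow p G) (hcyc : IsCyclic P) (n : ℕ) (hn : 2 ≤ n) (hPn : Nat.card P = p ^ n) (hTI : ∀ Q : Sylow p G, Q ≠ P → (P : Subgroup G) ⊓ (Q : Subgroup G) = ⊥) (F : Type*) [Field F] [Finite F] [CharP F p] (V : Type*) [AddCommGroup V] [Module F V] [FiniteDimensional F V] (ρ : Representation F G V) (hfaith : Function.Injective ρ) (hirr : ρ.IsIrreducible) : p ^ n - (p - 1) ≤ Module.finrank F V := by
  classical
  have hp : p.Prime := Fact.out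
  obtain ⟨⟨x, hxP⟩, hx⟩ := hcyc.exists_generator
  have hP : (P : Subgroup G) = Subgroup.zpowers x := by
    refine le_antisymm (fun g hg => ?_) (Subgroup.zpowers_le.2 hxP)
    obtain ⟨k, hk⟩ := hx ⟨g, hg⟩
    exact ⟨k, congrArg Subtype.val hk⟩
  have ho : orderOf x = p ^ n := by rw [← Nat.card_zpowers, ← hP, hPn]
  have := Fintype.ofFinite (G ⧸ (P : Subgroup G))
  obtain ⟨s, hs⟩ := exists_reps (Ω := G ⧸ (P : Subgroup G)) x fun g c hc => by
    by_contra H
    push Not at H
    obtain ⟨t, rfl⟩ := QuotientGroup.mk_surjective c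
    have hm : ∀ y : G, y • (t : G ⧸ (P : Subgroup G)) = t ↔
        y ∈ ((t • P : Sylow p G) : Subgroup G) := fun y => by
      rw [eq_comm, MulAction.Quotient.smul_mk, QuotientGroup.eq, Sylow.coe_subgroup_smul,
        Subgroup.mem_pointwise_smul_iff_inv_smul_mem]
      simp [mul_assoc]
    have h1 := hTI (t • P) fun h => H.2 ((hm x).2 (by rw [h]; exact hxP))
    have h2 : (g : G) ∈ (P : Subgroup G) ⊓ (t • P : Sylow p G) := ⟨hP.ge g.2, (hm g).1 hc⟩
    exact H.1 (Subtype.ext (Subgroup.mem_bot.1 (h1 ▸ h2)))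
  set X := ρ x - 1 with hX
  let W : G ⧸ (P : Subgroup G) → Module.End F V := fun c => (ρ (c.out * x * c.out⁻¹) - 1) ^ (p - 1)
  have hW : ∀ (g : G) c, W (g • c) = ρ g * W c * ρ g⁻¹ := fun g c => by
    have h1 : (g * c.out)⁻¹ * (g • c).out ∈ (P : Subgroup G) := by
      rw [← QuotientGroup.eq, QuotientGroup.out_eq', ← smul_eq_mul, ← MulAction.Quotient.smul_mk,
        QuotientGroup.out_eq']
    obtain ⟨k, hk⟩ := hP.le h1
    have h2 : (g • c).out * x * (g • c).out⁻¹ = g * (c.out * x * c.out⁻¹) * g⁻¹ := by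
      rw [← inv_mul_eq_iff_eq_mul.1 hk.symm |>.symm]
      group
    have h3 : ρ g⁻¹ * ρ g = 1 := by rw [← map_mul]; simp
    have h4 : ρ g * ρ g⁻¹ = 1 := by rw [← map_mul]; simp
    have h5 := Units.conj_pow ⟨ρ g, ρ g⁻¹, h4, h3⟩ (ρ (c.out * x * c.out⁻¹) - 1) (p - 1)
    simp only [Units.inv_mk, mul_sub, sub_mul, mul_one, h4] at h5
    simp only [W, h2, ← h5, map_mul ρ _ g⁻¹, map_mul ρ g]
  have hXn : IsNilpotent X := ⟨p ^ n, by
    rw [hX, sub_one_pow (F := F), ← map_pow, ← ho, pow_orderOf_eq_one, map_one, sub_self]⟩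
  have hd : X ^ Module.finrank F V = 0 := by
    simpa [hXn.charpoly_eq_X_pow_finrank] using LinearMap.aeval_self_charpoly X
  have hX1 : X ^ (p - 1) ≠ 0 := fun h => by
    have h1 := sub_one_pow (F := F) p 1 (ρ x)
    rw [pow_one, ← hX, pow_eq_zero_of_le (Nat.sub_le p 1) h, eq_comm, sub_eq_zero, ← map_pow,
      ← map_one ρ] at h1
    have h2 := orderOf_dvd_of_pow_eq_one (hfaith h1)
    rw [ho] at h2
    have := (Nat.pow_dvd_pow_iff_le_right hp.one_lt).1 (h2.trans (pow_one p).symm.dvd)
    omega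
  obtain ⟨m, hm, hm', hmd⟩ : ∃ m, X ^ (m + p) = 0 ∧ X ^ (m + (p - 1)) ≠ 0 ∧
      m + p ≤ Module.finrank F V := by
    have h1 := Nat.find_spec hXn
    have h2 : p ≤ Nat.find hXn := by
      by_contra H
      exact hX1 (pow_eq_zero_of_le (by omega) h1)
    refine ⟨Nat.find hXn - p, by rwa [Nat.sub_add_cancel h2], Nat.find_min hXn ?_, ?_⟩
    · have := hp.pos; omega
    · rw [Nat.sub_add_cancel h2]; exact Nat.find_min' hXn hd
  by_contra H
  have h1 : X ^ m * ∑ c with ¬ x • c = c, W c = 0 := by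
    rw [hs]
    simp only [hW, ← Finset.sum_mul, ← Finset.mul_sum, ho, ← inv_pow, map_pow]
    exact pow_mul_trace (F := F) p n (by rw [← map_mul]; simp) (by rw [← map_mul]; simp) hm
      (by have := hp.pos; omega) _
  have h2 : X ^ m * ∑ c with x • c = c, W c =
      ((P : Subgroup G).index : F) • X ^ (m + (p - 1)) := by
    have h3 := hs fun _ => X ^ (m + (p - 1))
    rw [Finset.sum_const (s := Finset.range _), Finset.card_range, ho, ← Nat.cast_smul_eq_nsmul F,
      (CharP.cast_eq_zero_iff F p _).2 (dvd_pow_self p (by omega)), zero_smul] at h3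
    rw [Nat.cast_smul_eq_nsmul, Subgroup.index, Nat.card_eq_fintype_card, ← Finset.card_univ,
      ← Finset.sum_const, ← Finset.sum_filter_add_sum_filter_not Finset.univ fun c => x • c = c, h3, add_zero,
      Finset.mul_sum]
    refine Finset.sum_congr rfl fun c hc => ?_
    have h4 : c.out⁻¹ * x * c.out ∈ (P : Subgroup G) := by
      rw [mul_assoc, ← QuotientGroup.eq, ← smul_eq_mul, ← MulAction.Quotient.smul_mk,
        QuotientGroup.out_eq', (Finset.mem_filter.1 hc).2]
    have h5 : orderOf (c.out⁻¹ * x * c.out) = orderOf x := by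
      simpa using MulEquiv.orderOf_eq (MulAut.conj c.out⁻¹) x
    have h6 : Subgroup.zpowers (c.out⁻¹ * x * c.out) = P := Subgroup.eq_of_le_of_card_ge
      (Subgroup.zpowers_le.2 h4) (by rw [hPn, Nat.card_zpowers, h5, ho])
    obtain ⟨a, -, ha⟩ := Finset.mem_image.1 (mem_zpowers_iff_mem_range_orderOf.1 (h6.ge hxP))
    have h7 : c.out * x * c.out⁻¹ = x ^ a := by
      have := conj_pow (i := a) (a := c.out⁻¹) (b := x)
      rw [inv_inv, ha] at this
      nth_rewrite 1 [this]
      group
    have h8 : orderOf (x ^ a) = orderOf x := by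
      rw [← h7]; simpa using MulEquiv.orderOf_eq (MulAut.conj c.out) x
    simp only [W, h7, map_pow]
    refine pow_mul_pow_sub_one (F := F) p hm ?_
    rintro ⟨b, rfl⟩
    have h9 : (x ^ (p * b)) ^ p ^ (n - 1) = 1 := by
      rw [← pow_mul, mul_right_comm, ← pow_succ', Nat.sub_add_cancel (by omega), ← ho, pow_mul,
        pow_orderOf_eq_one, one_pow]
    have h10 := orderOf_dvd_of_pow_eq_one h9
    rw [h8, ho, Nat.pow_dvd_pow_iff_le_right hp.one_lt] at h10
    omega
  set z := ∑ c, W c with hz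
  have h3 : X ^ m * z = ((P : Subgroup G).index : F) • X ^ (m + (p - 1)) := by
    rw [hz, ← Finset.sum_filter_add_sum_filter_not _ fun c => x • c = c, mul_add, h1, h2, add_zero]
  have h4 : ∀ g, ρ g * z = z * ρ g := fun g => by
    conv_rhs => rw [hz, ← Equiv.sum_comp (MulAction.toPerm g)]
    simp only [MulAction.toPerm_apply, hW, ← Finset.sum_mul, ← Finset.mul_sum, mul_assoc,
      ← map_mul, inv_mul_cancel, map_one, mul_one, hz]
  let U : Subrepresentation ρ := ⟨LinearMap.range z, by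
    rintro g _ ⟨v, rfl⟩
    exact ⟨ρ g v, (congrArg (· v) (h4 g)).symm⟩⟩
  rcases hirr.eq_bot_or_eq_top U with h5 | h5
  · have h6 : z = 0 := LinearMap.range_eq_bot.1 (congrArg Subrepresentation.toSubmodule h5)
    rw [h6, mul_zero, eq_comm, smul_eq_zero, CharP.cast_eq_zero_iff F p] at h3
    exact h3.elim P.not_dvd_index hm'
  · have h6 : LinearMap.range z = ⊤ := congrArg Subrepresentation.toSubmodule h5
    have h7 : X ^ (m + (p - 1)) * z = 0 := by
      rw [add_comm, pow_add, mul_assoc, h3, mul_smul_comm, ← pow_add,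
        pow_eq_zero_of_le (by have := hp.two_le; omega) hm, smul_zero]
    refine hm' (LinearMap.ext fun v => ?_)
    obtain ⟨w, rfl⟩ := LinearMap.range_eq_top.1 h6 v
    exact congrArg (· w) h7

end Cfsg.Agent.S4699
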