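import Cfsg.Statements.S4701
import Cfsg.Agent.H35.B43

set_option autoImplicit false
open Cfsg

namespace Cfsg.Agent.S4701

/-- Let G be a finite perfect group and p a prime dividing the order of G with p^3 larger than the order of G. Suppose a Sylow p-subgroup of G is not normal and G has no normal subgroup of order 2. Then p > 3 and G is isomorphic to PSL(2, p), or to SL(2, 2^m) with p = 2^m + 1. -/
theorem result {G : Type*} [Group G] [Finite G] (hperf : commutator G = ⊤) (p : ℕ) [Fact p.Prime] (hdvd : p ∣ Nat.card G) (hbig : Nat.card G < p ^ 3) (P : Sylow p G) (hP : ¬ (P : Subgroup G).Normal) (h2 : ∀ N : Subgroup G, N.Normal → Nat.card N ≠ 2) : (∃ (F : Type) (_ : Field F) (_ : Fintype F), Fintype.card F = p ∧ 3 < p ∧ Nonempty (G ≃* Matrix.ProjectiveSpecialLinearGroup (Fin 2) F)) ∨ (∃ (m : ℕ) (F : Type) (_ : Field F) (_ : Fintype F), Fintype.card F = 2 ^ m ∧ p = 2 ^ m + 1 ∧ 3 < p ∧ Nonempty (G ≃* Matrix.SpecialLinearGroup (Fin 2) F))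 := by
  have hsq : ¬ p ^ 2 ∣ Nat.card G := H35.not_sq_dvd_of_lt_cube hbig fun h => by
    have := (Nat.card_eq_one_iff_unique.mp h).1
    exact hP P.normal_of_subsingleton
  obtain ⟨x, hx⟩ := exists_prime_orderOf_dvd_card' p hdvd
  obtain ⟨S, -⟩ := H35.exists_setup hx hsq
  have hf := S.not_bForm_of_lt_cube hperf hbig
  have hO : pPrimeCore p G = ⊥ := by
    have hc := (pPrimeCore p G).card_eq_card_quotient_mul_card_subgroup
    have h0 : 0 < Nat.card (pPrimeCore p G) := Nat.card_pos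
    have h1 := h2 (pPrimeCore p G) inferInstance
    rw [← Subgroup.card_eq_one]
    by_contra h4
    have h5 := Nat.mul_le_mul_left (Nat.card (G ⧸ pPrimeCore p G))
      (show 3 ≤ Nat.card (pPrimeCore p G) by omega)
    obtain ⟨-, h3, h⟩ := S.brauer43 hperf hf
    have h6 : p ≠ 4 := by rintro rfl; exact absurd (Fact.out : Nat.Prime 4) (by norm_num)
    obtain ⟨q, rfl⟩ : ∃ q, p = q + 5 := ⟨p - 5, by omega⟩
    simp only [show q + 5 - 1 = q + 4 from rfl, show q + 5 - 2 = q + 3 from rfl] at h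
    rcases h with ⟨h, -⟩ | ⟨h, -⟩ <;> nlinarith [Nat.zero_le (q ^ 3), Nat.zero_le (q ^ 2)]
  obtain ⟨h3, ⟨-, h⟩ | ⟨-, m, F, _, _, hF, hm, ⟨e⟩⟩⟩ := S.brauer43_core hperf hO hf
  · exact Or.inl ⟨ZMod p, inferInstance, inferInstance, ZMod.card p, h3, h⟩
  · obtain ⟨e'⟩ := H35.psl_equiv_sl (F := F) (by
      rw [hF]; exact (Nat.even_pow.mpr ⟨even_two, by rintro rfl; omega⟩))
    exact Or.inr ⟨m, F, _, _, hF, hm, h3, ⟨e.trans e'⟩⟩

end Cfsg.Agent.S4701
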