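import Cfsg.Statements.S4707
import Cfsg.Agent.H31.Idx2c
import Cfsg.Agent.S0157
import Cfsg.Agent.S0720
import Cfsg.Agent.S0494

set_option autoImplicit false
open Cfsg

open Cfsg.Agent.H31 Cfsg.Agent.H35

namespace Cfsg.Agent.S4707

theorem result {α : Type*} [Fintype α] [DecidableEq α] {p : ℕ} [Fact p.Prime] (hp : 3 < p) (hα : Fintype.card α = 2 * p) (G : Subgroup (Equiv.Perm α)) (hprim : MulAction.IsPreprimitive G α) (hnot2 : ¬ MulAction.IsMultiplyPretransitive G α 2) (P : Sylow p G) (hN : Nat.card (Subgroup.normalizer ((P : Subgroup G) : Set G)) = 2 * p) : p = 5 ∧ Nonempty (G ≃* alternatingGroup (Fin 5)) := by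
  classical
  have hpp : p.Prime := Fact.out
  haveI : Nonempty α := Fintype.card_pos_iff.1 (by omega)
  obtain ⟨a₀⟩ := ‹Nonempty α›
  have hc := H25.card_mul_card_stabilizer (G := G) a₀
  have hd : p ∣ Nat.card G := by
    rw [← hc, hα]; exact (dvd_mul_left _ _).mul_right _
  haveI := simple_of_norm (by omega) P hd hN fun M hM hne => by
    have ht : MulAction.IsPretransitive M α :=
      MulAction.IsQuasiPreprimitive.isPretransitive_of_normal (fun h => hne (by
        rw [eq_bot_iff]
        intro g hg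
        refine Subtype.ext (Equiv.ext fun a => ?_)
        exact (h ▸ Set.mem_univ a : a ∈ MulAction.fixedPoints M α) ⟨g, hg⟩))
    have := H25.card_mul_card_stabilizer (G := M) a₀
    rw [hα] at this
    refine ⟨this ▸ (dvd_mul_left _ _).mul_right _, fun e => ?_⟩
    rw [e] at this
    have := Nat.le_of_dvd hpp.pos (Dvd.intro _ this)
    omega
  obtain ⟨hG, S, ⟨I⟩⟩ := exists_I2_of_simple (by omega) P hd hN
  obtain ⟨φ, hφ⟩ := I.B.nonempty_Y
  haveI := Fintype.ofFinite G
  have hπ := H5.isCharacter_perm (G := G) α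
  obtain ⟨a, b, ha, -, hr, hle⟩ := I.decomp hπ
    (fun i hi => perm_vanish S (hα ▸ dvd_mul_left _ _) hi) H25.classInner_perm_triv hφ
  rw [perm_degree, hα] at hle
  have hY := I.cardY
  have hdeg : charDegree (I.χ : G → ℂ) = p - 1 := by
    rcases I.shape hG hφ with ⟨e1, e2, e3, k, hk⟩ | ⟨e1, e2, e3, k, hk⟩ <;> rw [e1, e2] at hr
    · have h1 : charDegree (I.χ : G → ℂ) ≤ a * charDegree (I.χ : G → ℂ) :=
        Nat.le_mul_of_pos_left _ (by omega)
      rcases k with _ | _ | k
      · omega
      · exfalso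
        have h2 := eq_sum_of_degree hπ {triv G, I.χ} (fun ψ hψ => by
          rcases Finset.mem_insert.1 hψ with rfl | h
          · exact H25.classInner_perm_triv.trans_ne one_ne_zero
          · rw [Finset.mem_singleton.1 h, ha]; exact Nat.cast_ne_zero.2 (by omega)) (by
          rw [Finset.sum_pair I.ne.symm, cast_degree hπ, perm_degree, cast_degree_irr,
            cast_degree_irr, degree_triv, hα]
          exact_mod_cast (by omega))
        refine hnot2 ((S0157.result α (by rw [Nat.card_eq_fintype_card]; omega)).1 ?_)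
        rw [Finset.sum_pair I.ne.symm] at h2
        convert I.χ.2 using 1
        ext g
        have := congrFun h2 g
        simp only [Pi.add_apply, triv_apply] at this
        rw [this]; ring
      · have : 3 * p ≤ (k + 1 + 1 + 1) * p := Nat.mul_le_mul_right _ (by omega)
        omega
    · exfalso
      have h1 : 2 * (1 * charDegree (φ : G → ℂ)) ≤ I.B.Y.card * (b * charDegree (φ : G → ℂ)) := by
        have : p ≠ 4 := by rintro rfl; exact absurd hpp (by norm_num)
        exact Nat.mul_le_mul (by omega) (Nat.mul_le_mul_right _ (by omega))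
      nlinarith
  obtain ⟨hcard, -⟩ := I.psl2 hdeg hp hG
  obtain ⟨-, m, hm0, hm, horb⟩ := (S0720.result hpp hα G hprim a₀).resolve_left hnot2
  obtain ⟨b₀, hb₀⟩ := Fintype.exists_ne_of_one_lt_card (by omega) a₀
  have h1 : 2 * m + 1 ∣ Nat.card (MulAction.stabilizer G a₀) := by
    have h2 : Nat.card (MulAction.orbit (MulAction.stabilizer G a₀) b₀) ∣
        Nat.card (MulAction.stabilizer G a₀) := by
      rw [Nat.card_congr (MulAction.orbitEquivQuotientStabilizer _ b₀)]
      exact Subgroup.card_quotient_dvd_card _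
    rcases horb b₀ hb₀ with e | e <;> exact (e ▸ dvd_mul_left _ _).trans h2
  have h2 : 2 * Nat.card (MulAction.stabilizer G a₀) = (p - 1) * (p - 2) := by
    refine Nat.eq_of_mul_eq_mul_left hpp.pos ?_
    rw [← mul_assoc, ← mul_assoc, ← hcard, ← hc, hα, mul_comm p 2]
  have h3 : (2 * m + 1 : ℤ) ∣ 3 := by
    have h4 : ((2 * m + 1 : ℕ) : ℤ) ∣ ((p - 1) * (p - 2) : ℕ) :=
      Int.natCast_dvd_natCast.2 (h2 ▸ h1.mul_left 2)
    rw [show p - 1 = 2 * m ^ 2 + 2 * m by omega, Nat.cast_mul, Nat.cast_sub (show 2 ≤ p by omega),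
      hm] at h4
    push_cast at h4
    have h5 := h4.mul_left 4
    rw [show 4 * ((2 * (m : ℤ) ^ 2 + 2 * m) * (2 * m ^ 2 + 2 * m + 1 - 2)) =
      (2 * m + 1) * ((2 * m + 1) ^ 3 - 4 * (2 * m + 1)) + 3 by ring] at h5
    exact (dvd_add_right (dvd_mul_right _ _)).1 h5
  have h4 : m = 1 := by
    have := Int.le_of_dvd (by norm_num) h3
    omega
  subst h4
  have h5 : p = 5 := by omega
  subst h5
  exact ⟨rfl, S0494.result hcard⟩

end Cfsg.Agent.S4707
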