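import Cfsg.Statements.S4708
import Cfsg.Agent.H33.Princ
import Cfsg.Agent.H86.Reg

set_option autoImplicit false
open Cfsg

namespace Cfsg.Agent.S4708

/-- Let p be a prime, M a maximal ideal of the algebraic integers containing p, G a finite group and H a normal subgroup. Write λ(X) for the sum of the squares of the degrees of the irreducible characters in the principal p-block of a group X. Then λ(H) ≤ λ(G) ≤ [G : H]·λ(H). -/
theorem result {G : Type*} [Group G] [Finite G] (p : ℕ) [Fact p.Prime] (M : Ideal Cfsg.AlgInt) (hM : Cfsg.IsPModular p M) (H : Subgroup G) [H.Normal] : (∑ᶠ θ ∈ Cfsg.principalBlock M H, Cfsg.charDegree (θ : H → ℂ) ^ 2) ≤ (∑ᶠ χ ∈ Cfsg.principalBlock M G, Cfsg.charDegree (χ : G → ℂ) ^ 2) ∧ (∑ᶠ χ ∈ Cfsg.principalBlock M G, Cfsg.charDegree (χ : G → ℂ) ^ 2) ≤ H.index * ∑ᶠ θ ∈ Cfsg.principalBlock M H, Cfsg.charDegree (θ : H → ℂ) ^ 2 := by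
  classical
  have := hM.2.1
  have := Fintype.ofFinite G
  have := Fintype.ofFinite H
  have hm : ∀ (χ : IrrCharacter G) (θ : IrrCharacter H), ∃ m : ℕ,
      classInner (fun h : H => (χ : G → ℂ) h) (θ : H → ℂ) = m := fun χ θ =>
    H5.exists_nat_classInner (H5.isCharacter_restrict (H5.isCharacter_of_isIrr χ.2) H)
      (H5.isCharacter_of_isIrr θ.2)
  choose m hm using hm
  have h1 : ∀ χ : IrrCharacter G, charDegree (χ : G → ℂ) =
      ∑ θ : IrrCharacter H, m χ θ * charDegree (θ : H → ℂ) := fun χ => by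
    apply Nat.cast_injective (R := ℂ)
    have := H5.classFunction_apply_eq_sum (H33.isClassFunction_restrict
      (H5.isClassFunction_of_isIrr χ.2) H) 1
    simp only [hm] at this
    simp only [Nat.cast_sum, Nat.cast_mul, H33.irr_charDegree_cast]
    exact this
  have h2 : ∀ θ : IrrCharacter H, H.index * charDegree (θ : H → ℂ) =
      ∑ χ : IrrCharacter G, m χ θ * charDegree (χ : G → ℂ) := fun θ => by
    apply Nat.cast_injective (R := ℂ)
    have := H5.classFunction_apply_eq_sum (H6.indFun_isClassFunction H (θ : H → ℂ)) 1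
    simp only [Nat.cast_sum, Nat.cast_mul, H33.irr_charDegree_cast]
    rw [← H6.indFun_apply_one, this]
    refine Finset.sum_congr rfl fun χ _ => ?_
    rw [H6.classInner_indFun_left H _ (H5.isClassFunction_of_isIrr χ.2), H6.classInner_swap, hm,
      map_natCast]
  have h3 : ∑ χ ∈ H86.fs (principalBlock M G), charDegree (χ : G → ℂ) ^ 2 =
      ∑ θ ∈ H86.fs (principalBlock M H), charDegree (θ : H → ℂ) *
        ∑ χ ∈ H86.fs (principalBlock M G), m χ θ * charDegree (χ : G → ℂ) := by
    simp only [Finset.mul_sum]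
    rw [Finset.sum_comm]
    refine Finset.sum_congr rfl fun χ hχ => ?_
    rw [H86.sum_fs_eq_sum_univ _ _ fun θ hθ => ?_]
    · rw [sq]
      nth_rw 1 [h1 χ]
      rw [Finset.sum_mul]
      exact Finset.sum_congr rfl fun θ _ => by ring
    · have : m χ θ = 0 := by
        by_contra h
        exact hθ (H33.principal_of_over_normal hM H (H86.mem_fs.1 hχ)
          (by rw [hm]; exact_mod_cast h))
      simp [this]
  rw [H86.finsum_mem_fs, H86.finsum_mem_fs, h3, Finset.mul_sum]
  refine ⟨Finset.sum_le_sum fun θ hθ => ?_, Finset.sum_le_sum fun θ _ => ?_⟩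
  · obtain ⟨χ, hχ, ho⟩ := H33.exists_principal_over hM H (H86.mem_fs.1 hθ)
    rw [hm, Nat.cast_ne_zero] at ho
    rw [sq]
    refine Nat.mul_le_mul_left _ (le_trans ?_ (Finset.single_le_sum
      (f := fun χ => m χ θ * charDegree (χ : G → ℂ)) (fun _ _ => Nat.zero_le _)
      (H86.mem_fs.2 hχ)))
    refine le_trans ?_ (Nat.le_mul_of_pos_left _ (Nat.pos_of_ne_zero ho))
    rw [h1 χ]
    exact (Nat.le_mul_of_pos_left _ (Nat.pos_of_ne_zero ho)).trans (Finset.single_le_sum
      (f := fun θ => m χ θ * charDegree (θ : H → ℂ)) (fun _ _ => Nat.zero_le _)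
      (Finset.mem_univ θ))
  · rw [sq, mul_left_comm, h2]
    exact Nat.mul_le_mul_left _ (Finset.sum_le_sum_of_subset (Finset.subset_univ _))

end Cfsg.Agent.S4708
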