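import Cfsg.Statements.S4711
import Cfsg.Agent.S0938
import Cfsg.Agent.H86.Reg
import Cfsg.Agent.H22.UpperPSeries
import Cfsg.Agent.H33.Kernel
import Cfsg.Agent.H33.OddExt
import Cfsg.Agent.H32.DefectCard
import Cfsg.Agent.H34.Twist

set_option autoImplicit false
open Cfsg

namespace Cfsg.Agent.S4711

/-- Let p be a prime, M a maximal ideal of the algebraic integers containing p, G a finite group, P a Sylow p-subgroup and N = N_G(P). Then G has p-length 1 (G = O_{p',p,p'}(G)) if and only if every irreducible character in the principal p-block of G restricts to an irreducible character of N. -/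
theorem result {G : Type*} [Group G] [Finite G] (p : ℕ) [Fact p.Prime] (M : Ideal Cfsg.AlgInt) (hM : Cfsg.IsPModular p M) (P : Sylow p G) : Cfsg.PLengthLE p 1 G ↔ ∀ χ ∈ Cfsg.principalBlock M G, Cfsg.IsIrrCharacter ↥(Subgroup.normalizer ((P : Subgroup G) : Set G)) (fun n : ↥(Subgroup.normalizer ((P : Subgroup G) : Set G)) => (χ : G → ℂ) n) := by
  classical
  have := hM.2.1
  have := Fintype.ofFinite G
  have hp := hM.1
  set O := pPrimeCore p G with hO
  set N := Subgroup.normalizer ((P : Subgroup G) : Set G) with hN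
  have hπ := QuotientGroup.mk'_surjective O
  constructor
  · intro h χ hχ
    have h1 : pPrimeCore p (G ⧸ (upperPSeries p G (2 * 1)).1) = ⊤ := by
      rw [← H22.map_upperPSeries_two_mul_add_one, show (upperPSeries p G (2 * 1 + 1)).1 = ⊤ from h]
      exact Subgroup.map_top_of_surjective _ (QuotientGroup.mk'_surjective _)
    have h2 : (P : Subgroup G) ≤ pPrimePCore p G := fun u hu => by
      rw [← H22.upperPSeries_two]
      exact H33.mem_of_pElt_of_not_dvd_index hp _
        ((Nat.Prime.coprime_iff_not_dvd hp).1 (H22.coprime_of_pPrimeCore_eq_top h1).symm)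
        (H34.pElt_of_mem P.isPGroup' hu)
    have h3 : N ⊔ O = ⊤ := by
      rw [eq_top_iff, ← Sylow.normalizer_sup_eq_top' P h2]
      refine sup_le le_sup_left fun u hu => ?_
      obtain ⟨v, hv, e⟩ := H22.pCore_le_sylow (P.mapSurjective hπ) hu
      rw [show u = v * (v⁻¹ * u) by simp]
      exact mul_mem (Subgroup.mem_sup_left (Subgroup.le_normalizer hv))
        (Subgroup.mem_sup_right (QuotientGroup.eq.1 e))
    obtain ⟨φ, hφ, e⟩ := H5.exists_isIrr_quotient O χ.2 fun g hg =>
      H33.apply_eq_degree_of_mem_principalBlock hM O (H33.not_dvd_card_pPrimeCore hp) hχ hg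
    rw [e]
    refine H5.isIrrCharacter_comp hφ ((QuotientGroup.mk' O).comp N.subtype) fun q => ?_
    obtain ⟨g, rfl⟩ := hπ q
    have hg : g ∈ N ⊔ O := h3 ▸ Subgroup.mem_top g
    rw [← SetLike.mem_coe, Subgroup.mul_normal] at hg
    obtain ⟨n, hn, o, ho, rfl⟩ := hg
    exact ⟨⟨n, hn⟩, QuotientGroup.eq.2 (by simpa using ho)⟩
  · intro h
    have := Fintype.ofFinite (P : Subgroup G)
    set L := Subgroup.normalClosure ((P : Subgroup G) : Set G) with hL
    have hPN : (P : Subgroup G) ≤ N := Subgroup.le_normalizer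
    have h1 : ∀ χ ∈ principalBlock M G,
        classInner (fun u : (P : Subgroup G) => (χ : G → ℂ) u) (fun _ => 1) ≠ 0 →
        ∀ g ∈ L, (χ : G → ℂ) g = (χ : G → ℂ) 1 := fun χ hχ h0 => by
      have := Fintype.ofFinite N
      have := Fintype.ofFinite ((P : Subgroup G).subgroupOf N)
      refine fun g hg => Subgroup.normalClosure_le_normal
        (N := H5.charKer (H5.isCharacter_of_isIrr χ.2)) (fun u hu => ?_) hg
      have := H6.res_eq_smul_of_invariant ((P : Subgroup G).subgroupOf N) (h χ hχ)
        H5.isIrrCharacter_one (by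
          rwa [← H5.classInner_comp_equiv (Subgroup.subgroupOfEquivOfLe hPN)] at h0)
        (fun _ => rfl)
      exact (congrFun this ⟨⟨u, hPN hu⟩, hu⟩).trans (congrFun this 1).symm
    have hB := H32.blockIdem_mem_RG (H33.isPBlock_principalBlock (M := M) (G := G))
    obtain ⟨K, hK, h2, h3, -⟩ := S0938.result p M hM _ H33.isPBlock_principalBlock _
      (H33.oneIrr_mem_principalBlock (G := G))
    have h4 : ∀ g ∈ L, ¬ p ∣ orderOf g → g ∈ O := fun g hg hreg => by
      refine H22.le_pPrimeCore hK ((Nat.Prime.coprime_iff_not_dvd hp).2 h3).symm ?_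
      rw [← SetLike.mem_coe, h2]
      intro χ hχ
      have e : blockCoeff (principalBlock M G) g⁻¹ = blockCoeff (principalBlock M G) 1 := by
        rw [H32.blockCoeff_eq_sum_of_regular hM hB P.isPGroup' (by rwa [orderOf_inv]),
          H32.blockCoeff_eq_sum_of_regular hM hB P.isPGroup' (by simp [hp.ne_one])]
        congr 1
        refine Finset.sum_congr rfl fun ψ hψ => ?_
        by_cases h0 : classInner (fun u : (P : Subgroup G) => (ψ : G → ℂ) u) (fun _ => 1) = 0
        · rw [h0, zero_mul, zero_mul]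
        · rw [h1 ψ (Finset.mem_filter.1 hψ).2 h0 _ (L.inv_mem hg)]
      rw [H33.blockCoeff_eq_sum, H33.blockCoeff_eq_sum, mul_right_inj'
        (inv_ne_zero H5.natCard_ne_zero)] at e
      simp only [← H5.isIrr_apply_inv (Subtype.prop _), inv_inv, inv_one] at e
      refine H5.apply_eq_degree_of_constituent (χ := ∑ ψ ∈ Finset.univ.filter
        (· ∈ principalBlock M G), (charDegree (ψ : G → ℂ) : ℂ) • (ψ : G → ℂ))
        (H5.isCharacter_sum _ _ fun ψ _ =>
          H5.isCharacter_natCast_smul (H5.isCharacter_of_isIrr ψ.2) _) χ.2 ?_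
        (by simpa only [Finset.sum_apply, Pi.smul_apply, smul_eq_mul, H33.irr_charDegree_cast]
          using e)
      rw [H5.classInner_sum_left, Finset.sum_eq_single χ (fun ψ _ hψ => by
        rw [H5.classInner_smul_left, H5.classInner_irr_ne ψ.2 χ.2 (fun h => hψ (Subtype.ext h)),
          mul_zero]) (by simp [hχ]), H5.classInner_smul_left, H5.classInner_irr_self χ.2, mul_one]
      exact Nat.cast_ne_zero.2 (H33.charDegree_ne_zero χ)
    refine H22.pLengthLE_of_sylow_le P 1 ?_
    rw [show 2 * 1 = 2 from rfl, H22.upperPSeries_two]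
    refine Subgroup.le_normalClosure.trans (Subgroup.map_le_iff_le_comap.1
      (H22.le_pCore (Subgroup.Normal.map inferInstance _ hπ) ?_))
    rintro ⟨_, g, hg, rfl⟩
    obtain ⟨z, hz⟩ := H33.exists_isPPart hp g
    obtain ⟨k, hk⟩ := H33.IsPPart.pElt hz
    refine ⟨k, Subtype.ext ?_⟩
    have := h4 _ (L.mul_mem (L.inv_mem (H33.IsPPart.mem_of_mem hp hz L hg)) hg)
      (H33.IsPPart.regular hz)
    change ((g : G ⧸ O)) ^ p ^ k = 1
    rw [← QuotientGroup.eq.2 this, ← QuotientGroup.mk_pow, ← hk, pow_orderOf_eq_one,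
      QuotientGroup.mk_one]

end Cfsg.Agent.S4711
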