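import Cfsg.Statements.S4712
import Cfsg.Agent.H32.GDec
import Cfsg.Agent.H33.Gal
import Mathlib.RingTheory.ZMod.UnitsCyclic

set_option autoImplicit false
open Cfsg

namespace Cfsg.Agent.S4712

theorem exists_gen {p : ℕ} (hp : p.Prime) (hodd : p ≠ 2) {n : ℕ} (hn : n ≠ 0) :
    ∃ k₀ : ℕ, k₀.Coprime n ∧ k₀ ≡ 1 [MOD n / p ^ n.factorization p] ∧
      ∀ k : ℕ, k.Coprime n → k ≡ 1 [MOD n / p ^ n.factorization p] → ∃ j, k₀ ^ j ≡ k [MOD n] := by
  have hc : (p ^ n.factorization p).Coprime (n / p ^ n.factorization p) :=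
    (Nat.coprime_ordCompl hp hn).pow_left _
  have hprod : p ^ n.factorization p * (n / p ^ n.factorization p) = n :=
    Nat.ordProj_mul_ordCompl_eq_self n p
  have : NeZero (p ^ n.factorization p) := ⟨pow_ne_zero _ hp.ne_zero⟩
  obtain ⟨γ, hγ⟩ := (ZMod.isCyclic_units_of_prime_pow p hp hodd (n.factorization p)).exists_monoid_generator
  obtain ⟨k₀, h1, h2⟩ := Nat.chineseRemainder hc (γ : ZMod (p ^ n.factorization p)).val 1
  refine ⟨k₀, ?_, h2, fun k hk hk1 => ?_⟩
  · rw [← hprod]
    refine Nat.Coprime.mul_right ?_ ?_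
    · rw [Nat.Coprime, h1.gcd_eq]; exact ZMod.val_coe_unit_coprime γ
    · rw [Nat.Coprime, h2.gcd_eq]; simp
  · obtain ⟨j, hj⟩ := hγ (ZMod.unitOfCoprime k (hk.coprime_dvd_right (Dvd.intro _ hprod)))
    refine ⟨j, ?_⟩
    rw [← hprod]
    refine (Nat.modEq_and_modEq_iff_modEq_mul hc).1 ⟨?_, ?_⟩
    · rw [← ZMod.natCast_eq_natCast_iff, Nat.cast_pow, (ZMod.natCast_eq_natCast_iff _ _ _).2 h1,
        ZMod.natCast_zmod_val, ← Units.val_pow_eq_pow_val]
      simpa using congrArg Units.val hj
    · simpa using (h2.pow j).trans (by simpa using hk1.symm)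

open H32 H86 in
theorem term_nat {G : Type*} [Group G] [Fintype G] {p : ℕ} {M : Ideal AlgInt} [M.IsMaximal]
    (hM : IsPModular p M) {C : Subgroup G} [Fintype C] {u : G} (hC : IsCent C u)
    (hu : ∃ k, orderOf u = p ^ k) {k : ℕ} (hk : k.Coprime (Nat.card G))
    (hreg : ∀ y : G, ¬ p ∣ orderOf y → y ^ k = y) (j : IBr M C) :
    ∃ n : ℕ, classInner (fun g => sec p hC (Phi j) (g ^ k)) (sec p hC (phi j)) = n := by
  have hcf := isClassFunction_sec (p := p) hC (Phi j)
  have hku : (orderOf u).Coprime k := (hk.coprime_dvd_right (orderOf_dvd_natCard u)).symm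
  rw [ci_sec_right hC fun g h => by simp only [conj_pow]; exact hcf _ _]
  have h1 : ∀ y : C, ¬ p ∣ orderOf y → (u * y) ^ k = u ^ k * y := fun y hy => by
    rw [(hC.commute y).mul_pow, hreg y (by rwa [Subgroup.orderOf_coe])]
  by_cases hc : IsConj (u ^ k) u
  · obtain ⟨c, hc⟩ := isConj_iff.1 hc
    have hcN : c ∈ Subgroup.normalizer (C : Set G) := Subgroup.mem_normalizer_iff.2 fun g => by
      rw [hC.pow hku g, hC]
      generalize u ^ k = v at hc
      rw [← hc, ← (MulAut.conj c).injective.eq_iff]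
      simp [mul_assoc]
    let e : C ≃* C := C.normalizerMonoidHom ⟨c, hcN⟩
    have : pRegularPart p (shift C u fun g => sec p hC (Phi j) (g ^ k)) = Phi (IBr.congr e j) := by
      rw [← reg_Phi hM (IBr.congr e j), Phi_congr]
      refine reg_congr fun y hy => ?_
      rw [shift_apply, h1 y hy, ← hcf _ c, ← sec_apply_of_regular hM.1 hC hu (isClassFunction_Phi j)
        (y := e y) (by rwa [e.orderOf_eq])]
      congr 1
      generalize u ^ k = v at hc
      rw [← hc]
      simp [e, mul_assoc]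
    rw [this, classInner_Phi_phi]
    split_ifs
    exacts [⟨1, by simp⟩, ⟨0, by simp⟩]
  · have : pRegularPart p (shift C u fun g => sec p hC (Phi j) (g ^ k)) = 0 := by
      obtain ⟨n, hn⟩ := hu
      refine reg_eq_zero_iff.2 fun y hy => ?_
      rw [shift_apply, h1 y hy]
      exact sec_eq_zero hM.1 hC ⟨n, hn⟩ _ ((hC.pow hku).isPPart (pElt_pow_coprime hn (hn ▸ hku)) hy) hc
    exact ⟨0, by rw [this, H5.classInner_zero_left, Nat.cast_zero]⟩

/-- Let p be an odd prime, M a maximal ideal of the algebraic integers containing p, G a finite group of order n with p-part p^a, and B a p-block of G. Call an irreducible character χ p-rational when χ(g^k) = χ(g) for every g and every k coprime to n with k ≡ 1 modulo n/p^a (χ is fixed by the Galois automorphisms fixing the roots of unity of order prime to p). Then the number of p-rational irreducible characters in B is at least the p-regular rank of B (the number of irreducible Brauer characters in B). -/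
theorem result {G : Type*} [Group G] [Finite G] (p : ℕ) [Fact p.Prime] (hodd : p ≠ 2) (M : Ideal Cfsg.AlgInt) (hM : Cfsg.IsPModular p M) (B : Set (Cfsg.IrrCharacter G)) (hB : Cfsg.IsPBlock M B) : Cfsg.blockRank p B ≤ Nat.card {χ : Cfsg.IrrCharacter G // χ ∈ B ∧ ∀ k : ℕ, Nat.Coprime k (Nat.card G) → k ≡ 1 [MOD Nat.card G / p ^ (Nat.card G).factorization p] → ∀ g : G, (χ : G → ℂ) (g ^ k) = (χ : G → ℂ) g} := by
  classical
  have := hM.2.1
  have := Fintype.ofFinite G
  have hp := hM.1
  obtain ⟨k, hk, hk1, hgen⟩ := exists_gen hp hodd (Nat.card_pos (α := G)).ne'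
  have hreg : ∀ y : G, ¬ p ∣ orderOf y → y ^ k = y := fun y hy => by
    refine H31.pow_part_eq_self hk1 (orderOf_dvd_iff_pow_eq_one.1 ?_)
    refine (Nat.Coprime.pow_right ((Nat.card G).factorization p)
      ((Nat.Prime.coprime_iff_not_dvd hp).mpr hy).symm).dvd_of_dvd_mul_left ?_
    rw [Nat.ordProj_mul_ordCompl_eq_self]
    exact orderOf_dvd_natCard y
  let T : (G → ℂ) →ₗ[ℂ] (G → ℂ) := LinearMap.funLeft ℂ ℂ (· ^ k)
  obtain ⟨X, hX⟩ := H32.exists_pReps p G
  have h1 : ∑ χ ∈ H86.fs B, classInner (T χ) χ =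
      (((H86.fs B).filter fun χ => H33.powIrr hk χ = χ).card : ℂ) := by
    rw [← Finset.sum_boole]
    exact Finset.sum_congr rfl fun χ _ => H5.classInner_irrCharacter (H33.powIrr hk χ) χ
  have h2 : ∀ x ∈ X, ∃ n : ℕ, ∑ χ ∈ H86.fs B, classInner (T χ)
      (H86.sec p (H86.isCent_centralizer x) (H86.shift _ x χ)) = n := fun x hx => by
    rw [H32.sum_classInner_sec_shift hM]
    have : ∀ j : H32.IBr M (Subgroup.centralizer {x}), ∃ n : ℕ, classInner (T (blockPart B
        (H86.sec p (H86.isCent_centralizer x) (H32.Phi j))))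
        (H86.sec p (H86.isCent_centralizer x) (H32.phi j)) = n := fun j => by
      by_cases h : IsInducedBlock M _ j.blk B
      · rw [H32.blockPart_sec_of_induced hM _ (hX.pElt x hx) h (H32.blockPart_Phi_blk j)]
        exact term_nat hM _ (hX.pElt x hx) hk hreg j
      · rw [H32.blockPart_sec_of_not_induced hM _ (hX.pElt x hx) j.isPBlock_blk hB h
          (H32.blockPart_Phi_blk j), map_zero, H5.classInner_zero_left]
        exact ⟨0, by simp⟩
    choose n hn using this
    exact ⟨∑ j, n j, by simp only [hn, Nat.cast_sum]⟩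
  choose! n hn using h2
  have h3 : n 1 = blockRank p B := by
    have := hn 1 hX.one_mem
    simp only [H32.sec_one hp _ (H86.irr_cf (Subtype.prop _)), ← H86.classInner_reg] at this
    rw [Finset.sum_congr rfl fun χ _ => by
      rw [H86.reg_congr (χ := T χ) (ψ := χ) fun g hg => congrArg _ (hreg g hg)],
      H86.sum_ci_reg_self hM hB] at this
    exact_mod_cast this.symm
  simp only [hX.classInner_eq_sum hp _ (H86.irr_cf (Subtype.prop _))] at h1
  rw [Finset.sum_comm, Finset.sum_congr rfl hn, ← Nat.cast_sum, Nat.cast_inj,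
    H86.card_filter_fs] at h1
  refine (h3.symm.le.trans (Finset.single_le_sum (fun _ _ => Nat.zero_le _) hX.one_mem)).trans
    (h1.le.trans (Nat.card_le_card_of_injective (Subtype.map id fun χ hχ => ⟨hχ.1, ?_⟩)
      (Subtype.map_injective _ Function.injective_id)))
  intro k' hk' hk1' g
  obtain ⟨j, hj⟩ := hgen k' hk' hk1'
  rw [← pow_eq_pow_iff_modEq.2 (hj.of_dvd (orderOf_dvd_natCard g)), ← H33.powIrr_iterate hk,
    id, Function.iterate_fixed hχ.2]

end Cfsg.Agent.S4712
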