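import Cfsg.Statements.S4714
import Cfsg.Agent.H86.NilAb

set_option autoImplicit false
open Cfsg

namespace Cfsg.Agent.S4714

open H86 H87 H32 Subgroup in
theorem aux {M : Ideal AlgInt} [M.IsMaximal] {G : Type*} [Group G] [Finite G] {p : ℕ}
    {B : Set (IrrCharacter G)} {D : Subgroup G} {e : MonoidAlgebra (Res M) G} (h : Ctx M p B D e)
    (hG : D ⊔ Ce D = ⊤) {η : D → ℂ} (hη : IsClassFunction D η) {χ : IrrCharacter G} (hχ : χ ∈ B) :
    (∀ (y : D) (x : G), ¬ p ∣ orderOf x → Commute (y : G) x →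
      st p e η χ ((y : G) * x) = η y * (χ : G → ℂ) (y * x)) ∧
    ∀ z : G, (∀ y : G, IsPPart p z y → y ∉ D) → st p e η χ z = 0 := by
  have := Fintype.ofFinite G
  have key : ∀ g : G, ∀ y ∈ D, ∃ d ∈ D, g * y * g⁻¹ = d * y * d⁻¹ := fun g y hy => by
    obtain ⟨d, hd, c, hc, rfl⟩ := exists_mul_of_mem_sup (Q := D) le_rfl (hG ▸ mem_top g)
    refine ⟨d, hd, ?_⟩
    rw [mul_assoc d c y, ← mem_Ce.1 hc y hy]
    group
  refine ⟨fun y x hx hc => ?_, fun z hz => st_eq_zero fun v hv => ?_⟩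
  · rw [h.st_apply_of_forall (h.stab_of_nilp (h.nilp_of_sup hG) hη) (H5.isClassFunction_of_isIrr χ.2)
      ⟨x, rfl, hc, h.pElt y.2, hx⟩ (c := η y) fun g f hg => ?_, blockPart_irr_of_mem hχ]
    obtain ⟨d, hd, h1⟩ := key g y y.2
    rw [← hη y ⟨d, hd⟩]
    exact congrArg η (Subtype.ext h1)
  · obtain ⟨c, hc⟩ := isConj_iff.1 hv.symm
    obtain ⟨d, hd, h1⟩ := key c v v.2
    exact absurd (by rw [← hc, h1]; exact D.mul_mem (D.mul_mem hd v.2) (D.inv_mem hd))
      (hz _ (pp_spec h.hM.1 z))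

open ComplexConjugate in
theorem degree_eq_one {D : Type*} [Group D] [Finite D] {l : D → ℂ} (hl : IsIrrCharacter D l)
    (h : ∀ y, ‖l y‖ = ‖l 1‖) : l 1 = 1 := by
  have := Fintype.ofFinite D
  obtain ⟨n, hn, h1⟩ := H5.exists_pos_nat_degree hl
  have h2 := H5.classInner_irr_self hl
  rw [classInner, Finset.sum_congr rfl fun y _ => show l y * conj (l y) = (n : ℂ) ^ 2 by
    rw [Complex.mul_conj', h y, h1]; simp, Finset.sum_const, Finset.card_univ, nsmul_eq_mul,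
    ← Nat.card_eq_fintype_card, inv_mul_cancel_left₀ (H6.card_ne_zero_complex _)] at h2
  have h3 : n ^ 2 = 1 := by exact_mod_cast h2
  rw [h1, (Nat.pow_eq_one.1 h3).resolve_right two_ne_zero, Nat.cast_one]


/-- Let p be a prime, M a maximal ideal of the algebraic integers containing p, D a p-subgroup of the finite group G with G = D·C_G(D), and B a p-block with defect group D. Let χ be a member of B having D in its kernel (there is exactly one, the canonical character of B). Then the irreducible characters in B are exactly the functions θ on G for which there is an irreducible character ζ of D such that θ(yx) = ζ(y)χ(x) whenever y ∈ D, x has order prime to p and x commutes with y, and θ(z) = 0 whenever the p-part of z does not lie in D. -/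
theorem result {G : Type*} [Group G] [Finite G] (p : ℕ) [Fact p.Prime] (M : Ideal Cfsg.AlgInt) (hM : Cfsg.IsPModular p M) (D : Subgroup G) (hD : IsPGroup p D) (hG : D ⊔ Subgroup.centralizer (D : Set G) = ⊤) (B : Set (Cfsg.IrrCharacter G)) (hB : Cfsg.IsPBlock M B) (hBD : Cfsg.IsDefectGroup p M B D) (χ : Cfsg.IrrCharacter G) (hχ : χ ∈ B) (hχD : ∀ y ∈ D, (χ : G → ℂ) y = (χ : G → ℂ) 1) : (∀ θ : Cfsg.IrrCharacter G, θ ∈ B ↔ ∃ ζ : Cfsg.IrrCharacter D, (∀ (y : D) (x : G), ¬ p ∣ orderOf x → Commute (y : G) x → (θ : G → ℂ) ((y : G) * x) = (ζ : D → ℂ) y * (χ : G → ℂ) x) ∧ (∀ z : G, (∀ y : G, Cfsg.IsPPart p z y → y ∉ D) → (θ : G → ℂ) z = 0)) ∧ ∀ ζ : Cfsg.IrrCharacter D, ∃ θ ∈ B, (∀ (y : D) (x : G), ¬ p ∣ orderOf x → Commute (y : G) x → (θ : G → ℂ) ((y : G) * x) = (ζ : D → ℂ) y * (χ : G → ℂ) x) ∧ (∀ z : G, (∀ y : G, Cfsg.IsPPart p z y → y ∉ D) → (θ : G → ℂ) z = 0) := by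
  have := hM.2.1
  obtain ⟨e, h⟩ := H86.exists_ctx hM hB hBD
  have hn := h.nilp_of_sup hG
  have hker : ∀ y : D, ∀ x, (χ : G → ℂ) (y * x) = (χ : G → ℂ) x := fun y x =>
    H5.apply_mul_of_apply_eq_degree (H5.isCharacter_of_isIrr χ.2) (hχD y y.2) x
  have h1 : ¬ p ∣ orderOf (1 : G) := by
    rw [orderOf_one, Nat.dvd_one]; exact hM.1.ne_one
  have h0 : blockHeight p B (χ : G → ℂ) = 0 := by
    obtain ⟨θ, hθ, h0⟩ := H86.exists_height_zero (p := p) (H32.isPBlock_nonempty hB)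
    obtain ⟨Φ, hΦ⟩ := h.exists_equiv_of_nilp hn hθ h0
    obtain ⟨l, hl⟩ := Φ.surjective ⟨χ, hχ⟩
    have h2 : ∀ y : D, (χ : G → ℂ) 1 = (l : D → ℂ) y * (θ : G → ℂ) y := fun y => by
      have h3 := (aux h hG (H5.isClassFunction_of_isIrr l.2) hθ).1 y 1 h1 (Commute.one_right _)
      rwa [← hΦ, hl, hker, mul_one] at h3
    have h4 : (l : D → ℂ) 1 = 1 := degree_eq_one l.2 fun y => by
      refine le_antisymm (H5.norm_apply_le_degree (H5.isCharacter_of_isIrr l.2) y) ?_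
      have h5 := congrArg norm ((h2 1).symm.trans (h2 y))
      rw [norm_mul, norm_mul, OneMemClass.coe_one] at h5
      refine le_of_mul_le_mul_right (h5.le.trans ?_) (norm_pos_iff.2 (H5.degree_ne_zero θ.2))
      exact mul_le_mul_of_nonneg_left
        (H5.norm_apply_le_degree (H5.isCharacter_of_isIrr θ.2) _) (norm_nonneg _)
    have h5 := h2 1
    rw [h4, one_mul, OneMemClass.coe_one] at h5
    rw [H86.height_eq_of_degree_eq h5, h0]
  obtain ⟨Φ, hΦ⟩ := h.exists_equiv_of_nilp hn hχ h0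
  have key : ∀ ζ : IrrCharacter D, (∀ (y : D) (x : G), ¬ p ∣ orderOf x → Commute (y : G) x →
      ((Φ ζ : IrrCharacter G) : G → ℂ) ((y : G) * x) = (ζ : D → ℂ) y * (χ : G → ℂ) x) ∧
      (∀ z : G, (∀ y : G, IsPPart p z y → y ∉ D) → ((Φ ζ : IrrCharacter G) : G → ℂ) z = 0) :=
    fun ζ => by
      obtain ⟨h2, h3⟩ := aux h hG (H5.isClassFunction_of_isIrr ζ.2) hχ
      rw [hΦ]
      exact ⟨fun y x hx hc => by rw [h2 y x hx hc, hker], h3⟩
  refine ⟨fun θ => ⟨fun hθ => ?_, fun ⟨ζ, h2, h3⟩ => ?_⟩, fun ζ => ⟨_, (Φ ζ).2, key ζ⟩⟩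
  · obtain ⟨l, hl⟩ := Φ.surjective ⟨θ, hθ⟩
    have h2 := key l
    rw [hl] at h2
    exact ⟨l, h2⟩
  · have h4 : θ = Φ ζ := Subtype.ext (funext fun z => by
      by_cases hz : ∀ y : G, IsPPart p z y → y ∉ D
      · exact (h3 z hz).trans ((key ζ).2 z hz).symm
      · push Not at hz
        obtain ⟨y, ⟨x, rfl, hc, -, hx⟩, hy⟩ := hz
        exact (h2 ⟨y, hy⟩ x hx hc).trans ((key ζ).1 ⟨y, hy⟩ x hx hc).symm)
    rw [h4]
    exact (Φ ζ).2

end Cfsg.Agent.S4714
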