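import Cfsg.Statements.S4715
import Cfsg.Agent.H33.Major

set_option autoImplicit false
open Cfsg

namespace Cfsg.Agent.S4715

open H32 H87 H86 Subgroup

/-- Let p be a prime, M a maximal ideal of the algebraic integers containing p, B a p-block of the finite group G with defect group D of order p^d, H = D·C_G(D), b a block of H inducing B, T the stabilizer of b in N_G(D) and e = [T : H] the inertial index of B; let n be the integer with p^n ≤ e < p^(n+1) and p^c the order of the centre of D. Then every irreducible character in B has height h with h + c ≤ n + d. -/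
theorem result {G : Type*} [Group G] [Finite G] (p : ℕ) [Fact p.Prime] (M : Ideal Cfsg.AlgInt) (hM : Cfsg.IsPModular p M) (B : Set (Cfsg.IrrCharacter G)) (hB : Cfsg.IsPBlock M B) (D : Subgroup G) (hBD : Cfsg.IsDefectGroup p M B D) (d : ℕ) (hDd : Nat.card D = p ^ d) (H : Subgroup G) (hH : H = D ⊔ Subgroup.centralizer (D : Set G)) (b : Set (Cfsg.IrrCharacter H)) (hind : Cfsg.IsInducedBlock M H b B) (T : Subgroup G) (hT : ∀ g : G, g ∈ T ↔ (g ∈ Subgroup.normalizer (D : Set G) ∧ ∀ θ ∈ b, ∀ θ' : Cfsg.IrrCharacter H, (∀ h h' : H, (h' : G) = g * h * g⁻¹ → (θ' : H → ℂ) h' = (θ : H → ℂ) h) → θ' ∈ b)) (e : ℕ) (he : H.relIndex T = e) (n : ℕ) (hn : p ^ n ≤ e ∧ e < p ^ (n + 1)) (c : ℕ) (hc : Nat.card (Subgroup.center D) = p ^ c) : ∀ χ ∈ B, Cfsg.blockHeight p B (χ : G → ℂ) + c ≤ n + d := by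
  classical
  intro χ hχ
  have := hM.2.1
  have hp := hM.1
  have := res_charP hM
  have := Fintype.ofFinite G
  have hD := isDef_of_isDefectGroup hM hB hBD
  have hblk := (emb_subtype H).blk_idm hind.1
  have h1 : D ≤ H := hH ▸ le_sup_left
  have h2 : Ce D ≤ H := hH ▸ le_sup_right
  have h3 : H ≤ No D := hH ▸ sup_le le_normalizer (Ce_le_No _)
  have h4 := Br_eq_self_of_idem le_rfl hD.pgp h1 h3 hblk.mem hblk.idem
  obtain ⟨f, hf⟩ := exists_bpair le_rfl le_normalizer hblk.mem hblk.idem hD.pgp h1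
    (h4.symm ▸ hblk.ne_zero)
  have hm := (H33.bpair_of_induced hM hind h2 hf).maxPair_of_isDef hD
  have hfH : Blk H H f := hm.bpair.pair.blk_self h1 h2 (le_inf h3 (hH ▸ sup_le
    (inv_iff_le_stab.1 hm.bpair.pair.inv) (inv_iff_le_stab.1 hm.bpair.pair.blk_Ce.inv)))
  have hfb : idm M H.subtype b = f := hblk.eq_of_mul_ne_zero (isComm_fix le_rfl) hfH
    (by rw [← h4, hf.br]; exact hfH.ne_zero)
  have hT' : No D ⊓ stab f ≤ T := fun g hg => (hT g).2 ⟨hg.1, fun θ hθ θ' h => by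
    have hgH : g ∈ No H := hH ▸ No_inf_No_le_sup _ _ ⟨hg.1, No_le_No_Ce _ hg.1⟩
    obtain ⟨θ'', h5, h6⟩ := ((stabilizesBlock_iff hind.1).2 ⟨hgH, hfb ▸ hg.2⟩).2 θ hθ
    have h7 := mem_No_iff_cjS.1 hgH
    rwa [(H34.irrComap _).injective (((conj_rel_iff g h7 θ θ').1 h).trans
      ((conj_rel_iff g h7 θ θ'').1 h6).symm)]⟩
  have hbl : ∀ Q : Subgroup G, ∃ c : Set (IrrCharacter (Ce Q)), Q ≤ D →
      IsPBlock M c ∧ Sub p ⊤ Q (idm M (Ce Q).subtype c) D f := fun Q => by
    by_cases hQ : Q ≤ D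
    · obtain ⟨g, hg⟩ := exists_sub hm.bpair.pair hQ
      obtain ⟨c, hc, rfl⟩ := (hg.pair_iff.2 hm.bpair.pair).exists_idm
      exact ⟨c, fun _ => ⟨hc.2, hg⟩⟩
    · exact ⟨∅, fun h => (hQ h).elim⟩
  choose bl hbl using hbl
  let Z : Subgroup G := D ⊓ Ce D
  let s : Finset G := Finset.univ.filter (· ∈ Z)
  have hs : ∀ u, u ∈ s ↔ u ∈ Z := fun u => by simp [s]
  have hsc : s.card = p ^ c := by
    rw [← hc, ← card_map_of_injective D.subtype_injective, Nat.card_eq_fintype_card,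
      Fintype.card_subtype]
    refine congrArg _ (Finset.filter_congr fun u _ => ⟨fun hu => ⟨⟨u, hu.1⟩, mem_center_iff.2
      fun y => Subtype.ext (mem_Ce.1 hu.2 _ y.2), rfl⟩, ?_⟩)
    rintro ⟨x, hx, rfl⟩
    exact ⟨x.2, mem_Ce.2 fun q hq => congrArg Subtype.val (mem_center_iff.1 hx ⟨q, hq⟩)⟩
  have hle : ∀ u ∈ Z, zpowers u ≤ D := fun u hu => zpowers_le_of_mem hu.1
  have hce : ∀ u ∈ Z, D ≤ Ce (zpowers u) := fun u hu => le_Ce_comm.1 (zpowers_le_of_mem hu.2)
  have hord : ∀ u ∈ Z, orderOf u ∣ p ^ d := fun u hu => hDd ▸ D.orderOf_dvd_natCard hu.1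
  have hpe : ∀ u ∈ Z, ∃ k, orderOf u = p ^ k := fun u hu =>
    ((Nat.dvd_prime_pow hp).1 (hord u hu)).imp fun _ h => h.2
  let F : Subgroup G → G → ℝ := fun Q u => (con p (Ce Q) u (bl Q) χ χ).re
  have hF : ∀ Q u, con p (Ce Q) u (bl Q) χ χ = F Q u := fun Q u => by
    simp only [F, con, H5.classInner_self_eq, Complex.ofReal_re]
  have hF0 : ∀ Q u, 0 ≤ F Q u := fun Q u => H5.classInner_self_re_nonneg _
  have hχc := H5.isClassFunction_of_isIrr χ.2
  have he0 : 0 < e := (pow_pos hp.pos n).trans_le hn.1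
  have key : ∑ u ∈ s, F (zpowers u) u ≤ e := by
    refine H33.bessel s (fun u => sec p (isCent_zpowers u) (gen p _ u (bl (zpowers u)) χ))
      (H5.classInner_irr_self χ.2) _ (by exact_mod_cast he0) (fun u hu => ?_) fun v hv => ?_
    · rw [← hF, con_eq_sec hM (isCent_zpowers u) (hbl _ (hle u ((hs u).1 hu))).1 _ hχc]
    · have hv := (hs v).1 hv
      rw [Complex.re_sum]
      refine (Finset.sum_le_sum (g := fun u => if ∃ t ∈ T, u = t * v * t⁻¹ then
        F (zpowers v) v else 0) fun u hu => ?_).trans ?_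
      · have hu := (hs u).1 hu
        rcases H33.ci_sec_gen hM (hpe u hu) (hpe v hv) (isCent_zpowers u) (isCent_zpowers v)
          (hbl _ (hle u hu)).1 (hbl _ (hle v hv)).1 hχc with h | ⟨h, x, hx, hx'⟩
        · rw [h, Complex.zero_re]
          split_ifs
          · exact hF0 _ _
          · exact le_rfl
        · obtain ⟨t, ht, htx⟩ := H33.exists_stab_conj (blk_eB hB) hm (hbl _ (hle u hu)).2
            (hbl _ (hle v hv)).2 (hce u hu) (hce v hv) ((cjS_zpowers _ _).trans (by rw [hx])) hx'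
          refine (if_pos ⟨_, inv_mem (hT' htx), ?_⟩).ge.trans' (by rw [h])
          rw [inv_inv, mul_inv_rev, ← mul_assoc, mul_assoc _ v, mem_Ce.1 ht v (mem_zpowers v), ← hx]
          group
      · rw [← Finset.sum_filter, Finset.sum_const, nsmul_eq_mul]
        refine mul_le_mul_of_nonneg_right (Nat.cast_le.2 (he ▸ H33.card_filter_conj_le ?_ _
          fun u hu => (Finset.mem_filter.1 hu).2)) (hF0 _ _)
        exact fun h hh => (mem_Ce.1 ((hH ▸ sup_le (hce v hv) (Ce_anti (hle v hv)) :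
          H ≤ Ce (zpowers v)) hh) v (mem_zpowers v)).symm
  have hdB : blockDefect p B = d :=
    Nat.pow_right_injective hp.two_le ((card_of_isDef_eB hM hB hD).symm.trans hDd)
  have hpow : ∀ u : G, ∀ k ∈ cop (p ^ d), orderOf u ∣ p ^ d → zpowers (u ^ k) = zpowers u :=
    fun u k hk hu => le_antisymm (zpowers_le_of_mem (pow_mem (mem_zpowers u) k))
      (zpowers_le_of_mem (mem_zpowers_pow_iff.2
        ((coprime_of_mem_cop hk).coprime_dvd_left hu).symm))
  have avg : ∀ u ∈ s, ((p ^ d).totient : ℝ) * p ^ blockHeight p B χ ≤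
      p ^ d * ∑ k ∈ cop (p ^ d), F (zpowers (u ^ k)) (u ^ k) := fun u hu => by
    have hu := (hs u).1 hu
    obtain ⟨h5, h6⟩ := hbl _ (hle u hu)
    have h7 := (hm.inf_Ce (blk_eB hB) h6 (hce u hu)).isDef le_rfl le_normalizer
      (h6.pair_iff.2 hm.bpair.pair).blk
    rw [Finset.sum_congr rfl fun k hk => by rw [hpow u k hk (hord u hu)], ← hdB]
    refine H33.totient_mul_le_sum_con hM (hdB ▸ hord u hu) (isCent_zpowers u)
      ((isInducedBlock_Ce_iff hM (hD.pgp.to_le (hle u hu))).2 ((isBrauerPairOf_iff hM hB h5).2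
        (hm.bpair.of_sub le_rfl (blk_eB hB).mem (blk_eB hB).idem h6))) ?_ hχ
    exact Nat.pow_right_injective hp.two_le (((emb_Ce _).card_of_isDef hM h5 h7).symm.trans
      (card_of_isDef_eB hM hB hD))
  have h8 := Finset.sum_le_sum avg
  rw [Finset.sum_const, hsc, ← Finset.mul_sum, Finset.sum_comm,
    Finset.sum_congr rfl (g := fun _ => ∑ u ∈ s, F (zpowers u) u), Finset.sum_const, card_cop,
    nsmul_eq_mul, nsmul_eq_mul] at h8
  · have h9 : (0 : ℝ) < (p ^ d).totient := Nat.cast_pos.2 (Nat.totient_pos.2 (pow_pos hp.pos d))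
    have hp1 : (1 : ℝ) < p := by exact_mod_cast hp.one_lt
    have h10 : (e : ℝ) < p ^ (n + 1) := by exact_mod_cast hn.2
    have h11 : (p : ℝ) ^ (blockHeight p B χ + c) < p ^ (d + (n + 1)) := by
      rw [pow_add, pow_add _ d]
      push_cast at h8
      have := mul_lt_mul_of_pos_left (key.trans_lt h10) (by positivity : (0 : ℝ) < p ^ d)
      refine lt_of_le_of_lt (le_of_mul_le_mul_left ?_ h9) this
      linarith
    rw [pow_lt_pow_iff_right₀ hp1] at h11
    omega
  · intro k hk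
    refine Finset.sum_bij (fun u _ => u ^ k) (fun u hu => (hs _).2 (pow_mem ((hs u).1 hu) k))
      ?_ ?_ fun _ _ => rfl
    · intro u hu v hv h
      have hc : (Nat.card Z).Coprime k := (coprime_of_mem_cop hk).coprime_dvd_left
        (hDd ▸ card_dvd_of_le inf_le_left)
      exact congrArg Subtype.val ((powCoprime hc).injective (a₁ := ⟨u, (hs u).1 hu⟩)
        (a₂ := ⟨v, (hs v).1 hv⟩) (Subtype.ext h))
    · intro v hv
      have hc : (Nat.card Z).Coprime k := (coprime_of_mem_cop hk).coprime_dvd_left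
        (hDd ▸ card_dvd_of_le inf_le_left)
      obtain ⟨u, hu⟩ := (powCoprime hc).surjective ⟨v, (hs v).1 hv⟩
      exact ⟨u, (hs _).2 u.2, congrArg Subtype.val hu⟩

end Cfsg.Agent.S4715
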