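import Cfsg.Statements.S4716
import Cfsg.Agent.H86.Contr2

set_option autoImplicit false
open Cfsg

namespace Cfsg.Agent.S4716

/-- Let p be a prime, M a maximal ideal of the algebraic integers containing p, and B a p-block of defect d of the finite group G all of whose irreducible characters have height zero. Let y be a p-element, C = C_G(y), and b a block of C inducing B and having the same defect d (a major subsection). Then k(B)^2 ≤ p^(2d)·l(b), where k(B) is the number of irreducible characters in B and l(b) the p-regular rank of b (its number of irreducible Brauer characters); in particular (y = 1) k(B)^2 ≤ p^(2d)·l(B). -/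
theorem result {G : Type*} [Group G] [Finite G] (p : ℕ) [Fact p.Prime] (M : Ideal Cfsg.AlgInt) (hM : Cfsg.IsPModular p M) (B : Set (Cfsg.IrrCharacter G)) (hB : Cfsg.IsPBlock M B) (d : ℕ) (hd : Cfsg.blockDefect p B = d) (hh : ∀ χ ∈ B, Cfsg.blockHeight p B (χ : G → ℂ) = 0) (y : G) (hy : ∃ k : ℕ, orderOf y = p ^ k) (b : Set (Cfsg.IrrCharacter ↥(Subgroup.centralizer ({y} : Set G)))) (hind : Cfsg.IsInducedBlock M (Subgroup.centralizer ({y} : Set G)) b B) (hbd : Cfsg.blockDefect p b = d) : Nat.card B ^ 2 ≤ p ^ (2 * d) * Cfsg.blockRank p b := by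
  classical
  have : M.IsMaximal := hM.2.1
  have := Fintype.ofFinite G
  obtain ⟨n, hn⟩ := hy
  obtain ⟨ω, hω⟩ := H86.exists_primitiveRoot hM.1 n
  have hC := H86.isCent_centralizer y
  have H := H86.hermFam_con hM hC hn hω hind
  have hN : p ^ n ≠ 0 := pow_ne_zero _ hM.1.ne_zero
  have hφ : (0 : ℝ) < (p ^ n).totient := by exact_mod_cast Nat.totient_pos.2 (Nat.pos_of_ne_zero hN)
  have h1 : ∀ χ ∈ H86.fs B, (Nat.card B : ℝ) * (p ^ n).totient ≤ ∑ ψ ∈ H86.fs B,
      ∑ k ∈ H86.cop (p ^ n), ‖(p : ℂ) ^ blockDefect p b * H86.con p _ (y ^ k) b χ ψ‖ ^ 2 := by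
    intro χ hχ
    rw [← H86.card_fs, ← nsmul_eq_mul]
    refine Finset.card_nsmul_le_sum _ _ _ fun ψ hψ => (H.fam χ hχ ψ hψ).totient_le hω hN
      (fun k hk => H32.ne_zero_of_not_mem_locMax (M := M) ?_) 2
    rw [H86.pow_mul_con_mem_iff hM (hC.pow (hn ▸ hk)) (H86.pElt_pow_coprime hn hk) hind
      (H86.mem_fs.1 hχ) (H86.mem_fs.1 hψ), hh χ (H86.mem_fs.1 hχ), hh ψ (H86.mem_fs.1 hψ)]
    simp
  have h2 := Finset.card_nsmul_le_sum _ _ _ h1
  have h3 : ∑ χ ∈ H86.fs B, ∑ ψ ∈ H86.fs B,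
      ∑ k ∈ H86.cop (p ^ n), ‖(p : ℂ) ^ blockDefect p b * H86.con p _ (y ^ k) b χ ψ‖ ^ 2 =
      (p ^ (2 * d) * blockRank p b : ℝ) * (p ^ n).totient := by
    apply Complex.ofReal_injective
    simp only [Finset.sum_comm (s := H86.fs B) (t := H86.cop _)]
    rw [Complex.ofReal_sum, Finset.sum_congr rfl (g := fun _ => (p ^ (2 * d) * blockRank p b : ℂ)),
      Finset.sum_const, H86.card_cop, nsmul_eq_mul, mul_comm]
    · push_cast; rfl
    intro k hk
    have hk' := H86.coprime_of_mem_cop hk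
    rw [Complex.ofReal_sum, Finset.sum_congr rfl fun χ hχ => H.sum_norm_sq hχ hk',
      ← Finset.mul_sum, H86.sum_pow_mul_con_self hM hC hn hind k hk', hbd]
    ring
  rw [h3, H86.card_fs, nsmul_eq_mul, ← mul_assoc, mul_le_mul_iff_left₀ hφ, ← pow_two] at h2
  exact_mod_cast h2

end Cfsg.Agent.S4716
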