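import Cfsg.Statements.S4717
import Cfsg.Agent.H87.Dict6

set_option autoImplicit false
open Cfsg

namespace Cfsg.Agent.S4717

open Cfsg.Agent.H87 Cfsg.Agent.H32 MonoidAlgebra

/-- Let p be a prime, M a maximal ideal of the algebraic integers containing p, and r a natural number; say that a finite group X has deficiency class r when X has no non-principal p-block of defect ≥ r. If G has deficiency class r then so does the centralizer of every p-element of G; conversely, if r > 0 and the centralizer of every element of order p has deficiency class r, then G has deficiency class r. -/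
theorem result {G : Type*} [Group G] [Finite G] (p : ℕ) [Fact p.Prime] (M : Ideal Cfsg.AlgInt) (hM : Cfsg.IsPModular p M) (r : ℕ) : ((∀ B' : Set (Cfsg.IrrCharacter G), Cfsg.IsPBlock M B' → B' ≠ Cfsg.principalBlock M G → Cfsg.blockDefect p B' < r) → ∀ y : G, (∃ k : ℕ, orderOf y = p ^ k) → (∀ B' : Set (Cfsg.IrrCharacter ↥(Subgroup.centralizer ({y} : Set G))), Cfsg.IsPBlock M B' → B' ≠ Cfsg.principalBlock M ↥(Subgroup.centralizer ({y} : Set G)) → Cfsg.blockDefect p B' < r)) ∧ (0 < r → (∀ y : G, orderOf y = p → (∀ B' : Set (Cfsg.IrrCharacter ↥(Subgroup.centralizer ({y} : Set G))), Cfsg.IsPBlock M B' → B' ≠ Cfsg.principalBlock M ↥(Subgroup.centralizer ({y} : Set G)) → Cfsg.blockDefect p B' < r)) → (∀ B' : Set (Cfsg.IrrCharacter G), Cfsg.IsPBlock M B' → B' ≠ Cfsg.principalBlock M G → Cfsg.blockDefect p B' < r)) := by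
  have := hM.2.1
  have := res_charP hM
  have hp : p.Prime := Fact.out
  constructor
  · rintro h y ⟨n, hn⟩ B' hB' hne
    have hQ : IsPGroup p (Subgroup.zpowers y) :=
      IsPGroup.of_card (n := n) (by rw [Nat.card_zpowers, hn])
    have hE : Emb (Subgroup.centralizer ({y} : Set G)).subtype (⊤ ⊓ Ce (Subgroup.zpowers y)) :=
      (emb_subtype _).of_eq (by rw [top_inf_eq, Ce_zpowers])
    have hf : Pair p ⊤ (Subgroup.zpowers y) (idm M _ B') := ⟨hQ, le_No_top _, hE.blk_idm hB'⟩
    obtain ⟨b, ⟨hb, hbf⟩, -⟩ := hf.existsUnique_blk (T := ⊤) le_rfl le_top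
    obtain ⟨B, hB, rfl⟩ := exists_eB_eq hb
    have hP : BPair p ⊤ ⊤ (eB M B) _ _ := ⟨hf, le_top, hbf⟩
    have h1 := h B hB fun e => hne ((eq_principal_iff_idm _ hB').2
      (hP.aug_eq le_rfl top_le_No_top hb ((eq_principal_iff hB).1 e)))
    obtain ⟨D, hD⟩ := exists_isDef' p ⊤ hb.ne_zero
    obtain ⟨D', hD'⟩ := exists_isDef' p (⊤ ⊓ Ce (Subgroup.zpowers y)) hf.blk.ne_zero
    have h2 := hD.card_le le_rfl hb le_top hD'.pgp (hP.Br_ne_zero_of le_rfl top_le_No_top hb
      hD'.pgp (hD'.le.trans (hf.le_No_stab le_rfl)) hD'.ne)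
    rw [hE.card_of_isDef hM hB' hD', card_of_isDef_eB hM hB hD] at h2
    exact lt_of_le_of_lt ((Nat.pow_le_pow_iff_right hp.one_lt).1 h2) h1
  · intro hr h B hB hne
    by_contra hcon
    have hb := blk_eB hB
    obtain ⟨D, hD⟩ := exists_isDef' p ⊤ hb.ne_zero
    have hc := card_of_isDef_eB hM hB hD
    have : Nontrivial D := Finite.one_lt_card_iff_nontrivial.1
      (hc ▸ Nat.one_lt_pow (by omega) hp.one_lt)
    have := hD.pgp.center_nontrivial
    obtain ⟨z, hz⟩ := exists_prime_orderOf_dvd_card' (G := Subgroup.center D) p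
      ((hD.pgp.to_subgroup _).card_eq_or_dvd.resolve_left Finite.one_lt_card.ne')
    have hy : orderOf ((z : D) : G) = p := by rw [Subgroup.orderOf_coe, Subgroup.orderOf_coe, hz]
    have hQD : Subgroup.zpowers ((z : D) : G) ≤ D := Subgroup.zpowers_le.2 (z : D).2
    have hDQ : D ≤ Ce (Subgroup.zpowers ((z : D) : G)) := le_Ce_comm.1 (Subgroup.zpowers_le.2
      (mem_Ce.2 fun q hq => congrArg Subtype.val (Subgroup.mem_center_iff.1 z.2 ⟨q, hq⟩)))
    obtain ⟨e, hm⟩ := hD.exists_maxPair le_rfl top_le_No_top hb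
    obtain ⟨f, hs⟩ := exists_sub hm.bpair.pair hQD
    have hf := hs.pair_iff.2 hm.bpair.pair
    have hE : Emb (Subgroup.centralizer ({((z : D) : G)} : Set G)).subtype
        (⊤ ⊓ Ce (Subgroup.zpowers ((z : D) : G))) :=
      (emb_subtype _).of_eq (by rw [top_inf_eq, Ce_zpowers])
    obtain ⟨B', hB', rfl⟩ := hE.exists_idm_eq hf.blk
    have h1 := h _ hy B' hB' fun e => hne ((eq_principal_iff hB).2
      ((hm.bpair.of_sub le_rfl hb.mem hb.idem hs).aug_eq' hb.inv
        ((eq_principal_iff_idm _ hB').1 e)))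
    have h2 := hE.card_of_isDef hM hB' (hm.isDef_of_le le_rfl top_le_No_top hb hs le_rfl
      (hf.le_No_stab le_rfl) (le_inf le_top hDQ))
    rw [hc] at h2
    have := Nat.pow_right_injective hp.two_le h2
    omega

end Cfsg.Agent.S4717
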