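import Cfsg.Statements.S4719
import Cfsg.Agent.H33.Landau
import Cfsg.Agent.H87.Dict6

set_option autoImplicit false
universe u
open Cfsg

namespace Cfsg.Agent.S4719

open H32 H87 Subgroup

theorem one_block {G : Type u} [Group G] [Finite G] {M : Ideal AlgInt} (hM : IsPModular 2 M)
    {r : ℕ} (h : ∀ B : Set (IrrCharacter G), IsPBlock M B → B ≠ principalBlock M G →
      blockDefect 2 B < r) {Q : Subgroup G} (hQ : IsPGroup 2 Q) (hr : 2 ^ r ≤ Nat.card Q)
    (c : Set (IrrCharacter (Ce Q))) (hc : IsPBlock M c) : c = principalBlock M (Ce Q) := by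
  have := hM.2.1
  have := res_charP hM
  have hf := pair_idm (p := 2) (Q := Q) ⟨hQ, hc⟩
  obtain ⟨b, ⟨hb, hbf⟩, -⟩ := hf.existsUnique_blk le_rfl le_top
  obtain ⟨B, hB, rfl⟩ := exists_eB_eq hb
  have hp : BPair 2 ⊤ ⊤ (eB M B) Q _ := ⟨hf, le_top, hbf⟩
  obtain ⟨D, hD⟩ := exists_isDef' 2 ⊤ hb.ne_zero
  have h1 := hr.trans ((hD.card_le le_rfl hb le_top hQ hp.Br_ne_zero).trans_eq
    (card_of_isDef_eB hM hB hD))
  rw [Nat.pow_le_pow_iff_right one_lt_two] at h1
  refine (eq_principal_iff_idm _ hc).2 (hp.aug_eq le_rfl top_le_No_top hb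
    ((eq_principal_iff hB).1 ?_))
  by_contra h2
  exact (h B hB h2).not_ge h1

theorem card_centralizer_le {G : Type u} [Group G] [Finite G] (F : Subgroup G) (t : Ce F) :
    Nat.card (centralizer ({t} : Set (Ce F))) ≤ Nat.card (Ce (F ⊔ zpowers (t : G))) := by
  rw [← card_map_of_injective (Ce F).subtype_injective, Ce_sup, Ce_zpowers]
  refine card_le_of_le (le_inf (map_subtype_le _) ?_)
  rintro _ ⟨x, hx, rfl⟩
  exact mem_centralizer_singleton_iff.2 (congrArg Subtype.val (mem_centralizer_singleton_iff.1 hx))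

theorem aux (a m : ℕ) : ∃ N : ℕ, ∀ (G : Type u) [Group G] [Finite G] (M : Ideal AlgInt) (r : ℕ),
    IsPModular 2 M → (Nat.card G).factorization 2 ≤ a →
    (∀ B : Set (IrrCharacter G), IsPBlock M B → B ≠ principalBlock M G → blockDefect 2 B < r) →
    ∀ E : Subgroup G, E ≤ Ce E → (∀ x ∈ E, x * x = 1) → Nat.card E = 2 ^ (r + 1) →
    ∀ F ≤ E, 2 ^ r ≤ Nat.card F * 2 ^ m → Nat.card (Ce F) ≤ N := by
  have hfac : ∀ (G : Type u) [Group G] [Finite G] (H : Subgroup G),
      (Nat.card H).factorization 2 ≤ (Nat.card G).factorization 2 := fun G _ _ H => by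
    have := H33.factorization_index_add_card (p := 2) H
    omega
  induction m with
  | zero =>
    obtain ⟨N, hN⟩ := H33.card_le_of_one_block.{u} 2 a
    exact ⟨N, fun G _ _ M r hM ha h E _ _ hE F hF hr => hN _ M hM ((hfac G _).trans ha)
      (one_block hM h ((IsPGroup.of_card hE).to_le hF) (by simpa using hr))⟩
  | succ m ih =>
    classical
    obtain ⟨N, hN⟩ := ih
    obtain ⟨N', hN'⟩ := H33.card_le_of_four.{u} N a
    refine ⟨max N N', fun G _ _ M r hM ha h E hE1 hE2 hE F hF hr => ?_⟩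
    by_cases hm : 2 ^ r ≤ Nat.card F * 2 ^ m
    · exact (hN G M r hM ha h E hE1 hE2 hE F hF hm).trans (le_max_left _ _)
    have := Fintype.ofFinite G
    have hEF : E ≤ Ce F := hE1.trans (Ce_anti hF)
    have h1 : 2 * Nat.card F < Nat.card E := by
      have := Nat.le_mul_of_pos_right (Nat.card F) (Nat.two_pow_pos m)
      rw [hE, pow_succ]
      omega
    have h2 : ∀ t : G, ∃ s ∈ E, s ∉ F ∧ t * s ∉ F := fun t => by
      by_contra! hc
      refine h1.not_ge ?_
      rw [Nat.card_eq_fintype_card, Fintype.card_subtype, Nat.card_eq_fintype_card,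
        Fintype.card_subtype, two_mul]
      refine (Finset.card_le_card (t := Finset.univ.filter (· ∈ F) ∪
        (Finset.univ.filter (· ∈ F)).image (t⁻¹ * ·)) fun s hs => ?_).trans
        ((Finset.card_union_le _ _).trans (Nat.add_le_add_left Finset.card_image_le _))
      by_cases hsF : s ∈ F
      · exact Finset.mem_union_left _ (Finset.mem_filter.2 ⟨Finset.mem_univ _, hsF⟩)
      · exact Finset.mem_union_right _ (Finset.mem_image.2 ⟨t * s, Finset.mem_filter.2
          ⟨Finset.mem_univ _, hc s (Finset.mem_filter.1 hs).2 hsF⟩, inv_mul_cancel_left _ _⟩)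
    obtain ⟨s, hs, hsF, -⟩ := h2 1
    obtain ⟨t, ht, htF, hst⟩ := h2 s
    have h3 : ∀ x : Ce F, (x : G) ∈ E → (x : G) ∉ F →
        Nat.card (centralizer ({x} : Set (Ce F))) ≤ N := fun x hx hxF => by
      refine (card_centralizer_le F x).trans (hN G M r hM ha h E hE1 hE2 hE _
        (sup_le hF (zpowers_le_of_mem hx)) (hr.trans ?_))
      obtain ⟨c, hc⟩ := card_dvd_of_le (le_sup_left : F ≤ F ⊔ zpowers (x : G))
      have h4 := card_lt_of_lt (Q := F) (R := F ⊔ zpowers (x : G)) (lt_of_le_of_ne le_sup_left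
        fun e => hxF ((le_sup_right.trans e.ge) (mem_zpowers _)))
      rw [hc, lt_mul_iff_one_lt_right Nat.card_pos] at h4
      rw [hc, pow_succ', ← mul_assoc]
      exact Nat.mul_le_mul_right _ (Nat.mul_le_mul_left _ h4)
    refine (hN' (Ce F) ⟨s, hEF hs⟩ ⟨t, hEF ht⟩ ((hfac G _).trans ha) ⟨Subtype.ext (hE2 s hs),
      Subtype.ext (hE2 t ht), Subtype.ext (mem_Ce.1 (hE1 ht) s hs), fun e => hsF ?_,
      fun e => htF ?_, fun e => hst ?_, h3 _ hs hsF, h3 _ ht htF,
      h3 _ (mul_mem hs ht) hst⟩).trans (le_max_right _ _)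
    · exact (show s = 1 from congrArg Subtype.val e) ▸ one_mem F
    · exact (show t = 1 from congrArg Subtype.val e) ▸ one_mem F
    · exact (show s * t = 1 from congrArg Subtype.val e) ▸ one_mem F

/-- For every natural number a there is a bound N with the following property. Let G be a finite group with Sylow 2-subgroups of order 2^a and r ≥ 0 such that G has no non-principal 2-block (relative to a maximal ideal of the algebraic integers containing 2) of defect ≥ r, and suppose a Sylow 2-subgroup of G contains an elementary abelian subgroup of order 2^(r+1). Then the order of G is at most N. -/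
theorem result (a : ℕ) : ∃ N : ℕ, ∀ (G : Type u) [Group G] [Finite G] (M : Ideal Cfsg.AlgInt) (r : ℕ) (P : Sylow 2 G), Cfsg.IsPModular 2 M → Nat.card P = 2 ^ a → (∀ B : Set (Cfsg.IrrCharacter G), Cfsg.IsPBlock M B → B ≠ Cfsg.principalBlock M G → Cfsg.blockDefect 2 B < r) → (∃ E : Subgroup G, E ≤ (P : Subgroup G) ∧ IsMulCommutative E ∧ (∀ x ∈ E, x * x = 1) ∧ Nat.card E = 2 ^ (r + 1)) → Nat.card G ≤ N := by
  obtain ⟨N, hN⟩ := aux.{u} a a
  refine ⟨N, fun G _ _ M r P hM hP h ⟨E, hE, hc, hE2, hEc⟩ => ?_⟩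
  have h1 := card_le_of_le hE
  rw [hEc, hP] at h1
  have := hN G M r hM (Nat.pow_right_injective le_rfl (P.card_eq_multiplicity.symm.trans hP)).le h E
    (fun x hx => mem_Ce.2 fun y hy =>
      congrArg Subtype.val (hc.is_comm.comm (⟨y, hy⟩ : E) ⟨x, hx⟩)) hE2 hEc ⊥ bot_le (by
      rw [card_bot, one_mul]
      exact (Nat.pow_le_pow_right two_pos (Nat.le_succ r)).trans h1)
  rwa [Ce_bot, card_top] at this

end Cfsg.Agent.S4719
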