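import Cfsg.Statements.S4720
import Cfsg.Agent.H34.Col

set_option autoImplicit false
open Cfsg

namespace Cfsg.Agent.S4720

open H34 H86

/-- Let p be a prime, M a maximal ideal of the algebraic integers containing p, P a p-subgroup of the finite group G, N a subgroup with P ≤ N ≤ N_G(P), and U a nonempty subset of P normalized by N such that an element of U and an element of P that are conjugate in G are already conjugate in N, and such that λ(C_G(y)) = w·#C_N(y) for every y ∈ U with one rational number w, where λ(X) denotes the sum of the squares of the degrees of the irreducible characters in the principal p-block of X. For a complex function θ on P and χ in the principal block of G put a_χ(θ) = #P⁻¹ Σ_{y ∈ P} χ(y) θ(y⁻¹). Then for generalized characters θ, η of P with θ vanishing outside U, Σ_χ a_χ(θ)·conj(a_χ(η)) = (w/#P²)·Σ_{y ∈ P} θ(y)·conj(Σ_{x ∈ N} η(x y x⁻¹)) (η extended by zero off P; the conjugates lie in P), the first sum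 over the principal p-block of G. -/
theorem result {G : Type*} [Group G] [Finite G] (p : ℕ) [Fact p.Prime] (M : Ideal Cfsg.AlgInt) (hM : Cfsg.IsPModular p M) (P : Subgroup G) (hP : IsPGroup p P) (N : Subgroup G) (hPN : P ≤ N) (hNN : N ≤ Subgroup.normalizer (P : Set G)) (U : Set G) (hUne : U.Nonempty) (hUP : U ⊆ (P : Set G)) (hUN : ∀ n ∈ N, ∀ u ∈ U, n * u * n⁻¹ ∈ U) (hfus : ∀ u ∈ U, ∀ g : G, g * u * g⁻¹ ∈ (P : Set G) → ∃ n ∈ N, n * u * n⁻¹ = g * u * g⁻¹) (w : ℚ) (hw : ∀ y ∈ U, ((∑ᶠ ψ ∈ Cfsg.principalBlock M ↥(Subgroup.centralizer ({y} : Set G)), Cfsg.charDegree (ψ : ↥(Subgroup.centralizer ({y} : Set G)) → ℂ) ^ 2) : ℚ) = w * Nat.card ↥(N ⊓ Subgroup.centralizer ({y} : Set G))) (θ η : ↥P → ℂ) (hθ : Cfsg.IsGeneralizedCharacter ↥P θ) (hη : Cfsg.IsGeneralizedCharacter ↥P η) (hθU : ∀ y : ↥P, (y : G) ∉ U → θ y = 0) : ∑ᶠ χ ∈ Cfsg.principalBlock M G, ((Nat.card ↥P : ℂ)⁻¹ * ∑ᶠ y : ↥P, (χ : G → ℂ) (y : G) * θ y⁻¹) * (starRingEnd ℂ) ((Nat.card ↥P :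 ℂ)⁻¹ * ∑ᶠ y : ↥P, (χ : G → ℂ) (y : G) * η y⁻¹) = ((w : ℂ) / ((Nat.card ↥P : ℂ) ^ 2)) * ∑ᶠ y : ↥P, θ y * (starRingEnd ℂ) (∑ᶠ x : ↥N, Cfsg.extendByZero P η ((x : G) * (y : G) * (x : G)⁻¹)) := by
  classical
  have := hM.2.1
  have := Fintype.ofFinite G
  have h1 := sum_aC_mul_conj_aC (principalBlock M G) θ η
  simp only [aC] at h1
  rw [finsum_mem_fs]
  simp only [finsum_eq_sum_of_fintype]
  rw [h1, Finset.mul_sum, Finset.mul_sum]
  refine Finset.sum_congr rfl fun y _ => ?_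
  by_cases hy : (y : G) ∈ U
  swap
  · rw [hθU y hy]; simp
  have h2 : (lamC M (y : G) : ℂ) = w * Nat.card ↥(N ⊓ Cg (y : G)) := by
    have h3 := hw y hy
    rw [finsum_mem_fs] at h3
    have h4 : ((lamC M (y : G) : ℚ) : ℂ) = ((w * Nat.card ↥(N ⊓ Cg (y : G)) : ℚ) : ℂ) := by
      rw [← h3, lamC]; push_cast; rfl
    exact_mod_cast h4
  have h5 : ∑ z : G, (if ∃ n ∈ N, n * y * n⁻¹ = z then extendByZero P η z else 0) =
      ∑ z : P, if IsConj (y : G) z then η z else 0 := by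
    rw [← Finset.sum_subset (Finset.subset_univ (Finset.univ.map ⟨_, P.subtype_injective⟩)),
      Finset.sum_map]
    · refine Finset.sum_congr rfl fun z _ => ?_
      simp only [Function.Embedding.coeFn_mk, Subgroup.coe_subtype, H6.extendByZero_coe]
      refine if_congr ⟨fun ⟨n, _, h⟩ => isConj_iff.mpr ⟨n, h⟩, fun h => ?_⟩ rfl rfl
      obtain ⟨g, hg⟩ := isConj_iff.mp h
      rw [← hg]
      exact hfus y hy g (hg ▸ z.2)
    · intro z _ hz
      rw [H6.extendByZero_of_notMem, ite_self]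
      exact fun h => hz (Finset.mem_map.mpr ⟨⟨z, h⟩, Finset.mem_univ _, rfl⟩)
  rw [sum_conj_eq N y (extendByZero P η), h5, map_mul, map_natCast, map_sum]
  simp only [colS_principal hM (pElt_of_le hP y.2) (pElt_of_le hP (Subtype.prop _)), h2,
    Finset.mul_sum]
  refine Finset.sum_congr rfl fun z _ => ?_
  split_ifs
  · ring
  · simp

end Cfsg.Agent.S4720
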