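import Cfsg.Statements.S4721
import Cfsg.Agent.H34.AbCol3

set_option autoImplicit false
open Cfsg

namespace Cfsg.Agent.S4721

open H34 H86

/-- Let p be a prime, M a maximal ideal of the algebraic integers containing p, and G a finite group with a nontrivial abelian Sylow p-subgroup P, N = N_G(P), C = C_G(P), such that N/C is cyclic of order 3, #P > 4, and C_G(y) ∩ N = C for every non-identity y ∈ P. Then the principal p-block is the disjoint union of a set X of exactly 3 characters containing the principal character and a set Y of (#P − 1)/3 characters, with signs a_χ = ±1 (χ ∈ X, a = 1 at the principal character) and δ = ±1 such that every χ ∈ X takes the value a_χ at every element whose p-part is a non-identity element of P, and there is a map ζ from the non-principal linear characters of P onto Y, constant on N-conjugacy classes, with ζ_ψ(z) = δ·Σ ψ'(y) over the N-orbit of ψ, for z with p-part y ≠ 1 in P. If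 moreover G has an involution lying in no proper normal subgroup of G, then exactly two of the three numbers −δ and a_χ (χ ∈ X non-principal) equal −1, and the product of the degrees of the two non-principal members of X and of any member of Y is a perfect square. -/
theorem result {G : Type*} [Group G] [Finite G] (p : ℕ) [Fact p.Prime] (M : Ideal Cfsg.AlgInt) (hM : Cfsg.IsPModular p M) (P : Sylow p G) (hab : IsMulCommutative P) (hP1 : Nat.card P ≠ 1) (hCN : (Subgroup.centralizer ((P : Subgroup G) : Set G)).relIndex (Subgroup.normalizer ((P : Subgroup G) : Set G)) = 3) (hcyc : ∃ g : G, g ∈ Subgroup.normalizer ((P : Subgroup G) : Set G) ∧ Subgroup.centralizer ((P : Subgroup G) : Set G) ⊔ Subgroup.zpowers g = Subgroup.normalizer ((P : Subgroup G) : Set G)) (hm2 : 3 + 1 < Nat.card P) (hfrob : ∀ y : G, y ∈ (P : Subgroup G) → y ≠ 1 → Subgroup.centralizer ({y} : Set G) ⊓ Subgroup.normalizer ((P : Subgroup G) : Set G) =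 Subgroup.centralizer ((P : Subgroup G) : Set G)) : ∃ (X Y : Set (Cfsg.IrrCharacter G)), Cfsg.principalBlock M G = X ∪ Y ∧ Disjoint X Y ∧ Nat.card X = 3 ∧ Nat.card Y = (Nat.card P - 1) / 3 ∧ (∃ χ₁ ∈ X, (χ₁ : G → ℂ) = fun _ => 1) ∧ ∃ (a : Cfsg.IrrCharacter G → ℤ) (δ : ℤ) (ζ : (↥(P : Subgroup G) →* ℂˣ) → Cfsg.IrrCharacter G), (δ = 1 ∨ δ = -1) ∧ (∀ χ ∈ X, (a χ = 1 ∨ a χ = -1) ∧ ∀ z y : G, Cfsg.IsPPart p z y → y ∈ (P : Subgroup G) → y ≠ 1 → (χ : G → ℂ) z = (a χ : ℂ)) ∧ (∀ ψ : ↥(P : Subgroup G) →* ℂˣ, ψ ≠ 1 → ζ ψ ∈ Y) ∧ (∀ η ∈ Y, ∃ ψ : ↥(P : Subgroup G) →* ℂˣ, ψ ≠ 1 ∧ ζ ψ = η) ∧ (∀ ψ ψ' : ↥(P : Subgroup G) →* ℂˣ, ψ ≠ 1 → (∃ n : G, n ∈ Subgroup.normalizer ((P : Subgroup G) : Set G) ∧ ∀ w w' : ↥(P : Subgroup G), (w' : G) = n * w * n⁻¹ → ψ' w' = ψ w) → ζ ψ' = ζ ψ) ∧ (∀ ψ : ↥(P : Subgroup G) →* ℂˣ, ψ ≠ 1 → ∀ (z : G) (y : ↥(P : Subgroup G)), Cfsg.IsPPart p z (y : G) → (y : G) ≠ 1 → (ζ ψ : G → ℂ) z = (δ : ℂ) * ∑ᶠ ψ' ∈ {ψ' :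 ↥(P : Subgroup G) →* ℂˣ | ∃ n : G, n ∈ Subgroup.normalizer ((P : Subgroup G) : Set G) ∧ ∀ w w' : ↥(P : Subgroup G), (w' : G) = n * w * n⁻¹ → ψ' w' = ψ w}, ((ψ' y : ℂˣ) : ℂ)) ∧ ((∃ t : G, orderOf t = 2 ∧ ∀ K : Subgroup G, K.Normal → t ∈ K → K = ⊤) → Nat.card {χ : Cfsg.IrrCharacter G // χ ∈ X ∧ (χ : G → ℂ) ≠ (fun _ => 1) ∧ a χ = -1} + (if δ = 1 then 1 else 0) = 2 ∧ ∀ η ∈ Y, IsSquare (Cfsg.charDegree (η : G → ℂ) * ∏ᶠ χ ∈ {χ : Cfsg.IrrCharacter G | χ ∈ X ∧ (χ : G → ℂ) ≠ fun _ => 1}, Cfsg.charDegree (χ : G → ℂ))) := by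
  classical
  have := hM.2.1
  have := Fintype.ofFinite (P : Subgroup G)
  have := Fintype.ofFinite ((P : Subgroup G) →* ℂˣ)
  have h : AbF P := ⟨fun a b => hab.is_comm.comm a b, hfrob⟩
  have h3 : Nat.card (autz (P : Subgroup G)) = 3 := (card_autz _).trans hCN
  obtain ⟨δ, ζ, a, B⟩ := h.exists_abData_zero hM h3 hm2
  obtain ⟨ha, χ₂, χ₃, h12, h13, h23, hX⟩ := B.exists_three h hM h3
  have B0 := B.toAbBlk
  have hY := B0.card_excY h
  rw [h3] at hY
  have hY1 : (Nat.card P - 1) / 3 = (excY ζ).card := by omega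
  refine ⟨excX M ζ, excY ζ, ?_, Finset.disjoint_coe.mpr (disjoint_excX ζ), ?_,
    by rw [hY1]; simp, ⟨_, B.one_mem h, rfl⟩, a, δ, ζ, B.sign, ?_,
    fun ψ hψ => mem_excY.mpr ⟨ψ, hψ, rfl⟩, fun η hη => mem_excY.mp hη, ?_, ?_, ?_⟩
  · rw [← Finset.coe_union, excX, Finset.sdiff_union_of_subset B0.excY_subset]
    ext χ
    simp [mem_fs]
  · rw [hX, Nat.card_coe_set_eq, Set.ncard_coe_finset,
      Finset.card_insert_of_notMem (by simp [h12, h13]), Finset.card_pair h23]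
  · intro χ hχ
    refine ⟨ha χ hχ, fun z y hz hy hy1 => ?_⟩
    rw [h.apply_eq hM (mem_excX.mp hχ).1 hz hy hy1]
    exact B.valX h hχ (y := ⟨y, hy⟩) fun e => hy1 (congrArg Subtype.val e)
  · intro ψ ψ' hψ hr
    have h1 := cR_autz_iff.mpr hr
    exact ((B.eq_iff ψ hψ ψ' fun e => hψ (h1.eq_one_iff.mp e)).mpr h1).symm
  · intro ψ hψ z y hz hy1
    rw [h.apply_eq hM (B.mem ψ hψ) hz y.2 hy1, B.valY h hψ fun e => hy1 (congrArg Subtype.val e),
      finsum_mem_eq_sum_of_inter_support_eq _ (t := Finset.univ.filter fun φ =>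
        cR (autz (P : Subgroup G)) ψ φ), Finset.sum_filter, Int.cast_zero, zero_add]
    · rfl
    · congr 1
      ext φ
      simp [cR_autz_iff]
  rintro ⟨t, ht2, htn⟩
  have ht : t * t = 1 := by rw [← sq, ← ht2, pow_orderOf_eq_one]
  obtain ⟨ψ, hψ1, hψ⟩ := h.exists_trivial_on_class h3 hm2 ht
  obtain ⟨s, hs⟩ := exists_int_of_mul_self (irr_isCharacter χ₂) ht
  obtain ⟨u, hu⟩ := exists_int_of_mul_self (irr_isCharacter χ₃) ht
  obtain ⟨v, hv⟩ := exists_int_of_mul_self (irr_isCharacter (ζ ψ)) ht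
  obtain ⟨e1, e2, e3⟩ := B.col_eqs_rat h hM h3 ht hψ1 hψ h12 h13 h23 hX hs hu hv
  have hne : ∀ (χ : IrrCharacter G) (n : ℤ), χ ≠ H33.oneIrr G → (χ : G → ℂ) t = n →
      (n : ℚ) ≠ charDegree (χ : G → ℂ) := fun χ n hχ hn e => by
    refine charKer_ne_top hχ (htn _ inferInstance ?_)
    rw [H5.mem_charKer, hn, ← irr_degree_cast]
    exact_mod_cast e
  have hdeg : ∀ χ : IrrCharacter G, (1 : ℚ) ≤ charDegree (χ : G → ℂ) := fun χ =>
    Nat.one_le_cast.mpr (Nat.pos_of_ne_zero (irr_degree_ne_zero χ))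
  have h2X : χ₂ ∈ excX M ζ := by simp [hX]
  have h3X : χ₃ ∈ excX M ζ := by simp [hX]
  have n2 := hne χ₂ s h12.symm hs
  have n3 := hne χ₃ u h13.symm hu
  have n4 := hne _ v (B0.ne_oneIrr h B.big hψ1) hv
  have hδ : -δ = 1 ∨ -δ = -1 := by rcases B.sign with e | e <;> simp [e]
  obtain ⟨hsum, hsq⟩ := (col_signs (ha _ h2X) (ha _ h3X) hδ (hdeg _) (hdeg _) (hdeg _)
    e1 e2 e3).resolve_left fun e => n2 e.1
  have hone : ∀ χ : IrrCharacter G, ((χ : G → ℂ) ≠ fun _ => 1) ↔ χ ≠ H33.oneIrr G := fun χ =>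
    not_congr ⟨fun e => Subtype.ext e, fun e => by rw [e]; rfl⟩
  refine ⟨?_, fun η hη => ?_⟩
  · have : Nat.card {χ : IrrCharacter G // χ ∈ (excX M ζ : Set (IrrCharacter G)) ∧
        ((χ : G → ℂ) ≠ fun _ => 1) ∧ a χ = -1} =
        (({χ₂, χ₃} : Finset (IrrCharacter G)).filter fun χ => a χ = -1).card := by
      rw [← Nat.card_eq_finsetCard]
      refine Nat.card_congr (Equiv.subtypeEquivRight fun χ => ?_)
      simp only [hX, hone, Finset.mem_coe, Finset.mem_insert, Finset.mem_singleton,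
        Finset.mem_filter]
      constructor
      · rintro ⟨e | e, e', e''⟩
        · exact (e' e).elim
        · exact ⟨e, e''⟩
      · rintro ⟨rfl | rfl, e⟩
        · exact ⟨by simp, h12.symm, e⟩
        · exact ⟨by simp, h13.symm, e⟩
    rw [this, Finset.card_filter, Finset.sum_pair h23]
    rcases ha _ h2X with e2 | e2 <;> rcases ha _ h3X with e3 | e3 <;>
      rcases B.sign with e4 | e4 <;> simp [e2, e3, e4] at hsum ⊢
  · obtain ⟨φ, hφ, rfl⟩ := mem_excY.mp hη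
    have : {χ : IrrCharacter G | χ ∈ (excX M ζ : Set (IrrCharacter G)) ∧
        (χ : G → ℂ) ≠ fun _ => 1} = ({χ₂, χ₃} : Finset (IrrCharacter G)) := by
      ext χ
      simp only [hX, hone, Finset.mem_coe, Finset.mem_insert, Finset.mem_singleton,
        Set.mem_ofPred_eq]
      constructor
      · rintro ⟨e | e, e'⟩
        · exact (e' e).elim
        · exact e
      · rintro (rfl | rfl)
        · exact ⟨by simp, h12.symm⟩
        · exact ⟨by simp, h13.symm⟩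
    rw [this, finprod_mem_coe_finset, Finset.prod_pair h23, ← Rat.isSquare_natCast_iff]
    have e : charDegree (ζ φ : G → ℂ) = charDegree (ζ ψ : G → ℂ) := by
      apply Nat.cast_injective (R := ℂ)
      rw [irr_degree_cast, irr_degree_cast]
      exact B0.eq_on_regular hM hφ hψ1 (by simpa using hM.1.ne_one)
    rw [e, mul_comm]
    push_cast
    exact hsq n2 n3 n4

end Cfsg.Agent.S4721
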