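import Cfsg.Statements.S4722
import Cfsg.Agent.H34.ColSign

set_option autoImplicit false
open Cfsg

namespace Cfsg.Agent.S4722

open H34 H86

/-- Let M be a maximal ideal of the algebraic integers containing 2, P a 2-subgroup of the finite group G, U a subset of P, and t an involution of G such that no element of U is inverted by any conjugate of t. Let θ be a generalized character of P vanishing outside U, and for χ in the principal 2-block B₀ put a_χ = #P⁻¹ Σ_{y ∈ P} χ(y) θ(y⁻¹). Then Σ_{χ ∈ B₀} a_χ χ(t)^2/χ(1) = 0, Σ_{χ ∈ B₀} a_χ χ(1) = 0 and Σ_{χ ∈ B₀} a_χ χ(t) = 0. If moreover #P⁻¹ Σ_{y ∈ P} θ(y) ≠ 0, then either at least two of the a_χ have positive real part and at least two have negative real part, or G has a proper normal subgroup containing O_2'(G) and t. -/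
theorem result {G : Type*} [Group G] [Finite G] (M : Ideal Cfsg.AlgInt) (hM : Cfsg.IsPModular 2 M) (P : Subgroup G) (hP : IsPGroup 2 P) (U : Set G) (hUP : U ⊆ (P : Set G)) (t : G) (ht : orderOf t = 2) (hinv : ∀ u ∈ U, ∀ g : G, (g * t * g⁻¹) * u * (g * t * g⁻¹)⁻¹ ≠ u⁻¹) (θ : ↥P → ℂ) (hθ : Cfsg.IsGeneralizedCharacter ↥P θ) (hθU : ∀ y : ↥P, (y : G) ∉ U → θ y = 0) : (∑ᶠ χ ∈ Cfsg.principalBlock M G, ((Nat.card ↥P : ℂ)⁻¹ * ∑ᶠ y : ↥P, (χ : G → ℂ) (y : G) * θ y⁻¹) * (χ : G → ℂ) t ^ 2 / (χ : G → ℂ) 1 = 0) ∧ (∑ᶠ χ ∈ Cfsg.principalBlock M G, ((Nat.card ↥P : ℂ)⁻¹ * ∑ᶠ y : ↥P, (χ : G → ℂ) (y : G) * θ y⁻¹) * (χ : G → ℂ) 1 = 0) ∧ (∑ᶠ χ ∈ Cfsg.principalBlock M G, ((Nat.card ↥P : ℂ)⁻¹ * ∑ᶠ y : ↥P, (χ : G → ℂ) (y : G) * θ y⁻¹) * (χ : G → ℂ) t = 0) ∧ ((Nat.card ↥P : ℂ)⁻¹ * ∑ᶠ y : ↥P, θ y ≠ 0 → (2 ≤ Nat.card {χ : Cfsg.IrrCharacter G // χ ∈ Cfsg.principalBlock M G ∧ 0 < (((Nat.card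 ↥P : ℂ)⁻¹ * ∑ᶠ y : ↥P, (χ : G → ℂ) (y : G) * θ y⁻¹)).re} ∧ 2 ≤ Nat.card {χ : Cfsg.IrrCharacter G // χ ∈ Cfsg.principalBlock M G ∧ (((Nat.card ↥P : ℂ)⁻¹ * ∑ᶠ y : ↥P, (χ : G → ℂ) (y : G) * θ y⁻¹)).re < 0}) ∨ ∃ K : Subgroup G, K.Normal ∧ K ≠ ⊤ ∧ Cfsg.pPrimeCore 2 G ≤ K ∧ t ∈ K) := by
  classical
  have := hM.2.1
  have := Fintype.ofFinite G
  have ht2 : t * t = 1 := by rw [← sq, ← ht, pow_orderOf_eq_one]
  have hB := isPBlock_principalBlock (M := M) (G := G)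
  have hinv' : ∀ u : P, θ u ≠ 0 → ∀ a y : G, IsConj t a → IsConj (u : G) y → a * y * a⁻¹ ≠ y⁻¹ := by
    intro u hu a y ha hy H
    obtain ⟨c, rfl⟩ := isConj_iff.mp ha
    obtain ⟨e, rfl⟩ := isConj_iff.mp hy
    refine hinv u (by_contra fun h => hu (hθU u h)) (e⁻¹ * c) ?_
    calc _ = e⁻¹ * (c * t * c⁻¹ * (e * u * e⁻¹) * (c * t * c⁻¹)⁻¹) * e := by group
      _ = _ := by rw [H]; group
  have h3 := sum_aC_mul_sq_div hM hB hP θ fun u hu a b y ha hb hy hc =>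
    hinv' u hu a y ha hc (inverts_pPart hM.1 (mul_self_of_isConj ht2 ha)
      (mul_self_of_isConj ht2 hb) hy)
  have h1 := sum_aC_mul_apply hM hB hP θ (H33.isPPart_self hM.1 (x := (1 : G)) ⟨0, by simp⟩)
    fun y hy => by_contra fun h => hinv' y h t 1 (IsConj.refl t) hy.symm (by simp)
  have h2 := sum_aC_mul_apply hM hB hP θ (H33.isPPart_self hM.1 (x := t) ⟨1, by simpa⟩)
    fun y hy => by_contra fun h => hinv' y h t t (IsConj.refl t) hy.symm (by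
      rw [mul_inv_cancel_right, inv_eq_of_mul_eq_one_right ht2])
  obtain ⟨a, ha⟩ := exists_int_aC hθ
  have e : ∀ χ : IrrCharacter G,
      (Nat.card P : ℂ)⁻¹ * ∑ᶠ y : P, (χ : G → ℂ) (y : G) * θ y⁻¹ = a χ := fun χ => by
    rw [finsum_eq_sum_of_fintype, ← ha]; rfl
  simp only [ha] at h1 h2 h3
  simp only [e, finsum_mem_fs, mul_div_assoc, Complex.intCast_re, Int.cast_pos, Int.cast_lt_zero]
  refine ⟨h3, h1, h2, fun h0 => ?_⟩
  have ha0 : a (H33.oneIrr G) ≠ 0 := fun H => h0 (by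
    have := ha (H33.oneIrr G)
    rw [H, aC, ← Equiv.sum_comp (Equiv.inv P)] at this
    rw [finsum_eq_sum_of_fintype]
    simpa [H33.oneIrr_apply] using this)
  have hm := mem_fs.mpr (H33.oneIrr_mem_principalBlock (M := M) (G := G))
  refine (two_two_or_ker _ a ht2 h1 h2 h3 hm ha0).imp (fun h => ?_) fun h => ?_
  · rwa [card_filter_fs, card_filter_fs] at h
  · obtain ⟨χ, hχ, hne, hχa⟩ := exists_ne_one_of_sum_eq_zero _ a h1 hm ha0
    have := H33.pPrimeCore_normal' (p := 2) (G := G)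
    exact ⟨_, inferInstance, charKer_ne_top hne, fun n hn =>
      H33.apply_eq_degree_of_mem_principalBlock hM _ (H33.not_dvd_card_pPrimeCore hM.1)
        (mem_fs.mp hχ) hn, h χ hχ hχa⟩

end Cfsg.Agent.S4722
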