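import Cfsg.Statements.S4723
import Cfsg.Agent.H34.Fong
import Cfsg.Agent.H34.Root
import Cfsg.Agent.H33.Dade

set_option autoImplicit false
open Cfsg

namespace Cfsg.Agent.S4723

/-- Let p be a prime, M a maximal ideal of the algebraic integers containing p, H a normal subgroup of the finite group G and b a p-block of H. Let T be the stabilizer of b in G. Then b contains a character θ of height zero whose own stabilizer in G (the elements g with θ(g h g⁻¹) = θ(h) for all h ∈ H) has index prime to p in T, i.e. contains a Sylow p-subgroup of T. -/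
theorem result {G : Type*} [Group G] [Finite G] (p : ℕ) [Fact p.Prime] (M : Ideal Cfsg.AlgInt) (hM : Cfsg.IsPModular p M) (H : Subgroup G) [H.Normal] (b : Set (Cfsg.IrrCharacter ↥H)) (hb : Cfsg.IsPBlock M b) (T : Subgroup G) (hT : (∀ g : G, g ∈ T ↔ ∀ θ ∈ b, ∀ θ' : Cfsg.IrrCharacter ↥H, (∀ h h' : ↥H, (h' : G) = g * h * g⁻¹ → (θ' : ↥H → ℂ) h' = (θ : ↥H → ℂ) h) → θ' ∈ b)) : ∃ θ ∈ b, Cfsg.blockHeight p b (θ : ↥H → ℂ) = 0 ∧ ∃ S : Subgroup G, S ≤ T ∧ (∀ g : G, g ∈ S ↔ (g ∈ T ∧ ∀ h h' : ↥H, (h' : G) = g * h * g⁻¹ → (θ : ↥H → ℂ) h' = (θ : ↥H → ℂ) h)) ∧ ¬ p ∣ S.relIndex T := by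
  classical
  have := hM.2.1
  have hp := hM.1
  have hH : H.Normal := inferInstance
  have := Fintype.ofFinite T
  have := Fintype.ofFinite H
  have := Fintype.ofFinite (H.subgroupOf T)
  have h1 : H ≤ T := fun g hg => (hT g).2 fun θ hθ θ' h => by
    have : θ' = θ := Subtype.ext (funext fun n => by
      rw [h ((⟨g, hg⟩ : H)⁻¹ * n * (⟨g, hg⟩ : H)⁻¹⁻¹) n (by simp [mul_assoc])]
      exact H5.isClassFunction_of_isIrr θ.2 _ _)
    rwa [this]
  have h2 : T ≤ H87.No H := fun g _ =>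
    (show g ∈ Subgroup.normalizer (H : Set G) from Subgroup.normalizer_eq_top H ▸ Subgroup.mem_top g)
  let E := H34.NEmb.incl h1 h2
  have hinv : E.Inv b := fun t θ hθ => (hT _).1 (t⁻¹).2 θ hθ _ fun h h' e => by
    rw [H34.NEmb.act_apply]
    refine congrArg _ (Subtype.ext ?_)
    rw [H34.incl_cj_coe, e]
    simp [mul_assoc]
  obtain ⟨B, hB, hc, hd⟩ := H34.exists_covers_defect_eq hM hb hinv
  obtain ⟨χ, hχ, hχ0⟩ := H33.exists_minVal_eq (p := p) (H33.block_nonempty hB)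
  obtain ⟨θ, ho⟩ := H34.exists_under E.ι χ
  have hθ : θ ∈ b := hinv.orb_eq ▸ hc.mem_orb hM hB (H34.IsPBlock.closed hb) hχ ho
  have ho' : classInner (fun n : H.subgroupOf T => (χ : T → ℂ) n)
      (H33.irrOf h1 θ : H.subgroupOf T → ℂ) ≠ 0 := by
    unfold H34.Over at ho
    rwa [← H5.classInner_comp_equiv (Subgroup.subgroupOfEquivOfLe h1)] at ho
  have h3 := H6.clifford_degree (H.subgroupOf T) χ.2 (H33.irrOf h1 θ).2 ho'
  obtain ⟨e, he⟩ := H5.exists_nat_classInner (H5.isCharacter_restrict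
    (H5.isCharacter_of_isIrr χ.2) (H.subgroupOf T)) (H5.isCharacter_of_isIrr (H33.irrOf h1 θ).2)
  set I := H6.inertia (H.subgroupOf T) (H33.irrOf h1 θ : H.subgroupOf T → ℂ) with hI
  have h4 : charDegree (χ : T → ℂ) = e * I.index * charDegree (θ : H → ℂ) := by
    apply Nat.cast_injective (R := ℂ)
    rw [H33.irr_charDegree_cast, h3, he, Nat.cast_mul, Nat.cast_mul, H33.irr_charDegree_cast]
    rfl
  have he0 : e ≠ 0 := by rintro rfl; exact ho' (by simpa using he)
  have h5 := congrArg (fun n => n.factorization p) h4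
  simp only [Nat.factorization_mul (mul_ne_zero he0 Subgroup.index_ne_zero_of_finite)
    (H33.charDegree_ne_zero θ), Nat.factorization_mul he0 Subgroup.index_ne_zero_of_finite,
    Finsupp.add_apply, hχ0] at h5
  have e1 := H33.blockDefect_add_minVal (p := p) ⟨χ, hχ⟩
  have e2 := H33.blockDefect_add_minVal (p := p) ⟨θ, hθ⟩
  have e3 := H33.factorization_index_add_card (p := p) (H.subgroupOf T)
  have e4 := H33.minVal_le (p := p) hθ
  rw [H34.range_incl] at hd
  rw [Nat.card_congr (Subgroup.subgroupOfEquivOfLe h1).toEquiv] at e3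
  refine ⟨θ, hθ, (H33.blockHeight_eq_zero_iff hθ).2 (by omega), I.map T.subtype,
    Subgroup.map_subtype_le _, fun g => ⟨?_, fun ⟨hg, h⟩ => ⟨⟨g, hg⟩, ?_, rfl⟩⟩, ?_⟩
  · rintro ⟨t, ht, rfl⟩
    refine ⟨t.2, fun h h' e => ?_⟩
    have := (H6.mem_inertia_iff _).1 ht ⟨⟨h, h1 h.2⟩, h.2⟩
    rw [H33.irrOf_apply, H33.irrOf_apply] at this
    rw [← this]
    exact congrArg _ (Subtype.ext e)
  · exact (H6.mem_inertia_iff _).2 fun n => h _ _ rfl
  · rw [H33.relIndex_map_subtype]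
    intro h
    have := hp.factorization_pos_of_dvd Subgroup.index_ne_zero_of_finite h
    omega

end Cfsg.Agent.S4723
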