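import Cfsg.Statements.S4725
import Cfsg.Agent.S4430
import Cfsg.Agent.H33.Val
import Cfsg.Agent.H86.Reg

set_option autoImplicit false
open Cfsg

namespace Cfsg.Agent.S4725

/-- Let p be a prime, M a maximal ideal of the algebraic integers containing p, H a subgroup of the finite group G, and b a p-block of H inducing the p-block B of G, with b and B of the same defect. Then for every height-zero ζ ∈ b there is a height-zero χ ∈ B whose multiplicity in the character induced from ζ is not divisible by p. -/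
theorem result {G : Type*} [Group G] [Fintype G] (p : ℕ) [Fact p.Prime] (M : Ideal Cfsg.AlgInt) (hM : Cfsg.IsPModular p M) (H : Subgroup G) (b : Set (Cfsg.IrrCharacter ↥H)) (B : Set (Cfsg.IrrCharacter G)) (hind : Cfsg.IsInducedBlock M H b B) (hdef : Cfsg.blockDefect p b = Cfsg.blockDefect p B) (ζ : Cfsg.IrrCharacter ↥H) (hζ : ζ ∈ b) (hζ0 : Cfsg.blockHeight p b (ζ : ↥H → ℂ) = 0) : ∃ χ ∈ B, Cfsg.blockHeight p B (χ : G → ℂ) = 0 ∧ ∃ a : ℕ, Cfsg.classInner (Cfsg.indFun H (ζ : ↥H → ℂ)) (χ : G → ℂ) = (a : ℂ) ∧ ¬ p ∣ a := by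
  classical
  have := hM.2.1
  have := Fintype.ofFinite H
  have hp := hM.1
  obtain ⟨n, h1, hn, h2⟩ := (S4430.result p M hM H b B hind ζ hζ).1
  have hm : ∀ χ : IrrCharacter G, ∃ a : ℕ, classInner (indFun H (ζ : H → ℂ)) (χ : G → ℂ) = a :=
    fun χ => H5.exists_nat_classInner (H6.isCharacter_indFun H (H5.isCharacter_of_isIrr ζ.2))
      (H5.isCharacter_of_isIrr χ.2)
  choose a ha using hm
  have h3 : charDegree (indFun H (ζ : H → ℂ)) = H.index * charDegree (ζ : H → ℂ) := by
    apply Nat.cast_injective (R := ℂ)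
    rw [H33.charDegree_cast (H6.isCharacter_indFun H (H5.isCharacter_of_isIrr ζ.2)),
      H6.indFun_apply_one, Nat.cast_mul, H33.irr_charDegree_cast]
  have hBn := H33.block_nonempty hind.2.1
  have h4 : n.factorization p = H33.minVal p B := by
    rw [h2, h3, Nat.factorization_mul Subgroup.index_ne_zero_of_finite (H33.charDegree_ne_zero ζ),
      Finsupp.add_apply, (H33.blockHeight_eq_zero_iff hζ).1 hζ0]
    have e1 := H33.factorization_index_add_card (p := p) H
    have e2 := H33.blockDefect_add_minVal (p := p) hBn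
    have e3 := H33.blockDefect_add_minVal (p := p) (B := b) ⟨ζ, hζ⟩
    omega
  by_contra hne
  push Not at hne
  have h5 : n = ∑ χ ∈ H86.fs B, a χ * charDegree (χ : G → ℂ) := by
    apply Nat.cast_injective (R := ℂ)
    rw [← h1, H86.blockPart_apply]
    simp only [ha, Nat.cast_sum, Nat.cast_mul, H33.irr_charDegree_cast]
  have h6 : p ^ (H33.minVal p B + 1) ∣ n := by
    rw [h5]
    refine Finset.dvd_sum fun χ hχ => ?_
    have hχ := H86.mem_fs.1 hχ
    have h7 := H33.minVal_le (p := p) hχ
    by_cases h : blockHeight p B (χ : G → ℂ) = 0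
    · rw [pow_succ']
      exact mul_dvd_mul (hne χ hχ h _ (ha χ))
        ((hp.pow_dvd_iff_le_factorization (H33.charDegree_ne_zero χ)).2 h7)
    · rw [H33.blockHeight_eq_zero_iff hχ] at h
      exact Dvd.dvd.mul_left ((hp.pow_dvd_iff_le_factorization (H33.charDegree_ne_zero χ)).2
        (by omega)) _
  have := (hp.pow_dvd_iff_le_factorization hn).1 h6
  omega

end Cfsg.Agent.S4725
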