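import Cfsg.Statements.S4727
import Cfsg.Agent.H33.Triv
import Cfsg.Agent.H33.Second2

set_option autoImplicit false
open Cfsg

namespace Cfsg.Agent.S4727

/-- Let p be a prime, π a set of primes containing p, M a maximal ideal of the algebraic integers containing p, and B a p-block of the finite group G with defect group D; let B₁ be the block of N_G(D) with defect group D that induces B (the Brauer correspondent of B). Suppose every element of O_π'(N_G(D)), the largest normal subgroup of N_G(D) whose order has no prime divisor in π, lies in the kernel of every member of B₁. If y is a p-element whose centralizer C has a normal Hall π'-subgroup (every element of C whose order has no prime divisor in π lies in O_π'(C)), then χ(y x) = χ(y) for every χ ∈ B and every x ∈ C whose order has no prime divisor in π. -/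
theorem result {G : Type*} [Group G] [Finite G] (p : ℕ) [Fact p.Prime] (M : Ideal Cfsg.AlgInt) (hM : Cfsg.IsPModular p M) (π : Set ℕ) (hpπ : p ∈ π) (B : Set (Cfsg.IrrCharacter G)) (hB : Cfsg.IsPBlock M B) (D : Subgroup G) (hBD : Cfsg.IsDefectGroup p M B D) (B₁ : Set (Cfsg.IrrCharacter ↥(Subgroup.normalizer (D : Set G)))) (hB₁ : Cfsg.IsInducedBlock M (Subgroup.normalizer (D : Set G)) B₁ B) (hB₁D : Cfsg.IsDefectGroup p M B₁ (D.subgroupOf (Subgroup.normalizer (D : Set G)))) (hker : ∀ n : ↥(Subgroup.normalizer (D : Set G)), n ∈ Cfsg.piCore {q | q ∉ π} ↥(Subgroup.normalizer (D : Set G)) → n ∈ Cfsg.blockKer B₁) (y : G) (hy : ∃ k : ℕ, orderOf y = p ^ k) (hC : ∀ x : ↥(Subgroup.centralizer ({y} : Set G)), (∀ q : ℕ, q.Prime → q ∣ orderOf x → q ∉ π) → x ∈ Cfsg.piCore {q | q ∉ π} ↥(Subgroup.centralizer ({y} : Set G))) : ∀ χ ∈ B, ∀ x : G, x ∈ Subgroup.centralizer ({y} : Set G) → (∀ q : ℕ, q.Prime → q ∣ orderOf x → q ∉ π) → (χ : G → ℂ) (y * x) = (χ : G → ℂ) y := by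
  classical
  intro χ hχ x hx hxπ
  have := hM.2.1
  have := H32.res_charP hM
  have := Fintype.ofFinite (Subgroup.centralizer ({y} : Set G))
  have hρ : p ∉ {q | q ∉ π} := fun h => h hpπ
  have h1 := (H33.triv_piCoreOf_iff hM hρ hB₁.1).2 hker
  rw [H33.idm_eq_Br hM hBD hB₁] at h1
  have hyC : y ∈ Subgroup.centralizer ({y} : Set G) :=
    Subgroup.mem_centralizer_singleton_iff.2 rfl
  have key : ∀ b, IsInducedBlock M (Subgroup.centralizer ({y} : Set G)) b B →
      (⟨x, hx⟩ : Subgroup.centralizer ({y} : Set G)) ∈ blockKer b := fun b hb => by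
    have hblk := (H87.emb_subtype _).blk_idm hb.1
    have hQ : Subgroup.zpowers y ≤ Subgroup.centralizer ({y} : Set G) :=
      (Subgroup.zpowers_le_of_mem hyC)
    have h2 := H33.triv_bpair hρ (H87.blk_eB hB) (H87.isDef_of_isDefectGroup hM hB hBD) h1
      (H33.bpair_of_induced (Q := Subgroup.zpowers y) hM hb (H87.Ce_zpowers y).le
        ⟨⟨?_, hQ.trans Subgroup.le_normalizer, by rwa [H87.Ce_zpowers, inf_idem]⟩, hQ, by
          rw [H87.Br_of_supp (by rw [H87.Ce_zpowers]; exact hblk.supp), hblk.idem.eq]⟩)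
    · rw [H87.Ce_zpowers] at h2
      exact (H33.triv_piCoreOf_iff hM hρ hb.1).1 h2 _ (hC _ (by
        rwa [← Subgroup.orderOf_coe]))
    · obtain ⟨k, hk⟩ := hy
      exact IsPGroup.of_card ((Nat.card_zpowers y).trans hk)
  let A : Set (IrrCharacter (Subgroup.centralizer ({y} : Set G))) :=
    {θ | ¬ IsInducedBlock M _ (blockOf M θ.1) B}
  have hcf : IsClassFunction (Subgroup.centralizer ({y} : Set G)) fun c => (χ : G → ℂ) c :=
    fun a b => H5.isClassFunction_of_isIrr χ.2 a b
  have h3 : ∀ g : Subgroup.centralizer ({y} : Set G), IsPPart p (g : G) y →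
      (χ : G → ℂ) g = blockPart Aᶜ (fun c => (χ : G → ℂ) c) g := fun g hg => by
    rw [← H33.blockPart_add_compl hcf A g, H33.blockPart_eq_zero_of_forall_block (M := M) A
      (fun θ hθ η hη => by
        rwa [Set.mem_setOf_eq, ← H32.blockOf_eq_of_sameBlock (H32.mem_blockOf.1 hη)]) _ g
      fun θ hθ => H33.blockPart_restrict_centralizer_eq_zero hM hB hχ (H32.isPBlock_blockOf θ)
        hθ g hg, zero_add]
  have h4 := h3 (⟨y, hyC⟩ * ⟨x, hx⟩) (H33.isPPart_mul
    (Subgroup.mem_centralizer_singleton_iff.1 hx).symm hy fun h => hxπ p hM.1 h hpπ)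
  refine h4.trans (Eq.trans ?_ (h3 ⟨y, hyC⟩ (H33.isPPart_self hM.1 hy)).symm)
  rw [H33.blockPart_eq_finset_sum, H33.blockPart_eq_finset_sum]
  refine Finset.sum_congr rfl fun θ hθ => ?_
  rw [H5.apply_mul_of_apply_eq_degree' (H5.isCharacter_of_isIrr θ.2)
    (key _ (not_not.1 (Finset.mem_filter.1 hθ).2) θ (H32.mem_blockOf_self θ))]

end Cfsg.Agent.S4727
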