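import Cfsg.Statements.S4728
import Cfsg.Agent.H33.Triv

set_option autoImplicit false
open Cfsg

namespace Cfsg.Agent.S4728

/-- Let p be a prime, π a set of primes containing p, M a maximal ideal of the algebraic integers containing p, B a p-block of the finite group G with defect group D, and B₁ the block of N_G(D) with defect group D inducing B. Let D₀ be a p-subgroup, H₀ = D₀·C_G(D₀), and b a block of H₀ inducing B. Write O_π'(X) for the largest normal subgroup of X whose order has no prime divisor in π. Suppose that O_π'(C_G(D₀)) is a normal Hall π'-subgroup of C_G(D₀) (it contains every element of C_G(D₀) whose order has no prime divisor in π) and that every element of it lies in the kernel of every member of b. Then every element of O_π'(N_G(D)) lies in the kernel of every member of B₁. -/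
theorem result {G : Type*} [Group G] [Finite G] (p : ℕ) [Fact p.Prime] (M : Ideal Cfsg.AlgInt) (hM : Cfsg.IsPModular p M) (π : Set ℕ) (hpπ : p ∈ π) (B : Set (Cfsg.IrrCharacter G)) (hB : Cfsg.IsPBlock M B) (D : Subgroup G) (hBD : Cfsg.IsDefectGroup p M B D) (B₁ : Set (Cfsg.IrrCharacter ↥(Subgroup.normalizer (D : Set G)))) (hB₁ : Cfsg.IsInducedBlock M (Subgroup.normalizer (D : Set G)) B₁ B) (hB₁D : Cfsg.IsDefectGroup p M B₁ (D.subgroupOf (Subgroup.normalizer (D : Set G)))) (D₀ : Subgroup G) (hD₀ : IsPGroup p D₀) (H₀ : Subgroup G) (hH₀ : H₀ = D₀ ⊔ Subgroup.centralizer (D₀ : Set G)) (b : Set (Cfsg.IrrCharacter ↥H₀)) (hb : Cfsg.IsInducedBlock M H₀ b B) (hcompl : ∀ x : ↥(Subgroup.centralizer (D₀ : Set G)), (∀ q : ℕ, q.Prime → q ∣ orderOf x → q ∉ π) → x ∈ Cfsg.piCore {q | q ∉ π} ↥(Subgroup.centralizer (D₀ : Set G))) (hkerb : ∀ x : ↥(Subgroup.centralizer (D₀ : Set G)), x ∈ Cfsg.piCore {q | q ∉ π} ↥(Subgroup.centralizer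 (D₀ : Set G)) → ∀ θ ∈ b, ∀ h : ↥H₀, (h : G) = (x : G) → (θ : ↥H₀ → ℂ) h = (θ : ↥H₀ → ℂ) 1) : ∀ n : ↥(Subgroup.normalizer (D : Set G)), n ∈ Cfsg.piCore {q | q ∉ π} ↥(Subgroup.normalizer (D : Set G)) → n ∈ Cfsg.blockKer B₁ := by
  have := hM.2.1
  have := H32.res_charP hM
  have hρ : p ∉ {q | q ∉ π} := fun h => h hpπ
  have hblk := (H87.emb_subtype H₀).blk_idm hb.1
  have h1 : D₀ ≤ H₀ := hH₀ ▸ le_sup_left
  have h2 : H87.Ce D₀ ≤ H₀ := hH₀ ▸ le_sup_right
  have h3 : H₀ ≤ H87.No D₀ := hH₀ ▸ sup_le Subgroup.le_normalizer (H87.Ce_le_No _)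
  have h4 := H87.Br_eq_self_of_idem le_rfl hD₀ h1 h3 hblk.mem hblk.idem
  obtain ⟨f, hf⟩ := H87.exists_bpair le_rfl Subgroup.le_normalizer hblk.mem hblk.idem hD₀ h1
    (h4.symm ▸ hblk.ne_zero)
  have h5 := (H33.triv_idm_iff hM (H87.emb_subtype H₀) ((H49.piCoreOf_le _ _).trans h2)
    (H49.norm_piCoreOf _ (h3.trans (H87.No_le_No_Ce _))) (H33.not_dvd_piCoreOf hρ _) hb.1).2
    fun x hx θ hθ => hkerb ⟨x, H49.piCoreOf_le _ _ hx⟩ (H33.mem_piCoreOf_iff.1 hx) θ hθ x rfl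
  obtain ⟨P, e, he, hs⟩ := (H33.bpair_of_induced hM hb h2 hf).exists_maxPair
  have hD := H87.isDef_of_isDefectGroup hM hB hBD
  obtain ⟨e', he'⟩ := hD.exists_maxPair le_rfl H87.top_le_No_top (H87.blk_eB hB)
  obtain ⟨t, -, rfl, rfl⟩ := he.conj le_rfl H87.top_le_No_top (H87.blk_eB hB) he'
  have h6 := (H33.triv_up hs (h5.of_mul (h4 ▸ hf.br))).cj t
  have hb₁ := (H87.emb_subtype _).blk_idm hB₁.1
  refine (H33.triv_piCoreOf_iff hM hρ hB₁.1).1 (H33.triv_of_Br hb₁ (H49.piCoreOf_le _ _)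
    (H49.le_norm_piCoreOf _ _) (H33.not_dvd_piCoreOf hρ _) hD.pgp
    (Subgroup.le_normalizer.trans (H49.le_norm_piCoreOf _ _)) (hb₁.inv.mono Subgroup.le_normalizer)
    (by rw [H33.idm_eq_Br hM hBD hB₁, H87.Br_Br_of_le le_rfl, he'.bpair.br])
    he'.bpair.pair.blk.ne_zero (h6.mono fun x hx => H87.mem_cjS.2 ?_))
  have h7 : t⁻¹ * x * t ∈ H87.Ce P := H87.mem_cjS.1 (H87.cjS_Ce t P ▸ hx.2)
  refine ⟨(H33.mem_piCoreOf_iff (x := ⟨_, H87.Ce_anti hs.le h7⟩)).2 (hcompl _ fun q hq hd => ?_),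
    h7⟩
  refine H49.piCoreOf_pi _ _ q hq (Dvd.dvd.trans ?_ (Subgroup.orderOf_dvd_natCard _ hx.1))
  rw [← Subgroup.orderOf_coe] at hd
  rw [← orderOf_injective (MulAut.conj t⁻¹).toMonoidHom (MulAut.conj t⁻¹).injective x]
  simpa using hd

end Cfsg.Agent.S4728
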