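import Cfsg.Statements.S4730
import Cfsg.Agent.H88.Eig
import Cfsg.Agent.H32.DefectCard

set_option autoImplicit false
open Cfsg

namespace Cfsg.Agent.S4730

open Cfsg.Agent.H5 Cfsg.Agent.H6 Cfsg.Agent.H88 Cfsg.Agent.H32

/-- Let p be a prime, M a maximal ideal of the algebraic integers containing p, and G a finite group with trivial centre, Sylow p-subgroup P of order p^a and centre Z(P) of order p^b. If χ is a faithful irreducible character of G whose degree is a power of p, then the p-block of χ has defect at most a − b; in particular, if P is abelian then χ lies in a block of defect zero. -/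
theorem result {G : Type*} [Group G] [Finite G] (p : ℕ) [Fact p.Prime] (M : Ideal Cfsg.AlgInt) (hM : Cfsg.IsPModular p M) (hZ : Subgroup.center G = ⊥) (P : Sylow p G) (a b : ℕ) (ha : Nat.card P = p ^ a) (hb : Nat.card (Subgroup.center ↥(P : Subgroup G)) = p ^ b) (χ : Cfsg.IrrCharacter G) (hfaith : ∀ g : G, (χ : G → ℂ) g = (χ : G → ℂ) 1 → g = 1) (n : ℕ) (hdeg : Cfsg.charDegree (χ : G → ℂ) = p ^ n) : Cfsg.blockDefect p (Cfsg.blockOf M (χ : G → ℂ)) ≤ a - b ∧ (IsMulCommutative ↥(P : Subgroup G) → Cfsg.blockDefect p (Cfsg.blockOf M (χ : G → ℂ)) = 0) := by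
  classical
  have hp : p.Prime := Fact.out
  have := hM.2.1
  have hχ' := isCharacter_of_isIrr χ.2
  suffices h : Cfsg.blockDefect p (Cfsg.blockOf M (χ : G → ℂ)) ≤ a - b by
    refine ⟨h, fun hc => ?_⟩
    rw [show Subgroup.center (P : Subgroup G) = ⊤ from eq_top_iff.mpr fun x _ =>
      Subgroup.mem_center_iff.mpr fun y => hc.is_comm.comm y x, Subgroup.card_top, ha] at hb
    have := Nat.pow_right_injective hp.two_le hb
    omega
  obtain ⟨ψ, hψ, hmin⟩ := exists_minVal p ⟨χ, mem_blockOf_self (M := M) χ⟩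
  rw [blockDefect_eq, ← hmin, show (Nat.card G).factorization p = a from
    Nat.pow_right_injective hp.two_le (P.card_eq_multiplicity.symm.trans ha)]
  refine Nat.sub_le_sub_left ?_ a
  let Z := Subgroup.center (P : Subgroup G)
  have := Fintype.ofFinite Z
  let f : Z →* G := (P : Subgroup G).subtype.comp Z.subtype
  have h0 := degree_ne_zero ψ.2
  have h1 : ∀ z : Z, z ≠ 1 → (ψ : G → ℂ) (f z) / (ψ : G → ℂ) 1 ∈ locMax M := fun z hz => by
    have h3 : ¬ p ∣ (Subgroup.centralizer ({f z} : Set G)).index := fun hd =>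
      P.not_dvd_index (hd.trans (Subgroup.index_dvd_of_le fun u hu =>
        Subgroup.mem_centralizer_singleton_iff.mpr
          (congrArg Subtype.val (Subgroup.mem_center_iff.mp z.2 ⟨u, hu⟩))))
    have h4 : (χ : G → ℂ) (f z) = 0 := by
      refine (eq_zero_or_norm_eq_of_coprime χ.2 (f z) (irr_charDegree_cast χ).symm
        (hdeg ▸ ((Nat.Prime.coprime_iff_not_dvd hp).mpr h3).pow_left n)).resolve_right fun e => ?_
      refine hz (Subtype.ext (Subtype.ext (Subgroup.mem_bot.mp (hZ ▸
        Subgroup.mem_center_iff.mpr fun g => ?_))))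
      have := hfaith _ (apply_commutator_of_norm_eq hχ' e g)
      rw [mul_inv_eq_one, mul_inv_eq_iff_eq_mul] at this
      exact this.symm
    have h2 : _ ∈ locMax M := hψ (f z)
    have h5 := mul_mem_locMax_left (inv_natCast_mem_locRing hM h3) ((locMax M).neg_mem h2)
    have h6 : ((Subgroup.centralizer ({f z} : Set G)).index : ℂ) ≠ 0 :=
      Nat.cast_ne_zero.mpr Subgroup.index_ne_zero_of_finite
    convert h5 using 1
    simp only [centralChar, h4]
    field_simp
    ring
  obtain ⟨m, hm⟩ := exists_nat_classInner (isCharacter_comp (isCharacter_of_isIrr ψ.2) f)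
    isCharacter_one
  rw [classInner_one_right, inv_mul_eq_iff_eq_mul₀ natCard_ne_zero, hb] at hm
  have h2 : ((p ^ b * m : ℕ) : ℂ) / charDegree (ψ : G → ℂ) ∉ locMax M := by
    refine not_mem_locMax_of_sub_one_mem ?_
    rw [Nat.cast_mul, ← hm, irr_charDegree_cast, ← Finset.add_sum_erase _ _ (Finset.mem_univ 1),
      map_one, add_div, div_self h0, add_sub_cancel_left, Finset.sum_div]
    exact sum_mem_locMax _ _ fun z hz => h1 z (Finset.ne_of_mem_erase hz)
  have h3 : m ≠ 0 := fun e => h2 (by simp [e])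
  have h4 := not_lt.mp (mt (H88.natCast_div_mem_locMax hM (charDegree_ne_zero ψ)) h2)
  rw [Nat.factorization_mul (pow_ne_zero _ hp.ne_zero) h3, hp.factorization_pow] at h4
  simp only [Finsupp.coe_add, Pi.add_apply, Finsupp.single_eq_same] at h4
  omega

end Cfsg.Agent.S4730
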