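import Cfsg.Statements.S4731
import Cfsg.Agent.H33.Princ
import Cfsg.Agent.H86.Reg
import Cfsg.Agent.H34.Basic
import Cfsg.Agent.H32.DefectCard

set_option autoImplicit false
open Cfsg

namespace Cfsg.Agent.S4731

theorem isIntegral_of_forall {q b : ℕ} (hq : q.Prime) {w : ℂ} (h1 : IsIntegral ℤ ((q : ℂ) ^ b * w))
    (h2 : ∀ M : Ideal AlgInt, IsPModular q M → MemLocalRing M w) : IsIntegral ℤ w := by
  let I : Ideal AlgInt :=
    { carrier := {a | IsIntegral ℤ ((a : ℂ) * w)}
      zero_mem' := by simpa using isIntegral_zero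
      add_mem' := fun {a c} ha hc => by simpa [add_mul] using IsIntegral.add ha hc
      smul_mem' := fun c a ha => by simpa [mul_assoc] using IsIntegral.mul c.2 ha }
  by_contra hw
  have hI : I ≠ ⊤ := fun h => hw (by
    have : (1 : AlgInt) ∈ I := h ▸ Submodule.mem_top
    have h3 : IsIntegral ℤ (((1 : AlgInt) : ℂ) * w) := this
    simpa using h3)
  obtain ⟨M, hM, hIM⟩ := Ideal.exists_le_maximal I hI
  have hqM : (q : AlgInt) ∈ M := hM.isPrime.mem_of_pow_mem b (hIM (by
    change IsIntegral ℤ ((((q : AlgInt) ^ b : AlgInt) : ℂ) * w)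
    simpa using h1))
  obtain ⟨a, c, hc, rfl⟩ := h2 M ⟨hq, hM, hqM⟩
  refine hc (hIM ?_)
  change IsIntegral ℤ ((c : ℂ) * _)
  rw [mul_div_cancel₀ _ (H32.coe_ne_zero_of_not_mem hc)]
  exact a.2

/-- Let p ≠ q be primes, M_p and M_q maximal ideals of the algebraic integers containing p and q respectively, and G a finite group with no element of order pq; let q^b be the q-part of the order of G. For a p-block B_p (relative to M_p), a q-block B_q (relative to M_q) and a p-singular element y, the sum of χ(1)χ(y) over the irreducible characters χ lying in both B_p and B_q is q^b times an algebraic integer. -/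
theorem result {G : Type*} [Group G] [Finite G] (p q : ℕ) [Fact p.Prime] [Fact q.Prime] (hpq : p ≠ q) (Mp Mq : Ideal Cfsg.AlgInt) (hMp : Cfsg.IsPModular p Mp) (hMq : Cfsg.IsPModular q Mq) (hno : ∀ g : G, orderOf g ≠ p * q) (b : ℕ) (hb : (Nat.card G).factorization q = b) (Bp : Set (Cfsg.IrrCharacter G)) (hBp : Cfsg.IsPBlock Mp Bp) (Bq : Set (Cfsg.IrrCharacter G)) (hBq : Cfsg.IsPBlock Mq Bq) (y : G) (hy : p ∣ orderOf y) : ∃ ω : Cfsg.AlgInt, ∑ᶠ χ ∈ Bp ∩ Bq, (Cfsg.charDegree (χ : G → ℂ) : ℂ) * (χ : G → ℂ) y = (q : ℂ) ^ b * (ω : ℂ) := by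
  classical
  have := hMp.2.1
  have := hMq.2.1
  have := Fintype.ofFinite G
  have hp := hMp.1
  have hq := hMq.1
  have hq0 : (q : ℂ) ^ b ≠ 0 := pow_ne_zero _ (Nat.cast_ne_zero.2 hq.ne_zero)
  set T := ∑ᶠ χ ∈ Bp ∩ Bq, (charDegree (χ : G → ℂ) : ℂ) * (χ : G → ℂ) y with hT
  have hint := fun (χ : IrrCharacter G) => H5.isIntegral_apply (H5.isCharacter_of_isIrr χ.2)
  let F : G → ℂ := fun g => ∑ χ ∈ H86.fs Bp, (χ : G → ℂ) y * (χ : G → ℂ) g
  have hT' : T = ∑ g, blockCoeff Bq g * F g := by
    simp only [F, Finset.mul_sum]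
    rw [Finset.sum_comm, hT, H86.finsum_mem_fs, show H86.fs (Bp ∩ Bq) = (H86.fs Bp).filter (· ∈ Bq)
      by ext χ; simp [H86.mem_fs], Finset.sum_filter]
    refine Finset.sum_congr rfl fun χ _ => ?_
    have := H33.sum_blockCoeff_mul_irr Bq χ 1
    simp only [mul_one] at this
    simp only [mul_left_comm (blockCoeff Bq _), ← Finset.mul_sum, this, H33.irr_charDegree_cast]
    split_ifs <;> simp [mul_comm]
  have hw : IsIntegral ℤ (T / (q : ℂ) ^ b) := by
    refine isIntegral_of_forall (b := b) hq ?_ fun M hM => ?_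
    · rw [mul_div_cancel₀ _ hq0, hT, H86.finsum_mem_fs]
      exact IsIntegral.sum _ fun χ _ => (isIntegral_natCast _).mul (hint χ y)
    have := hM.2.1
    have hB := H32.isPBlock_of_isPModular hMq hM hBq
    rw [← H32.mem_locRing]
    have := H34.om_mem_of (H32.locRing M) (χ := fun _ => 1)
      (a := fun g => blockCoeff Bq g * F g / (q : ℂ) ^ b) (fun _ _ => rfl) (fun g h => by
        simp only [F, H33.blockCoeff_conj Bq g h, H5.isClassFunction_of_isIrr (Subtype.prop _) g h])
      (fun g => ?_)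
    · rw [hT', Finset.sum_div]
      simpa [H34.om] using this
    by_cases hg : p ∣ orderOf g
    · have hC : ¬ q ∣ Nat.card (Subgroup.centralizer ({g} : Set G)) := fun h => by
        obtain ⟨u, hu⟩ := exists_prime_orderOf_dvd_card' q h
        have h1 : orderOf (g ^ (orderOf g / p)) = p := orderOf_pow_orderOf_div (orderOf_pos g).ne' hg
        have h2 : Commute (g ^ (orderOf g / p)) u :=
          (Commute.symm (Subgroup.mem_centralizer_singleton_iff.1 u.2)).pow_left _
        rw [← Subgroup.orderOf_coe] at hu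
        refine hno (g ^ (orderOf g / p) * u) ?_
        rw [h2.orderOf_mul_eq_mul_orderOf_of_coprime (by
          rw [h1, hu]; exact (Nat.coprime_primes hp hq).2 hpq), h1, hu]
      have h1 := H33.factorization_index_add_card (p := q) (Subgroup.centralizer ({g} : Set G))
      rw [Nat.factorization_eq_zero_of_not_dvd hC, hb] at h1
      have h2 := H33.natCast_div_mem_locRing hM (a := (Subgroup.centralizer ({g} : Set G)).index)
        (b := q ^ b) Subgroup.index_ne_zero_of_finite (pow_pos hq.pos b).ne'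
        (by rw [hq.factorization_pow]; simp [← h1])
      have h3 := mul_mem (mul_mem (H33.blockCoeff_mem_locRing hM hB g)
        (H32.mem_locRing_of_isIntegral (M := M) (z := F g)
          (IsIntegral.sum _ fun χ _ => (hint χ y).mul (hint χ g)))) h2
      convert h3 using 1
      simp only [centralChar, Nat.cast_pow]
      ring
    · obtain ⟨z, hz⟩ := H33.exists_isPPart hp y
      have h1 := H33.block_orthogonality hMp hBp hz
        (H33.isPPart_one_of_regular (y := g⁻¹) (by rwa [orderOf_inv])) (fun h =>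
          (H33.IsPPart.eq_one_iff hp hz).1 (isConj_one_left.1 h) hy)
      rw [H86.finsum_mem_fs, inv_inv] at h1
      simp only [F, h1, mul_zero, zero_div, zero_mul]
      exact zero_mem _
  exact ⟨⟨_, hw⟩, (mul_div_cancel₀ _ hq0).symm⟩

end Cfsg.Agent.S4731
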