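import Cfsg.Statements.S4732
import Cfsg.Agent.H34.JBF4

set_option autoImplicit false
universe u v
open Cfsg

namespace Cfsg.Agent.S4732

/-- Let p be a prime. There is a function f of two natural-number arguments such that every finite group G admitting a faithful representation of degree n over a field of characteristic p, with Sylow p-subgroups of order p^m, has a normal abelian subgroup A with [G : A] < f(m, n). -/
theorem result (p : ℕ) [Fact p.Prime] : ∃ f : ℕ → ℕ → ℕ, ∀ (G : Type u) [Group G] [Finite G] (F : Type v) [Field F] [CharP F p] (n : ℕ) (ρ : Representation F G (Fin n → F)), Function.Injective ρ → ∀ m : ℕ, (Nat.card G).factorization p = m → ∃ A : Subgroup G, A.Normal ∧ IsMulCommutative A ∧ A.index < f m n := by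
  choose b _ hb using fun m n => H34.exists_jp.{u, v} p m n
  refine ⟨fun m n => (b m n).factorial + 1, fun G _ _ F _ _ n ρ hρ m hm => ?_⟩
  let K := AlgebraicClosure F
  let f : Module.End F (Fin n → F) →* Module.End K (Fin n → K) :=
    (Matrix.toLinAlgEquiv' (R := K)).toMonoidHom.comp ((algebraMap F K).mapMatrix.toMonoidHom.comp
      (LinearMap.toMatrixAlgEquiv' (R := F)).toMonoidHom)
  have hf : Function.Injective f := (Matrix.toLinAlgEquiv' (R := K)).injective.comp
    ((Matrix.map_injective (algebraMap F K).injective).comp (LinearMap.toMatrixAlgEquiv' (R := F)).injective)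
  obtain ⟨A, a1, a2⟩ := hb m n G K (Fin n → K) (f.comp ρ) (by simp)
    (hm ▸ Nat.pow_succ_factorization_not_dvd Nat.card_pos.ne' Fact.out)
  refine ⟨A.normalCore, inferInstance, ⟨⟨fun x y => Subtype.ext ((hf.comp hρ) ?_)⟩⟩, Nat.lt_succ_of_le ?_⟩
  · simpa using a2 _ (A.normalCore_le x.2) _ (A.normalCore_le y.2)
  · rw [Subgroup.normalCore_eq_ker, Subgroup.index_ker]
    exact ((Subgroup.card_le_card_group _).trans_eq Nat.card_perm).trans (Nat.factorial_le a1)

end Cfsg.Agent.S4732
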