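import Cfsg.Statements.S4735
import Cfsg.Agent.H33.Princ
import Cfsg.Agent.H86.Reg
import Cfsg.Agent.H34.Quot
import Cfsg.Agent.H33.Kernel
import Cfsg.Agent.H7.AutC

set_option autoImplicit false
open Cfsg

namespace Cfsg.Agent.S4735

/-- Let p be a prime, M a maximal ideal of the algebraic integers containing p, G a finite group, H = O_p'(G) and Ḡ = G/H. For x ∈ G write λ(G, x) for the sum of |χ(x)|^2 over the irreducible characters χ in the principal p-block of G. Then λ(G, x) is a positive integer, λ(G, x) = λ(Ḡ, x̄) where x̄ is the image of x, and λ(G, x) ≤ #C_Ḡ(x̄). Moreover λ(G, 1) = [G : H] if and only if the principal block is the only p-block of Ḡ. -/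
theorem result {G : Type*} [Group G] [Finite G] (p : ℕ) [Fact p.Prime] (M : Ideal Cfsg.AlgInt) (hM : Cfsg.IsPModular p M) (x : G) : (∃ n : ℕ, 0 < n ∧ ∑ᶠ χ ∈ Cfsg.principalBlock M G, Complex.normSq ((χ : G → ℂ) x) = n) ∧ ∑ᶠ χ ∈ Cfsg.principalBlock M G, Complex.normSq ((χ : G → ℂ) x) = ∑ᶠ ψ ∈ Cfsg.principalBlock M (G ⧸ Cfsg.pPrimeCore p G), Complex.normSq ((ψ : G ⧸ Cfsg.pPrimeCore p G → ℂ) (QuotientGroup.mk x)) ∧ ∑ᶠ χ ∈ Cfsg.principalBlock M G, Complex.normSq ((χ : G → ℂ) x) ≤ (Nat.card ↥(Subgroup.centralizer ({(QuotientGroup.mk x : G ⧸ Cfsg.pPrimeCore p G)} : Set (G ⧸ Cfsg.pPrimeCore p G))) : ℝ) ∧ ((∑ᶠ χ ∈ Cfsg.principalBlock M G, Cfsg.charDegree (χ : G → ℂ) ^ 2) = (Cfsg.pPrimeCore p G).index ↔ ∀ B : Set (Cfsg.IrrCharacter (G ⧸ Cfsg.pPrimeCore p G)), Cfsg.IsPBlock M B → B = Cfsg.principalBlock M (G ⧸ Cfsg.pPrimeCore p G)) := by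
  classical
  have := hM.2.1
  have := Fintype.ofFinite G
  set O := pPrimeCore p G
  have := Fintype.ofFinite (G ⧸ O)
  have hπ := QuotientGroup.mk'_surjective O
  have hO : ¬ p ∣ Nat.card O := H33.not_dvd_card_pPrimeCore hM.1
  have hsum : ∀ {A : Type} [AddCommMonoid A] (f : IrrCharacter G → A),
      ∑ χ ∈ H86.fs (principalBlock M G), f χ =
        ∑ ψ ∈ H86.fs (principalBlock M (G ⧸ O)), f (H34.infl hπ ψ) := fun f => by
    symm
    refine Finset.sum_bij (fun ψ _ => H34.infl hπ ψ) (fun ψ hψ => H86.mem_fs.2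
      (H34.sameBlock_infl hπ (χ := H33.oneIrr _) (H86.mem_fs.1 hψ)))
      (fun _ _ _ _ h => H34.infl_injective hπ h) (fun χ hχ => ?_) (fun _ _ => rfl)
    obtain ⟨ψ, rfl⟩ := H34.exists_infl_eq hπ (χ := χ) fun g hg =>
      H33.apply_eq_degree_of_mem_principalBlock hM O hO (H86.mem_fs.1 hχ)
        ((QuotientGroup.eq_one_iff g).1 hg)
    exact ⟨ψ, H86.mem_fs.2 (H34.sameBlock_of_infl hM hπ (by rwa [QuotientGroup.ker_mk'])
      (χ := H33.oneIrr _) (H86.mem_fs.1 hχ)), rfl⟩
  simp only [H86.finsum_mem_fs]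
  refine ⟨?_, hsum _, ?_, ?_⟩
  · obtain ⟨k, hk⟩ := H7.exists_int_of_forall_ringEquiv
      (z := ∑ χ ∈ H86.fs (principalBlock M G), (χ : G → ℂ) x * (χ : G → ℂ) x⁻¹)
      (IsIntegral.sum _ fun χ _ => (H5.isIntegral_apply (H5.isCharacter_of_isIrr χ.2) _).mul
        (H5.isIntegral_apply (H5.isCharacter_of_isIrr χ.2) _)) (fun τ => by
        rw [map_sum]
        refine Finset.sum_nbij' (fun χ => ⟨_, H7.isIrrCharacter_ringEquiv τ χ.2⟩)
          (fun χ => ⟨_, H7.isIrrCharacter_ringEquiv τ.symm χ.2⟩)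
          (fun χ hχ => H86.mem_fs.2 (H33.mem_principalBlock_of_ringHom hM τ.toRingHom
            (H86.mem_fs.1 hχ) fun _ => rfl))
          (fun χ hχ => H86.mem_fs.2 (H33.mem_principalBlock_of_ringHom hM τ.symm.toRingHom
            (H86.mem_fs.1 hχ) fun _ => rfl))
          (fun χ _ => Subtype.ext (funext fun g => τ.symm_apply_apply _))
          (fun χ _ => Subtype.ext (funext fun g => τ.apply_symm_apply _))
          (fun χ _ => map_mul _ _ _))
    have h1 : ∑ χ ∈ H86.fs (principalBlock M G), Complex.normSq ((χ : G → ℂ) x) = k := by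
      simp only [H5.isIrr_apply_inv (Subtype.prop _), Complex.mul_conj] at hk
      exact_mod_cast hk
    have h2 : (1 : ℝ) ≤ k := by
      rw [← h1]
      refine le_trans ?_ (Finset.single_le_sum (f := fun χ : IrrCharacter G =>
        Complex.normSq ((χ : G → ℂ) x)) (fun _ _ => Complex.normSq_nonneg _)
        (H86.mem_fs.2 H33.oneIrr_mem_principalBlock))
      simp [H33.oneIrr_apply]
    have h3 : (1 : ℤ) ≤ k := by exact_mod_cast h2
    refine ⟨k.toNat, by omega, ?_⟩
    rw [h1]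
    exact_mod_cast (Int.toNat_of_nonneg (by omega)).symm
  · rw [hsum, ← H5.sum_normSq_irr]
    simp only [Complex.normSq_eq_norm_sq]
    exact Finset.sum_le_sum_of_subset_of_nonneg (Finset.subset_univ _) fun _ _ _ => by positivity
  · rw [hsum]
    simp only [H34.charDegree_infl]
    have h1 : ∑ ψ : IrrCharacter (G ⧸ O), charDegree (ψ : G ⧸ O → ℂ) ^ 2 = O.index := by
      apply Nat.cast_injective (R := ℂ)
      simp only [Nat.cast_sum, Nat.cast_pow, H33.irr_charDegree_cast]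
      exact H5.sum_degree_sq
    rw [← h1]
    constructor
    · intro h B hB
      obtain ⟨ψ, hψ⟩ := H33.block_nonempty hB
      refine H33.block_eq_of_mem hB H33.isPBlock_principalBlock hψ ?_
      by_contra hn
      exact (Finset.sum_lt_sum_of_subset (Finset.subset_univ _) (Finset.mem_univ ψ)
        (mt H86.mem_fs.1 hn) (pow_pos (Nat.pos_of_ne_zero (H33.charDegree_ne_zero ψ)) 2)
        (fun _ _ _ => Nat.zero_le _)).ne h
    · intro h
      refine Finset.sum_congr (Finset.eq_univ_of_forall fun ψ => H86.mem_fs.2 ?_) fun _ _ => rfl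
      rw [← h _ (H33.isPBlock_blockOf ψ)]
      exact H33.mem_blockOf_self ψ

end Cfsg.Agent.S4735
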