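import Cfsg.Statements.S4736
import Cfsg.Agent.H34.PSolvB

set_option autoImplicit false
open Cfsg

namespace Cfsg.Agent.S4736

open H34

/-- Let p be a prime, M a maximal ideal of the algebraic integers containing p, and G a finite p-solvable group with Sylow p-subgroup P. Then P is abelian if and only if every irreducible character in the principal p-block of G has height zero. -/
theorem result {G : Type*} [Group G] [Finite G] (p : ℕ) [Fact p.Prime] (M : Ideal Cfsg.AlgInt) (hM : Cfsg.IsPModular p M) (hsolv : Cfsg.IsPSolvable p G) (P : Sylow p G) : IsMulCommutative P ↔ ∀ χ ∈ Cfsg.principalBlock M G, Cfsg.blockHeight p (Cfsg.principalBlock M G) (χ : G → ℂ) = 0 := by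
  have := hM.2.1
  have hπ := QuotientGroup.mk'_surjective (pPrimeCore p G)
  simp only [blockHeight_principalBlock, mem_principalBlock_iff_of_isPSolvable hM hsolv]
  constructor
  · intro hP χ hχ
    obtain ⟨φ, rfl⟩ := exists_infl_eq hπ fun g hg => hχ g ((QuotientGroup.eq_one_iff g).mp hg)
    rw [charDegree_infl]
    refine Nat.factorization_eq_zero_of_not_dvd (not_dvd_degree_of_isCharP
      (H22.IsPSolvable.isCharP_quotient hsolv) (P.mapSurjective hπ) ?_ φ)
    rintro _ ⟨a, ha, rfl⟩ _ ⟨b, hb, rfl⟩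
    rw [← map_mul, ← map_mul]
    exact congrArg _ (congrArg Subtype.val (hP.is_comm.comm ⟨a, ha⟩ ⟨b, hb⟩))
  · intro h
    refine ⟨⟨fun a b => ?_⟩⟩
    have h1 := commutator_mem_ker_of_not_dvd hπ hsolv (fun χ hχ hd => by
      have := h χ fun n hn => hχ n ((QuotientGroup.eq_one_iff n).mpr hn)
      exact (hM.1.dvd_iff_one_le_factorization (irr_degree_ne_zero χ)).mp hd |>.not_gt
        (by omega)) P.isPGroup' a.2 b.2
    have h2 : ((a * b)⁻¹ * (b * a) : (P : Subgroup G)).1 ∈ (P : Subgroup G) ⊓ pPrimeCore p G :=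
      ⟨Subtype.prop _, QuotientGroup.eq.mp h1⟩
    rw [H22.inf_eq_bot_of_pgroup_coprime P.isPGroup' H22.coprime_card_pPrimeCore] at h2
    exact inv_mul_eq_one.mp (Subtype.ext h2)

end Cfsg.Agent.S4736
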