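import Cfsg.Statements.S4955
import Cfsg.Agent.H89.KGV
import Cfsg.Agent.H5.ClassFn

set_option autoImplicit false
open Cfsg

namespace Cfsg.Agent.S4955

set_option linter.style.haveILetI false
open Cfsg.Agent.H5 Cfsg.Agent.H89 Subgroup


/-- Let X be a finite group with an abelian normal Sylow p-subgroup V (a normal p-subgroup of index prime to p in which any two elements commute), and let G be a complement to V in X. Then for every v in V, writing C for the centralizer of v in G, the number k(X) of conjugacy classes of X satisfies k(X) ≤ (order of C)·(order of V) − ((order of G) − k(G)); the statement is written with the subtracted term moved to the left. In particular, if some v in V is centralized by no nonidentity element of G, then k(X) is at most the order of V. -/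
theorem result {X : Type*} [Group X] [Finite X] (p : ℕ) [Fact p.Prime] (V : Subgroup X) [V.Normal] (hVp : IsPGroup p V) (hidx : ¬ p ∣ V.index) (hab : ∀ a ∈ V, ∀ b ∈ V, a * b = b * a) (G : Subgroup X) (hGV : Subgroup.IsComplement' V G) (v : X) (hv : v ∈ V) : Nat.card (ConjClasses X) + Nat.card G ≤ Nat.card ↥(G ⊓ Subgroup.centralizer ({v} : Set X)) * Nat.card V + Nat.card (ConjClasses G) := by
  classical
  have hp : p.Prime := Fact.out
  let Z := zpowers v
  letI : Fintype Z := Fintype.ofFinite _
  let s : Finset Z := Finset.univ.filter fun a : Z => orderOf a = Nat.card Z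
  let v' : Z := ⟨v, mem_zpowers v⟩
  have hv' : orderOf v' = Nat.card Z := by
    rw [Nat.card_zpowers, ← orderOf_coe]
  have hs : (0 : ℝ) < s.card := by
    exact_mod_cast Finset.card_pos.2 ⟨v', Finset.mem_filter.2 ⟨Finset.mem_univ _, hv'⟩⟩
  have hZV : Z ≤ V := zpowers_le_of_mem hv
  let a : IrrCharacter X → ℝ := fun χ => ∑ z ∈ s, ‖(χ : X → ℂ) z‖ ^ 2
  have h1 : ∀ χ, (s.card : ℝ) ≤ a χ := by
    intro χ
    obtain ⟨k, hk⟩ := hVp ⟨v, hv⟩
    refine card_gen_le_sum (isCharacter_restrict (isCharacter_of_isIrr χ.2) Z) hv'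
      (apply_ne_zero_of_pElem (isCharacter_of_isIrr χ.2) hp (fun h => hidx (h.trans ?_)) (k := k)
        (congrArg Subtype.val hk))
    exact H6.degree_dvd_index_of_abelian_normal V hab χ.2 (H88.irr_charDegree_cast χ).symm
  have h2 : ∑ χ, a χ ≤ s.card * (Nat.card ↥(G ⊓ centralizer ({v} : Set X)) * Nat.card V) := by
    rw [Finset.sum_comm, ← nsmul_eq_mul]
    refine Finset.sum_le_card_nsmul _ _ _ fun z hz => ?_
    rw [sum_norm_sq_col, mul_comm]
    obtain ⟨m, -, hm⟩ := exists_coprime_pow_of_orderOf (Finset.mem_filter.1 hz).2 hv'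
    have hm' : v = (z : X) ^ m := congrArg Subtype.val hm
    refine Nat.cast_le.2 (card_le_of_decomp _ V (G ⊓ centralizer ({v} : Set X)) fun y hy => ?_)
      |>.trans (le_of_eq (by push_cast; rfl))
    obtain ⟨⟨u, g⟩, hug, -⟩ := hGV.existsUnique y
    refine ⟨u, u.2, g, ⟨g.2, ?_⟩, hug.symm⟩
    have hy' : y * v = v * y := by
      rw [hm']
      exact (Commute.pow_right (mem_centralizer_singleton_iff.1 hy) m).eq
    refine mem_centralizer_singleton_iff.2 ?_
    have hu := hab u u.2 v hv
    simp only at hug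
    calc (g : X) * v = (u : X)⁻¹ * (y * v) := by rw [← hug]; group
      _ = (u : X)⁻¹ * ((v * u) * g) := by rw [hy', ← hug]; group
      _ = v * g := by rw [← hu]; group
  let π : X →* G := hGV.symm.QuotientMulEquiv.toMonoidHom.comp (QuotientGroup.mk' V)
  have hπ : Function.Surjective π :=
    hGV.symm.QuotientMulEquiv.surjective.comp (QuotientGroup.mk'_surjective V)
  have hπV : ∀ u ∈ V, π u = 1 := by
    intro u hu
    simp only [π, MonoidHom.comp_apply, QuotientGroup.mk'_apply]
    rw [(QuotientGroup.eq_one_iff u).2 hu, map_one]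
  let f : IrrCharacter G → IrrCharacter X := fun φ =>
    ⟨fun x => (φ : G → ℂ) (π x), isIrrCharacter_comp φ.2 π hπ⟩
  have hf : Function.Injective f := by
    intro φ ψ h
    apply Subtype.ext
    funext g
    obtain ⟨x, rfl⟩ := hπ g
    exact congrFun (congrArg Subtype.val h) x
  have h3 : ∀ φ, a (f φ) = s.card * (charDegree (φ : G → ℂ) : ℝ) ^ 2 := by
    intro φ
    rw [← nsmul_eq_mul, ← Finset.sum_const]
    refine Finset.sum_congr rfl fun z _ => ?_
    show ‖(φ : G → ℂ) (π z)‖ ^ 2 = _
    rw [hπV _ (hZV z.2), H88.norm_degree (isCharacter_of_isIrr φ.2)]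
  have h4 : ∑ φ, (a (f φ) - s.card) ≤ ∑ χ, (a χ - s.card) := by
    rw [← Finset.sum_image (f := fun χ => a χ - (s.card : ℝ)) (fun x _ y _ h => hf h)]
    exact Finset.sum_le_sum_of_subset_of_nonneg (Finset.subset_univ _)
      fun χ _ _ => sub_nonneg.2 (h1 χ)
  simp only [Finset.sum_sub_distrib, h3, ← Finset.mul_sum, Finset.sum_const, Finset.card_univ,
    nsmul_eq_mul] at h4
  have h5 : ∑ φ : IrrCharacter G, (charDegree (φ : G → ℂ) : ℝ) ^ 2 = Nat.card G := by
    exact_mod_cast H88.sum_charDegree_sq (G := G)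
  rw [h5, ← Nat.card_eq_fintype_card, ← Nat.card_eq_fintype_card, card_irrCharacter,
    card_irrCharacter] at h4
  have h6 : (s.card : ℝ) * (Nat.card (ConjClasses X) + Nat.card G) ≤
      s.card * (Nat.card ↥(G ⊓ centralizer ({v} : Set X)) * Nat.card V +
        Nat.card (ConjClasses G)) := by nlinarith
  exact_mod_cast le_of_mul_le_mul_left h6 hs

end Cfsg.Agent.S4955
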