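import Cfsg.Statements.S4956
import Mathlib

set_option autoImplicit false
open Cfsg

namespace Cfsg.Agent.S4956

/-- coprime action of one element on an abelian normal subgroup: `V = C_V(g) [V, g]`. -/
theorem exists_conj_commute {X : Type*} [Group X] [Finite X] (V : Subgroup X) [hV : V.Normal]
    (hab : ∀ a ∈ V, ∀ b ∈ V, a * b = b * a) (g : X) (m : ℕ) (hm : g ^ m = 1)
    (hcop : (Nat.card V).Coprime m) (v : X) (hv : v ∈ V) :
    ∃ u ∈ V, ∃ w ∈ V, Commute w g ∧ u * (v * g) * u⁻¹ = w * g := by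
  let θ : V →* V := MonoidHom.mk'
    (fun u => ⟨u * (g * u * g⁻¹)⁻¹, V.mul_mem u.2 (V.inv_mem (hV.conj_mem _ u.2 g))⟩) (by
      intro a b
      apply Subtype.ext
      simp only [Subgroup.coe_mul]
      have h1 := hab _ (V.inv_mem (hV.conj_mem _ a.2 g)) _
        (V.mul_mem b.2 (V.inv_mem (hV.conj_mem _ b.2 g)))
      calc (a : X) * b * (g * (a * b) * g⁻¹)⁻¹
          = a * ((b * (g * b * g⁻¹)⁻¹) * (g * a * g⁻¹)⁻¹) := by group
        _ = a * ((g * a * g⁻¹)⁻¹ * (b * (g * b * g⁻¹)⁻¹)) := by rw [h1]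
        _ = _ := by group)
  have hθ : ∀ u : V, (θ u : X) = u * (g * u * g⁻¹)⁻¹ := fun u => rfl
  have hker : ∀ u : V, θ u = 1 → Commute (u : X) g := by
    intro u hu
    have h1 : (u : X) * (g * u * g⁻¹)⁻¹ = 1 := by rw [← hθ, hu]; rfl
    have h2 : (u : X) = g * u * g⁻¹ := mul_inv_eq_one.mp h1
    show (u : X) * g = g * u
    calc (u : X) * g = (g * u * g⁻¹) * g := by rw [← h2]
      _ = g * u := by group
  have hdisj : ∀ u : V, θ (θ u) = 1 → θ u = 1 := by
    intro u hu
    have hc := hker _ hu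
    set w : X := ((θ u : V) : X) with hw
    have h1 : g * u * g⁻¹ = w⁻¹ * u := by
      rw [hw, hθ]
      have := hab _ (hV.conj_mem _ u.2 g) _ (V.inv_mem u.2)
      calc g * (u : X) * g⁻¹ = (g * u * g⁻¹) * (u : X)⁻¹ * u := by group
        _ = _ := by group
    have h2 : ∀ i : ℕ, g ^ i * u * (g ^ i)⁻¹ = (w⁻¹) ^ i * u := by
      intro i
      induction i with
      | zero => simp
      | succ i ih =>
        have hc' : g * w⁻¹ ^ i = w⁻¹ ^ i * g := (hc.inv_left.pow_left i).eq.symm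
        calc g ^ (i + 1) * u * (g ^ (i + 1))⁻¹ = g * (g ^ i * u * (g ^ i)⁻¹) * g⁻¹ := by
              rw [pow_succ']; group
          _ = (g * w⁻¹ ^ i) * u * g⁻¹ := by rw [ih]; group
          _ = w⁻¹ ^ i * (g * u * g⁻¹) := by rw [hc']; group
          _ = _ := by rw [h1, pow_succ]; group
    have h3 : w⁻¹ ^ m = 1 := by
      have := h2 m
      rw [hm] at this
      simpa using this.symm
    have h4 : (θ u) ^ m = 1 := by
      apply Subtype.ext
      simpa [hw] using h3
    have h5 : (θ u) ^ Nat.card V = 1 := pow_card_eq_one'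
    have h6 : orderOf (θ u) ∣ Nat.gcd (Nat.card V) m :=
      Nat.dvd_gcd (orderOf_dvd_of_pow_eq_one h5) (orderOf_dvd_of_pow_eq_one h4)
    rw [hcop, Nat.dvd_one] at h6
    exact orderOf_eq_one_iff.mp h6
  let f : θ.range → θ.range := fun r => ⟨θ r, ⟨r, rfl⟩⟩
  have hf : Function.Injective f := by
    rintro ⟨_, a, rfl⟩ ⟨_, b, rfl⟩ h
    have h1 : θ (θ a) = θ (θ b) := congrArg Subtype.val h
    have h2 : θ (a * b⁻¹) = 1 := by
      apply hdisj
      simp [h1]
    apply Subtype.ext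
    show θ a = θ b
    rw [map_mul, map_inv] at h2
    exact mul_inv_eq_one.mp h2
  obtain ⟨⟨_, a, rfl⟩, ha⟩ := Finite.injective_iff_surjective.mp hf ⟨θ ⟨v, hv⟩, ⟨_, rfl⟩⟩
  have h1 : θ (θ a) = θ ⟨v, hv⟩ := congrArg Subtype.val ha
  refine ⟨(a⁻¹ : V), (a⁻¹).2, (⟨v, hv⟩ * (θ a)⁻¹ : V), Subtype.property _, hker _ (by simp [h1]), ?_⟩
  simp only [Subgroup.coe_mul, Subgroup.coe_inv, hθ]
  have h2 := hab _ (V.inv_mem a.2) _ (V.mul_mem hv (hV.conj_mem _ a.2 g))
  calc (a : X)⁻¹ * (v * g) * (a : X)⁻¹⁻¹ = ((a : X)⁻¹ * (v * (g * a * g⁻¹))) * g := by group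
    _ = _ := by rw [h2]; group


/-- Let X be a finite group, V an abelian normal subgroup of X (any two elements of V commute) and G a complement to V in X whose order is coprime to that of V. Let S be a set of representatives of the orbits of G on V under conjugation: S lies in V and every element of V is conjugate under G to exactly one member of S. Then the number of conjugacy classes of X equals the sum, over s in S, of the number of conjugacy classes of the centralizer of s in G. -/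
theorem result {X : Type*} [Group X] [Finite X] (V : Subgroup X) [V.Normal] (hab : ∀ a ∈ V, ∀ b ∈ V, a * b = b * a) (G : Subgroup X) (hGV : Subgroup.IsComplement' V G) (hcop : (Nat.card V).Coprime (Nat.card G)) (S : Finset X) (hSV : ∀ s ∈ S, s ∈ V) (hrep : ∀ v ∈ V, ∃! s, s ∈ S ∧ ∃ g ∈ G, g * v * g⁻¹ = s) : Nat.card (ConjClasses X) = ∑ s ∈ S, Nat.card (ConjClasses ↥(G ⊓ Subgroup.centralizer ({s} : Set X))) := by
  classical
  have hV : V.Normal := inferInstance
  obtain ⟨e, he1, he2⟩ := Nat.chineseRemainder hcop 1 0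
  have hpow : ∀ s ∈ V, ∀ g ∈ G, Commute s g → (s * g) ^ e = s := by
    intro s hs g hg hc
    rw [hc.mul_pow]
    have h1 : s ^ e = s := by
      have : (⟨s, hs⟩ : V) ^ e = ⟨s, hs⟩ ^ 1 := by
        rw [pow_eq_pow_iff_modEq]
        exact he1.of_dvd (orderOf_dvd_natCard _)
      simpa using congrArg Subtype.val this
    have h2 : g ^ e = 1 := by
      have : (⟨g, hg⟩ : G) ^ e = ⟨g, hg⟩ ^ 0 := by
        rw [pow_eq_pow_iff_modEq]
        exact he2.of_dvd (orderOf_dvd_natCard _)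
      simpa using congrArg Subtype.val this
    rw [h1, h2, mul_one]
  have hcomm : ∀ (s : X) (g : ↥(G ⊓ Subgroup.centralizer ({s} : Set X))), Commute s (g : X) :=
    fun s g => (Subgroup.mem_centralizer_iff.mp g.2.2) s rfl
  let f : (Σ s : S, ConjClasses ↥(G ⊓ Subgroup.centralizer ({(s : X)} : Set X))) →
      ConjClasses X := fun p =>
    Quotient.liftOn p.2 (fun g => ConjClasses.mk ((p.1 : X) * g)) (by
      intro a b hab'
      rw [ConjClasses.mk_eq_mk_iff_isConj]
      have hab'' : IsConj a b := hab'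
      obtain ⟨c, hc⟩ := isConj_iff.mp hab''
      rw [isConj_iff]
      refine ⟨c, ?_⟩
      rw [← hc]
      simp only [Subgroup.coe_mul, Subgroup.coe_inv]
      rw [← mul_assoc, ← (hcomm _ c).eq]
      group)
  have hf : ∀ (s : S) (g : ↥(G ⊓ Subgroup.centralizer ({(s : X)} : Set X))),
      f ⟨s, ConjClasses.mk g⟩ = ConjClasses.mk ((s : X) * g) := fun _ _ => rfl
  have hbij : Function.Bijective f := by
    constructor
    · rintro ⟨s, a⟩ ⟨t, b⟩ h
      obtain ⟨a, rfl⟩ := ConjClasses.mk_surjective a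
      obtain ⟨b, rfl⟩ := ConjClasses.mk_surjective b
      rw [hf, hf, ConjClasses.mk_eq_mk_iff_isConj, isConj_iff] at h
      obtain ⟨x, hx⟩ := h
      obtain ⟨⟨v, h⟩, rfl⟩ := hGV.2 x
      simp only at hx
      have hs := hSV _ s.2
      have ht := hSV _ t.2
      have h1 : (v : X) * h * s * ((v : X) * h)⁻¹ = t := by
        rw [← hpow _ ht _ b.2.1 (hcomm _ b), ← hx, conj_pow, hpow _ hs _ a.2.1 (hcomm _ a)]
      have h2 : (h : X) * s * (h : X)⁻¹ = t := by
        rw [← h1]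
        have := hab _ v.2 _ (hV.conj_mem _ hs h)
        calc (h : X) * s * (h : X)⁻¹ = (h * s * (h : X)⁻¹) * v * (v : X)⁻¹ := by group
          _ = _ := by rw [← this]; group
      have hst : s = t := by
        apply Subtype.ext
        exact (hrep s hs).unique ⟨s.2, 1, G.one_mem, by simp⟩ ⟨t.2, h, h.2, h2⟩
      subst hst
      have h3 : (v : X) * h * a * ((v : X) * h)⁻¹ = b := by
        have : (v : X) * h * (s * a) * ((v : X) * h)⁻¹ =
          ((v : X) * h * s * ((v : X) * h)⁻¹) * ((v : X) * h * a * ((v : X) * h)⁻¹) := by group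
        rw [this, h1] at hx
        exact mul_left_cancel hx
      have h4 : (h : X) * a * (h : X)⁻¹ = b := by
        have hmem : (h : X) * a * (h : X)⁻¹ ∈ G := G.mul_mem (G.mul_mem h.2 a.2.1) (G.inv_mem h.2)
        have hmem2 : (v : X) * ((h : X) * a * (h : X)⁻¹ * (v : X)⁻¹ * ((h : X) * a * (h : X)⁻¹)⁻¹)
            ∈ V := V.mul_mem v.2 (hV.conj_mem _ (V.inv_mem v.2) _)
        have := hGV.1 (a₁ := (⟨_, hmem2⟩, ⟨_, hmem⟩)) (a₂ := (⟨1, V.one_mem⟩, ⟨b, b.2.1⟩)) (by
          simp only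
          rw [← h3]; group)
        exact congrArg (fun z => (z.2 : X)) this
      have hhc : (h : X) ∈ G ⊓ Subgroup.centralizer ({(s : X)} : Set X) := by
        refine Subgroup.mem_inf.mpr ⟨h.2, ?_⟩
        rw [Subgroup.mem_centralizer_iff]
        rintro _ rfl
        conv_lhs => rw [← h2]
        group
      congr 1
      rw [ConjClasses.mk_eq_mk_iff_isConj, isConj_iff]
      exact ⟨⟨h, hhc⟩, Subtype.ext h4⟩
    · intro c
      obtain ⟨x, rfl⟩ := ConjClasses.mk_surjective c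
      obtain ⟨⟨v, g⟩, rfl⟩ := hGV.2 x
      obtain ⟨u, hu, w, hw, hc, he⟩ := exists_conj_commute V hab g (Nat.card G)
        (congrArg Subtype.val (pow_card_eq_one' (G := G) (x := ⟨g, g.2⟩))) hcop v v.2
      obtain ⟨s, ⟨hs, h, hh, hhs⟩, -⟩ := hrep w hw
      have hmem : h * g * h⁻¹ ∈ G ⊓ Subgroup.centralizer ({s} : Set X) := by
        refine Subgroup.mem_inf.mpr ⟨G.mul_mem (G.mul_mem hh g.2) (G.inv_mem hh), ?_⟩
        rw [Subgroup.mem_centralizer_iff]
        rintro _ rfl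
        rw [← hhs]
        calc h * w * h⁻¹ * (h * g * h⁻¹) = h * (w * g) * h⁻¹ := by group
          _ = _ := by rw [hc.eq]; group
      refine ⟨⟨⟨s, hs⟩, ConjClasses.mk ⟨_, hmem⟩⟩, ?_⟩
      rw [hf, ConjClasses.mk_eq_mk_iff_isConj, isConj_iff]
      refine ⟨u⁻¹ * h⁻¹, ?_⟩
      simp only
      rw [← hhs]
      calc u⁻¹ * h⁻¹ * (h * w * h⁻¹ * (h * g * h⁻¹)) * (u⁻¹ * h⁻¹)⁻¹ = u⁻¹ * (w * g) * u := by group
        _ = _ := by rw [← he]; group
  rw [← Nat.card_eq_of_bijective f hbij, Nat.card_sigma, Finset.sum_coe_sort S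
    (fun s => Nat.card (ConjClasses ↥(G ⊓ Subgroup.centralizer ({s} : Set X))))]

end Cfsg.Agent.S4956
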