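import Cfsg.Statements.S4958
import Cfsg.Agent.H89.KGV
import Cfsg.Agent.H5.ClassFn

set_option autoImplicit false
open Cfsg

namespace Cfsg.Agent.S4958

set_option linter.style.haveILetI false
open Cfsg.Agent.H5 Cfsg.Agent.H89 Subgroup


/-- Let X be a finite group and V a normal subgroup of X in which every element has order dividing the prime p, whose index in X is prime to p and which is its own centralizer in X; so V is an elementary abelian normal Sylow p-subgroup, and any complement G to V in X is a group of order prime to p acting faithfully on the vector space V by conjugation (the coprime linear setting of the k(GV) problem). Let G be a complement to V in X and suppose that for some v in V the centralizer of v in G is abelian. Then the number of conjugacy classes of X is at most the order of V (the abelian-stabilizer criterion for the k(GV) problem). -/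
theorem result {X : Type*} [Group X] [Finite X] (p : ℕ) [Fact p.Prime] (V : Subgroup X) [V.Normal] (hVexp : ∀ v ∈ V, v ^ p = 1) (hidx : ¬ p ∣ V.index) (hself : Subgroup.centralizer (V : Set X) = V) (G : Subgroup X) (hGV : Subgroup.IsComplement' V G) (v : X) (hv : v ∈ V) (hab : ∀ a ∈ G ⊓ Subgroup.centralizer ({v} : Set X), ∀ b ∈ G ⊓ Subgroup.centralizer ({v} : Set X), a * b = b * a) : Nat.card (ConjClasses X) ≤ Nat.card V := by
  classical
  have hp : p.Prime := Fact.out
  have hVab : ∀ a ∈ V, ∀ b ∈ V, a * b = b * a := by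
    intro a ha b hb
    rw [← hself] at hb
    exact hb a ha
  let Z := zpowers v
  letI : Fintype Z := Fintype.ofFinite _
  let C := G ⊓ centralizer ({v} : Set X)
  letI : Fintype C := Fintype.ofFinite _
  let s : Finset Z := Finset.univ.filter fun a : Z => orderOf a = Nat.card Z
  let v' : Z := ⟨v, mem_zpowers v⟩
  have hv' : orderOf v' = Nat.card Z := by
    rw [Nat.card_zpowers, ← orderOf_coe]
  have hs : (0 : ℝ) < s.card := by
    exact_mod_cast Finset.card_pos.2 ⟨v', Finset.mem_filter.2 ⟨Finset.mem_univ _, hv'⟩⟩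
  have hZV : Z ≤ V := zpowers_le_of_mem hv
  have hZ : ∀ a b : Z, a * b = b * a := fun a b => Subtype.ext (hVab _ (hZV a.2) _ (hZV b.2))
  have hVp : IsPGroup p V := fun x => ⟨1, Subtype.ext (by simpa using hVexp x x.2)⟩
  have hGp : ¬ p ∣ Nat.card G := by rwa [← hGV.symm.index_eq_card]
  have hcop : (Nat.card C).Coprime (Nat.card V) := by
    obtain ⟨k, hk⟩ := IsPGroup.iff_card.1 hVp
    rw [hk]
    refine Nat.Coprime.pow_right _ (((Nat.Prime.coprime_iff_not_dvd hp).2 fun h => hGp ?_).symm)
    exact h.trans (card_dvd_of_le inf_le_left)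
  let w : Z → ℝ := fun a => if orderOf a = Nat.card Z then 1 else 0
  have hw : ∀ z, 0 ≤ w z := fun z => by simp only [w]; split_ifs <;> norm_num
  obtain ⟨A, _, _, π, ω, hA, hω, hKB, hker, hsupp, hbd⟩ := knoerr_ind V C hVab hab hcop hZ hw
    (by positivity) kb_base _ V rfl le_rfl (fun c _ x hx => ‹V.Normal›.conj_mem x hx c)
  have hπ : Function.Injective π := by
    rw [injective_iff_map_eq_one]
    rintro ⟨z, c⟩ h
    obtain ⟨h1, h2⟩ := hker _ h
    refine Prod.ext h1 (Subtype.ext ?_)
    have h3 : (c : X) ∈ V := by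
      rw [← hself]
      exact fun x hx => (h2 x hx).symm
    exact disjoint_def.1 hGV.disjoint h3 c.2.1
  have hKB' := kb_comp hA π hπ hKB
  have hcomm : ∀ (z : Z) (c : C), Commute (z : X) c := by
    rintro ⟨_, k, rfl⟩ c
    exact (Commute.zpow_right (mem_centralizer_singleton_iff.1 c.2.2) k).symm
  let j : Z × C →* X := Z.subtype.noncommCoprod C.subtype hcomm
  have hj : ∀ b : Z × C, j b = (b.1 : X) * b.2 := fun b => rfl
  have h1 : ∀ χ : IrrCharacter X, (s.card : ℝ) * (Nat.card C : ℝ) ^ 2 ≤
      ∑ b : Z × C, ω (π b) * ‖(χ : X → ℂ) (j b)‖ ^ 2 := by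
    intro χ
    have h2 := hKB' _ (isCharacter_comp (isCharacter_of_isIrr χ.2) j) ⟨(v', 1),
      hsupp _ (by simp only [w, if_pos hv']; norm_num), by
        have : j (v', 1) = v := by simp [hj, v']
        rw [this]
        refine apply_ne_zero_of_pElem (isCharacter_of_isIrr χ.2) hp
          (fun h => hidx (h.trans ?_)) (k := 1) (by simpa using hVexp v hv)
        exact H6.degree_dvd_index_of_abelian_normal V hVab χ.2 (H88.irr_charDegree_cast χ).symm⟩
    refine le_trans (le_of_eq ?_) h2
    have : (Nat.card Z : ℝ) ≠ 0 := by exact_mod_cast Nat.card_pos.ne'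
    rw [Nat.card_prod]
    push_cast
    field_simp
    rfl
  have h2 : ∀ b : Z × C, ω (π b) * Nat.card (centralizer ({j b} : Set X)) ≤
      w b.1 * (Nat.card V * Nat.card C) := by
    rintro ⟨z, c⟩
    by_cases hz : orderOf z = Nat.card Z
    swap
    · have h3 := hbd (z, c)
      simp only [w, if_neg hz, zero_mul] at h3 ⊢
      have h4 : (0 : ℝ) < Nat.card ↥(V ⊓ centralizer {(c : X)}) := by exact_mod_cast Nat.card_pos
      have h5 : ω (π (z, c)) = 0 := le_antisymm (by nlinarith [hω (π (z, c))]) (hω _)
      rw [h5, zero_mul]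
    obtain ⟨m, -, hm⟩ := exists_coprime_pow_of_orderOf hz hv'
    have hm' : v = (z : X) ^ m := congrArg Subtype.val hm
    have hoc : (orderOf (z : X)).Coprime (orderOf (c : X)) := by
      refine Nat.Coprime.coprime_dvd_left (V.orderOf_dvd_natCard (hZV z.2)) ?_
      exact Nat.Coprime.coprime_dvd_right (C.orderOf_dvd_natCard c.2) hcop.symm
    have hz1 := mem_zpowers_mul_of_coprime (hcomm z c) hoc
    have hc1 := mem_zpowers_mul_of_coprime (hcomm z c).symm hoc.symm
    rw [← (hcomm z c).eq] at hc1
    have h3 : Nat.card (centralizer ({j (z, c)} : Set X)) ≤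
        Nat.card ↥(V ⊓ centralizer {(c : X)}) * Nat.card C := by
      refine card_le_of_decomp _ _ _ fun y hy => ?_
      have hy0 : Commute y ((z : X) * c) := mem_centralizer_singleton_iff.1 hy
      obtain ⟨k, hk⟩ := hz1
      obtain ⟨l, hl⟩ := hc1
      have hyz : Commute y z := by rw [← hk]; exact hy0.zpow_right k
      have hyc : Commute y c := by rw [← hl]; exact hy0.zpow_right l
      have hy' : y * v = v * y := by
        rw [hm']
        exact (hyz.pow_right m).eq
      obtain ⟨⟨u, g⟩, hug, -⟩ := hGV.existsUnique y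
      simp only at hug
      have hg : (g : X) ∈ C := by
        refine ⟨g.2, mem_centralizer_singleton_iff.2 ?_⟩
        have hu := hVab u u.2 v hv
        calc (g : X) * v = (u : X)⁻¹ * (y * v) := by rw [← hug]; group
          _ = (u : X)⁻¹ * ((v * u) * g) := by rw [hy', ← hug]; group
          _ = v * g := by rw [← hu]; group
      refine ⟨u, ⟨u.2, mem_centralizer_singleton_iff.2 ?_⟩, g, hg, hug.symm⟩
      have hgc := hab _ hg _ c.2
      calc (u : X) * c = (y * (g : X)⁻¹) * c := by rw [← hug]; group
        _ = y * c * ((c : X)⁻¹ * (g : X)⁻¹ * c) := by group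
        _ = c * y * ((g * c : X)⁻¹ * c) := by rw [hyc.eq]; group
        _ = c * u := by rw [hgc, ← hug]; group
    calc ω (π (z, c)) * (Nat.card (centralizer ({j (z, c)} : Set X)) : ℝ)
        ≤ ω (π (z, c)) * (Nat.card ↥(V ⊓ centralizer {(c : X)}) * Nat.card C) := by
          have := hω (π (z, c))
          gcongr
          exact_mod_cast h3
      _ = (ω (π (z, c)) * Nat.card ↥(V ⊓ centralizer {(c : X)})) * Nat.card C := by ring
      _ ≤ (w z * Nat.card V) * Nat.card C :=
          mul_le_mul_of_nonneg_right (hbd (z, c)) (by positivity)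
      _ = _ := by ring
  have h3 : (Fintype.card (IrrCharacter X) : ℝ) * (s.card * (Nat.card C : ℝ) ^ 2) ≤
      s.card * (Nat.card C * (Nat.card V * Nat.card C)) := by
    rw [← nsmul_eq_mul]
    refine (Finset.card_nsmul_le_sum _ _ _ fun χ _ => h1 χ).trans ?_
    rw [Finset.sum_comm]
    simp only [← Finset.mul_sum, sum_norm_sq_col]
    refine (Finset.sum_le_sum fun b _ => h2 b).trans (le_of_eq ?_)
    rw [Fintype.sum_prod_type]
    simp only [Finset.sum_const, Finset.card_univ, nsmul_eq_mul, ← Nat.card_eq_fintype_card,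
      ← Finset.mul_sum, ← Finset.sum_mul]
    have : ∑ z, w z = s.card := by
      simp only [w, s, Finset.sum_boole]
    rw [this]
    ring
  rw [← Nat.card_eq_fintype_card, card_irrCharacter] at h3
  have hC0 : (0 : ℝ) < Nat.card C := by exact_mod_cast Nat.card_pos
  have h4 : (s.card * (Nat.card C : ℝ) ^ 2) * Nat.card (ConjClasses X) ≤
      (s.card * (Nat.card C : ℝ) ^ 2) * Nat.card V := by nlinarith
  exact_mod_cast le_of_mul_le_mul_left h4 (by positivity)

end Cfsg.Agent.S4958
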