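import Cfsg.Statements.S4964
import Cfsg.Agent.H34.Quot
import Cfsg.Agent.H33.PPart
import Cfsg.Agent.H1.Glauberman
import Cfsg.Agent.H1.Frattini

set_option autoImplicit false
open Cfsg

namespace Cfsg.Agent.S4964

set_option linter.style.haveILetI false
open Subgroup

theorem mem_centralizer_of_commutator {G : Type*} [Group G] [Finite G] {p : ℕ} [Fact p.Prime]
    {D : Subgroup G} [D.Normal] (hD : IsPGroup p D) {g : G} (hg : ¬ p ∣ orderOf g)
    (h : ∀ d ∈ D, d⁻¹ * g * d * g⁻¹ ∈ ⁅D, D⁆) : g ∈ centralizer (D : Set G) := by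
  obtain ⟨k, hk⟩ := IsPGroup.iff_card.1 (hD.to_le (commutator_le_left D D))
  have hcop : (Nat.card (zpowers g)).Coprime (Nat.card (⁅D, D⁆ : Subgroup G)) := by
    rw [hk, Nat.card_zpowers]
    exact Nat.Coprime.pow_right k ((Nat.Prime.coprime_iff_not_dvd Fact.out).2 hg).symm
  have key : (centralizer (zpowers g : Set G)).subgroupOf D = ⊤ := by
    refine frattini_nongenerating (eq_top_iff.2 fun d _ => ?_)
    obtain ⟨n, hn, h1⟩ := H1.coset_fixed (zpowers g) ⁅D, D⁆ le_normalizer_of_normal hcop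
      (Or.inl inferInstance) d fun a ha => by
        have h2 : zpowers g ≤ (centralizer {(d : G ⧸ ⁅D, D⁆)}).comap (QuotientGroup.mk' ⁅D, D⁆) := by
          rw [zpowers_le, mem_comap, mem_centralizer_singleton_iff]
          have := (QuotientGroup.eq_one_iff _).2 (h d d.2)
          simp only [QuotientGroup.mk_mul, QuotientGroup.mk_inv] at this
          rw [mul_inv_eq_one, mul_assoc, inv_mul_eq_iff_eq_mul] at this
          exact this
        have h3 := mem_centralizer_singleton_iff.1 (h2 ha)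
        rw [← QuotientGroup.eq_one_iff]
        simp only [QuotientGroup.mk_mul, QuotientGroup.mk_inv]
        rw [mul_inv_eq_one, mul_assoc, inv_mul_eq_iff_eq_mul]
        exact h3
    have hn' : n ∈ D := commutator_le_left D D hn
    have h4 : (⟨n, hn'⟩ : D) ∈ commutator D := by
      rw [← map_subtype_commutator] at hn
      obtain ⟨m, hm, rfl⟩ := hn
      exact hm
    have h5 := mul_mem_sup (show d * ⟨n, hn'⟩ ∈ (centralizer (zpowers g : Set G)).subgroupOf D
      from h1) (inv_mem (H1.commutator_le_frattini hD h4))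
    rwa [mul_inv_cancel_right] at h5
  exact fun d hd => (mem_centralizer_iff.1 (key.ge (mem_top (⟨d, hd⟩ : D))) g (mem_zpowers g)).symm


/-- Let D be a normal p-subgroup of the finite group G, let D′ be its commutator subgroup (normal in G), and fix a maximal ideal M of the algebraic integers containing p. Then (i) two irreducible characters of G ⧸ D′ lie in the same p-block if and only if their inflations to G do, and (ii) every p-block of G contains the inflation of some irreducible character of G ⧸ D′; so inflation induces a bijection between the p-blocks of G ⧸ D′ and the p-blocks of G. -/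
theorem result {G : Type*} [Group G] [Finite G] (p : ℕ) [Fact p.Prime] (M : Ideal Cfsg.AlgInt) (hM : Cfsg.IsPModular p M) (D : Subgroup G) [D.Normal] (hD : IsPGroup p D) : (∀ χ ψ : Cfsg.IrrCharacter (G ⧸ ⁅D, D⁆), Cfsg.SameBlock M (χ : G ⧸ ⁅D, D⁆ → ℂ) (ψ : G ⧸ ⁅D, D⁆ → ℂ) ↔ Cfsg.SameBlock M ((χ : G ⧸ ⁅D, D⁆ → ℂ) ∘ QuotientGroup.mk) ((ψ : G ⧸ ⁅D, D⁆ → ℂ) ∘ QuotientGroup.mk)) ∧ ∀ B : Set (Cfsg.IrrCharacter G), Cfsg.IsPBlock M B → ∃ χ : Cfsg.IrrCharacter (G ⧸ ⁅D, D⁆), ∃ θ ∈ B, (θ : G → ℂ) = (χ : G ⧸ ⁅D, D⁆ → ℂ) ∘ QuotientGroup.mk := by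
  haveI := hM.2.1
  letI := Fintype.ofFinite (G ⧸ ⁅D, D⁆)
  have hπ := QuotientGroup.mk'_surjective ⁅D, D⁆
  set π := QuotientGroup.mk' ⁅D, D⁆ with hπe
  have hker : π.ker = ⁅D, D⁆ := QuotientGroup.ker_mk' _
  have hN : IsPGroup p (⁅D, D⁆ : Subgroup G) := hD.to_le (commutator_le_left D D)
  refine ⟨fun χ ψ => ⟨H34.sameBlock_infl hπ, fun h => ?_⟩, fun B hB => ?_⟩
  · have hb := H34.isPBlock_blockOf (M := M) χ
    refine H34.mem_of_centralChar_congr hM hb (H34.mem_blockOf_self χ) fun q hq => ?_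
    have hreg := H34.regular_of_blockCoeff_not_mem hM hb hq
    haveI : (D.map π).Normal := Normal.map inferInstance π hπ
    have hC := H32.mem_Ce_of_blockCoeff_not_mem hM (H32.blockIdem_mem_RG hb) (hD.map π) hq
    obtain ⟨g₀, rfl⟩ := hπ q
    obtain ⟨z, hz⟩ := H33.exists_isPPart hM.1 g₀
    have hz1 : π z = 1 := (H33.IsPPart.eq_one_iff hM.1 (H33.IsPPart.map hM.1 hz π)).2 hreg
    have hy : π (z⁻¹ * g₀) = π g₀ := by rw [map_mul, map_inv, hz1, inv_one, one_mul]
    have hg := H33.IsPPart.regular hz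
    rw [← hy] at hC ⊢
    generalize z⁻¹ * g₀ = g at hg hC
    have hgD : g ∈ centralizer (D : Set G) := mem_centralizer_of_commutator hD hg fun d hd => by
      rw [← hker, MonoidHom.mem_ker, map_mul, map_mul, map_mul, map_inv, map_inv, mul_assoc _ (π g),
        ← H87.mem_Ce.1 hC _ (mem_map_of_mem π hd)]
      group
    have h1 : (H34.Cg g).relIndex ((H34.Cg (π g)).comap π) = 1 := by
      refine relIndex_eq_one.2 fun x hx => mem_centralizer_singleton_iff.2 ?_
      have h2 : x * g * x⁻¹ * g⁻¹ ∈ ⁅D, D⁆ := by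
        rw [← hker, MonoidHom.mem_ker, map_mul, map_mul, map_mul, map_inv, map_inv,
          mem_centralizer_singleton_iff.1 hx]
        group
      obtain ⟨k, hk⟩ := IsPGroup.iff_orderOf.1 hN ⟨_, h2⟩
      have h3 := (H33.IsPPart.eq_one_iff hM.1 (H33.isPPart_mul
        (mem_centralizer_iff.1 hgD _ (commutator_le_left D D h2))
        ⟨k, by rw [← hk]; exact orderOf_coe (⟨_, h2⟩ : (⁅D, D⁆ : Subgroup G))⟩ hg)).2 (by
          rwa [inv_mul_cancel_right, ← MulAut.conj_apply, MulEquiv.orderOf_eq])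
      rwa [mul_inv_eq_one, mul_inv_eq_iff_eq_mul] at h3
    have h2 := h g
    have e1 := H34.centralChar_infl hπ χ g
    have e2 := H34.centralChar_infl hπ ψ g
    rw [h1, Nat.cast_one, one_mul] at e1 e2
    rw [← e1, ← e2]
    exact h2
  · obtain ⟨b, hb, h, -⟩ := H34.exists_block_defectGroup_map hM hπ (by rwa [hker]) hB
    obtain ⟨χ, hχ⟩ := H34.IsPBlock.nonempty hb
    exact ⟨χ, _, h hχ, rfl⟩

end Cfsg.Agent.S4964
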