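import Cfsg.Statements.S4965
import Mathlib

set_option autoImplicit false
open Cfsg

namespace Cfsg.Agent.S4965


/-- Let X be a finite group with an abelian normal subgroup V (any two elements of V commute), and let φ be the action of X ⧸ V on V induced by conjugation (well defined because V is abelian; the hypothesis hφ says that the class of x acts as conjugation by x). Then X has at most as many conjugacy classes as the semidirect product of V by X ⧸ V formed with this action: the split extension has the largest class number among extensions with the given action. -/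
theorem result {X : Type*} [Group X] [Finite X] (V : Subgroup X) [V.Normal] (hab : ∀ a ∈ V, ∀ b ∈ V, a * b = b * a) (φ : X ⧸ V →* MulAut ↥V) (hφ : ∀ (x : X) (v : ↥V), ((φ (QuotientGroup.mk x) v : ↥V) : X) = x * v * x⁻¹) : Nat.card (ConjClasses X) ≤ Nat.card (ConjClasses (SemidirectProduct ↥V (X ⧸ V) φ)) := by
  classical
  have hex : ∀ q : (X ⧸ V) × (X ⧸ V), ∃ c : X × X,
      (∃ p : X × X, Commute p.1 p.2 ∧ (p.1 : X ⧸ V) = q.1 ∧ (p.2 : X ⧸ V) = q.2) →
        Commute c.1 c.2 ∧ (c.1 : X ⧸ V) = q.1 ∧ (c.2 : X ⧸ V) = q.2 := by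
    intro q
    by_cases h : ∃ p : X × X, Commute p.1 p.2 ∧ (p.1 : X ⧸ V) = q.1 ∧ (p.2 : X ⧸ V) = q.2
    · obtain ⟨p, hp⟩ := h
      exact ⟨p, fun _ => hp⟩
    · exact ⟨(1, 1), fun h' => (h h').elim⟩
  choose c hc using hex
  have hmem : ∀ x y : X, (y : X ⧸ V) = (x : X ⧸ V) → x * y⁻¹ ∈ V := by
    intro x y h
    have h1 : y⁻¹ * x ∈ V := QuotientGroup.eq.mp h
    have := (inferInstance : V.Normal).conj_mem _ h1 y
    simpa [mul_assoc] using this
  have hφ' : ∀ (x y : X) (v : V), (y : X ⧸ V) = (x : X ⧸ V) →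
      ((φ (x : X ⧸ V) v : ↥V) : X) = y * v * y⁻¹ := by
    intro x y v h
    rw [← h, hφ]
  have hc' : ∀ p : {p : X × X // Commute p.1 p.2},
      Commute (c (p.1.1, p.1.2)).1 (c (p.1.1, p.1.2)).2 ∧
        ((c (p.1.1, p.1.2)).1 : X ⧸ V) = p.1.1 ∧ ((c (p.1.1, p.1.2)).2 : X ⧸ V) = p.1.2 :=
    fun p => hc _ ⟨p.1, p.2, rfl, rfl⟩
  let f : {p : X × X // Commute p.1 p.2} →
      {p : (SemidirectProduct ↥V (X ⧸ V) φ) × (SemidirectProduct ↥V (X ⧸ V) φ) //
        Commute p.1 p.2} := fun p =>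
    ⟨(⟨⟨p.1.1 * (c (p.1.1, p.1.2)).1⁻¹, hmem _ _ (hc' p).2.1⟩, p.1.1⟩,
      ⟨⟨p.1.2 * (c (p.1.1, p.1.2)).2⁻¹, hmem _ _ (hc' p).2.2⟩, p.1.2⟩), by
      obtain ⟨h1, h2, h3⟩ := hc' p
      have hp := p.2
      apply SemidirectProduct.ext
      · apply Subtype.ext
        simp only [SemidirectProduct.mul_left, Subgroup.coe_mul]
        rw [hφ' _ _ _ h2, hφ' _ _ _ h3]
        simp only []
        generalize (c (p.1.1, p.1.2)).1 = a at *
        generalize (c (p.1.1, p.1.2)).2 = b at *
        have e1 : p.1.1 * a⁻¹ * (a * (p.1.2 * b⁻¹) * a⁻¹) = (p.1.1 * p.1.2) * (a * b)⁻¹ := by group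
        have e2 : p.1.2 * b⁻¹ * (b * (p.1.1 * a⁻¹) * b⁻¹) = (p.1.2 * p.1.1) * (b * a)⁻¹ := by group
        rw [e1, e2, hp.eq, h1.eq]
      · simp only [SemidirectProduct.mul_right]
        rw [← QuotientGroup.mk_mul, ← QuotientGroup.mk_mul, hp.eq]⟩
  have hf : Function.Injective f := by
    intro p p' h
    have h1 := congrArg (fun z => (z.1.1.left : X)) h
    have h2 := congrArg (fun z => (z.1.2.left : X)) h
    have h1' := congrArg (fun z => z.1.1.right) h
    have h2' := congrArg (fun z => z.1.2.right) h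
    simp only [f] at h1 h2 h1' h2'
    rw [h1', h2'] at h1 h2
    exact Subtype.ext (Prod.ext (mul_right_cancel h1) (mul_right_cancel h2))
  have : Finite (SemidirectProduct ↥V (X ⧸ V) φ) :=
    Finite.of_equiv _ (SemidirectProduct.equivProd).symm
  have hle := Nat.card_le_card_of_injective f hf
  rw [card_comm_eq_card_conjClasses_mul_card, card_comm_eq_card_conjClasses_mul_card] at hle
  have hcard : Nat.card (SemidirectProduct ↥V (X ⧸ V) φ) = Nat.card X := by
    rw [SemidirectProduct.card, mul_comm, ← Subgroup.card_eq_card_quotient_mul_card_subgroup]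
  rw [hcard] at hle
  exact Nat.le_of_mul_le_mul_right hle Nat.card_pos

end Cfsg.Agent.S4965
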