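import Cfsg.Statements.S4967
import Mathlib.RingTheory.Trace.Basic
import Mathlib.FieldTheory.Finite.Basic
import Mathlib.FieldTheory.Perfect

set_option autoImplicit false
open Cfsg

namespace Cfsg.Agent.S4967

set_option linter.style.haveILetI false

theorem core {F : Type*} [Field F] [Fintype F] {K : Type*} [Field K] [Algebra F K] [Finite K]
    {H : Type*} [CommGroup H] [Finite H] (φ : H →* K) (hφ : Function.Injective φ)
    (hgen : ∀ a : K, a ∈ Algebra.adjoin F (Set.range φ)) (h2 : 2 ≤ Module.finrank F K) :
    (∃ B : LinearMap.BilinForm F K, B.Nondegenerate ∧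
      ∀ h : H, ∀ x y : K, B (φ h * x) (φ h * y) = B x y) ↔
    (Even (Module.finrank F K) ∧ Nat.card H ∣ Fintype.card F ^ (Module.finrank F K / 2) + 1) := by
  have hfr : ∀ (i : ℕ) (a : K),
      (FiniteField.frobeniusAlgHom F K ^ i) a = a ^ (Fintype.card F ^ i) := fun i a => by
    rw [AlgHom.coe_pow, FiniteField.coe_frobeniusAlgHom, pow_iterate]
  have hinv : ∀ h : H, φ h * φ h⁻¹ = 1 := fun h => by rw [← map_mul, mul_inv_cancel, map_one]
  constructor
  · rintro ⟨B, hB, hBi⟩
    have ex : ∀ a : K, ∃ b : K, ∀ x y, B (a * x) y = B x (b * y) := fun a => by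
      induction hgen a using Algebra.adjoin_induction with
      | mem x hx =>
        obtain ⟨h, rfl⟩ := hx
        exact ⟨φ h⁻¹, fun x y => by rw [← hBi h x, ← mul_assoc, hinv, one_mul]⟩
      | algebraMap r =>
        exact ⟨algebraMap F K r, fun x y => by
          rw [← Algebra.smul_def, ← Algebra.smul_def]; simp⟩
      | add x y _ _ hx hy =>
        obtain ⟨a, ha⟩ := hx
        obtain ⟨b, hb⟩ := hy
        exact ⟨a + b, fun u v => by rw [add_mul, add_mul, map_add, map_add,
          LinearMap.add_apply, ha, hb]⟩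
      | mul x y _ _ hx hy =>
        obtain ⟨a, ha⟩ := hx
        obtain ⟨b, hb⟩ := hy
        exact ⟨a * b, fun u v => by rw [mul_assoc, ha, hb, mul_left_comm, mul_assoc]⟩
    choose s hs using ex
    have uq : ∀ a b : K, (∀ x y, B (a * x) y = B x (b * y)) → s a = b := fun a b h => by
      rw [← sub_eq_zero]
      refine hB.2 _ fun x => ?_
      have h1 := hs a x 1
      rw [h, mul_one, mul_one] at h1
      rw [map_sub, h1, sub_self]
    let σ : K →ₐ[F] K :=
      { toFun := s
        map_one' := uq _ _ fun x y => by rw [one_mul, one_mul]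
        map_zero' := uq _ _ fun x y => by simp
        map_mul' := fun a b => uq _ _ fun x y => by
          rw [mul_assoc, hs, hs, mul_left_comm, mul_assoc]
        map_add' := fun a b => uq _ _ fun x y => by
          rw [add_mul, add_mul, map_add, map_add, LinearMap.add_apply, hs, hs]
        commutes' := fun r => uq _ _ fun x y => by
          rw [← Algebra.smul_def, ← Algebra.smul_def]; simp }
    have hσ : ∀ h : H, σ (φ h) = φ h⁻¹ := fun h =>
      uq _ _ fun x y => by rw [← hBi h x, ← mul_assoc, hinv, one_mul]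
    have ext : ∀ f g : K →ₐ[F] K, (∀ h, f (φ h) = g (φ h)) → f = g := fun f g h =>
      AlgHom.ext fun a => by
        induction hgen a using Algebra.adjoin_induction with
        | mem x hx => obtain ⟨k, rfl⟩ := hx; exact h k
        | algebraMap r => simp
        | add x y _ _ hx hy => rw [map_add, map_add, hx, hy]
        | mul x y _ _ hx hy => rw [map_mul, map_mul, hx, hy]
    obtain ⟨⟨i, hi⟩, e⟩ := (FiniteField.bijective_frobeniusAlgHom_pow F K).2 σ
    simp only at e
    have hsq : FiniteField.frobeniusAlgHom F K ^ (2 * i) = 1 := by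
      rw [two_mul, pow_add, e]
      exact ext _ _ fun h => by rw [AlgHom.mul_apply, hσ, hσ, inv_inv, AlgHom.one_apply]
    have hi0 : i ≠ 0 := by
      rintro rfl
      have h1 : ∀ a : K, a ∈ (⊥ : Subalgebra F K) := fun a => by
        refine (Algebra.adjoin_le (S := ⊥) ?_) (hgen a)
        rintro _ ⟨h, rfl⟩
        have h3 := hσ h
        rw [← e, pow_zero, AlgHom.one_apply] at h3
        have h4 := hinv h
        rw [← h3] at h4
        rcases mul_self_eq_one_iff.1 h4 with h5 | h5 <;> rw [h5]
        · exact one_mem (⊥ : Subalgebra F K)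
        · exact neg_mem (one_mem (⊥ : Subalgebra F K))
      have h3 : (⊥ : Subalgebra F K) = ⊤ := eq_top_iff.2 fun a _ => h1 a
      rw [Subalgebra.bot_eq_top_iff_finrank_eq_one] at h3
      omega
    have hd := orderOf_dvd_of_pow_eq_one hsq
    rw [FiniteField.orderOf_frobeniusAlgHom] at hd
    have h2i : 2 * i = Module.finrank F K := by
      obtain ⟨c, hc⟩ := hd
      rcases c with _ | _ | c
      · omega
      · omega
      · nlinarith
    refine ⟨⟨i, by omega⟩, ?_⟩
    have hi2 : Module.finrank F K / 2 = i := by omega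
    haveI : IsCyclic H := isCyclic_of_injective_ringHom φ hφ
    rw [hi2, ← IsCyclic.exponent_eq_card]
    refine Monoid.exponent_dvd_of_forall_pow_eq_one fun h => hφ ?_
    rw [map_pow, pow_succ, ← hfr, e, hσ, mul_comm, hinv, map_one]
  · rintro ⟨-, hd⟩
    let σ := FiniteField.frobeniusAlgHom F K ^ (Module.finrank F K / 2)
    have hσ : ∀ h : H, φ h * σ (φ h) = 1 := fun h => by
      rw [hfr, ← pow_succ', ← map_pow, orderOf_dvd_iff_pow_eq_one.1
        ((orderOf_dvd_natCard h).trans hd), map_one]
    have nd := traceForm_nondegenerate F K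
    refine ⟨(Algebra.traceForm F K).compRight σ.toLinearMap, ⟨fun x hx => nd.1 x fun y => ?_,
      fun y hy => σ.injective ((nd.2 _ hy).trans (map_zero σ).symm)⟩, fun h x y => ?_⟩
    · obtain ⟨y, rfl⟩ := (Finite.injective_iff_surjective.1 σ.injective) y
      exact hx y
    · simp only [LinearMap.BilinForm.compRight_apply, AlgHom.toLinearMap_apply,
        Algebra.traceForm_apply, map_mul]
      rw [mul_mul_mul_comm, hσ, one_mul]


/-- Let F be a finite field with r elements and of characteristic p, H a finite abelian group of order prime to p, and V a faithful irreducible representation of H over F of dimension n (faithful: distinct elements act differently; irreducible: the only H-invariant subspaces are 0 and V). Call V self-dual when it carries a nondegenerate H-invariant bilinear form. If n = 1 and V is self-dual then H has order at most 2. If n ≥ 2 then V is self-dual if and only if n is even and the order of H divides r^(n/2) + 1. -/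
theorem result {F : Type*} [Field F] [Fintype F] (p : ℕ) [Fact p.Prime] [CharP F p] {H : Type*} [CommGroup H] [Finite H] (hcop : ¬ p ∣ Nat.card H) {V : Type*} [AddCommGroup V] [Module F V] [FiniteDimensional F V] (ρ : Representation F H V) (hfaith : Function.Injective ρ) (hirr : ∀ U : Submodule F V, (∀ h : H, ∀ u ∈ U, ρ h u ∈ U) → U = ⊥ ∨ U = ⊤) : (Module.finrank F V = 1 → (∃ B : LinearMap.BilinForm F V, B.Nondegenerate ∧ ∀ h : H, ∀ x y : V, B (ρ h x) (ρ h y) = B x y) → Nat.card H ≤ 2) ∧ (2 ≤ Module.finrank F V → ((∃ B : LinearMap.BilinForm F V, B.Nondegenerate ∧ ∀ h : H, ∀ x y : V, B (ρ h x) (ρ h y) = B x y) ↔ (Even (Module.finrank F V) ∧ Nat.card H ∣ Fintype.card F ^ (Module.finrank F V / 2) + 1))) := by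
  classical
  refine ⟨fun h1 ⟨B, hB, hinv⟩ => ?_, fun h2 => ?_⟩
  · obtain ⟨v, hv, hsp⟩ := finrank_eq_one_iff'.1 h1
    have hvv : B v v ≠ 0 := fun h => hv (hB.1 v fun w => by
      obtain ⟨c, rfl⟩ := hsp w
      rw [map_smul, h, smul_zero])
    have key : ∀ h : H, ρ h ∈ ({1, -1} : Finset (Module.End F V)) := fun h => by
      obtain ⟨c, hc⟩ := hsp (ρ h v)
      have h3 := hinv h v v
      rw [← hc] at h3
      simp only [map_smul, LinearMap.smul_apply, smul_eq_mul] at h3
      have h4 : c * c = 1 := mul_right_cancel₀ hvv (by rw [mul_assoc, h3, one_mul])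
      have h5 : ∀ w, ρ h w = c • w := fun w => by
        obtain ⟨d, rfl⟩ := hsp w
        rw [map_smul, ← hc, smul_comm]
      rcases mul_self_eq_one_iff.1 h4 with rfl | rfl
      · exact Finset.mem_insert.2 (Or.inl (LinearMap.ext fun w => by simp [h5]))
      · exact Finset.mem_insert.2 (Or.inr (Finset.mem_singleton.2
          (LinearMap.ext fun w => by simp [h5])))
    have h3 := Nat.card_le_card_of_injective (fun h : H => (⟨ρ h, key h⟩ :
      ({1, -1} : Finset (Module.End F V)))) fun a b e => hfaith (congrArg Subtype.val e)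
    rw [Nat.card_eq_finsetCard] at h3
    exact h3.trans Finset.card_le_two
  haveI : Nontrivial V := Module.nontrivial_of_finrank_pos (R := F) (by omega)
  haveI : Finite V := Module.finite_of_finite F
  haveI : Finite (Module.End F V) := Finite.of_injective _ DFunLike.coe_injective
  let K := Algebra.adjoin F (Set.range ρ)
  have hcomm : ∀ a ∈ K, ∀ b ∈ K, a * b = b * a := by
    have := Algebra.isMulCommutative_adjoin F (s := Set.range ρ) (by
      rintro _ ⟨a, rfl⟩ _ ⟨b, rfl⟩
      rw [← map_mul, ← map_mul, mul_comm])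
    exact fun a ha b hb => setLike_mul_comm ha hb
  have hmem : ∀ h, ρ h ∈ K := fun h => Algebra.subset_adjoin ⟨h, rfl⟩
  have hinj : ∀ a ∈ K, ∀ v, v ≠ 0 → a v = 0 → a = 0 := fun a ha v hv hav => by
    rcases hirr (LinearMap.ker a) (fun h u hu => by
      rw [LinearMap.mem_ker, ← Module.End.mul_apply, hcomm a ha _ (hmem h), Module.End.mul_apply,
        LinearMap.mem_ker.1 hu, map_zero]) with h | h
    · exact absurd ((Submodule.eq_bot_iff _).1 h v hav) hv
    · exact LinearMap.ker_eq_top.1 h
  obtain ⟨v, hv⟩ := exists_ne (0 : V)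
  letI : CommRing K := { (inferInstance : Ring K) with
    mul_comm := fun a b => Subtype.ext (hcomm _ a.2 _ b.2) }
  haveI : NoZeroDivisors K := ⟨fun {a b} h => by
    by_contra! h3
    exact h3.1 (Subtype.ext (hinj _ a.2 (b.1 v) (fun h4 => h3.2 (Subtype.ext (hinj _ b.2 v hv h4)))
      (LinearMap.congr_fun (congrArg Subtype.val h) v)))⟩
  haveI : IsDomain K := NoZeroDivisors.to_isDomain K
  letI : Field K := (Finite.isField_of_domain K).toField
  let ev : K →ₗ[F] V := (LinearMap.applyₗ v).comp K.val.toLinearMap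
  have hev : Function.Bijective ev := by
    refine ⟨(injective_iff_map_eq_zero _).2 fun a ha => Subtype.ext (hinj _ a.2 v hv ha), ?_⟩
    rcases hirr (LinearMap.range ev) (by
      rintro h _ ⟨a, rfl⟩
      exact ⟨⟨ρ h, hmem h⟩ * a, rfl⟩) with h | h
    · exact absurd ((Submodule.eq_bot_iff _).1 h v ⟨1, rfl⟩) hv
    · exact LinearMap.range_eq_top.1 h
  let e := LinearEquiv.ofBijective ev hev
  let φ : H →* K := (ρ : H →* Module.End F V).codRestrict K hmem
  have he : ∀ h x, e (φ h * x) = ρ h (e x) := fun h x => rfl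
  have hgen : ∀ a : K, a ∈ Algebra.adjoin F (Set.range φ) := fun ⟨a, ha⟩ => by
    induction ha using Algebra.adjoin_induction with
    | mem x hx => obtain ⟨h, rfl⟩ := hx; exact Algebra.subset_adjoin ⟨h, rfl⟩
    | algebraMap r => exact Subalgebra.algebraMap_mem _ r
    | add x y _ _ hx hy => exact add_mem hx hy
    | mul x y _ _ hx hy => exact mul_mem hx hy
  rw [← e.finrank_eq] at h2 ⊢
  rw [← core φ (fun a b h => hfaith (congrArg Subtype.val h)) hgen h2]
  constructor
  · rintro ⟨B, hB, hi⟩
    refine ⟨LinearMap.BilinForm.congr e.symm B, hB.congr e.symm, fun h x y => ?_⟩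
    simp only [LinearMap.BilinForm.congr_apply, LinearEquiv.symm_symm, he, hi]
  · rintro ⟨B, hB, hi⟩
    refine ⟨LinearMap.BilinForm.congr e B, hB.congr e, fun h x y => ?_⟩
    obtain ⟨x, rfl⟩ := e.surjective x
    obtain ⟨y, rfl⟩ := e.surjective y
    simp only [LinearMap.BilinForm.congr_apply, ← he, LinearEquiv.symm_apply_apply, hi]

end Cfsg.Agent.S4967
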