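import Cfsg.Statements.S5005
import Cfsg.Agent.H14.Blocks
import Cfsg.Agent.H14.MInv

set_option autoImplicit false
open Cfsg

namespace Cfsg.Agent.S5005

open Cfsg.Agent.H14

theorem c11B : 443520 / m22_11B.c = 40320 := by decide +kernel
theorem f11B : fixN (nat_lit 5) (nat_lit 32) (nat_lit 24) m22_11B.X = 2 := by decide +kernel
theorem c11A : 443520 / m22_11A.c = 40320 := by decide +kernel
theorem f11A : fixN (nat_lit 5) (nat_lit 32) (nat_lit 24) m22_11A.X = 2 := by decide +kernel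
theorem c8A : 443520 / m22_8A.c = 55440 := by decide +kernel
theorem f8A : fixN (nat_lit 5) (nat_lit 32) (nat_lit 24) m22_8A.X = 2 := by decide +kernel
theorem c7B : 443520 / m22_7B.c = 63360 := by decide +kernel
theorem f7B : fixN (nat_lit 5) (nat_lit 32) (nat_lit 24) m22_7B.X = 3 := by decide +kernel
theorem c7A : 443520 / m22_7A.c = 63360 := by decide +kernel
theorem f7A : fixN (nat_lit 5) (nat_lit 32) (nat_lit 24) m22_7A.X = 3 := by decide +kernel
theorem c6A : 443520 / m22_6A.c = 36960 := by decide +kernel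
theorem f6A : fixN (nat_lit 5) (nat_lit 32) (nat_lit 24) m22_6A.X = 2 := by decide +kernel
theorem c5A : 443520 / m22_5A.c = 88704 := by decide +kernel
theorem f5A : fixN (nat_lit 5) (nat_lit 32) (nat_lit 24) m22_5A.X = 4 := by decide +kernel
theorem c4B : 443520 / m22_4B.c = 27720 := by decide +kernel
theorem f4B : fixN (nat_lit 5) (nat_lit 32) (nat_lit 24) m22_4B.X = 4 := by decide +kernel
theorem c4A : 443520 / m22_4A.c = 13860 := by decide +kernel
theorem f4A : fixN (nat_lit 5) (nat_lit 32) (nat_lit 24) m22_4A.X = 4 := by decide +kernel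
theorem c3A : 443520 / m22_3A.c = 12320 := by decide +kernel
theorem f3A : fixN (nat_lit 5) (nat_lit 32) (nat_lit 24) m22_3A.X = 6 := by decide +kernel
theorem c2A : 443520 / m22_2A.c = 1155 := by decide +kernel
theorem f2A : fixN (nat_lit 5) (nat_lit 32) (nat_lit 24) m22_2A.X = 8 := by decide +kernel
theorem c1A : 443520 / m22_1A.c = 1 := by decide +kernel
theorem f1A : fixN (nat_lit 5) (nat_lit 32) (nat_lit 24) m22_1A.X = 24 := by decide +kernel
theorem m11B : m22_11B ∈ m22Cl := by simp [m22Cl]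
theorem m11A : m22_11A ∈ m22Cl := by simp [m22Cl]
theorem m8A : m22_8A ∈ m22Cl := by simp [m22Cl]
theorem m7B : m22_7B ∈ m22Cl := by simp [m22Cl]
theorem m7A : m22_7A ∈ m22Cl := by simp [m22Cl]
theorem m6A : m22_6A ∈ m22Cl := by simp [m22Cl]
theorem m5A : m22_5A ∈ m22Cl := by simp [m22Cl]
theorem m4B : m22_4B ∈ m22Cl := by simp [m22Cl]
theorem m4A : m22_4A ∈ m22Cl := by simp [m22Cl]
theorem m3A : m22_3A ∈ m22Cl := by simp [m22Cl]
theorem m2A : m22_2A ∈ m22Cl := by simp [m22Cl]
theorem m1A : m22_1A ∈ m22Cl := by simp [m22Cl]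


set_option maxHeartbeats 2000000 in
theorem no_defect_zero (χ : IrrCharacter Spor.M22) :
    2 ∣ Nat.card Spor.M22 / charDegree (χ : Spor.M22 → ℂ) := by
  by_contra h0
  have hc := H5.isCharacter_of_isIrr χ.2
  have hf := H5.isClassFunction_of_isIrr χ.2
  have hd := (H32.cast_charDegree_irr χ).symm
  obtain ⟨m, hm⟩ : 128 ∣ charDegree (χ : Spor.M22 → ℂ) := by
    obtain ⟨r, hr⟩ := H32.charDegree_dvd_card χ
    rw [hr, Nat.mul_div_cancel_left _ (H32.charDegree_pos χ)] at h0
    refine Nat.Coprime.dvd_of_dvd_mul_right (k := 2 ^ 7) (Nat.Coprime.pow_left _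
      ((Nat.Prime.coprime_iff_not_dvd Nat.prime_two).2 h0)) ?_
    rw [← hr, card_M22]; norm_num
  have hpos : 0 < m := Nat.pos_of_ne_zero fun h => H32.charDegree_ne_zero χ (by rw [hm, h])
  rw [hm] at hd
  have z2A := m22_classes.ext_eq_zero Nat.prime_two h0 m2A (f := 23) (by decide +kernel)
    (by decide +kernel)
  have z4A := m22_classes.ext_eq_zero Nat.prime_two h0 m4A (f := 23) (by decide +kernel)
    (by decide +kernel)
  have z4B := m22_classes.ext_eq_zero Nat.prime_two h0 m4B (f := 23) (by decide +kernel)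
    (by decide +kernel)
  have z6A := m22_classes.ext_eq_zero Nat.prime_two h0 m6A (f := 23) (by decide +kernel)
    (by decide +kernel)
  have z8A := m22_classes.ext_eq_zero Nat.prime_two h0 m8A (f := 23) (by decide +kernel)
    (by decide +kernel)
  have z1A : extendByZero Spor.M22 (χ : Spor.M22 → ℂ) (GE.perm m22_1A.X) = (128 * m : ℕ) := by
    have : GE.perm m22_1A.X = 1 := GE.pk_injective (by
      rw [m22_classes.pk_perm m1A, GE.pk_one]; decide +kernel)
    rw [this, ext_apply _ (one_mem _)]; exact hd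
  obtain ⟨r3A, s3A⟩ := m22_classes.sum_pow hc m3A (m := 3) (by decide +kernel)
  have p3A_2 := m22_classes.ext_pow m22_chain hf m3A m3A 2 (nat_lit 0xbad106be349166cb1d35519c410c20) (by decide +kernel)
  simp only [Finset.sum_range_succ, Finset.sum_range_zero, pow_zero, pow_one, ext_apply _ (one_mem _),
    p3A_2] at s3A
  rw [show (χ : Spor.M22 → ℂ) ⟨1, one_mem _⟩ = (128 * m : ℕ) from hd] at s3A
  obtain ⟨x3A, i3A⟩ := exists_int_of_mul (m22_classes.isIntegral hc m3A)
    (a := 2) (b := 3 * r3A - 128 * m) (by norm_num) (by push_cast at s3A ⊢; linear_combination s3A)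
  obtain ⟨r5A, s5A⟩ := m22_classes.sum_pow hc m5A (m := 5) (by decide +kernel)
  have p5A_2 := m22_classes.ext_pow m22_chain hf m5A m5A 2 (nat_lit 0xb8522348959aa0e795a33ad91b5100) (by decide +kernel)
  have p5A_3 := m22_classes.ext_pow m22_chain hf m5A m5A 3 (nat_lit 0xb96a39c0893524e385a27aed162900) (by decide +kernel)
  have p5A_4 := m22_classes.ext_pow m22_chain hf m5A m5A 4 (nat_lit 0xbaa087b63598a4c3d934598642b820) (by decide +kernel)
  simp only [Finset.sum_range_succ, Finset.sum_range_zero, pow_zero, pow_one, ext_apply _ (one_mem _),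
    p5A_2, p5A_3, p5A_4] at s5A
  rw [show (χ : Spor.M22 → ℂ) ⟨1, one_mem _⟩ = (128 * m : ℕ) from hd] at s5A
  obtain ⟨x5A, i5A⟩ := exists_int_of_mul (m22_classes.isIntegral hc m5A)
    (a := 4) (b := 5 * r5A - 128 * m) (by norm_num) (by push_cast at s5A ⊢; linear_combination s5A)
  obtain ⟨r7A, s7A⟩ := m22_classes.sum_pow hc m7A (m := 7) (by decide +kernel)
  have p7A_2 := m22_classes.ext_pow m22_chain hf m7A m7A 2 (nat_lit 0xbc5aa82cc37d5d262688258e598820) (by decide +kernel)
  have p7A_3 := m22_classes.ext_pow m22_chain hf m7A m7B 3 (nat_lit 0xb89922b4ef82e230cc8aab936a20c0) (by decide +kernel)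
  have p7A_4 := m22_classes.ext_pow m22_chain hf m7A m7A 4 (nat_lit 0xb99c91b2d37b6ab951482c48780820) (by decide +kernel)
  have p7A_5 := m22_classes.ext_pow m22_chain hf m7A m7B 5 (nat_lit 0xbce4d1b04e83e8409ca9aaeca444c0) (by decide +kernel)
  have p7A_6 := m22_classes.ext_pow m22_chain hf m7A m7B 6 (nat_lit 0xb9dac24a6b8390508876abd498d0c0) (by decide +kernel)
  simp only [Finset.sum_range_succ, Finset.sum_range_zero, pow_zero, pow_one, ext_apply _ (one_mem _),
    p7A_2, p7A_3, p7A_4, p7A_5, p7A_6] at s7A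
  rw [show (χ : Spor.M22 → ℂ) ⟨1, one_mem _⟩ = (128 * m : ℕ) from hd] at s7A
  obtain ⟨x7A, i7A⟩ := exists_int_of_mul ((m22_classes.isIntegral hc m7A).add (m22_classes.isIntegral hc m7B))
    (a := 3) (b := 7 * r7A - 128 * m) (by norm_num) (by push_cast at s7A ⊢; linear_combination s7A)
  obtain ⟨r11A, s11A⟩ := m22_classes.sum_pow hc m11A (m := 11) (by decide +kernel)
  have p11A_2 := m22_classes.ext_pow m22_chain hf m11A m11B 2 (nat_lit 0xbd08340ace7ae35095279418a6ccc0) (by decide +kernel)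
  have p11A_3 := m22_classes.ext_pow m22_chain hf m11A m11A 3 (nat_lit 0xb8ca75c90f1518e51a646a6168d420) (by decide +kernel)
  have p11A_4 := m22_classes.ext_pow m22_chain hf m11A m11A 4 (nat_lit 0xb904e4c865830ed9acd1a2aa8b3c20) (by decide +kernel)
  have p11A_5 := m22_classes.ext_pow m22_chain hf m11A m11A 5 (nat_lit 0xba1ec34ad52b6874cd4372c5124020) (by decide +kernel)
  have p11A_6 := m22_classes.ext_pow m22_chain hf m11A m11B 6 (nat_lit 0xbc8617d90d89c558118a9968e5a4c0) (by decide +kernel)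
  have p11A_7 := m22_classes.ext_pow m22_chain hf m11A m11B 7 (nat_lit 0xbcc308a1eb12ad528e8e4924d3b0c0) (by decide +kernel)
  have p11A_8 := m22_classes.ext_pow m22_chain hf m11A m11B 8 (nat_lit 0xbb0a4b444a435f51c26ba0527748c0) (by decide +kernel)
  have p11A_9 := m22_classes.ext_pow m22_chain hf m11A m11A 9 (nat_lit 0xbc60d54882a9dd43257664de341420) (by decide +kernel)
  have p11A_10 := m22_classes.ext_pow m22_chain hf m11A m11B 10 (nat_lit 0xba60513e27b39152064d60e6b550c0) (by decide +kernel)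
  simp only [Finset.sum_range_succ, Finset.sum_range_zero, pow_zero, pow_one, ext_apply _ (one_mem _),
    p11A_2, p11A_3, p11A_4, p11A_5, p11A_6, p11A_7, p11A_8, p11A_9, p11A_10] at s11A
  rw [show (χ : Spor.M22 → ℂ) ⟨1, one_mem _⟩ = (128 * m : ℕ) from hd] at s11A
  obtain ⟨x11A, i11A⟩ := exists_int_of_mul ((m22_classes.isIntegral hc m11A).add (m22_classes.isIntegral hc m11B))
    (a := 5) (b := 11 * r11A - 128 * m) (by norm_num) (by push_cast at s11A ⊢; linear_combination s11A)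
  have e0 := m22_classes.sum_fix_pow χ.2 hd 0 (by norm_num; omega)
  simp only [m22Cl, List.map_cons, List.map_nil, List.sum_cons, List.sum_nil, card_M22,
    f1A, c1A, f2A, c2A, z2A, f3A, c3A, f4A, c4A, z4A, f4B, c4B, z4B, f5A, c5A, f6A, c6A, z6A, f7A, c7A, f7B, c7B, f8A, c8A, z8A, f11A, c11A, f11B, c11B, z1A] at e0
  have e1 := m22_classes.sum_fix_pow χ.2 hd 1 (by norm_num; omega)
  simp only [m22Cl, List.map_cons, List.map_nil, List.sum_cons, List.sum_nil, card_M22,
    f1A, c1A, f2A, c2A, z2A, f3A, c3A, f4A, c4A, z4A, f4B, c4B, z4B, f5A, c5A, f6A, c6A, z6A, f7A, c7A, f7B, c7B, f8A, c8A, z8A, f11A, c11A, f11B, c11B, z1A] at e1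
  have en := m22_classes.sum_norm_sq χ.2
  simp only [m22Cl, List.map_cons, List.map_nil, List.sum_cons, List.sum_nil, card_M22,
    c1A, c2A, z2A, c3A, c4A, z4A, c4B, z4B, c5A, c6A, z6A, c7A, c7B, c8A, z8A, c11A, c11B, z1A] at en
  have hn : ∀ (a b : ℂ) (t : ℤ), a + b = t → (t : ℝ) ^ 2 ≤ 2 * (‖a‖ ^ 2 + ‖b‖ ^ 2) := fun a b t h => by
    have h1 := norm_add_le a b
    rw [h, Complex.norm_intCast] at h1
    have h2 : (t : ℝ) ^ 2 ≤ (‖a‖ + ‖b‖) ^ 2 := by
      rw [← sq_abs]; exact pow_le_pow_left₀ (abs_nonneg _) h1 2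
    nlinarith [sq_nonneg (‖a‖ - ‖b‖)]
  have n7 := hn _ _ _ i7A
  have n11 := hn _ _ _ i11A
  rw [i3A, i5A] at e0 e1 en
  have l0 : 128 * (m : ℤ) + 12320 * x3A + 88704 * x5A + 63360 * x7A + 40320 * x11A = 0 := by
    have : 128 * (m : ℂ) + 12320 * x3A + 88704 * x5A + 63360 * x7A + 40320 * x11A = 0 := by
      rw [← i7A, ← i11A]; push_cast at e0; linear_combination e0
    exact_mod_cast this
  have l1 : 24 * 128 * (m : ℤ) + 6 * 12320 * x3A + 4 * 88704 * x5A + 3 * 63360 * x7A +
      2 * 40320 * x11A = 0 := by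
    have : 24 * 128 * (m : ℂ) + 6 * 12320 * x3A + 4 * 88704 * x5A + 3 * 63360 * x7A +
        2 * 40320 * x11A = 0 := by
      rw [← i7A, ← i11A]; push_cast at e1; linear_combination e1
    exact_mod_cast this
  have ln : (128 * m : ℤ) ^ 2 + 12320 * x3A ^ 2 + 88704 * x5A ^ 2 + 31680 * x7A ^ 2 +
      20160 * x11A ^ 2 ≤ 443520 := by
    have : (128 * m : ℝ) ^ 2 + 12320 * x3A ^ 2 + 88704 * x5A ^ 2 + 31680 * x7A ^ 2 +
        20160 * x11A ^ 2 ≤ 443520 := by
      simp only [Complex.norm_natCast, Complex.norm_intCast, sq_abs, norm_zero] at en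
      push_cast at en
      linarith
    exact_mod_cast this
  clear * - l0 l1 ln hpos
  have b1 : m ≤ 5 := by nlinarith [sq_nonneg x3A, sq_nonneg x5A, sq_nonneg x7A, sq_nonneg x11A]
  have b3 : -6 ≤ x3A ∧ x3A ≤ 6 := by
    constructor <;> nlinarith [sq_nonneg (128 * m : ℤ), sq_nonneg x5A, sq_nonneg x7A, sq_nonneg x11A]
  have b5 : -2 ≤ x5A ∧ x5A ≤ 2 := by
    constructor <;> nlinarith [sq_nonneg (128 * m : ℤ), sq_nonneg x3A, sq_nonneg x7A, sq_nonneg x11A]
  have b7 : -3 ≤ x7A ∧ x7A ≤ 3 := by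
    constructor <;> nlinarith [sq_nonneg (128 * m : ℤ), sq_nonneg x3A, sq_nonneg x5A, sq_nonneg x11A]
  have b11 : -4 ≤ x11A ∧ x11A ≤ 4 := by
    constructor <;> nlinarith [sq_nonneg (128 * m : ℤ), sq_nonneg x3A, sq_nonneg x5A, sq_nonneg x7A]
  obtain ⟨b5, b5'⟩ := b5
  clear ln
  interval_cases m <;> interval_cases x5A <;> omega

theorem principal (M : Ideal AlgInt) (hM : IsPModular 2 M) (χ : IrrCharacter Spor.M22) :
    SameBlock M (fun _ => 1) (χ : Spor.M22 → ℂ) := by
  refine (principal_or_defect_zero hM (fun t ht h2 => ?_) χ).resolve_right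
    (not_not.2 (no_defect_zero χ))
  obtain ⟨c, hc, ha⟩ := m22_classes.conj_of_orderOf (f := 23) [m22_2A] (by decide +kernel) ht h2
  simp only [List.mem_cons, List.not_mem_nil, or_false] at hc
  rcases hc with rfl
  · exact ⟨_, m22_classes.mem m22_2A_mem, ha, _, IsPGroup.of_card m22_2AQ_card, m22_2AQ_spec.2⟩


/-- All irreducible complex characters of the Mathieu group `M₂₂` lie in a single 2-block: any two of them lie in the same block relative to every maximal ideal of the algebraic integers containing 2. -/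
theorem result (M : Ideal Cfsg.AlgInt) (hM : Cfsg.IsPModular 2 M)
    (χ ψ : Cfsg.IrrCharacter ↥Cfsg.Spor.M22) : Cfsg.SameBlock M (χ : ↥Cfsg.Spor.M22 → ℂ) (ψ : ↥Cfsg.Spor.M22 → ℂ) := by
  have := hM.2.1
  exact H32.sameBlock_trans (H32.sameBlock_symm (principal M hM χ)) (principal M hM ψ)

end Cfsg.Agent.S5005
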