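import Cfsg.Statements.S5006
import Cfsg.Agent.H14.Blocks
import Cfsg.Agent.H14.MInv

set_option autoImplicit false
open Cfsg

namespace Cfsg.Agent.S5006

open Cfsg.Agent.H14

theorem c23B : 244823040 / m24_23B.c = 10644480 := by decide +kernel
theorem f23B : fixN (nat_lit 5) (nat_lit 32) (nat_lit 24) m24_23B.X = 1 := by decide +kernel
theorem c23A : 244823040 / m24_23A.c = 10644480 := by decide +kernel
theorem f23A : fixN (nat_lit 5) (nat_lit 32) (nat_lit 24) m24_23A.X = 1 := by decide +kernel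
theorem c21B : 244823040 / m24_21B.c = 11658240 := by decide +kernel
theorem f21B : fixN (nat_lit 5) (nat_lit 32) (nat_lit 24) m24_21B.X = 0 := by decide +kernel
theorem c21A : 244823040 / m24_21A.c = 11658240 := by decide +kernel
theorem f21A : fixN (nat_lit 5) (nat_lit 32) (nat_lit 24) m24_21A.X = 0 := by decide +kernel
theorem c15B : 244823040 / m24_15B.c = 16321536 := by decide +kernel
theorem f15B : fixN (nat_lit 5) (nat_lit 32) (nat_lit 24) m24_15B.X = 1 := by decide +kernel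
theorem c15A : 244823040 / m24_15A.c = 16321536 := by decide +kernel
theorem f15A : fixN (nat_lit 5) (nat_lit 32) (nat_lit 24) m24_15A.X = 1 := by decide +kernel
theorem c14B : 244823040 / m24_14B.c = 17487360 := by decide +kernel
theorem f14B : fixN (nat_lit 5) (nat_lit 32) (nat_lit 24) m24_14B.X = 1 := by decide +kernel
theorem c14A : 244823040 / m24_14A.c = 17487360 := by decide +kernel
theorem f14A : fixN (nat_lit 5) (nat_lit 32) (nat_lit 24) m24_14A.X = 1 := by decide +kernel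
theorem c12B : 244823040 / m24_12B.c = 20401920 := by decide +kernel
theorem f12B : fixN (nat_lit 5) (nat_lit 32) (nat_lit 24) m24_12B.X = 0 := by decide +kernel
theorem c12A : 244823040 / m24_12A.c = 20401920 := by decide +kernel
theorem f12A : fixN (nat_lit 5) (nat_lit 32) (nat_lit 24) m24_12A.X = 0 := by decide +kernel
theorem c11A : 244823040 / m24_11A.c = 22256640 := by decide +kernel
theorem f11A : fixN (nat_lit 5) (nat_lit 32) (nat_lit 24) m24_11A.X = 2 := by decide +kernel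
theorem c10A : 244823040 / m24_10A.c = 12241152 := by decide +kernel
theorem f10A : fixN (nat_lit 5) (nat_lit 32) (nat_lit 24) m24_10A.X = 0 := by decide +kernel
theorem c8A : 244823040 / m24_8A.c = 15301440 := by decide +kernel
theorem f8A : fixN (nat_lit 5) (nat_lit 32) (nat_lit 24) m24_8A.X = 2 := by decide +kernel
theorem c7B : 244823040 / m24_7B.c = 5829120 := by decide +kernel
theorem f7B : fixN (nat_lit 5) (nat_lit 32) (nat_lit 24) m24_7B.X = 3 := by decide +kernel
theorem c7A : 244823040 / m24_7A.c = 5829120 := by decide +kernel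
theorem f7A : fixN (nat_lit 5) (nat_lit 32) (nat_lit 24) m24_7A.X = 3 := by decide +kernel
theorem c6B : 244823040 / m24_6B.c = 10200960 := by decide +kernel
theorem f6B : fixN (nat_lit 5) (nat_lit 32) (nat_lit 24) m24_6B.X = 0 := by decide +kernel
theorem c6A : 244823040 / m24_6A.c = 10200960 := by decide +kernel
theorem f6A : fixN (nat_lit 5) (nat_lit 32) (nat_lit 24) m24_6A.X = 2 := by decide +kernel
theorem c5A : 244823040 / m24_5A.c = 4080384 := by decide +kernel
theorem f5A : fixN (nat_lit 5) (nat_lit 32) (nat_lit 24) m24_5A.X = 4 := by decide +kernel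
theorem c4C : 244823040 / m24_4C.c = 2550240 := by decide +kernel
theorem f4C : fixN (nat_lit 5) (nat_lit 32) (nat_lit 24) m24_4C.X = 0 := by decide +kernel
theorem c4B : 244823040 / m24_4B.c = 1912680 := by decide +kernel
theorem f4B : fixN (nat_lit 5) (nat_lit 32) (nat_lit 24) m24_4B.X = 4 := by decide +kernel
theorem c4A : 244823040 / m24_4A.c = 637560 := by decide +kernel
theorem f4A : fixN (nat_lit 5) (nat_lit 32) (nat_lit 24) m24_4A.X = 0 := by decide +kernel
theorem c3B : 244823040 / m24_3B.c = 485760 := by decide +kernel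
theorem f3B : fixN (nat_lit 5) (nat_lit 32) (nat_lit 24) m24_3B.X = 0 := by decide +kernel
theorem c3A : 244823040 / m24_3A.c = 226688 := by decide +kernel
theorem f3A : fixN (nat_lit 5) (nat_lit 32) (nat_lit 24) m24_3A.X = 6 := by decide +kernel
theorem c2B : 244823040 / m24_2B.c = 31878 := by decide +kernel
theorem f2B : fixN (nat_lit 5) (nat_lit 32) (nat_lit 24) m24_2B.X = 0 := by decide +kernel
theorem c2A : 244823040 / m24_2A.c = 11385 := by decide +kernel
theorem f2A : fixN (nat_lit 5) (nat_lit 32) (nat_lit 24) m24_2A.X = 8 := by decide +kernel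
theorem c1A : 244823040 / m24_1A.c = 1 := by decide +kernel
theorem f1A : fixN (nat_lit 5) (nat_lit 32) (nat_lit 24) m24_1A.X = 24 := by decide +kernel
theorem m23B : m24_23B ∈ m24Cl := by simp [m24Cl]
theorem m23A : m24_23A ∈ m24Cl := by simp [m24Cl]
theorem m21B : m24_21B ∈ m24Cl := by simp [m24Cl]
theorem m21A : m24_21A ∈ m24Cl := by simp [m24Cl]
theorem m15B : m24_15B ∈ m24Cl := by simp [m24Cl]
theorem m15A : m24_15A ∈ m24Cl := by simp [m24Cl]
theorem m14B : m24_14B ∈ m24Cl := by simp [m24Cl]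
theorem m14A : m24_14A ∈ m24Cl := by simp [m24Cl]
theorem m12B : m24_12B ∈ m24Cl := by simp [m24Cl]
theorem m12A : m24_12A ∈ m24Cl := by simp [m24Cl]
theorem m11A : m24_11A ∈ m24Cl := by simp [m24Cl]
theorem m10A : m24_10A ∈ m24Cl := by simp [m24Cl]
theorem m8A : m24_8A ∈ m24Cl := by simp [m24Cl]
theorem m7B : m24_7B ∈ m24Cl := by simp [m24Cl]
theorem m7A : m24_7A ∈ m24Cl := by simp [m24Cl]
theorem m6B : m24_6B ∈ m24Cl := by simp [m24Cl]
theorem m6A : m24_6A ∈ m24Cl := by simp [m24Cl]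
theorem m5A : m24_5A ∈ m24Cl := by simp [m24Cl]
theorem m4C : m24_4C ∈ m24Cl := by simp [m24Cl]
theorem m4B : m24_4B ∈ m24Cl := by simp [m24Cl]
theorem m4A : m24_4A ∈ m24Cl := by simp [m24Cl]
theorem m3B : m24_3B ∈ m24Cl := by simp [m24Cl]
theorem m3A : m24_3A ∈ m24Cl := by simp [m24Cl]
theorem m2B : m24_2B ∈ m24Cl := by simp [m24Cl]
theorem m2A : m24_2A ∈ m24Cl := by simp [m24Cl]
theorem m1A : m24_1A ∈ m24Cl := by simp [m24Cl]
theorem a1 (m : ℕ) (x : ℤ) (d : ((1024 * m : ℕ) : ℤ) ∣ ((226688 : ℕ) : ℤ) * x) : (8 : ℤ) ∣ x := by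
  have := (Dvd.intro (m : ℤ) (by push_cast; ring) : (1024 : ℤ) ∣ (1024 * m : ℕ)).trans d
  clear d
  omega

theorem a3 (m : ℕ) (x : ℤ) (d : ((1024 * m : ℕ) : ℤ) ∣ ((4080384 : ℕ) : ℤ) * x) : (4 : ℤ) ∣ x := by
  have := (Dvd.intro (m : ℤ) (by push_cast; ring) : (1024 : ℤ) ∣ (1024 * m : ℕ)).trans d
  clear d
  omega

theorem a2 (m : ℕ) (hdv : 1024 * m ∣ 244823040) : m % 2 = 1 := by
  obtain ⟨r, hr⟩ := hdv
  by_contra h
  obtain ⟨s, hs⟩ : 2 ∣ m := by omega
  rw [hs, show 1024 * (2 * s) * r = 2048 * (s * r) by ring] at hr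
  omega

theorem arith (m : ℕ) (y3 y5 x7A x11A : ℤ) (l0 : 552 * 1024 * (m : ℤ) + 30 * 226688 * (8 * y3) +
    12 * 4080384 * (4 * y5) + 6 * 5829120 * x7A + 2 * 22256640 * x11A = 0)
    (ln : (1024 * m : ℤ) ^ 2 + 226688 * (8 * y3) ^ 2 + 4080384 * (4 * y5) ^ 2 + 2914560 * x7A ^ 2 +
      22256640 * x11A ^ 2 ≤ 244823040) (hpos : 0 < m) (hodd : m % 2 = 1) : False := by
  have b1 : m ≤ 15 := by nlinarith [sq_nonneg y3, sq_nonneg y5, sq_nonneg x7A, sq_nonneg x11A]
  have b3 : -4 ≤ y3 ∧ y3 ≤ 4 := by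
    constructor <;> nlinarith [sq_nonneg (1024 * m : ℤ), sq_nonneg y5, sq_nonneg x7A, sq_nonneg x11A]
  have b5 : -1 ≤ y5 ∧ y5 ≤ 1 := by
    constructor <;> nlinarith [sq_nonneg (1024 * m : ℤ), sq_nonneg y3, sq_nonneg x7A, sq_nonneg x11A]
  have b7 : -9 ≤ x7A ∧ x7A ≤ 9 := by
    constructor <;> nlinarith [sq_nonneg (1024 * m : ℤ), sq_nonneg y3, sq_nonneg y5, sq_nonneg x11A]
  have b11 : -3 ≤ x11A ∧ x11A ≤ 3 := by
    constructor <;> nlinarith [sq_nonneg (1024 * m : ℤ), sq_nonneg y3, sq_nonneg y5, sq_nonneg x7A]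
  obtain ⟨b5, b5'⟩ := b5
  have : m = 9 ∧ y3 = 0 ∧ y5 = -1 ∧ x7A = 8 ∧ x11A = -2 := by
    clear ln
    interval_cases m <;> interval_cases y5 <;> omega
  obtain ⟨rfl, rfl, rfl, rfl, rfl⟩ := this
  norm_num at ln

set_option maxHeartbeats 2000000 in
theorem no_defect_zero (χ : IrrCharacter M24) :
    2 ∣ Nat.card M24 / charDegree (χ : M24 → ℂ) := by
  by_contra h0
  have hc := H5.isCharacter_of_isIrr χ.2
  have hf := H5.isClassFunction_of_isIrr χ.2
  have hd := (H32.cast_charDegree_irr χ).symm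
  obtain ⟨m, hm⟩ : 1024 ∣ charDegree (χ : M24 → ℂ) := by
    obtain ⟨r, hr⟩ := H32.charDegree_dvd_card χ
    rw [hr, Nat.mul_div_cancel_left _ (H32.charDegree_pos χ)] at h0
    refine Nat.Coprime.dvd_of_dvd_mul_right (k := 2 ^ 10) (Nat.Coprime.pow_left _
      ((Nat.Prime.coprime_iff_not_dvd Nat.prime_two).2 h0)) ?_
    rw [← hr, card_M24]; norm_num
  have hpos : 0 < m := Nat.pos_of_ne_zero fun h => H32.charDegree_ne_zero χ (by rw [hm, h])
  rw [hm] at hd
  have z2A := m24_classes.ext_eq_zero Nat.prime_two h0 m2A (f := 23) (by decide +kernel)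
    (by decide +kernel)
  have z2B := m24_classes.ext_eq_zero Nat.prime_two h0 m2B (f := 23) (by decide +kernel)
    (by decide +kernel)
  have z4A := m24_classes.ext_eq_zero Nat.prime_two h0 m4A (f := 23) (by decide +kernel)
    (by decide +kernel)
  have z4B := m24_classes.ext_eq_zero Nat.prime_two h0 m4B (f := 23) (by decide +kernel)
    (by decide +kernel)
  have z4C := m24_classes.ext_eq_zero Nat.prime_two h0 m4C (f := 23) (by decide +kernel)
    (by decide +kernel)
  have z6A := m24_classes.ext_eq_zero Nat.prime_two h0 m6A (f := 23) (by decide +kernel)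
    (by decide +kernel)
  have z6B := m24_classes.ext_eq_zero Nat.prime_two h0 m6B (f := 23) (by decide +kernel)
    (by decide +kernel)
  have z8A := m24_classes.ext_eq_zero Nat.prime_two h0 m8A (f := 23) (by decide +kernel)
    (by decide +kernel)
  have z10A := m24_classes.ext_eq_zero Nat.prime_two h0 m10A (f := 23) (by decide +kernel)
    (by decide +kernel)
  have z12A := m24_classes.ext_eq_zero Nat.prime_two h0 m12A (f := 23) (by decide +kernel)
    (by decide +kernel)
  have z12B := m24_classes.ext_eq_zero Nat.prime_two h0 m12B (f := 23) (by decide +kernel)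
    (by decide +kernel)
  have z14A := m24_classes.ext_eq_zero Nat.prime_two h0 m14A (f := 23) (by decide +kernel)
    (by decide +kernel)
  have z14B := m24_classes.ext_eq_zero Nat.prime_two h0 m14B (f := 23) (by decide +kernel)
    (by decide +kernel)
  have z1A : extendByZero M24 (χ : M24 → ℂ) (GE.perm m24_1A.X) = (1024 * m : ℕ) := by
    have : GE.perm m24_1A.X = 1 := GE.pk_injective (by
      rw [m24_classes.pk_perm m1A, GE.pk_one]; decide +kernel)
    rw [this, ext_apply _ (one_mem _)]; exact hd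
  obtain ⟨r3A, s3A⟩ := m24_classes.sum_pow hc m3A (m := 3) (by decide +kernel)
  have p3A_2 := m24_classes.ext_pow m24_chain hf m3A m3A 2 (nat_lit 0xea85aa30b10ef13a742b4d262437) (by decide +kernel)
  simp only [Finset.sum_range_succ, Finset.sum_range_zero, pow_zero, pow_one, ext_apply _ (one_mem _),
    p3A_2] at s3A
  rw [show (χ : M24 → ℂ) ⟨1, one_mem _⟩ = (1024 * m : ℕ) from hd] at s3A
  obtain ⟨x3A, i3A⟩ := exists_int_of_mul (m24_classes.isIntegral hc m3A)
    (a := 2) (b := 3 * r3A - 1024 * m) (by norm_num) (by push_cast at s3A ⊢; linear_combination s3A)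
  obtain ⟨r5A, s5A⟩ := m24_classes.sum_pow hc m5A (m := 5) (by decide +kernel)
  have p5A_2 := m24_classes.ext_pow m24_chain hf m5A m5A 2 (nat_lit 0x34e8ad1d05c6cf4c98a34ca4186e2) (by decide +kernel)
  have p5A_3 := m24_classes.ext_pow m24_chain hf m5A m5A 3 (nat_lit 0x4d07559cb8468f64935334a415c23) (by decide +kernel)
  have p5A_4 := m24_classes.ext_pow m24_chain hf m5A m5A 4 (nat_lit 0x260ba28a83c6b29bdb6331c408877) (by decide +kernel)
  simp only [Finset.sum_range_succ, Finset.sum_range_zero, pow_zero, pow_one, ext_apply _ (one_mem _),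
    p5A_2, p5A_3, p5A_4] at s5A
  rw [show (χ : M24 → ℂ) ⟨1, one_mem _⟩ = (1024 * m : ℕ) from hd] at s5A
  obtain ⟨x5A, i5A⟩ := exists_int_of_mul (m24_classes.isIntegral hc m5A)
    (a := 4) (b := 5 * r5A - 1024 * m) (by norm_num) (by push_cast at s5A ⊢; linear_combination s5A)
  obtain ⟨r7A, s7A⟩ := m24_classes.sum_pow hc m7A (m := 7) (by decide +kernel)
  have p7A_2 := m24_classes.ext_pow m24_chain hf m7A m7A 2 (nat_lit 0x19b299e2b7b94c4d616a20640dca2) (by decide +kernel)
  have p7A_3 := m24_classes.ext_pow m24_chain hf m7A m7B 3 (nat_lit 0x25663ce356050ab52126bca470ae3) (by decide +kernel)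
  have p7A_4 := m24_classes.ext_pow m24_chain hf m7A m7A 4 (nat_lit 0x5ab299a2c40d6a4c1a77d2e413825) (by decide +kernel)
  have p7A_5 := m24_classes.ext_pow m24_chain hf m7A m7B 5 (nat_lit 0x4910a9226a158f6aac93ac53b846e) (by decide +kernel)
  have p7A_6 := m24_classes.ext_pow m24_chain hf m7A m7B 6 (nat_lit 0x259634e3050a8b3bdb2aa024195d7) (by decide +kernel)
  simp only [Finset.sum_range_succ, Finset.sum_range_zero, pow_zero, pow_one, ext_apply _ (one_mem _),
    p7A_2, p7A_3, p7A_4, p7A_5, p7A_6] at s7A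
  rw [show (χ : M24 → ℂ) ⟨1, one_mem _⟩ = (1024 * m : ℕ) from hd] at s7A
  obtain ⟨x7A, i7A⟩ := exists_int_of_mul ((m24_classes.isIntegral hc m7A).add (m24_classes.isIntegral hc m7B))
    (a := 3) (b := 7 * r7A - 1024 * m) (by norm_num) (by push_cast at s7A ⊢; linear_combination s7A)
  obtain ⟨r11A, s11A⟩ := m24_classes.sum_pow hc m11A (m := 11) (by decide +kernel)
  have p11A_2 := m24_classes.ext_pow m24_chain hf m11A m11A 2 (nat_lit 0x3017008ca7b09f2ade8462633535c8) (by decide +kernel)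
  have p11A_3 := m24_classes.ext_pow m24_chain hf m11A m11A 3 (nat_lit 0x5aaa921c2bb68c5c60699d25091e3) (by decide +kernel)
  have p11A_4 := m24_classes.ext_pow m24_chain hf m11A m11A 4 (nat_lit 0x2aa6959177d2645b44e3c470484ac) (by decide +kernel)
  have p11A_5 := m24_classes.ext_pow m24_chain hf m11A m11A 5 (nat_lit 0x22b6938d0145a359caaa4c2f232e9) (by decide +kernel)
  have p11A_6 := m24_classes.ext_pow m24_chain hf m11A m11A 6 (nat_lit 0x311650c00e9b12aabec3b8a474468d) (by decide +kernel)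
  have p11A_7 := m24_classes.ext_pow m24_chain hf m11A m11A 7 (nat_lit 0x30d60094943dc48aa6707b14e6cad1) (by decide +kernel)
  have p11A_8 := m24_classes.ext_pow m24_chain hf m11A m11A 8 (nat_lit 0x3156309213a26f1ab1c013db6920ea) (by decide +kernel)
  have p11A_9 := m24_classes.ext_pow m24_chain hf m11A m11A 9 (nat_lit 0x1aae92acf2cce15d2e88b5821a604) (by decide +kernel)
  have p11A_10 := m24_classes.ext_pow m24_chain hf m11A m11A 10 (nat_lit 0x341640807673d8da88e54dd148aa72) (by decide +kernel)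
  simp only [Finset.sum_range_succ, Finset.sum_range_zero, pow_zero, pow_one, ext_apply _ (one_mem _),
    p11A_2, p11A_3, p11A_4, p11A_5, p11A_6, p11A_7, p11A_8, p11A_9, p11A_10] at s11A
  rw [show (χ : M24 → ℂ) ⟨1, one_mem _⟩ = (1024 * m : ℕ) from hd] at s11A
  obtain ⟨x11A, i11A⟩ := exists_int_of_mul (m24_classes.isIntegral hc m11A)
    (a := 10) (b := 11 * r11A - 1024 * m) (by norm_num) (by push_cast at s11A ⊢; linear_combination s11A)
  have e1 := m24_classes.sum_fix_pow χ.2 hd 1 (by norm_num; omega)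
  simp only [m24Cl, List.map_cons, List.map_nil, List.sum_cons, List.sum_nil, card_M24,
    f1A, c1A, f2A, c2A, z2A, f2B, c2B, z2B, f3A, c3A, f3B, c3B, f4A, c4A, z4A, f4B, c4B, z4B, f4C, c4C, z4C, f5A, c5A, f6A, c6A, z6A, f6B, c6B, z6B, f7A, c7A, f7B, c7B, f8A, c8A, z8A, f10A, c10A, z10A, f11A, c11A, f12A, c12A, z12A, f12B, c12B, z12B, f14A, c14A, z14A, f14B, c14B, z14B, f15A, c15A, f15B, c15B, f21A, c21A, f21B, c21B, f23A, c23A, f23B, c23B, z1A] at e1
  have e2 := m24_classes.sum_fix_pow χ.2 hd 2 (by norm_num; omega)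
  simp only [m24Cl, List.map_cons, List.map_nil, List.sum_cons, List.sum_nil, card_M24,
    f1A, c1A, f2A, c2A, z2A, f2B, c2B, z2B, f3A, c3A, f3B, c3B, f4A, c4A, z4A, f4B, c4B, z4B, f4C, c4C, z4C, f5A, c5A, f6A, c6A, z6A, f6B, c6B, z6B, f7A, c7A, f7B, c7B, f8A, c8A, z8A, f10A, c10A, z10A, f11A, c11A, f12A, c12A, z12A, f12B, c12B, z12B, f14A, c14A, z14A, f14B, c14B, z14B, f15A, c15A, f15B, c15B, f21A, c21A, f21B, c21B, f23A, c23A, f23B, c23B, z1A] at e2
  have en := m24_classes.sum_norm_sq χ.2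
  simp only [m24Cl, List.map_cons, List.map_nil, List.sum_cons, List.sum_nil, card_M24,
    c1A, c2A, z2A, c2B, z2B, c3A, c3B, c4A, z4A, c4B, z4B, c4C, z4C, c5A, c6A, z6A, c6B, z6B, c7A, c7B, c8A, z8A, c10A, z10A, c11A, c12A, z12A, c12B, z12B, c14A, z14A, c14B, z14B, c15A, c15B, c21A, c21B, c23A, c23B, z1A] at en
  have hn : ∀ (a b : ℂ) (t : ℤ), a + b = t → (t : ℝ) ^ 2 ≤ 2 * (‖a‖ ^ 2 + ‖b‖ ^ 2) := fun a b t h => by
    have h1 := norm_add_le a b
    rw [h, Complex.norm_intCast] at h1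
    have h2 : (t : ℝ) ^ 2 ≤ (‖a‖ + ‖b‖) ^ 2 := by
      rw [← sq_abs]; exact pow_le_pow_left₀ (abs_nonneg _) h1 2
    nlinarith [sq_nonneg (‖a‖ - ‖b‖)]
  have n7 := hn _ _ _ i7A
  have d3 := m24_classes.dvd_mul χ.2 hd m3A i3A
  have d5 := m24_classes.dvd_mul χ.2 hd m5A i5A
  rw [card_M24, c3A] at d3
  rw [card_M24, c5A] at d5
  rw [i3A, i5A, i11A] at e1 e2 en
  generalize extendByZero M24 (χ : M24 → ℂ) (GE.perm m24_3B.X) = v3B at e1 e2 en
  generalize extendByZero M24 (χ : M24 → ℂ) (GE.perm m24_7A.X) = v7A at e1 e2 en i7A n7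
  generalize extendByZero M24 (χ : M24 → ℂ) (GE.perm m24_7B.X) = v7B at e1 e2 en i7A n7
  generalize extendByZero M24 (χ : M24 → ℂ) (GE.perm m24_15A.X) = v15A at e1 e2 en
  generalize extendByZero M24 (χ : M24 → ℂ) (GE.perm m24_15B.X) = v15B at e1 e2 en
  generalize extendByZero M24 (χ : M24 → ℂ) (GE.perm m24_21A.X) = v21A at e1 e2 en
  generalize extendByZero M24 (χ : M24 → ℂ) (GE.perm m24_21B.X) = v21B at e1 e2 en
  generalize extendByZero M24 (χ : M24 → ℂ) (GE.perm m24_23A.X) = v23A at e1 e2 en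
  generalize extendByZero M24 (χ : M24 → ℂ) (GE.perm m24_23B.X) = v23B at e1 e2 en
  have l0 : 552 * 1024 * (m : ℤ) + 30 * 226688 * x3A + 12 * 4080384 * x5A + 6 * 5829120 * x7A +
      2 * 22256640 * x11A = 0 := by
    have : 552 * 1024 * (m : ℂ) + 30 * 226688 * x3A + 12 * 4080384 * x5A + 6 * 5829120 * x7A +
        2 * 22256640 * x11A = 0 := by
      rw [← i7A]; push_cast at e1 e2; linear_combination e2 - e1
    exact_mod_cast this
  have ln : (1024 * m : ℤ) ^ 2 + 226688 * x3A ^ 2 + 4080384 * x5A ^ 2 + 2914560 * x7A ^ 2 +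
      22256640 * x11A ^ 2 ≤ 244823040 := by
    have : (1024 * m : ℝ) ^ 2 + 226688 * x3A ^ 2 + 4080384 * x5A ^ 2 + 2914560 * x7A ^ 2 +
        22256640 * x11A ^ 2 ≤ 244823040 := by
      simp only [Complex.norm_natCast, Complex.norm_intCast, sq_abs, norm_zero] at en
      push_cast at en
      linarith [sq_nonneg ‖v3B‖,
        sq_nonneg ‖v15A‖,
        sq_nonneg ‖v15B‖,
        sq_nonneg ‖v21A‖,
        sq_nonneg ‖v21B‖,
        sq_nonneg ‖v23A‖,
        sq_nonneg ‖v23B‖]
    exact_mod_cast this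
  have hdv := H32.charDegree_dvd_card χ
  rw [hm, card_M24] at hdv
  obtain ⟨y3, h3⟩ := a1 m x3A d3
  obtain ⟨y5, h5⟩ := a3 m x5A d5
  rw [h3, h5] at l0 ln
  have hodd := a2 m hdv
  exact arith m y3 y5 x7A x11A l0 ln hpos hodd

theorem principal (M : Ideal AlgInt) (hM : IsPModular 2 M) (χ : IrrCharacter M24) :
    SameBlock M (fun _ => 1) (χ : M24 → ℂ) := by
  refine (principal_or_defect_zero hM (fun t ht h2 => ?_) χ).resolve_right
    (not_not.2 (no_defect_zero χ))
  obtain ⟨c, hc, ha⟩ := m24_classes.conj_of_orderOf (f := 23) [m24_2A, m24_2B] (by decide +kernel) ht h2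
  simp only [List.mem_cons, List.not_mem_nil, or_false] at hc
  rcases hc with rfl | rfl
  · exact ⟨_, m24_classes.mem m24_2A_mem, ha, _, IsPGroup.of_card m24_2AQ_card, m24_2AQ_spec.2⟩
  · exact ⟨_, m24_classes.mem m24_2B_mem, ha, _, IsPGroup.of_card m24_2BQ_card, m24_2BQ_spec.2⟩


/-- All irreducible complex characters of the Mathieu group `M₂₄` lie in a single 2-block: any two of them lie in the same block relative to every maximal ideal of the algebraic integers containing 2. -/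
theorem result (M : Ideal Cfsg.AlgInt) (hM : Cfsg.IsPModular 2 M)
    (χ ψ : Cfsg.IrrCharacter ↥Cfsg.M24) : Cfsg.SameBlock M (χ : ↥Cfsg.M24 → ℂ) (ψ : ↥Cfsg.M24 → ℂ) := by
  have := hM.2.1
  exact H32.sameBlock_trans (H32.sameBlock_symm (principal M hM χ)) (principal M hM ψ)

end Cfsg.Agent.S5006
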