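import Cfsg.Statements.S5015
import Cfsg.Agent.H90.RankOne2

set_option autoImplicit false
open Cfsg

namespace Cfsg.Agent.S5015
open Cfsg.Agent.H90


/-- Let a group Y act doubly transitively on a set Ω with at least three points, and suppose that the stabilizer of a point α contains a nilpotent subgroup A, normalized by that stabilizer, which acts regularly on the points other than α. Then for any y in Y moving α, the subgroups A and y A y⁻¹ are the unipotent subgroups of a rank one group, and the normal closure of A in Y (the subgroup generated by all conjugates of A) is generated by A and y A y⁻¹ alone. -/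
theorem result {Y Ω : Type*} [Group Y] [MulAction Y Ω]
    (h2 : MulAction.IsMultiplyPretransitive Y Ω 2) (hΩ : 3 ≤ ENat.card Ω) (α : Ω) (A : Subgroup Y)
    (hA : A ≤ MulAction.stabilizer Y α) (hAn : ∀ y ∈ MulAction.stabilizer Y α, Cfsg.conjBy A y = A)
    (hnil : Group.IsNilpotent A) (hreg : ∀ β γ : Ω, β ≠ α → γ ≠ α → ∃! a : Y, a ∈ A ∧ a • β = γ)
    (y : Y) (hy : y ∉ MulAction.stabilizer Y α) :
    Cfsg.IsRankOnePair A (Cfsg.conjBy A y) ∧ Subgroup.normalClosure (A : Set Y) = A ⊔ Cfsg.conjBy A y := by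
  classical
  have hstab : ∀ g g' : Y, g • α = g' • α → A ^~ g⁻¹ = A ^~ g'⁻¹ := by
    intro g g' e
    have h1 : g'⁻¹ * g ∈ MulAction.stabilizer Y α := by
      rw [MulAction.mem_stabilizer_iff, mul_smul, e, inv_smul_smul]
    have h2 := hAn _ h1
    rw [conjBy_eq_rc] at h2
    calc A ^~ g⁻¹ = A ^~ (g'⁻¹ * g)⁻¹ ^~ g'⁻¹ := by rw [rc_rc]; congr 1; group
      _ = _ := by rw [h2]
  have hfix : ∀ a ∈ A, a • α = α := fun a ha => hA ha
  have hfree : ∀ a ∈ A, ∀ β, β ≠ α → a • β = β → a = 1 := by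
    intro a ha β hβ e
    obtain ⟨a', -, hu⟩ := hreg β β hβ hβ
    rw [hu a ⟨ha, e⟩, hu 1 ⟨A.one_mem, one_smul _ _⟩]
  have hthird : ∀ β : Ω, ∃ γ, γ ≠ α ∧ γ ≠ β := by
    intro β
    by_contra hn
    push Not at hn
    have h1 : (Set.univ : Set Ω) ⊆ {α, β} := by
      intro γ _
      by_cases hγ : γ = α
      · exact Or.inl hγ
      · exact Or.inr (hn γ hγ)
    have h3 : (Set.univ : Set Ω).encard ≤ 2 :=
      (Set.encard_le_encard h1).trans ((Set.encard_insert_le _ _).trans (by simp; rfl))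
    rw [Set.encard_univ] at h3
    have := hΩ.trans h3
    norm_num at this
  -- the pair condition for any two points
  have hne : ∀ g : Y, g • α ≠ α → A ≠ A ^~ g⁻¹ := by
    intro g hg e
    obtain ⟨γ, hγ1, hγ2⟩ := hthird (g • α)
    obtain ⟨a, ⟨ha, ea⟩, -⟩ := hreg (g • α) γ hg hγ1
    rw [e, mem_rc] at ha
    have := hfix _ ha
    rw [inv_inv, mul_smul, mul_smul, ea, inv_smul_eq_iff] at this
    exact hγ2 this
  have hcond : ∀ g : Y, g • α ≠ α → RankOneCondition A (A ^~ g⁻¹) := by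
    intro g hg a ha ha1
    have h1 : g⁻¹ • α ≠ α := by
      intro e; apply hg; rw [inv_smul_eq_iff] at e; exact e.symm
    have h3 : g⁻¹ • a⁻¹ • g • α ≠ α := by
      intro e
      rw [inv_smul_eq_iff] at e
      exact ha1 (inv_eq_one.1 (hfree _ (A.inv_mem ha) _ hg e))
    obtain ⟨c, ⟨hc, ec⟩, -⟩ := hreg _ _ h1 h3
    refine ⟨g * c⁻¹ * g⁻¹, ?_, ?_, ?_⟩
    · rw [mem_rc]; simpa [mul_assoc] using A.inv_mem hc
    · intro e
      have hc1 : c = 1 := by
        have : c⁻¹ = g⁻¹ * (g * c⁻¹ * g⁻¹) * g := by group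
        rw [e] at this
        simpa using this
      rw [hc1, one_smul, smul_left_cancel_iff, eq_inv_smul_iff, hfix a ha] at ec
      exact hg ec.symm
    · change A ^~ _ = A ^~ g⁻¹ ^~ a
      rw [rc_rc]
      have := hstab (g * c * g⁻¹) (a⁻¹ * g) (by rw [mul_smul, mul_smul, ec, smul_inv_smul, mul_smul])
      convert this using 2 <;> group
  have hy' : y • α ≠ α := hy
  have hR : IsRankOnePair A (A ^~ y⁻¹) := by
    refine ⟨hne y hy', hnil, rc_nilpotent hnil _, hcond y hy', ?_⟩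
    have h1 : y⁻¹ • α ≠ α := by
      intro e; apply hy'; rw [inv_smul_eq_iff] at e; exact e.symm
    intro b hb hb1
    obtain ⟨a, ha, rfl⟩ := exists_of_mem_rc hb
    have ha1 : a ≠ 1 := by rintro rfl; simp at hb1
    obtain ⟨c, hc, hc1, e⟩ := hcond y⁻¹ h1 a ha ha1
    refine ⟨y * c * y⁻¹, ?_, ?_, ?_⟩
    · rw [mem_rc] at hc; simpa using hc
    · intro e1; apply hc1
      have : c = y⁻¹ * (y * c * y⁻¹) * y := by group
      rw [this, e1]; simp
    · change A ^~ y⁻¹ ^~ _ = A ^~ _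
      change A ^~ c = A ^~ y⁻¹⁻¹ ^~ a at e
      have e2 : A ^~ c ^~ y⁻¹ = A ^~ y⁻¹⁻¹ ^~ a ^~ y⁻¹ := by rw [e]
      simp only [rc_rc] at e2 ⊢
      convert e2 using 2 <;> group
  rw [conjBy_eq_rc]
  refine ⟨hR, le_antisymm ?_ ?_⟩
  · refine (Subgroup.closure_le _).2 ?_
    intro x hx
    rw [Group.mem_conjugatesOfSet_iff] at hx
    obtain ⟨a, ha, hx⟩ := hx
    obtain ⟨g, rfl⟩ := isConj_iff.1 hx
    have h1 : g * a * g⁻¹ ∈ A ^~ g⁻¹ := by simpa using conj_mem_rc ha g⁻¹
    by_cases hg : g • α = α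
    · rw [hstab g 1 (by rw [hg, one_smul]), inv_one, rc_one] at h1
      exact Subgroup.mem_sup_left h1
    · obtain ⟨c, ⟨hc, ec⟩, -⟩ := hreg _ _ hy' hg
      rw [hstab g (c * y) (by rw [mul_smul, ec]), mul_inv_rev, ← rc_rc] at h1
      exact rc_le_of_mem le_sup_right (Subgroup.mem_sup_left (A.inv_mem hc)) h1
  · refine sup_le Subgroup.le_normalClosure ?_
    intro x hx
    obtain ⟨a, ha, rfl⟩ := exists_of_mem_rc hx
    have := Subgroup.normalClosure_normal.conj_mem a (Subgroup.le_normalClosure (H := A) ha) y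
    simpa using this

end Cfsg.Agent.S5015
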