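import Cfsg.Statements.S5017
import Cfsg.Agent.H90.RankOne2

set_option autoImplicit false
open Cfsg

namespace Cfsg.Agent.S5017
open Cfsg.Agent.H90


/-- Let X be a rank one group with unipotent subgroups A and B and N a normal subgroup of X. Then either X = N A or N lies in the centre of X. Consequently a perfect rank one group is quasisimple. -/
theorem result {X : Type*} [Group X] {A B : Subgroup X} (h : Cfsg.IsRankOneGroup X A B) :
    (∀ N : Subgroup X, N.Normal → N ⊔ A = ⊤ ∨ N ≤ Subgroup.center X) ∧
    (Group.IsPerfect X → Cfsg.IsQuasisimple X) := by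
  refine ⟨fun N hN => ?_, r1_quasisimple h.2 h.1⟩
  have hn : ∀ x ∈ A ⊔ B, N ^~ x = N := fun x _ => by
    rw [rc_eq_self_iff_mem_normalizer, Subgroup.normalizer_eq_top]; trivial
  rcases r1_normal h.2 (by rw [h.1]; exact le_top) hn with h1 | h1
  · left; rwa [h.1, top_le_iff] at h1
  · right
    intro n hn
    rw [Subgroup.mem_center_iff]
    intro y
    exact h1 n hn y (by rw [h.1]; trivial)

end Cfsg.Agent.S5017
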