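import Cfsg.Statements.S5018
import Cfsg.Agent.H90.RankOne2

set_option autoImplicit false
open Cfsg

namespace Cfsg.Agent.S5018
open Cfsg.Agent.H90


/-- A rank one group is not nilpotent, and its second centre equals its centre. -/
theorem result {X : Type*} [Group X] {A B : Subgroup X} (h : Cfsg.IsRankOneGroup X A B) :
    Subgroup.upperCentralSeries X 2 = Subgroup.center X ∧ ¬ Group.IsNilpotent X := by
  constructor
  · refine le_antisymm ?_ ?_
    · intro g hg
      have hg' := Subgroup.inv_mem _ hg
      rw [Subgroup.mem_upperCentralSeries_succ_iff] at hg'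
      rw [Subgroup.mem_center_iff]
      intro x
      refine r1_second_center h.2 (by rw [h.1]; trivial) ?_ x (by rw [h.1]; trivial)
      intro x _ y _
      have h1 := hg' x⁻¹
      rw [Subgroup.upperCentralSeries_one, Subgroup.mem_center_iff, commutatorElement_def, inv_inv, inv_inv] at h1
      exact h1 y
    · rw [← Subgroup.upperCentralSeries_one]
      exact Subgroup.upperCentralSeries_mono _ (by norm_num)
  · intro hn
    exact r1_not_nilpotent h.2 (U := ⊤) le_top le_top inferInstance

end Cfsg.Agent.S5018
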