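import Cfsg.Statements.S5033
import Cfsg.Agent.H90.Root4

set_option autoImplicit false
open Cfsg

namespace Cfsg.Agent.S5033
open Cfsg.Agent.H90

theorem quasisimple_top {G : Type*} [Group G] (h : IsQuasisimple G) : IsQuasisimple ↥(⊤ : Subgroup G) := by
  refine ⟨Group.IsPerfect.top_iff.2 h.1, ?_⟩
  have := h.2
  have e : (↥(⊤ : Subgroup G) ⧸ Subgroup.center ↥(⊤ : Subgroup G)) ≃* (G ⧸ Subgroup.center G) :=
    QuotientGroup.congr _ _ Subgroup.topEquiv (by
      ext x
      simp only [Subgroup.mem_map, Subgroup.mem_center_iff]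
      constructor
      · rintro ⟨y, hy, rfl⟩ g
        exact congrArg Subtype.val (hy ⟨g, trivial⟩)
      · intro hx
        exact ⟨⟨x, trivial⟩, fun g => Subtype.ext (hx g), rfl⟩)
  exact e.isSimpleGroup

/-- Quasisimplicity criterion for groups generated by abstract root subgroups. Let S be a set of abstract root subgroups of G with more than one member such that: the graph of rank one pairs on S is connected; no two different members of S have the same set of commuting members of S; if S is degenerate then every member of S has more than three elements; and every rank one pair in S is special. Then for every A ∈ S one has G = G' A with A ∩ G' ≠ 1, and the commutator subgroup G' is quasisimple. Moreover G is perfect if S is non-degenerate, or if some rank one pair A, B in S generates a perfect group. -/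
theorem result {G : Type*} [Group G] {S : Set (Subgroup G)} (hS : Cfsg.IsRootSubgroupSet S) (h2 : ∃ A ∈ S, ∃ B ∈ S, A ≠ B)
    (h1 : Cfsg.IsConnectedFamily (Cfsg.FAdj S) S)
    (h2' : ∀ A ∈ S, ∀ C ∈ S, A ≠ C → Cfsg.centralizingMembers S A ≠ Cfsg.centralizingMembers S C)
    (h3 : Cfsg.IsDegenerateRootSet S → ∀ A ∈ S, 3 < ENat.card A)
    (h4 : ∀ A ∈ S, ∀ B ∈ Cfsg.rankOnePartners S A, Cfsg.IsSpecialRankOnePair A B) :
    (∀ A ∈ S, commutator G ⊔ A = ⊤ ∧ A ⊓ commutator G ≠ ⊥) ∧ Cfsg.IsQuasisimple ↥(commutator G) ∧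
    (Cfsg.IsNondegenerateRootSet S → commutator G = ⊤) ∧
    ((∃ A ∈ S, ∃ B ∈ Cfsg.rankOnePartners S A, Group.IsPerfect ↥(A ⊔ B)) → commutator G = ⊤) := by
  obtain ⟨A₀, hA₀, B₀, hB₀, hne₀⟩ := h2
  have hF : ∀ X ∈ S, ∃ Y ∈ S, IsRankOnePair X Y := fun X hX =>
    Conn.partner (h1 A₀ hA₀ X hX) (Conn.partner_of_ne (h1 A₀ hA₀ B₀ hB₀) hne₀.symm)
  have hcl : IsRootSubgroupClass S := ⟨hS, ⟨A₀, hA₀⟩, fun C hC D hD => by
    obtain ⟨g, e⟩ := Conn.conj (h1 C hC D hD)
    exact ⟨g⁻¹, e⟩⟩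
  have hnd : ¬ IsDegenerateRootSet S → IsNondegenerateRootSet S := by
    intro h
    unfold IsDegenerateRootSet at h
    push Not at h
    obtain ⟨A, hA, B, hB, h⟩ := h
    have s := sc_of_rcc h
    obtain ⟨D, hD, hAD⟩ := hF A hA
    exact ⟨⟨A, hA, _, s.mem, s.ne_left hS, cm_iff.1 s.cA.symm⟩, ⟨A, hA, D, hD, hAD⟩, A, hA, B, hB, h⟩
  -- a normal subgroup containing one member is everything
  have hall : ∀ (N : Subgroup G) [N.Normal], ∀ A ∈ S, A ≤ N → N = ⊤ := by
    intro N hN A hA hle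
    refine rs_eq_top hS fun X hX => ?_
    obtain ⟨g, rfl⟩ := class_conj hcl hA hX
    have := rc_mono hle g
    rwa [rc_eq_self_iff_mem_normalizer.2 (by rw [Subgroup.normalizer_eq_top]; trivial : g ∈ Subgroup.normalizer (N : Set G))] at this
  have hperf : commutator G = ⊤ := by
    by_cases hd : IsDegenerateRootSet S
    · obtain ⟨D, hD, h⟩ := hF A₀ hA₀
      have := sp_perfect (h4 A₀ hA₀ D ⟨hD, h⟩) (rs_cm hS hA₀) (h3 hd A₀ hA₀)
      exact hall _ A₀ hA₀ (le_sup_left.trans (this.symm.le.trans (Subgroup.commutator_mono le_top le_top)))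
    · obtain ⟨E, hE, s⟩ := class_sc hcl (hnd hd) hA₀
      exact hall _ _ s.mem (Subgroup.commutator_mono le_top le_top)
  have hP : Group.IsPerfect G := ⟨hperf⟩
  refine ⟨fun A hA => ?_, ?_, fun _ => hperf, fun _ => hperf⟩
  · rw [hperf]
    exact ⟨top_sup_eq _, by rw [inf_top_eq]; exact hS.ne_bot A hA⟩
  rw [hperf]
  refine quasisimple_top ⟨hP, ?_⟩
  obtain ⟨D₀, hD₀, hAD₀⟩ := hF A₀ hA₀
  have hnt : Nontrivial (G ⧸ Subgroup.center G) := by
    rw [QuotientGroup.nontrivial_iff]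
    intro e
    apply r1_not_cm hAD₀
    intro a _ b _
    have : b ∈ Subgroup.center G := by rw [e]; trivial
    exact Subgroup.mem_center_iff.1 this a
  refine { eq_bot_or_eq_top_of_normal := fun M hM => ?_ }
  let N := M.comap (QuotientGroup.mk' (Subgroup.center G))
  have hN : N.Normal := hM.comap _
  by_cases hNtop : N = ⊤
  · right
    rw [eq_top_iff]
    intro q _
    obtain ⟨x, rfl⟩ := QuotientGroup.mk'_surjective _ q
    have : x ∈ N := by rw [hNtop]; trivial
    exact this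
  left
  let f := QuotientGroup.mk' N
  have hker : ∀ x, f x = 1 ↔ x ∈ N := fun x => QuotientGroup.eq_one_iff x
  have hcomm : ∀ {P Q : Subgroup G}, Cm (P.map f) (Q.map f) → ⁅P, Q⁆ ≤ N := by
    intro P Q h
    rw [Subgroup.commutator_le]
    intro x hx y hy
    rw [← hker, map_commutatorElement, commutatorElement_eq_one_iff_mul_comm]
    exact h _ ⟨x, hx, rfl⟩ _ ⟨y, hy, rfl⟩
  have hmapcm : ∀ {P Q : Subgroup G}, Cm P Q → Cm (P.map f) (Q.map f) := by
    rintro P Q h _ ⟨x, hx, rfl⟩ _ ⟨y, hy, rfl⟩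
    rw [← map_mul, ← map_mul, h x hx y hy]
  have hno : ∀ P ∈ S, ∀ Q ∈ S, IsRankOnePair P Q → P.map f ≠ Q.map f := by
    intro P hP Q hQ h e
    apply hNtop
    by_cases hd : IsDegenerateRootSet S
    · have h5 := sp_perfect (h4 P hP Q ⟨hQ, h⟩) (rs_cm hS hP) (h3 hd P hP)
      refine hall N P hP (le_sup_left.trans (h5.symm.le.trans (hcomm ?_)))
      rw [Subgroup.map_sup, ← e, sup_idem]
      exact hmapcm (rs_cm hS hP)
    · obtain ⟨C, hC, F, hF', hl, s1, -⟩ := class_exists_ln_sc hcl (hnd hd) hP hQ h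
      refine hall N F hF' (s1.eq ▸ hcomm ?_)
      rw [← e]
      exact hmapcm hl.cm.symm
  have hinj : ∀ P ∈ S, ∀ a ∈ P, a ∈ N → a = 1 := by
    intro P hP a ha haN
    obtain ⟨Q, hQ, h⟩ := hF P hP
    exact ((r1_map_or f h).resolve_left (hno P hP Q hQ h)).2 a ha ((hker a).2 haN)
  have hsub : ∀ P ∈ S, ∀ Q ∈ S, P.map f = Q.map f → ∀ E ∈ S, Cm E P → Cm E Q := by
    intro P hP Q hQ e E hE hc
    have h5 := hmapcm hc
    rw [e] at h5
    rcases rs_tri hS hE hQ with h | h | h
    · exact h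
    · exact absurd h5 (r1_not_cm ((r1_map_or f h).resolve_left (hno E hE Q hQ h)).1)
    · exact absurd (hall N _ h.mem (hcomm h5)) hNtop
  have hfix : ∀ n ∈ N, ∀ P ∈ S, P ^~ n = P := by
    intro n hn P hP
    by_contra hne
    have e : (P ^~ n).map f = P.map f := by rw [rc_map, (hker n).2 hn, rc_one]
    refine h2' _ (rs_rc hS hP n) P hP hne (Set.Subset.antisymm ?_ ?_)
    · exact fun E hE => ⟨hE.1, cm_iff_le.1 (hsub _ (rs_rc hS hP n) P hP e E hE.1 (cm_iff_le.2 hE.2))⟩
    · exact fun E hE => ⟨hE.1, cm_iff_le.1 (hsub P hP _ (rs_rc hS hP n) e.symm E hE.1 (cm_iff_le.2 hE.2))⟩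
  rw [eq_bot_iff]
  intro q hq
  obtain ⟨n, rfl⟩ := QuotientGroup.mk'_surjective _ q
  have hn : n ∈ N := hq
  rw [Subgroup.mem_bot, QuotientGroup.mk'_apply, QuotientGroup.eq_one_iff, Subgroup.mem_center_iff]
  intro g
  refine Subgroup.mem_centralizer_singleton_iff.1 (rs_mem_of_all hS (K := Subgroup.centralizer {n}) ?_ g)
  intro P hP a ha
  rw [Subgroup.mem_centralizer_singleton_iff]
  have m1 : n⁻¹ * a * n ∈ P := by rw [← hfix n hn P hP]; exact conj_mem_rc ha n
  have m2 : a⁻¹ * (n⁻¹ * a * n) ∈ N := by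
    have := N.mul_mem (hN.conj_mem' _ (N.inv_mem hn) a) hn
    simpa [mul_assoc] using this
  have := hinj P hP _ (P.mul_mem (P.inv_mem ha) m1) m2
  calc a * n = n * a * (a⁻¹ * (n⁻¹ * a * n)) := by group
    _ = _ := by rw [this, mul_one]

end Cfsg.Agent.S5033
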