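import Cfsg.Statements.S5020
import Cfsg.Agent.H90.Stein2
import Cfsg.Agent.S5033

set_option autoImplicit false
open Cfsg

namespace Cfsg.Agent.S5020
open Cfsg.Agent.H90

theorem zpowers_eq {X : Type*} [Group X] {A : Subgroup X} {p : ℕ} (hp : p.Prime) (hc : Nat.card A = p) {a : X}
    (ha : a ∈ A) (ha1 : a ≠ 1) : A = Subgroup.zpowers a := by
  haveI := Fact.mk hp
  have := (Subgroup.zpowers (⟨a, ha⟩ : A)).eq_bot_or_eq_top_of_prime_card (hp := by rw [hc]; infer_instance)
  rcases this with h | h
  · exact absurd (congrArg Subtype.val (Subgroup.zpowers_eq_bot.1 h)) ha1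
  · apply le_antisymm
    · intro x hx
      have : (⟨x, hx⟩ : A) ∈ Subgroup.zpowers (⟨a, ha⟩ : A) := h ▸ Subgroup.mem_top _
      obtain ⟨n, hn⟩ := this
      exact ⟨n, congrArg Subtype.val hn⟩
    · exact Subgroup.zpowers_le.2 ha

theorem small {X : Type*} [Group X] {A B : Subgroup X} (h : A ⊔ B = ⊤)
    (hs : Cfsg.IsSpecialRankOnePair A B) {p : ℕ} [hp : Fact p.Prime] (hc : Nat.card A = p) :
    Nonempty (X ≃* Matrix.SpecialLinearGroup (Fin 2) (ZMod p)) ∨
        Nonempty (X ≃* Matrix.ProjectiveSpecialLinearGroup (Fin 2) (ZMod p)) := by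
  obtain ⟨a, ha, ha1⟩ := r1_exists_ne_one hs.1
  obtain ⟨b, hb, hb1, e⟩ := r1_ex hs.1 ha ha1
  have hap : a ^ p = 1 := by
    have := pow_card_eq_one' (x := (⟨a, ha⟩ : A))
    rw [hc] at this
    exact congrArg Subtype.val this
  have hcB : Nat.card B = p := by
    rw [← sp_n_left hs ha hb e, ← hc]
    exact Subgroup.card_map_of_injective (MulAut.conj _).injective
  have hX : Subgroup.closure ({a, b} : Set X) = ⊤ := by
    rw [eq_top_iff, ← h]
    apply sup_le
    · rw [zpowers_eq hp.out hc ha ha1]
      exact Subgroup.zpowers_le.2 (Subgroup.subset_closure (by simp))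
    · rw [zpowers_eq hp.out hcB hb hb1]
      exact Subgroup.zpowers_le.2 (Subgroup.subset_closure (by simp))
  have := sp_minimal hs ha hb e hap
  rw [hX] at this
  rcases this with ⟨⟨f⟩⟩ | ⟨⟨f⟩⟩
  · exact Or.inl ⟨Subgroup.topEquiv.symm.trans f⟩
  · exact Or.inr ⟨Subgroup.topEquiv.symm.trans f⟩

/-- Let X be a special rank one group with abelian unipotent subgroups A and B, and H = N(A) ∩ N(B) its diagonal subgroup. Then either A has at most three elements and X is isomorphic to SL₂(2), SL₂(3) or PSL₂(3); or X = X' A with the commutator subgroup X' quasisimple and the commutator subgroup ⁅A, H⁆ having more than three elements. -/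
theorem result {X : Type*} [Group X] {A B : Subgroup X} (h : Cfsg.IsRankOneGroup X A B)
    (hs : Cfsg.IsSpecialRankOnePair A B) (hab : Cfsg.HasAbelianUnipotents A B) :
    (ENat.card A ≤ 3 ∧ (Nonempty (X ≃* Matrix.SpecialLinearGroup (Fin 2) (ZMod 2)) ∨
        Nonempty (X ≃* Matrix.SpecialLinearGroup (Fin 2) (ZMod 3)) ∨
        Nonempty (X ≃* Matrix.ProjectiveSpecialLinearGroup (Fin 2) (ZMod 3)))) ∨
    (commutator X ⊔ A = ⊤ ∧ Cfsg.IsQuasisimple (commutator X) ∧
      3 < ENat.card ↥(⁅A, Cfsg.rankOneDiagonal A B⁆ : Subgroup X)) := by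
  by_cases hc : 3 < ENat.card A
  · right
    have hA : Cm A A := cm_self_iff.2 hab.1
    have hperf := sp_perfect hs hA hc
    rw [h.1] at hperf
    have hcomm : commutator X = ⊤ := hperf
    refine ⟨by rw [hcomm, top_sup_eq], ?_, ?_⟩
    · rw [hcomm]
      exact S5033.quasisimple_top (r1_quasisimple hs.1 h.1 ⟨hcomm⟩)
    · exact hc.trans_le (ENat.card_le_card_of_injective
        (Subgroup.inclusion_injective (sp_le_commutator_diag hs hA hc)))
  · left
    rw [not_lt] at hc
    refine ⟨hc, ?_⟩
    have hfin : Finite A := by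
      by_contra hinf
      rw [not_finite_iff_infinite] at hinf
      simp at hc
    rw [ENat.card_eq_coe_natCard] at hc
    have hc3 : Nat.card A ≤ 3 := by exact_mod_cast hc
    obtain ⟨a, ha, ha1⟩ := r1_exists_ne_one hs.1
    have hc1 : 1 < Nat.card A := (Subgroup.one_lt_card_iff_ne_bot A).2 fun e => ha1 (by simpa [e] using ha)
    have : Nat.card A = 2 ∨ Nat.card A = 3 := by omega
    rcases this with h2 | h3
    · left
      rcases small h.1 hs h2 with h1 | ⟨⟨f⟩⟩
      · exact h1
      · have : Subgroup.center (Matrix.SpecialLinearGroup (Fin 2) (ZMod 2)) = ⊥ := by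
          rw [eq_bot_iff]
          intro g hg
          rcases sl2_center hg with rfl | rfl
          · exact Subgroup.one_mem _
          · rw [Subgroup.mem_bot]; decide
        exact ⟨f.trans ((QuotientGroup.quotientMulEquivOfEq this).trans QuotientGroup.quotientBot)⟩
    · right
      haveI : Fact (Nat.Prime 3) := ⟨by norm_num⟩
      exact small h.1 hs h3

end Cfsg.Agent.S5020
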