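import Cfsg.Statements.S5021
import Cfsg.Agent.H90.Special

set_option autoImplicit false
open Cfsg

namespace Cfsg.Agent.S5021
open Cfsg.Agent.H90


/-- In a special rank one group with abelian unipotent subgroups A and B, either A is an elementary abelian p-group for some prime p, or A is torsion-free and divisible (every element of A has an n-th root in A for every positive n). -/
theorem result {X : Type*} [Group X] {A B : Subgroup X} (h : Cfsg.IsRankOneGroup X A B)
    (hs : Cfsg.IsSpecialRankOnePair A B) (hab : Cfsg.HasAbelianUnipotents A B) :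
    (∃ p : ℕ, p.Prime ∧ Cfsg.IsElementaryAbelian p A) ∨
    ((∀ a ∈ A, a ≠ 1 → ¬ IsOfFinOrder a) ∧ ∀ a ∈ A, ∀ n : ℕ, 0 < n → ∃ c ∈ A, c ^ n = a) := by
  by_cases htf : ∀ a ∈ A, a ≠ 1 → ¬ IsOfFinOrder a
  · right
    refine ⟨htf, fun a ha n hn => ?_⟩
    by_cases ha1 : a = 1
    · exact ⟨1, A.one_mem, by rw [ha1, one_pow]⟩
    · exact sp_root hs ha fun e => htf a ha ha1 (isOfFinOrder_iff_pow_eq_one.2 ⟨n, hn, e⟩)
  · left
    push Not at htf
    obtain ⟨a, ha, ha1, hfin⟩ := htf
    have h1 : orderOf a ≠ 1 := fun e => ha1 (orderOf_eq_one_iff.1 e)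
    obtain ⟨p, hp, k, hk⟩ := Nat.exists_prime_and_dvd h1
    have hpos := hfin.orderOf_pos
    refine ⟨p, hp, hab.1, sp_elementary hs (cm_self_iff.2 hab.1) (A.pow_mem ha k) ?_ ?_⟩
    · intro e
      have h2 := orderOf_dvd_of_pow_eq_one e
      have hk0 : 0 < k := by
        rcases Nat.eq_zero_or_pos k with h0 | h0
        · rw [h0, mul_zero] at hk; omega
        · exact h0
      have h3 := Nat.le_of_dvd hk0 h2
      have := hp.two_le
      nlinarith
    · rw [← pow_mul, mul_comm, ← hk, pow_orderOf_eq_one]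

end Cfsg.Agent.S5021
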