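import Cfsg.Statements.S5023
import Cfsg.Agent.H90.QuadMod

set_option autoImplicit false
open Cfsg

namespace Cfsg.Agent.S5023
open Cfsg.Agent.H90


/-- Let X be a rank one group with unipotent subgroups A and B that acts faithfully on an abelian group V (written additively) with A acting quadratically: a' • (a • v − v) = a • v − v for all a, a' in A and v in V. Then A is either torsion-free or an elementary abelian p-group for some prime p. -/
theorem result {X : Type*} [Group X] {A B : Subgroup X} (h : Cfsg.IsRankOneGroup X A B)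
    {V : Type*} [AddCommGroup V] [DistribMulAction X V] (hf : ∀ x : X, (∀ v : V, x • v = v) → x = 1)
    (hq : ∀ a ∈ A, ∀ a' ∈ A, ∀ v : V, a' • (a • v - v) = a • v - v) :
    (∀ a ∈ A, a ≠ 1 → ¬ IsOfFinOrder a) ∨ ∃ p : ℕ, p.Prime ∧ Cfsg.IsElementaryAbelian p A := by
  have qa : QuadOn V A := hq
  have hA : Cm A A := by
    intro a ha a' ha'
    have : (a' * a)⁻¹ * (a * a') = 1 := hf _ fun v => by
      rw [mul_smul, inv_smul_eq_iff]
      have h1 := qa.mul ha ha' v
      have h2 := qa.mul ha' ha v
      rw [add_comm, ← h2] at h1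
      exact sub_left_injective h1
    exact (inv_mul_eq_one.1 this).symm
  have hs : IsSpecialRankOnePair A B := by
    refine sp_of_quad h.2 qa ?_
    by_contra hn
    push Not at hn
    apply r1_not_cm h.2
    intro a ha b hb
    have ha' : a ∈ A ⊔ B := Subgroup.mem_sup_left ha
    have hb' : b ∈ A ⊔ B := Subgroup.mem_sup_right hb
    have q : QuadOn V (A ⊔ B) := fun x hx y hy n => hn x hx y hy n
    have : (b * a)⁻¹ * (a * b) = 1 := hf _ fun v => by
      rw [mul_smul, inv_smul_eq_iff]
      have h1 := q.mul ha' hb' v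
      have h2 := q.mul hb' ha' v
      rw [add_comm, ← h2] at h1
      exact sub_left_injective h1
    exact (inv_mul_eq_one.1 this).symm
  by_cases htf : ∀ a ∈ A, a ≠ 1 → ¬ IsOfFinOrder a
  · exact Or.inl htf
  · right
    push Not at htf
    obtain ⟨a, ha, ha1, hfin⟩ := htf
    have h1 : orderOf a ≠ 1 := fun e => ha1 (orderOf_eq_one_iff.1 e)
    obtain ⟨p, hp, k, hk⟩ := Nat.exists_prime_and_dvd h1
    have hpos := hfin.orderOf_pos
    refine ⟨p, hp, cm_self_iff.1 hA, sp_elementary hs hA (A.pow_mem ha k) ?_ ?_⟩
    · intro e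
      have h2 := orderOf_dvd_of_pow_eq_one e
      have hk0 : 0 < k := by
        rcases Nat.eq_zero_or_pos k with h0 | h0
        · rw [h0, mul_zero] at hk; omega
        · exact h0
      have h3 := Nat.le_of_dvd hk0 h2
      have := hp.two_le
      nlinarith
    · rw [← pow_mul, mul_comm, ← hk, pow_orderOf_eq_one]

end Cfsg.Agent.S5023
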