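import Cfsg.Statements.S5024
import Cfsg.Agent.H90.Root

set_option autoImplicit false
open Cfsg

namespace Cfsg.Agent.S5024
open Cfsg.Agent.H90


/-- Let S be a set of abstract root subgroups of G, A and C members of S, B a rank one partner of A in S and D a rank one partner of C in S. If the rank one group ⟨A, B⟩ is contained in ⟨C, D⟩ then the two coincide, and C and D are conjugates of A inside ⟨A, B⟩. -/
theorem result {G : Type*} [Group G] {S : Set (Subgroup G)} (hS : Cfsg.IsRootSubgroupSet S)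
    {A B C D : Subgroup G} (hA : A ∈ S) (hC : C ∈ S) (hB : B ∈ Cfsg.rankOnePartners S A) (hD : D ∈ Cfsg.rankOnePartners S C)
    (hle : A ⊔ B ≤ C ⊔ D) : A ⊔ B = C ⊔ D ∧ C ∈ Cfsg.unipotentSubgroups A B ∧ D ∈ Cfsg.unipotentSubgroups A B := by
  have key : ∀ {A : Subgroup G}, A ∈ S → A ≤ C ⊔ D → A ∈ unipotentSubgroups C D ∨ Cm A (C ⊔ D) := by
    intro A hA hle
    by_cases h1 : ∃ E ∈ unipotentSubgroups C D, IsRankOnePair A E
    · left
      obtain ⟨E, hE, h1⟩ := h1
      obtain ⟨a, ha, ha1⟩ := r1_exists_ne_one h1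
      have h2 := r1_rc_self h1 ha ha1
      have h3 := mem_unip_of_r1_rc hS hA (rs_unip_mem hS hC hE) ha h2
      rwa [unip_unip hD.2 hE (unip_rc hE (hle ha)) h2.ne] at h3
    · right
      push Not at h1
      have h2 : ∀ a ∈ A, ∀ E ∈ unipotentSubgroups C D, E ^~ a = E := fun a ha E hE =>
        (unip_eq_of_cm hD.2 hE (unip_rc hE (hle ha))
          (cm_rc_of_not_r1 hS hA (rs_unip_mem hS hC hE) (h1 E hE) ha)).symm
      intro a ha x hx
      refine (comm_sup (fun c hc => r1_comm_of_norm hD.2 hc (h2 a ha C left_mem_unip) ?_)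
        (fun d hd => r1_comm_of_norm (r1_symm hD.2) hd (h2 a ha D (right_mem_unip hD.2)) ?_) x hx).symm
      · rw [← rc_rc, ← rc_rc, ← rc_rc, h2 _ (A.inv_mem ha) D (right_mem_unip hD.2),
          h2 a ha _ (rc_right_mem_unip hD.2 (C.inv_mem hc)), rc_inv_rc]
      · rw [← rc_rc, ← rc_rc, ← rc_rc, h2 _ (A.inv_mem ha) C left_mem_unip,
          h2 a ha _ (unip_rc left_mem_unip (Subgroup.mem_sup_right (D.inv_mem hd))), rc_inv_rc]
  have hA' := (key hA (le_sup_left.trans hle)).resolve_right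
    fun h => r1_not_cm hB.2 (h.mono le_rfl (le_sup_right.trans hle))
  have hB' := (key hB.1 (le_sup_right.trans hle)).resolve_right
    fun h => r1_not_cm hB.2 (h.mono le_rfl (le_sup_left.trans hle)).symm
  refine ⟨unip_sup hD.2 hA' hB' hB.2.ne, ?_⟩
  rw [unip_unip hD.2 hA' hB' hB.2.ne]
  exact ⟨left_mem_unip, right_mem_unip hD.2⟩

end Cfsg.Agent.S5024
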