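import Cfsg.Statements.S5026
import Cfsg.Agent.H90.Root

set_option autoImplicit false
open Cfsg

namespace Cfsg.Agent.S5026
open Cfsg.Agent.H90


/-- Let S be a degenerate set of abstract root subgroups of G (a set of abstract transvection groups) and let a, b be commuting non-identity elements of members of S with a b ≠ 1. Then the members of S centralizing a b are exactly those centralizing both a and b. -/
theorem result {G : Type*} [Group G] {S : Set (Subgroup G)} (hS : Cfsg.IsRootSubgroupSet S) (hdeg : Cfsg.IsDegenerateRootSet S)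
    {a b : G} (ha : a ∈ Cfsg.rootElements S) (hb : b ∈ Cfsg.rootElements S) (hab : a * b = b * a) (hab1 : a * b ≠ 1) :
    Cfsg.centralizingMembers S (Subgroup.zpowers (a * b)) =
      Cfsg.centralizingMembers S (Subgroup.zpowers a) ∩ Cfsg.centralizingMembers S (Subgroup.zpowers b) := by
  have hz : ∀ (E : Subgroup G) (x : G), E ≤ Subgroup.centralizer (Subgroup.zpowers x : Set G) ↔
      ∀ e ∈ E, e * x = x * e := by
    intro E x
    rw [← cm_iff_le]
    constructor
    · exact fun h e he => h e he x (Subgroup.mem_zpowers x)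
    · rintro h e he _ ⟨k, rfl⟩
      exact (Commute.zpow_right (h e he) k).eq
  have key : ∀ {a b : G}, a ∈ Cfsg.rootElements S → b ∈ Cfsg.rootElements S → a * b = b * a → a * b ≠ 1 →
      ∀ E ∈ S, (∀ e ∈ E, e * (a * b) = (a * b) * e) → ∀ e ∈ E, e * a = a * e := by
    rintro a b ⟨ha1, A, hA, ha⟩ ⟨hb1, B, hB, hb⟩ hab hab1 E hE hc
    rcases rs_tri hS hA hE with h | h | h
    · exact fun e he => (h a ha e he).symm
    · exfalso
      have h1 := r1_rc_self h ha ha1
      have e1 : E ^~ a = E ^~ b⁻¹ := by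
        rw [← rc_eq_iff, rc_rc, rc_of_comm hc]
      have h2 := mem_unip_of_r1_rc hS hB hE (B.inv_mem hb) (e1 ▸ h1)
      rw [← e1, unip_unip h (right_mem_unip h) (rc_right_mem_unip h ha) h1.ne] at h2
      by_cases hAB : A = B
      · subst hAB
        exact hab1 (r1_norm h (A.mul_mem ha hb) (rc_of_comm hc))
      · rcases r1_comm_elt (unip_r1 h left_mem_unip h2 hAB) ha hb hab with h3 | h3
        · exact ha1 h3
        · exact hb1 h3
    · exact absurd (rcc_of_sc h) (hdeg A hA E hE)
  ext E
  simp only [Cfsg.centralizingMembers, Set.mem_setOf_eq, Set.mem_inter_iff, hz]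
  constructor
  · rintro ⟨hE, hc⟩
    exact ⟨⟨hE, key ha hb hab hab1 E hE hc⟩, hE, key hb ha hab.symm (hab ▸ hab1) E hE (hab ▸ hc)⟩
  · rintro ⟨⟨hE, h1⟩, -, h2⟩
    refine ⟨hE, fun e he => ?_⟩
    rw [← mul_assoc, h1 e he, mul_assoc, h2 e he, mul_assoc]

end Cfsg.Agent.S5026
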