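import Cfsg.Statements.S5027
import Cfsg.Agent.H90.Root2

set_option autoImplicit false
open Cfsg

namespace Cfsg.Agent.S5027
open Cfsg.Agent.H90


/-- Let S be a set of abstract root subgroups of G such that every member of S has a rank one partner in S (the graph of rank one pairs on S has no isolated vertex). Then the second centre of G equals its centre. -/
theorem result {G : Type*} [Group G] {S : Set (Subgroup G)} (hS : Cfsg.IsRootSubgroupSet S)
    (hF : ∀ A ∈ S, ¬ Cfsg.IsIsolatedIn (Cfsg.FAdj S) S A) : Subgroup.upperCentralSeries G 2 = Subgroup.center G := by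
  refine le_antisymm ?_ ?_
  · intro g hg
    have hg' := Subgroup.inv_mem _ hg
    rw [Subgroup.mem_upperCentralSeries_succ_iff] at hg'
    have : ∀ A ∈ S, A ≤ Subgroup.centralizer {g} := by
      intro A hA a ha
      rw [Subgroup.mem_centralizer_singleton_iff]
      by_cases ha1 : a = 1
      · rw [ha1]; simp
      obtain ⟨D, hD, h⟩ := (not_isolated_iff hA).1 (hF A hA)
      have h1 := hg' a
      rw [Subgroup.upperCentralSeries_one, Subgroup.mem_center_iff, commutatorElement_def, inv_inv] at h1
      have h2 := rs_no_central_mul hS hD h (fun x _ => h1 x) (fun x _ => h1 x) ha ha1 (rs_rc hS hA g)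
        (by simpa using conj_mem_rc ha g)
      calc a * g = g * (g⁻¹ * a * g * a⁻¹) * a := by group
        _ = _ := by rw [h2]; group
    rw [Subgroup.mem_center_iff]
    intro x
    exact Subgroup.mem_centralizer_singleton_iff.1 (rs_mem_of_all hS this x)
  · rw [← Subgroup.upperCentralSeries_one]
    exact Subgroup.upperCentralSeries_mono _ (by norm_num)

end Cfsg.Agent.S5027
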