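import Cfsg.Statements.S5029
import Cfsg.Agent.H90.Root2

set_option autoImplicit false
open Cfsg

namespace Cfsg.Agent.S5029
open Cfsg.Agent.H90


/-- Let S be a set of abstract root subgroups of G, A ∈ S having a rank one partner in S, and B ∈ S with C = ⁅A, B⁆ ∈ S. Then the members of S contained in AC are the conjugates of A by elements of B together with C, they partition AC, the members of S inside AC partition AC so that A is a line partner of C, and for every non-identity a ∈ A the map b ↦ a⁻¹ b⁻¹ a b is an isomorphism from B onto C. -/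
theorem result {G : Type*} [Group G] {S : Set (Subgroup G)} (hS : Cfsg.IsRootSubgroupSet S)
    {A B : Subgroup G} (hA : ¬ Cfsg.IsIsolatedIn (Cfsg.FAdj S) S A) (hAS : A ∈ S) (hB : B ∈ S) (hC : ⁅A, B⁆ ∈ S) :
    Cfsg.membersIn S (A ⊔ ⁅A, B⁆) = (fun b : G => Cfsg.conjBy A b) '' (B : Set G) ∪ {⁅A, B⁆} ∧
    Cfsg.IsSubgroupPartition (A ⊔ ⁅A, B⁆) (Cfsg.membersIn S (A ⊔ ⁅A, B⁆)) ∧
    A ∈ Cfsg.linePartners S ⁅A, B⁆ ∧
    ∀ a ∈ A, a ≠ 1 → ∃ φ : ↥B ≃* ↥⁅A, B⁆, ∀ b : ↥B, (φ b : G) = a⁻¹ * (b : G)⁻¹ * a * b := by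
  obtain ⟨D, hD, h⟩ := (not_isolated_iff hAS).1 hA
  have hs := rs_sc_of_mem hS hAS hB hC
  have hl := hs.ln hS hAS hD h
  refine ⟨?_, (ln_iff.2 hl).2, ln_iff.2 (hl.symm hAS), fun a ha ha1 => ?_⟩
  · ext E
    constructor
    · rintro ⟨hE, hle⟩
      rcases hs.points hS hAS hD h hE hle with h1 | ⟨b, hb, h1⟩
      · exact Or.inr h1
      · exact Or.inl ⟨b⁻¹, B.inv_mem hb, h1.symm⟩
    · rintro (⟨b, hb, rfl⟩ | rfl)
      · refine ⟨hS.conj_mem A hAS b, ?_⟩
        change conjBy A b ≤ _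
        rw [conjBy_eq_rc]
        exact hs.symm.rc_le (B.inv_mem hb)
      · exact ⟨hC, le_sup_right⟩
  · let f : B →* ↥⁅A, B⁆ := MonoidHom.mk' (fun b => ⟨a⁻¹ * (b : G)⁻¹ * a * b, hs.comm a ha b b.2⟩) (by
      intro b b'
      apply Subtype.ext
      have h1 := hs.cB _ (hs.comm a ha b b.2) b' b'.2
      have h2 := rs_cm hS hC _ (hs.comm a ha b b.2) _ (hs.comm a ha b' b'.2)
      change a⁻¹ * ((b : G) * b')⁻¹ * a * (b * b') = (a⁻¹ * (b : G)⁻¹ * a * b) * (a⁻¹ * (b' : G)⁻¹ * a * b')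
      rw [h2]
      calc a⁻¹ * ((b : G) * b')⁻¹ * a * (b * b') = a⁻¹ * (b' : G)⁻¹ * a * ((a⁻¹ * (b : G)⁻¹ * a * b) * b') := by
            group
        _ = _ := by rw [h1]; group)
    refine ⟨MulEquiv.ofBijective f ⟨?_, ?_⟩, fun b => rfl⟩
    · rw [injective_iff_map_eq_one]
      intro b hb
      have h1 : a⁻¹ * (b : G)⁻¹ * a * b = 1 := congrArg Subtype.val hb
      have h2 : a * b = b * a := by
        calc a * b = b * a * (a⁻¹ * (b : G)⁻¹ * a * b) := by group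
          _ = _ := by rw [h1, mul_one]
      exact Subtype.ext ((hs.comm_ne_one hS hAS hD h ha b.2 h2).resolve_left ha1)
    · intro c
      obtain ⟨b, hb, e⟩ := hs.sR a ha ha1 c c.2
      exact ⟨⟨b, hb⟩, Subtype.ext e.symm⟩

end Cfsg.Agent.S5029
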