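import Cfsg.Statements.S5035
import Cfsg.Agent.H90.Root3

set_option autoImplicit false
open Cfsg

namespace Cfsg.Agent.S5035
open Cfsg.Agent.H90


/-- Let S be a set of abstract root subgroups of G whose graph of rank one pairs is connected, and f a homomorphism from G onto a group H. Then either the images of the members of S form a set of abstract root subgroups of H whose graph of rank one pairs is again connected, or H equals the image of a member of S. -/
theorem result {G H : Type*} [Group G] [Group H] {S : Set (Subgroup G)} (hS : Cfsg.IsRootSubgroupSet S)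
    (hc : Cfsg.IsConnectedFamily (Cfsg.FAdj S) S) (f : G →* H) (hf : Function.Surjective f) :
    (Cfsg.IsRootSubgroupSet ((fun A : Subgroup G => A.map f) '' S) ∧
      Cfsg.IsConnectedFamily (Cfsg.FAdj ((fun A : Subgroup G => A.map f) '' S)) ((fun A : Subgroup G => A.map f) '' S)) ∨
    ∃ A ∈ S, A.map f = ⊤ := by
  by_cases hex : ∃ A ∈ S, ∃ B ∈ S, IsRankOnePair A B ∧ A.map f ≠ B.map f
  · left
    obtain ⟨A₀, hA₀, B₀, hB₀, h₀, hne₀⟩ := hex
    have hinj₀ := ((r1_map_or f h₀).resolve_left hne₀).2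
    have hinj : ∀ E ∈ S, ∀ e ∈ E, f e = 1 → e = 1 := by
      intro E hE e he h1
      obtain ⟨g, rfl⟩ := Conn.conj (hc A₀ hA₀ E hE)
      obtain ⟨a, ha, rfl⟩ := exists_of_mem_rc he
      have : f a = 1 := by
        simp only [map_mul, map_inv] at h1
        calc f a = f g * ((f g)⁻¹ * f a * f g) * (f g)⁻¹ := by group
          _ = 1 := by rw [h1]; group
      rw [hinj₀ a ha this]; group
    constructor
    · refine ⟨?_, ?_, ?_, ?_, ?_⟩
      · rintro _ ⟨A, hA, rfl⟩
        have := hS.commutative A hA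
        infer_instance
      · rintro _ ⟨A, hA, rfl⟩ e
        obtain ⟨a, ha, ha1⟩ := rs_exists_ne_one hS hA
        have : f a ∈ A.map f := ⟨a, ha, rfl⟩
        change A.map f = ⊥ at e
        rw [e] at this
        exact ha1 (hinj A hA a ha this)
      · rw [eq_top_iff, ← MonoidHom.range_eq_top.2 hf, MonoidHom.range_eq_map, ← hS.generates, Subgroup.map_le_iff_le_comap]
        refine iSup₂_le fun A hA => ?_
        rw [← Subgroup.map_le_iff_le_comap]
        exact le_iSup₂_of_le (f := fun (B : Subgroup H) (_ : B ∈ (fun A : Subgroup G => A.map f) '' S) => B)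
          (A.map f) ⟨A, hA, rfl⟩ le_rfl
      · rintro _ ⟨A, hA, rfl⟩ g
        obtain ⟨g, rfl⟩ := hf g
        refine ⟨A ^~ g⁻¹, rs_rc hS hA _, ?_⟩
        change (A ^~ g⁻¹).map f = _
        rw [rc_map, conjBy_eq_rc, map_inv]
      · rintro _ ⟨A, hA, rfl⟩ _ ⟨B, hB, rfl⟩
        change ⁅A.map f, B.map f⁆ = ⊥ ∨ IsRankOnePair (A.map f) (B.map f) ∨ RootCommutatorCase _ (A.map f) (B.map f)
        rcases rs_tri hS hA hB with h | h | h
        · left; rw [← Subgroup.map_commutator, cm_iff.1 h, Subgroup.map_bot]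
        · rcases r1_map_or f h with h1 | h1
          · left; rw [← h1, ← Subgroup.map_commutator, cm_iff.1 (rs_cm hS hA), Subgroup.map_bot]
          · exact Or.inr (Or.inl h1.1)
        · refine Or.inr (Or.inr (rcc_of_sc (C := ⁅A, B⁆.map f) ⟨⟨_, h.mem, rfl⟩,
            (Subgroup.map_commutator _ _ _).symm, ?_, ?_, ?_, ?_, ?_⟩))
          · rintro _ ⟨c, hc, rfl⟩ _ ⟨a, ha, rfl⟩
            rw [← map_mul, ← map_mul, h.cA c hc a ha]
          · rintro _ ⟨c, hc, rfl⟩ _ ⟨a, ha, rfl⟩
            rw [← map_mul, ← map_mul, h.cB c hc a ha]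
          · rintro _ ⟨a, ha, rfl⟩ _ ⟨b, hb, rfl⟩
            exact ⟨_, h.comm a ha b hb, by simp⟩
          · rintro _ ⟨a, ha, rfl⟩ ha1 _ ⟨c, hc, rfl⟩
            obtain ⟨b, hb, e⟩ := h.sR a ha (fun e => ha1 (by rw [e, map_one])) c hc
            exact ⟨_, ⟨b, hb, rfl⟩, by rw [e]; simp⟩
          · rintro _ ⟨b, hb, rfl⟩ hb1 _ ⟨c, hc, rfl⟩
            obtain ⟨a, ha, e⟩ := h.sL b hb (fun e => hb1 (by rw [e, map_one])) c hc
            exact ⟨_, ⟨a, ha, rfl⟩, by rw [e]; simp⟩
    · rintro _ ⟨A, hA, rfl⟩ _ ⟨B, hB, rfl⟩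
      have := hc A hA B hB
      induction this with
      | refl => exact Relation.ReflTransGen.refl
      | tail h1 h2 ih =>
        rcases r1_map_or f h2.2.2 with h3 | h3
        · change Relation.ReflTransGen _ _ (Subgroup.map f _)
          rw [← h3]; exact ih h2.1
        · exact (ih h2.1).tail ⟨⟨_, h2.1, rfl⟩, ⟨_, h2.2.1, rfl⟩, h3.1⟩
  · push Not at hex
    rcases S.eq_empty_or_nonempty with rfl | ⟨A, hA⟩
    · left
      have hG : (⊤ : Subgroup G) = ⊥ := by rw [← hS.generates]; simp
      refine ⟨⟨by simp, by simp, ?_, by simp, by simp⟩, by intro A hA; simp at hA⟩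
      rw [← MonoidHom.range_eq_top.2 hf, MonoidHom.range_eq_map, hG]; simp
    · right
      refine ⟨A, hA, ?_⟩
      have : ∀ B ∈ S, B.map f = A.map f := by
        intro B hB
        have := hc A hA B hB
        induction this with
        | refl => rfl
        | tail h1 h2 ih => rw [← hex _ h2.1 _ h2.2.1 h2.2.2]; exact ih h2.1
      rw [eq_top_iff, ← MonoidHom.range_eq_top.2 hf, MonoidHom.range_eq_map, ← hS.generates,
        Subgroup.map_le_iff_le_comap]
      refine iSup₂_le fun B hB => ?_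
      rw [← Subgroup.map_le_iff_le_comap, this B hB]

end Cfsg.Agent.S5035
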