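import Cfsg.Statements.S5036
import Cfsg.Agent.H90.Root4

set_option autoImplicit false
open Cfsg

namespace Cfsg.Agent.S5036
open Cfsg.Agent.H90


/-- Let S be a set of abstract root subgroups of G, A, B ∈ S with C = ⁅A, B⁆ ∈ S, and D ∈ S with ⁅D, C⁆ = A. Put X = ⟨B, D⟩ and N = AC. Then B, D form a rank one pair; the conjugates of A under X are the conjugates of C under X, namely the conjugates of A by elements of B together with C, equally the conjugates of C by elements of D together with A, and they partition N; and the centralizer of N in X is central in X. -/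
theorem result {G : Type*} [Group G] {S : Set (Subgroup G)} (hS : Cfsg.IsRootSubgroupSet S)
    {A B D : Subgroup G} (hA : A ∈ S) (hB : B ∈ S) (hC : ⁅A, B⁆ ∈ S) (hD : D ∈ S) (hDC : ⁅D, ⁅A, B⁆⁆ = A) :
    Cfsg.IsRankOnePair B D ∧
    {E | ∃ x ∈ B ⊔ D, E = Cfsg.conjBy A x} = {E | ∃ x ∈ B ⊔ D, E = Cfsg.conjBy ⁅A, B⁆ x} ∧
    {E | ∃ x ∈ B ⊔ D, E = Cfsg.conjBy A x} = (fun b : G => Cfsg.conjBy A b) '' (B : Set G) ∪ {⁅A, B⁆} ∧
    {E | ∃ x ∈ B ⊔ D, E = Cfsg.conjBy A x} = (fun d : G => Cfsg.conjBy ⁅A, B⁆ d) '' (D : Set G) ∪ {A} ∧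
    Cfsg.IsSubgroupPartition (A ⊔ ⁅A, B⁆) {E | ∃ x ∈ B ⊔ D, E = Cfsg.conjBy A x} ∧
    ∀ x ∈ (B ⊔ D) ⊓ Subgroup.centralizer ((A ⊔ ⁅A, B⁆ : Subgroup G) : Set G), ∀ y ∈ B ⊔ D, x * y = y * x := by
  have s1 := rs_sc_of_mem hS hA hB hC
  have s2 : Sc S ⁅A, B⁆ D A := by
    have := rs_sc_of_mem hS hD hC (hDC.symm ▸ hA)
    rw [hDC] at this
    exact this.symm
  set C := ⁅A, B⁆ with hCdef
  have h := pair_r1 hS hD hB s1 s2
  have hp : ∀ d ∈ D, ∀ b ∈ B, D ^~ b = B ^~ d → A ^~ b = C ^~ d := fun d hd b hb e => pair_rc hS s1 s2 hd hb e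
  -- the set of points
  let T : Subgroup G → Prop := fun E => E = C ∨ ∃ b ∈ B, E = A ^~ b
  have hT : ∀ E, T E ↔ E = A ∨ ∃ d ∈ D, E = C ^~ d := by
    intro E
    constructor
    · rintro (rfl | ⟨b, hb, rfl⟩)
      · exact Or.inr ⟨1, D.one_mem, (rc_one _).symm⟩
      · by_cases hb1 : b = 1
        · left; rw [hb1, rc_one]
        · obtain ⟨d, hd, -, e⟩ := r1_ex (r1_symm h) hb hb1
          exact Or.inr ⟨d, hd, hp d hd b hb e.symm⟩
    · rintro (rfl | ⟨d, hd, rfl⟩)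
      · exact Or.inr ⟨1, B.one_mem, (rc_one _).symm⟩
      · by_cases hd1 : d = 1
        · left; rw [hd1, rc_one]
        · obtain ⟨b, hb, -, e⟩ := r1_ex h hd hd1
          exact Or.inr ⟨b, hb, (hp d hd b hb e).symm⟩
  have hTB : ∀ b ∈ B, ∀ E, T E → T (E ^~ b) := by
    rintro b hb E (rfl | ⟨b', hb', rfl⟩)
    · exact Or.inl (s1.cB.rc_eq hb)
    · exact Or.inr ⟨b' * b, B.mul_mem hb' hb, rc_rc _ _ _⟩
  have hTD : ∀ d ∈ D, ∀ E, T E → T (E ^~ d) := by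
    intro d hd E hE
    rw [hT] at hE ⊢
    rcases hE with rfl | ⟨d', hd', rfl⟩
    · exact Or.inl (s2.cB.rc_eq hd)
    · exact Or.inr ⟨d' * d, D.mul_mem hd' hd, rc_rc _ _ _⟩
  have hTX : ∀ x ∈ B ⊔ D, ∀ E, T E → T (E ^~ x) := by
    let K : Subgroup G :=
      { carrier := {g | ∀ E, T E ↔ T (E ^~ g)}
        one_mem' := fun E => by rw [rc_one]
        mul_mem' := fun {g g'} hg hg' E => by rw [← rc_rc, ← hg' _, ← hg _]
        inv_mem' := fun {g} hg E => by rw [hg (E ^~ g⁻¹), rc_inv_rc] }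
    have hK : B ⊔ D ≤ K := by
      refine sup_le (fun a ha E => ⟨hTB a ha E, fun h' => ?_⟩) (fun b hb E => ⟨hTD b hb E, fun h' => ?_⟩)
      · have := hTB _ (B.inv_mem ha) _ h'
        rwa [rc_rc_inv] at this
      · have := hTD _ (D.inv_mem hb) _ h'
        rwa [rc_rc_inv] at this
    exact fun x hx E => (hK hx E).1
  obtain ⟨d₀, hd₀, hd₀1⟩ := r1_exists_ne_one h
  obtain ⟨b₀, hb₀, -, e₀⟩ := r1_ex h hd₀ hd₀1
  have e₁ := hp d₀ hd₀ b₀ hb₀ e₀
  have hCA : C = A ^~ (b₀ * d₀⁻¹) := by rw [← rc_rc, e₁, rc_rc_inv]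
  have hx₀ : b₀ * d₀⁻¹ ∈ B ⊔ D := Subgroup.mul_mem_sup hb₀ (D.inv_mem hd₀)
  have eA : ∀ E, (∃ x ∈ B ⊔ D, E = conjBy A x) ↔ T E := by
    intro E
    constructor
    · rintro ⟨x, hx, rfl⟩
      rw [conjBy_eq_rc]
      exact hTX _ (inv_mem hx) _ (Or.inr ⟨1, B.one_mem, (rc_one _).symm⟩)
    · rintro (rfl | ⟨b, hb, rfl⟩)
      · exact ⟨_, inv_mem hx₀, hCA⟩
      · exact ⟨b⁻¹, Subgroup.mem_sup_left (B.inv_mem hb), rfl⟩
  have hl : ∀ E, T E → E ≤ A ⊔ C := by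
    rintro E (rfl | ⟨b, hb, rfl⟩)
    · exact le_sup_right
    · exact s1.symm.rc_le hb
  refine ⟨r1_symm h, ?_, ?_, ?_, ⟨fun E hE => hl E ((eA E).1 hE), fun x hx _ => ?_, ?_⟩, ?_⟩
  · ext E
    constructor
    · rintro ⟨x, hx, rfl⟩
      refine ⟨x * (b₀ * d₀⁻¹), mul_mem hx hx₀, ?_⟩
      rw [conjBy_eq_rc, conjBy_eq_rc, hCA, rc_rc]; congr 1; group
    · rintro ⟨x, hx, rfl⟩
      refine ⟨x * (b₀ * d₀⁻¹)⁻¹, mul_mem hx (inv_mem hx₀), ?_⟩
      rw [conjBy_eq_rc, conjBy_eq_rc, hCA, rc_rc]; congr 1; group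
  · ext E
    refine (eA E).trans ⟨?_, ?_⟩
    · rintro (rfl | ⟨b, hb, rfl⟩)
      · exact Or.inr rfl
      · exact Or.inl ⟨b⁻¹, B.inv_mem hb, rfl⟩
    · rintro (⟨b, hb, rfl⟩ | rfl)
      · exact Or.inr ⟨b⁻¹, B.inv_mem hb, conjBy_eq_rc _ _⟩
      · exact Or.inl rfl
  · ext E
    refine (eA E).trans ((hT E).trans ⟨?_, ?_⟩)
    · rintro (rfl | ⟨b, hb, rfl⟩)
      · exact Or.inr rfl
      · exact Or.inl ⟨b⁻¹, D.inv_mem hb, rfl⟩
    · rintro (⟨b, hb, rfl⟩ | rfl)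
      · exact Or.inr ⟨b⁻¹, D.inv_mem hb, conjBy_eq_rc _ _⟩
      · exact Or.inl rfl
  · rcases s1.cover hx with h1 | ⟨b, hb, h1⟩
    · exact ⟨C, (eA _).2 (Or.inl rfl), h1⟩
    · exact ⟨_, (eA _).2 (Or.inr ⟨b, hb, rfl⟩), h1⟩
  · have k : ∀ b ∈ B, ∀ x ∈ A ^~ b, x ∈ C → x = 1 := by
      intro b hb x hx hxC
      have := s1.rc hS b
      rw [s1.cB.rc_eq hb] at this
      exact this.inf_left hS hx hxC
    intro E hE E' hE' hne
    rw [eq_bot_iff]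
    rintro x ⟨h1, h2⟩
    rcases (eA E).1 hE with rfl | ⟨b, hb, rfl⟩ <;> rcases (eA E').1 hE' with rfl | ⟨b', hb', rfl⟩
    · exact absurd rfl hne
    · exact k b' hb' x h2 h1
    · exact k b hb x h1 h2
    · obtain ⟨a, ha, rfl⟩ := exists_of_mem_rc h1
      obtain ⟨a', ha', e⟩ := exists_of_mem_rc h2
      have u := line_unique hS s1 ha ha' (s1.comm a ha b hb) (s1.comm a' ha' b' hb') (by
        calc a * (a⁻¹ * b⁻¹ * a * b) = b⁻¹ * a * b := by group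
          _ = _ := by rw [e]; group)
      rw [← u.1] at e
      have e2 : (b * b'⁻¹) * a = a * (b * b'⁻¹) := by
        calc (b * b'⁻¹) * a = b * (b'⁻¹ * a * b') * b'⁻¹ := by group
          _ = _ := by rw [← e]; group
      rcases s1.symm.comm_ne_one hS hB hD (r1_symm h) (B.mul_mem hb (B.inv_mem hb')) ha e2 with h3 | h3
      · exact absurd (by rw [mul_inv_eq_one.1 h3]) hne
      · rw [Subgroup.mem_bot, h3]; group
  · have hN : ∀ x ∈ B ⊔ D, (A ⊔ C) ^~ x = A ⊔ C :=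
      rc_eq_of_sup (fun b hb => s1.sup_rc_eq hb) (fun d hd => by rw [sup_comm]; exact s2.sup_rc_eq hd)
    have hn : ∀ x ∈ B ⊔ D, ((B ⊔ D) ⊓ Subgroup.centralizer ((A ⊔ C : Subgroup G) : Set G)) ^~ x =
        (B ⊔ D) ⊓ Subgroup.centralizer ((A ⊔ C : Subgroup G) : Set G) := by
      have k : ∀ x ∈ B ⊔ D, Subgroup.centralizer ((A ⊔ C : Subgroup G) : Set G) ^~ x ≤
          Subgroup.centralizer ((A ⊔ C : Subgroup G) : Set G) := by
        intro x hx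
        have := (cm_iff_le.2 (le_refl (Subgroup.centralizer ((A ⊔ C : Subgroup G) : Set G)))).rc x
        rwa [hN x hx, cm_iff_le] at this
      intro x hx
      rw [rc_inf, rc_of_mem hx]
      congr 1
      refine le_antisymm (k x hx) ?_
      have := rc_mono (k _ (inv_mem hx)) x
      rwa [rc_inv_rc] at this
    rcases r1_normal (r1_symm h) inf_le_left hn with h1 | h1
    · exfalso
      have h2 : Cm (B ⊔ D) C := by
        refine Cm.mono (Cm.sup_left ?_ s1.cB.symm) h1 le_rfl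
        exact (cm_iff_le.2 inf_le_right).mono le_rfl le_sup_right
      exact s2.not_cm hS (h2.mono le_sup_right le_rfl).symm
    · exact fun x hx y hy => (h1 x hx y hy).symm

end Cfsg.Agent.S5036
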