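import Cfsg.Statements.S5037
import Cfsg.Agent.H90.Root4

set_option autoImplicit false
open Cfsg

namespace Cfsg.Agent.S5037
open Cfsg.Agent.H90

theorem sym_of_common {G : Type*} [Group G] {r : Subgroup G → Subgroup G → Prop}
    (hrc : ∀ P Q g, r P Q → r (P ^~ g) (Q ^~ g)) (htr : ∀ P Q R, r P Q → r Q R → r P R)
    (hno : ∀ P Q, r P Q → ¬ IsRankOnePair P Q) {A C D : Subgroup G} (hAC : Cm A C)
    (h : r A C) (hA : IsRankOnePair A D) (hC : IsRankOnePair C D) : r C A := by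
  obtain ⟨a, ha, ha1⟩ := r1_exists_ne_one hA
  obtain ⟨d, hd, hd1, e⟩ := r1_ex hA ha ha1
  obtain ⟨c, hc, -, e2⟩ := r1_ex (r1_symm hC) hd hd1
  obtain ⟨d', hd', hd1', e'⟩ := r1_ex hA (A.inv_mem ha) (inv_ne_one.2 ha1)
  obtain ⟨c', hc', -, e2'⟩ := r1_ex (r1_symm hC) hd' hd1'
  have h1 := hrc _ _ d h
  have h2 := hrc _ _ d' h
  rw [e, ← e2] at h1
  rw [e', ← e2'] at h2
  have h3 := hrc _ _ a h2
  rw [rc_inv_rc, rc_rc, ← hAC a ha c' hc'] at h3
  have h4 := hrc _ _ c' h1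
  rw [rc_rc, rc_rc] at h4
  have h5 : c * c' = 1 := by
    by_contra hne
    exact hno _ _ (htr _ _ _ h3 h4) (r1_rc_self hC (C.mul_mem hc hc') hne)
  have h6 := hrc _ _ (c * d⁻¹) h3
  rw [rc_rc, ← rc_rc D c, e2, rc_rc_inv] at h6
  have : a * c' * (c * d⁻¹) = a * d⁻¹ := by
    rw [eq_inv_of_mul_eq_one_right h5]; group
  rwa [this, ← rc_rc, ← e, rc_rc_inv] at h6

/-- Let S be a class of abstract root subgroups of G that is either degenerate or non-degenerate (so either the commutator case never occurs, or all three cases occur), and A ≠ C members of S. If every member of S commuting with A commutes with C, then A and C have the same commuting members of S; and if every rank one partner of A is a rank one partner of C, then A and C commute and have the same rank one partners. -/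
theorem result {G : Type*} [Group G] {S : Set (Subgroup G)} (hS : Cfsg.IsRootSubgroupClass S)
    (hdn : Cfsg.IsDegenerateRootSet S ∨ Cfsg.IsNondegenerateRootSet S)
    {A C : Subgroup G} (hA : A ∈ S) (hC : C ∈ S) (hAC : A ≠ C) :
    (Cfsg.centralizingMembers S A ⊆ Cfsg.centralizingMembers S C →
      Cfsg.centralizingMembers S A = Cfsg.centralizingMembers S C) ∧
    (Cfsg.rankOnePartners S A ⊆ Cfsg.rankOnePartners S C →
      ⁅A, C⁆ = ⊥ ∧ Cfsg.rankOnePartners S A = Cfsg.rankOnePartners S C) := by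
  have hF : ∀ X ∈ S, ∃ Y ∈ S, IsRankOnePair X Y := by
    by_contra hn
    push Not at hn
    obtain ⟨X, hX, hn⟩ := hn
    have hnr : ∀ Y ∈ S, ∀ Z ∈ S, ¬ IsRankOnePair Y Z := fun Y hY Z hZ h => by
      obtain ⟨E, hE, h1⟩ := class_partner hS hY hZ h hX
      exact hn E hE h1
    rcases hdn with hd | hd
    · obtain ⟨g, e⟩ := class_conj hS hA hC
      have : A ^~ g = A := rs_invariant hS.1 (Q := fun Y => Y = A) (by
        rintro E hE e he Y rfl
        rcases rs_tri hS.1 hA hE with h | h | h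
        · exact h.rc_eq he
        · exact absurd h (hnr _ hA _ hE)
        · exact absurd (rcc_of_sc h) (hd _ hA _ hE)) g rfl
      exact hAC (e.trans this).symm
    · obtain ⟨Y, hY, Z, hZ, h⟩ := hd.2.1
      exact hnr Y hY Z hZ h
  constructor
  · intro hsub
    have hsub' : ∀ E ∈ S, Cm E A → Cm E C := fun E hE h => cm_iff_le.2 (hsub ⟨hE, cm_iff_le.1 h⟩).2
    have hc : Cm A C := hsub' A hA (rs_cm hS.1 hA)
    obtain ⟨D, hD, hCD⟩ := hF C hC
    have hAD : IsRankOnePair A D := by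
      rcases rs_tri hS.1 hD hA with h | h | h
      · exact absurd (hsub' D hD h).symm (r1_not_cm hCD)
      · exact r1_symm h
      · exfalso
        obtain ⟨d, hd, hd1⟩ := rs_exists_ne_one hS.1 hD
        obtain ⟨f, hf, hf1⟩ := rs_exists_ne_one hS.1 h.mem
        obtain ⟨a, ha, e⟩ := h.sR d hd hd1 f hf
        refine hf1 (rs_no_central_mul' hS.1 hC (r1_symm hCD) (fun x hx => (h.cA f hf x hx).symm)
          (fun x hx => (hsub' _ h.mem h.cB f hf x hx).symm) hd hd1 (rs_rc hS.1 hD a) ?_)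
        have : d * f = a⁻¹ * d * a := by rw [e]; group
        rw [this]; exact conj_mem_rc hd a
    have := sym_of_common (r := fun P Q => P ∈ S ∧ Q ∈ S ∧ ∀ E ∈ S, Cm E P → Cm E Q) ?_ ?_ ?_ hc ⟨hA, hC, hsub'⟩ hAD hCD
    · exact Set.Subset.antisymm hsub fun E hE => ⟨hE.1, cm_iff_le.1 (this.2.2 E hE.1 (cm_iff_le.2 hE.2))⟩
    · rintro P Q g ⟨hP, hQ, h⟩
      refine ⟨rs_rc hS.1 hP g, rs_rc hS.1 hQ g, fun E hE h1 => ?_⟩
      have h2 := h1.rc g⁻¹
      rw [rc_rc_inv] at h2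
      have h3 := (h _ (rs_rc hS.1 hE _) h2).rc g
      rwa [rc_inv_rc] at h3
    · rintro P Q R ⟨hP, -, h⟩ ⟨-, hR, h'⟩
      exact ⟨hP, hR, fun E hE h1 => h' E hE (h E hE h1)⟩
    · rintro P Q ⟨hP, -, h⟩ h1
      exact r1_not_cm h1 (h P hP (rs_cm hS.1 hP))
  · intro hsub
    have hsub' : ∀ E ∈ S, IsRankOnePair A E → IsRankOnePair C E := fun E hE h => (hsub ⟨hE, h⟩).2
    have hc : Cm A C := by
      rcases rs_tri hS.1 hA hC with h | h | h
      · exact h
      · exact absurd rfl (hsub' C hC h).ne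
      · exfalso
        obtain ⟨D, hD, hFD⟩ := hF _ h.mem
        obtain ⟨A', hA', hAA'⟩ := hF _ hA
        obtain ⟨C', hC', hCC'⟩ := hF _ hC
        obtain ⟨P, hP, hle, hne, hn⟩ := ((h.symm.ln hS.1 hC hC' hCC').symm hC).exists_not_r1 hS.1 h.mem hFD
        obtain ⟨a, ha, rfl⟩ := (h.symm.points hS.1 hC hC' hCC' hP (by rwa [sup_comm])).resolve_left hne
        have h1 : IsRankOnePair ⁅A, C⁆ (D ^~ a⁻¹) := by
          have := r1_rc hFD a⁻¹
          rwa [h.cA.rc_eq (A.inv_mem ha)] at this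
        have h2 : ¬ IsRankOnePair C (D ^~ a⁻¹) := fun h3 => hn (by
          have := r1_rc h3 a
          rwa [rc_inv_rc] at this)
        obtain ⟨c, hc, hc1⟩ := rs_exists_ne_one hS.1 hC
        have h3 := ((h.ln hS.1 hA hA' hAA').symm hA).r1_of_ne hS.1 h.mem (rs_rc hS.1 hD _) h1
          (fun h4 => h2 (hsub' _ (rs_rc hS.1 hD _) h4)) (rs_rc hS.1 hA c) (by rw [sup_comm]; exact h.symm.rc_le hc)
          (fun e => hc1 (h.rc_injective hS.1 hc e))
        have h4 := r1_rc h3 c⁻¹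
        rw [rc_rc_inv] at h4
        have h5 := r1_rc_right (hsub' _ (rs_rc hS.1 (rs_rc hS.1 hD _) _) h4) hc
        rw [rc_inv_rc] at h5
        exact h2 h5
    refine ⟨cm_iff.1 hc, ?_⟩
    obtain ⟨D, hD, hAD⟩ := hF A hA
    have := sym_of_common (r := fun P Q => Q ∈ S ∧ ∀ E ∈ S, IsRankOnePair P E → IsRankOnePair Q E) ?_ ?_ ?_ hc
      ⟨hC, hsub'⟩ hAD (hsub' D hD hAD)
    · exact Set.Subset.antisymm hsub fun E hE => ⟨hE.1, this.2 E hE.1 hE.2⟩
    · rintro P Q g ⟨hQ, h⟩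
      refine ⟨rs_rc hS.1 hQ g, fun E hE h1 => ?_⟩
      have h2 := r1_rc h1 g⁻¹
      rw [rc_rc_inv] at h2
      have h3 := r1_rc (h _ (rs_rc hS.1 hE _) h2) g
      rwa [rc_inv_rc] at h3
    · rintro P Q R ⟨-, h⟩ ⟨hR, h'⟩
      exact ⟨hR, fun E hE h1 => h' E hE (h E hE h1)⟩
    · rintro P Q ⟨hQ, h⟩ h1
      exact (h Q hQ h1).ne rfl

end Cfsg.Agent.S5037
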