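import Cfsg.Statements.S5038
import Cfsg.Agent.H90.Root4

set_option autoImplicit false
open Cfsg

namespace Cfsg.Agent.S5038
open Cfsg.Agent.H90


/-- Let S be a set of abstract root subgroups of G in which every member has a rank one partner, A ∈ S and B a line partner of A. Then the subgroup generated by the members of S normalizing AB permutes the members of S inside AB doubly transitively by conjugation. -/
theorem result {G : Type*} [Group G] {S : Set (Subgroup G)} (hS : Cfsg.IsRootSubgroupSet S)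
    (hF : ∀ A ∈ S, ¬ Cfsg.IsIsolatedIn (Cfsg.FAdj S) S A) {A B : Subgroup G} (hA : A ∈ S) (hB : B ∈ Cfsg.linePartners S A) :
    ∀ C₁ ∈ Cfsg.membersIn S (A ⊔ B), ∀ C₂ ∈ Cfsg.membersIn S (A ⊔ B), ∀ D₁ ∈ Cfsg.membersIn S (A ⊔ B),
      ∀ D₂ ∈ Cfsg.membersIn S (A ⊔ B), C₁ ≠ C₂ → D₁ ≠ D₂ →
        ∃ x ∈ ⨆ E ∈ Cfsg.normalizingMembers S (A ⊔ B), E, Cfsg.conjBy C₁ x = D₁ ∧ Cfsg.conjBy C₂ x = D₂ := by
  have hF' : ∀ X ∈ S, ∃ Y ∈ S, IsRankOnePair X Y := fun X hX => (not_isolated_iff hX).1 (hF X hX)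
  rw [ln_iff] at hB
  set U := ⨆ E ∈ Cfsg.normalizingMembers S (A ⊔ B), E with hU
  -- moving a point while fixing another one
  have step : ∀ P ∈ S, ∀ Q ∈ S, ∀ R ∈ S, P ≤ A ⊔ B → Q ≤ A ⊔ B → R ≤ A ⊔ B → Q ≠ P → R ≠ P →
      ∃ x ∈ U, P ^~ x = P ∧ Q ^~ x = R := by
    intro P hP Q hQ R hR hP' hQ' hR' hQP hRP
    have e := hB.span hS hF' hA hQ hP hQ' hP' hQP.symm
    obtain ⟨E, hE, s⟩ := (hB.of_eq hS hA hP hQP.symm e).exists_sc hS hF' hQ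
    have hEU : E ≤ U := by
      refine le_iSup₂_of_le (f := fun (E : Subgroup G) (_ : E ∈ Cfsg.normalizingMembers S (A ⊔ B)) => E) E
        ⟨hE, fun x hx => ?_⟩ le_rfl
      rw [← rc_eq_self_iff_mem_normalizer, ← e]
      exact s.sup_rc_eq hx
    obtain ⟨Q', hQ'', hQQ'⟩ := hF' Q hQ
    obtain ⟨x, hx, e1⟩ := (s.points hS hQ hQ'' hQQ' hR (e ▸ hR')).resolve_left hRP
    exact ⟨x, hEU hx, s.cB.rc_eq hx, e1.symm⟩
  have hUN : ∀ x ∈ U, (A ⊔ B) ^~ x = A ⊔ B := by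
    intro x hx
    have : U ≤ Subgroup.normalizer ((A ⊔ B : Subgroup G) : Set G) := iSup₂_le fun E hE => hE.2
    exact rc_eq_self_iff_mem_normalizer.2 (this hx)
  have third : ∀ P ∈ S, ∀ Q ∈ S, P ≤ A ⊔ B → Q ≤ A ⊔ B → Q ≠ P → ∃ R ∈ S, R ≤ A ⊔ B ∧ P ≠ R ∧ Q ≠ R := by
    intro P hP Q hQ hP' hQ' hne
    obtain ⟨a, ha, ha1⟩ := rs_exists_ne_one hS hP
    obtain ⟨b, hb, hb1⟩ := rs_exists_ne_one hS hQ
    have hab : a * b ≠ 1 := fun e => hne (hB.disj Q hQ P hP hQ' hP' b hb1 hb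
      (by rw [eq_inv_of_mul_eq_one_right e]; exact P.inv_mem ha))
    obtain ⟨R, hR, hle, hx⟩ := hB.cover _ (mul_mem (hP' ha) (hQ' hb)) hab
    refine ⟨R, hR, hle, ?_, ?_⟩
    · rintro rfl
      exact hne (hB.disj Q hQ P hP hQ' hP' b hb1 hb (by simpa using P.mul_mem (P.inv_mem ha) hx))
    · rintro rfl
      exact hne (hB.disj Q hQ P hP hQ' hP' a ha1 (by simpa using Q.mul_mem hx (Q.inv_mem hb)) ha)
  rintro C₁ ⟨h1, h1'⟩ C₂ ⟨h2, h2'⟩ D₁ ⟨h3, h3'⟩ D₂ ⟨h4, h4'⟩ hC hD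
  have t1 : ∃ x ∈ U, C₁ ^~ x = D₁ := by
    by_cases e : D₁ = C₁
    · exact ⟨1, one_mem _, by rw [rc_one, e]⟩
    · obtain ⟨R, hR, hle, n1, n2⟩ := third C₁ h1 D₁ h3 h1' h3' e
      obtain ⟨x, hx, -, e1⟩ := step R hR C₁ h1 D₁ h3 hle h1' h3' n1 n2
      exact ⟨x, hx, e1⟩
  obtain ⟨x, hx, e1⟩ := t1
  obtain ⟨y, hy, e2, e3⟩ := step D₁ h3 (C₂ ^~ x) (rs_rc hS h2 x) D₂ h4 h3' (hUN x hx ▸ rc_mono h2' x) h4'
    (fun e => hC (rc_inj (e1.trans e.symm))) hD.symm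
  refine ⟨(x * y)⁻¹, inv_mem (mul_mem hx hy), ?_, ?_⟩
  · rw [conjBy_eq_rc, inv_inv, ← rc_rc, e1, e2]
  · rw [conjBy_eq_rc, inv_inv, ← rc_rc, e3]

end Cfsg.Agent.S5038
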