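import Cfsg.Statements.S5039
import Cfsg.Agent.H90.Triangle

set_option autoImplicit false
universe u
open Cfsg

namespace Cfsg.Agent.S5039
open Cfsg.Agent.H90

/-- three elements all of whose partial products are non-trivial -/
def Good {G : Type u} [Group G] (A : Subgroup G) : Prop :=
  ∃ x ∈ A, ∃ y ∈ A, ∃ z ∈ A, x ≠ 1 ∧ y ≠ 1 ∧ z ≠ 1 ∧ x * y ≠ 1 ∧ x * z ≠ 1 ∧ y * z ≠ 1 ∧ x * y * z ≠ 1

theorem Good.rc {G : Type u} [Group G] {A : Subgroup G} (h : Good A) (g : G) : Good (A ^~ g) := by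
  obtain ⟨x, hx, y, hy, z, hz, h1, h2, h3, h4, h5, h6, h7⟩ := h
  have k : ∀ w : G, w ≠ 1 → g⁻¹ * w * g ≠ 1 := fun w hw e => hw (by
    calc w = g * (g⁻¹ * w * g) * g⁻¹ := by group
      _ = 1 := by rw [e]; group)
  refine ⟨_, conj_mem_rc hx g, _, conj_mem_rc hy g, _, conj_mem_rc hz g, k _ h1, k _ h2, k _ h3, ?_, ?_, ?_, ?_⟩
  · convert k _ h4 using 1; group
  · convert k _ h5 using 1; group
  · convert k _ h6 using 1; group
  · convert k _ h7 using 1; group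

theorem special_of_not_good {G : Type u} [Group G] {A B : Subgroup G} (h : IsRankOnePair A B) (hB : ¬ Good B) :
    IsSpecialRankOnePair A B := by
  have hA : ¬ Good A := fun h1 => by
    obtain ⟨x, -, e⟩ := mem_unip.1 (right_mem_unip h)
    exact hB (e ▸ h1.rc x)
  refine sp_of_inv h fun a ha b hb e => ?_
  have ha1 := r1_partner_ne_one' h hb e
  have hb1 := r1_partner_ne_one h ha e
  obtain ⟨b', hb', hb1', e'⟩ := r1_ex h (A.inv_mem ha) (inv_ne_one.2 ha1)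
  have cube : ∀ {A : Subgroup G}, ¬ Good A → ∀ x ∈ A, x * x ≠ 1 → ∀ y ∈ A, y = 1 ∨ y = x⁻¹ ∨ y = x := by
    intro A hA x hx hxx y hy
    have hx1 : x ≠ 1 := by rintro rfl; simp at hxx
    have h3 : x * x * x = 1 := by
      by_contra h3
      exact hA ⟨x, hx, x, hx, x, hx, hx1, hx1, hx1, hxx, hxx, hxx, h3⟩
    by_contra hn
    push Not at hn
    refine hA ⟨x, hx, x, hx, y, hy, hx1, hx1, hn.1, hxx, fun e => hn.2.1 (eq_inv_of_mul_eq_one_right e),
      fun e => hn.2.1 (eq_inv_of_mul_eq_one_right e), fun e => hn.2.2 ?_⟩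
    rw [← h3] at e; exact mul_left_cancel e
  by_cases haa : a * a = 1
  · have hai : a⁻¹ = a := inv_eq_of_mul_eq_one_right haa
    by_cases hbb : b * b = 1
    · rw [hai, inv_eq_of_mul_eq_one_right hbb, e]
    · exfalso
      obtain ⟨a₂, ha₂, ha₂1, e₂⟩ := r1_ex (r1_symm h) (B.inv_mem hb) (inv_ne_one.2 hb1)
      obtain ⟨x, -, ex⟩ := mem_unip.1 (right_mem_unip (r1_symm h))
      rw [ex] at ha
      obtain ⟨c, hc, rfl⟩ := exists_of_mem_rc ha
      have hcc : c * c = 1 := by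
        calc c * c = x * (x⁻¹ * c * x * (x⁻¹ * c * x)) * x⁻¹ := by group
          _ = 1 := by rw [haa]; group
      rcases cube hB b hb hbb c hc with h1 | h1 | h1
      · apply ha1; rw [h1]; group
      · apply hbb; rw [h1] at hcc; rw [← inv_eq_one, mul_inv_rev, hcc]
      · apply hbb; rwa [h1] at hcc
  · have hne : b' ≠ b := by
      rintro rfl
      have := r1_uniq h ha (A.inv_mem ha) (e.symm.trans e')
      exact haa (by nth_rewrite 2 [this]; simp)
    by_cases hbb : b * b = 1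
    · exfalso
      obtain ⟨x, -, ex⟩ := mem_unip.1 (right_mem_unip h)
      rw [ex] at hb
      obtain ⟨c, hc, rfl⟩ := exists_of_mem_rc hb
      have hcc : c * c = 1 := by
        calc c * c = x * (x⁻¹ * c * x * (x⁻¹ * c * x)) * x⁻¹ := by group
          _ = 1 := by rw [hbb]; group
      rcases cube hA a ha haa c hc with h1 | h1 | h1
      · apply hb1; rw [h1]; group
      · apply haa; rw [h1] at hcc; rw [← inv_eq_one, mul_inv_rev, hcc]
      · apply haa; rwa [h1] at hcc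
    · rcases cube hB b hb hbb b' hb' with h1 | h1 | h1
      · exact absurd h1 hb1'
      · rw [← h1, e']
      · exact absurd h1 hne

/-- Let S be a class of abstract root subgroups of G containing two different commuting members. Suppose that, in case S is degenerate and every element of every member of S has order at most 3, the following holds: for every A ∈ S and every rank one partner B of A there are subgroups A₀ ≤ A and B₀ ≤ B generating an image of SL₂(k) with central kernel, k a field with at least four elements, A₀ and B₀ being the images of the unitriangular subgroups. Then every rank one pair A, B in S is special. -/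
theorem result {G : Type u} [Group G] {S : Set (Subgroup G)} (hS : Cfsg.IsRootSubgroupClass S)
    (hcomm : ∃ A ∈ S, ∃ C ∈ S, A ≠ C ∧ ⁅A, C⁆ = ⊥)
    (hH : Cfsg.IsDegenerateRootSet S → (∀ A ∈ S, ∀ a ∈ A, 0 < orderOf a ∧ orderOf a ≤ 3) →
      ∀ A ∈ S, ∀ B ∈ Cfsg.rankOnePartners S A, ∃ A₀ B₀ : Subgroup G, A₀ ≤ A ∧ B₀ ≤ B ∧
        ∃ (k : Type u) (_ : Field k), 3 < ENat.card k ∧ Cfsg.IsPSL2PairOver k A₀ B₀)
    {A B : Subgroup G} (hA : A ∈ S) (hB : B ∈ Cfsg.rankOnePartners S A) : Cfsg.IsSpecialRankOnePair A B := by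
  by_cases hd : IsDegenerateRootSet S
  swap
  · refine class_nd_special hS ⟨hcomm, ⟨A, hA, B, hB.1, hB.2⟩, ?_⟩ hA hB.1 hB.2
    unfold IsDegenerateRootSet at hd
    push Not at hd
    exact hd
  have tri : ∀ P ∈ S, ∀ Q ∈ S, Cm P Q ∨ IsRankOnePair P Q := fun P hP Q hQ => by
    rcases rs_tri hS.1 hP hQ with h | h | h
    · exact Or.inl h
    · exact Or.inr h
    · exact absurd (rcc_of_sc h) (hd P hP Q hQ)
  by_cases hgood : ∃ C ∈ S, C ≠ A ∧ Cm A C ∧ IsRankOnePair C B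
  · obtain ⟨C, hC, hne, hc, h⟩ := hgood
    exact tri_special hS.1 hA hC hB.1 hB.2 h hc hne.symm
  push Not at hgood
  have hbad : ∀ C ∈ S, C ≠ A → Cm A C → Cm C B := fun C hC hne hc =>
    (tri C hC B hB.1).resolve_right (hgood C hC hne hc)
  refine special_of_not_good hB.2 fun hG => ?_
  -- a triangle
  have htri : ∃ C ∈ S, ∃ D ∈ S, C ≠ A ∧ Cm A C ∧ IsRankOnePair A D ∧ IsRankOnePair C D := by
    obtain ⟨A₀, hA₀, C₀, hC₀, hne₀, hc₀⟩ := hcomm
    obtain ⟨g, rfl⟩ := class_conj hS hA₀ hA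
    have hC₁ := rs_rc hS.1 hC₀ g
    have hne₁ : C₀ ^~ g ≠ A₀ ^~ g := fun e => hne₀ (rc_inj e).symm
    have hc₁ := (cm_iff.2 hc₀).rc g
    by_contra hn
    push Not at hn
    have hconn := class_conn hS hA hB.1 hB.2 hC₁ hA
    have : ∀ X, Conn S (C₀ ^~ g) X → Cm (A₀ ^~ g) X ∧ Cm X B := by
      intro X hX
      induction hX with
      | refl => exact ⟨hc₁, hbad _ hC₁ hne₁ hc₁⟩
      | @tail Y Z _ h2 ih =>
        have hYA : Y ≠ A₀ ^~ g := fun e => r1_not_cm hB.2 (e ▸ ih.2)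
        rcases tri _ hA Z h2.2.1 with h3 | h3
        · exact ⟨h3, hbad Z h2.2.1 (fun e => r1_not_cm h2.2.2 (e ▸ ih.1.symm)) h3⟩
        · exact absurd h2.2.2 (hn Y h2.1 Z h2.2.1 hYA ih.1 h3)
    exact r1_not_cm hB.2 (this _ hconn).2
  obtain ⟨C, hC, D, hD, hne, hc, hAD, hCD⟩ := htri
  obtain ⟨g, e⟩ := class_conj hS hA hD
  obtain ⟨g', e'⟩ := class_conj hS hB.1 hA
  obtain ⟨x, hx, y, hy, z, hz, h1, h2, h3, h4, h5, h6, h7⟩ : Good A := e' ▸ hG.rc g'
  have cA := rs_cm hS.1 hA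
  have cC := rs_cm hS.1 hC
  have cD := rs_cm hS.1 hD
  obtain ⟨m, hm, hmA⟩ := tri_m cA hAD hCD hc
  let n : G → G := fun a => (m⁻¹ * a * m)⁻¹ * a
  have k : ∀ a ∈ A, m⁻¹ * a * m ∈ C := fun a ha => by rw [← hmA]; exact conj_mem_rc ha m
  have hn1 : ∀ a ∈ A, n a ∈ A ⊔ C := fun a ha =>
    mul_mem (Subgroup.mem_sup_right (C.inv_mem (k a ha))) (Subgroup.mem_sup_left ha)
  have hn2 : ∀ a ∈ A, ∀ a' ∈ A, n a * n a' = n (a * a') := by
    intro a ha a' ha'
    have t1 := hc _ ha _ (C.inv_mem (k a' ha'))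
    have t2 := cC _ (C.inv_mem (k a ha)) _ (C.inv_mem (k a' ha'))
    calc (m⁻¹ * a * m)⁻¹ * a * ((m⁻¹ * a' * m)⁻¹ * a') = (m⁻¹ * a * m)⁻¹ * (a * (m⁻¹ * a' * m)⁻¹) * a' := by group
      _ = ((m⁻¹ * a * m)⁻¹ * (m⁻¹ * a' * m)⁻¹) * a * a' := by rw [t1]; group
      _ = (m⁻¹ * (a * a') * m)⁻¹ * (a * a') := by rw [t2]; group
  have hn3 : ∀ a ∈ A, Cm D (D ^~ n a) := fun a ha => (tri_form cD hAD hCD hc hm hmA (hn1 a ha)).2 ⟨a, ha, rfl⟩
  have hn4 : ∀ a ∈ A, a ≠ 1 → D ^~ n a ≠ D := by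
    intro a ha ha1 e1
    obtain ⟨d, hd, -, e2⟩ := r1_ex hAD ha ha1
    have e3 := tri_partner hm hmA hd e2
    apply hne
    apply rc_inj (g := d)
    rw [e3, e2]
    have e4 : D ^~ n a ^~ (m⁻¹ * a * m) = D ^~ a := by
      rw [rc_rc]; congr 1
      change (m⁻¹ * a * m)⁻¹ * a * (m⁻¹ * a * m) = a
      rw [mul_assoc, hc a ha _ (k a ha), inv_mul_cancel_left]
    rw [← e4, e1]
  have hK : ∀ a ∈ A, a ≠ 1 → D ^~ n a ≤ Subgroup.centralizer ((B ^~ g : Subgroup G) : Set G) := by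
    intro a ha ha1
    rw [← cm_iff_le]
    have t1 := (hn3 a ha).rc g⁻¹
    have t2 : D ^~ g⁻¹ = A := by rw [e, rc_rc_inv]
    rw [t2] at t1
    have t3 := (hbad _ (rs_rc hS.1 (rs_rc hS.1 hD _) _) (fun e1 => hn4 a ha ha1 (rc_inj (e1.trans t2.symm))) t1).rc g
    rwa [rc_inv_rc] at t3
  have hfin := tri_cube cA cC cD hAD hCD hc (hn1 x hx) (hn1 y hy) (hn1 z hz)
    (fun e1 => hn4 x hx h1 (by rw [e1, rc_one])) (hn3 x hx) (hK x hx h1) (hK y hy h2) (hK z hz h3)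
    (by rw [hn2 x hx y hy]; exact hK _ (mul_mem hx hy) h4) (by rw [hn2 x hx z hz]; exact hK _ (mul_mem hx hz) h5)
    (by rw [hn2 y hy z hz]; exact hK _ (mul_mem hy hz) h6)
    (by rw [hn2 x hx y hy, hn2 _ (mul_mem hx hy) z hz]; exact hK _ (mul_mem (mul_mem hx hy) hz) h7)
  rw [← cm_iff_le, e] at hfin
  exact r1_not_cm hB.2 hfin.of_rc

end Cfsg.Agent.S5039
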