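import Cfsg.Statements.S5040
import Cfsg.Agent.H90.Root5

set_option autoImplicit false
open Cfsg

namespace Cfsg.Agent.S5040
open Cfsg.Agent.H90


/-- Let S be a non-degenerate class of abstract root subgroups of G and Δ a weak TI-subset of S. Then the members of Δ commute with one another elementwise. -/
theorem result {G : Type*} [Group G] {S : Set (Subgroup G)} (hS : Cfsg.IsRootSubgroupClass S) (hnd : Cfsg.IsNondegenerateRootSet S)
    {Δ : Set (Subgroup G)} (hΔ : Cfsg.IsWeakTISubset S Δ) : Cfsg.IsAbelianFamily Δ := by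
  obtain ⟨hsub, -, hne, hti⟩ := hΔ
  have hF : ∀ X ∈ S, ∃ Y ∈ S, IsRankOnePair X Y := fun X hX => class_nd_partner hS hnd hX
  let K : Subgroup G :=
    { carrier := {g | ∀ E, E ∈ Δ ↔ E ^~ g ∈ Δ}
      one_mem' := fun E => by rw [rc_one]
      mul_mem' := fun {g g'} hg hg' E => by rw [← rc_rc, ← hg' _, ← hg _]
      inv_mem' := fun {g} hg E => by rw [hg (E ^~ g⁻¹), rc_inv_rc] }
  have hK : ∀ A ∈ Δ, ∀ E ∈ S, Cm A E → E ≤ K := by
    intro A hA E hE hc e he
    by_cases he1 : e = 1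
    · rw [he1]; exact K.one_mem
    rcases hti e⁻¹ ⟨inv_ne_one.2 he1, E, hE, E.inv_mem he⟩ with h | h
    · intro X
      constructor
      · intro hX
        rw [← h]; exact ⟨X, hX, rfl⟩
      · intro hX
        rw [← h] at hX
        obtain ⟨Y, hY, e1⟩ := hX
        have : Y = X := rc_inj (g := e) e1
        rwa [← this]
    · exact absurd hA (Set.disjoint_left.1 h ⟨A, hA, hc.rc_eq he⟩)
  have hr : ∀ A ∈ Δ, ∀ B ∈ Δ, ¬ IsRankOnePair A B := by
    intro A hA B hB h
    have := class_generated hS hnd (hsub hA) (hsub hB) h (U := K) (fun C hC => hK A hA C hC.mem hC.cm)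
      (hK B hB B (hsub hB) (rs_cm hS.1 (hsub hB)))
    refine hne (Set.Subset.antisymm hsub fun X hX => ?_)
    obtain ⟨g, rfl⟩ := class_conj hS (hsub hA) hX
    have hg : g ∈ K := by rw [this]; trivial
    exact (hg A).1 hA
  intro A hA B hB
  rcases rs_tri hS.1 (hsub hA) (hsub hB) with h | h | h
  · exact h
  · exact absurd h (hr A hA B hB)
  · exfalso
    obtain ⟨A', hA', hAA'⟩ := hF A (hsub hA)
    obtain ⟨D, hD, s⟩ := ((h.ln hS.1 (hsub hA) hA' hAA').symm (hsub hA)).exists_sc hS.1 hF h.mem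
    have h1 := pair_r1 hS.1 hD (hsub hB) h s
    obtain ⟨d, hd, hd1⟩ := r1_exists_ne_one h1
    exact hr B hB _ ((hK A hA D hD s.cB hd B).1 hB) (r1_rc_self h1 hd hd1)

end Cfsg.Agent.S5040
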