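import Cfsg.Statements.S5042
import Cfsg.Agent.H90.Root5

set_option autoImplicit false
open Cfsg

namespace Cfsg.Agent.S5042
open Cfsg.Agent.H90


/-- Let S be a non-degenerate class of abstract root subgroups of G, A ∈ S and B a rank one partner of A. Then G is generated by the line partners of A together with B. -/
theorem result {G : Type*} [Group G] {S : Set (Subgroup G)} (hS : Cfsg.IsRootSubgroupClass S) (hnd : Cfsg.IsNondegenerateRootSet S)
    {A B : Subgroup G} (hA : A ∈ S) (hB : B ∈ Cfsg.rankOnePartners S A) :
    (⨆ C ∈ Cfsg.linePartners S A, C) ⊔ B = ⊤ := by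
  refine class_generated hS hnd hA hB.1 hB.2 (fun C hC => ?_) le_sup_right
  exact le_sup_of_le_left (le_iSup₂_of_le (f := fun (C : Subgroup G) (_ : C ∈ Cfsg.linePartners S A) => C) C
    (ln_iff.2 hC) le_rfl)

end Cfsg.Agent.S5042
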