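import Cfsg.Statements.S5043
import Cfsg.Agent.H90.CE2

set_option autoImplicit false
open Matrix
open Cfsg

namespace Cfsg.Agent.S5043
open Cfsg.Agent.H90


/-- Let k be a field and n a natural number. In SL_{n+3}(k) (so in every dimension at least 3) the conjugates of the root subgroup of elementary transvections 1 + c E₁₂ (c ∈ k) — that is, the groups of transvections attached to an incident point–hyperplane pair — form a non-degenerate class of abstract k-root subgroups of SL_{n+3}(k) whose graph of rank one pairs is connected. -/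
theorem result (k : Type*) [Field k] (n : ℕ) :
    Cfsg.IsRootSubgroupClass {A : Subgroup (Matrix.SpecialLinearGroup (Fin (n + 3)) k) |
        ∃ g : Matrix.SpecialLinearGroup (Fin (n + 3)) k,
          A = Cfsg.conjBy (Subgroup.closure {t : Matrix.SpecialLinearGroup (Fin (n + 3)) k |
            ∃ c : k, (t : Matrix (Fin (n + 3)) (Fin (n + 3)) k) = Matrix.transvection 0 1 c}) g} ∧
    Cfsg.IsNondegenerateRootSet {A : Subgroup (Matrix.SpecialLinearGroup (Fin (n + 3)) k) |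
        ∃ g : Matrix.SpecialLinearGroup (Fin (n + 3)) k,
          A = Cfsg.conjBy (Subgroup.closure {t : Matrix.SpecialLinearGroup (Fin (n + 3)) k |
            ∃ c : k, (t : Matrix (Fin (n + 3)) (Fin (n + 3)) k) = Matrix.transvection 0 1 c}) g} ∧
    Cfsg.IsKRootSubgroupSet k {A : Subgroup (Matrix.SpecialLinearGroup (Fin (n + 3)) k) |
        ∃ g : Matrix.SpecialLinearGroup (Fin (n + 3)) k,
          A = Cfsg.conjBy (Subgroup.closure {t : Matrix.SpecialLinearGroup (Fin (n + 3)) k |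
            ∃ c : k, (t : Matrix (Fin (n + 3)) (Fin (n + 3)) k) = Matrix.transvection 0 1 c}) g} ∧
    Cfsg.IsConnectedFamily (Cfsg.FAdj {A : Subgroup (Matrix.SpecialLinearGroup (Fin (n + 3)) k) |
        ∃ g : Matrix.SpecialLinearGroup (Fin (n + 3)) k,
          A = Cfsg.conjBy (Subgroup.closure {t : Matrix.SpecialLinearGroup (Fin (n + 3)) k |
            ∃ c : k, (t : Matrix (Fin (n + 3)) (Fin (n + 3)) k) = Matrix.transvection 0 1 c}) g})
      {A : Subgroup (Matrix.SpecialLinearGroup (Fin (n + 3)) k) |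
        ∃ g : Matrix.SpecialLinearGroup (Fin (n + 3)) k,
          A = Cfsg.conjBy (Subgroup.closure {t : Matrix.SpecialLinearGroup (Fin (n + 3)) k |
            ∃ c : k, (t : Matrix (Fin (n + 3)) (Fin (n + 3)) k) = Matrix.transvection 0 1 c}) g} := by
  have e0 : Subgroup.closure {t : Matrix.SpecialLinearGroup (Fin (n + 3)) k |
      ∃ c : k, (t : Matrix (Fin (n + 3)) (Fin (n + 3)) k) = Matrix.transvection 0 1 c} =
      RT k (mr (slM (Fin (n + 3)) k)) (ro (Pi.single 0 1) (LinearMap.proj 1)) := by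
    unfold RT; simp only [sl_tv_iff]
  have h := @re_sl k _ (Fin (n + 3)) _ _
  have hc := @sl_conn k _ (Fin (n + 3)) _ _ (by simp)
  have m : ∀ {i j : Fin (n + 3)}, i ≠ j → ro (Pi.single i 1) (LinearMap.proj j) ∈ NL k (Fin (n + 3) → k) :=
    fun h => ⟨_, nd_single h, rfl⟩
  have h01 : (0 : Fin (n + 3)) ≠ 1 := by simp
  have h02 : (0 : Fin (n + 3)) ≠ 2 := by simp [Fin.ext_iff]; rw [Nat.mod_eq_of_lt] <;> omega
  have h12 : (1 : Fin (n + 3)) ≠ 2 := by simp [Fin.ext_iff]; rw [Nat.mod_eq_of_lt] <;> omega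
  rw [e0, show {A | ∃ g, A = conjBy (RT k (mr (slM (Fin (n + 3)) k)) (ro (Pi.single 0 1) (LinearMap.proj 1))) g} =
      RT k (mr (slM (Fin (n + 3)) k)) '' NL k (Fin (n + 3) → k) from Set.ext fun A => ⟨fun ⟨g, hg⟩ =>
    ⟨_, h.conj _ (m h01) g, by rw [hg, RT_conj (h.sq _ (m h01))]⟩, fun hA =>
      let ⟨g, hg⟩ := Conn.conj (hc _ ⟨_, m h01, rfl⟩ A hA); ⟨g⁻¹, hg⟩⟩]
  have hk := h.kroot sl_top
  refine ⟨class_of_conn hk.1 ⟨_, _, m h01, rfl⟩ hc, ⟨⟨_, ⟨_, m h01, rfl⟩, _, ⟨_, m h02, rfl⟩, fun e => ?_,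
    cm_iff.1 (h.cm (m h01) (m h02) (by simp [ro_mul, h01.symm, h02.symm]))⟩,
    ⟨_, ⟨_, m h01, rfl⟩, _, ⟨_, m h01.symm, rfl⟩, (h.fadj (m h01) (m h01.symm) (ro_mu (by simp) (by simp) (by simp) (by simp))).2.2⟩,
    ⟨_, ⟨_, m h01, rfl⟩, _, ⟨_, m h12, rfl⟩, rcc_of_sc (h.sc (m h01) (m h12) (by simp [ro_mul, h02.symm])
      (by simp [ro_mul, h02.symm]) (by simpa [ro_mul, h02.symm] using m h02))⟩⟩, hk, hc⟩
  obtain ⟨c, e⟩ := h.eq_smul (m h01) (m h02) e
  simpa [h12.symm] using congrFun (DFunLike.congr_fun e (Pi.single 1 1)) 0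

end Cfsg.Agent.S5043
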