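import Cfsg.Statements.S5045
import Cfsg.Agent.H90.RI3

set_option autoImplicit false
open Cfsg

namespace Cfsg.Agent.S5045
open Cfsg.Agent.H90


/-- Let G be a finite group generated by a set D of root involutions, and W the set of members of D whose product with every other member of D has even order or is trivial (the isolated vertices of the odd-order-product graph on D). Then W is conjugation-invariant and generates a normal 2-subgroup of G meeting D in exactly W; the commutator of two members of D lying in different connected components of that graph, each with more than one member, lies in the subgroup generated by W; and for a in such a component, every member of D commuting with a, different from a and with product with a in D, lies in that component or in W. -/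
theorem result {G : Type*} [Group G] [Finite G] {D : Set G} (hD : Cfsg.IsRootInvolutionSet D) :
    (∀ w ∈ {w | Cfsg.IsIsolatedElem (Cfsg.OddAdj D) D w}, ∀ g : G, g * w * g⁻¹ ∈ {w | Cfsg.IsIsolatedElem (Cfsg.OddAdj D) D w}) ∧
    (Subgroup.closure {w | Cfsg.IsIsolatedElem (Cfsg.OddAdj D) D w}).Normal ∧
    IsPGroup 2 ↥(Subgroup.closure {w | Cfsg.IsIsolatedElem (Cfsg.OddAdj D) D w}) ∧
    (Subgroup.closure {w | Cfsg.IsIsolatedElem (Cfsg.OddAdj D) D w} : Set G) ∩ D = {w | Cfsg.IsIsolatedElem (Cfsg.OddAdj D) D w} ∧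
    (∀ a ∈ D, ∀ b ∈ D, (∃ a' ∈ Cfsg.elemComponentOf (Cfsg.OddAdj D) D a, a' ≠ a) →
      (∃ b' ∈ Cfsg.elemComponentOf (Cfsg.OddAdj D) D b, b' ≠ b) →
      Cfsg.elemComponentOf (Cfsg.OddAdj D) D a ≠ Cfsg.elemComponentOf (Cfsg.OddAdj D) D b →
        a * b * a⁻¹ * b⁻¹ ∈ Subgroup.closure {w | Cfsg.IsIsolatedElem (Cfsg.OddAdj D) D w}) ∧
    (∀ a ∈ D, (∃ a' ∈ Cfsg.elemComponentOf (Cfsg.OddAdj D) D a, a' ≠ a) →
      Cfsg.productPartners D a ⊆ Cfsg.elemComponentOf (Cfsg.OddAdj D) D a ∪ {w | Cfsg.IsIsolatedElem (Cfsg.OddAdj D) D w}) := by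
  have h := ri_of hD
  rw [show {w | IsIsolatedElem (OddAdj D) D w} = {w | w ∈ D ∧ ∀ x ∈ D, ¬ Od w x} from Set.ext fun _ => isolated_iff]
  have hW : ∀ w ∈ {w | w ∈ D ∧ ∀ x ∈ D, ¬ Od w x}, ∀ g : G, g * w * g⁻¹ ∈ {w | w ∈ D ∧ ∀ x ∈ D, ¬ Od w x} :=
    fun w hw g => ⟨hD.conj_mem w hw.1 g, fun x hx o => hw.2 _ (hD.conj_mem x hx g⁻¹) (by
      simpa [mul_assoc] using o.conj g⁻¹)⟩
  have hN := normal_closure_of hW
  have h2 : IsPGroup 2 (Subgroup.closure {w | w ∈ D ∧ ∀ x ∈ D, ¬ Od w x}) :=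
    isPGroup_closure_of (fun d hd => h.sq d hd.1) (fun g _ d hd => hW d hd g)
      fun a ha b hb => h.pow4 ha.1 hb.1 (ha.2 b hb.1)
  have hn : ∀ a ∈ D, (∃ a' ∈ elemComponentOf (OddAdj D) D a, a' ≠ a) → ∃ x ∈ D, Od a x := by
    rintro a ha ⟨a', ⟨-, h1⟩, h3⟩
    rcases h1.cases_head with rfl | ⟨x, hx, -⟩
    · exact absurd rfl h3
    · exact ⟨x, (oddAdj_iff.1 hx).2.1, (oddAdj_iff.1 hx).2.2⟩
  have h6 : ∀ a ∈ D, (∃ a' ∈ elemComponentOf (OddAdj D) D a, a' ≠ a) → ∀ b ∈ D, a * b ∈ D →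
      b ∈ elemComponentOf (OddAdj D) D a ∪ {w | w ∈ D ∧ ∀ x ∈ D, ¬ Od w x} := fun a ha ha' b hb hab => by
    obtain ⟨x, hx, o⟩ := hn a ha ha'
    by_cases e : ∃ y ∈ D, Od b y
    · obtain ⟨y, hy, o'⟩ := e
      exact Or.inl ⟨hb, h.line_conn ha hb hab hx o hy o'⟩
    · exact Or.inr ⟨hb, fun y hy o => e ⟨y, hy, o⟩⟩
  have h7 : ∀ {a b}, Relation.ReflTransGen (OddAdj D) a b →
      elemComponentOf (OddAdj D) D a = elemComponentOf (OddAdj D) D b := fun p => Set.ext fun x =>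
    ⟨fun hx => ⟨hx.1, (rtg_symm oddAdj_symm p).trans hx.2⟩, fun hx => ⟨hx.1, p.trans hx.2⟩⟩
  refine ⟨hW, hN, h2, Set.Subset.antisymm (fun d hd => ⟨hd.2, fun x hx => not_od_of_two h2 (h.sq d hd.2) ?_⟩)
    fun w hw => ⟨Subgroup.subset_closure hw, hw.1⟩, fun a ha b hb ha' hb' hne => ?_,
    fun a ha ha' b hb => h6 a ha ha' b hb.1.1 ((h.mem_X ha).1 hb).2⟩
  · simpa [mul_assoc, inv2 (h.sq x hx)] using mul_mem hd.1 (hN.conj_mem d hd.1 x)
  · rw [inv2 (h.sq a ha), inv2 (h.sq b hb)]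
    rcases h.tri ha hb with h1 | h1 | h1
    · simp only [mul_assoc, sw h1.symm, c2 (h.sq a ha), h.sq b hb, one_mem]
    · exact absurd (h7 (.single (oddAdj_iff.2 ⟨ha, hb, h1⟩))) hne
    rcases h6 a ha ha' _ h1 (h.fo_ln ha hb) with h3 | h3
    · rcases h6 b hb hb' _ h1 (h.fo_ln' ha hb h1) with h4 | h4
      · exact absurd ((h7 h3.2).trans (h7 h4.2).symm) hne
      · exact Subgroup.subset_closure h4
    · exact Subgroup.subset_closure h3

end Cfsg.Agent.S5045
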