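import Cfsg.Statements.S5046
import Cfsg.Agent.H90.RI3

set_option autoImplicit false
open Cfsg

namespace Cfsg.Agent.S5046
open Cfsg.Agent.H90


/-- Let G be a finite group generated by a set D of root involutions whose odd-order-product graph is connected, and d ∈ D. Then the members e of D with the same commuting members as d are exactly those for which the union of the commuting members of d and the members whose product with d has order 4 equals the corresponding union for e. -/
theorem result {G : Type*} [Group G] [Finite G] {D : Set G} (hD : Cfsg.IsRootInvolutionSet D)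
    (hc : Cfsg.IsConnectedSet (Cfsg.OddAdj D) D) {d : G} (hd : d ∈ D) :
    Cfsg.sameCommutingClass D d =
      {e | e ∈ D ∧ Cfsg.commutingMembers D d ∪ Cfsg.fourPartners D d = Cfsg.commutingMembers D e ∪ Cfsg.fourPartners D e} := by
  have h := ri_of hD
  have hl := h.cl_of_conn hc
  have key : ∀ e ∈ D, commutingMembers D e ∪ fourPartners D e = D \ AA D e := fun e he => by
    ext x
    constructor
    · rintro (hx | hx)
      · exact ⟨hx.1, fun o => h.od_not_comm he hx.1 o.2 hx.2.symm⟩
      · exact ⟨hx.1, fun o => h.fo_not_od he ((h.fo_iff he hx.1).1 hx.2) o.2⟩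
    · rintro ⟨hx, hn⟩
      rcases h.tri he hx with h1 | h1 | h1
      · exact Or.inl ⟨hx, h1.symm⟩
      · exact absurd ⟨hx, h1⟩ hn
      · exact Or.inr ⟨hx, (h.fo_iff he hx).2 h1⟩
  ext e
  refine and_congr_right fun he => ?_
  rw [key d hd, key e he]
  constructor
  · intro e1
    rw [Set.Subset.antisymm (fun x hx => h.AA_of_CC hd he e1.ge hx) fun x hx => h.AA_of_CC he hd e1.le hx]
  · intro e1
    refine h.CC_of_AA hl hd he (h.AA_eq hl hd he fun x hx => ?_)
    by_contra hn
    exact (show x ∈ D \ AA D d from e1 ▸ ⟨hx.1, hn⟩).2 hx

end Cfsg.Agent.S5046
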