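import Cfsg.Statements.S5047
import Cfsg.Agent.H90.RI3

set_option autoImplicit false
open Cfsg

namespace Cfsg.Agent.S5047
open Cfsg.Agent.H90


/-- Let G be a finite group generated by a set D of root involutions whose odd-order-product graph is connected, a ∈ D, and b a member of D different from a, commuting with a, with ab ∈ D, but not having the same commuting members as a. Then some member x of D with bx of order 4 has ax of order 3. -/
theorem result {G : Type*} [Group G] [Finite G] {D : Set G} (hD : Cfsg.IsRootInvolutionSet D)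
    (hc : Cfsg.IsConnectedSet (Cfsg.OddAdj D) D) {a b : G} (ha : a ∈ D) (hb : b ∈ Cfsg.productPartners D a)
    (hbE : b ∉ Cfsg.sameCommutingClass D a) : ∃ x ∈ Cfsg.fourPartners D b, orderOf (a * x) = 3 := by
  have h := ri_of hD
  have hl := h.cl_of_conn hc
  obtain ⟨hb, hab⟩ := (h.mem_X ha).1 hb
  obtain ⟨c, hc, e1⟩ := h.line_move hl ha hb hab fun e => hbE ⟨hb, e⟩
  have hf : c * a * c * a ∈ D := e1 ▸ hb
  obtain ⟨x, hx, e2⟩ := h.line_move hl hb hc (h.ln_symm hc hb (e1 ▸ h.fo_ln hc ha)) fun e =>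
    h.fo_not_comm hc ha hf (show a ∈ commutingMembers D c from e ▸ ⟨ha, h.ln_comm ha hb hab⟩).2.symm
  exact ⟨x, ⟨hx, (h.fo_iff hb hx).2 (h.fo_symm hx (e2 ▸ hc))⟩, (h.od_three ha hb hc hx e1 e2).2 hab⟩

end Cfsg.Agent.S5047
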