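import Cfsg.Statements.S5049
import Cfsg.Agent.H90.RI3

set_option autoImplicit false
open Cfsg

namespace Cfsg.Agent.S5049
open Cfsg.Agent.H90


/-- Let G be a finite group generated by a set D of odd transpositions (root involutions with no product of order 4), Q = O₂(G), and for a ∈ D let Q_a be the commutator subgroup of Q with a. Then every member of D commuting with a centralizes Q_a; and for b ∈ D with ab of odd order greater than 1, the centralizer of ab in Q is the intersection of the centralizers of a and b in Q. -/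
theorem result {G : Type*} [Group G] [Finite G] {D : Set G} (hD : Cfsg.IsOddTranspositionSet D) {a : G} (ha : a ∈ D) :
    (∀ e ∈ Cfsg.commutingMembers D a, ∀ q ∈ ⁅Cfsg.pCore 2 G, Subgroup.zpowers a⁆, e * q = q * e) ∧
    (∀ b ∈ Cfsg.oddPartners D a,
      Cfsg.pCore 2 G ⊓ Subgroup.centralizer {a * b} = Cfsg.pCore 2 G ⊓ Subgroup.centralizer {a} ⊓ Subgroup.centralizer {b}) := by
  have h := ri_of hD.1
  have hQ := H22.isPGroup_pCore (p := 2) (G := G)
  have hN : (pCore 2 G).Normal := inferInstance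
  have tri : ∀ {a b}, a ∈ D → b ∈ D → ¬ Od a b → a * b = b * a := fun ha hb hn =>
    (h.tri ha hb).elim id fun h1 => h1.elim (fun o => absurd o hn) fun h2 => absurd ((h.fo_iff ha hb).2 h2) (hD.2 _ ha _ hb)
  have k : ∀ e ∈ commutingMembers D a, ∀ q ∈ pCore 2 G, e * (q * a * q⁻¹) = q * a * q⁻¹ * e := fun e he q hq =>
    tri he.1 (hD.1.conj_mem a ha q) (not_od_of_two hQ (h.sq e he.1) (by
      have h1 := mul_mem (mul_mem (mul_mem (hN.conj_mem q hq e) (hN.conj_mem _ (inv_mem hq) (e * a)))
        (hN.conj_mem q hq a)) (inv_mem hq)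
      simpa [mul_assoc, inv2 (h.sq a ha), inv2 (h.sq e he.1), c2 (h.sq a ha), c2 (h.sq e he.1), sw he.2] using h1))
  refine ⟨fun e he q hq => ?_, fun b hb => ?_⟩
  · refine comm_of_mem_closure hq ?_
    rintro _ ⟨q, hq, _, ⟨n, rfl⟩, rfl⟩
    have := (Commute.zpow_right (show Commute e (q * a * q⁻¹) from k e he q hq) n).mul_right
      (Commute.zpow_right (show Commute e a from he.2) n).inv_right
    simpa [commutatorElement_def] using this.eq
  obtain ⟨hb, o⟩ := mem_oddPartners.1 hb
  ext q
  simp only [Subgroup.mem_inf, Subgroup.mem_centralizer_singleton_iff]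
  refine ⟨fun ⟨hq, e⟩ => ?_, fun ⟨⟨hq, e1⟩, e2⟩ => ⟨hq, by simp only [mul_assoc, sw e1, e2]⟩⟩
  have h1 : q * a = a * q := by
    have hx := hD.1.conj_mem a ha q
    have c := k a ⟨ha, rfl⟩ q hq
    have e3 : a * (q * a * q⁻¹) * (a * b) = a * b * (a * (q * a * q⁻¹)) := by
      have e4 : q⁻¹ * (a * b) = a * b * q⁻¹ := (show Commute q (a * b) from e).inv_left.eq
      have e5 : q * b = b * (a * (q * a)) := by
        have := (show Commute q (a * b) from e).inv_right.eq
        rw [mul_inv_rev, inv2 (h.sq a ha), inv2 (h.sq b hb)] at this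
        simpa [mul_assoc, h.sq a ha] using congrArg (· * a) this
      rw [mul_assoc, mul_assoc, e4]
      simp only [mul_assoc, c2 (h.sq a ha)]
      rw [← mul_assoc q b, e5]; simp only [mul_assoc]
    have := h.no_mixed hx hb (z := a * (q * a * q⁻¹)) (g := a * b) (by rw [c]; simp [mul_assoc, c2 (h.sq a ha)])
      (by rw [mul_assoc, sw c.symm, c2 (h.sq a ha), h.sq _ hx]) e3 o.2 (o.ne_one (h.sq a ha))
    exact mul_inv_eq_iff_eq_mul.1 (mul_left_cancel (this.trans (h.sq a ha).symm))
  exact ⟨⟨hq, h1⟩, mul_left_cancel (a := a) (by rw [← sw h1, e, mul_assoc])⟩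

end Cfsg.Agent.S5049
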