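import Cfsg.Statements.S5057
import Cfsg.Agent.H90.RI3

set_option autoImplicit false
open Cfsg

namespace Cfsg.Agent.S5057
open Cfsg.Agent.H90

open Equiv Equiv.Perm

set_option maxRecDepth 100000 in
theorem pw : ∀ x : Perm (Fin 6), sign x = 1 → x ^ 3 = 1 ∨ x ^ 4 = 1 ∨ x ^ 5 = 1 := by decide +kernel

theorem ord (x : alternatingGroup (Fin 6)) : orderOf x ∣ 3 ∨ orderOf x ∣ 4 ∨ orderOf x ∣ 5 := by
  simp only [orderOf_dvd_iff_pow_eq_one, Subtype.ext_iff]
  exact pw x x.2

theorem ct (x : alternatingGroup (Fin 6)) (h : orderOf x = 2) : (x : Perm (Fin 6)).cycleType = {2, 2} := by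
  rw [← Subgroup.orderOf_coe] at h
  obtain ⟨n, e⟩ := cycleType_prime_order (h ▸ Nat.prime_two)
  have h1 := sum_cycleType_le (x : Perm (Fin 6))
  have h2 := (sign_of_cycleType (x : Perm (Fin 6))).symm.trans x.2
  rw [e, h] at h1 h2 ⊢
  simp at h1 h2
  obtain rfl | rfl | rfl : n = 0 ∨ n = 1 ∨ n = 2 := by omega
  · exact absurd h2 (by decide)
  · rfl
  · exact absurd h2 (by decide)

/-- The involutions of the alternating group of degree 6 form a class of root involutions (a single conjugacy class of involutions generating the group, any two of which commute, have product of odd order, or have product of order 4 whose square is again an involution of the class), and the product of any two of them has order at most 5. -/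
theorem result :
    Cfsg.IsRootInvolutionClass {g : ↥(alternatingGroup (Fin 6)) | orderOf g = 2} ∧
    ∀ d ∈ {g : ↥(alternatingGroup (Fin 6)) | orderOf g = 2}, ∀ e ∈ {g : ↥(alternatingGroup (Fin 6)) | orderOf g = 2},
      orderOf (d * e) ≤ 5 := by
  have cj : ∀ d ∈ {g : ↥(alternatingGroup (Fin 6)) | orderOf g = 2}, ∀ g, g * d * g⁻¹ ∈
      {g : ↥(alternatingGroup (Fin 6)) | orderOf g = 2} := fun d hd g => ((MulAut.conj g).orderOf_eq d).trans hd
  have h0 : (⟨swap 0 1 * swap 2 3, mem_alternatingGroup.2 (by decide)⟩ : alternatingGroup (Fin 6)) ∈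
      {g : ↥(alternatingGroup (Fin 6)) | orderOf g = 2} := orderOf_eq_prime (by decide) (by decide)
  have := alternatingGroup.isSimpleGroup (α := Fin 6) (by simp)
  refine ⟨⟨⟨fun _ h => h, ((normal_closure_of cj).eq_bot_or_eq_top).resolve_left fun e => ?_, cj, fun a ha b hb => ?_⟩,
    ⟨_, h0⟩, fun a ha b hb => ?_⟩, fun a _ b _ => ?_⟩
  · exact absurd (Subgroup.mem_bot.1 (e ▸ Subgroup.subset_closure h0)) (by decide)
  · rcases ord (a * b) with h | h | h
    · exact .inr (.inl (Odd.of_dvd_nat (by decide) h))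
    · by_cases e : orderOf (a * b) = 4
      · exact .inr (.inr ⟨e, by simp [orderOf_pow, e]⟩)
      have h1 : orderOf (a * b) ∣ 2 := by
        have := Nat.le_of_dvd (by decide) h
        interval_cases orderOf (a * b) <;> simp_all
      have h2 := eq_inv_of_mul_eq_one_left (pow_two (a * b) ▸ orderOf_dvd_iff_pow_eq_one.1 h1)
      rw [mul_inv_rev, inv2 (H8.mul_self_of_orderOf_two ha), inv2 (H8.mul_self_of_orderOf_two hb)] at h2
      exact .inl h2
    · exact .inr (.inl (Odd.of_dvd_nat (by decide) h))
  · obtain ⟨g, e⟩ := isConj_iff.1 (alternatingGroup.isConj_of (isConj_iff_cycleType_eq.2 ((ct a ha).trans (ct b hb).symm))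
      (by rw [← sum_cycleType, ct a ha]; decide))
    exact ⟨g, e.symm⟩
  · rcases ord (a * b) with h | h | h <;> have := Nat.le_of_dvd (by decide) h <;> omega

end Cfsg.Agent.S5057
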