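import Cfsg.Statements.S5058
import Cfsg.Agent.H90.CE2

set_option autoImplicit false
open Matrix
open Cfsg

namespace Cfsg.Agent.S5058
open Cfsg.Agent.H90

open Matrix.SpecialLinearGroup

/-- Let F be a finite field of characteristic 2 and n a natural number. Then the transvections of SL_{n+3}(F) (so in every dimension at least 3) (the conjugates of the elementary matrices 1 + c E₁₂, c ≠ 0) form a class of root involutions of SL_{n+3}(F); when F has two elements they form a class of {3,4}⁺-transpositions (every product of odd order has order 1 or 3). -/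
theorem result (F : Type*) [Field F] [Fintype F] [CharP F 2] (n : ℕ) :
    Cfsg.IsRootInvolutionClass {t : Matrix.SpecialLinearGroup (Fin (n + 3)) F | ∃ c : F, c ≠ 0 ∧
        ∃ g : Matrix.SpecialLinearGroup (Fin (n + 3)) F, ((g⁻¹ * t * g : Matrix.SpecialLinearGroup (Fin (n + 3)) F) :
          Matrix (Fin (n + 3)) (Fin (n + 3)) F) = Matrix.transvection 0 1 c} ∧
    (Fintype.card F = 2 → Cfsg.IsThreeFourPlusTranspositionSet {t : Matrix.SpecialLinearGroup (Fin (n + 3)) F | ∃ c : F, c ≠ 0 ∧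
        ∃ g : Matrix.SpecialLinearGroup (Fin (n + 3)) F, ((g⁻¹ * t * g : Matrix.SpecialLinearGroup (Fin (n + 3)) F) :
          Matrix (Fin (n + 3)) (Fin (n + 3)) F) = Matrix.transvection 0 1 c}) := by
  have h := @re_sl F _ (Fin (n + 3)) _ _
  have hc := @sl_conn F _ (Fin (n + 3)) _ _ (by simp)
  have h01 : (0 : Fin (n + 3)) ≠ 1 := by simp
  have h02 : (0 : Fin (n + 3)) ≠ 2 := by simp [Fin.ext_iff]; rw [Nat.mod_eq_of_lt] <;> omega
  have h12 : (1 : Fin (n + 3)) ≠ 2 := by simp [Fin.ext_iff]; rw [Nat.mod_eq_of_lt] <;> omega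
  have m : ro (Pi.single 0 1) (LinearMap.proj 1) ∈ NL F (Fin (n + 3) → F) := ⟨_, nd_single h01, rfl⟩
  have hs : ∀ e ∈ NL F (Fin (n + 3) → F), ∀ c : F, c ≠ 0 → c • e ∈ NL F (Fin (n + 3) → F) := by
    rintro _ ⟨p, hp, rfl⟩ c hc
    exact ⟨(c • p.1, p.2), ⟨by simp [show p.2 p.1 = 0 from hp.1], smul_ne_zero hc hp.2.1, hp.2.2⟩, ro_smul c⟩
  have hD := h.ri hs sl_top
  have cl : ∀ (t : Matrix.SpecialLinearGroup (Fin (n + 3)) F) (c : F), c ≠ 0 → (∃ g, ((g⁻¹ * t * g :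
      Matrix.SpecialLinearGroup (Fin (n + 3)) F) : Matrix (Fin (n + 3)) (Fin (n + 3)) F) = Matrix.transvection 0 1 c) →
      IsConj (SpecialLinearGroup.transvection h01 1) t := fun t c hc ⟨g, hg⟩ => by
    refine IsConj.trans (b := g⁻¹ * t * g) (isConj_iff.2 ⟨diag2n h02 c hc, ?_⟩) (isConj_iff.2 ⟨g, by group⟩)
    rw [mul_inv_eq_iff_eq_mul]
    refine Subtype.ext ?_
    rw [coe_mul, coe_mul, hg, diag2n_coe]
    ext i j
    simp only [transvection_coe, Matrix.transvection, Matrix.diagonal_mul, Matrix.mul_diagonal, Matrix.add_apply,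
      Matrix.one_apply, Matrix.single_apply]
    by_cases e : i = j
    · subst e; simp [mul_comm, show ¬ (0 = i ∧ 1 = i) from fun e => h01 (e.1.trans e.2.symm)]
    · by_cases e2 : 0 = i ∧ 1 = j
      · obtain ⟨rfl, rfl⟩ := e2; simp [h12]
      · simp [e, e2]
  have e0 : {t : Matrix.SpecialLinearGroup (Fin (n + 3)) F | ∃ c : F, c ≠ 0 ∧ ∃ g, ((g⁻¹ * t * g :
      Matrix.SpecialLinearGroup (Fin (n + 3)) F) : Matrix (Fin (n + 3)) (Fin (n + 3)) F) = Matrix.transvection 0 1 c} =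
      {g | ∃ e ∈ NL F (Fin (n + 3) → F), mr (slM _ F) g = 1 + e} := Set.ext fun t => by
    constructor
    · rintro ⟨c, hc, g, hg⟩
      simpa [mul_assoc] using hD.1.conj_mem _ ⟨_, hs _ m c hc, sl_tv_iff.1 hg⟩ g
    · rintro ⟨e, he, ht⟩
      obtain ⟨g, hg⟩ := Conn.conj (hc _ ⟨_, m, rfl⟩ _ ⟨e, he, rfl⟩)
      have h1 : t ∈ RT F (mr (slM _ F)) e := (mem_RT (h.sq e he)).2 ⟨1, by simpa⟩
      rw [hg, mem_rc, mem_RT (h.sq _ m)] at h1
      obtain ⟨c, h1⟩ := h1
      refine ⟨c, fun e1 => h.ne e he ?_, g⁻¹, sl_tv_iff.2 (by rwa [inv_inv])⟩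
      rw [← h.eq_one m h1, conj_eq_one_iff] at e1
      simpa [e1] using ht
  refine ⟨⟨e0 ▸ hD.1, ⟨SpecialLinearGroup.transvection h01 1, 1, one_ne_zero, 1, by simp [transvection_coe, Matrix.transvection]⟩,
    fun a ⟨c, h1, h2⟩ b ⟨d, h3, h4⟩ => ?_⟩, fun h2 => e0 ▸ hD.2 (by rw [Nat.card_eq_fintype_card, h2])⟩
  obtain ⟨g, hg⟩ := isConj_iff.1 ((cl a c h1 h2).symm.trans (cl b d h3 h4))
  exact ⟨g, hg.symm⟩

end Cfsg.Agent.S5058
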