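import Cfsg.Statements.S5067
import Cfsg.Agent.H90.RankOne

set_option autoImplicit false
open Cfsg

namespace Cfsg.Agent.S5067
open Cfsg.Agent.H90

theorem aux {P : Type*} [Group P] [Group.IsNilpotent P] (hna : ¬ IsMulCommutative P) {E : Subgroup P}
    (hE : IsMulCommutative ↥E) :
    Group.nilpotencyClass ↥(Subgroup.normalClosure (E : Set P)) < Group.nilpotencyClass P := by
  set N := Subgroup.normalClosure (E : Set P)
  have hE' := cm_self_iff.2 hE
  let K : Subgroup P := (⊤ : Subgroup P).lowerCentralSeries 2
  have hK : K.Normal := inferInstanceAs ((⊤ : Subgroup P).lowerCentralSeries 2).Normal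
  let f := QuotientGroup.mk' K
  have hcen : ∀ x ∈ commutator P, ∀ y, f x * f y = f y * f x := by
    intro x hx y
    rw [← commutatorElement_eq_one_iff_mul_comm, ← map_commutatorElement]
    exact (QuotientGroup.eq_one_iff _).2 (Subgroup.commutator_mem_commutator hx (Subgroup.mem_top y))
  have hNle : N ≤ commutator P ⊔ E := by
    have : (commutator P ⊔ E).Normal := Subgroup.Normal.of_commutator_le _ le_sup_left
    exact Subgroup.normalClosure_le_normal (le_sup_right : E ≤ commutator P ⊔ E)
  have h1 : ⁅N, N⁆ ≤ K := by
    rw [Subgroup.commutator_le]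
    intro x hx y hy
    obtain ⟨c, hc, e, he, rfl⟩ := Subgroup.mem_sup_of_normal_left.1 (hNle hx)
    obtain ⟨c', hc', e', he', rfl⟩ := Subgroup.mem_sup_of_normal_left.1 (hNle hy)
    rw [← QuotientGroup.eq_one_iff, ← QuotientGroup.mk'_apply, map_commutatorElement,
      commutatorElement_eq_one_iff_mul_comm]
    have h2 : Commute (f e) (f e') := by
      show f e * f e' = f e' * f e
      rw [← map_mul, ← map_mul, hE' e he e' he']
    show Commute (f (c * e)) (f (c' * e'))
    rw [map_mul f c, map_mul f c']
    exact Commute.mul_left (by rw [← map_mul]; exact hcen c hc _)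
      (Commute.mul_right (Commute.symm (hcen c' hc' e)) h2)
  have h2 : ∀ i, N.lowerCentralSeries (i + 1) ≤ (⊤ : Subgroup P).lowerCentralSeries (i + 2) := by
    intro i
    induction i with
    | zero => exact h1
    | succ i ih => exact Subgroup.commutator_mono ih le_top
  obtain ⟨d, hd⟩ : ∃ d, Group.nilpotencyClass P = d + 2 := by
    have := Group.IsNilpotent.nilpotencyClass_le_one_iff.not.2 hna
    exact ⟨Group.nilpotencyClass P - 2, by omega⟩
  have h3 := h2 d
  rw [← hd, Subgroup.lowerCentralSeries_nilpotencyClass, le_bot_iff, ← Subgroup.top_subtype_lowerCentralSeries,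
    Subgroup.map_eq_bot_iff_of_injective _ N.subtype_injective,
    Subgroup.lowerCentralSeries_eq_bot_iff_nilpotencyClass_le] at h3
  omega

/-- Let P be a non-abelian nilpotent p-group (every element of p-power order; P possibly infinite) generated by two abelian subgroups E and F. Then the normal closure of E in P, and likewise that of F, has nilpotency class strictly smaller than that of P. -/
theorem result {P : Type*} [Group P] {p : ℕ} [Fact p.Prime] (hP : IsPGroup p P) [Group.IsNilpotent P]
    (hna : ¬ IsMulCommutative P) {E F : Subgroup P} (hE : IsMulCommutative ↥E) (hF : IsMulCommutative ↥F) (hgen : E ⊔ F = ⊤) :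
    Group.nilpotencyClass ↥(Subgroup.normalClosure (E : Set P)) < Group.nilpotencyClass P ∧
    Group.nilpotencyClass ↥(Subgroup.normalClosure (F : Set P)) < Group.nilpotencyClass P := by
  exact ⟨aux hna hE, aux hna hF⟩

end Cfsg.Agent.S5067
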