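import Cfsg.Statements.S5070
import Cfsg.Agent.H90.CE3

set_option autoImplicit false
open Matrix
open Cfsg

namespace Cfsg.Agent.S5070
open Cfsg.Agent.H90

open H27

/-- Let F be a field, m a natural number and V = F^{2(m+1)} with the standard non-degenerate alternating form f(u, v) = uᵀ J v. For a non-zero vector p let T(p) be the group of symplectic transvections v ↦ v + c f(v, p) p, c ∈ F. Then the subgroups T(p), p ≠ 0, generate the symplectic group Sp_{2(m+1)}(F) and form a degenerate class of abstract F-root subgroups of it (any two of them either commute elementwise or are the unipotent subgroups of a rank one group that is an image of SL₂(F) with central kernel, never the commutator case), and their graph of rank one pairs is connected. -/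
theorem result (F : Type*) [Field F] (m : ℕ) :
    Cfsg.IsRootSubgroupClass {A : Subgroup ↥(Matrix.symplecticGroup (Fin (m + 1)) F) | ∃ p : Fin (m + 1) ⊕ Fin (m + 1) → F, p ≠ 0 ∧
        A = Subgroup.closure {g : ↥(Matrix.symplecticGroup (Fin (m + 1)) F) | ∃ c : F, ∀ v : Fin (m + 1) ⊕ Fin (m + 1) → F,
          (g : Matrix (Fin (m + 1) ⊕ Fin (m + 1)) (Fin (m + 1) ⊕ Fin (m + 1)) F) *ᵥ v =
            v + (c * (v ⬝ᵥ (Matrix.J (Fin (m + 1)) F *ᵥ p))) • p}} ∧
    Cfsg.IsDegenerateRootSet {A : Subgroup ↥(Matrix.symplecticGroup (Fin (m + 1)) F) | ∃ p : Fin (m + 1) ⊕ Fin (m + 1) → F, p ≠ 0 ∧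
        A = Subgroup.closure {g : ↥(Matrix.symplecticGroup (Fin (m + 1)) F) | ∃ c : F, ∀ v : Fin (m + 1) ⊕ Fin (m + 1) → F,
          (g : Matrix (Fin (m + 1) ⊕ Fin (m + 1)) (Fin (m + 1) ⊕ Fin (m + 1)) F) *ᵥ v =
            v + (c * (v ⬝ᵥ (Matrix.J (Fin (m + 1)) F *ᵥ p))) • p}} ∧
    Cfsg.IsKRootSubgroupSet F {A : Subgroup ↥(Matrix.symplecticGroup (Fin (m + 1)) F) | ∃ p : Fin (m + 1) ⊕ Fin (m + 1) → F, p ≠ 0 ∧
        A = Subgroup.closure {g : ↥(Matrix.symplecticGroup (Fin (m + 1)) F) | ∃ c : F, ∀ v : Fin (m + 1) ⊕ Fin (m + 1) → F,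
          (g : Matrix (Fin (m + 1) ⊕ Fin (m + 1)) (Fin (m + 1) ⊕ Fin (m + 1)) F) *ᵥ v =
            v + (c * (v ⬝ᵥ (Matrix.J (Fin (m + 1)) F *ᵥ p))) • p}} ∧
    Cfsg.IsConnectedFamily (Cfsg.FAdj {A : Subgroup ↥(Matrix.symplecticGroup (Fin (m + 1)) F) | ∃ p : Fin (m + 1) ⊕ Fin (m + 1) → F, p ≠ 0 ∧
        A = Subgroup.closure {g : ↥(Matrix.symplecticGroup (Fin (m + 1)) F) | ∃ c : F, ∀ v : Fin (m + 1) ⊕ Fin (m + 1) → F,
          (g : Matrix (Fin (m + 1) ⊕ Fin (m + 1)) (Fin (m + 1) ⊕ Fin (m + 1)) F) *ᵥ v =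
            v + (c * (v ⬝ᵥ (Matrix.J (Fin (m + 1)) F *ᵥ p))) • p}})
      {A : Subgroup ↥(Matrix.symplecticGroup (Fin (m + 1)) F) | ∃ p : Fin (m + 1) ⊕ Fin (m + 1) → F, p ≠ 0 ∧
        A = Subgroup.closure {g : ↥(Matrix.symplecticGroup (Fin (m + 1)) F) | ∃ c : F, ∀ v : Fin (m + 1) ⊕ Fin (m + 1) → F,
          (g : Matrix (Fin (m + 1) ⊕ Fin (m + 1)) (Fin (m + 1) ⊕ Fin (m + 1)) F) *ᵥ v =
            v + (c * (v ⬝ᵥ (Matrix.J (Fin (m + 1)) F *ᵥ p))) • p}} := by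
  let ρ := mr (Matrix.symplecticGroup (Fin (m + 1)) F).subtype
  have hρ : ∀ (g : Matrix.symplecticGroup (Fin (m + 1)) F) x, ρ g x = g.1 *ᵥ x := fun _ _ => rfl
  let B : (Fin (m + 1) ⊕ Fin (m + 1) → F) →ₗ[F] (Fin (m + 1) ⊕ Fin (m + 1) → F) →ₗ[F] F := (sympBilin (m + 1) F).flip
  have hB : ∀ x y, B x y = sympForm (m + 1) F y x := fun x y => sympBilin_apply y x
  have e1 : ∀ (g : Matrix.symplecticGroup (Fin (m + 1)) F) p (c : F), ρ g = 1 + c • ro p (B p) ↔
      ∀ v, g.1 *ᵥ v = v + (c * (v ⬝ᵥ (Matrix.J (Fin (m + 1)) F *ᵥ p))) • p := fun g p c => by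
    rw [LinearMap.ext_iff]; exact forall_congr' fun v => by simp [hρ, hB, smul_smul, sympForm]
  have h : SkS F ρ B := ⟨mr_inj Subtype.val_injective, fun a _ => ⟨a, rfl⟩, fun _ => rfl,
    fun x y => by rw [hB, hB, sympForm_neg_comm]; rfl, fun g x y => by rw [hB, hB, hρ, hρ, sp_sympForm],
    fun p _ c => ⟨spT p c, (e1 _ _ _).2 (spT_mulVec p c)⟩, fun p r hp _ hr _ => by
      obtain ⟨l, -, h1, h2⟩ := exists_dual_ne_zero_two (⊥ : Submodule F _) hp hr
      obtain ⟨a, ha⟩ := exists_sympForm_rep l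
      exact ⟨a, by rw [hB, sympForm_self], by simp [hB, ha, h1], by simp [hB, ha, h2]⟩⟩
  have := h.all (sp_eq_top_of_spT_mem _ fun w c => by
    by_cases hw : w = 0
    · rw [show spT w c = 1 from sp_ext fun x => by simp [spT_mulVec, hw]]; exact one_mem _
    · exact h.re.le_sup (mem_NS hw (by rw [hB, sympForm_self])) ((e1 _ _ _).2 (spT_mulVec w c)))
    (p := Pi.single (Sum.inl 0) 1) (by simp) (by rw [hB, sympForm_self])
  simp only [h.image, H90.RT, e1, hB, sympForm_self, true_and] at this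
  exact this

end Cfsg.Agent.S5070
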