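import Cfsg.Statements.S5071
import Cfsg.Agent.H90.CE3
import Cfsg.Agent.H10.Isotropic

set_option autoImplicit false
open Matrix
open Cfsg

namespace Cfsg.Agent.S5071
open Cfsg.Agent.H90

open H27 H10

/-- Let F be a finite field with q² elements, n a natural number, and h the Hermitian form Σ uᵢ vᵢ^q on F^{n+2}. For a non-zero isotropic vector p let T(p) be the group of unitary transvections with centre ⟨p⟩: the elements of SU_{n+2}(q) moving every vector by a multiple of p and fixing every vector perpendicular to p. Let Σ be the set of these T(p) and G₀ the subgroup they generate. Then, viewed inside G₀, the members of Σ form a degenerate class of abstract k-root subgroups of G₀ for some field k with q elements (any two commute or are the unipotent subgroups of a rank one group that is an image of SL₂(k) with central kernel, never the commutator case), and their graph of rank one pairs is connected. -/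
theorem result (F : Type*) [Field F] [Fintype F] (q n : ℕ) (hF : Fintype.card F = q ^ 2) :
    Cfsg.IsRootSubgroupClass ((fun A : Subgroup ↥(Cfsg.SU (n + 2) F q) => A.subgroupOf (⨆ B ∈ {A : Subgroup ↥(Cfsg.SU (n + 2) F q) | ∃ p : Fin (n + 2) → F, p ≠ 0 ∧ Cfsg.hermForm (n + 2) F q p p = 0 ∧
          A = Subgroup.closure {g : ↥(Cfsg.SU (n + 2) F q) |
            (∀ v : Fin (n + 2) → F, ∃ c : F, ((g : Matrix.SpecialLinearGroup (Fin (n + 2)) F) : Matrix (Fin (n + 2)) (Fin (n + 2)) F) *ᵥ v = v + c • p) ∧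
            ∀ v : Fin (n + 2) → F, Cfsg.hermForm (n + 2) F q v p = 0 →
              ((g : Matrix.SpecialLinearGroup (Fin (n + 2)) F) : Matrix (Fin (n + 2)) (Fin (n + 2)) F) *ᵥ v = v}}, B)) ''
      {A : Subgroup ↥(Cfsg.SU (n + 2) F q) | ∃ p : Fin (n + 2) → F, p ≠ 0 ∧ Cfsg.hermForm (n + 2) F q p p = 0 ∧
          A = Subgroup.closure {g : ↥(Cfsg.SU (n + 2) F q) |
            (∀ v : Fin (n + 2) → F, ∃ c : F, ((g : Matrix.SpecialLinearGroup (Fin (n + 2)) F) : Matrix (Fin (n + 2)) (Fin (n + 2)) F) *ᵥ v = v + c • p) ∧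
            ∀ v : Fin (n + 2) → F, Cfsg.hermForm (n + 2) F q v p = 0 →
              ((g : Matrix.SpecialLinearGroup (Fin (n + 2)) F) : Matrix (Fin (n + 2)) (Fin (n + 2)) F) *ᵥ v = v}}) ∧
    Cfsg.IsDegenerateRootSet ((fun A : Subgroup ↥(Cfsg.SU (n + 2) F q) => A.subgroupOf (⨆ B ∈ {A : Subgroup ↥(Cfsg.SU (n + 2) F q) | ∃ p : Fin (n + 2) → F, p ≠ 0 ∧ Cfsg.hermForm (n + 2) F q p p = 0 ∧
          A = Subgroup.closure {g : ↥(Cfsg.SU (n + 2) F q) |
            (∀ v : Fin (n + 2) → F, ∃ c : F, ((g : Matrix.SpecialLinearGroup (Fin (n + 2)) F) : Matrix (Fin (n + 2)) (Fin (n + 2)) F) *ᵥ v = v + c • p) ∧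
            ∀ v : Fin (n + 2) → F, Cfsg.hermForm (n + 2) F q v p = 0 →
              ((g : Matrix.SpecialLinearGroup (Fin (n + 2)) F) : Matrix (Fin (n + 2)) (Fin (n + 2)) F) *ᵥ v = v}}, B)) ''
      {A : Subgroup ↥(Cfsg.SU (n + 2) F q) | ∃ p : Fin (n + 2) → F, p ≠ 0 ∧ Cfsg.hermForm (n + 2) F q p p = 0 ∧
          A = Subgroup.closure {g : ↥(Cfsg.SU (n + 2) F q) |
            (∀ v : Fin (n + 2) → F, ∃ c : F, ((g : Matrix.SpecialLinearGroup (Fin (n + 2)) F) : Matrix (Fin (n + 2)) (Fin (n + 2)) F) *ᵥ v = v + c • p) ∧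
            ∀ v : Fin (n + 2) → F, Cfsg.hermForm (n + 2) F q v p = 0 →
              ((g : Matrix.SpecialLinearGroup (Fin (n + 2)) F) : Matrix (Fin (n + 2)) (Fin (n + 2)) F) *ᵥ v = v}}) ∧
    (∃ (L : Type) (_ : Field L) (_ : Fintype L), Fintype.card L = q ∧ Cfsg.IsKRootSubgroupSet L ((fun A : Subgroup ↥(Cfsg.SU (n + 2) F q) => A.subgroupOf (⨆ B ∈ {A : Subgroup ↥(Cfsg.SU (n + 2) F q) | ∃ p : Fin (n + 2) → F, p ≠ 0 ∧ Cfsg.hermForm (n + 2) F q p p = 0 ∧
          A = Subgroup.closure {g : ↥(Cfsg.SU (n + 2) F q) |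
            (∀ v : Fin (n + 2) → F, ∃ c : F, ((g : Matrix.SpecialLinearGroup (Fin (n + 2)) F) : Matrix (Fin (n + 2)) (Fin (n + 2)) F) *ᵥ v = v + c • p) ∧
            ∀ v : Fin (n + 2) → F, Cfsg.hermForm (n + 2) F q v p = 0 →
              ((g : Matrix.SpecialLinearGroup (Fin (n + 2)) F) : Matrix (Fin (n + 2)) (Fin (n + 2)) F) *ᵥ v = v}}, B)) ''
      {A : Subgroup ↥(Cfsg.SU (n + 2) F q) | ∃ p : Fin (n + 2) → F, p ≠ 0 ∧ Cfsg.hermForm (n + 2) F q p p = 0 ∧
          A = Subgroup.closure {g : ↥(Cfsg.SU (n + 2) F q) |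
            (∀ v : Fin (n + 2) → F, ∃ c : F, ((g : Matrix.SpecialLinearGroup (Fin (n + 2)) F) : Matrix (Fin (n + 2)) (Fin (n + 2)) F) *ᵥ v = v + c • p) ∧
            ∀ v : Fin (n + 2) → F, Cfsg.hermForm (n + 2) F q v p = 0 →
              ((g : Matrix.SpecialLinearGroup (Fin (n + 2)) F) : Matrix (Fin (n + 2)) (Fin (n + 2)) F) *ᵥ v = v}})) ∧
    Cfsg.IsConnectedFamily (Cfsg.FAdj ((fun A : Subgroup ↥(Cfsg.SU (n + 2) F q) => A.subgroupOf (⨆ B ∈ {A : Subgroup ↥(Cfsg.SU (n + 2) F q) | ∃ p : Fin (n + 2) → F, p ≠ 0 ∧ Cfsg.hermForm (n + 2) F q p p = 0 ∧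
          A = Subgroup.closure {g : ↥(Cfsg.SU (n + 2) F q) |
            (∀ v : Fin (n + 2) → F, ∃ c : F, ((g : Matrix.SpecialLinearGroup (Fin (n + 2)) F) : Matrix (Fin (n + 2)) (Fin (n + 2)) F) *ᵥ v = v + c • p) ∧
            ∀ v : Fin (n + 2) → F, Cfsg.hermForm (n + 2) F q v p = 0 →
              ((g : Matrix.SpecialLinearGroup (Fin (n + 2)) F) : Matrix (Fin (n + 2)) (Fin (n + 2)) F) *ᵥ v = v}}, B)) ''
      {A : Subgroup ↥(Cfsg.SU (n + 2) F q) | ∃ p : Fin (n + 2) → F, p ≠ 0 ∧ Cfsg.hermForm (n + 2) F q p p = 0 ∧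
          A = Subgroup.closure {g : ↥(Cfsg.SU (n + 2) F q) |
            (∀ v : Fin (n + 2) → F, ∃ c : F, ((g : Matrix.SpecialLinearGroup (Fin (n + 2)) F) : Matrix (Fin (n + 2)) (Fin (n + 2)) F) *ᵥ v = v + c • p) ∧
            ∀ v : Fin (n + 2) → F, Cfsg.hermForm (n + 2) F q v p = 0 →
              ((g : Matrix.SpecialLinearGroup (Fin (n + 2)) F) : Matrix (Fin (n + 2)) (Fin (n + 2)) F) *ᵥ v = v}})) ((fun A : Subgroup ↥(Cfsg.SU (n + 2) F q) => A.subgroupOf (⨆ B ∈ {A : Subgroup ↥(Cfsg.SU (n + 2) F q) | ∃ p : Fin (n + 2) → F, p ≠ 0 ∧ Cfsg.hermForm (n + 2) F q p p = 0 ∧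
          A = Subgroup.closure {g : ↥(Cfsg.SU (n + 2) F q) |
            (∀ v : Fin (n + 2) → F, ∃ c : F, ((g : Matrix.SpecialLinearGroup (Fin (n + 2)) F) : Matrix (Fin (n + 2)) (Fin (n + 2)) F) *ᵥ v = v + c • p) ∧
            ∀ v : Fin (n + 2) → F, Cfsg.hermForm (n + 2) F q v p = 0 →
              ((g : Matrix.SpecialLinearGroup (Fin (n + 2)) F) : Matrix (Fin (n + 2)) (Fin (n + 2)) F) *ᵥ v = v}}, B)) ''
      {A : Subgroup ↥(Cfsg.SU (n + 2) F q) | ∃ p : Fin (n + 2) → F, p ≠ 0 ∧ Cfsg.hermForm (n + 2) F q p p = 0 ∧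
          A = Subgroup.closure {g : ↥(Cfsg.SU (n + 2) F q) |
            (∀ v : Fin (n + 2) → F, ∃ c : F, ((g : Matrix.SpecialLinearGroup (Fin (n + 2)) F) : Matrix (Fin (n + 2)) (Fin (n + 2)) F) *ᵥ v = v + c • p) ∧
            ∀ v : Fin (n + 2) → F, Cfsg.hermForm (n + 2) F q v p = 0 →
              ((g : Matrix.SpecialLinearGroup (Fin (n + 2)) F) : Matrix (Fin (n + 2)) (Fin (n + 2)) F) *ᵥ v = v}}) := by
  have : Fact (Fintype.card F = q ^ 2) := ⟨hF⟩
  let K : Subfield F := RingHom.eqLocusField (cj F q) (RingHom.id F)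
  obtain ⟨e⟩ : Nonempty (Fin q ≃ K) := by
    rw [← Finite.card_eq, Nat.card_eq_fintype_card, Fintype.card_fin]; exact card_fixed.symm
  letI := e.field
  letI : Algebra (Fin q) F := (K.subtype.comp e.ringEquiv.toRingHom).toAlgebra
  obtain ⟨ζ, h0, hζ⟩ := exists_skew (F := F) (q := q)
  let ρ := mr ((slToMat (n + 2) F).comp (SU (n + 2) F q).subtype)
  have hρ : ∀ (g : SU (n + 2) F q) x, ρ g x = sm g *ᵥ x := fun _ _ => rfl
  have fx : ∀ c : Fin q, cj F q (algebraMap (Fin q) F c) = algebraMap (Fin q) F c := fun c => (e c).2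
  have fix : ∀ a, cj F q a = a → ∃ c : Fin q, algebraMap (Fin q) F c = a := fun a ha =>
    ⟨e.symm ⟨a, ha⟩, congrArg Subtype.val (e.apply_symm_apply ⟨a, ha⟩)⟩
  have e1 : ∀ (g : SU (n + 2) F q) p (c : Fin q), ρ g = 1 + c • ro p (suB (n + 2) q ζ p) ↔
      ∀ v, sm g *ᵥ v = v + (algebraMap (Fin q) F c * ζ * hermForm (n + 2) F q v p) • p := fun g p c => by
    rw [LinearMap.ext_iff, ← algebraMap_smul F c]
    exact forall_congr' fun v => by simp [hρ, suB_apply, smul_smul, mul_assoc, -algebraMap_smul]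
  have h : SkS (Fin q) ρ (suB (n + 2) q ζ) := ⟨mr_inj fun a b e => Subtype.ext (Subtype.ext e), fix, cj_cj,
    fun x y => by rw [suB_apply, suB_apply, map_mul, hζ, cj_herm]; ring,
    fun g x y => by rw [suB_apply, suB_apply, hρ, hρ, sm_isIsom],
    fun p hp c => ⟨utSU ((suB_eq_zero h0).1 hp) (c := algebraMap (Fin q) F c * ζ) (by rw [map_mul, fx, hζ, mul_neg]),
      (e1 _ _ _).2 (ut_mulVec p _)⟩, fun p r hp hp' hr hr' => by
      simpa only [ne_eq, suB_eq_zero h0] using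
        exists_isotropic_not_orth ((suB_eq_zero h0).1 hp') ((suB_eq_zero h0).1 hr') hp hr⟩
  have e2 : ∀ p, p ≠ 0 → hermForm (n + 2) F q p p = 0 → {g : SU (n + 2) F q | (∀ v, ∃ c : F, sm g *ᵥ v = v + c • p) ∧
      ∀ v, hermForm (n + 2) F q v p = 0 → sm g *ᵥ v = v} = {g | ∃ c : Fin q, ρ g = 1 + c • ro p (suB (n + 2) q ζ p)} := by
    intro p hp hp'
    ext g
    simp only [Set.mem_setOf_eq, e1]
    refine ⟨fun ⟨h1, h2⟩ => ?_, fun ⟨c, hc⟩ => ⟨fun v => ⟨_, hc v⟩, fun v hv => by simp [hc, hv]⟩⟩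
    obtain ⟨y, hy⟩ := exists_herm_eq_one (q := q) hp
    obtain ⟨d, hd⟩ := h1 y
    have h3 := sm_isIsom g y y
    simp only [hd, herm_add_left, herm_add_right, herm_smul_left, herm_smul_right, hy, herm_swap_one hy, hp'] at h3
    obtain ⟨c, hc⟩ := fix (d / ζ) (by rw [map_div₀, hζ, show cj F q d = -d by linear_combination h3, neg_div_neg_eq])
    refine ⟨c, fun v => ?_⟩
    have h4 := h2 (v - hermForm (n + 2) F q v p • y) (by rw [herm_sub_left, herm_smul_left, hy, mul_one, sub_self])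
    rw [Matrix.mulVec_sub, Matrix.mulVec_smul, hd, sub_eq_iff_eq_add] at h4
    rw [h4, hc, div_mul_cancel₀ _ h0]; module
  obtain ⟨p, _, hp, -, hp'⟩ := exists_hyperbolic_pair (F := F) (q := q) (n := n + 2) (by omega)
  have := h.sub.all h.re.sub_top (ne_zero_of_herm_right (by rw [hp']; exact one_ne_zero)) ((suB_eq_zero h0).2 hp)
  rw [← h.re.sub_image, show RT (Fin q) ρ '' NS (Fin q) (suB (n + 2) q ζ) = {A | ∃ p, p ≠ 0 ∧ hermForm (n + 2) F q p p = 0 ∧
      A = Subgroup.closure {g : SU (n + 2) F q | (∀ v, ∃ c : F, sm g *ᵥ v = v + c • p) ∧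
      ∀ v, hermForm (n + 2) F q v p = 0 → sm g *ᵥ v = v}} from h.image.trans (Set.ext fun A => exists_congr fun p =>
        and_congr_right fun hp => by rw [suB_eq_zero h0]; exact and_congr_right fun hp' => by rw [e2 p hp hp', H90.RT])] at this
  exact ⟨this.1, this.2.1, ⟨Fin q, _, inferInstance, Fintype.card_fin q, this.2.2.1⟩, this.2.2.2⟩

end Cfsg.Agent.S5071
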