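import Cfsg.Statements.S5072
import Cfsg.Agent.H90.CE4
import Cfsg.Agent.H11.Forms

set_option autoImplicit false
open Matrix
open Cfsg

namespace Cfsg.Agent.S5072
open Cfsg.Agent.H90

open H27 H11

/-- Let F be a field, m a natural number and V = F^{2(m+3)} with the hyperbolic quadratic form q(x, y) = Σ xᵢ yᵢ (non-degenerate, Witt index m + 3 ≥ 3). For a singular line ℓ (a 2-dimensional subspace on which q vanishes) let T(ℓ) be the group of isometries of q fixing every vector of ℓ^⊥ (the Siegel transvection group of ℓ), let Σ be the set of these groups and G₀ the subgroup they generate. Then, viewed inside G₀, the members of Σ form a set of abstract F-root subgroups of G₀ (any two commute, or are the unipotent subgroups of a rank one group that is an image of SL₂(F) with central kernel, or satisfy the commutator case), and their graph of rank one pairs is connected. -/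
theorem result (F : Type*) [Field F] (m : ℕ) :
    Cfsg.IsKRootSubgroupSet F ((fun A : Subgroup ↥(Cfsg.isometryGroup F (Cfsg.quadFormPlus (m + 3) F)) => A.subgroupOf (⨆ B ∈ {A : Subgroup ↥(Cfsg.isometryGroup F (Cfsg.quadFormPlus (m + 3) F)) | ∃ p r : Fin (m + 3) ⊕ Fin (m + 3) → F, LinearIndependent F ![p, r] ∧
          Cfsg.quadFormPlus (m + 3) F p = 0 ∧ Cfsg.quadFormPlus (m + 3) F r = 0 ∧
          Cfsg.quadFormPlus (m + 3) F (p + r) = 0 ∧
          A = Subgroup.closure {σ : ↥(Cfsg.isometryGroup F (Cfsg.quadFormPlus (m + 3) F)) | ∀ v : Fin (m + 3) ⊕ Fin (m + 3) → F,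
            Cfsg.quadFormPlus (m + 3) F (v + p) - Cfsg.quadFormPlus (m + 3) F v - Cfsg.quadFormPlus (m + 3) F p = 0 →
            Cfsg.quadFormPlus (m + 3) F (v + r) - Cfsg.quadFormPlus (m + 3) F v - Cfsg.quadFormPlus (m + 3) F r = 0 →
              ((σ : Matrix.GeneralLinearGroup (Fin (m + 3) ⊕ Fin (m + 3)) F) : Matrix (Fin (m + 3) ⊕ Fin (m + 3)) (Fin (m + 3) ⊕ Fin (m + 3)) F) *ᵥ v = v}}, B)) ''
      {A : Subgroup ↥(Cfsg.isometryGroup F (Cfsg.quadFormPlus (m + 3) F)) | ∃ p r : Fin (m + 3) ⊕ Fin (m + 3) → F, LinearIndependent F ![p, r] ∧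
          Cfsg.quadFormPlus (m + 3) F p = 0 ∧ Cfsg.quadFormPlus (m + 3) F r = 0 ∧
          Cfsg.quadFormPlus (m + 3) F (p + r) = 0 ∧
          A = Subgroup.closure {σ : ↥(Cfsg.isometryGroup F (Cfsg.quadFormPlus (m + 3) F)) | ∀ v : Fin (m + 3) ⊕ Fin (m + 3) → F,
            Cfsg.quadFormPlus (m + 3) F (v + p) - Cfsg.quadFormPlus (m + 3) F v - Cfsg.quadFormPlus (m + 3) F p = 0 →
            Cfsg.quadFormPlus (m + 3) F (v + r) - Cfsg.quadFormPlus (m + 3) F v - Cfsg.quadFormPlus (m + 3) F r = 0 →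
              ((σ : Matrix.GeneralLinearGroup (Fin (m + 3) ⊕ Fin (m + 3)) F) : Matrix (Fin (m + 3) ⊕ Fin (m + 3)) (Fin (m + 3) ⊕ Fin (m + 3)) F) *ᵥ v = v}}) ∧
    Cfsg.IsConnectedFamily (Cfsg.FAdj {A : Subgroup ↥(Cfsg.isometryGroup F (Cfsg.quadFormPlus (m + 3) F)) | ∃ p r : Fin (m + 3) ⊕ Fin (m + 3) → F, LinearIndependent F ![p, r] ∧
          Cfsg.quadFormPlus (m + 3) F p = 0 ∧ Cfsg.quadFormPlus (m + 3) F r = 0 ∧
          Cfsg.quadFormPlus (m + 3) F (p + r) = 0 ∧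
          A = Subgroup.closure {σ : ↥(Cfsg.isometryGroup F (Cfsg.quadFormPlus (m + 3) F)) | ∀ v : Fin (m + 3) ⊕ Fin (m + 3) → F,
            Cfsg.quadFormPlus (m + 3) F (v + p) - Cfsg.quadFormPlus (m + 3) F v - Cfsg.quadFormPlus (m + 3) F p = 0 →
            Cfsg.quadFormPlus (m + 3) F (v + r) - Cfsg.quadFormPlus (m + 3) F v - Cfsg.quadFormPlus (m + 3) F r = 0 →
              ((σ : Matrix.GeneralLinearGroup (Fin (m + 3) ⊕ Fin (m + 3)) F) : Matrix (Fin (m + 3) ⊕ Fin (m + 3)) (Fin (m + 3) ⊕ Fin (m + 3)) F) *ᵥ v = v}})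
      {A : Subgroup ↥(Cfsg.isometryGroup F (Cfsg.quadFormPlus (m + 3) F)) | ∃ p r : Fin (m + 3) ⊕ Fin (m + 3) → F, LinearIndependent F ![p, r] ∧
          Cfsg.quadFormPlus (m + 3) F p = 0 ∧ Cfsg.quadFormPlus (m + 3) F r = 0 ∧
          Cfsg.quadFormPlus (m + 3) F (p + r) = 0 ∧
          A = Subgroup.closure {σ : ↥(Cfsg.isometryGroup F (Cfsg.quadFormPlus (m + 3) F)) | ∀ v : Fin (m + 3) ⊕ Fin (m + 3) → F,
            Cfsg.quadFormPlus (m + 3) F (v + p) - Cfsg.quadFormPlus (m + 3) F v - Cfsg.quadFormPlus (m + 3) F p = 0 →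
            Cfsg.quadFormPlus (m + 3) F (v + r) - Cfsg.quadFormPlus (m + 3) F v - Cfsg.quadFormPlus (m + 3) F r = 0 →
              ((σ : Matrix.GeneralLinearGroup (Fin (m + 3) ⊕ Fin (m + 3)) F) : Matrix (Fin (m + 3) ⊕ Fin (m + 3)) (Fin (m + 3) ⊕ Fin (m + 3)) F) *ᵥ v = v}} := by
  let ρ := mr ((Units.coeHom (Matrix (Fin (m + 3) ⊕ Fin (m + 3)) (Fin (m + 3) ⊕ Fin (m + 3)) F)).comp
    (isometryGroup F (quadFormPlus (m + 3) F)).subtype)
  have hρ : ∀ g x, ρ g x = ap (isoOG _ _ (qPlus_eq F _) g) x := fun _ _ => rfl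
  have h : OS ρ (qPlus F (m + 3)) := ⟨mr_inj fun a b e => Subtype.ext (Units.ext e), nd_qPlus F _,
    fun g x => by rw [← qPlus_eq, ← qPlus_eq]; exact g.2 x x, fun e f h1 h2 h3 =>
      ⟨(isoOG _ _ (qPlus_eq F _)).symm (mkOG e f (DFunLike.congr_fun h1) (DFunLike.congr_fun h2) h3),
        LinearMap.ext fun x => by
          rw [hρ, MulEquiv.apply_symm_apply]; rfl⟩⟩
  let L : (Fin (m + 3) → F) →ₗ[F] (Fin (m + 3) ⊕ Fin (m + 3) → F) :=
    { toFun := fun x => Sum.elim x 0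
      map_add' := fun x y => by ext (i | i) <;> simp
      map_smul' := fun c x => by ext (i | i) <;> simp }
  have := And.intro (h.re.sub.kroot h.re.sub_top) (h.conn (X := LinearMap.range L)
    (by rintro _ ⟨x, rfl⟩; simp [L, qPlus_apply]) (by
      rw [LinearMap.finrank_range_of_inj fun x y e => funext fun i => congrFun e (Sum.inl i)]; simp))
  have hB : ∀ v p, quadFormPlus (m + 3) F (v + p) - quadFormPlus (m + 3) F v - quadFormPlus (m + 3) F p =
      pB (qPlus F (m + 3)) v p := fun v p => by simp only [qPlus_eq, Qadd]; ring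
  rw [← h.re.sub_image, show H90.RT F ρ '' NO (qPlus F (m + 3)) = {A | ∃ p r, LinearIndependent F ![p, r] ∧
      quadFormPlus (m + 3) F p = 0 ∧ quadFormPlus (m + 3) F r = 0 ∧ quadFormPlus (m + 3) F (p + r) = 0 ∧
      A = Subgroup.closure {σ | ∀ v, quadFormPlus (m + 3) F (v + p) - quadFormPlus (m + 3) F v - quadFormPlus (m + 3) F p = 0 →
        quadFormPlus (m + 3) F (v + r) - quadFormPlus (m + 3) F v - quadFormPlus (m + 3) F r = 0 → ρ σ v = v}} from ?_] at this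
  · exact this
  simp only [hB]
  simp only [qPlus_eq]
  ext A
  refine ⟨fun ⟨_, ⟨p, r, l, e⟩, e'⟩ => ⟨p, r, (SE_ne_iff h.nd).1 l.ne, l.p0, l.r0, by simp [Qadd, l.p0, l.r0, l.pr], ?_⟩,
    fun ⟨p, r, h1, h2, h3, h4, e⟩ => ?_⟩
  · simp only [h.fix_iff l, ← e', e, H90.RT]
  · have l : H90.SL (qPlus F (m + 3)) p r := ⟨h2, h3, by simpa [Qadd, h2, h3] using h4, (SE_ne_iff h.nd).2 h1⟩
    exact ⟨_, ⟨p, r, l, rfl⟩, by simp only [h.fix_iff l, e, H90.RT]⟩

end Cfsg.Agent.S5072
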