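import Cfsg.Statements.S5083
import Cfsg.Agent.H91.Alperin

set_option autoImplicit false
open Cfsg

namespace Cfsg.Agent.S5083

open Cfsg.FusionSystem Cfsg.Agent.H91

/-- If F is a saturated fusion system over a finite p-group S in which Aut_F(P) is a p-group for every P ≤ S, then F is the inner fusion system of S (all its maps are conjugations by elements of S). -/
theorem result {Ω : Type*} [Group Ω] {S : Subgroup Ω} [Finite S] (p : ℕ) [Fact p.Prime] (hS : IsPGroup p S) (F : Cfsg.FusionSystem S) (hF : F.IsSaturated p) (h : ∀ P : Subgroup Ω, P ≤ S → IsPGroup p (F.autGroup P)) : F = Cfsg.innerFusionSystem S := by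
  refine fs_le_antisymm (le_iff_M.2 (alperin_sub hS hF fun P hP α hα => ?_)) (inner_le F)
  have hn : F.IsFullyNormalized P := hP.elim (fun e => e ▸ isFullyNormalized_top F) fun h => h.2.1
  have e := (sat_sylIn hS hF hn).eq_of_le (h P hn.1) (autInducedBy_le_autGroup F hn.1) le_rfl
  rw [e] at hα
  obtain ⟨g, hg, e'⟩ := mem_autInducedBy_iff'.1 hα
  exact M_inner_iff.2 ⟨hn.1, g, hg.1, e'⟩

end Cfsg.Agent.S5083
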