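import Cfsg.Statements.S5085
import Cfsg.Agent.H91.Norm

set_option autoImplicit false
open Cfsg

namespace Cfsg.Agent.S5085

open Cfsg.FusionSystem Cfsg.Agent.H91

/-- In any fusion system, a characteristic subgroup of a subgroup that is normal in the system is itself normal in the system. -/
theorem result {Ω : Type*} [Group Ω] {S : Subgroup Ω} (F : Cfsg.FusionSystem S) (Q U : Subgroup Ω) (hQ : F.IsNormal Q) (hUQ : U ≤ Q) (hU : (U.subgroupOf Q).Characteristic) : F.IsNormal U := by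
  refine normal_of_weaklyClosed_le hQ hUQ (weaklyClosed_iff.2 ⟨hUQ.trans hQ.1, fun f hf => ?_⟩)
  obtain ⟨g, hg, e, him⟩ := normal_extend hQ hf
  have hg' := hg.restrict (le_sup_right : Q ≤ U ⊔ Q)
  have h := (Subgroup.characteristic_iff_map_eq.1 hU) (hg'.equiv him)
  rw [← im_congr e]
  refine le_antisymm (im_le_iff.2 fun x hx => ?_) fun y hy => ?_
  · have : hg'.equiv him ⟨x, hUQ hx⟩ ∈ U.subgroupOf Q := h ▸ ⟨⟨x, hUQ hx⟩, hx, rfl⟩
    exact this
  · have : (⟨y, hUQ hy⟩ : Q) ∈ (U.subgroupOf Q).map (hg'.equiv him).toMonoidHom := h.symm ▸ hy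
    obtain ⟨x, hx, ex⟩ := this
    have ex' : g x = y := congrArg Subtype.val ex
    exact ex' ▸ mem_im_of_mem g hx

end Cfsg.Agent.S5085
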