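import Cfsg.Statements.S5088
import Cfsg.Agent.H91.Normal

set_option autoImplicit false
open Cfsg

namespace Cfsg.Agent.S5088

open Cfsg.FusionSystem Cfsg.Agent.H91

/-- In a saturated fusion system over a finite p-group, a subgroup Q is normal in the system if and only if there is a chain of subgroups 1 = Q₀ ≤ Q₁ ≤ ⋯ ≤ Qₙ = Q such that each Qᵢ with i ≥ 1 is strongly closed in the system and [Q, Qᵢ] ≤ Qᵢ₋₁. -/
theorem result {Ω : Type*} [Group Ω] {S : Subgroup Ω} [Finite S] (p : ℕ) [Fact p.Prime] (hS : IsPGroup p S) (F : Cfsg.FusionSystem S) (hF : F.IsSaturated p) (Q : Subgroup Ω) : F.IsNormal Q ↔ ∃ (n : ℕ) (Qs : Fin (n + 1) → Subgroup Ω), Qs 0 = ⊥ ∧ Qs (Fin.last n) = Q ∧ Monotone Qs ∧ ∀ i : Fin n, F.StronglyClosed (Qs i.succ) ∧ ⁅Q, Qs i.succ⁆ ≤ Qs (Fin.castSucc i) := by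
  refine ⟨fun h => ?_, ?_⟩
  · have := finite_of_le h.1
    obtain ⟨n, hn⟩ := exists_ucs_eq (isPGroup_of_le hS h.1)
    exact ⟨n, fun i => ucs Q i, ucs_zero Q, hn, fun _ _ hij => ucs_mono Q hij,
      fun i => ⟨stronglyClosed_char_of_normal h _, commutator_ucs_le Q i⟩⟩
  · rintro ⟨n, Qs, h0, hn, -, h⟩
    refine normal_of_chain hS hF (fun i => if hi : i < n + 1 then Qs ⟨i, hi⟩ else ⊤) n
      (fun i hi => ?_) (by simpa using h0) (by rw [dif_pos n.lt_succ_self]; exact hn) fun i hi => ?_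
    · rw [dif_pos (Nat.lt_succ_of_le hi)]
      rcases i with _ | i
      · exact (show Qs ⟨0, _⟩ = ⊥ from h0) ▸ stronglyClosed_bot F
      · exact (h ⟨i, hi⟩).1
    · rw [dif_pos (Nat.succ_lt_succ hi), dif_pos (hi.trans n.lt_succ_self)]
      exact (h ⟨i, hi⟩).2

end Cfsg.Agent.S5088
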