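import Cfsg.Statements.S5094
import Cfsg.Agent.H91.Normal
import Cfsg.Agent.H92.GroupFS
import Cfsg.Agent.H8.OddCore
import Cfsg.Agent.H44.Cores
import Cfsg.Agent.S0215

set_option autoImplicit false
open Cfsg

namespace Cfsg.Agent.S5094

open Cfsg.FusionSystem Cfsg.Agent.H91

universe u

theorem central_of_core_bot (k : ℕ) : ∀ {G : Type u} [Group G] [Finite G] (S : Sylow 2 G),
    pPrimeCore 2 G = ⊥ → ∀ z ∈ (S : Subgroup G), z ^ 2 ^ k = 1 →
    (∀ (n : ℕ) (g : G), g * z ^ n * g⁻¹ ∈ (S : Subgroup G) → g * z ^ n * g⁻¹ = z ^ n) →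
    z ∈ Subgroup.center G := by
  induction k with
  | zero =>
    intro G _ _ S _ z _ hz _
    rw [pow_zero, pow_one] at hz
    rw [hz]; exact Subgroup.one_mem _
  | succ k ih =>
    intro G _ _ S hO z hzS hz h
    by_cases ht : z ^ 2 ^ k = 1
    · exact ih S hO z hzS ht h
    have ho : orderOf (z ^ 2 ^ k) = 2 :=
      orderOf_eq_prime (by rw [← pow_mul, ← pow_succ, hz]) ht
    obtain ⟨N, hN, hodd, hc⟩ := Cfsg.Agent.S0215.result S _ ho ((S : Subgroup G).pow_mem hzS _) (h _)
    have hN1 : N = ⊥ := H8.core_eq_bot_iff.1 hO N hN hodd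
    have htc : z ^ 2 ^ k ∈ Subgroup.center G := Subgroup.mem_center_iff.2 fun g => by
      have := hc g
      rw [hN1, Subgroup.mem_bot, mul_inv_eq_one, mul_inv_eq_iff_eq_mul] at this
      exact this.symm
    have hZ := H8.normal_zpowers_of_central htc
    have hZS : Subgroup.zpowers (z ^ 2 ^ k) ≤ S :=
      (Subgroup.zpowers_le).2 ((S : Subgroup G).pow_mem hzS _)
    have key : ∀ x : G, QuotientGroup.mk' (Subgroup.zpowers (z ^ 2 ^ k)) x ∈
        (S : Subgroup G).map (QuotientGroup.mk' _) → x ∈ (S : Subgroup G) := by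
      rintro x ⟨s, hs, e⟩
      have := (S : Subgroup G).mul_mem hs (hZS (QuotientGroup.eq.1 e))
      rwa [mul_inv_cancel_left] at this
    have := ih (S.mapSurjective (QuotientGroup.mk'_surjective (Subgroup.zpowers (z ^ 2 ^ k))))
      (H8.core_quotient_central_eq_bot hO _ ((Subgroup.zpowers_le).2 htc) (S.isPGroup'.to_le hZS))
      (QuotientGroup.mk' _ z) ⟨z, hzS, rfl⟩
      (by rw [← map_pow]; exact (QuotientGroup.eq_one_iff _).2 (Subgroup.mem_zpowers _))
      (fun n g hg => by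
        obtain ⟨g, rfl⟩ := QuotientGroup.mk'_surjective _ g
        rw [← map_pow, ← map_inv, ← map_mul, ← map_mul] at hg ⊢
        rw [h n g (key _ hg)])
    refine Subgroup.mem_center_iff.2 fun g => ?_
    have h1 := h 1 g (key _ (by
      rw [pow_one, map_mul, map_mul, Subgroup.mem_center_iff.1 this, map_inv, mul_inv_cancel_right]
      exact ⟨z, hzS, rfl⟩))
    rw [pow_one] at h1
    exact mul_inv_eq_iff_eq_mul.1 h1

/-- Glauberman's Z*-Theorem in fusion language: for a finite group G with Sylow 2-subgroup S, the centre of the fusion system of G on S is the set of elements of S whose image in G/O(G) is central, O(G) being the largest normal subgroup of odd order. -/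
theorem result {G : Type*} [Group G] [Finite G] (S : Sylow 2 G) : (Cfsg.groupFusionSystem (S : Subgroup G)).center = (S : Subgroup G) ⊓ (Subgroup.center (G ⧸ Cfsg.oddCore G)).comap (QuotientGroup.mk' (Cfsg.oddCore G)) := by
  have hS := S.isPGroup'
  have hF := H92.saturated_group S
  ext z
  rw [mem_center_iff hS hF, Subgroup.mem_inf, Subgroup.mem_comap]
  refine and_congr_right fun hz => ⟨fun h => ?_, fun h P f hf hx => ?_⟩
  · obtain ⟨k, hk⟩ := pow_eq_one_of_mem_isPGroup hS hz
    have hc := center_central (groupFusionSystem (S : Subgroup G))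
    have hzc := (mem_center_iff hS hF).2 ⟨hz, h⟩
    have fix : ∀ (n : ℕ) (g : G), g * z ^ n * g⁻¹ ∈ (S : Subgroup G) → g * z ^ n * g⁻¹ = z ^ n := by
      intro n g hg
      have hm : M (groupFusionSystem (S : Subgroup G)) (Subgroup.zpowers (z ^ n))
          (fun x => g * x * g⁻¹) := M_group_iff.2 ⟨(Subgroup.zpowers_le).2 (Subgroup.pow_mem _ hz n),
        by
          rintro _ ⟨m, rfl⟩
          show g * (z ^ n) ^ m * g⁻¹ ∈ _
          rw [← conj_zpow]; exact Subgroup.zpow_mem _ hg m, g, fun _ _ => rfl⟩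
      exact hm.fix_of_central hc (Subgroup.mem_zpowers _) (Subgroup.pow_mem _ hzc n)
    refine central_of_core_bot k (S.mapSurjective (QuotientGroup.mk'_surjective (oddCore G)))
      H44.pPrimeCore_quotient_pPrimeCore _ ⟨z, hz, rfl⟩ (by rw [← map_pow, hk, map_one])
      fun n g hg => ?_
    obtain ⟨g, rfl⟩ := QuotientGroup.mk'_surjective _ g
    rw [← map_pow, ← map_inv, ← map_mul, ← map_mul] at hg
    obtain ⟨s, hs, e⟩ := hg
    have hmem : g * z ^ n * g⁻¹ ∈ (S : Subgroup G) ⊔ oddCore G := by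
      have := Subgroup.mul_mem_sup hs (QuotientGroup.eq.1 e)
      rwa [mul_inv_cancel_left] at this
    obtain ⟨a, ha, hc'⟩ := ((sylIn_top S).of_le le_sup_left le_top).exists_conj_mem
      (isPGroup_zpowers_of_pow (a := g * z ^ n * g⁻¹) ⟨k, by
        rw [conj_pow, ← pow_mul, mul_comm n, pow_mul, hk, one_pow, mul_one, mul_inv_cancel]⟩)
      ((Subgroup.zpowers_le).2 hmem)
    have h1 := hc' _ (Subgroup.mem_zpowers _)
    have e1 : a * (g * z ^ n * g⁻¹) * a⁻¹ = a * g * z ^ n * (a * g)⁻¹ := by group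
    rw [e1] at h1
    have h2 := fix n _ h1
    obtain ⟨b, hb, o, ho, rfl⟩ := (mem_sup_iff_of_normalizes Subgroup.le_normalizer_of_normal).1 ha
    have h3 := fix n b⁻¹ (Subgroup.mul_mem _ (Subgroup.mul_mem _ (Subgroup.inv_mem _ hb)
      (Subgroup.pow_mem _ hz n)) (Subgroup.inv_mem _ (Subgroup.inv_mem _ hb)))
    have e2 : g * z ^ n * g⁻¹ = o⁻¹ * z ^ n * o := by
      calc g * z ^ n * g⁻¹ = o⁻¹ * (b⁻¹ * (b * o * g * z ^ n * (b * o * g)⁻¹) * b⁻¹⁻¹) * o := by group
        _ = o⁻¹ * z ^ n * o := by rw [h2, h3]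
    have ho1 : QuotientGroup.mk' (oddCore G) o = 1 := (QuotientGroup.eq_one_iff _).2 ho
    rw [← map_pow, ← map_inv, ← map_mul, ← map_mul, e2, map_mul, map_mul, map_inv, ho1]
    simp
  · obtain ⟨-, hm, g, e⟩ := M_group_iff.1 hf
    have h1 : f z * z⁻¹ ∈ oddCore G := by
      refine (QuotientGroup.eq_one_iff _).1 (show QuotientGroup.mk' (oddCore G) _ = 1 from ?_)
      rw [e z hx, map_mul, map_mul, map_mul, Subgroup.mem_center_iff.1 h, map_inv, map_inv]
      simp
    have h2 : f z * z⁻¹ ∈ (S : Subgroup G) := Subgroup.mul_mem _ (hm z hx) (Subgroup.inv_mem _ hz)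
    have h3 := eq_one_of_pow_coprime hS h2 (H44.pPrimeCore_coprime (p := 2) (G := G))
      (congrArg Subtype.val (pow_card_eq_one' (x := (⟨_, h1⟩ : oddCore G))))
    exact mul_inv_eq_one.1 h3

end Cfsg.Agent.S5094
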