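import Cfsg.Statements.S5103
import Cfsg.Agent.H92.Iso3

set_option autoImplicit false
open Cfsg

namespace Cfsg.Agent.S5103

/-- A fusion system over a finite p-group that has a model (a finite group realizing it on a Sylow p-subgroup with self-centralizing largest normal p-subgroup) is constrained. -/
theorem result {Ω : Type*} [Group Ω] {S : Subgroup Ω} [Finite S] (p : ℕ) [Fact p.Prime] (hS : IsPGroup p S) (F : Cfsg.FusionSystem S) {G : Type*} [Group G] (ι : S →* G) (hG : F.IsModel p G ι) : F.IsConstrained p := by
  obtain ⟨hfin, hr, ⟨T, hT⟩, hC⟩ := hG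
  obtain ⟨k, hk⟩ := H92.fIso_of_realized hr
  haveI := hk.g.finite
  refine hk.symm.isConstrained ?_
  rw [← hT, H92.group_eq_ofSubgroup]
  have hle : pCore p G ≤ T := by
    haveI := H91.pCore_normal p G
    exact (H91.isPGroup_pCore p G).le_sylow_of_normal T
  refine ⟨H92.saturated_ofSub (H92.sylIn_top T), pCore p G, H92.isNormal_ofSub _ hle ?_,
    H92.isCentric_ofSub _ hle (inf_le_right.trans hC)⟩
  haveI := H91.pCore_normal p G
  rw [Subgroup.normalizer_eq_top]

end Cfsg.Agent.S5103
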