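import Cfsg.Statements.S5104
import Cfsg.Agent.H91.Sat

set_option autoImplicit false
open Cfsg

namespace Cfsg.Agent.S5104

open Cfsg.FusionSystem Cfsg.Agent.H91

/-- In a saturated fusion system over a finite p-group S, a fully centralized subgroup U with C_S(U) ≤ U is centric. -/
theorem result {Ω : Type*} [Group Ω] {S : Subgroup Ω} [Finite S] (p : ℕ) [Fact p.Prime] (hS : IsPGroup p S) (F : Cfsg.FusionSystem S) (hF : F.IsSaturated p) (U : Subgroup Ω) (hU : F.IsFullyCentralized U) (hC : Cfsg.FusionSystem.centralizerIn S U ≤ U) : F.IsCentric U := by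
  refine ⟨hU.1, fun Q hQ => ?_⟩
  obtain ⟨f, hf, him⟩ := isConj_iff.1 (isConj_symm hQ)
  obtain ⟨g, hg, e, h⟩ := hf.extend_centralizer him (sat_receptive hS hF hU)
  intro x hx
  have : g x ∈ im g Q := by rw [im_congr e, him]; exact hC (h x hx)
  exact (hg.apply_mem_im_iff le_sup_left (Subgroup.mem_sup_right hx)).1 this

end Cfsg.Agent.S5104
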