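import Cfsg.Statements.S5105
import Cfsg.Agent.H92.Cocycle
import Cfsg.Agent.H91.SylIn

set_option autoImplicit false
open Cfsg

namespace Cfsg.Agent.S5105

/-- Model Theorem, rigidity: if G is a model of a constrained fusion system over a finite p-group S (through ι : S → G), then every automorphism of G fixing ι(S) elementwise is conjugation by ι(z) for some z in the centre of S. -/
theorem result {Ω : Type*} [Group Ω] {S : Subgroup Ω} [Finite S] (p : ℕ) [Fact p.Prime] (hS : IsPGroup p S) (F : Cfsg.FusionSystem S) (hF : F.IsConstrained p) {G : Type*} [Group G] (ι : S →* G) (hG : F.IsModel p G ι) (ψ : G ≃* G) (hψ : ∀ x : S, ψ (ι x) = ι x) : ∃ z : S, z ∈ Subgroup.center S ∧ ∀ g : G, ψ g = ι z * g * (ι z)⁻¹ := by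
  obtain ⟨hfin, hr, ⟨T, hT⟩, hC⟩ := hG
  have hN := H91.pCore_normal p G
  have hle : pCore p G ≤ T := (H91.isPGroup_pCore p G).le_sylow_of_normal T
  have hfix : ∀ s ∈ (T : Subgroup G), ψ s = s := by
    rw [hT]; rintro _ ⟨x, rfl⟩; exact hψ x
  let A := Subgroup.centralizer ((pCore p G : Subgroup G) : Set G)
  have hA : IsMulCommutative A :=
    ⟨⟨fun a b => Subtype.ext (b.2 a (hC a.2))⟩⟩
  obtain ⟨n, hn⟩ := IsPGroup.iff_card.1 ((H91.isPGroup_pCore p G).to_le hC)
  obtain ⟨a, ha, e⟩ := H92.exists_conj_of_agree A (T : Subgroup G)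
    (by rw [hn]; exact (((Fact.out : p.Prime).coprime_iff_not_dvd).2 T.not_dvd_index).pow_left n)
    (MonoidHom.id G) ψ.toMonoidHom (fun g r hr => by
      have h1 := hfix _ (hle (hN.conj_mem r hr g⁻¹))
      rw [map_mul, map_mul, hfix r (hle hr), inv_inv, map_inv] at h1
      show r * (ψ g * g⁻¹) = ψ g * g⁻¹ * r
      calc _ = ψ g * ((ψ g)⁻¹ * r * ψ g) * g⁻¹ := by group
        _ = _ := by rw [h1]; group) hfix
  obtain ⟨z, rfl⟩ : a ∈ ι.range := hT ▸ hle (hC ha)
  refine ⟨z, Subgroup.mem_center_iff.2 fun s => hr.1 ?_, e⟩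
  have h1 : ι s = ι z * ι s * (ι z)⁻¹ := (hψ s).symm.trans (e (ι s))
  rw [map_mul, map_mul]
  conv_lhs => rw [h1]
  group

end Cfsg.Agent.S5105
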