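import Cfsg.Statements.S5107
import Cfsg.Agent.H92.GroupQuot
import Cfsg.Agent.H91.Normal

set_option autoImplicit false
open Cfsg

namespace Cfsg.Agent.S5107

/-- If a Sylow p-subgroup S of a finite group G has nilpotency class at most two and its centre is strongly closed in S with respect to G, then every map of the fusion system of G on S is conjugation by an element of N_G(S), and S is the largest subgroup normal in that fusion system. -/
theorem result {G : Type*} [Group G] [Finite G] (p : ℕ) [Fact p.Prime] (S : Sylow p G) (hcl : ⁅(S : Subgroup G), (S : Subgroup G)⁆ ≤ (S : Subgroup G) ⊓ Subgroup.centralizer ((S : Subgroup G) : Set G)) (hZ : Cfsg.IsStronglyClosed ((S : Subgroup G) ⊓ Subgroup.centralizer ((S : Subgroup G) : Set G)) (S : Subgroup G)) : (∀ (P : Subgroup G) (φ : P →* G), φ ∈ (Cfsg.groupFusionSystem (S : Subgroup G)).Hom P → ∃ g ∈ Subgroup.normalizer ((S : Subgroup G) : Set G), ∀ x : P, φ x = g * (x : G) * g⁻¹) ∧ (Cfsg.groupFusionSystem (S : Subgroup G)).core = S := by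
  have hn : (Cfsg.groupFusionSystem (S : Subgroup G)).IsNormal S :=
    H91.normal_of_chain S.isPGroup' (H92.saturated_group S)
      (fun i => if i = 0 then ⊥ else if i = 1 then
        (S : Subgroup G) ⊓ Subgroup.centralizer ((S : Subgroup G) : Set G) else S) 2
      (fun i _ => by
        split_ifs
        · exact H91.stronglyClosed_bot _
        · exact H92.stronglyClosed_group_iff.2 hZ
        · exact H91.stronglyClosed_top _) (by simp) (by simp) fun i hi => by
      interval_cases i
      · simp only [zero_add, one_ne_zero, if_false, if_true, le_bot_iff]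
        rw [Subgroup.commutator_comm, Subgroup.commutator_eq_bot_iff_le_centralizer]
        exact inf_le_right
      · simpa using hcl
  refine ⟨fun P φ hφ => ?_, le_antisymm (H91.core_le _) (H91.le_core hn)⟩
  have hf := H91.M.of_mem hφ
  obtain ⟨α, hα, e⟩ := H91.normal_extend_aut hn hf.le hf
  rw [H92.autGroup_group le_rfl] at hα
  obtain ⟨g, hg, e'⟩ := H91.mem_autInducedBy_iff'.1 hα
  exact ⟨g, hg.2, fun x => by rw [← e' x (hf.le x.2), e x x.2, H91.fn_coe]⟩

end Cfsg.Agent.S5107
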