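import Cfsg.Statements.S5110
import Cfsg.Agent.H94.BCGLO3

set_option autoImplicit false
open Cfsg

namespace Cfsg.Agent.S5110

open Cfsg.Agent.H91 Cfsg.Agent.H94

/-- Saturation criterion: let F be a fusion system over a finite p-group S and H a family of subgroups of S closed under conjugacy in F, such that every conjugacy class inside H contains a fully automized receptive member, F is the smallest fusion system over S containing all its maps with source in H, and every centric subgroup outside H is conjugate in F to some P for which Aut_S(P) ∩ O_p(Aut_F(P)) is not contained in Inn(P). Then F is saturated. -/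
theorem result {Ω : Type*} [Group Ω] {S : Subgroup Ω} [Finite S] (p : ℕ) [Fact p.Prime] (hS : IsPGroup p S) (F : Cfsg.FusionSystem S) (ℋ : Set (Subgroup Ω)) (hℋS : ∀ P ∈ ℋ, P ≤ S) (hℋconj : ∀ P ∈ ℋ, ∀ Q, F.IsConj P Q → Q ∈ ℋ) (hsat : ∀ P ∈ ℋ, ∃ Q, F.IsConj P Q ∧ F.IsFullyAutomized p Q ∧ F.IsReceptive Q) (hgen : ∀ E : Cfsg.FusionSystem S, (∀ P ∈ ℋ, F.Hom P ⊆ E.Hom P) → F ≤ E) (hstar : ∀ P : Subgroup Ω, F.IsCentric P → P ∉ ℋ → ∃ Q, F.IsConj P Q ∧ ¬ (Cfsg.autInducedBy S Q ⊓ (Cfsg.pCore p ↥(F.autGroup Q)).map (F.autGroup Q).subtype ≤ Cfsg.Inn Q)) : F.IsSaturated p := by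
  have hX : GenData S (fun R h => M F R h ∧ (R ∈ ℋ ∨ R = S)) :=
    { mem := fun h x hx => h.1.mem hx
      homOn := fun h => h.1.homOn
      injOn := fun h => h.1.injOn
      conj := fun hg => Chain.single ⟨M.conj F le_rfl hg, Or.inr rfl⟩ le_rfl
      inv := fun {R h} hh => by
        obtain ⟨k, hk, e, -, -⟩ := hh.1.exists_inv
        refine ⟨k, Chain.single ⟨hk, ?_⟩ le_rfl, e⟩
        rcases hh.2 with h1 | h1
        · exact Or.inl (hℋconj R h1 _ hh.1.isConj)
        · subst h1
          exact Or.inr (hh.1.im_eq_self fun x hx => hh.1.mem hx) }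
  have hle := hgen hX.fs fun P hP φ hφ =>
    mem_Hom_iff.2 (hX.M_of_gen (hℋS P hP) ⟨M.of_mem hφ, Or.inl hP⟩)
  exact saturated_of_family hS ℋ hℋconj hsat
    (fun A f hf => (hX.M_iff.1 (le_iff_M.1 hle A f hf)).2) hstar

end Cfsg.Agent.S5110
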