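import Cfsg.Statements.S5111
import Cfsg.Agent.H91.Sat

set_option autoImplicit false
open Cfsg

namespace Cfsg.Agent.S5111

open Cfsg.FusionSystem Cfsg.Agent.H91

/-- A fusion system over a finite p-group S is saturated if and only if the inner automorphisms of S form a Sylow p-subgroup of Aut_F(S) and every fully normalized subgroup of S is receptive. -/
theorem result {Ω : Type*} [Group Ω] {S : Subgroup Ω} [Finite S] (p : ℕ) [Fact p.Prime] (hS : IsPGroup p S) (F : Cfsg.FusionSystem S) : F.IsSaturated p ↔ (F.IsFullyAutomized p S ∧ ∀ P : Subgroup Ω, F.IsFullyNormalized P → F.IsReceptive P) := by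
  refine ⟨fun hF => ⟨sat_fullyAutomized hS hF (isFullyNormalized_top F),
    fun P hP => sat_receptive' hS hF hP⟩, fun ⟨h1, h2⟩ => ?_⟩
  refine saturated_of_axioms fun P hP => ⟨?_, h2 P hP⟩
  refine downward_induction (C := fun P => F.IsFullyNormalized P → F.IsFullyAutomized p P)
    (fun P hPS ih hP => ?_) P hP.1 hP
  by_cases e : P = S
  · exact e ▸ h1
  have hlt : P < S := lt_of_le_of_ne hPS e
  have := finite_autGroup F hPS
  have := finite_of_le hPS
  have := finite_normalizerIn (S := S) P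
  refine isFullyAutomized_iff.2 ⟨hPS, sylIn_of_maximal (autInducedBy_le_autGroup F hPS)
    (isPGroup_autInducedBy hS P) fun H hH h3 h4 => ?_⟩
  by_contra h5
  have := finite_of_le h4
  obtain ⟨α, hα, hα'⟩ := SetLike.exists_of_lt (lt_normalizerIn hH (lt_of_le_of_ne h3
    fun e => h5 e.ge))
  refine hα' ?_
  have hαF : M F P (efn α) := (mem_autGroup_iff hPS).1 (h4 hα.1)
  have hPN := le_normalizerIn hPS
  have hle : normalizerIn S P ≤ extSub S P (efn α) := fun g hg => by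
    obtain ⟨k, hk, e⟩ := mem_autInducedBy_iff'.1
      (conj_mem_of_mem_normalizer hα.2 (cjAut_mem_autInducedBy hg.1 hg.2))
    refine ⟨hg, k, hk.1, fun x hx => ?_⟩
    rw [← e _ (efn_mem α hx), efn_mul _ _ (efn_mem α hx), efn_inv_efn α hx, efn_mul _ _ hx,
      efn_cjAut P g hg.2 hx]
  obtain ⟨f, hf, ef⟩ := hαF.extend (im_efn α) (h2 P hP) hle
  have hf' := hf.restrict (le_sup_right : normalizerIn S P ≤ _)
  have himP : im f P = P := (im_congr ef).trans (im_efn α)
  obtain ⟨β, hβ, eβ⟩ := hf'.exists_aut (hf'.im_eq_self fun x hx =>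
    himP ▸ hf'.map_mem_normalizer hPN hx hx.2)
  obtain ⟨γ, hγ, hγp, eγ⟩ := exists_pElt_extension p hPN (pow_eq_one_of_mem_isPGroup hH hα.1) hβ
    fun x hx => (eβ x (hPN hx)).trans (ef x hx)
  obtain ⟨N', hN', hN'n⟩ := exists_fullyNormalized F (normalizerIn_le S P)
  have hA' := ih N' hN'n.1 (isConj_card hN' ▸ card_lt_of_lt (lt_normalizerIn hS hlt)) hN'n
  obtain ⟨k, hk, himk⟩ := isConj_iff.1 hN'
  obtain ⟨χ, hχ, hc⟩ := hk.exists_adjust himk hA' (isPGroup_zpowers_of_pow hγp)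
    ((Subgroup.zpowers_le).2 hγ)
  obtain ⟨hψ, himψ⟩ := hk.efn_comp_aut himk hχ
  obtain ⟨h, hh, eh⟩ := hc γ (Subgroup.mem_zpowers γ)
  set ψ : Ω → Ω := fun x => efn χ (k x) with hψdef
  have hP' : F.IsConj P (im ψ P) := (hψ.restrict hPN).isConj
  have := finite_normalizerIn (S := S) (im ψ P)
  have hNN : im ψ (normalizerIn S P) = normalizerIn S (im ψ P) :=
    hψ.im_eq_of_card (fun x hx => hψ.map_mem_normalizer hPN hx hx.2) (hP.2 _ hP')
  have hhN : h ∈ normalizerIn S (im ψ P) := by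
    have := finite_of_le (hψ.restrict hPN).im_le
    refine ⟨hh.1, mem_normalizer_of_conj_mem fun y hy => ?_⟩
    obtain ⟨x, hx, rfl⟩ := (hψ.mem_im hPN).1 hy
    rw [← show ψ (efn γ x) = h * ψ x * h⁻¹ from eh x (hPN hx), eγ x hx]
    exact mem_im_of_mem ψ (efn_mem α hx)
  rw [← hNN] at hhN
  obtain ⟨g, hg, rfl⟩ := (hψ.mem_im le_rfl).1 hhN
  refine mem_autInducedBy_iff'.2 ⟨g, hg, fun x hx => ?_⟩
  refine hψ.injOn (hPN (efn_mem α hx)) (hPN (conj_mem_of_mem_normalizer hg.2 hx)) ?_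
  rw [hψ.map_conj hg (hPN hx), ← eγ x hx]
  exact eh x (hPN hx)

end Cfsg.Agent.S5111
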