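import Cfsg.Statements.S5112
import Cfsg.Agent.H24.FpfPerfect
import Cfsg.Agent.H92.Reduce

set_option autoImplicit false
open Cfsg

namespace Cfsg.Agent.S5112

theorem mulAut_dihedral_eq_one {n : ℕ} (α : MulAut (DihedralGroup (2 ^ (n + 2))))
    (hα : (orderOf α).Coprime 2) : α = 1 := by
  have hmem : ∀ i, (DihedralGroup.r i : DihedralGroup (2 ^ (n + 2))) ∈
      Subgroup.zpowers (DihedralGroup.r 1) := fun i => by
    refine ⟨i.val, ?_⟩
    simp only [zpow_natCast, DihedralGroup.r_one_pow, ZMod.natCast_zmod_val]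
  have hR : IsPGroup 2 (DihedralGroup (2 ^ (n + 2))) := by
    apply IsPGroup.of_card (n := n + 3)
    rw [DihedralGroup.nat_card]
    ring
  have h1 : α (DihedralGroup.r 1) = DihedralGroup.r 1 := by
    apply H24.apply_eq_of_mem_zpowers
    · have h2 := α.orderOf_eq (DihedralGroup.r 1)
      cases h : α (DihedralGroup.r 1) with
      | r i => exact hmem i
      | sr i =>
        rw [h, DihedralGroup.orderOf_sr, DihedralGroup.orderOf_r_one] at h2
        have : 0 < 2 ^ n := by positivity
        rw [pow_add] at h2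
        omega
    · rw [DihedralGroup.orderOf_r_one, Nat.totient_prime_pow_succ Nat.prime_two]
      simpa using hα.pow_right (n + 1)
  have h2 : ∀ x ∈ Subgroup.zpowers (DihedralGroup.r 1 : DihedralGroup (2 ^ (n + 2))),
      α x = x := by
    rintro _ ⟨k, rfl⟩
    simp only [map_zpow, h1]
  refine H4.mulAut_eq_one_of_stabilizes hR α hα _ h2 fun x => ?_
  cases x with
  | r i => rw [h2 _ (hmem i), inv_mul_cancel]; exact one_mem _
  | sr i =>
    cases h : α (DihedralGroup.sr i) with
    | r j =>
      rw [← h2 _ (hmem j)] at h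
      exact absurd (α.injective h) (by simp)
    | sr j => exact hmem _

/-- If S is a dihedral or generalized quaternion 2-group of order at least 16, then in every saturated fusion system over S (at the prime 2) the automorphism group Aut_F(S) consists of the inner automorphisms of S. -/
theorem result {Ω : Type*} [Group Ω] {S : Subgroup Ω} [Finite S] (n : ℕ) (hn : 4 ≤ n) (hshape : Nonempty (S ≃* DihedralGroup (2 ^ (n - 1))) ∨ Nonempty (S ≃* QuaternionGroup (2 ^ (n - 2)))) (F : Cfsg.FusionSystem S) (hF : F.IsSaturated 2) : F.autGroup S = Cfsg.Inn S := by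
  obtain ⟨m, rfl⟩ : ∃ m, n = m + 4 := ⟨n - 4, by omega⟩
  have key : ∀ {X : Type} [Group X] (e : S ≃* X), (∀ α : MulAut X, (orderOf α).Coprime 2 → α = 1) →
      ∀ α : MulAut S, (orderOf α).Coprime 2 → α = 1 := fun e h α hα =>
    (map_eq_one_iff _ (MulAut.congr e).injective).1 (h _ (by rwa [(MulAut.congr e).orderOf_eq]))
  have hS : IsPGroup 2 S := by
    rcases hshape with ⟨⟨e⟩⟩ | ⟨⟨e⟩⟩
    · refine IsPGroup.of_card (n := m + 4) ?_
      rw [Nat.card_congr e.toEquiv, DihedralGroup.nat_card, show m + 4 - 1 = m + 3 from rfl]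
      ring
    · refine IsPGroup.of_card (n := m + 4) ?_
      rw [Nat.card_congr e.toEquiv, show m + 4 - 2 = m + 2 from rfl, Nat.card_eq_fintype_card,
        QuaternionGroup.card]
      ring
  have h : ∀ α : MulAut S, (orderOf α).Coprime 2 → α = 1 := by
    rcases hshape with ⟨⟨e⟩⟩ | ⟨⟨e⟩⟩
    · exact key e (mulAut_dihedral_eq_one (n := m + 1))
    · exact key e (H24.mulAut_quaternion_eq_one (n := m))
  refine le_antisymm ?_ (H91.Inn_le_autGroup F le_rfl)
  rw [← H91.autInducedBy_self]
  exact H92.aut_le_of_isPGroup hS hF (H91.isFullyNormalized_top F)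
    (H91.isPGroup_of_forall_coprime_eq_one fun g _ => h g)

end Cfsg.Agent.S5112
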