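import Cfsg.Statements.S5115
import Cfsg.Agent.H92.GroupQuot

set_option autoImplicit false
open Cfsg

namespace Cfsg.Agent.S5115

/-- If the 2-fusion system of a finite group G on a Sylow 2-subgroup S is constrained, then for every subnormal subgroup H of G the 2-fusion system of H on S ∩ H is constrained. -/
theorem result {G : Type*} [Group G] [Finite G] (S : Sylow 2 G) (hF : (Cfsg.groupFusionSystem (S : Subgroup G)).IsConstrained 2) (H : Subgroup G) (hH : H.IsSubnormal) : (Cfsg.groupFusionSystem ((S : Subgroup G).subgroupOf H)).IsConstrained 2 := by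
  obtain ⟨k, hk⟩ := H92.fIso_ofSub_subgroupOf (inf_le_right : (S : Subgroup G) ⊓ H ≤ H)
  rw [Subgroup.inf_subgroupOf_right] at hk
  exact hk.symm.isConstrained
    (H92.constrained_of_subnormalIn S.isPGroup' hF (H92.isSubnormalIn_ofSub S hH).2)

end Cfsg.Agent.S5115
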