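import Cfsg.Statements.S5119
import Cfsg.Agent.H91.Inv

set_option autoImplicit false
open Cfsg

namespace Cfsg.Agent.S5119

open Cfsg.FusionSystem Cfsg.Agent.H91

/-- Let F be a saturated fusion system over a finite p-group S and E a subsystem of F over a subgroup T that is strongly closed in F. Then E is invariant in F (invariance under Aut_F(T) plus the Frattini condition) if and only if the strong invariance condition holds: for P ≤ Q ≤ T, every map φ of E from P into Q and every map ψ of F with source Q, the transported map ψ φ ψ⁻¹ on ψ(P) is a map of E. -/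
theorem result {Ω : Type*} [Group Ω] {S : Subgroup Ω} [Finite S] (p : ℕ) [Fact p.Prime] (hS : IsPGroup p S) (F : Cfsg.FusionSystem S) (hF : F.IsSaturated p) {T : Subgroup Ω} (E : Cfsg.FusionSystem T) (hE : E.IsSubsystemOf F) (hT : F.StronglyClosed T) : E.IsInvariantIn F ↔ ∀ (P Q : Subgroup Ω) (hPQ : P ≤ Q) (_ : Q ≤ T) (φ : P →* Ω) (_ : φ ∈ E.Hom P) (hφQ : ∀ x : P, φ x ∈ Q) (ψ : Q →* Ω) (_ : ψ ∈ F.Hom Q), ∃ χ ∈ E.Hom ((P.subgroupOf Q).map ψ), ∀ (x : P) (hx : ψ (Subgroup.inclusion hPQ x) ∈ (P.subgroupOf Q).map ψ), χ ⟨ψ (Subgroup.inclusion hPQ x), hx⟩ = ψ ⟨φ x, hφQ x⟩ := by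
  refine ⟨fun h P Q hPQ hQ φ hφ hφQ ψ hψ => ?_, fun h => ?_⟩
  · obtain ⟨χ, hχ, e⟩ := H92.inv_conj_strong h (M.of_mem hφ) hPQ hQ
      (fun x hx => by rw [fn_of_mem φ hx]; exact hφQ _) (M.of_mem hψ)
    rw [map_subgroupOf_eq_im hPQ ψ fun x => (fn_coe ψ x).symm]
    refine ⟨_, hχ.toHom_mem, fun x hx => ?_⟩
    have := e x x.2
    rw [fn_of_mem ψ (hPQ x.2), fn_coe, fn_of_mem ψ (hφQ x)] at this
    exact this
  · have strong : ∀ P Q f g, M E P f → P ≤ Q → Q ≤ T → (∀ x ∈ P, f x ∈ Q) → M F Q g →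
        ∃ χ, M E (im g P) χ ∧ ∀ x ∈ P, χ (g x) = g (f x) := by
      intro P Q f g hf hPQ hQ hm hg
      obtain ⟨χ, hχ, e⟩ := h P Q hPQ hQ _ hf.toHom_mem (fun x => hm x x.2) _ hg.toHom_mem
      have ee := map_subgroupOf_eq_im hPQ hg.homOn.toHom (f := g) fun _ => rfl
      refine ⟨fn χ, ee ▸ M.of_mem hχ, fun x hx => ?_⟩
      have hx' : g x ∈ (P.subgroupOf Q).map hg.homOn.toHom := ee ▸ mem_im_of_mem g hx
      rw [fn_of_mem χ hx']
      exact e ⟨x, hx⟩ hx'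
    exact invariant_of_strongInv hS hF hE hT strong

end Cfsg.Agent.S5119
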