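import Cfsg.Statements.S5121
import Cfsg.Agent.H92.NormalModel

set_option autoImplicit false
open Cfsg

namespace Cfsg.Agent.S5121

/-- Let G be a finite group with Sylow p-subgroup S and C_G(O_p(G)) ≤ O_p(G). For every subgroup T ≤ S and every normal subsystem E over T of the fusion system of G on S there is exactly one normal subgroup H of G containing T as a Sylow p-subgroup whose fusion system on T is E. -/
theorem result {G : Type*} [Group G] [Finite G] (p : ℕ) [Fact p.Prime] (S : Sylow p G) (hG : Subgroup.centralizer ((Cfsg.pCore p G : Subgroup G) : Set G) ≤ Cfsg.pCore p G) (T : Subgroup G) (hTS : T ≤ S) (E : Cfsg.FusionSystem T) (hE : E.IsNormalIn (Cfsg.groupFusionSystem (S : Subgroup G)) p) : ∃ H : Subgroup G, (∃ hTH : T ≤ H, H.Normal ∧ (∃ R : Sylow p H, (R : Subgroup H) = T.subgroupOf H) ∧ ∀ P : Subgroup G, E.Hom P = (Cfsg.fusionSystemOfSubgroup H T hTH).Hom P) ∧ ∀ H' : Subgroup G, (∃ hTH' : T ≤ H', H'.Normal ∧ (∃ R : Sylow p H',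 (R : Subgroup H') = T.subgroupOf H') ∧ ∀ P : Subgroup G, E.Hom P = (Cfsg.fusionSystemOfSubgroup H' T hTH').Hom P) → H' = H := by
  obtain ⟨H, hn, hS, h1, h2⟩ := H92.normal_model S hG hE
  have hTH : T ≤ H := hS ▸ inf_le_right
  refine ⟨H, ⟨hTH, hn, (H92.sylIn_iff hTH).1 (hS ▸ H92.sylow_inf_normal S H),
    fun P => by rw [← h1 hTH]⟩, ?_⟩
  rintro H' ⟨hTH', hn', hR, hP⟩
  refine h2 H' hn' ?_ fun _ => H91.fs_ext_Hom hP
  exact (H92.sylIn91_iff.2 ((H92.sylIn_iff hTH').2 hR)).eq_of_le S.isPGroup'.to_inf_left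
    (le_inf hTS hTH') inf_le_right

end Cfsg.Agent.S5121
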