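import Cfsg.Statements.S5123
import Cfsg.Agent.H92.GroupFS

set_option autoImplicit false
open Cfsg

namespace Cfsg.Agent.S5123

/-- Let G be a finite group with Sylow p-subgroup S, P, Q ≤ S and g ∈ G with gPg⁻¹ = Q, and suppose N_S(Q) is a Sylow p-subgroup of N_G(Q). Let N be the set of x ∈ N_S(P) with gxg⁻¹ ∈ N_S(Q)C_G(Q). Then some h ∈ C_G(Q) satisfies (hg)N(hg)⁻¹ ≤ S. -/
theorem result {G : Type*} [Group G] [Finite G] (p : ℕ) [Fact p.Prime] (S : Sylow p G) (P Q : Subgroup G) (hP : P ≤ S) (hQ : Q ≤ S) (g : G) (hg : P.map (MulAut.conj g).toMonoidHom = Q) (hN : (∃ R : Sylow p ↥(Subgroup.normalizer (Q : Set G)), (R : Subgroup ↥(Subgroup.normalizer (Q : Set G))) = (Cfsg.FusionSystem.normalizerIn (S : Subgroup G) Q).subgroupOf (Subgroup.normalizer (Q : Set G)))) : ∃ h ∈ Subgroup.centralizer (Q : Set G), ((Cfsg.FusionSystem.normalizerIn (S : Subgroup G) P) ⊓ (Cfsg.FusionSystem.normalizerIn (S : Subgroup G) Q ⊔ Subgroup.centralizer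 (Q : Set G)).comap (MulAut.conj g).toMonoidHom).map (MulAut.conj (h * g)).toMonoidHom ≤ S := by
  have hs : H92.SylIn p ((S : Subgroup G) ⊓ Subgroup.normalizer (Q : Set G))
      (⊤ ⊓ Subgroup.normalizer (Q : Set G)) := by
    rw [top_inf_eq]; exact (H92.sylIn_iff inf_le_right).2 hN
  obtain ⟨c, hc, h⟩ := hs.exists_conj_centralizer
    (U := H92.cj g ((Cfsg.FusionSystem.normalizerIn (S : Subgroup G) P) ⊓ (Cfsg.FusionSystem.normalizerIn (S : Subgroup G) Q ⊔ Subgroup.centralizer (Q : Set G)).comap (MulAut.conj g).toMonoidHom))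
    (H92.isPGroup_cj (S.isPGroup'.to_le (inf_le_left.trans inf_le_left)) g) (by
      rw [H92.cj_le_iff, top_inf_eq]
      exact fun x hx => hx.2)
  refine ⟨c, hc.2, H92.cj_le_iff.2 fun x hx => ?_⟩
  have := (h _ (H92.conj_mem_cj.2 hx)).1
  have e : c * g * x * (c * g)⁻¹ = c * (g * x * g⁻¹) * c⁻¹ := by group
  rw [e]; exact this

end Cfsg.Agent.S5123
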