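import Cfsg.Statements.S5130
import Cfsg.Agent.H93.Prod

set_option autoImplicit false
open Cfsg

namespace Cfsg.Agent.S5130

open Cfsg.FusionSystem Cfsg.Agent.H93
open Cfsg.Agent.H91 hiding center_central center_le central_bot central_mono central_sup core_le core_normal isCentral_iff isFullyAutomized_iff isNormal_iff le_center le_core normal_bot normal_sup sSup_mem_of_sup_closed stronglyClosed_iff weaklyClosed_iff

/-- Let F be a saturated fusion system over a finite p-group S that is the direct product of two subgroups S₁ and S₂, each strongly closed in F. Let R be the full subsystem of F over S₁ (all maps of F between subgroups of S₁) and R′ the subsystem over S₁ of those maps that extend to the subgroup generated with S₂ fixing S₂ elementwise. Then R and R′ are saturated, R′ is normal in F and in R, and R is weakly normal in F. -/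
theorem result {Ω : Type*} [Group Ω] {S : Subgroup Ω} [Finite S] (p : ℕ) [Fact p.Prime] (hS : IsPGroup p S) (F : Cfsg.FusionSystem S) (hF : F.IsSaturated p) (S₁ S₂ : Subgroup Ω) (hprod : Cfsg.IsInternalDirectProduct S₁ S₂ S) (h₁ : F.StronglyClosed S₁) (h₂ : F.StronglyClosed S₂) (R R' : Cfsg.FusionSystem S₁) (hR : ∀ P : Subgroup Ω, P ≤ S₁ → R.Hom P = F.Hom P) (hR' : ∀ P : Subgroup Ω, P ≤ S₁ → R'.Hom P = F.centralizerHom S₂ P) : R.IsSaturated p ∧ R'.IsSaturated p ∧ R'.IsNormalIn F p ∧ R'.IsNormalIn R p ∧ R.IsWeaklyNormalIn F p := by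
  obtain ⟨l₁, l₂, hc, hi, hs⟩ := hprod
  have mR : ∀ P, P ≤ S₁ → ∀ f, M R P f ↔ M F P f := fun P hP => Hom_eq_iff_M.1 (hR P hP)
  have mR' : ∀ P, P ≤ S₁ → ∀ f, M R' P f ↔ CM F S₂ P f := fun P hP =>
    Hom_eq_centralizerHom_iff.1 (hR' P hP)
  have dec : ∀ s ∈ S, ∃ a ∈ S₁, ∃ b ∈ S₂, a * b = s := fun s h =>
    (mem_sup_of_normalizes (l₁.trans (sc_le_normalizer h₂))).1 (hs.ge h)
  have act : ∀ s ∈ S, ∃ t ∈ S₁, ∀ x ∈ S₁, s * x * s⁻¹ = t * x * t⁻¹ := fun s h => by
    obtain ⟨a, ha, b, hb, rfl⟩ := dec s h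
    exact ⟨a, ha, fun x hx => by rw [mul_assoc a, ← hc x hx b hb]; group⟩
  have l₁' : S₁ ≤ centralizerIn S S₂ := fun a ha =>
    mem_centralizerIn.2 ⟨l₁ ha, fun b hb => (hc a ha b hb).symm⟩
  haveI := finite_of_le l₁
  haveI := finite_centralizerIn (S := S) S₂
  have sub : (centFS F l₂).IsSubsystemOf F :=
    isSubsystemOf_iff_M.2 fun P f hf => ((M_centFS l₂).1 hf).toM
  have sR := full_saturated hS hF h₁ act mR
  have sR' : R'.IsSaturated p := full_saturated (isPGroup_of_le hS (centralizerIn_le _ _))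
    (centFS_saturated hS hF (sat_fullyCentralized hS hF (fullyNormalized_of_stronglyClosed h₂)))
    (inf_of_le_left l₁' ▸ stronglyClosed_sub sub h₁) (fun s h => act s h.1)
    fun P hP f => (mR' P hP f).trans (M_centFS l₂).symm
  have subR : R.IsSubsystemOf F := isSubsystemOf_iff_M.2 fun P f hf => (mR P hf.le f).1 hf
  have subR' : R'.IsSubsystemOf F := isSubsystemOf_iff_M.2 fun P f hf => ((mR' P hf.le f).1 hf).toM
  have si : StrongInv R' F := fun P Q f g hf hPQ hQ hm hg => by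
    obtain ⟨-, f', hf', e, e'⟩ := (mR' P hf.le f).1 hf
    obtain ⟨g', hg', eg⟩ := sc_approx hS hF h₂ hg
    have eg' : ∀ x ∈ Q, g' x = g x := fun x hx => inv_mul_eq_one.1 (Subgroup.mem_bot.1 (hi.le
      ⟨S₁.mul_mem (S₁.inv_mem (sc_mem h₁ hg' (Subgroup.mem_sup_left hx) (hQ hx)))
        (sc_mem h₁ hg hx (hQ hx)), eg x hx⟩))
    have hle : P ⊔ S₂ ≤ Q ⊔ S₂ := sup_le_sup_right hPQ _
    obtain ⟨k, hk, ek, mk, ek'⟩ := (hg'.restrict hle).exists_inv
    have i2 := sc_im_eq h₂ hg' le_sup_right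
    have i1 : im g' P = im g P := im_congr fun x hx => eg' x (hPQ hx)
    rw [(hg'.restrict hle).homOn.im_sup, i1, i2] at hk mk ek'
    have hm' : ∀ x ∈ P ⊔ S₂, f' x ∈ Q ⊔ S₂ := im_le_iff.1 (by
      rw [hf'.homOn.im_sup, im_eq_self_of_fix e']
      exact sup_le_sup_right (im_le_iff.2 fun x hx => by rw [e x hx]; exact hm x hx) _)
    have hP' : im g P ≤ S₁ := im_le_iff.2 fun x hx => sc_mem h₁ hg (hPQ hx) (hQ (hPQ hx))
    refine ⟨fun y => g' (f' (k y)), (mR' _ hP' _).2 ⟨hP'.trans l₁', _,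
      hg'.comp (hf'.comp hk mk) fun y hy => hm' _ (mk y hy), fun _ _ => rfl, fun y hy => ?_⟩,
      fun x hx => ?_⟩
    · rw [← i2] at hy
      obtain ⟨x, hx, rfl⟩ := (hg'.mem_im le_sup_right).1 hy
      simp only [ek x (Subgroup.mem_sup_right hx), e' x hx]
    · simp only [← eg' x (hPQ hx), ek x (Subgroup.mem_sup_left hx), e x hx, eg' _ (hm x hx)]
  refine ⟨sR, sR', H92.isNormalIn_iff.2 ⟨⟨sR', hF, invariant_of_strongInv hS hF subR' h₁ si⟩,
    fun a ha him => ?_⟩, H92.isNormalIn_iff.2 ⟨⟨sR', sR, invariant_of_strongInv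
      (isPGroup_of_le hS l₁) sR (isSubsystemOf_iff_M.2 fun P f hf => (mR P hf.le f).2
        (hf.of_sub subR')) (sc_top R) fun P Q f g hf hPQ hQ hm hg =>
          si P Q f g hf hPQ hQ hm (hg.of_sub subR)⟩, fun a ha him => ?_⟩,
    sR, hF, invariant_of_strongInv hS hF subR h₁ fun P Q f g hf hPQ hQ hm hg => ?_⟩
  · obtain ⟨-, b, hb, e, e'⟩ := (mR' _ le_rfl a).1 ha
    have e0 : S₁ ⊔ centralizerIn S S₁ = S := le_antisymm (sup_le l₁ (centralizerIn_le _ _))
      (hs.ge.trans (sup_le_sup_left (fun b hb => mem_centralizerIn.2 ⟨l₂ hb, fun a ha =>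
        hc a ha b hb⟩) _))
    rw [hs] at hb
    rw [e0]
    refine ⟨b, hb, sc_im_eq (sc_top F) hb le_rfl, e, fun c h => ?_⟩
    obtain ⟨z, hz, y, hy, rfl⟩ := dec c h.1
    have h1 : (z * y)⁻¹ * b (z * y) = z⁻¹ * a z := by
      rw [hb.map_mul (l₁ hz) (l₂ hy), e z hz, e' y hy, mul_inv_rev, mul_assoc, ← mul_assoc z⁻¹,
        hc _ (S₁.mul_mem (S₁.inv_mem hz) (ha.mem hz)) y hy, inv_mul_cancel_left]
    have h2 : ∀ x ∈ S₁, x * z = z * x := fun x hx => by
      have := (mem_centralizerIn.1 h).2 x hx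
      rw [← mul_assoc, mul_assoc z, ← hc x hx y hy, ← mul_assoc] at this
      exact mul_right_cancel this
    have h3 := ha.map_mem_centralizer le_rfl hz h2
    rw [him] at h3
    rw [h1]
    exact ⟨S₁.mul_mem (S₁.inv_mem hz) (ha.mem hz),
      Subgroup.mul_mem _ (Subgroup.inv_mem _ h2) h3.2⟩
  · rw [sup_of_le_left (centralizerIn_le _ _)]
    refine ⟨a, (mR _ le_rfl a).2 (ha.of_sub subR'), him, fun _ _ => rfl, fun c h => ?_⟩
    have h3 := ha.map_mem_centralizer le_rfl h.1 (mem_centralizerIn.1 h).2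
    rw [him] at h3
    exact Subgroup.mul_mem _ (Subgroup.inv_mem _ h) h3
  · obtain ⟨k, hk, ek, mk, -⟩ := (hg.restrict hPQ).exists_inv
    exact ⟨fun y => g (f (k y)), (mR _ (im_le_iff.2 fun x hx =>
      sc_mem h₁ hg (hPQ hx) (hQ (hPQ hx))) _).2 (hg.comp ((hf.of_sub subR).comp hk mk)
        fun y hy => hm _ (mk y hy)), fun x hx => by simp only [ek x hx]⟩

end Cfsg.Agent.S5130
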