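import Cfsg.Statements.S5143
import Cfsg.Agent.H94.ER4

set_option autoImplicit false
open Cfsg

namespace Cfsg.Agent.S5143

open Cfsg.FusionSystem Cfsg.Agent.H91 Cfsg.Agent.H94

theorem hom_eq {Ω : Type*} [Group Ω] {R : Subgroup Ω} [Finite R] {p : ℕ} [Fact p.Prime]
    (hR : IsPGroup p R) {D : FusionSystem R} {H₁ H₂ : Subgroup Ω} (h : H₁ = H₂)
    {D₁ : FusionSystem H₁} {E₁ : FusionSystem H₂} (h1 : D₁.IsSaturated p)
    (h2 : D₁.HasPPowerIndexIn D p) (h3 : E₁.IsSaturated p) (h4 : E₁.HasPPowerIndexIn D p) :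
    ∀ P, D₁.Hom P = E₁.Hom P := by
  subst h
  rw [pPowerIndex_unique hR h1 h2 h3 h4]
  exact fun _ => rfl

theorem index_of_hom_eq {Ω : Type*} [Group Ω] {R : Subgroup Ω} {p : ℕ} {D : FusionSystem R}
    {H₁ H₂ : Subgroup Ω} {D₁ : FusionSystem H₁} {E₁ : FusionSystem H₂}
    (h : ∀ P, D₁.Hom P = E₁.Hom P) (h2 : D₁.HasPPowerIndexIn D p) : E₁.HasPPowerIndexIn D p := by
  obtain rfl := eq_of_Hom_eq h
  rwa [← fs_ext_Hom h]

/-- Let F be a saturated fusion system over a finite p-group S, E a normal subsystem over T, and R a subgroup with T ≤ R ≤ S. Then there is exactly one saturated subsystem D of F over R (exactly one family of map sets) whose p-residual subsystem is that of E: the hyperfocal subgroups of D and E coincide and the p-residual subsystems of D and of E have the same maps. -/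
theorem result {Ω : Type*} [Group Ω] {S : Subgroup Ω} [Finite S] (p : ℕ) [Fact p.Prime] (hS : IsPGroup p S) (F : Cfsg.FusionSystem S) (hF : F.IsSaturated p) {T : Subgroup Ω} (E : Cfsg.FusionSystem T) (hE : E.IsNormalIn F p) (R : Subgroup Ω) (hTR : T ≤ R) (hRS : R ≤ S) : ∃ D : Cfsg.FusionSystem R, (D.IsSaturated p ∧ D.IsSubsystemOf F ∧ D.hyperfocalSubgroup p = E.hyperfocalSubgroup p ∧ ∀ (D₁ : Cfsg.FusionSystem (D.hyperfocalSubgroup p)) (E₁ : Cfsg.FusionSystem (E.hyperfocalSubgroup p)), D.IsPResidual p D₁ → E.IsPResidual p E₁ → ∀ P : Subgroup Ω, D₁.Hom P = E₁.Hom P) ∧ ∀ D' : Cfsg.FusionSystem R, D'.IsSaturated p → D'.IsSubsystemOf F → D'.hyperfocalSubgroup p = E.hyperfocalSubgroup p → (∀ (D₁ : Cfsg.FusionSystem (D'.hyperfocalSubgroup p)) (E₁ : Cfsg.FusionSystem (E.hyperfocalSubgroup p)), D'.IsPResidual p D₁ → E.IsPResidual p E₁ → ∀ P : Subgroup Ω, D₁.Hom P = E₁.Hom P) → ∀ P : Subgroup Ω, D'.Hom P = D.Hom P := by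
  haveI := finite_of_le hRS
  haveI := finite_of_le (hTR.trans hRS)
  have hR := isPGroup_of_le hS hRS
  have hh := hyp_prodFS hRS hS hE hTR
  have hi := hasPPowerIndexIn_prodFS hRS hS hE hTR
  have hE₀ := isPResidual_ppFS (isPGroup_of_le hS (hTR.trans hRS)) (H92.normalIn_sat_left hE)
  have hn := isNormalIn_pResidual hS hE hE₀
  refine ⟨prodFS F E p hRS, ⟨prodFS_saturated hRS hS hE hTR, prodFS_sub hRS F E p, hh,
    fun D₁ E₁ h1 h2 => hom_eq hR hh h1.1 h1.2 h2.1 (HasPPowerIndexIn.trans' h2.2 hi hh.le)⟩,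
    fun D' h1 h2 _ h4 P => ?_⟩
  have hD₀ := isPResidual_ppFS hR h1
  rw [eq_prodFS hS hn hRS h2 h1 (index_of_hom_eq (h4 _ _ hD₀ hE₀) hD₀.2),
    ← eq_prodFS hS hn hRS (prodFS_sub hRS F E p) (prodFS_saturated hRS hS hE hTR)
      (HasPPowerIndexIn.trans' hE₀.2 hi hh.le)]

end Cfsg.Agent.S5143
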