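import Cfsg.Statements.S5147
import Cfsg.Agent.H92.GroupQuot

set_option autoImplicit false
open Cfsg

namespace Cfsg.Agent.S5147

/-- Let G be a finite group with Sylow 2-subgroup S whose 2-fusion system on S is constrained, and L a component of G (a subnormal quasisimple subgroup). Then the 2-fusion system of L/Z(L) on the image of S ∩ L is constrained. -/
theorem result {G : Type*} [Group G] [Finite G] (S : Sylow 2 G) (hF : (Cfsg.groupFusionSystem (S : Subgroup G)).IsConstrained 2) (L : Subgroup G) (hL : Cfsg.IsComponent L) : (Cfsg.groupFusionSystem (((S : Subgroup G).subgroupOf L).map (QuotientGroup.mk' (Subgroup.center L)))).IsConstrained 2 := by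
  obtain ⟨k, hk⟩ := H92.fIso_ofSub_subgroupOf (inf_le_right : (S : Subgroup G) ⊓ L ≤ L)
  rw [Subgroup.inf_subgroupOf_right] at hk
  obtain ⟨h1, h2⟩ := H92.isSubnormalIn_ofSub S hL.1
  have h3 := hk.symm.isConstrained (H92.constrained_of_subnormalIn S.isPGroup' hF h2)
  have e : (h1.sylow : Subgroup L) = (S : Subgroup G).subgroupOf L :=
    Subgroup.inf_subgroupOf_right _ _
  rw [← e] at h3 ⊢
  refine H92.constrained_fac_central h1.sylow.isPGroup' h3
    (H92.fac_group h1.sylow _ (QuotientGroup.mk'_surjective _)) ?_
  rw [H92.pre_bot_comp_subtype, QuotientGroup.ker_mk', H92.group_eq_ofSubgroup]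
  exact H92.isCentral_ofSub _ inf_le_left fun g _ x hx => (Subgroup.mem_center_iff.1 hx.2 g).symm

end Cfsg.Agent.S5147
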