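import Cfsg.Statements.S5159
import Cfsg.Agent.H93.Solv

set_option autoImplicit false
open Cfsg

namespace Cfsg.Agent.S5159

open Cfsg.FusionSystem Cfsg.Agent.H93
open Cfsg.Agent.H91 hiding center_central center_le central_bot central_mono central_sup core_le core_normal isCentral_iff isFullyAutomized_iff isNormal_iff le_center le_core normal_bot normal_sup sSup_mem_of_sup_closed stronglyClosed_iff weaklyClosed_iff

/-- Let F be a saturated fusion system over a finite p-group S, E a normal subsystem over T, and D the factor system of F modulo T (read through any homomorphism on S with kernel T). Then F is solvable if and only if E and D are solvable (solvable, for a system over a subgroup S: for every subgroup R other than S that is strongly closed in F, the factor system of F modulo R has a nontrivial subgroup normal in it). -/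
theorem result {Ω : Type*} [Group Ω] {S : Subgroup Ω} [Finite S] (p : ℕ) [Fact p.Prime] (hS : IsPGroup p S) (F : Cfsg.FusionSystem S) (hF : F.IsSaturated p) {T : Subgroup Ω} (E : Cfsg.FusionSystem T) (hE : E.IsNormalIn F p) {Ω' : Type*} [Group Ω'] {S' : Subgroup Ω'} (θ : S →* Ω') (D : Cfsg.FusionSystem S') (hD : F.IsFactorSystem T θ D) : F.IsSolvableSystem ↔ (E.IsSolvableSystem ∧ D.IsSolvableSystem) := by
  obtain ⟨e, hD⟩ := isFactorSystem_iff.1 hD
  have hT := H92.normalIn_sc hE
  haveI := finite_of_le (sc_le hT)
  haveI := hD.finite
  rw [solvable_iff_chn hS hF, solvable_iff_chn (isPGroup_of_le hS (sc_le hT))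
    (H92.normalIn_sat_left hE), solvable_iff_chn (hD.isPGroup hS) (hD.saturated hS hF (e ▸ hT))]
  exact ⟨fun h => ⟨h.sub (H92.normalIn_sub hE), h.fac hS hF hD (e ▸ hT)⟩,
    fun h => chn_of_sub_fac hS hF (H92.normalIn_inv hE) hD e h.1 h.2⟩

end Cfsg.Agent.S5159
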