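import Cfsg.Statements.S5160
import Cfsg.Agent.H91.Subn
import Cfsg.Agent.H94.Sub

set_option autoImplicit false
open Cfsg

namespace Cfsg.Agent.S5160

open Cfsg.FusionSystem Cfsg.Agent.H91

/-- Let G be a finite group with nontrivial Sylow p-subgroup S and F its fusion system on S. Suppose (a) no nontrivial proper subgroup of S is strongly closed in F, and (b) the automorphisms of S induced by G are generated by those induced, for R running over the fully normalized radical centric subgroups of F, by the subgroup of N_G(R) generated by its elements of p-power order. Then F is simple. -/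
theorem result {G : Type*} [Group G] [Finite G] (p : ℕ) [Fact p.Prime] (S : Sylow p G) (hS1 : (S : Subgroup G) ≠ ⊥) (ha : ∀ T : Subgroup G, (Cfsg.groupFusionSystem (S : Subgroup G)).StronglyClosed T → T = ⊥ ∨ T = (S : Subgroup G)) (hb : Cfsg.autInducedBy ⊤ (S : Subgroup G) = ⨆ (R : Subgroup G) (_ : (Cfsg.groupFusionSystem (S : Subgroup G)).IsFullyNormalized R ∧ (Cfsg.groupFusionSystem (S : Subgroup G)).IsRadical p R ∧ (Cfsg.groupFusionSystem (S : Subgroup G)).IsCentric R), Cfsg.autInducedBy (Subgroup.closure {g : G | g ∈ Subgroup.normalizer (R : Set G) ∧ ∃ k : ℕ, orderOf g = p ^ k}) (S : Subgroup G)) : (Cfsg.groupFusionSystem (S : Subgroup G)).IsSimple p := by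
  set F := groupFusionSystem (S : Subgroup G) with hFd
  have hF : F.IsSaturated p := H92.saturated_group S
  have hS := S.isPGroup'
  refine ⟨hF, hS1, fun T E hE => ?_⟩
  obtain rfl | rfl := ha T (H92.normalIn_sc hE)
  · exact Or.inl rfl
  refine Or.inr ⟨rfl, fun P => Hom_eq_iff_M.2 fun f => ⟨M.of_sub (H92.normalIn_sub hE), fun hf => ?_⟩⟩
  have hinv := H92.normalIn_inv hE
  have hEs := H92.normalIn_sat_left hE
  have htop : F.autGroup S ≤ E.autGroup S := by
    rw [H92.autGroup_group le_rfl, hb]
    refine iSup_le fun R => iSup_le fun hR α hα => ?_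
    obtain ⟨g, hg, e⟩ := mem_autInducedBy_iff'.1 hα
    have hRS := hR.1.1
    have := finite_autGroup F hRS
    have hp : ppIn p (F.autGroup R) ≤ E.autGroup R := (sat_sylIn hS hF hR.1).ppIn_le
      (autInducedBy_le_autGroup E hRS) fun a ha n hn =>
        (strongInv_of_invariant hinv).conj_mem_autGroup hRS hRS ha hn
    have hle : Subgroup.closure {g : G | g ∈ Subgroup.normalizer (R : Set G) ∧
        ∃ k : ℕ, orderOf g = p ^ k} ≤
        ((E.autGroup R).comap R.normalizerMonoidHom).map (Subgroup.subtype _) := by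
      refine (Subgroup.closure_le _).2 fun x hx => ⟨⟨x, hx.1⟩, hp (mem_ppIn_of_pow ?_ ?_), rfl⟩
      · rw [H92.autGroup_group hRS]
        exact cjAut_mem_autInducedBy (Subgroup.mem_top x) hx.1
      · obtain ⟨v, hv⟩ := orderOf_eq_pow_iff.1 hx.2
        exact ⟨v, by rw [← map_pow, show (⟨x, hx.1⟩ : Subgroup.normalizer (R : Set G)) ^ p ^ v = 1
          from Subtype.ext hv, map_one]⟩
    obtain ⟨⟨g', hg'⟩, h1, rfl⟩ := hle hg.1
    have h2 : M E R (efn (cjAut R g' hg')) := (mem_autGroup_iff hRS).1 h1
    have h3 : M F S (efn α) := (mem_autGroup_iff le_rfl).1 (by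
      rw [H92.autGroup_group le_rfl]; exact autInducedBy_mono le_top _ hα)
    exact (H94.M_of_restrict_centric hS hF hEs (fun _ _ => M.of_sub (H92.normalIn_sub hE)) h3 R hRS
      hR.2.2 (h2.congr fun x hx => by rw [efn_cjAut _ _ _ hx, e x (hRS hx)]; rfl)).mem_autGroup
  obtain ⟨a, f₀, ha, hia, hf₀, e⟩ := H92.inv_frattini hinv hf.le hf
  obtain ⟨α, hα, eα⟩ := ha.exists_aut hia
  exact (((mem_autGroup_iff le_rfl).1 (htop hα)).comp hf₀ fun x hx => hf₀.mem hx).congr
    fun x hx => by rw [eα _ (hf₀.mem hx), e x hx]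

end Cfsg.Agent.S5160
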