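import Cfsg.Statements.S5163
import Cfsg.Agent.H62.Unitri
import Cfsg.Agent.H62.SimpleCrit
import Cfsg.Agent.H62.Stable

set_option autoImplicit false
open Cfsg

namespace Cfsg.Agent.S5163

open Cfsg.Agent.H91 Cfsg.Agent.H62 Cfsg.FusionSystem Matrix Subgroup
open scoped MatrixGroups

theorem diag2n_mem {K : Type*} [Field K] (p : ℕ) [CharP K p] {n : ℕ} {Q : Subgroup SL(n, K)}
    {i j : Fin n} (hij : i ≠ j)
    (h1 : ∀ a : K, SpecialLinearGroup.transvection hij a ∈ normalizer (Q : Set SL(n, K)))
    (h2 : ∀ a : K, SpecialLinearGroup.transvection hij.symm a ∈ normalizer (Q : Set SL(n, K)))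
    (a : K) (ha : a ≠ 0) : Matrix.SpecialLinearGroup.diag2n hij a ha ∈ pGenN p Q := by
  have e1 : ∀ a : K, SpecialLinearGroup.transvection hij a ∈ pGenN p Q := fun a =>
    subset_closure ⟨h1 a, 1, by rw [pow_one, transvection_pow_char]⟩
  have e2 : ∀ a : K, SpecialLinearGroup.transvection hij.symm a ∈ pGenN p Q := fun a =>
    subset_closure ⟨h2 a, 1, by rw [pow_one, transvection_pow_char]⟩
  rw [H9.diag2n_decompose]
  exact mul_mem (mul_mem (mul_mem (mul_mem (mul_mem (e1 _) (e2 _)) (e1 _)) (e1 _)) (e2 _)) (e1 _)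

theorem simple_sl {K : Type*} [Field K] [Fintype K] (p : ℕ) [Fact p.Prime] [CharP K p] (m : ℕ)
    (U : Sylow p SL(m + 3, K)) (hU : (U : Subgroup SL(m + 3, K)) = UT (m + 3) K) :
    (groupFusionSystem (U : Subgroup SL(m + 3, K))).IsSimple p := by
  have h0l : (0 : Fin (m + 3)) < Fin.last _ := Fin.last_pos
  refine simple_of_local U ?_ ?_ ?_
  · rw [hU]
    intro h
    have := transvection_mem_UT (K := K) h0l 1
    rw [h, mem_bot] at this
    have h2 := congrArg (fun x : SL(m + 3, K) => x 0 (Fin.last _)) this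
    simp only [transvection_apply', sl_one, one_apply, and_self, if_true] at h2
    simp at h2
  · intro T hT hsc h1
    have hn : (U : Subgroup SL(m + 3, K)) ≤ normalizer (T : Set SL(m + 3, K)) := fun g hg =>
      mem_normalizer_of_conj_mem fun x hx => hsc x hx g (mul_mem (mul_mem hg (hT hx)) (inv_mem hg))
    have h2 := inf_cent_ne_bot (U.isPGroup'.to_le hT) h1 hn fun r hr => by
      obtain ⟨k, hk⟩ := pow_eq_one_of_mem_isPGroup U.isPGroup' hr
      exact ⟨k, by rw [hk]; exact one_mem _⟩
    obtain ⟨z, hz, hz1⟩ := (Subgroup.bot_or_exists_ne_one _).resolve_left h2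
    have e := eq_transvection_of_central (m := m + 1) (hU ▸ hT hz.1) fun u hu =>
      hz.2 u (by rw [hU]; exact hu)
    have hc : z 0 (Fin.last _) ≠ 0 := fun h => hz1 (by
      rw [e, h, SpecialLinearGroup.transvection_coeff_zero])
    rw [hU]
    refine UT_le_of_transvection fun i j hij a => ?_
    by_cases ha : a = 0
    · rw [ha, SpecialLinearGroup.transvection_coeff_zero]; exact one_mem _
    obtain ⟨g, hg⟩ := exists_conj_transvection (by omega) h0l.ne hij.ne hc ha
    rw [← hg]
    have e' : SpecialLinearGroup.transvection h0l.ne (z 0 (Fin.last _)) = z := e.symm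
    rw [e'] at hg ⊢
    exact hsc z hz.1 g (by rw [hg, hU]; exact transvection_mem_UT hij a)
  · rw [hU]
    intro H hUH _ hQ g hg
    obtain ⟨u, D, hD, hu, rfl⟩ := exists_UT_mul_diag (normalizer_UT_le hg)
    refine mul_mem (hUH hu) ?_
    rw [Matrix.SpecialLinearGroup.diag_eq_diag2n_prod (1 : Fin (m + 3))]
    refine Subgroup.noncommProd_mem _ _ fun i hi => ?_
    have hi' : i ≠ 1 := (Finset.mem_filter.1 hi).2
    rw [dif_pos hi']
    have hB : Matrix.SpecialLinearGroup.diag2n hi' (D i)
        (Matrix.SpecialLinearGroup.diagonal_neZero D hD i) ∈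
        normalizer (UT (m + 3) K : Set SL(m + 3, K)) :=
      BT_le_normalizer (blockTriangular_diagonal _)
    have h10 : (1 : Fin (m + 3)) ≠ 0 := by simp
    have h1l : (1 : Fin (m + 3)) ≠ Fin.last _ := fun h => by
      have := congrArg Fin.val h
      simp at this
    by_cases hi0 : i = 0
    · refine hQ (colG K (Fin.last _)) colG_le_UT (fun x hx => mem_normalizer_colG fun j hj =>
        (mem_UT.1 hx).1 _ _ (lt_of_le_of_ne (Fin.le_last j) hj)) cent_colG_le ⟨hB, ?_⟩
      refine diag2n_mem p hi' (fun a => mem_normalizer_colG fun j hj => ?_)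
        (fun a => mem_normalizer_colG fun j hj => ?_) _ _
      · rw [transvection_apply', if_neg hj.symm, if_neg (fun h => h0l.ne (hi0.symm.trans h.1)),
          add_zero]
      · rw [transvection_apply', if_neg hj.symm, if_neg (fun h => h1l h.1), add_zero]
    · refine hQ (rowG K 0) rowG_le_UT (fun x hx => mem_normalizer_rowG fun j hj =>
        (mem_UT.1 hx).1 _ _ (Fin.pos_iff_ne_zero.2 hj)) cent_rowG_le ⟨hB, ?_⟩
      refine diag2n_mem p hi' (fun a => mem_normalizer_rowG fun j hj => ?_)
        (fun a => mem_normalizer_rowG fun j hj => ?_) _ _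
      · rw [transvection_apply', if_neg hj, if_neg (fun h => h10 h.2), add_zero]
      · rw [transvection_apply', if_neg hj, if_neg (fun h => hi0 h.2), add_zero]


/-- For a finite field K of characteristic p and n ≥ 3, the p-fusion system of the projective special linear group PSL_n(K) on a Sylow p-subgroup is simple. -/
theorem result {K : Type*} [Field K] [Fintype K] (p : ℕ) [Fact p.Prime] [CharP K p] (n : ℕ) (hn : 3 ≤ n) (S : Sylow p (Matrix.ProjectiveSpecialLinearGroup (Fin n) K)) : (Cfsg.groupFusionSystem (S : Subgroup (Matrix.ProjectiveSpecialLinearGroup (Fin n) K))).IsSimple p := by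
  obtain ⟨m, rfl⟩ : ∃ m, n = m + 3 := ⟨n - 3, by omega⟩
  obtain ⟨U, hU⟩ := exists_sylow_UT (n := m + 3) (K := K) p
  refine simple_of_quot (QuotientGroup.mk' _) (QuotientGroup.mk'_surjective _) U ?_
    (simple_sl p m U hU) S
  rw [QuotientGroup.ker_mk', hU, eq_bot_iff]
  rintro g ⟨hg, hc⟩
  obtain ⟨r, -, hr⟩ := Matrix.SpecialLinearGroup.mem_center_iff.1 hc
  have h1 : r = 1 := by
    have := congrFun (congrFun hr 0) 0
    rw [hg.2 0] at this
    simpa using this
  rw [mem_bot]
  apply Subtype.ext
  rw [← hr, h1, map_one]; rfl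

end Cfsg.Agent.S5163
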