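import Cfsg.Statements.S5165
import Cfsg.Agent.H84.AltLoc
import Cfsg.Agent.H64.AltSylow
import Cfsg.Agent.H92.Iso3

set_option autoImplicit false
set_option linter.style.haveILetI false
open Cfsg

namespace Cfsg.Agent.S5165

open Subgroup Equiv Equiv.Perm Cfsg.Agent.H84


/-- For n ≥ 6, a prime p with p² ≤ n, and n congruent to 0 or 1 modulo p, the p-fusion system of the alternating group of degree n on a Sylow p-subgroup is simple. -/
theorem result (n p : ℕ) (hn : 6 ≤ n) [Fact p.Prime] (hnp : p ^ 2 ≤ n) (hb : n % p ≤ 1) (S : Sylow p (alternatingGroup (Fin n))) : (Cfsg.groupFusionSystem (S : Subgroup (alternatingGroup (Fin n)))).IsSimple p := by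
  have hp : p.Prime := Fact.out
  have h2 := hp.two_le
  have h3 : 2 * p ≤ n := by nlinarith
  have h4 : p ≤ n / p := (Nat.le_div_iff_mul_le hp.pos).2 (by rwa [← sq])
  have hι : Nat.card (ZMod p ⊕ Fin (n / p - p)) = Nat.card (Fin n) / p := by simp; omega
  obtain ⟨j⟩ := nonempty_embedding hι
  obtain ⟨P, hP⟩ := ((IsPGroup.of_card (p := p) (G := Multiplicative (ZMod p)) (n := 1)
    (by simp)).of_surjective _
    (trH (p := p) (ι := Fin (n / p - p))).rangeRestrict_surjective).exists_le_sylow
  have hT : H91.SylIn p ((wrS p P).map (viaEmbeddingHom j) ⊓ alternatingGroup (Fin n))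
      (alternatingGroup (Fin n)) := by
    have := (H91.sylIn_top (wrSylow j hι P)).inf_normal (N := alternatingGroup (Fin n))
      fun a _ n hn => Normal.conj_mem inferInstance n hn a
    rwa [top_inf_eq] at this
  have hom := wr_inf_le_om j (sylow_perm_le_om P) (le_refl (alternatingGroup (Fin n)))
  have hs := simple_ofSub hT (fun e => hT.not_dvd (by
      haveI : Nontrivial (Fin n) := Fin.nontrivial_iff_two_le.2 (by omega)
      rw [e, relIndex_bot_left, ← Nat.mul_dvd_mul_iff_left two_pos, two_mul_nat_card_alternatingGroup,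
        Nat.card_perm, Nat.card_fin]
      exact Nat.dvd_factorial (by omega) h3))
    (le_of_stronglyClosed (by rw [Fintype.card_fin]; omega) hT hom) fun R hR g hg hn' => by
      rcases hp.eq_two_or_odd' with rfl | hodd
      · refine (hom.trans ((closure_le _).2 fun x hx => hR.pElt _ le_rfl x hx.1.2
          (le_normalizer hx.1) hx.2)) ⟨H64.mem_sylow_of_normalizes_inf (by simpa using hn)
            (wrSylow j hι P) g fun x hx hx' => ⟨((hn' x).1 ⟨hx, hx'⟩).1, ?_⟩, hg⟩
        have := ((inv_mem hn' x).1 ⟨hx, hx'⟩).1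
        rwa [inv_inv] at this
      have h5 : (wrS p P).map (viaEmbeddingHom j) ≤ alternatingGroup (Fin n) :=
        (sylow_perm_le_om (wrSylow j hι P)).trans ((closure_le _).2 fun x hx => by
          have := congrArg sign hx.2
          rwa [map_pow, Int.units_pow_eq_pow_mod_two, Nat.odd_iff.1 hodd, pow_one, map_one] at this)
      rw [inf_eq_left.2 h5] at hR hn' ⊢
      have hj : ∀ a ∉ Set.range j, ∀ b ∉ Set.range j, a = b := fun a ha b hb' => by
        refine (Set.ncard_le_one_iff (s := (Set.range j)ᶜ)).1 ?_ ha hb'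
        have := Set.ncard_add_ncard_compl (Set.range j)
        rw [Set.ncard_range_of_injective j.injective, Nat.card_prod, hι, Nat.card_zmod,
          Nat.card_fin] at this
        have := Nat.div_add_mod' n p
        omega
      obtain ⟨g, h6, rfl⟩ := exists_of_mem_normalizer j hj (fun z => ⟨_, sh_mem (one_mem _) 1,
        fun e => by simpa [sh] using congrArg Prod.snd e⟩) hn'
      exact (hR.comap j hodd hj).mem_top (by rintro rfl; exact absurd hodd (by decide)) hP h6
        ((sign_viaEmbeddingHom j g).symm.trans hg)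
  obtain ⟨k, hk⟩ := H92.fIso_ofSub_subgroupOf hT.le
  exact H62.simple_of_quot (MonoidHom.id _) Function.surjective_id hT.sylow (by simp)
    (hk.symm.isSimple hs) S

end Cfsg.Agent.S5165
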