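import Cfsg.Statements.S5171
import Cfsg.Agent.H62.SkFlag3
import Cfsg.Agent.H27.SkHInst

set_option autoImplicit false
open Cfsg

namespace Cfsg.Agent.S5171

open Subgroup Cfsg.Agent.H62 Cfsg.Agent.H27 Matrix


/-- For a finite field K of characteristic p and m ≥ 2, excluding the case m = 2 with K of two elements, the p-fusion system of the projective symplectic group PSp_{2m}(K) on a Sylow p-subgroup is simple. -/
theorem result {K : Type*} [Field K] [Fintype K] (p : ℕ) [Fact p.Prime] [CharP K p] (m : ℕ) (hm : 2 ≤ m) (hex : m = 2 → 3 ≤ Fintype.card K) (S : Sylow p (Cfsg.PSp m K)) : (Cfsg.groupFusionSystem (S : Subgroup (Cfsg.PSp m K))).IsSimple p := by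
  let ρ : symplecticGroup (Fin m) K →* ((Fin m ⊕ Fin m → K) ≃ₗ[K] (Fin m ⊕ Fin m → K)) :=
    (LinearMap.GeneralLinearGroup.generalLinearEquiv K _).toMonoidHom.comp (spRep m K).toHomUnits
  have hρ : ∀ g x, ρ g x = g.1 *ᵥ x := fun g x => spRep_apply g x
  have hG := GG_alt (B := sympBilin m K) sympBilin_isAlt sympBilin_nondegenerate.1
  have R : Rp ρ (sympBilin m K) :=
    ⟨skH_symp, fun a b h => sp_ext fun u => by rw [← hρ, ← hρ, h],
      fun g => hG ▸ fun x y => by rw [hρ, hρ, sympBilin_apply, sympBilin_apply, sp_sympForm],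
      fun g hg => by
        rw [hG] at hg
        obtain ⟨A, hA⟩ := exists_sp_of_isometry g.toLinearMap fun u v => by
          simpa only [sympBilin_apply, LinearEquiv.coe_coe] using hg u v
        exact ⟨A, LinearEquiv.ext fun x => (hρ A x).trans (hA x)⟩⟩
  refine R.simple p (by simp; omega) ?_ (fun _ => ?_) S
  · by_cases h2 : (2 : K) = 0
    · have : CharP K 2 := (CharP.charP_iff_prime_eq_zero Nat.prime_two).2 h2
      refine Or.inr fun a _ => ?_
      obtain ⟨d, hd⟩ := FiniteField.isSquare_of_char_two (ringChar.eq K 2) a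
      exact ⟨d, hd⟩
    · exact Or.inl ⟨sympBilin_isAlt, fun a _ => ⟨a / 2, by rw [RingHom.id_apply]; field_simp; ring⟩⟩
  · by_cases h : m = 2
    · classical
      obtain ⟨a, ha⟩ := Finset.exists_mem_notMem_of_card_lt_card (s := {0, 1})
        (t := (Finset.univ : Finset K)) (Finset.card_le_two.trans_lt (hex h))
      exact Or.inl ⟨a, by simpa using ha.2⟩
    · right; simp; omega

end Cfsg.Agent.S5171
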