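import Cfsg.Statements.S5172
import Cfsg.Agent.H62.SkFlag3
import Cfsg.Agent.H27.SkHInst

set_option autoImplicit false
open Cfsg

namespace Cfsg.Agent.S5172

open Subgroup Cfsg.Agent.H62 Cfsg.Agent.H27 Cfsg.Agent.H10 Matrix


/-- For a finite field K with q² elements of characteristic p and n ≥ 4, the p-fusion system of the projective special unitary group PSU_n(q) (realised over K) on a Sylow p-subgroup is simple. -/
theorem result {K : Type*} [Field K] [Fintype K] (p q : ℕ) [Fact p.Prime] [CharP K p] (hK : Fintype.card K = q ^ 2) (n : ℕ) (hn : 4 ≤ n) (S : Sylow p (Cfsg.PSU n K q)) : (Cfsg.groupFusionSystem (S : Subgroup (Cfsg.PSU n K q))).IsSimple p := by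
  have : Fact (Fintype.card K = q ^ 2) := ⟨hK⟩
  obtain ⟨ζ, h0, hζ⟩ := exists_skew (F := K) (q := q)
  let ρ : SU n K q →* ((Fin n → K) ≃ₗ[K] (Fin n → K)) :=
    SpecialLinearGroup.toLin'.comp (SU n K q).subtype
  have hρ : ∀ g x, ρ g x = g.1.1 *ᵥ x := fun g x => rfl
  have R : Rp ρ (suB n q ζ) :=
    ⟨skH_su (by omega) h0 hζ, fun a b h => Subtype.ext (Subtype.ext
        (toLin'.injective (LinearMap.ext fun u => by rw [toLin'_apply, toLin'_apply, ← hρ, ← hρ, h]))),
      fun g => ⟨fun x y => by rw [hρ, hρ, suB_apply, suB_apply]; exact congrArg _ (g.2 y x),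
        mem_SLV.2 ((LinearMap.det_toLin' g.1.1).trans g.1.2)⟩,
      fun g hg => ⟨⟨⟨LinearMap.toMatrix' g.toLinearMap,
        (LinearMap.det_toMatrix' _).trans (mem_SLV.1 hg.2)⟩,
        fun u v => by
          have := hg.1 v u
          rw [suB_apply, suB_apply, mul_right_inj' h0, ← LinearEquiv.coe_coe,
            ← LinearMap.toMatrix'_mulVec, ← LinearMap.toMatrix'_mulVec] at this
          exact this⟩, LinearEquiv.ext fun x => (hρ _ x).trans (LinearMap.toMatrix'_mulVec _ _)⟩⟩
  refine R.simple p (by simpa) (Or.inr fun a ha => ?_) (fun h => ?_) S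
  · obtain ⟨d, hd⟩ := exists_norm_eq ha
    exact ⟨d, by rw [← hd, mul_comm]⟩
  · obtain ⟨a, ha⟩ := exists_trace_eq_one (F := K) (q := q)
    exact absurd ((h a).symm.trans ha) zero_ne_one

end Cfsg.Agent.S5172
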