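import Cfsg.Statements.S5311
import Cfsg.Agent.H94.Sub
import Cfsg.Agent.H92.Iso4

set_option autoImplicit false
open Cfsg

namespace Cfsg.Agent.S5311

open Cfsg.Agent.H91 Cfsg.Agent.H94 in
/-- The layer of a saturated fusion system F over a finite p-group S is characteristic in F: for every automorphism α of S that is an automorphism of F (α and its inverse are morphisms from F to F) and every layer E of F over T, α carries T onto T and, for every map φ of E with source P, the map induced by α on α(P) (that is, α ∘ φ ∘ α⁻¹) is a map of E. -/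
theorem result {Ω : Type*} [Group Ω] {S : Subgroup Ω} [Finite S] (p : ℕ) [Fact p.Prime] (hS : IsPGroup p S) (F : Cfsg.FusionSystem S) (hF : F.IsSaturated p)
    (α : ↥S ≃* ↥S) (hα : F.IsMorphism F (S.subtype.comp α.toMonoidHom))
    (hα' : F.IsMorphism F (S.subtype.comp α.symm.toMonoidHom))
    {T : Subgroup Ω} (E : Cfsg.FusionSystem T) (hE : E.IsLayerOf F p) :
    Cfsg.FusionSystem.imageAlong (S.subtype.comp α.toMonoidHom) T = T ∧
      ∀ (P : Subgroup Ω) (φ : ↥P →* Ω), φ ∈ E.Hom P →
        ∀ φ' : ↥(Cfsg.FusionSystem.imageAlong (S.subtype.comp α.toMonoidHom) P) →* Ω,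
          Cfsg.FusionSystem.InducedAlong (S.subtype.comp α.toMonoidHom) φ φ' →
            φ' ∈ E.Hom (Cfsg.FusionSystem.imageAlong (S.subtype.comp α.toMonoidHom) P) := by
  have key : ∀ β : S ≃* S, F.IsMorphism F (S.subtype.comp β.toMonoidHom) → ∀ P f, M F P f →
      M F (im (efn β) P) (fun y => efn β (f (efn β.symm y))) := fun β hβ P f hf => by
    obtain ⟨f', hf', e⟩ := (H93.isMorphism_iff.1 hβ).2 P f hf
    refine hf'.congr fun y hy => ?_
    obtain ⟨x, hx, rfl⟩ := (mem_im_efn β hf.le).1 hy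
    rw [efn_symm_efn β (hf.le hx)]
    exact e x hx
  have h : H92.FIso F F (efn α) (efn α.symm) :=
    ⟨H92.gIso_efn α, key α hα _ _, key α.symm hα' _ _⟩
  have hT : T ≤ S := H92.normalIn_le hE.1
  obtain ⟨E', hE'⟩ := h.exists_sub hT E
  have hL := h.isLayerOf hE' hE
  have h1 : E'.IsSubsystemOf E := hL.2.2 _ E hE.1 hE.2.1
  have h2 : E.IsSubsystemOf E' := hE.2.2 _ E' hL.1 hL.2.1
  refine ⟨(H93.imageAlong_eq hT).trans
    (le_antisymm (le_of_isSubsystemOf h1) (le_of_isSubsystemOf h2)), fun P φ hφ φ' hi => ?_⟩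
  obtain ⟨hP, -, -, e⟩ := H93.inducedAlong_iff.1 hi
  have h3 := (hE'.fwd' (M.of_mem hφ) e).of_sub h1
  have h4 : im (efn α) P = _ := (H93.imageAlong_eq (θ := S.subtype.comp α.toMonoidHom) hP).symm
  rw [h4] at h3
  exact mem_Hom_iff.2 h3

end Cfsg.Agent.S5311
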