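import Cfsg.Statements.S5344
import Cfsg.Agent.H95.String3

set_option autoImplicit false
open Cfsg

namespace Cfsg.Agent.S5344

/-- In a set of 3-transpositions, let a, b, c be members with a and c different and commuting, while neither a nor c commutes with b (a 3-string). Then there is an injective homomorphism from the symmetric group of degree 4 into the ambient group sending the transpositions (0 1), (1 2), (2 3) to a, b, c; so a, b, c generate a copy of the symmetric group of degree 4 in which they are transpositions. -/
theorem result {G : Type*} [Group G] {D : Set G} (hD : Cfsg.IsThreeTranspositionSet D) {a b c : G} (ha : a ∈ D) (hb : b ∈ D) (hc : c ∈ D) (hac : a ≠ c) (hac' : Commute a c) (hab : ¬ Commute a b) (hbc : ¬ Commute b c) : ∃ φ : Equiv.Perm (Fin 4) →* G, Function.Injective φ ∧ φ (Equiv.swap 0 1) = a ∧ φ (Equiv.swap 1 2) = b ∧ φ (Equiv.swap 2 3) = c := by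
  obtain ⟨φ, h1, h2, h3⟩ := H95.exists_hom_perm4 (H95.TT.mul_self hD ha) (H95.TT.mul_self hD hb)
    (H95.TT.mul_self hD hc) (H95.TT.braid hD ha hb hab) (H95.TT.braid hD hb hc hbc) hac'
  exact ⟨φ, H95.perm4_injective φ (by rw [h1, h3]; exact hac), h1, h2, h3⟩

end Cfsg.Agent.S5344
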