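import Cfsg.Statements.S5345
import Cfsg.Agent.H95.TT

set_option autoImplicit false
open Cfsg

namespace Cfsg.Agent.S5345

/-- Let D be a conjugation-invariant generating set of 3-transpositions of a finite group G and T a Sylow 2-subgroup of G. Then the members of D lying in T generate an abelian subgroup, and their number is the width of D (the largest number of pairwise commuting members of D). -/
theorem result {G : Type*} [Group G] [Finite G] {D : Set G} (hD : Cfsg.IsThreeTranspositionGroup D) (T : Sylow 2 G) : IsMulCommutative (Subgroup.closure {d : G | d ∈ D ∧ d ∈ T}) ∧ {d : G | d ∈ D ∧ d ∈ T}.ncard = Cfsg.commutingWidth D := by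
  classical
  have hcomm : ∀ a ∈ {d : G | d ∈ D ∧ d ∈ T}, ∀ b ∈ {d : G | d ∈ D ∧ d ∈ T}, Commute a b :=
    fun a ha b hb => H95.TT.commute_of_isPGroup hD.1 (p := 2) (by decide) T.isPGroup' ha.1 hb.1
      (Subgroup.mul_mem _ ha.2 hb.2)
  refine ⟨Subgroup.isMulCommutative_closure (fun a ha b hb => (hcomm a ha b hb).eq), ?_⟩
  symm
  refine IsGreatest.csSup_eq ⟨⟨_, fun x hx => hx.1, Set.toFinite _, hcomm, rfl⟩, ?_⟩
  rintro n ⟨E, hE, -, hEc, rfl⟩
  have hP : IsPGroup 2 (Subgroup.closure E) := by
    have : ∀ x ∈ Subgroup.closure E, x * x = 1 := by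
      intro x hx
      induction hx using Subgroup.closure_induction with
      | mem x hx => exact H95.TT.mul_self hD.1 (hE hx)
      | one => simp
      | mul x y hx hy ihx ihy =>
        have hc : Commute x y := by
          have := Subgroup.isMulCommutative_closure (fun a ha b hb => (hEc a ha b hb).eq)
          exact congrArg Subtype.val (this.is_comm.comm ⟨x, hx⟩ ⟨y, hy⟩)
        calc x * y * (x * y) = x * (y * x) * y := by simp only [mul_assoc]
          _ = (x * x) * (y * y) := by rw [← hc.eq]; simp only [mul_assoc]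
          _ = 1 := by rw [ihx, ihy, one_mul]
      | inv x hx ih => rw [H95.inv_eq_of_mul_self ih, ih]
    intro x
    exact ⟨1, Subtype.ext (by simpa [pow_two] using this x x.2)⟩
  obtain ⟨S, hS⟩ := hP.exists_le_sylow
  obtain ⟨g, hg⟩ := MulAction.exists_smul_eq G S T
  refine Set.ncard_le_ncard_of_injOn (fun x => g * x * g⁻¹) ?_ ?_ (Set.toFinite _)
  · intro x hx
    refine ⟨hD.2.1 g x (hE hx), ?_⟩
    rw [← hg]
    exact ⟨x, hS (Subgroup.subset_closure hx), rfl⟩
  · intro x _ y _ h
    simpa using h

end Cfsg.Agent.S5345
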