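import Cfsg.Statements.S5346
import Cfsg.Agent.H95.VW

set_option autoImplicit false
open Cfsg

namespace Cfsg.Agent.S5346

/-- Let D be a conjugation-invariant generating set of 3-transpositions of a finite group G and d a member of D. Then D has width 1 (no two different members of D commute) if and only if G is the product of the subgroup generated by d with the largest normal 3-subgroup of G. -/
theorem result {G : Type*} [Group G] [Finite G] {D : Set G} (hD : Cfsg.IsThreeTranspositionGroup D) {d : G} (hd : d ∈ D) : Cfsg.commutingWidth D = 1 ↔ Subgroup.zpowers d ⊔ Cfsg.pCore 3 G = ⊤ := by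
  have hiff : Cfsg.commutingWidth D = 1 ↔ ∀ a ∈ D, ∀ b ∈ D, Commute a b → a = b := by
    have hbdd : BddAbove {n : ℕ | ∃ E : Set G, E ⊆ D ∧ E.Finite ∧
        (∀ a ∈ E, ∀ b ∈ E, Commute a b) ∧ E.ncard = n} := by
      refine ⟨Nat.card G, ?_⟩
      rintro n ⟨E, -, -, -, rfl⟩
      exact Set.ncard_le_card E
    constructor
    · intro h a ha b hb hab
      by_contra hne
      have : 2 ≤ Cfsg.commutingWidth D := by
        refine le_csSup hbdd ⟨{a, b}, ?_, Set.toFinite _, ?_, Set.ncard_pair hne⟩
        · rintro x (rfl | rfl) <;> assumption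
        · rintro x (rfl | rfl) y (rfl | rfl)
          exacts [Commute.refl _, hab, hab.symm, Commute.refl _]
      omega
    · intro h
      refine IsGreatest.csSup_eq ⟨⟨{d}, by simpa using hd, Set.toFinite _, by simp, by simp⟩, ?_⟩
      rintro n ⟨E, hE, -, hEc, rfl⟩
      exact (Set.ncard_le_one_iff_subsingleton).2
        (fun a ha b hb => h a (hE ha) b (hE hb) (hEc a ha b hb))
  rw [hiff]
  constructor
  · intro h
    have hr : H95.InvEquiv D (fun _ _ => True) :=
      ⟨fun _ _ => trivial, fun _ _ _ _ _ => trivial, fun _ _ _ _ _ _ _ _ => trivial,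
        fun _ _ _ _ _ _ => trivial⟩
    rw [eq_top_iff, ← hD.2.2, Subgroup.closure_le]
    intro e he
    have := hr.mem_pCore_three hD.1 hD.2.1 (fun a ha b hb _ => h a ha b hb) hd he trivial
    have h2 := Subgroup.mul_mem _ (Subgroup.mem_sup_left (Subgroup.mem_zpowers d))
      (Subgroup.mem_sup_right (S := Subgroup.zpowers d) this)
    rwa [H95.TT.cancel hD.1 hd] at h2
  · intro h a ha b hb hab
    have key : ∀ x ∈ D, (x : G ⧸ Cfsg.pCore 3 G) = d := by
      intro x hx
      have hx' : x ∈ Subgroup.zpowers d ⊔ Cfsg.pCore 3 G := h ▸ Subgroup.mem_top x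
      rw [← SetLike.mem_coe, Subgroup.mul_normal] at hx'
      obtain ⟨y, ⟨n, rfl⟩, z, hz, rfl⟩ := hx'
      simp only [QuotientGroup.mk_mul, (QuotientGroup.eq_one_iff z).2 hz, mul_one]
      have h2 : d ^ (2 : ℤ) = 1 := by
        rw [zpow_two, H95.TT.mul_self hD.1 hd]
      rcases Int.emod_two_eq_zero_or_one n with hn | hn
      · exfalso
        simp only [← zpow_mod_orderOf d n, hD.1.1 d hd, Nat.cast_ofNat, hn, zpow_zero,
          one_mul] at hx
        obtain ⟨k, hk⟩ := H44.pCore_isPGroup (p := 3) (G := G) ⟨z, hz⟩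
        have h3 := orderOf_dvd_of_pow_eq_one (x := z) (n := 3 ^ k)
          (by simpa using congrArg Subtype.val hk)
        rw [hD.1.1 z hx] at h3
        have := Nat.Prime.dvd_of_dvd_pow Nat.prime_two h3
        omega
      · rw [← zpow_mod_orderOf d n, hD.1.1 d hd, Nat.cast_ofNat, hn, zpow_one]
    refine H95.eq_of_commute_of_mul_mem_three hD.1 (H44.pCore_isPGroup (p := 3)) ha hb ?_ hab
    rw [← QuotientGroup.eq_one_iff, QuotientGroup.mk_mul, key a ha, key b hb,
      ← QuotientGroup.mk_mul, H95.TT.mul_self hD.1 hd, QuotientGroup.mk_one]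

end Cfsg.Agent.S5346
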