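import Cfsg.Statements.S5347
import Cfsg.Agent.H95.TT

set_option autoImplicit false
open Cfsg

namespace Cfsg.Agent.S5347

/-- Let D be a conjugation-invariant generating set of 3-transpositions of a finite group G, p a prime bigger than 3, and P a p-subgroup of G. If a member d of D normalizes P then d centralizes P. -/
theorem result {G : Type*} [Group G] [Finite G] {D : Set G} (hD : Cfsg.IsThreeTranspositionGroup D) {p : ℕ} (hp : p.Prime) (hp3 : 3 < p) (P : Subgroup G) (hP : IsPGroup p P) {d : G} (hd : d ∈ D) (hnorm : d ∈ Subgroup.normalizer (P : Set G)) : ∀ x ∈ P, Commute d x := by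
  intro x hx
  have h1 : d * (x * d * x⁻¹) ∈ P := by
    have : d * x * d⁻¹ ∈ P := (Subgroup.mem_normalizer_iff.1 hnorm x).1 hx
    rw [H95.TT.inv_eq hD.1 hd] at this
    simpa [mul_assoc] using P.mul_mem this (P.inv_mem hx)
  obtain ⟨k, hk⟩ := hP ⟨_, h1⟩
  have h2 : d = x * d * x⁻¹ := by
    refine H95.TT.eq_of_pow hD.1 hd (hD.2.1 x d hd) (n := p ^ k) ?_ ?_
      (by simpa using congrArg Subtype.val hk)
    · exact (hp.odd_of_ne_two (by omega)).pow
    · intro h3
      have := (Nat.prime_dvd_prime_iff_eq Nat.prime_three hp).1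
        (Nat.Prime.dvd_of_dvd_pow Nat.prime_three h3)
      omega
  show d * x = x * d
  conv_lhs => rw [h2]
  simp

end Cfsg.Agent.S5347
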