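import Cfsg.Statements.S5349
import Cfsg.Agent.H95.Cores

set_option autoImplicit false
open Cfsg

namespace Cfsg.Agent.S5349

/-- Let D be a conjugacy class of 3-transpositions generating the finite group G, with at least two members, and d a member of D. Then the set of members of D commuting with exactly the same members of D as d coincides with the set of members of D lying in the coset of d modulo the largest normal 2-subgroup of G, and also with the orbit of d under conjugation by that normal 2-subgroup. -/
theorem result {G : Type*} [Group G] [Finite G] {D : Set G} (hD : Cfsg.IsThreeTranspositionClass D) (hD2 : ∃ a ∈ D, ∃ b ∈ D, a ≠ b) {d : G} (hd : d ∈ D) : {v : G | v ∈ D ∧ ∀ e ∈ D, Commute v e ↔ Commute d e} = {v : G | v ∈ D ∧ d⁻¹ * v ∈ Cfsg.pCore 2 G} ∧ {v : G | v ∈ D ∧ ∀ e ∈ D, Commute v e ↔ Commute d e} = {v : G | ∃ g ∈ Cfsg.pCore 2 G, v = g * d * g⁻¹} := by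
  have hc := (H95.group_of_class hD).2.1
  constructor
  · ext v
    refine and_congr_right fun hv => ?_
    rw [H95.TT.inv_eq hD.1 hd, ← H95.vrel_iff_mem_pCore hD.1 hc hd hv]
    exact ⟨fun h => H95.VRel.symm h, fun h => h.symm⟩
  · ext v
    constructor
    · rintro ⟨hv, h⟩
      exact H95.exists_conj_pCore_two_of_vrel hD hD2 hd hv (H95.VRel.symm h)
    · rintro ⟨g, hg, rfl⟩
      exact ⟨hc g d hd, (H95.vrel_of_mul_mem hD.1 H44.pCore_isPGroup hd (hc g d hd)
        (H95.mul_conj_mem hD.1 hd hg)).symm⟩

end Cfsg.Agent.S5349
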