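import Cfsg.Statements.S5350
import Cfsg.Agent.H95.Cores

set_option autoImplicit false
open Cfsg

namespace Cfsg.Agent.S5350

/-- Let D be a conjugacy class of 3-transpositions generating the finite group G, with at least two members, and d a member of D. Then the set of members w of D whose commuting partners in D (other than w) are exactly those of d (other than d) coincides with the set of members of D lying in the coset of d modulo the largest normal 3-subgroup of G, and also with the orbit of d under conjugation by that normal 3-subgroup. -/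
theorem result {G : Type*} [Group G] [Finite G] {D : Set G} (hD : Cfsg.IsThreeTranspositionClass D) (hD2 : ∃ a ∈ D, ∃ b ∈ D, a ≠ b) {d : G} (hd : d ∈ D) : {w : G | w ∈ D ∧ {y : G | y ∈ D ∧ y ≠ d ∧ Commute d y} = {y : G | y ∈ D ∧ y ≠ w ∧ Commute w y}} = {w : G | w ∈ D ∧ d⁻¹ * w ∈ Cfsg.pCore 3 G} ∧ {w : G | w ∈ D ∧ {y : G | y ∈ D ∧ y ≠ d ∧ Commute d y} = {y : G | y ∈ D ∧ y ≠ w ∧ Commute w y}} = {w : G | ∃ g ∈ Cfsg.pCore 3 G, w = g * d * g⁻¹} := by
  have hc := (H95.group_of_class hD).2.1
  constructor
  · ext v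
    refine and_congr_right fun hv => ?_
    rw [H95.TT.inv_eq hD.1 hd, ← H95.wrel_iff_mem_pCore hD.1 hc hd hv, H95.wrel_iff]
  · ext v
    constructor
    · rintro ⟨hv, h⟩
      exact H95.exists_conj_of_mul_mem_three hD.1 H44.pCore_isPGroup hd hv
        (H95.mem_pCore_three_of_wrel hD.1 hc hd hv (H95.wrel_iff.1 h))
    · rintro ⟨g, hg, rfl⟩
      exact ⟨hc g d hd, H95.wrel_iff.2 (H95.wrel_of_mul_mem hD.1 H44.pCore_isPGroup hd (hc g d hd)
        (H95.mul_conj_mem hD.1 hd hg))⟩

end Cfsg.Agent.S5350
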