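import Cfsg.Statements.S5358
import Cfsg.Agent.H28.Refl

set_option autoImplicit false
open scoped MatrixGroups
open Cfsg

namespace Cfsg.Agent.S5358

/-- Let Q be a non-degenerate quadratic form on the n-dimensional coordinate space over the field with three elements and u, v vectors of the same non-zero norm Q(u) = Q(v) spanning different lines (v ≠ u and v ≠ −u). Then the reflection matrices of u and v commute if and only if u and v are orthogonal for the polar form of Q. -/
theorem result (n : ℕ) (Q : QuadraticForm (ZMod 3) (Fin n → ZMod 3)) (hQ : (QuadraticMap.polarBilin Q).Nondegenerate) (u v : Fin n → ZMod 3) (hu : Q u ≠ 0) (huv : Q u = Q v) (h1 : v ≠ u) (h2 : v ≠ -u) : Commute (Cfsg.reflectionMatrix (⇑Q) u) (Cfsg.reflectionMatrix (⇑Q) v) ↔ QuadraticMap.polar (⇑Q) u v = 0 := by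
  have e := H28.refl_conj (H28.refl Q u) v
  have hv : Q v ≠ 0 := huv ▸ hu
  constructor
  · intro h
    by_contra h0
    have h3 := congrArg (fun M => Matrix.mulVec M u) h.eq
    simp only [← Matrix.mulVec_mulVec] at h3
    change H28.rho Q (H28.refl Q u) (H28.rho Q (H28.refl Q v) u) =
      H28.rho Q (H28.refl Q v) (H28.rho Q (H28.refl Q u) u) at h3
    rw [H28.rho_refl_self hu, map_neg, H28.rho_refl v u, map_sub, map_smul, H28.rho_refl_self hu,
      H28.rho_refl u v, QuadraticMap.polar_comm Q v u, huv] at h3
    have h4 : (Q v)⁻¹ * QuadraticMap.polar Q u v ≠ 0 := mul_ne_zero (inv_ne_zero hv) h0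
    generalize (Q v)⁻¹ * QuadraticMap.polar Q u v = a at h3 h4
    have : a = 1 ∨ a = -1 := (by decide : ∀ a : ZMod 3, a ≠ 0 → a = 1 ∨ a = -1) a h4
    have h5 : ∀ x : Fin n → ZMod 3, x + x + x = 0 := fun x => funext fun i => by
      simp only [Pi.add_apply, Pi.zero_apply]; generalize x i = y; revert y; decide
    rcases this with rfl | rfl
    · simp only [one_smul] at h3
      exact h2 (by linear_combination (exp := 1) h3 + h5 v)
    · simp only [neg_smul, one_smul] at h3
      exact h1 (by linear_combination (exp := 1) -h3 + h5 v)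
  · intro h
    rw [H28.rho_refl_of_orth h, mul_inv_eq_iff_eq_mul] at e
    exact congrArg H28.mat e

end Cfsg.Agent.S5358
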