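import Cfsg.Statements.S5363
import Cfsg.Agent.H95.TT

set_option autoImplicit false
open Cfsg

namespace Cfsg.Agent.S5363

theorem aux {G : Type*} [Group G] {D : Set G} (hinv : ∀ d ∈ D, orderOf d = 2)
    (hconj : ∀ g : G, ∀ d ∈ D, g * d * g⁻¹ ∈ D) {a b : G} (ha : a ∈ D) (hb : b ∈ D) (m : ℕ) :
    a * (a * b) ^ m ∈ D := by
  have ha2 := H95.mul_self_of_orderOf (hinv a ha)
  have hb2 := H95.mul_self_of_orderOf (hinv b hb)
  induction m using Nat.twoStepInduction with
  | zero => simpa using ha
  | one => simpa [H95.mul_self_cancel_left ha2] using hb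
  | more m ih _ =>
    have := hconj (a * b)⁻¹ _ ih
    convert this using 1
    rw [inv_inv, mul_inv_rev, H95.inv_eq_of_mul_self ha2, H95.inv_eq_of_mul_self hb2,
      pow_succ, pow_succ']
    simp only [mul_assoc, H95.mul_self_cancel_left ha2]

theorem aux2 {G : Type*} [Group G] [Finite G] {D : Set G} (hinv : ∀ d ∈ D, orderOf d = 2)
    (h : ∀ a ∈ D, ∀ b ∈ D, Odd (orderOf (a * b)) ∨ orderOf (a * b) = 2) {a b y : G}
    (ha : a ∈ D) (hb : b ∈ D) (hy : y ∈ D) (hne : b ≠ a) (hab : Commute a b)
    (hc : Commute (a * b) y) : Commute a y := by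
  have ha2 := H95.mul_self_of_orderOf (hinv a ha)
  have hb2 := H95.mul_self_of_orderOf (hinv b hb)
  have hy2 := H95.mul_self_of_orderOf (hinv y hy)
  rcases h a ha y hy with h1 | h1
  swap
  · rw [H95.commute_iff_sq ha2 hy2, ← h1, pow_orderOf_eq_one]
  have ht : (a * b) * (a * b) = 1 := by
    rw [← pow_two]; exact (H95.commute_iff_sq ha2 hb2).1 hab
  have hby : b * y = (a * b) * (a * y) := by
    rw [mul_assoc, ← mul_assoc b a, ← hab.eq, mul_assoc, H95.mul_self_cancel_left ha2]
  have hcc : Commute (a * b) (a * y) :=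
    Commute.mul_right (Commute.mul_left (Commute.refl a) hab.symm) hc
  have key : ∀ n, Odd n → (b * y) ^ n = (a * b) * (a * y) ^ n := by
    rintro n ⟨k, rfl⟩
    rw [hby, hcc.mul_pow, pow_succ (a * b), pow_mul, pow_two, ht, one_pow, one_mul]
  rcases h b hb y hy with h2 | h2
  · exfalso
    have := key _ (h1.mul h2)
    rw [pow_mul (a * y), pow_orderOf_eq_one, one_pow, mul_one, mul_comm, pow_mul,
      pow_orderOf_eq_one, one_pow] at this
    exact hne (H95.eq_of_mul_eq_one' hb2 this.symm).symm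
  · rw [H95.commute_iff_sq ha2 hy2]
    have : (b * y) ^ 2 = 1 := by rw [← h2, pow_orderOf_eq_one]
    rwa [hby, hcc.mul_pow, pow_two, ht, one_mul] at this

/-- Let D be a conjugation-invariant set of involutions of a finite group G. Then every product of two members of D has odd order or order 2 if and only if, for every a in D and every b in D different from a and commuting with a, the members of D commuting with a b are exactly those commuting with both a and b. -/
theorem result {G : Type*} [Group G] [Finite G] {D : Set G} (hinv : ∀ d ∈ D, orderOf d = 2) (hconj : ∀ g : G, ∀ d ∈ D, g * d * g⁻¹ ∈ D) : (∀ a ∈ D, ∀ b ∈ D, Odd (orderOf (a * b)) ∨ orderOf (a * b) = 2) ↔ ∀ a ∈ D, ∀ b ∈ D, b ≠ a → Commute a b → {y : G | y ∈ D ∧ Commute (a * b) y} = {y : G | y ∈ D ∧ Commute a y} ∩ {y : G | y ∈ D ∧ Commute b y} := by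
  constructor
  · intro h a ha b hb hne hab
    ext y
    constructor
    · rintro ⟨hy, hc⟩
      exact ⟨⟨hy, aux2 hinv h ha hb hy hne hab hc⟩,
        ⟨hy, aux2 hinv h hb ha hy hne.symm hab.symm (hab.eq ▸ hc)⟩⟩
    · rintro ⟨⟨hy, h1⟩, ⟨-, h2⟩⟩
      exact ⟨hy, h1.mul_left h2⟩
  · intro h a ha b hb
    have ha2 := H95.mul_self_of_orderOf (hinv a ha)
    have hb2 := H95.mul_self_of_orderOf (hinv b hb)
    rcases Nat.even_or_odd (orderOf (a * b)) with ⟨m, hm⟩ | ho
    swap
    · exact Or.inl ho
    right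
    have hpos : 0 < orderOf (a * b) := orderOf_pos _
    have hz1 : (a * b) ^ m ≠ 1 := pow_ne_one_of_lt_orderOf (by omega) (by omega)
    have hz2 : (a * b) ^ m * (a * b) ^ m = 1 := by rw [← pow_add, ← hm, pow_orderOf_eq_one]
    have hsemi : ∀ c : G, SemiconjBy c (a * b) (a * b)⁻¹ → Commute ((a * b) ^ m) c := by
      intro c hc
      have := hc.pow_right m
      rw [inv_pow, H95.inv_eq_of_mul_self hz2] at this
      exact Commute.symm this
    have hza : Commute ((a * b) ^ m) a := by
      apply hsemi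
      show a * (a * b) = (a * b)⁻¹ * a
      rw [mul_inv_rev, H95.inv_eq_of_mul_self ha2, H95.inv_eq_of_mul_self hb2,
        H95.mul_self_cancel_left ha2, mul_assoc, ha2, mul_one]
    have hzb : Commute ((a * b) ^ m) b := by
      apply hsemi
      show b * (a * b) = (a * b)⁻¹ * b
      rw [mul_inv_rev, H95.inv_eq_of_mul_self ha2, H95.inv_eq_of_mul_self hb2, mul_assoc]
    have h1 := h a ha _ (aux hinv hconj ha hb m) (by simpa using hz1)
      (Commute.mul_right (Commute.refl a) hza.symm)
    have h2 : b ∈ {y : G | y ∈ D ∧ Commute (a * (a * (a * b) ^ m)) y} :=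
      ⟨hb, by rw [H95.mul_self_cancel_left ha2]; exact hzb⟩
    rw [h1] at h2
    have h3 := (H95.commute_iff_sq ha2 hb2).1 h2.1.2
    refine orderOf_eq_prime h3 ?_
    intro h4
    rw [h4] at hz1
    simp at hz1

end Cfsg.Agent.S5363
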