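import Cfsg.Statements.S5364
import Cfsg.Agent.H95.TT

set_option autoImplicit false
open Cfsg

namespace Cfsg.Agent.S5364

/-- Let D be a conjugation-invariant set of involutions of a finite group G and t an involution in the centre of G such that d t does not lie in D for any d in D. If the images of the members of D in G modulo the subgroup generated by t satisfy the 3-transposition order conditions (each has order 2 and any two have product of order at most 3), then so do the members of D. -/
theorem result {G : Type*} [Group G] [Finite G] {D : Set G} (hinv : ∀ d ∈ D, orderOf d = 2) (hconj : ∀ g : G, ∀ d ∈ D, g * d * g⁻¹ ∈ D) (t : G) (ht : orderOf t = 2) (htZ : t ∈ Subgroup.center G) (hDt : ∀ d ∈ D, d * t ∉ D) [(Subgroup.zpowers t).Normal] (himg : Cfsg.IsThreeTranspositionSet ((QuotientGroup.mk : G → G ⧸ Subgroup.zpowers t) '' D)) : Cfsg.IsThreeTranspositionSet D := by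
  classical
  refine ⟨hinv, fun d hd e he => ?_⟩
  have hd2 := H95.mul_self_of_orderOf (hinv d hd)
  have he2 := H95.mul_self_of_orderOf (hinv e he)
  have ht2 := H95.mul_self_of_orderOf ht
  have hz : ∀ x ∈ Subgroup.zpowers t, x = 1 ∨ x = t := by
    intro x hx
    rw [mem_zpowers_iff_mem_range_orderOf, ht] at hx
    obtain ⟨i, hi, rfl⟩ := Finset.mem_image.1 hx
    have : i < 2 := by simpa using hi
    interval_cases i <;> simp
  have hded : d * e * d ∈ D := by
    have := hconj d e he
    rwa [H95.inv_eq_of_mul_self hd2] at this
  have hede : e * d * e ∈ D := by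
    have := hconj e d hd
    rwa [H95.inv_eq_of_mul_self he2] at this
  rcases himg.2 _ ⟨d, hd, rfl⟩ _ ⟨e, he, rfl⟩ with h | h
  · left
    rw [← QuotientGroup.mk_mul, ← QuotientGroup.mk_pow, QuotientGroup.eq_one_iff] at h
    rcases hz _ h with h | h
    · exact h
    · exfalso
      apply hDt e he
      rw [Subgroup.mem_center_iff.1 htZ e, ← h]
      convert hded using 1
      simp only [pow_two, mul_assoc, he2, mul_one]
  · right
    rw [← QuotientGroup.mk_mul, ← QuotientGroup.mk_pow, QuotientGroup.eq_one_iff] at h
    rcases hz _ h with h | h
    · exact h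
    · exfalso
      apply hDt _ hede
      rw [Subgroup.mem_center_iff.1 htZ _, ← h]
      convert hded using 1
      simp only [pow_succ, pow_zero, one_mul, mul_assoc, he2, mul_one,
        H95.mul_self_cancel_left he2, H95.mul_self_cancel_left hd2]

end Cfsg.Agent.S5364
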