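import Cfsg.Statements.S5387
import Cfsg.Agent.H31.CoverUniq
import Cfsg.Agent.S2088

set_option autoImplicit false
open Cfsg

namespace Cfsg.Agent.S5387

theorem result {L₁ L₂ : Type*} [Group L₁] [Finite L₁] [Group L₂] [Finite L₂] (F : Type) [Field F] [Fintype F] (hF : Fintype.card F = 4) (h₁ : Cfsg.IsQuasisimple L₁) (h₂ : Cfsg.IsQuasisimple L₂) (hc₁ : Nat.card (Subgroup.center L₁) = 4) (hc₂ : Nat.card (Subgroup.center L₂) = 4) (he₁ : ∀ x ∈ Subgroup.center L₁, x * x = 1) (he₂ : ∀ x ∈ Subgroup.center L₂, x * x = 1) (e₁ : L₁ ⧸ Subgroup.center L₁ ≃* Matrix.ProjectiveSpecialLinearGroup (Fin 3) F) (e₂ : L₂ ⧸ Subgroup.center L₂ ≃* Matrix.ProjectiveSpecialLinearGroup (Fin 3) F) : Nonempty (L₁ ≃* L₂) := by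
  classical
  have k₁ : (e₁.toMonoidHom.comp (QuotientGroup.mk' (Subgroup.center L₁))).ker =
      Subgroup.center L₁ := by
    ext x; simp [MonoidHom.mem_ker]
  have k₂ : (e₂.toMonoidHom.comp (QuotientGroup.mk' (Subgroup.center L₂))).ker =
      Subgroup.center L₂ := by
    ext x; simp [MonoidHom.mem_ker]
  have hT : ∀ a : ZMod 3 × ZMod 4 × ZMod 4, ∃ t ∈ ({(0, 0, 0), (0, 0, 1), (0, 1, 0), (0, 1, 1)} :
      Finset (ZMod 3 × ZMod 4 × ZMod 4)), ∃ b, a = t + (b + b) := by decide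
  refine H31.cover_unique (S2088.result hF) h₁.1 h₂.1
    (e₁.surjective.comp (QuotientGroup.mk'_surjective _))
    (e₂.surjective.comp (QuotientGroup.mk'_surjective _)) k₁.le k₂.le 2
    (fun x hx => by rw [pow_two]; exact he₁ x (k₁ ▸ hx))
    (fun x hx => by rw [pow_two]; exact he₂ x (k₂ ▸ hx))
    (({(0, 0, 0), (0, 0, 1), (0, 1, 0), (0, 1, 1)} : Finset (ZMod 3 × ZMod 4 × ZMod 4)).map
      Multiplicative.ofAdd.toEmbedding) (fun a => ?_) ?_ ?_
  · obtain ⟨t, ht, b, e⟩ := hT a.toAdd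
    exact ⟨Multiplicative.ofAdd t, Finset.mem_map_of_mem _ ht, Multiplicative.ofAdd b, by
      rw [pow_two, ← ofAdd_add, ← ofAdd_add, ← e, ofAdd_toAdd]⟩
  · rw [k₁, hc₁, Finset.card_map]; decide
  · rw [k₂, hc₂, Finset.card_map]; decide

end Cfsg.Agent.S5387
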