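import Cfsg.Statements.S5392
import Cfsg.Agent.H15.Mod2

set_option autoImplicit false
open Cfsg

namespace Cfsg.Agent.S5392

/-- The Leech lattice modulo twice itself is a faithful irreducible module for the first Conway group: an automorphism of the rank-24 lattice built from the length-24 code that moves every lattice vector only by twice a lattice vector lies in the centre of the automorphism group (the centre consists of ±1, which act trivially there, so the kernel is exactly the centre), and an additive subgroup lying between twice the lattice and the lattice that is invariant under all lattice automorphisms is one of the two. -/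
theorem result : (∀ g : ↥Cfsg.Co0, (∀ v : ↥Cfsg.leechLattice, ∃ w : ↥Cfsg.leechLattice, ((g • v : ↥Cfsg.leechLattice) : Cfsg.GolayPt → ℤ) - (v : Cfsg.GolayPt → ℤ) = 2 • (w : Cfsg.GolayPt → ℤ)) → g ∈ Subgroup.center ↥Cfsg.Co0) ∧ ∀ M : AddSubgroup (Cfsg.GolayPt → ℤ), (∀ v ∈ Cfsg.leechLattice, (2 : ℤ) • v ∈ M) → M ≤ Cfsg.leechLattice → (∀ g : ↥Cfsg.Co0, ∀ v : ↥Cfsg.leechLattice, (v : Cfsg.GolayPt → ℤ) ∈ M → ((g • v : ↥Cfsg.leechLattice) : Cfsg.GolayPt → ℤ) ∈ M) → (∀ x ∈ M, ∃ w ∈ Cfsg.leechLattice, x = (2 : ℤ) • w) ∨ M = Cfsg.leechLattice := by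
  refine ⟨fun g hg => H15.mem_center_of_pm fun w hw => ?_, fun M h2 hM hinv => ?_⟩
  · obtain ⟨z, hz⟩ := hg w
    have h1 := H15.co0_norm g w
    rcases (S5551.result _ _ (g • w).2 w.2 (H15.ne_zero_of_norm (h1.trans hw) (by norm_num))
      (H15.ne_zero_of_norm hw (by norm_num)) (by omega) (by omega) ⟨z, z.2, hz⟩).2 (by omega) with h | h
    · exact Or.inl (Subtype.ext h.symm)
    · exact Or.inr (Subtype.ext (by rw [AddSubgroup.coe_neg, h, neg_neg]))
  · by_cases h : ∀ x ∈ M, ∃ w ∈ leechLattice, x = (2 : ℤ) • w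
    · exact Or.inl h
    refine Or.inr (le_antisymm hM (H15.leech_le_of_min M fun v hv => ?_))
    push Not at h
    obtain ⟨x, hx, hx2⟩ := h
    obtain ⟨y, z, e, hy⟩ := H15.exists_short' ⟨x, hM hx⟩
    have e' : x = y + (2 : ℤ) • (z : H15.Vec) := by rw [two_smul]; exact congrArg Subtype.val e
    have hyM : (y : H15.Vec) ∈ M := by
      have := M.sub_mem hx (h2 z z.2)
      rwa [e', add_sub_cancel_right] at this
    have h32 : ∀ u : leechLattice, sqNorm (u : H15.Vec) = 32 → (u : H15.Vec) ∈ M →
        (v : H15.Vec) ∈ M := fun u hu huM => by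
      obtain ⟨g, rfl⟩ := H15.trans32 u v hu hv
      exact hinv g u huM
    rcases hy with rfl | hy | hy | hy
    · exact absurd (by simpa using e') (hx2 z z.2)
    · exact h32 y hy hyM
    · obtain ⟨g, hg⟩ := H15.trans48 y H15.vv hy H15.sqNorm_vv
      obtain ⟨k, hk⟩ := H15.trans48 y (H15.vv + H15.uu) hy (by decide +kernel)
      refine h32 H15.uu H15.sqNorm_uu ?_
      have := M.sub_mem (hinv k y hyM) (hinv g y hyM)
      rwa [hg, hk, AddSubgroup.coe_add, add_sub_cancel_left] at this
    · obtain ⟨g, hg⟩ := H15.trans64 y (H15.uP + H15.w4 (some 1) (some 2) 1 rfl) hy (by decide +kernel)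
      obtain ⟨k, hk⟩ := H15.trans64 y (H15.uP + H15.w4 (some 1) (some 3) 1 rfl) hy (by decide +kernel)
      refine h32 (H15.w4 (some 1) (some 3) 1 rfl - H15.w4 (some 1) (some 2) 1 rfl) (by decide +kernel) ?_
      have := M.sub_mem (hinv k y hyM) (hinv g y hyM)
      rwa [hg, hk, AddSubgroup.coe_add, AddSubgroup.coe_add, add_sub_add_left_eq_sub] at this

end Cfsg.Agent.S5392
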