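import Cfsg.Statements.S5393
import Cfsg.Agent.H14.Mathieu

set_option autoImplicit false
open Cfsg

namespace Cfsg.Agent.S5393

open Cfsg.Agent.H14
open scoped Pointwise

theorem support_comp (σ : Equiv.Perm GolayPt) (w : GolayPt → ZMod 2) :
    support₂ (fun p => w (σ.symm p)) = σ • support₂ w := by
  ext a
  rw [mem_perm_smul_finset]
  simp [support₂, Equiv.Perm.inv_def]


/-- The length-24 code built from the squares modulo 23 contains the all-ones word, and the code modulo the all-ones word is an irreducible module over the field with two elements for the code's automorphism group: a subspace of the code that contains the all-ones word and is invariant under every coordinate permutation preserving the code is either the span of the all-ones word or the whole code. -/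
theorem result : (fun _ : Cfsg.GolayPt => (1 : ZMod 2)) ∈ Cfsg.golayCode ∧ ∀ W : Submodule (ZMod 2) (Cfsg.GolayPt → ZMod 2), (fun _ => (1 : ZMod 2)) ∈ W → W ≤ Cfsg.golayCode → (∀ σ ∈ Cfsg.M24, ∀ w ∈ W, (fun p => w (σ.symm p)) ∈ W) → W = Submodule.span (ZMod 2) {fun _ => (1 : ZMod 2)} ∨ W = Cfsg.golayCode := by
  have h1 : (fun _ : GolayPt => (1 : ZMod 2)) = word 16777215 := by rw [word_full]; rfl
  refine ⟨by rw [h1]; exact word_mem_iff_bits.2 (bits_mem_of_enc (by decide +kernel)),
    fun W hW1 hWC hinv => ?_⟩
  have move : ∀ {a b : ℕ}, word a ∈ W → (∃ g ∈ M24, g • bits a = bits b) → word b ∈ W := by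
    rintro a b ha ⟨g, hg, hab⟩
    have := hinv g hg _ ha
    rwa [← support₂_injective (show support₂ (word b) = support₂ (fun p => word a (g.symm p)) by
      rw [support_comp, support_word, support_word, hab])] at this
  have oct : ∀ {a : ℕ}, word a ∈ W → bits a ∈ octads → W = golayCode := by
    intro a ha ho
    refine le_antisymm hWC fun w hw => ?_
    obtain ⟨x, -, rfl⟩ := mem_golayCode_iff.1 hw
    rw [enc_eq]
    exact word_encL_mem W _ (fun r hr => move ha (m24_octad_transitive ho (rows_octads r hr))) x
  by_cases hW : W ≤ Submodule.span (ZMod 2) {fun _ => (1 : ZMod 2)}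
  · exact Or.inl (le_antisymm hW (by rwa [Submodule.span_singleton_le_iff_mem]))
  right
  obtain ⟨w, hw, hn⟩ := SetLike.not_le_iff_exists.1 hW
  obtain ⟨x, hx, rfl⟩ := mem_golayCode_iff.1 (hWC hw)
  have hb := bits_enc_mem x
  rcases (enc_facts x hx).2.2.2 with h | h | h | h | h
  · rw [← card_bits, Finset.card_eq_zero, ← bits_zero, ← support_word, ← support_word] at h
    rw [support₂_injective h, word_zero] at hn
    exact absurd (Submodule.zero_mem _) hn
  · exact oct hw ⟨hb, by rw [card_bits, h]⟩
  · have hd : bits (enc x) ∈ dodecads := ⟨hb, by rw [card_bits, h]⟩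
    have ha := move hw (m24_dodecad_transitive hd (bits_mem_dodecads (m := 8245261)
      (by decide +kernel) (by decide +kernel)))
    have hc := move hw (m24_dodecad_transitive hd (bits_mem_dodecads (m := 15953934)
      (by decide +kernel) (by decide +kernel)))
    have he := W.add_mem ha hc
    rw [← word_xor] at he
    exact oct he (bits_mem_octads (by decide +kernel) (by decide +kernel))
  · have he := W.add_mem hw (h1 ▸ hW1)
    rw [← word_xor] at he
    refine oct he ⟨word_mem_iff_bits.1 (hWC he), ?_⟩
    rw [bits_compl, Finset.card_compl, card_bits, h, card_golayPt]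
  · rw [← card_bits, ← card_golayPt, Finset.card_eq_iff_eq_univ, ← bits_full, ← support_word,
      ← support_word] at h
    rw [support₂_injective h, ← h1] at hn
    exact absurd (Submodule.mem_span_singleton_self _) hn

end Cfsg.Agent.S5393
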