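import Cfsg.Statements.S5396
import Cfsg.Agent.S3763

set_option autoImplicit false
open Cfsg

namespace Cfsg.Agent.S5396

open scoped commutatorElement

variable {V : Type} [AddCommGroup V] [Module (ZMod 2) V]

/-- central extension of `V` by `ZMod 2` with bilinear cocycle `β` -/
@[ext] structure Hs (β : LinearMap.BilinForm (ZMod 2) V) where
  v : V
  s : ZMod 2

instance (β : LinearMap.BilinForm (ZMod 2) V) : Mul (Hs β) :=
  ⟨fun a b => ⟨a.v + b.v, a.s + b.s + β a.v b.v⟩⟩
instance (β : LinearMap.BilinForm (ZMod 2) V) : One (Hs β) := ⟨⟨0, 0⟩⟩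
instance (β : LinearMap.BilinForm (ZMod 2) V) : Inv (Hs β) := ⟨fun a => ⟨-a.v, -a.s + β a.v a.v⟩⟩

variable {β : LinearMap.BilinForm (ZMod 2) V}

@[simp] theorem mul_v (a b : Hs β) : (a * b).v = a.v + b.v := rfl
@[simp] theorem mul_s (a b : Hs β) : (a * b).s = a.s + b.s + β a.v b.v := rfl
@[simp] theorem one_v : (1 : Hs β).v = 0 := rfl
@[simp] theorem one_s : (1 : Hs β).s = 0 := rfl
@[simp] theorem inv_v (a : Hs β) : a⁻¹.v = -a.v := rfl
@[simp] theorem inv_s (a : Hs β) : a⁻¹.s = -a.s + β a.v a.v := rfl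

instance : Group (Hs β) := Group.ofLeftAxioms
  (fun a b c => by
    ext
    · simp [add_assoc]
    · simp only [mul_s, mul_v, map_add, LinearMap.add_apply]; ring)
  (fun a => by ext <;> simp) (fun a => by
    ext
    · simp
    · simp only [mul_s, inv_s, inv_v, one_s, map_neg, LinearMap.neg_apply]; ring)

instance [Finite V] : Finite (Hs β) :=
  Finite.of_injective (fun a : Hs β => (a.v, a.s)) fun _ _ h =>
    Hs.ext (congrArg Prod.fst h) (congrArg Prod.snd h)

/-- the extraspecial data -/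
def hsData (β : LinearMap.BilinForm (ZMod 2) V) : H3.ESData 2 (Hs β) V where
  π a := a.v
  π_mul _ _ := rfl
  π_surj v := ⟨⟨v, 0⟩, rfl⟩
  ζ s := ⟨0, s⟩
  ζ_add s t := by ext <;> simp
  ζ_inj _ _ h := congrArg Hs.s h
  π_eq_zero_iff a := ⟨fun h => ⟨a.s, Hs.ext h.symm rfl⟩, by rintro ⟨s, rfl⟩; rfl⟩
  ζ_comm s a := by ext <;> simp [add_comm]
  B := β - β.flip
  comm_eq a b := by
    rw [commutatorElement_def]
    ext
    · simp
    · simp only [mul_s, mul_v, inv_s, inv_v, map_add, map_neg, LinearMap.add_apply,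
        LinearMap.neg_apply, LinearMap.sub_apply, LinearMap.BilinForm.flip_apply]
      ring
  f v := β v v
  pow_eq a := by
    rw [pow_two]
    ext
    · rw [mul_v, ← two_smul (ZMod 2), show (2 : ZMod 2) = 0 from rfl, zero_smul]
    · rw [mul_s, CharTwo.add_self_eq_zero, zero_add]

theorem exists_es [Finite V] (Q : QuadraticForm (ZMod 2) V)
    (hQ : (QuadraticMap.polarBilin Q).Nondegenerate) (n m : ℕ) (hn : 1 ≤ n)
    (hV : Module.finrank (ZMod 2) V = 2 * n)
    (h1 : ∃ U : Submodule (ZMod 2) V, (∀ u ∈ U, Q u = 0) ∧ Module.finrank (ZMod 2) U = m)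
    (h2 : ∀ U : Submodule (ZMod 2) V, (∀ u ∈ U, Q u = 0) → Module.finrank (ZMod 2) U ≤ m) :
    ∃ (E : Type) (_ : Group E) (_ : Finite E), Cfsg.IsExtraspecial 2 E ∧
      Nat.card E = 2 ^ (2 * n + 1) ∧
      sSup {k : ℕ | ∃ A : Subgroup E, Cfsg.IsElementaryAbelian 2 A ∧ Nat.card A = 2 ^ k} = m + 1 := by
  let β := Q.toBilin (Module.finBasis (ZMod 2) V)
  have hq : (hsData β).quad = Q := by
    ext v
    exact DFunLike.congr_fun (Q.toQuadraticMap_toBilin (Module.finBasis (ZMod 2) V)) v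
  have : Nontrivial V := Module.nontrivial_of_finrank_pos (R := ZMod 2) (by omega)
  refine ⟨Hs β, inferInstance, inferInstance, (hsData β).isExtraspecial ?_, ?_, ?_⟩
  · rw [← H3.ESData.polarBilin_quad, hq]; exact hQ
  · rw [(hsData β).card_eq, Module.natCard_eq_pow_finrank (K := ZMod 2), Nat.card_zmod, hV,
      pow_succ]
  obtain ⟨a, b⟩ := S3763.rank_iff (hsData β) (LinearEquiv.refl _ _) Q (fun v => by rw [hq]; rfl)
    m h1 h2
  refine IsGreatest.csSup_eq ⟨?_, ?_⟩
  · unfold PRankLE at b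
    push Not at b
    obtain ⟨A, hA1, hA2, hA3⟩ := b
    obtain ⟨k, hk⟩ := ((hsData β).isPGroup.to_subgroup A).exists_card_eq
    have h4 := a A hA1 hA2
    rw [hk] at hA3 h4
    rw [Nat.pow_lt_pow_iff_right one_lt_two] at hA3
    rw [Nat.pow_le_pow_iff_right one_lt_two] at h4
    exact ⟨A, ⟨hA1, hA2⟩, by rw [hk, show k = m + 1 by omega]⟩
  · rintro k ⟨A, hA, hk⟩
    have h4 := a A hA.1 hA.2
    rwa [hk, Nat.pow_le_pow_iff_right one_lt_two] at h4

/-- For every n ≥ 1 there exist finite extraspecial 2-groups of order 2^(2n+1) whose 2-rank (the largest rank of an elementary abelian subgroup) is n, and ones whose 2-rank is n + 1 (so for each such order there are two non-isomorphic extraspecial 2-groups, told apart by their 2-rank). -/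
theorem result (n : ℕ) (hn : 1 ≤ n) : ∀ r ∈ ({n, n + 1} : Set ℕ), ∃ (E : Type) (_ : Group E) (_ : Finite E), Cfsg.IsExtraspecial 2 E ∧ Nat.card E = 2 ^ (2 * n + 1) ∧ sSup {k : ℕ | ∃ A : Subgroup E, Cfsg.IsElementaryAbelian 2 A ∧ Nat.card A = 2 ^ k} = r := by
  intro r hr
  rcases hr with rfl | rfl
  · have := exists_es (H67.QMinus (ZMod 2) (r - 1) 1 1) (H67.QMinus_nondegenerate _ S3763.hab) r
      (r - 1) hn (by simp; omega) (by rw [H67.coe_QMinus]; exact H67.exists_totally_singular_minus _ _ _)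
      (by rw [H67.coe_QMinus]; exact H67.finrank_le_of_totally_singular_minus _ S3763.hab)
    rwa [Nat.sub_add_cancel hn] at this
  · exact exists_es (H67.QPlus (ZMod 2) n) (H67.QPlus_nondegenerate _) n n hn (by simp; omega)
      (by rw [H67.coe_QPlus]; exact H67.exists_totally_singular_plus _)
      (by rw [H67.coe_QPlus]; exact H67.finrank_le_of_totally_singular_plus _)

end Cfsg.Agent.S5396
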