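import Cfsg.Statements.S5408
import Cfsg.Agent.H15.Monster2

set_option autoImplicit false
open Cfsg

namespace Cfsg.Agent.S5408

/-- Let G be a finite group of Monster type at the involution z with Q the extraspecial normal subgroup of order 2^25 of C = C_G(z) (so C/Q is identified with the first Conway group with Q modulo its centre the Leech lattice modulo 2, and z is not weakly closed in Q). Then Q is of plus type: it contains an elementary abelian subgroup of order 2^13. -/
theorem result {G : Type*} [Group G] [Finite G] (z : G) (Q : Subgroup (Subgroup.centralizer ({z} : Set G))) [Q.Normal] (hM : Cfsg.IsOfMonsterType z Q) : ∃ E : Subgroup Q, Cfsg.IsElementaryAbelian 2 E ∧ Nat.card E = 2 ^ 13 := by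
  obtain ⟨h0, e, ψ, hψ⟩ := hM
  have M := H15.md_of_iso h0 hψ
  obtain ⟨g, ⟨h1, h2⟩, h3⟩ := h0.2.2.2.2
  have hs : g * z * g⁻¹ ∈ Q.map (Subgroup.centralizer ({z} : Set G)).subtype := ⟨_, h2, rfl⟩
  obtain ⟨k, hk⟩ := M.exists_twist hs h3
  have hc := ((M.twist k).pb_A hs h3 hk).2
  set Q' := Q.map (Subgroup.centralizer ({z} : Set G)).subtype
  let f : Q ≃* Q' :=
    Q.equivMapOfInjective _ (Subgroup.centralizer ({z} : Set G)).subtype_injective
  have hm : ∀ a : Q, a ∈ ((Q' ⊓ H15.cjs g Q').subgroupOf Q').comap f.toMonoidHom →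
      ((a : Subgroup.centralizer ({z} : Set G)) : G) ∈ Q' ⊓ H15.cjs g Q' := fun a ha => ha
  refine ⟨((Q' ⊓ H15.cjs g Q').subgroupOf Q').comap f.toMonoidHom, ⟨⟨⟨fun a b => ?_⟩⟩, fun a ha => ?_⟩, ?_⟩
  · exact Subtype.ext (Subtype.ext (Subtype.ext
      (M.comm_inf h3 (hm _ a.2).1 (hm _ a.2).2 (hm _ b.2).1 (hm _ b.2).2)))
  · apply Subtype.ext
    apply Subtype.ext
    rw [pow_two]
    rcases M.lx.sqr _ (hm a ha).1 with e | e
    · exact e
    rcases (M.cj g).lx.sqr _ (hm a ha).2 with e' | e'
    · exact e'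
    · exact absurd (e'.symm.trans e) h3
  · rw [MulEquiv.toMonoidHom_eq_coe, Subgroup.comap_equiv_eq_map_symm,
      Subgroup.card_map_of_injective f.symm.injective,
      Nat.card_congr (Subgroup.subgroupOfEquivOfLe inf_le_left).toEquiv, hc]

end Cfsg.Agent.S5408
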