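import Cfsg.Statements.S5410
import Cfsg.Agent.H15.Monster2

set_option autoImplicit false
open Cfsg

namespace Cfsg.Agent.S5410

open Subgroup in
theorem aux {Y : Type*} [Group Y] (f : Y ≃* Spor.Co1) (X E : Subgroup Y)
    (hX : (X.map f.toMonoidHom).comap (QuotientGroup.mk' _) = H15.monoN)
    (hE : (E.map f.toMonoidHom).comap (QuotientGroup.mk' _) = H15.signG) :
    E ≤ X ∧ (∀ x ∈ X, ∀ y ∈ E, x * y * x⁻¹ ∈ E) ∧ Cfsg.IsElementaryAbelian 2 E ∧
      Nat.card E = 2 ^ 11 ∧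
      ∃ K : Subgroup Y, K ≤ X ∧ E ⊓ K = ⊥ ∧ E ⊔ K = X ∧ Nonempty (K ≃* Cfsg.M24) := by
  let θ : Co0 →* Y := f.symm.toMonoidHom.comp (QuotientGroup.mk' _)
  have hθ : Function.Surjective θ := f.symm.surjective.comp (QuotientGroup.mk'_surjective _)
  have key : ∀ (Z : Subgroup Y) (k : Co0),
      θ k ∈ Z ↔ k ∈ (Z.map f.toMonoidHom).comap (QuotientGroup.mk' _) := fun Z k => by
    rw [mem_comap, mem_map_equiv]; rfl
  have mX : ∀ k, θ k ∈ X ↔ k ∈ H15.monoN := fun k => by rw [key, hX]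
  have mE : ∀ k, θ k ∈ E ↔ k ∈ H15.signG := fun k => by rw [key, hE]
  have hinj : ∀ σ : M24, θ (H15.permC σ) ∈ E → σ = 1 := fun σ h =>
    H15.permC_mem_signG ((mE _).1 h)
  refine ⟨fun y hy => ?_, fun x hx y hy => ?_, ⟨⟨⟨fun a b => Subtype.ext ?_⟩⟩, fun a ha => ?_⟩, ?_,
    (θ.comp H15.permHom).range, ?_, ?_, ?_, ⟨(MonoidHom.ofInjective ?_).symm⟩⟩
  · obtain ⟨y, rfl⟩ := hθ y
    exact (mX y).2 (H15.signG_le ((mE y).1 hy))
  · obtain ⟨x, rfl⟩ := hθ x
    obtain ⟨y, rfl⟩ := hθ y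
    rw [← map_inv, ← map_mul, ← map_mul, mE]
    exact H15.conj_mem_signG ((mX x).1 hx) ((mE y).1 hy)
  · obtain ⟨a, ha⟩ := a
    obtain ⟨b, hb⟩ := b
    obtain ⟨a, rfl⟩ := hθ a
    obtain ⟨b, rfl⟩ := hθ b
    show θ a * θ b = θ b * θ a
    rw [← map_mul, ← map_mul, H15.signG_comm ((mE a).1 ha) ((mE b).1 hb)]
  · obtain ⟨a, rfl⟩ := hθ a
    rw [pow_two, ← map_mul, H15.signG_sq ((mE a).1 ha), map_one]
  · have := H15.card_comap_co1 (E.map f.toMonoidHom)
    rw [hE, H15.card_signG, card_map_of_injective f.injective] at this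
    omega
  · rintro _ ⟨σ, rfl⟩
    exact (mX _).2 (H15.permC_mem_monoN σ)
  · rw [eq_bot_iff]
    rintro _ ⟨h, σ, rfl⟩
    rw [hinj σ h, map_one]
    exact one_mem _
  · refine le_antisymm (sup_le (fun y hy => ?_) ?_) fun x hx => ?_
    · obtain ⟨y, rfl⟩ := hθ y
      exact (mX y).2 (H15.signG_le ((mE y).1 hy))
    · rintro _ ⟨σ, rfl⟩
      exact (mX _).2 (H15.permC_mem_monoN σ)
    · obtain ⟨x, rfl⟩ := hθ x
      obtain ⟨σ, c, hc, rfl⟩ := (mX x).1 hx
      rw [map_mul]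
      exact mul_mem_sup ((mE _).2 (H15.signC_mem_signG c hc)) ⟨σ, rfl⟩
  · rw [injective_iff_map_eq_one]
    exact fun σ h => hinj σ (by rw [show θ (H15.permC σ) = 1 from h]; exact one_mem _)

/-- Let G be a finite group of Monster type at the involution z with Q the extraspecial normal subgroup of order 2^25 of C = C_G(z) (so C/Q is identified with the first Conway group with Q modulo its centre the Leech lattice modulo 2, and z is not weakly closed in Q). Let g in G with s = g z g⁻¹ a member of Q other than z, let X be the image in C/Q of the centralizer of s in C, and let E be the image in C/Q of the intersection of g Q g⁻¹ with C. Then E is a normal subgroup of X, elementary abelian of order 2^11, and it has a complement in X isomorphic to the Mathieu group of degree 24 (the automorphism group of the length-24 binary Golay code). -/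
theorem result {G : Type*} [Group G] [Finite G] (z : G) (Q : Subgroup (Subgroup.centralizer ({z} : Set G))) [Q.Normal] (hM : Cfsg.IsOfMonsterType z Q) (s : G) (hsQ : ∃ hsc : s ∈ Subgroup.centralizer ({z} : Set G), (⟨s, hsc⟩ : Subgroup.centralizer ({z} : Set G)) ∈ Q) (hs : IsConj z s) (hs1 : s ≠ z) (g : G) (hg : g * z * g⁻¹ = s) (X E : Subgroup ((Subgroup.centralizer ({z} : Set G)) ⧸ Q)) (hX : X = ((Subgroup.centralizer ({z} : Set G) ⊓ Subgroup.centralizer ({s} : Set G)).subgroupOf (Subgroup.centralizer ({z} : Set G))).map (QuotientGroup.mk' Q)) (hE : E = (((Q.map (Subgroup.centralizer ({z} : Set G)).subtype).map (MulAut.conj g).toMonoidHom ⊓ Subgroup.centralizer ({z} : Set G)).subgroupOf (Subgroup.centralizer ({z} : Set G))).map (QuotientGroup.mk' Q)) : E ≤ X ∧ (∀ x ∈ X, ∀ y ∈ E, x * y * x⁻¹ ∈ E) ∧ Cfsg.IsElementaryAbelian 2 E ∧ Nat.card E = 2 ^ 11 ∧ ∃ K : Subgroup ((Subgroup.centralizer ({z} : Set G)) ⧸ Q), K ≤ X ∧ E ⊓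 K = ⊥ ∧ E ⊔ K = X ∧ Nonempty (K ≃* Cfsg.M24) := by
  obtain ⟨h0, e, ψ, hψ⟩ := hM
  have M := H15.md_of_iso h0 hψ
  subst hg hX hE
  obtain ⟨h1, h2⟩ := hsQ
  obtain ⟨k, hk⟩ := M.exists_twist ⟨_, h2, rfl⟩ hs1
  refine aux (e.trans (MulAut.conj (k : Spor.Co1))) _ _ ?_ ?_
  · rw [Subgroup.map_map]
    exact (M.twist k).pb_L hs1 hk
  · rw [Subgroup.map_map]
    exact ((M.twist k).pb_A ⟨_, h2, rfl⟩ hs1 hk).1

end Cfsg.Agent.S5410
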