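import Cfsg.Statements.S5415
import Cfsg.Agent.H15.Monster5
import Cfsg.Agent.H15.CenCo3A

set_option autoImplicit false
open Cfsg

namespace Cfsg.Agent.S5415

open Subgroup in
theorem aux {D C T : Type*} [Group D] [Group C] [Group T] [Finite D] [Finite C] (S : Subgroup D)
    (θ : D →* T) (hθ : Function.Surjective θ) (hS : θ.ker = S) (φ : C →* T)
    (hφ : Function.Surjective φ) (h6 : Nat.card φ.ker = 6) (N M : Subgroup C) [hN : N.Normal]
    [hM : M.Normal] (h1 : φ.ker ≤ N) (h2 : N ≤ M) (h3 : Nat.card N = 18) (h4 : M.index = 2)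
    {P : Type*} [Group P] (e : M ⧸ N.subgroupOf M ≃* P) :
    ∃ (N M : Subgroup D) (_ : N.Normal) (_ : M.Normal), S ≤ N ∧ N ≤ M ∧
      Nat.card N = 3 * Nat.card S ∧ Nonempty (M ⧸ N.subgroupOf M ≃* P) ∧ M.index = 2 := by
  subst hS
  have n1 := (hN.map φ hφ).comap θ
  refine ⟨(N.map φ).comap θ, (M.map φ).comap θ, n1, (hM.map φ hφ).comap θ,
    ker_le_comap _ _, comap_mono (map_mono h2), ?_, ?_, ?_⟩
  · have a1 := relIndex_ker N φ
    have a2 := (φ.ker.subgroupOf N).card_mul_index
    rw [Nat.card_congr (subgroupOfEquivOfLe h1).toEquiv, h6, h3, ← relIndex, a1] at a2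
    have a3 := relIndex_ker ((N.map φ).comap θ) θ
    have a4 := (θ.ker.subgroupOf ((N.map φ).comap θ)).card_mul_index
    rw [Nat.card_congr (subgroupOfEquivOfLe (ker_le_comap _ _)).toEquiv, ← relIndex, a3,
      map_comap_eq_self_of_surjective hθ] at a4
    rw [← a4, show Nat.card (N.map φ) = 3 by omega, mul_comm]
  · let ψ : M →* P := e.toMonoidHom.comp (QuotientGroup.mk' _)
    have hψ : ∀ m : M, ψ m = 1 ↔ (m : C) ∈ N := fun m => by
      rw [MonoidHom.comp_apply, MulEquiv.coe_toMonoidHom, e.map_eq_one_iff,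
        QuotientGroup.mk'_apply, QuotientGroup.eq_one_iff, mem_subgroupOf]
    obtain ⟨χ, hχ⟩ := H15.exists_hom_of_range (φ.comp M.subtype)
      (θ.comp ((M.map φ).comap θ).subtype) (fun a => by
        obtain ⟨m, hm, e⟩ := a.2
        exact ⟨⟨m, hm⟩, e⟩) ψ fun m hm => (hψ m).2 (h1 hm)
    have hs : Function.Surjective χ := fun x => by
      obtain ⟨m, rfl⟩ := (e.surjective.comp (QuotientGroup.mk'_surjective _)) x
      obtain ⟨d, hd⟩ := hθ (φ m)
      exact ⟨⟨d, m, m.2, hd.symm⟩, hχ _ m hd.symm⟩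
    refine ⟨(QuotientGroup.quotientMulEquivOfEq ?_).trans
      (QuotientGroup.quotientKerEquivOfSurjective χ hs)⟩
    ext a
    obtain ⟨m, hm, e⟩ := a.2
    rw [MonoidHom.mem_ker, hχ a ⟨m, hm⟩ e, hψ, mem_subgroupOf, mem_comap, ← e, ← mem_comap,
      comap_map_eq_self h1]
  · rw [index_comap_of_surjective _ hθ, index_map_eq _ hφ (h1.trans h2), h4]

theorem card_pmCyc {b : M24} (hb : orderOf b = 3) : Nat.card (H15.pmCyc b) = 6 := by
  have h : H15.pmCyc b = (Subgroup.zpowers (H15.permC b : Spor.Co1)).comap (QuotientGroup.mk' _) := by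
    ext k; exact H15.mem_pmCyc
  haveI : Fact (Nat.Prime 3) := ⟨Nat.prime_three⟩
  rw [h, H15.card_comap_co1, Nat.card_zpowers, orderOf_eq_prime (p := 3)]
  · rw [← QuotientGroup.mk_pow, H15.permC_pow (hb ▸ pow_orderOf_eq_one b)]; rfl
  · intro e
    have : b = 1 := H15.permC_mem_signG (by
      rcases H15.mem_center_iff'.1 ((QuotientGroup.eq_one_iff _).1 e) with e | e <;> rw [e]
      exacts [one_mem _, H15.negC_mem_signG])
    simp [this] at hb

/-- Let G be a finite group of Monster type at the involution z with Q the extraspecial normal subgroup of order 2^25 of C = C_G(z) (so C/Q is identified with the first Conway group with Q modulo its centre the Leech lattice modulo 2, and z is not weakly closed in Q). Let s be a conjugate of z in Q other than z and let Y be a subgroup of order 3 of the joint centralizer L of z and s that is 3-central in L (Y lies in the centre of some Sylow 3-subgroup of L). Then the centralizer of Y modulo Y is a group of large Fischer type (an involution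 whose centralizer D has generalized Fitting subgroup R extraspecial of order 2^13 and normal subgroups R ≤ N ≤ M with N/R of order 3, M/N the projective special unitary group of dimension 4 over the field with nine elements and M of index 2 in D; the involution not weakly closed in R). -/
theorem result {G : Type*} [Group G] [Finite G] (z : G) (Q : Subgroup (Subgroup.centralizer ({z} : Set G))) [Q.Normal] (hM : Cfsg.IsOfMonsterType z Q) (s : G) (hsQ : ∃ hsc : s ∈ Subgroup.centralizer ({z} : Set G), (⟨s, hsc⟩ : Subgroup.centralizer ({z} : Set G)) ∈ Q) (hs : IsConj z s) (hs1 : s ≠ z) (Y : Subgroup G) (hY : Y ≤ Subgroup.centralizer ({z, s} : Set G)) (hY3 : Nat.card Y = 3) (hc : ∃ P : Sylow 3 ↥(Subgroup.centralizer ({z, s} : Set G)), Y.subgroupOf (Subgroup.centralizer ({z, s} : Set G)) ≤ (Subgroup.center ↥(P : Subgroup ↥(Subgroup.centralizer ({z, s} : Set G)))).map (P : Subgroup ↥(Subgroup.centralizer ({z, s} : Set G))).subtype) [hn : (Y.subgroupOf (Subgroup.centralizer (Y : Set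 G))).Normal] : Cfsg.IsOfLargeFischerType (↥(Subgroup.centralizer (Y : Set G)) ⧸ Y.subgroupOf (Subgroup.centralizer (Y : Set G))) := by
  obtain ⟨h0, e, ψ, hψ⟩ := hM
  have M := H15.md_of_iso h0 hψ
  obtain ⟨g, rfl⟩ := isConj_iff.1 hs
  obtain ⟨h1, h2⟩ := hsQ
  obtain ⟨b, hb, hcl, F, N, M', hN, hM', n1, n2, n3, n4, K, _, _, hK, ⟨ε⟩⟩ := H15.cenCo3A
  obtain ⟨χ, c1, c2, c3⟩ := M.exists_chi ⟨_, h2, rfl⟩ hs1
  obtain ⟨β, o, hβ⟩ := H15.exists_gen hY Nat.prime_three hY3
  have o' : β ^ 3 = 1 := o ▸ pow_orderOf_eq_one β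
  obtain ⟨P, hP⟩ := hc
  obtain ⟨k, hk⟩ := c3 β 3 Nat.prime_three (by decide) o' b (hcl _
    (H15.orderOf_map_of_ker χ c2 Nat.prime_three (by decide) o)
    (H15.dvd_of_central χ c1 c2 P (hP (by rw [hβ]; exact Subgroup.mem_zpowers _))))
  have hcen : ∀ a ∈ H15.pmCyc b, ∀ c ∈ Subgroup.centralizer {H15.permC b}, a * c = c * a := by
    intro a ha c hc
    have : H15.pmCyc b ≤ Subgroup.centralizer {c} := sup_le
      (Subgroup.zpowers_le.2 (Subgroup.mem_centralizer_singleton_iff.2
        (Subgroup.mem_centralizer_singleton_iff.1 hc).symm))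
      (Subgroup.zpowers_le.2 (Subgroup.mem_centralizer_singleton_iff.2 (H15.negC_comm _).symm))
    exact Subgroup.mem_centralizer_singleton_iff.1 (this ha)
  have hle : H15.pmCyc b ≤ Subgroup.centralizer {H15.permC b} := fun a ha =>
    Subgroup.mem_centralizer_singleton_iff.2
      (hcen a ha _ (Subgroup.mem_centralizer_singleton_iff.2 rfl))
  haveI : ((H15.pmCyc b).subgroupOf (Subgroup.centralizer {H15.permC b})).Normal :=
    ⟨fun a ha c => by
      rw [Subgroup.mem_subgroupOf, Subgroup.coe_mul, Subgroup.coe_mul, ← hcen a ha c c.2,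
        Subgroup.coe_inv, mul_inv_cancel_right]
      exact ha⟩
  obtain ⟨y, S, hS, d1, ⟨d2⟩, -⟩ := M.reduce ⟨_, h2, rfl⟩ hs1 Nat.prime_three (by decide) o' hb hk
    (w := 6) (by norm_num) F
    (QuotientGroup.mk' ((H15.pmCyc b).subgroupOf (Subgroup.centralizer {H15.permC b})))
    (QuotientGroup.mk'_surjective _) (fun k => QuotientGroup.eq_one_iff k) hβ
  haveI := H15.finite_Co0
  obtain ⟨N', M'', i1, i2, a1, a2, a3, a4, a5⟩ := aux S (d2.toMonoidHom.comp (QuotientGroup.mk' S))
    (d2.surjective.comp (QuotientGroup.mk'_surjective S))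
    (by
      ext a
      rw [MonoidHom.mem_ker, MonoidHom.comp_apply, MulEquiv.coe_toMonoidHom, d2.map_eq_one_iff,
        QuotientGroup.mk'_apply, QuotientGroup.eq_one_iff])
    _ (QuotientGroup.mk'_surjective _)
    (by rw [QuotientGroup.ker_mk', Nat.card_congr (Subgroup.subgroupOfEquivOfLe hle).toEquiv,
      card_pmCyc hb]) N M' (by rw [QuotientGroup.ker_mk']; exact n1) n2 n3 n4 ε
  exact ⟨y, S, hS, d1, N', M'', i1, i2, a1, a2, a3, ⟨K, _, _, hK, a4⟩, a5⟩

end Cfsg.Agent.S5415
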