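import Cfsg.Statements.S5423
import Cfsg.Agent.H11.TvLarge

set_option autoImplicit false
open Cfsg

namespace Cfsg.Agent.S5423

/-- Let G be a finite group that is the split extension of an elementary abelian normal subgroup U of order 2^(n+1), n ≥ 1, by its full automorphism group: U has a complement M in G whose conjugation action on U is faithful and realizes every automorphism of U. Let Z be a subgroup of U of order 2 and Q the largest normal 2-subgroup of the centralizer C of Z. Then Q is extraspecial of order 2^(2n+1) with an elementary abelian subgroup of order 2^(n+1) (plus type), Q is a large extraspecial 2-subgroup of G, and C is the split extension of Q by the general linear group of degree n over the field with two elements. -/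
theorem result {G : Type*} [Group G] [Finite G] (n : ℕ) (hn : 1 ≤ n) (U M : Subgroup G) [U.Normal] (hU : Cfsg.IsElementaryAbelian 2 U) (hUcard : Nat.card ↥U = 2 ^ (n + 1)) (hUM : U ⊓ M = ⊥) (hUM' : U ⊔ M = ⊤) (hfaith : ∀ m ∈ M, (∀ u ∈ U, m * u * m⁻¹ = u) → m = 1) (hfull : ∀ φ : ↥U ≃* ↥U, ∃ m ∈ M, ∀ u : ↥U, ((φ u : ↥U) : G) = m * u * m⁻¹) (Z : Subgroup G) (hZU : Z ≤ U) (hZ : Nat.card ↥Z = 2) (Q : Subgroup G) (hQ : Q = (Cfsg.pCore 2 ↥(Subgroup.centralizer (Z : Set G))).map (Subgroup.centralizer (Z : Set G)).subtype) : Cfsg.IsExtraspecial 2 ↥Q ∧ Nat.card ↥Q = 2 ^ (2 * n + 1) ∧ (∃ E : Subgroup G, E ≤ Q ∧ Cfsg.IsElementaryAbelian 2 E ∧ Nat.card ↥E = 2 ^ (n + 1)) ∧ Cfsg.IsLargeExtraspecial Q ∧ ∃ K : Subgroup G, K ≤ Subgroup.centralizer (Z : Set G) ∧ Q ⊓ K = ⊥ ∧ Q ⊔ K = Subgroup.centralizer (Z : Set G) ∧ Nonempty (↥K ≃* Matrix.GeneralLinearGroup (Fin n) (ZMod 2)) := by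
  classical
  haveI := hU.1
  letI : CommGroup U := { (inferInstance : Group U) with mul_comm := fun a b => hU.1.is_comm.comm a b }
  letI : Module (ZMod 2) (Additive U) := AddCommGroup.zmodModule fun x =>
    Additive.toMul.injective (Subtype.ext (by simpa using hU.2 _ x.toMul.2))
  -- decomposition of the elements
  have hdec : ∀ g : G, ∃ u : U, (u : G)⁻¹ * g ∈ M := by
    intro g
    have h1 : g ∈ ((U ⊔ M : Subgroup G) : Set G) := hUM' ▸ Subgroup.mem_top g
    rw [Subgroup.normal_mul] at h1
    obtain ⟨u, hu, m, hm, rfl⟩ := h1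
    exact ⟨⟨u, hu⟩, by simpa using hm⟩
  choose τ hτ using hdec
  have huniq : ∀ (g : G) (u : U), (u : G)⁻¹ * g ∈ M → τ g = u := by
    intro g u hu
    have h1 : (u : G)⁻¹ * τ g ∈ U ⊓ M := ⟨U.mul_mem (U.inv_mem u.2) (τ g).2, by
      have := M.mul_mem hu (M.inv_mem (hτ g))
      simpa [mul_assoc] using this⟩
    rw [hUM, Subgroup.mem_bot, inv_mul_eq_one] at h1
    exact Subtype.ext h1.symm
  have hcomm : ∀ a ∈ U, ∀ b ∈ U, a * b = b * a := fun a ha b hb =>
    congrArg Subtype.val (hU.1.is_comm.comm ⟨a, ha⟩ ⟨b, hb⟩)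
  have hmul : ∀ g h : G, τ (g * h) = MulAut.conjNormal g (τ h) * τ g := by
    intro g h
    apply huniq
    have h1 := M.mul_mem (hτ g) (hτ h)
    convert h1 using 1
    simp only [Subgroup.coe_mul, MulAut.conjNormal_apply]
    group
  let c : G → (Additive U →ₗ[ZMod 2] Additive U) := fun g =>
    (MonoidHom.toAdditive (MulAut.conjNormal g : MulAut U).toMonoidHom).toZModLinearMap 2
  have hc : ∀ g (x : Additive U), c g x = Additive.ofMul (MulAut.conjNormal g x.toMul) :=
    fun _ _ => rfl
  let ρ₀ : G →* Module.End (ZMod 2) (ZMod 2 × Additive U) :=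
    { toFun := fun g => (LinearMap.fst _ _ _).prod ((c g).comp (LinearMap.snd _ _ _) +
        (LinearMap.fst _ _ _).smulRight (Additive.ofMul (τ g)))
      map_one' := by
        have h1 : τ 1 = 1 := huniq 1 1 (by simp)
        refine LinearMap.ext fun v => Prod.ext rfl ?_
        simp [hc, h1]
      map_mul' := fun g h => by
        refine LinearMap.ext fun v => Prod.ext rfl ?_
        have h1 : c (g * h) v.2 = c g (c h v.2) := by simp [hc]
        have h2 : Additive.ofMul (τ (g * h)) = c g (Additive.ofMul (τ h)) +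
            Additive.ofMul (τ g) := by rw [hmul]; rfl
        simp [h1, h2, add_assoc] }
  let ρ : G →* ((ZMod 2 × Additive U) ≃ₗ[ZMod 2] (ZMod 2 × Additive U)) :=
    (LinearMap.GeneralLinearGroup.generalLinearEquiv _ _).toMonoidHom.comp ρ₀.toHomUnits
  have hρ : ∀ g v, ρ g v = (v.1, c g v.2 + v.1 • Additive.ofMul (τ g)) := fun _ _ => rfl
  have hinj : Function.Injective ρ := by
    rw [injective_iff_map_eq_one]
    intro g hg
    have h1 := congrArg Prod.snd (hρ g (1, 0))
    rw [hg] at h1
    have h2 : τ g = 1 := by simpa using h1.symm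
    refine hfaith g (by simpa [h2] using hτ g) fun u hu => ?_
    have h3 := congrArg Prod.snd (hρ g (0, Additive.ofMul ⟨u, hu⟩))
    rw [hg] at h3
    simp only [LinearEquiv.coe_one, id_eq, zero_smul, add_zero, hc] at h3
    exact (congrArg (fun x : Additive U => (x.toMul : G)) h3).symm
  obtain ⟨⟨z, hzZ⟩, hz1, hzu⟩ := (Nat.card_eq_two_iff' (1 : Z)).1 hZ
  have hz1' : z ≠ 1 := fun h => hz1 (Subtype.ext h)
  have hcent : Subgroup.centralizer (Z : Set G) = Subgroup.centralizer {z} := by
    refine le_antisymm (Subgroup.centralizer_le (Set.singleton_subset_iff.2 hzZ)) fun g hg => ?_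
    intro y hy
    by_cases h1 : y = 1
    · simp [h1]
    · have h2 : y = z := congrArg Subtype.val (hzu ⟨y, hy⟩ fun h => h1 (congrArg Subtype.val h))
      exact hg y h2
  have hfin : Module.finrank (ZMod 2) (Additive U) = n + 1 := by
    apply Nat.pow_right_injective (le_refl 2)
    have := Module.natCard_eq_pow_finrank (K := ZMod 2) (V := Additive U)
    rw [Nat.card_zmod] at this
    simp only
    rw [← this, ← hUcard]
    rfl
  refine H11.transvection_large (V := ZMod 2 × Additive U) hn
    (by rw [Module.finrank_prod, Module.finrank_self, hfin]; ring)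
    (v₀ := (0, Additive.ofMul ⟨z, hZU hzZ⟩)) (φ₀ := LinearMap.fst _ _ _)
    (fun h => hz1' (congrArg (fun x : ZMod 2 × Additive U => (x.2.toMul : G)) h))
    ⟨(1, 0), rfl⟩ rfl ρ hinj (fun g hg => ?_) (z := z) (fun v => ?_) hcent Q hQ
  · let A₀ : Additive U →ₗ[ZMod 2] Additive U :=
      (LinearMap.snd _ _ _).comp (g.toLinearMap.comp (LinearMap.inr _ _ _))
    have h1 : ∀ x, g (0, x) = (0, A₀ x) := fun x => Prod.ext (hg _) rfl
    have h2 : Function.Injective A₀ := fun x y h => by
      have := g.injective (show g (0, x) = g (0, y) by rw [h1, h1, h])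
      exact congrArg Prod.snd this
    let φ : U ≃* U := MulEquiv.ofBijective (AddMonoidHom.toMultiplicative A₀.toAddMonoidHom)
      ⟨h2, Finite.injective_iff_surjective.1 h2⟩
    obtain ⟨m, hm, hφ⟩ := hfull φ
    let u : U := (g (1, 0)).2.toMul
    refine ⟨u * m, LinearEquiv.ext fun v => ?_⟩
    have h3 : τ (u * m) = u := huniq _ _ (by simpa using hm)
    have h4 : c (u * m) v.2 = A₀ v.2 := by
      rw [hc]
      apply Additive.toMul.injective
      apply Subtype.ext
      have h5 := hφ v.2.toMul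
      have h6 := hcomm u u.2 _ (φ v.2.toMul).2
      change (u : G) * m * (v.2.toMul : U) * ((u : G) * m)⁻¹ = (φ v.2.toMul : U)
      calc (u : G) * m * (v.2.toMul : U) * ((u : G) * m)⁻¹
          = u * (m * (v.2.toMul : U) * m⁻¹) * (u : G)⁻¹ := by group
        _ = _ := by rw [← h5, h6, mul_inv_cancel_right]
    have h5 : v = v.1 • (1, 0) + (0, v.2) := by ext <;> simp
    rw [hρ, h3, h4]
    conv_rhs => rw [h5, map_add, map_smul, h1]
    have h6 : (g (1, 0)).1 = 1 := hg _
    refine Prod.ext (by simp [h6]) ?_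
    simp [u, add_comm]
  · have h3 : τ z = ⟨z, hZU hzZ⟩ := huniq _ _ (by simp)
    have h4 : c z v.2 = v.2 := by
      rw [hc]
      apply Additive.toMul.injective
      apply Subtype.ext
      change z * (v.2.toMul : U) * z⁻¹ = (v.2.toMul : U)
      rw [hcomm z (hZU hzZ) _ (v.2.toMul).2, mul_inv_cancel_right]
    rw [hρ, h3, h4]
    ext <;> simp

end Cfsg.Agent.S5423
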