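import Cfsg.Statements.S5425
import Cfsg.Agent.H14.ExCert
import Cfsg.Agent.H14.L32
import Cfsg.Agent.H14.MInv
import Cfsg.Agent.S5394

set_option autoImplicit false
open Cfsg

namespace Cfsg.Agent.S5425

open H14 H56

def kGens : List ℕ := [nat_lit 0xba6636c094b144e332ab8c8ea43c20, nat_lit 0x2804848d866a9f10ba74242e795576]
def kCL0 : Lev := ⟨nat_lit 2, nat_lit 0x68a205, (.node (nat_lit 15) (.node (nat_lit 9) (.node (nat_lit 2) (.leaf (nat_lit 0x65810486e66aa6e592b48c8a743c62)) (.leaf (nat_lit 0xbdab49ca307b9ac5a928398a418820))) (.node (nat_lit 13) (.leaf (nat_lit 0x2cd32798e805eaa8444160c8ea3576)) (.leaf (nat_lit 0xba6636c094b144e332ab8c8ea43c20)))) (.node (nat_lit 21) (.node (nat_lit 19) (.leaf (nat_lit 0x381ebaa1d2132c4095a3552f184cc9)) (.leaf (nat_lit 0xbd5a81514349de593a662422c5d820))) (.node (nat_lit 22) (.leaf (nat_lit 0x2804848d866a9f10ba74242e795576)) (.leaf (nat_lit 0x289f4aa1d2991b71a9303999108176)))))⟩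
def kCC0 : LevCert := ⟨kCL0,
    [(nat_lit 13, nat_lit 0), (nat_lit 21, nat_lit 1), (nat_lit 19, nat_lit 0), (nat_lit 15, nat_lit 1), (nat_lit 9, nat_lit 0), (nat_lit 22, nat_lit 0), (nat_lit 0, nat_lit 1)],
    [[nat_lit 0, nat_lit 2, nat_lit 2, nat_lit 2, nat_lit 0], [nat_lit 2, nat_lit 2, nat_lit 4, nat_lit 2, nat_lit 4, nat_lit 4, nat_lit 2, nat_lit 2]],
    [nat_lit 0x3b6b0b4a2b05e6ca11e172145188c9, nat_lit 0x8cda17d148b140c85d2b3988e18a55]⟩
def kCL1 : Lev := ⟨nat_lit 0, nat_lit 0x68a201, (.node (nat_lit 15) (.node (nat_lit 9) (.leaf (nat_lit 0xbdab49ca307b9ac5a928398a418820)) (.node (nat_lit 13) (.leaf (nat_lit 0x74eab6ca3449ecc81406b848a1890f)) (.leaf (nat_lit 0x8cda17d148b140c85d2b3988e18a55)))) (.node (nat_lit 21) (.node (nat_lit 19) (.leaf (nat_lit 0x3b6b0b4a2b05e6ca11e172145188c9)) (.leaf (nat_lit 0x8da66040816a92c59df4720b718a55))) (.node (nat_lit 22) (.leaf (nat_lit 0x53c12b06eb992ac44530399c518a8d))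 (.leaf (nat_lit 0x381a89d150ac5ec0bad22aee4188c9)))))⟩
def kCC1 : LevCert := ⟨kCL1,
    [(nat_lit 15, nat_lit 0), (nat_lit 13, nat_lit 1), (nat_lit 9, nat_lit 0), (nat_lit 19, nat_lit 1), (nat_lit 22, nat_lit 0), (nat_lit 21, nat_lit 1)],
    [[nat_lit 0, nat_lit 0, nat_lit 2, nat_lit 0]],
    [nat_lit 0xbbec66acb4ac52c41e72241ca18820]⟩
def kCL2 : Lev := ⟨nat_lit 4, nat_lit 0x490, (.node (nat_lit 7) (.leaf (nat_lit 0xbdab49ca307b9ac5a928398a418820)) (.node (nat_lit 10) (.leaf (nat_lit 0xbbec66acb4ac52c41e72241ca18820)) (.leaf (nat_lit 0xbd5f04a1c6b166c911ab5522718820))))⟩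
def kCC2 : LevCert := ⟨kCL2,
    [(nat_lit 7, nat_lit 0), (nat_lit 10, nat_lit 0)],
    [],
    []⟩
def kC : List LevCert := [kCC0, kCC1, kCC2]
def kCL : List Lev := [kCL0, kCL1, kCL2]
def eGens : List ℕ := [nat_lit 0xbae4d8563343a8cb28cf3a4a410c01, nat_lit 0xbcc03b062b4b84c829e63a0a4a3655, nat_lit 0x556c902ce1190c595e828b58e7a213, nat_lit 0x52e54854f3791a5b5d288998e18801]
def eCL0 : Lev := ⟨nat_lit 0, nat_lit 0x6d0803, (.node (nat_lit 18) (.node (nat_lit 11) (.node (nat_lit 1) (.leaf (nat_lit 0xbdab49ca307b9ac5a928398a418820)) (.leaf (nat_lit 0xbae4d8563343a8cb28cf3a4a410c01))) (.node (nat_lit 16) (.leaf (nat_lit 0x5060894cf5691e505c5488d8e326cb)) (.leaf (nat_lit 0x549660d8e011125adda38d18e43e70)))) (.node (nat_lit 21) (.node (nat_lit 19) (.leaf (nat_lit 0xbc022582363386c9a9093bca46d2b2)) (.leaf (nat_lit 0x556c902ce1190c595e828b58e7a213))) (.node (nat_lit 22) (.leaf (nat_lit 0xbcc03b062b4b84c829e63a0a4a3655))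 (.leaf (nat_lit 0x5026fac0f2a11050dc6d8898e49976)))))⟩
def eCC0 : LevCert := ⟨eCL0,
    [(nat_lit 1, nat_lit 0), (nat_lit 21, nat_lit 1), (nat_lit 19, nat_lit 2), (nat_lit 18, nat_lit 1), (nat_lit 16, nat_lit 2), (nat_lit 22, nat_lit 2), (nat_lit 11, nat_lit 2)],
    [[nat_lit 0, nat_lit 4, nat_lit 2, nat_lit 6, nat_lit 2, nat_lit 6, nat_lit 6, nat_lit 4]],
    [nat_lit 0x55aad9c8f0412855dccf8a58e10c20]⟩
def eCL1 : Lev := ⟨nat_lit 2, nat_lit 12, (.node (nat_lit 3) (.leaf (nat_lit 0xbdab49ca307b9ac5a928398a418820)) (.leaf (nat_lit 0x55aad9c8f0412855dccf8a58e10c20)))⟩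
def eCC1 : LevCert := ⟨eCL1,
    [(nat_lit 3, nat_lit 0)],
    [],
    []⟩
def eC : List LevCert := [eCC0, eCC1]
def eCL : List Lev := [eCL0, eCL1]
def gs : List ℕ := [nat_lit 0xbdab49ca307b9ac5a928398a418820, nat_lit 0x28263ac09249c4a0b1e6722f1a3576, nat_lit 0x3cde3b21cbac44a83012b8485a34c9, nat_lit 0x725b015143b16713100bb84ec9550f, nat_lit 0x20132698f4b16ac0c5eb722ea18a13]
def gP : ℕ := nat_lit 0x548a4306f984f691a905b4492ba37
def isoA : List ℕ := [nat_lit 0xba6636c094b144e332ab8c8ea43c20, nat_lit 0x2804848d866a9f10ba74242e795576]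
def isoB : List ℕ := [nat_lit 0x63156, nat_lit 0xa5788]
def isoS : List ℕ := [nat_lit 0x679bc775eba6636c094b144e332ab8c8ea43c20, nat_lit 0x6b9ddfb382804848d866a9f10ba74242e795576]
def isoCertL0 : Lev := ⟨nat_lit 24, nat_lit 0x7f000000, (.node (nat_lit 27) (.node (nat_lit 25) (.leaf (nat_lit 0x7bbcdeb38bdab49ca307b9ac5a928398a418820)) (.node (nat_lit 26) (.leaf (nat_lit 0x6f3aefb1cb8ad24aca66aaa41c5f47218784c20)) (.leaf (nat_lit 0x73d9d637dbb5e6b21cb99131a1c5060d4595420)))) (.node (nat_lit 29) (.node (nat_lit 28) (.leaf (nat_lit 0x679bc775eba6636c094b144e332ab8c8ea43c20)) (.leaf (nat_lit 0x6b78f73b9bd5a81514349de593a662422c5d820))) (.node (nat_lit 30) (.leaf (nat_lit 0x771ecef9abcc4b78d88ac6c7815b25508e32420)) (.leaf (nat_lit 0x633ed737d502b014a2349e6e092c62aeec43e8d)))))⟩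
def isoCertC0 : LevCert := ⟨isoCertL0,
    [(nat_lit 27, nat_lit 0), (nat_lit 28, nat_lit 0), (nat_lit 29, nat_lit 0), (nat_lit 26, nat_lit 0), (nat_lit 25, nat_lit 0), (nat_lit 30, nat_lit 1)],
    [[nat_lit 0, nat_lit 0, nat_lit 0, nat_lit 2, nat_lit 2, nat_lit 0, nat_lit 2, nat_lit 0], [nat_lit 2, nat_lit 2, nat_lit 2, nat_lit 2, nat_lit 2, nat_lit 4, nat_lit 2, nat_lit 4, nat_lit 4, nat_lit 2, nat_lit 4]],
    [nat_lit 0x6fdaee7985584898d9005de75baa18c8a43268d, nat_lit 0x679df6f5820806786e8ac52a19ed22ad8ea3613]⟩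
def isoCertL1 : Lev := ⟨nat_lit 26, nat_lit 0x7e000000, (.node (nat_lit 28) (.node (nat_lit 26) (.leaf (nat_lit 0x679df6f5820806786e8ac52a19ed22ad8ea3613)) (.node (nat_lit 27) (.leaf (nat_lit 0x7bbcdeb38bdab49ca307b9ac5a928398a418820)) (.leaf (nat_lit 0x6f9dd67d88a5e3021c199045331b0550f75da55)))) (.node (nat_lit 29) (.leaf (nat_lit 0x6fdaee7985584898d9005de75baa18c8a43268d)) (.node (nat_lit 30) (.leaf (nat_lit 0x735edf738225b205141132ae346c32acf743e13)) (.leaf (nat_lit 0x6bbccfb787366bac09205ec7a144160d513250f)))))⟩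
def isoCertC1 : LevCert := ⟨isoCertL1,
    [(nat_lit 28, nat_lit 0), (nat_lit 25, nat_lit 1), (nat_lit 29, nat_lit 1), (nat_lit 30, nat_lit 1), (nat_lit 27, nat_lit 0)],
    [[nat_lit 2, nat_lit 2, nat_lit 0, nat_lit 2, nat_lit 0, nat_lit 0], [nat_lit 2, nat_lit 4, nat_lit 4, nat_lit 2, nat_lit 2, nat_lit 4, nat_lit 2]],
    [nat_lit 0x7b3be6bb8389b27d148992a51c410b858e5d8c9, nat_lit 0x7b79eeb988cc06b06eb1312e81da35508543e55]⟩
def isoCertL2 : Lev := ⟨nat_lit 25, nat_lit 0x3a000000, (.node (nat_lit 28) (.node (nat_lit 27) (.leaf (nat_lit 0x7bbcdeb38bdab49ca307b9ac5a928398a418820)) (.leaf (nat_lit 0x7b9dceb7853d21118e3b140445eab8c9cc84e8d))) (.node (nat_lit 29) (.leaf (nat_lit 0x7b79eeb988cc06b06eb1312e81da35508543e55)) (.leaf (nat_lit 0x7b3be6bb8389b27d148992a51c410b858e5d8c9))))⟩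
def isoCertC2 : LevCert := ⟨isoCertL2,
    [(nat_lit 29, nat_lit 0), (nat_lit 28, nat_lit 1), (nat_lit 27, nat_lit 1)],
    [],
    []⟩
def isoCert : List LevCert := [isoCertC0, isoCertC1, isoCertC2]
def isoCertL : List Lev := [isoCertL0, isoCertL1, isoCertL2]
def isoCertAL0 : Lev := ⟨nat_lit 2, nat_lit 0x68a205, (.node (nat_lit 15) (.node (nat_lit 9) (.node (nat_lit 2) (.leaf (nat_lit 0x65810486e66aa6e592b48c8a743c62)) (.leaf (nat_lit 0xbdab49ca307b9ac5a928398a418820))) (.node (nat_lit 13) (.leaf (nat_lit 0x2cd32798e805eaa8444160c8ea3576)) (.leaf (nat_lit 0xba6636c094b144e332ab8c8ea43c20)))) (.node (nat_lit 21) (.node (nat_lit 19) (.leaf (nat_lit 0x381ebaa1d2132c4095a3552f184cc9)) (.leaf (nat_lit 0xbd5a81514349de593a662422c5d820))) (.node (nat_lit 22) (.leaf (nat_lit 0x2804848d866a9f10ba74242e795576)) (.leaf (nat_lit 0x289f4aa1d2991b71a9303999108176)))))⟩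
def isoCertAC0 : LevCert := ⟨isoCertAL0,
    [(nat_lit 13, nat_lit 0), (nat_lit 21, nat_lit 1), (nat_lit 19, nat_lit 0), (nat_lit 15, nat_lit 1), (nat_lit 9, nat_lit 0), (nat_lit 22, nat_lit 0), (nat_lit 0, nat_lit 1)],
    [[nat_lit 2, nat_lit 0, nat_lit 0, nat_lit 2, nat_lit 2, nat_lit 0, nat_lit 0], [nat_lit 4, nat_lit 2, nat_lit 4, nat_lit 2, nat_lit 4]],
    [nat_lit 0x2bdb00514149e6c412a68c9d718976, nat_lit 0x74eab6ca3449ecc81406b848a1890f]⟩
def isoCertAL1 : Lev := ⟨nat_lit 0, nat_lit 0x68a201, (.node (nat_lit 15) (.node (nat_lit 9) (.leaf (nat_lit 0xbdab49ca307b9ac5a928398a418820)) (.node (nat_lit 13) (.leaf (nat_lit 0x74eab6ca3449ecc81406b848a1890f)) (.leaf (nat_lit 0x72661b408bac40c35db2550e51890f)))) (.node (nat_lit 21) (.node (nat_lit 19) (.leaf (nat_lit 0x226d47aca805dac32aa18c8ee18a13)) (.leaf (nat_lit 0x2bdb00514149e6c412a68c9d718976))) (.node (nat_lit 22) (.leaf (nat_lit 0x3d40b786e86aacc916742422e188c9))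 (.leaf (nat_lit 0x381a89d150ac5ec0bad22aee4188c9)))))⟩
def isoCertAC1 : LevCert := ⟨isoCertAL1,
    [(nat_lit 19, nat_lit 0), (nat_lit 9, nat_lit 1), (nat_lit 13, nat_lit 0), (nat_lit 22, nat_lit 1), (nat_lit 15, nat_lit 0), (nat_lit 21, nat_lit 0)],
    [[nat_lit 0, nat_lit 2, nat_lit 0, nat_lit 2, nat_lit 2, nat_lit 2]],
    [nat_lit 0xbd5f04a1c6b166c911ab5522718820]⟩
def isoCertAL2 : Lev := ⟨nat_lit 4, nat_lit 0x490, (.node (nat_lit 7) (.leaf (nat_lit 0xbdab49ca307b9ac5a928398a418820)) (.node (nat_lit 10) (.leaf (nat_lit 0xbbec66acb4ac52c41e72241ca18820)) (.leaf (nat_lit 0xbd5f04a1c6b166c911ab5522718820))))⟩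
def isoCertAC2 : LevCert := ⟨isoCertAL2,
    [(nat_lit 10, nat_lit 0), (nat_lit 7, nat_lit 0)],
    [],
    []⟩
def isoCertA : List LevCert := [isoCertAC0, isoCertAC1, isoCertAC2]
def isoCertAL : List Lev := [isoCertAL0, isoCertAL1, isoCertAL2]
theorem iso_ok : H56.isoOK 24 5 32 7 3 8 31 5 kCL L32.certL isoA isoB isoS
    isoCert isoCertA = true := by decide +kernel
theorem iso_ss : ssOK 5 32 31 isoCert isoS = true := by decide +kernel

theorem k_chain : GE.IsChain kCL (GE.grp kGens) := chain_grp (cert := kC) (by decide +kernel)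
theorem e_chain : GE.IsChain eCL (GE.grp eGens) := chain_grp (cert := eC) (by decide +kernel)
theorem k_card : Nat.card (GE.grp kGens) = 2 ^ 3 * 21 := by rw [k_chain.card]; decide +kernel
theorem pkz : GE.pk (GE.perm m24_2A.X) = m24_2A.X := m24_classes.pk_perm m24_2A_mem
theorem ex : H15.EX (GE.grp m24_2AQGens) (GE.perm m24_2A.X) :=
  m24_2AQ_spec.1.ex_of_exOK (by rw [pkz]; decide +kernel)
theorem k_le : GE.grp kGens ≤ M24 ⊓ Subgroup.centralizer {GE.perm m24_2A.X} :=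
  grp_le_of_memOK m24_2AC_spec.1 (by decide +kernel)
theorem e_le : GE.grp eGens ≤ GE.grp m24_2AQGens :=
  grp_le_of_memOK m24_2AQ_spec.1 (by decide +kernel)
theorem disj : GE.grp m24_2AQGens ⊓ GE.grp kGens = ⊥ :=
  m24_2AQ_spec.1.inf_eq_bot k_chain (by decide +kernel)
theorem sup : GE.grp m24_2AQGens ⊔ GE.grp kGens = M24 ⊓ Subgroup.centralizer {GE.perm m24_2A.X} :=
  sup_eq_of_card m24_2AQ_spec.2.1 k_le disj (by
    rw [m24_2AQ_card, k_card, m24_classes.card _ m24_2A_mem]; decide)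
theorem exg : ∃ g ∈ M24, g * GE.perm m24_2A.X * g⁻¹ ∈ GE.grp m24_2AQGens ∧
    g⁻¹ * GE.perm m24_2A.X * g ∈ GE.grp m24_2AQGens ∧ g * GE.perm m24_2A.X * g⁻¹ ≠ GE.perm m24_2A.X := by
  obtain ⟨g, hg, e⟩ := m24_chain.inG_of_sift (P := gP) (by decide +kernel) (by decide +kernel)
  refine ⟨g, hg, m24_2AQ_spec.1.mem_iff_sift.2 ?_, m24_2AQ_spec.1.mem_iff_sift.2 ?_,
    fun h => absurd (congrArg GE.pk h) ?_⟩ <;> rw [GE.pk_mul3, GE.pk_inv, e, pkz] <;> decide +kernel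


/-- In the Mathieu group of degree 24 (the automorphism group of the length-24 binary Golay code, acting on the 24 coordinates), let z be an involution whose fixed points form an octad (the support of a code word of weight 8), and let Q be the largest normal 2-subgroup of the centralizer C of z. Then Q is extraspecial of order 2^7 with an elementary abelian subgroup of order 16 (plus type), Q is a large extraspecial 2-subgroup, and C is the split extension of Q by the special linear group of degree 3 over the field with two elements. -/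
theorem result (z : ↥Cfsg.M24) (hz : orderOf z = 2) (hfix : (Finset.univ.filter fun p : Cfsg.GolayPt => (z : Equiv.Perm Cfsg.GolayPt) p = p) ∈ Cfsg.octads) (Q : Subgroup ↥Cfsg.M24) (hQ : Q = (Cfsg.pCore 2 ↥(Subgroup.centralizer ({z} : Set ↥Cfsg.M24))).map (Subgroup.centralizer ({z} : Set ↥Cfsg.M24)).subtype) : Cfsg.IsExtraspecial 2 ↥Q ∧ Nat.card ↥Q = 2 ^ 7 ∧ (∃ E : Subgroup ↥Cfsg.M24, E ≤ Q ∧ Cfsg.IsElementaryAbelian 2 E ∧ Nat.card ↥E = 2 ^ 4) ∧ Cfsg.IsLargeExtraspecial Q ∧ ∃ K : Subgroup ↥Cfsg.M24, K ≤ Subgroup.centralizer ({z} : Set ↥Cfsg.M24) ∧ Q ⊓ K = ⊥ ∧ Q ⊔ K = Subgroup.centralizer ({z} : Set ↥Cfsg.M24) ∧ Nonempty (↥K ≃* Matrix.SpecialLinearGroup (Fin 3) (ZMod 2)) := by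
  obtain ⟨ι, hι, hr, e⟩ : ∃ ι : M24 →* Equiv.Perm GolayPt, Function.Injective ι ∧ ι.range = M24 ∧
      ι z = GE.perm m24_2A.X := by
    refine exists_twist z ((S5394.inv_conj z.2 ((Subgroup.orderOf_coe z).trans hz)).resolve_right
      fun ⟨a, _, h⟩ => ?_)
    have h8 : Finset.card _ = 8 := hfix.2
    rw [Finset.filter_eq_empty_iff.2 fun p _ => h ▸ S5394.conjB a p] at h8
    simp at h8
  have hC := comap_cent hι (z := z)
  rw [hr, e] at hC
  have hle : M24 ⊓ Subgroup.centralizer {GE.perm m24_2A.X} ≤ ι.range := hr.symm ▸ inf_le_left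
  have hQl := m24_2AQ_spec.2.1.trans hle
  have hKl := k_le.trans hle
  obtain rfl : Q = (GE.grp m24_2AQGens).comap ι := hQ.trans (pCore_eq_comap hι hC hle
    (IsPGroup.of_card m24_2AQ_card) sup m24_2AQ_spec.2.2.1
    (k_chain.core_of_coreOK (gs := gs) (by decide +kernel) k_card (by decide)))
  obtain ⟨g, hg, h1, h2, h3⟩ := exg
  have hL := isLarge_comap hι (z := z) (e ▸ ex) (by rw [m24_2AQ_card]; decide)
    (by rw [hr, e]; exact m24_2AQ_spec.2.1) (by rw [hr, e]; exact m24_2AQ_spec.2.2.1)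
    (by rw [hr]; exact m24_2AQ_spec.2.2.2) (hr.symm ▸ hg) (e ▸ h1) (e ▸ h2) (e ▸ h3)
  obtain ⟨e1⟩ := equiv_of_isoOK L32.chain k_chain 31 5 32 rfl rfl (by decide) iso_ok iso_ss
    (by decide +kernel)
  obtain ⟨e2⟩ := L32.equiv (ZMod.card 2)
  refine ⟨hL.1, (Nat.card_congr (comapEquiv hι hQl).toEquiv).trans m24_2AQ_card,
    ⟨_, Subgroup.comap_mono e_le, ea_comap hι (GE.ea_of_eaOK (by decide +kernel)), ?_⟩, hL,
    (GE.grp kGens).comap ι, hC ▸ Subgroup.comap_mono k_le, ?_, ?_,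
    ⟨(comapEquiv hι hKl).trans (e2.trans e1).symm⟩⟩
  · rw [Nat.card_congr (comapEquiv hι (e_le.trans hQl)).toEquiv, e_chain.card]
    decide +kernel
  · rw [← Subgroup.comap_inf, disj, MonoidHom.comap_bot, (MonoidHom.ker_eq_bot_iff ι).2 hι]
  · rw [Subgroup.comap_sup_eq_of_le_range ι hQl hKl, sup, hC]

end Cfsg.Agent.S5425
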