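import Cfsg.Statements.S5432
import Cfsg.Agent.H85.OutES

set_option autoImplicit false
open Cfsg

namespace Cfsg.Agent.S5432



/-- Let E be an extraspecial 2-group of order 2^(2n+1), n ≥ 1. If E contains an elementary abelian subgroup of order 2^(n+1) (plus type), then its outer automorphism group is isomorphic to the full isometry group of the hyperbolic quadratic form in dimension 2n over the field with two elements; otherwise (minus type) it is isomorphic to the full isometry group of the elliptic quadratic form in dimension 2n over that field. -/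
theorem result {E : Type*} [Group E] [Finite E] (hE : Cfsg.IsExtraspecial 2 E) (n : ℕ) (hn : 1 ≤ n) (hcard : Nat.card E = 2 ^ (2 * n + 1)) : ((∃ A : Subgroup E, Cfsg.IsElementaryAbelian 2 A ∧ Nat.card ↥A = 2 ^ (n + 1)) → Nonempty (Cfsg.Out E ≃* Cfsg.isometryGroup (ZMod 2) (Cfsg.quadFormPlus n (ZMod 2)))) ∧ ((¬ ∃ A : Subgroup E, Cfsg.IsElementaryAbelian 2 A ∧ Nat.card ↥A = 2 ^ (n + 1)) → Nonempty (Cfsg.Out E ≃* Cfsg.isometryGroup (ZMod 2) (Cfsg.quadFormMinus (n - 1) (ZMod 2) 1 1))) := by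
  obtain ⟨V, _, _, _, _, D, hD, -⟩ := H3.exists_esData_of_isExtraspecial hE
  obtain ⟨ρ, h1, h2, -⟩ := H85.exists_out_hom D hD
  have e : Cfsg.Out E ≃* H11.OG D.quad :=
    (QuotientGroup.quotientMulEquivOfEq h2.symm).trans (QuotientGroup.quotientKerEquivOfSurjective ρ h1)
  rcases S3763.main D hD n hcard with ⟨h3, φ, hφ⟩ | ⟨h3, φ, hφ⟩
  · refine ⟨fun _ => ⟨e.trans ((H11.OGcongr φ fun x => ?_).trans
      (H11.isoOG _ _ (H11.qPlus_eq _ n)).symm)⟩, fun h => (h ?_).elim⟩
    · rw [hφ, H11.qPlus_eq]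
    · obtain ⟨a, b⟩ := h3
      unfold PRankLE at b
      push Not at b
      obtain ⟨A, hA1, hA2, hA3⟩ := b
      obtain ⟨k, hk⟩ := (D.isPGroup.to_subgroup A).exists_card_eq
      have h4 := a A hA1 hA2
      rw [hk] at hA3 h4
      rw [Nat.pow_lt_pow_iff_right one_lt_two] at hA3
      rw [Nat.pow_le_pow_iff_right one_lt_two] at h4
      exact ⟨A, ⟨hA1, hA2⟩, by rw [hk, show k = n + 1 by omega]⟩
  · refine ⟨fun ⟨A, hA, hc⟩ => ?_, fun _ => ⟨e.trans ((H11.OGcongr φ fun x => ?_).trans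
      (H11.isoOG _ _ (H11.qMinus_eq (n - 1) 1 1)).symm)⟩⟩
    · have := h3.1 A hA.1 hA.2
      rw [hc, Nat.pow_le_pow_iff_right one_lt_two] at this
      omega
    · rw [hφ, H11.qMinus_eq]

end Cfsg.Agent.S5432
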