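import Cfsg.Statements.S5438
import Cfsg.Agent.H92.SylIn
import Cfsg.Agent.H82.Conj
import Cfsg.Agent.H8.Dihedral

set_option autoImplicit false
open Cfsg

namespace Cfsg.Agent.S5438

/-- Let z be a 2-central involution of the finite group G (an involution central in some Sylow 2-subgroup) and H a subgroup containing z such that the coset H is the only coset of H fixed by z (in the action of G on the cosets of H). Then H has odd index in G, and for every 2-element x of H the conjugates of x lying in H form a single H-class. -/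
theorem result {G : Type*} [Group G] [Finite G] (z : G) (hz : Cfsg.IsTwoCentralInvolution z) (H : Subgroup G) (hzH : z ∈ H) (hfix : ∀ g : G, g⁻¹ * z * g ∈ H → g ∈ H) : Odd H.index ∧ ∀ x ∈ H, (∃ k : ℕ, orderOf x = 2 ^ k) → ∀ g : G, g * x * g⁻¹ ∈ H → ∃ h ∈ H, h * x * h⁻¹ = g * x * g⁻¹ := by
  have : Fact (Nat.Prime 2) := ⟨Nat.prime_two⟩
  obtain ⟨hz2, P, hzP, hP⟩ := hz
  have hPH : (P : Subgroup G) ≤ H := fun g hg => hfix g (by
    rw [mul_assoc, ← hP g hg]; simpa using hzH)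
  have hodd : ¬ 2 ∣ H.index := fun h => P.not_dvd_index (h.trans (Subgroup.index_dvd_of_le hPH))
  refine ⟨Nat.odd_iff.2 (Nat.two_dvd_ne_zero.1 hodd), fun x hx ⟨k, hk⟩ g hg => ?_⟩
  have hS : H92.SylIn 2 (P : Subgroup G) H := (H92.sylIn_top P).mono hPH le_top
  have key : ∀ y ∈ H, orderOf y = 2 ^ k → ∃ h ∈ H, (h * z * h⁻¹) * y = y * (h * z * h⁻¹) := by
    intro y hy hyk
    obtain ⟨h, hh, e⟩ := hS.exists_conj (Subgroup.zpowers_le.2 hy)
      (IsPGroup.of_card (by rw [Nat.card_zpowers, hyk]))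
    refine ⟨h⁻¹, H.inv_mem hh, ?_⟩
    have := hP _ (e y (Subgroup.mem_zpowers y))
    calc h⁻¹ * z * h⁻¹⁻¹ * y = h⁻¹ * (z * (h * y * h⁻¹)) * h := by group
      _ = _ := by rw [← this]; group
  obtain ⟨h, hh, e1⟩ := key x hx hk
  obtain ⟨h', hh', e2⟩ := key _ hg (by rw [H8.orderOf_conj', hk])
  have p2 : ∀ a : G, IsPGroup 2 (Subgroup.zpowers (a * z * a⁻¹)) := fun a =>
    IsPGroup.of_card (n := 1) (by rw [Nat.card_zpowers, H8.orderOf_conj', hz2]; rfl)
  obtain ⟨T, hT, hzT⟩ := H92.exists_sylIn_ge (H := Subgroup.centralizer ({x} : Set G))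
    (Subgroup.zpowers_le.2 (Subgroup.mem_centralizer_singleton_iff.2 e1)) (p2 h)
  have hTH : T ≤ H := by
    obtain ⟨a, ha⟩ := H82.exists_conj_mem_of_not_dvd_index hT.pgroup H hodd
    have h1 : h⁻¹ * a ∈ H := hfix _ (by
      have := ha _ (hzT (Subgroup.mem_zpowers _))
      simpa [mul_assoc] using this)
    have h2 : a ∈ H := by simpa using H.mul_mem hh h1
    intro u hu
    have := H.mul_mem (H.mul_mem h2 (ha u hu)) (H.inv_mem h2)
    simpa [mul_assoc] using this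
  obtain ⟨c, hc, e3⟩ := hT.exists_conj (Q := Subgroup.zpowers ((g⁻¹ * h') * z * (g⁻¹ * h')⁻¹))
    (Subgroup.zpowers_le.2 (Subgroup.mem_centralizer_singleton_iff.2 (by
      calc (g⁻¹ * h') * z * (g⁻¹ * h')⁻¹ * x = g⁻¹ * (h' * z * h'⁻¹ * (g * x * g⁻¹)) * g := by group
        _ = _ := by rw [e2]; group))) (p2 _)
  have h1 : h'⁻¹ * g * c⁻¹ ∈ H := hfix _ (by
    have := hTH (e3 _ (Subgroup.mem_zpowers _))
    simpa [mul_assoc] using this)
  refine ⟨h' * (h'⁻¹ * g * c⁻¹), H.mul_mem hh' h1, ?_⟩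
  have hcx := Subgroup.mem_centralizer_singleton_iff.1 hc
  calc h' * (h'⁻¹ * g * c⁻¹) * x * (h' * (h'⁻¹ * g * c⁻¹))⁻¹ = g * (c⁻¹ * (x * c)) * g⁻¹ := by group
    _ = _ := by rw [← hcx]; group

end Cfsg.Agent.S5438
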