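import Cfsg.Statements.S5439

set_option autoImplicit false
open Cfsg

namespace Cfsg.Agent.S5439

theorem cpow {G : Type*} [Group G] (a r : G) (h : a * r * a⁻¹ = r⁻¹) (j : ℕ) :
    a * r ^ j = (r ^ j)⁻¹ * a := by
  have h1 : a * r ^ j * a⁻¹ = (r ^ j)⁻¹ := by
    rw [← conj_pow, h, inv_pow]
  rw [← h1]; group

/-- Let I and J be two different conjugacy classes of involutions of the finite group G and H a subgroup such that every member of I ∪ J fixes exactly one coset in the action on the cosets of H, and such that for every a in I ∩ H and every b in (I ∪ J) ∩ H different from a and commuting with it, the centralizer of a b lies in H. Then H = G. -/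
theorem result {G : Type*} [Group G] [Finite G] (I J : Set G) (a₀ b₀ : G) (ha₀ : orderOf a₀ = 2) (hb₀ : orderOf b₀ = 2) (hI : I = {x | IsConj a₀ x}) (hJ : J = {x | IsConj b₀ x}) (hIJ : I ≠ J) (H : Subgroup G) (hfix : ∀ x ∈ I ∪ J, ∃! c : G ⧸ H, x • c = c) (hcent : ∀ a ∈ I, a ∈ H → ∀ b ∈ I ∪ J, b ∈ H → a ≠ b → a * b = b * a → Subgroup.centralizer ({a * b} : Set G) ≤ H) : H = ⊤ := by
  by_contra hH
  obtain ⟨g, hg⟩ : ∃ g, g ∉ H := by
    by_contra h
    push Not at h
    exact hH (Subgroup.eq_top_iff' H |>.2 h)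
  have hIc : ∀ x ∈ I, ∀ y, IsConj x y → y ∈ I := by
    intro x hx y hy; rw [hI] at hx ⊢; exact IsConj.trans hx hy
  have hJc : ∀ x ∈ J, ∀ y, IsConj x y → y ∈ J := by
    intro x hx y hy; rw [hJ] at hx ⊢; exact IsConj.trans hx hy
  have ha₀I : a₀ ∈ I := by rw [hI]; exact IsConj.refl _
  have hb₀J : b₀ ∈ J := by rw [hJ]; exact IsConj.refl _
  have hfixH : ∀ x : G, x • ((1 : G) : G ⧸ H) = ((1 : G) : G ⧸ H) ↔ x ∈ H := by
    intro x
    rw [MulAction.Quotient.smul_mk, QuotientGroup.eq]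
    simp
  -- a ∈ I ∩ H
  obtain ⟨c, hc, -⟩ := hfix a₀ (Or.inl ha₀I)
  obtain ⟨k, rfl⟩ := QuotientGroup.mk_surjective c
  have haH : k⁻¹ * a₀ * k ∈ H := by
    rw [MulAction.Quotient.smul_mk, QuotientGroup.eq] at hc
    have := H.inv_mem hc
    simpa [mul_assoc] using this
  set a := k⁻¹ * a₀ * k with ha
  have haI : a ∈ I := hIc a₀ ha₀I a (isConj_iff.2 ⟨k⁻¹, by simp [ha]⟩)
  -- b ∈ J fixing gH
  obtain ⟨c', hc', -⟩ := hfix b₀ (Or.inr hb₀J)
  obtain ⟨l, rfl⟩ := QuotientGroup.mk_surjective c'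
  set b := (g * l⁻¹) * b₀ * (g * l⁻¹)⁻¹ with hb
  have hbJ : b ∈ J := hJc b₀ hb₀J b (isConj_iff.2 ⟨g * l⁻¹, rfl⟩)
  have hbg : b • ((g : G) : G ⧸ H) = (g : G ⧸ H) := by
    rw [MulAction.Quotient.smul_mk, QuotientGroup.eq] at hc' ⊢
    have : (b • g)⁻¹ * g = (b₀ • l)⁻¹ * l := by simp [hb, mul_assoc]
    rw [this]; exact hc'
  have hbH : b ∉ H := by
    intro hbH
    obtain ⟨c, -, hu⟩ := hfix b (Or.inr hbJ)
    have h1 := hu _ hbg
    have h2 := hu _ ((hfixH b).2 hbH)
    have h3 : ((1 : G) : G ⧸ H) = (g : G ⧸ H) := h2.trans h1.symm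
    rw [QuotientGroup.eq] at h3
    exact hg (by simpa using h3)
  have ha2 : a * a = 1 := by
    have : a₀ * a₀ = 1 := by rw [← sq, ← ha₀]; exact pow_orderOf_eq_one _
    rw [ha]
    calc k⁻¹ * a₀ * k * (k⁻¹ * a₀ * k) = k⁻¹ * (a₀ * a₀) * k := by group
      _ = 1 := by rw [this]; group
  have hb2 : b * b = 1 := by
    have : b₀ * b₀ = 1 := by rw [← sq, ← hb₀]; exact pow_orderOf_eq_one _
    rw [hb]
    calc g * l⁻¹ * b₀ * (g * l⁻¹)⁻¹ * (g * l⁻¹ * b₀ * (g * l⁻¹)⁻¹) = g * l⁻¹ * (b₀ * b₀) * (g * l⁻¹)⁻¹ := by group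
      _ = 1 := by rw [this]; group
  clear_value a b
  have hainv : a⁻¹ = a := inv_eq_of_mul_eq_one_right ha2
  have hbinv : b⁻¹ = b := inv_eq_of_mul_eq_one_right hb2
  set r := a * b with hr
  have hra : a * r * a⁻¹ = r⁻¹ := by
    rw [hr, mul_inv_rev, hainv, hbinv, ← mul_assoc, ha2, one_mul]
  have hbar : b = a * r := by rw [hr, ← mul_assoc, ha2, one_mul]
  have heven : ∀ j : ℕ, IsConj a (a * r ^ (2 * j)) := by
    intro j
    refine isConj_iff.2 ⟨(r ^ j)⁻¹, ?_⟩
    rw [inv_inv, ← cpow a r hra j, two_mul, pow_add, mul_assoc]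
  have hodd : ∀ j : ℕ, IsConj b (a * r ^ (2 * j + 1)) := by
    intro j
    refine isConj_iff.2 ⟨(r ^ j)⁻¹, ?_⟩
    rw [inv_inv, hbar, ← mul_assoc, ← cpow a r hra j, two_mul, pow_succ, pow_add]
    have : Commute r (r ^ j) := (Commute.refl r).pow_right j
    simp only [mul_assoc]
    rw [this.eq]
  have hN : 0 < orderOf r := orderOf_pos r
  rcases Nat.even_or_odd' (orderOf r) with ⟨n, hn | hn⟩
  · have hn0 : 0 < n := by omega
    set z := r ^ n with hz
    have hz1 : z ≠ 1 := by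
      intro h
      have := orderOf_dvd_of_pow_eq_one h
      have := Nat.le_of_dvd hn0 this
      omega
    have hzz : z * z = 1 := by
      rw [hz, ← pow_add, ← two_mul, ← hn]; exact pow_orderOf_eq_one r
    have hzinv : z⁻¹ = z := inv_eq_of_mul_eq_one_right hzz
    have haz : a * z = z * a := by
      rw [hz, cpow a r hra n, ← hz, hzinv]
    have hrz : r * z = z * r := ((Commute.refl r).pow_right n).eq
    have hbz : b * z = z * b := by
      rw [hbar, mul_assoc, hrz, ← mul_assoc, haz, mul_assoc]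
    have hazIJ : a * z ∈ I ∪ J := by
      rcases Nat.even_or_odd' n with ⟨m, hm | hm⟩
      · left; apply hIc a haI; rw [hz, hm]; exact heven m
      · right; apply hJc b hbJ; rw [hz, hm]; exact hodd m
    have hazH : a * z ∈ H := by
      obtain ⟨c, -, hu⟩ := hfix a (Or.inl haI)
      have h1 := hu _ ((hfixH a).2 haH)
      have h2 : a • ((a * z) • ((1 : G) : G ⧸ H)) = (a * z) • ((1 : G) : G ⧸ H) := by
        rw [← mul_smul]
        have : a * (a * z) = (a * z) * a := by rw [mul_assoc a z a, ← haz]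
        rw [this, mul_smul, (hfixH a).2 haH]
      have h3 := hu _ h2
      exact (hfixH _).1 (h3.trans h1.symm)
    have hne : a ≠ a * z := by
      intro h; exact hz1 (by simpa using h)
    have hC := hcent a haI haH (a * z) hazIJ hazH hne (by rw [mul_assoc a z a, ← haz])
    apply hbH
    apply hC
    rw [Subgroup.mem_centralizer_iff]
    intro y hy
    rw [Set.mem_singleton_iff] at hy
    rw [hy, ← mul_assoc a a z, ha2, one_mul, hbz]
  · apply hIJ
    have h1 : IsConj a b := by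
      have := heven (n + 1)
      have e : a * r ^ (2 * (n + 1)) = b := by
        have : 2 * (n + 1) = orderOf r + 1 := by omega
        rw [this, pow_succ, pow_orderOf_eq_one, one_mul, hbar]
      rwa [e] at this
    have haa : IsConj a₀ a := by rw [hI] at haI; exact haI
    have hbb : IsConj b₀ b := by rw [hJ] at hbJ; exact hbJ
    have hab : IsConj a₀ b₀ := (haa.trans h1).trans hbb.symm
    rw [hI, hJ]
    ext x
    exact ⟨fun h => hab.symm.trans h, fun h => hab.trans h⟩

end Cfsg.Agent.S5439
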