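import Cfsg.Statements.S5440
import Cfsg.Agent.H15.LF.FD2

set_option autoImplicit false
open Cfsg

namespace Cfsg.Agent.S5440

/-- Let G be a finite group of large Fischer type at the involution z: the generalized Fitting subgroup Q of H = C_G(z) is extraspecial of order 2^13, H has normal subgroups Q ≤ H₁ ≤ H₂ with H₁/Q of order 3, H₂/H₁ the projective special unitary group of dimension 4 over the field with nine elements and H₂ of index 2 in H, and some conjugate of z other than z lies in Q. Then H has exactly two orbits, under conjugation, on the involutions of Q other than z. -/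
theorem result {G : Type*} [Group G] [Finite G] (z : G) (Q : Subgroup (Subgroup.centralizer ({z} : Set G))) [Q.Normal] (hF : Cfsg.IsOfLargeFischerTypeAt z Q) : ∃ s t : Subgroup.centralizer ({z} : Set G), s ∈ Q ∧ t ∈ Q ∧ orderOf s = 2 ∧ orderOf t = 2 ∧ (s : G) ≠ z ∧ (t : G) ≠ z ∧ (¬ ∃ h : Subgroup.centralizer ({z} : Set G), h * s * h⁻¹ = t) ∧ ∀ x : Subgroup.centralizer ({z} : Set G), x ∈ Q → orderOf x = 2 → (x : G) ≠ z → (∃ h : Subgroup.centralizer ({z} : Set G), h * s * h⁻¹ = x) ∨ ∃ h : Subgroup.centralizer ({z} : Set G), h * t * h⁻¹ = x := by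
  obtain ⟨π, ρ, M⟩ := H15.LF.exists_FD hF
  obtain ⟨_, ⟨s, hs, rfl⟩, es⟩ := M.surj (H15.F2.dec 12 85)
  obtain ⟨_, ⟨t, ht, rfl⟩, et⟩ := M.surj (H15.F2.dec 12 5)
  have hs' := Subgroup.mem_map_of_mem (Subgroup.subtype _) hs
  have ht' := Subgroup.mem_map_of_mem (Subgroup.subtype _) ht
  have h1 : π s ∈ H15.LF.S := es ▸ H15.LF.s0_mem
  have h2 : π t ∈ H15.LF.D := et ▸ H15.LF.d0_mem
  have h3 := M.of_sing hs' (Or.inr h1)
  have h4 := M.of_sing ht' (Or.inl h2)
  refine ⟨s, t, hs, ht, H15.orderOf_two (fun e => h3.2.2.1 (congrArg _ e)) (Subtype.ext h3.1),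
    H15.orderOf_two (fun e => h4.2.2.1 (congrArg _ e)) (Subtype.ext h4.1), h3.2.2.2, h4.2.2.2, ?_,
    fun x hx h5 h6 => ?_⟩
  · rintro ⟨h, rfl⟩
    exact (H15.LF.sing_cases _).2.1 ⟨h2, (M.conj h s hs').symm ▸ (H15.LF.S_iff (M.le_W ⟨h, rfl⟩) _).2 h1⟩
  · have hx' := Subgroup.mem_map_of_mem (Subgroup.subtype _) hx
    have h7 : x * x = 1 := by rw [← pow_two, ← h5, pow_orderOf_eq_one]
    rcases M.sing hx' (congrArg Subtype.val h7) (fun e => by
      rw [show x = 1 from Subtype.ext e, orderOf_one] at h5; omega) h6 with h | h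
    · obtain ⟨c, e⟩ := M.conj_D ht' hx' h2 h
      exact Or.inr ⟨c, Subtype.ext e⟩
    · obtain ⟨c, e⟩ := M.conj_S hs' hx' h1 h
      exact Or.inl ⟨c, Subtype.ext e⟩

end Cfsg.Agent.S5440
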