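import Cfsg.Statements.S5442
import Cfsg.Agent.H15.LF.FD2

set_option autoImplicit false
open Cfsg

namespace Cfsg.Agent.S5442

/-- Let G be a finite group of large Fischer type at the involution z: the generalized Fitting subgroup Q of H = C_G(z) is extraspecial of order 2^13, H has normal subgroups Q ≤ H₁ ≤ H₂ with H₁/Q of order 3, H₂/H₁ the projective special unitary group of dimension 4 over the field with nine elements and H₂ of index 2 in H, and some conjugate of z other than z lies in Q. Let s = g z g⁻¹ be a conjugate of z lying in Q and different from z. Then the intersection of Q and g Q g⁻¹ (as subgroups of G) is elementary abelian of order 2^7; and in H/Q, writing X for the image of the centralizer of s in H and E for the image of the intersection of g Q g⁻¹ with H, E is a normal subgroup of X, elementary abelian of order 32, with X/E isomorphic to the alternating group of degree 6. -/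
theorem result {G : Type*} [Group G] [Finite G] (z : G) (Q : Subgroup (Subgroup.centralizer ({z} : Set G))) [Q.Normal] (hF : Cfsg.IsOfLargeFischerTypeAt z Q) (s : G) (hsQ : ∃ hsc : s ∈ Subgroup.centralizer ({z} : Set G), (⟨s, hsc⟩ : Subgroup.centralizer ({z} : Set G)) ∈ Q) (hs : IsConj z s) (hs1 : s ≠ z) (g : G) (hg : g * z * g⁻¹ = s) (X E : Subgroup ((Subgroup.centralizer ({z} : Set G)) ⧸ Q)) (hX : X = ((Subgroup.centralizer ({z} : Set G) ⊓ Subgroup.centralizer ({s} : Set G)).subgroupOf (Subgroup.centralizer ({z} : Set G))).map (QuotientGroup.mk' Q)) (hE : E = ((((Q.map (Subgroup.centralizer ({z} : Set G)).subtype)).map (MulAut.conj g).toMonoidHom ⊓ Subgroup.centralizer ({z} : Set G)).subgroupOf (Subgroup.centralizer ({z} : Set G))).map (QuotientGroup.mk' Q)) : Cfsg.IsElementaryAbelian 2 ((Q.map (Subgroup.centralizer ({z} : Set G)).subtype) ⊓ ((Q.map (Subgroup.centralizer ({z} : Set G)).subtype)).map (MulAut.conj g).toMonoidHom) ∧ Nat.card ↥((Q.map (Subgroup.centralizer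 ({z} : Set G)).subtype) ⊓ ((Q.map (Subgroup.centralizer ({z} : Set G)).subtype)).map (MulAut.conj g).toMonoidHom) = 2 ^ 7 ∧ E ≤ X ∧ (∀ x ∈ X, ∀ y ∈ E, x * y * x⁻¹ ∈ E) ∧ Cfsg.IsElementaryAbelian 2 E ∧ Nat.card E = 32 ∧ ∃ _ : (E.subgroupOf X).Normal, Nonempty (↥X ⧸ E.subgroupOf X ≃* alternatingGroup (Fin 6)) := by
  subst hg
  obtain ⟨π, ρ, M⟩ := H15.LF.exists_FH hF
  obtain ⟨h1, h2⟩ := hsQ
  have h3 : g * z * g⁻¹ ∈ _ := Subgroup.mem_map_of_mem (Subgroup.subtype _) h2
  obtain ⟨k, hk, e⟩ := H15.LF.trans_S _ (M.type_S h3 hs1)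
  have M' := M.twist (H15.LF.K0_le_H0 hk)
  generalize (MulAut.conj k).toMonoidHom.comp ρ = ρ' at M'
  have hq : Q = ρ'.ker := Subgroup.ext fun h =>
    ((M'.ker h).trans (Subgroup.mem_map_iff_mem (Subgroup.subtype_injective _))).symm
  have hι := (QuotientGroup.injective_lift_iff Q ρ' hq.le).2 hq
  obtain ⟨h4, h5⟩ := M'.im_R h3 hs1 e
  have h6 := M'.im_cent h3 (M'.of_sing h3 (Or.inr (M'.type_S h3 hs1))).2.1
  have hX' : X.map (QuotientGroup.lift Q ρ' hq.le) = H15.LF.L1 := by
    rw [hX, Subgroup.map_map, QuotientGroup.lift_comp_mk', H15.LF.L1, ← M'.range, ← e]; exact h6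
  have hE' : E.map (QuotientGroup.lift Q ρ' hq.le) = H15.LF.E1 := by
    rw [hE, Subgroup.map_map, QuotientGroup.lift_comp_mk']; exact h4
  generalize QuotientGroup.lift Q ρ' hq.le = ι at hι hX' hE'
  have mX : ∀ x, x ∈ X ↔ ι x ∈ H15.LF.L1 := fun x => by rw [← hX', Subgroup.mem_map_iff_mem hι]
  have mE : ∀ x, x ∈ E ↔ ι x ∈ H15.LF.E1 := fun x => by rw [← hE', Subgroup.mem_map_iff_mem hι]
  obtain ⟨f, hf, hk⟩ := H15.LF.exists_f1
  let ε := (X.equivMapOfInjective ι hι).trans (MulEquiv.subgroupCongr hX')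
  have h7 : E.subgroupOf X = (f.comp ε.toMonoidHom).ker := Subgroup.ext fun x => by
    rw [← MonoidHom.comap_ker, hk]; exact mE x
  have hn : (E.subgroupOf X).Normal := h7 ▸ inferInstance
  refine ⟨H15.LF.ea_of_sq fun a => M.sq_inf hs1, h5, fun x hx => (mX x).2 (H15.LF.E1_le_L1 ((mE x).1 hx)),
    fun x hx y hy => (mE _).2 ?_, H15.LF.ea_of_sq fun a ha => hι ?_, ?_, hn,
    ⟨(QuotientGroup.quotientMulEquivOfEq h7).trans
      (QuotientGroup.quotientKerEquivOfSurjective _ (hf.comp ε.surjective))⟩⟩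
  · rw [map_mul, map_mul, map_inv]
    exact H15.LF.E1_conj _ ((mX x).1 hx) _ ((mE y).1 hy)
  · rw [map_mul, map_one, H15.LF.E1_sq _ ((mE a).1 ha)]
  · rw [← H15.LF.card_E1, ← hE', Subgroup.card_map_of_injective hι]

end Cfsg.Agent.S5442
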