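import Cfsg.Statements.S5443
import Cfsg.Agent.H15.LF.FD2

set_option autoImplicit false
open Cfsg

namespace Cfsg.Agent.S5443

/-- Let G be a finite group of large Fischer type at the involution z: the generalized Fitting subgroup Q of H = C_G(z) is extraspecial of order 2^13, H has normal subgroups Q ≤ H₁ ≤ H₂ with H₁/Q of order 3, H₂/H₁ the projective special unitary group of dimension 4 over the field with nine elements and H₂ of index 2 in H, and some conjugate of z other than z lies in Q. Let t be an involution of Q not conjugate to z in G, and S the set of elements of H conjugating t to t or to t z (the stabilizer of the image of t in Q modulo its centre). Then the image of S in H/Q is isomorphic to the full isometry group of the elliptic quadratic form in dimension 6 over the field with two elements. -/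
theorem result {G : Type*} [Group G] [Finite G] (z : G) (Q : Subgroup (Subgroup.centralizer ({z} : Set G))) [Q.Normal] (hF : Cfsg.IsOfLargeFischerTypeAt z Q) (t : Subgroup.centralizer ({z} : Set G)) (htQ : t ∈ Q) (ht2 : orderOf t = 2) (ht : ¬ IsConj z (t : G)) (S : Subgroup (Subgroup.centralizer ({z} : Set G))) (hS : ∀ h : Subgroup.centralizer ({z} : Set G), h ∈ S ↔ (h * t * h⁻¹ = t ∨ ((h * t * h⁻¹ : Subgroup.centralizer ({z} : Set G)) : G) = t * z)) : Nonempty (↥(S.map (QuotientGroup.mk' Q)) ≃* Cfsg.isometryGroup (ZMod 2) (Cfsg.quadFormMinus 2 (ZMod 2) 1 1)) := by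
  obtain ⟨π, ρ, M⟩ := H15.LF.exists_FH hF
  have h1 : (t : G) ∈ _ := Subgroup.mem_map_of_mem (Subgroup.subtype _) htQ
  have h2 : (t : G) ≠ z := fun e => ht (by rw [e])
  have h3 : π t ∈ H15.LF.D := (M.sing h1 (by rw [← pow_two, ← Subgroup.coe_pow, ← ht2, pow_orderOf_eq_one]; rfl)
    (fun e => by rw [show t = 1 from Subtype.ext e, orderOf_one] at ht2; omega) h2).resolve_right
    fun e => ht ((M.isConj t h1 h2).2 e)
  obtain ⟨k, hk, e⟩ := H15.LF.trans_D _ h3
  have M' := M.twist (H15.LF.K0_le_H0 hk)
  generalize (MulAut.conj k).toMonoidHom.comp ρ = ρ' at M'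
  have hq : Q = ρ'.ker := Subgroup.ext fun h =>
    ((M'.ker h).trans (Subgroup.mem_map_iff_mem (Subgroup.subtype_injective _))).symm
  have h4 : S.map ρ' = H15.LF.H0 ⊓ H15.LF.St (H15.F2.dec 12 5) := by
    rw [← M'.range, ← e]
    ext f
    constructor
    · rintro ⟨h, hh, rfl⟩
      refine ⟨⟨h, rfl⟩, H15.LF.mem_St.2 ?_⟩
      rw [← M'.conj h t h1]
      rcases (hS h).1 hh with e | e
      · exact congrArg (fun x : Subgroup.centralizer ({z} : Set G) => k (π x)) e
      · rw [show (h : G) * t * (h : G)⁻¹ = _ from e, M.lx.cen t h1, M.zmul h1]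
    · rintro ⟨⟨h, rfl⟩, h5⟩
      refine ⟨h, (hS h).2 ((M'.uniq h1 (M.norm h h1) ((M'.conj h t h1).trans h5).symm).imp
        Subtype.ext fun e => e.trans (M.lx.cen t h1).symm), rfl⟩
  obtain ⟨e1⟩ := H15.LF.equiv_Hd
  refine ⟨((Subgroup.equivMapOfInjective _ (QuotientGroup.lift Q ρ' hq.le)
    ((QuotientGroup.injective_lift_iff Q ρ' hq.le).2 hq)).trans (MulEquiv.subgroupCongr ?_)).trans e1⟩
  rw [Subgroup.map_map, QuotientGroup.lift_comp_mk', h4]

end Cfsg.Agent.S5443
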