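import Cfsg.Statements.S5444
import Cfsg.Agent.H15.LF.A3

set_option autoImplicit false
open Cfsg

namespace Cfsg.Agent.S5444

/-- Let G be a finite group of large Fischer type at the involution z: the generalized Fitting subgroup Q of H = C_G(z) is extraspecial of order 2^13, H has normal subgroups Q ≤ H₁ ≤ H₂ with H₁/Q of order 3, H₂/H₁ the projective special unitary group of dimension 4 over the field with nine elements and H₂ of index 2 in H, and some conjugate of z other than z lies in Q. Let T be a Sylow 2-subgroup of H. Then T has exactly one elementary abelian subgroup A of largest order; A has order 2^11, it meets Q in a subgroup of order 2^7, and its image in H/Q has order 16. -/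
theorem result {G : Type*} [Group G] [Finite G] (z : G) (Q : Subgroup (Subgroup.centralizer ({z} : Set G))) [Q.Normal] (hF : Cfsg.IsOfLargeFischerTypeAt z Q) (T : Sylow 2 ↥(Subgroup.centralizer ({z} : Set G))) : ∃ A : Subgroup ↥(T : Subgroup (Subgroup.centralizer ({z} : Set G))), Cfsg.maxElementaryAbelianSubgroups 2 ↥(T : Subgroup (Subgroup.centralizer ({z} : Set G))) = {A} ∧ Nat.card A = 2 ^ 11 ∧ Nat.card ↥(A.map (T : Subgroup (Subgroup.centralizer ({z} : Set G))).subtype ⊓ Q) = 2 ^ 7 ∧ Nat.card ↥((A.map (T : Subgroup (Subgroup.centralizer ({z} : Set G))).subtype).map (QuotientGroup.mk' Q)) = 16 := by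
  obtain ⟨π, ρ, M⟩ := H15.LF.exists_FH hF
  obtain ⟨π', ρ', M', h1, h2⟩ := M.model_sylow T
  have h3 : M'.AA.subgroupOf _ ≤ (T : Subgroup (Subgroup.centralizer ({z} : Set G))) := fun a ha =>
    (Subgroup.mem_map_iff_mem (Subgroup.subtype_injective _)).1 (h1 ha)
  have h4 := Nat.card_congr (Subgroup.subgroupOfEquivOfLe M'.AA_le).toEquiv
  rw [M'.card_AA] at h4
  have h5 : Nat.card (M'.AA.subgroupOf (Subgroup.centralizer ({z} : Set G)) ⊓ Q : Subgroup _) = 2 ^ 7 := by
    rw [← Subgroup.card_subtype, Subgroup.map_inf_eq _ _ _ (Subgroup.subtype_injective _),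
      Subgroup.subgroupOf_map_subtype, inf_of_le_left M'.AA_le, M'.AA_inf, M'.card_preU]; rfl
  refine ⟨_, H15.LF.max_ea_eq h3 (fun a ha => Subtype.ext (M'.AA_sq a ha)) fun B hB h6 h7 => ?_,
    (Nat.card_congr (Subgroup.subgroupOfEquivOfLe h3).toEquiv).trans h4, ?_⟩
  · rw [← h2 (B.map (Subgroup.subtype _)) (Subgroup.map_mono hB) (by
      rintro _ ⟨b, hb, rfl⟩
      rw [← map_mul, h6 b hb, map_one]) (by rw [Subgroup.card_subtype, ← h4]; exact h7)]
    exact (Subgroup.comap_map_eq_self_of_injective (Subgroup.subtype_injective _) _).symm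
  · rw [Subgroup.subgroupOf_map_subtype, inf_of_le_left h3]
    have := H15.LF.card_mul_ker (QuotientGroup.mk' Q) (M'.AA.subgroupOf _)
    rw [QuotientGroup.ker_mk', h4, h5] at this
    exact ⟨h5, by omega⟩

end Cfsg.Agent.S5444
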