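import Cfsg.Statements.S5446
import Cfsg.Agent.H15.LF.A7

set_option autoImplicit false
open Cfsg

namespace Cfsg.Agent.S5446

/-- Let G be a finite group of large Fischer type at the involution z: the generalized Fitting subgroup Q of H = C_G(z) is extraspecial of order 2^13, H has normal subgroups Q ≤ H₁ ≤ H₂ with H₁/Q of order 3, H₂/H₁ the projective special unitary group of dimension 4 over the field with nine elements and H₂ of index 2 in H, and some conjugate of z other than z lies in Q. Let T be a Sylow 2-subgroup of G, A its Thompson subgroup (generated by the elementary abelian subgroups of T of largest order) and M = N_G(A) its normalizer. Then A is elementary abelian of order 2^11 and M/A is isomorphic to the Mathieu group of degree 24 (the automorphism group of the length-24 binary Golay code). -/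
theorem result {G : Type*} [Group G] [Finite G] (z : G) (Q : Subgroup (Subgroup.centralizer ({z} : Set G))) [Q.Normal] (hF : Cfsg.IsOfLargeFischerTypeAt z Q) (T : Sylow 2 G) (A M : Subgroup G) (hA : A = Cfsg.thompsonSubgroupOf 2 (T : Subgroup G)) (hM : M = Subgroup.normalizer (A : Set G)) : Cfsg.IsElementaryAbelian 2 A ∧ Nat.card A = 2 ^ 11 ∧ ∃ _ : (A.subgroupOf M).Normal, Nonempty (↥M ⧸ A.subgroupOf M ≃* ↥Cfsg.M24) := by
  obtain ⟨π, ρ, M₀⟩ := H15.LF.exists_FH hF
  obtain ⟨g, π', ρ', M', -, -, e⟩ := M₀.model_thompson T
  rw [e] at hA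
  subst hA hM
  obtain ⟨ψ, κ, -, -, -, -, -, h1, h2, -⟩ := M'.todd
  obtain ⟨e1⟩ := H15.LF.equiv_Sg
  rw [show M'.AA.subgroupOf _ = κ.ker from Subgroup.ext fun m => (h1 m).symm]
  exact ⟨H15.LF.ea_of_sq M'.AA_sq, M'.card_AA, inferInstance,
    ⟨((QuotientGroup.quotientKerEquivRange κ).trans (MulEquiv.subgroupCongr h2)).trans e1⟩⟩

end Cfsg.Agent.S5446
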