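import Cfsg.Statements.S5447
import Cfsg.Agent.H15.LF.A7

set_option autoImplicit false
open Cfsg

namespace Cfsg.Agent.S5447

/-- Let G be a finite group of large Fischer type at the involution z: the generalized Fitting subgroup Q of H = C_G(z) is extraspecial of order 2^13, H has normal subgroups Q ≤ H₁ ≤ H₂ with H₁/Q of order 3, H₂/H₁ the projective special unitary group of dimension 4 over the field with nine elements and H₂ of index 2 in H, and some conjugate of z other than z lies in Q. Let T be a Sylow 2-subgroup of G, A its Thompson subgroup and M = N_G(A) its normalizer. Then M controls fusion in A (elements of A conjugate in G are conjugate in M), and M has exactly two orbits on the non-identity elements of A: those conjugate to z in G and those not. -/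
theorem result {G : Type*} [Group G] [Finite G] (z : G) (Q : Subgroup (Subgroup.centralizer ({z} : Set G))) [Q.Normal] (hF : Cfsg.IsOfLargeFischerTypeAt z Q) (T : Sylow 2 G) (A M : Subgroup G) (hA : A = Cfsg.thompsonSubgroupOf 2 (T : Subgroup G)) (hM : M = Subgroup.normalizer (A : Set G)) : (∀ a ∈ A, ∀ g : G, g * a * g⁻¹ ∈ A → ∃ m ∈ M, m * a * m⁻¹ = g * a * g⁻¹) ∧ (∃ a ∈ A, a ≠ 1 ∧ IsConj z a) ∧ (∃ a ∈ A, a ≠ 1 ∧ ¬ IsConj z a) ∧ ∀ a ∈ A, ∀ b ∈ A, a ≠ 1 → b ≠ 1 → (IsConj z a ↔ IsConj z b) → ∃ m ∈ M, m * a * m⁻¹ = b := by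
  obtain ⟨π, ρ, M₀⟩ := H15.LF.exists_FH hF
  obtain ⟨g, π', ρ', M', -, -, e⟩ := M₀.model_thompson T
  rw [e] at hA
  subst hA hM
  obtain ⟨ψ, κ, h1, h2, h3, h4, h5, -, h6, h7⟩ := M'.todd
  have hz : IsConj z (g * z * g⁻¹) := isConj_iff.2 ⟨g, rfl⟩
  have h8 : ∀ v, ψ v ≠ 1 → (¬ IsConj z (ψ v) ↔ v ∈ H15.LF.T0) := fun v hv => by
    rw [show IsConj z (ψ v) ↔ _ from ⟨hz.symm.trans, hz.trans⟩, h7,
      and_iff_left fun e : v = 0 => hv (e ▸ h4), not_not]
  have h9 : H15.F2.dec 11 644 ∈ H15.LF.T0 := (H15.LF.dec_mem_T0 (by decide)).2 (by decide +kernel)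
  have h10 : ψ (H15.F2.dec 11 644) ≠ 1 := fun e => H15.LF.zero_notMem_T0 (h1 (e.trans h4.symm) ▸ h9)
  refine ⟨fun a ha g => M'.fusion ha, ⟨_, M'.pre_le M'.z_pre, M'.lx.ne, hz⟩,
    ⟨_, h2 _, h10, (h8 _ h10).2 h9⟩, fun a ha b hb a1 b1 e => ?_⟩
  by_cases h : IsConj z a
  · obtain ⟨c, rfl⟩ := isConj_iff.1 (h.symm.trans (e.1 h))
    exact M'.fusion ha hb
  obtain ⟨u, rfl⟩ := h3 a ha
  obtain ⟨v, rfl⟩ := h3 b hb
  obtain ⟨f, hf, rfl⟩ := H15.LF.trans_T0 ((h8 u a1).1 h)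
  obtain ⟨k, hk, rfl⟩ := H15.LF.trans_T0 ((h8 v b1).1 (mt e.2 h))
  obtain ⟨m, hm⟩ := h6.ge (mul_mem hk (inv_mem hf))
  exact ⟨m, m.2, by rw [← h5, hm]; exact congrArg (fun v => ψ (k v)) (f.symm_apply_apply _)⟩

end Cfsg.Agent.S5447
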