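import Cfsg.Statements.S5448
import Cfsg.Agent.H15.LF.A7

set_option autoImplicit false
open scoped Pointwise
open Cfsg

namespace Cfsg.Agent.S5448

/-- Let G be a finite group of large Fischer type at the involution z: the generalized Fitting subgroup Q of H = C_G(z) is extraspecial of order 2^13, H has normal subgroups Q ≤ H₁ ≤ H₂ with H₁/Q of order 3, H₂/H₁ the projective special unitary group of dimension 4 over the field with nine elements and H₂ of index 2 in H, and some conjugate of z other than z lies in Q. Let T be a Sylow 2-subgroup of G, A its Thompson subgroup, M = N_G(A) its normalizer, and t an involution of A not conjugate to z in G. Then the centralizer of t in M, modulo A, is isomorphic to the setwise stabilizer of a two-element subset of the 24 points in the Mathieu group of degree 24 (the automorphism group of the smaller Mathieu group on 22 points). -/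
theorem result {G : Type*} [Group G] [Finite G] (z : G) (Q : Subgroup (Subgroup.centralizer ({z} : Set G))) [Q.Normal] (hF : Cfsg.IsOfLargeFischerTypeAt z Q) (T : Sylow 2 G) (A M : Subgroup G) (hA : A = Cfsg.thompsonSubgroupOf 2 (T : Subgroup G)) (hM : M = Subgroup.normalizer (A : Set G)) (t : G) (htA : t ∈ A) (ht2 : orderOf t = 2) (ht : ¬ IsConj z t) : ∃ _ : (A.subgroupOf (M ⊓ Subgroup.centralizer ({t} : Set G))).Normal, Nonempty (↥(M ⊓ Subgroup.centralizer ({t} : Set G)) ⧸ A.subgroupOf (M ⊓ Subgroup.centralizer ({t} : Set G)) ≃* ↥(Cfsg.M24 ⊓ MulAction.stabilizer (Equiv.Perm Cfsg.GolayPt) ({none, some 0} : Set Cfsg.GolayPt))) := by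
  obtain ⟨π, ρ, M₀⟩ := H15.LF.exists_FH hF
  obtain ⟨g, π', ρ', M', -, -, e⟩ := M₀.model_thompson T
  rw [e] at hA
  subst hA hM
  obtain ⟨ψ, κ, h1, h2, h3, h4, h5, h8, h6, h7⟩ := M'.todd
  obtain ⟨v, rfl⟩ := h3 t htA
  obtain ⟨f, hf, rfl⟩ := H15.LF.trans_T0 (v := v) (by_contra fun h => ht ((isConj_iff.2 ⟨g, rfl⟩).trans
    ((h7 v).2 ⟨h, fun e => by rw [e, h4, orderOf_one] at ht2; omega⟩)))
  obtain ⟨e1⟩ := H15.LF.equiv_stab
  let φ := ((MulAut.conj f⁻¹).toMonoidHom.comp κ).comp (Subgroup.inclusion (inf_le_left :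
    _ ⊓ Subgroup.centralizer {ψ (f (H15.F2.dec 11 644))} ≤ _))
  have hc : ∀ m, κ m (f (H15.F2.dec 11 644)) = f (H15.F2.dec 11 644) ↔
      (m : G) ∈ Subgroup.centralizer {ψ (f (H15.F2.dec 11 644))} := fun m => by
    rw [← h1.eq_iff, h5, mul_inv_eq_iff_eq_mul, Subgroup.mem_centralizer_singleton_iff]
  have h9 : φ.range = H15.LF.Sg ⊓ MulAction.stabilizer _ (H15.F2.dec 11 644) := by
    ext k
    constructor
    · rintro ⟨m, rfl⟩
      exact ⟨H15.LF.Sg.mul_mem (H15.LF.Sg.mul_mem (H15.LF.Sg.inv_mem hf) (h6.le ⟨_, rfl⟩))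
        (H15.LF.Sg.inv_mem (H15.LF.Sg.inv_mem hf)),
        (congrArg f.symm ((hc ⟨m, m.2.1⟩).2 m.2.2)).trans (f.symm_apply_apply _)⟩
    · rintro ⟨k1, k2⟩
      obtain ⟨m, hm⟩ := h6.ge (mul_mem (mul_mem hf k1) (inv_mem hf))
      refine ⟨⟨m, m.2, (hc m).1 ?_⟩, show f⁻¹ * κ m * f⁻¹⁻¹ = k by rw [hm]; group⟩
      rw [hm]
      exact congrArg f ((congrArg k (f.symm_apply_apply _)).trans k2)
  rw [show M'.AA.subgroupOf _ = φ.ker from Subgroup.ext fun m =>
    ((MulAut.conj f⁻¹).map_eq_one_iff.trans (h8 ⟨m, m.2.1⟩)).symm]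
  exact ⟨inferInstance, ⟨((QuotientGroup.quotientKerEquivRange φ).trans (MulEquiv.subgroupCongr h9)).trans e1⟩⟩

end Cfsg.Agent.S5448
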