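import Cfsg.Statements.S5451
import Cfsg.Agent.H15.LF.A8

set_option autoImplicit false
open Cfsg

namespace Cfsg.Agent.S5451

/-- Let G be a finite group of large Fischer type at the involution z: the generalized Fitting subgroup Q of H = C_G(z) is extraspecial of order 2^13, H has normal subgroups Q ≤ H₁ ≤ H₂ with H₁/Q of order 3, H₂/H₁ the projective special unitary group of dimension 4 over the field with nine elements and H₂ of index 2 in H, and some conjugate of z other than z lies in Q. Let X be a subgroup of H of order 3 whose product with Q is normal in H (X maps onto the normal subgroup of order 3 of H/Q). Then the centralizer of X in H is quasisimple with cyclic centre of order 6 and central quotient isomorphic to the projective special unitary group of dimension 4 over the field with nine elements. -/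
theorem result {G : Type*} [Group G] [Finite G] (z : G) (Q : Subgroup (Subgroup.centralizer ({z} : Set G))) [Q.Normal] (hF : Cfsg.IsOfLargeFischerTypeAt z Q) (X : Subgroup (Subgroup.centralizer ({z} : Set G))) (hX : Nat.card X = 3) (hXQ : (X ⊔ Q).Normal) : Cfsg.IsQuasisimple ↥(Subgroup.centralizer ((X : Subgroup (Subgroup.centralizer ({z} : Set G))) : Set (Subgroup.centralizer ({z} : Set G)))) ∧ IsCyclic ↥(Subgroup.center ↥(Subgroup.centralizer ((X : Subgroup (Subgroup.centralizer ({z} : Set G))) : Set (Subgroup.centralizer ({z} : Set G))))) ∧ Nat.card ↥(Subgroup.center ↥(Subgroup.centralizer ((X : Subgroup (Subgroup.centralizer ({z} : Set G))) : Set (Subgroup.centralizer ({z} : Set G))))) = 6 ∧ ∃ (K : Type) (_ : Field K) (_ : Fintype K), Fintype.card K = 9 ∧ Nonempty (↥(Subgroup.centralizer ((X : Subgroup (Subgroup.centralizer ({z} : Set G))) : Set (Subgroup.centralizer ({z} : Set G)))) ⧸ Subgroup.center ↥(Subgroup.centralizer ((X : Subgroup (Subgroup.centralizer ({z} : Set G))) : Set (Subgroup.centralizer ({z} : Set G)))) ≃* Cfsg.PSU 4 K 3) := by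
  obtain ⟨π, ρ, M⟩ := H15.LF.exists_FH hF
  obtain ⟨x, h1, h2, rfl⟩ := M.exists_gen hX (by
    rwa [M.ker_eq, Subgroup.subgroupOf, Subgroup.comap_map_eq_self_of_injective (Subgroup.subtype_injective _)])
  rw [Subgroup.zpowers_eq_closure, Subgroup.centralizer_closure]
  obtain ⟨h3, h4, ⟨e⟩⟩ := M.cent_x h1 h2
  obtain ⟨e'⟩ := H15.LF.U43.equiv (H56.TF.card H56.F9)
  have := H15.LF.U43.simple
  refine ⟨⟨⟨h3⟩, e.isSimpleGroup⟩, ?_, h4, _, _, _, H56.TF.card H56.F9, ⟨e.trans e'.symm⟩⟩
  have := IsZGroup.of_squarefree (h4 ▸ (by decide +kernel : Squarefree 6))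
  have : Group.IsNilpotent (Subgroup.center (Subgroup.centralizer {x} : Subgroup _)) :=
    Group.of_quotient_center_nilpotent (by
      have : Subsingleton _ := QuotientGroup.subsingleton_iff.2
        (Subgroup.center_eq_top_iff.2 (Subgroup.center.isMulCommutative
          (G := (Subgroup.centralizer {x} : Subgroup _))))
      infer_instance)
  infer_instance

end Cfsg.Agent.S5451
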