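import Cfsg.Statements.S5459

set_option autoImplicit false
open Cfsg

namespace Cfsg.Agent.S5459

open scoped commutatorElement

/-- conjugation as a graph homomorphism of the commuting graph of a class -/
def conjHom {G : Type*} [Group G] (d g : G) :
    Cfsg.commutingGraph (conjugatesOf d) →g Cfsg.commutingGraph (conjugatesOf d) where
  toFun x := ⟨g * x.1 * g⁻¹, IsConj.trans x.2 (isConj_iff.2 ⟨g, rfl⟩)⟩
  map_rel' := by
    intro x y h
    unfold Cfsg.commutingGraph at h ⊢
    rw [SimpleGraph.fromRel_adj] at h ⊢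
    refine ⟨fun e => h.1 ?_, ?_⟩
    · have := congrArg Subtype.val e
      simp only [mul_left_inj, mul_right_inj] at this
      exact Subtype.ext this
    · have hc : Commute x.1 y.1 := h.2.elim id Commute.symm
      left
      show g * x.1 * g⁻¹ * (g * y.1 * g⁻¹) = g * y.1 * g⁻¹ * (g * x.1 * g⁻¹)
      calc g * x.1 * g⁻¹ * (g * y.1 * g⁻¹) = g * (x.1 * y.1) * g⁻¹ := by group
        _ = g * (y.1 * x.1) * g⁻¹ := by rw [hc.eq]
        _ = _ := by group

theorem reach_of_commute {G : Type*} [Group G] (d : G) (x y : conjugatesOf d) (h : Commute x.1 y.1) :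
    (Cfsg.commutingGraph (conjugatesOf d)).Reachable x y := by
  by_cases e : x = y
  · rw [e]
  · apply SimpleGraph.Adj.reachable
    unfold Cfsg.commutingGraph
    rw [SimpleGraph.fromRel_adj]
    exact ⟨e, Or.inl h⟩

theorem cpow {G : Type*} [Group G] (a r : G) (h : a * r * a⁻¹ = r⁻¹) (j : ℕ) :
    a * r ^ j = (r ^ j)⁻¹ * a := by
  have h1 : a * r ^ j * a⁻¹ = (r ^ j)⁻¹ := by
    rw [← conj_pow, h, inv_pow]
  rw [← h1]; group

/-- Let G be a finite group with a quasisimple normal subgroup L and an involution d such that G is generated by L and d, the centre of L has odd order, and d inverts every element of the centre of L. If the commuting graph on the conjugacy class of the image of d in G modulo the centre of L is connected, then the commuting graph on the conjugacy class of d is connected. -/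
theorem result {G : Type*} [Group G] [Finite G] (L : Subgroup G) [L.Normal] (hL : Cfsg.IsQuasisimple ↥L) (d : G) (hd : orderOf d = 2) (hgen : L ⊔ Subgroup.zpowers d = ⊤) (hodd : Odd (Nat.card ↥(Subgroup.center ↥L))) (hinv : ∀ c ∈ (Subgroup.center ↥L).map L.subtype, d * c * d⁻¹ = c⁻¹) [hn : ((Subgroup.center ↥L).map L.subtype).Normal] (hconn : (Cfsg.commutingGraph (conjugatesOf (QuotientGroup.mk d : G ⧸ (Subgroup.center ↥L).map L.subtype))).Connected) : (Cfsg.commutingGraph (conjugatesOf d)).Connected := by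
  set Z := (Subgroup.center ↥L).map L.subtype with hZ
  obtain ⟨m, hm⟩ := hodd
  have hcardZ : Nat.card Z = 2 * m + 1 := by
    rw [hZ, Subgroup.card_map_of_injective L.subtype_injective, hm]
  have hZpow : ∀ c ∈ Z, c ^ (2 * m + 1) = 1 := by
    intro c hc
    have := pow_card_eq_one' (G := Z) (x := ⟨c, hc⟩)
    rw [hcardZ] at this
    exact congrArg Subtype.val this
  have hZL : ∀ c ∈ Z, c ∈ L := by
    rintro c ⟨c', -, rfl⟩; exact c'.2
  have hZc : ∀ c ∈ Z, ∀ l ∈ L, c * l = l * c := by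
    rintro c ⟨c', hc', rfl⟩ l hl
    have := Subgroup.mem_center_iff.1 hc' ⟨l, hl⟩
    exact (congrArg Subtype.val this).symm
  have hsq : ∀ x ∈ conjugatesOf d, x * x = 1 := by
    intro x hx
    obtain ⟨g, rfl⟩ := isConj_iff.1 hx
    have : d * d = 1 := by rw [← sq, ← hd]; exact pow_orderOf_eq_one _
    calc g * d * g⁻¹ * (g * d * g⁻¹) = g * (d * d) * g⁻¹ := by group
      _ = 1 := by rw [this]; group
  have hinv' : ∀ x ∈ conjugatesOf d, ∀ c ∈ Z, x * c * x⁻¹ = c⁻¹ := by
    intro x hx c hc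
    obtain ⟨g, rfl⟩ := isConj_iff.1 hx
    have h1 : g⁻¹ * c * g ∈ Z := by simpa using hn.conj_mem c hc g⁻¹
    have h2 := hinv _ h1
    calc g * d * g⁻¹ * c * (g * d * g⁻¹)⁻¹ = g * (d * (g⁻¹ * c * g) * d⁻¹) * g⁻¹ := by group
      _ = c⁻¹ := by rw [h2]; group
  let d0 : conjugatesOf d := ⟨d, IsConj.refl d⟩
  let π : conjugatesOf d → conjugatesOf (QuotientGroup.mk d : G ⧸ Z) :=
    fun x => ⟨QuotientGroup.mk x.1, (QuotientGroup.mk' Z).map_isConj x.2⟩
  have πsurj : Function.Surjective π := by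
    rintro ⟨y, hy⟩
    obtain ⟨g, rfl⟩ := isConj_iff.1 hy
    obtain ⟨g, rfl⟩ := QuotientGroup.mk_surjective g
    exact ⟨⟨g * d * g⁻¹, isConj_iff.2 ⟨g, rfl⟩⟩, rfl⟩
  -- edge lifting
  have lift : ∀ (x y : conjugatesOf d), Commute (π x).1 (π y).1 →
      ∃ y' : conjugatesOf d, π y' = π y ∧ Commute x.1 y'.1 := by
    intro x y hc
    have hx2 := hsq x.1 x.2
    have hy2 := hsq y.1 y.2
    have hxinv : x.1⁻¹ = x.1 := inv_eq_of_mul_eq_one_right hx2
    have hyinv : y.1⁻¹ = y.1 := inv_eq_of_mul_eq_one_right hy2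
    obtain ⟨r, hr⟩ : ∃ r, r = x.1 * y.1 := ⟨_, rfl⟩
    have hra : x.1 * r * x.1⁻¹ = r⁻¹ := by
      rw [hr, mul_inv_rev, hxinv, hyinv, ← mul_assoc, hx2, one_mul]
    have hy : y.1 = x.1 * r := by rw [hr, ← mul_assoc, hx2, one_mul]
    have hr2 : r ^ 2 ∈ Z := by
      rw [← QuotientGroup.eq_one_iff]
      have e1 : ((x.1 : G ⧸ Z)) * (y.1 : G ⧸ Z) = (y.1 : G ⧸ Z) * (x.1 : G ⧸ Z) := hc.eq
      have e2 : ((x.1 : G ⧸ Z)) * (x.1 : G ⧸ Z) = 1 := by rw [← QuotientGroup.mk_mul, hx2]; rfl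
      have e3 : ((y.1 : G ⧸ Z)) * (y.1 : G ⧸ Z) = 1 := by rw [← QuotientGroup.mk_mul, hy2]; rfl
      rw [hr, sq, QuotientGroup.mk_mul, QuotientGroup.mk_mul]
      calc (x.1 : G ⧸ Z) * y.1 * (x.1 * y.1) = x.1 * (y.1 * x.1) * y.1 := by group
        _ = (x.1 * x.1) * (y.1 * y.1) := by rw [← e1]; group
        _ = 1 := by rw [e2, e3, one_mul]
    have hodd' : IsConj y.1 (x.1 * r ^ (2 * m + 1)) := by
      refine isConj_iff.2 ⟨(r ^ m)⁻¹, ?_⟩
      rw [inv_inv, hy, ← mul_assoc, ← cpow x.1 r hra m, two_mul, pow_succ, pow_add]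
      have : Commute r (r ^ m) := (Commute.refl r).pow_right m
      simp only [mul_assoc]
      rw [this.eq]
    refine ⟨⟨x.1 * r ^ (2 * m + 1), IsConj.trans y.2 hodd'⟩, ?_, ?_⟩
    · apply Subtype.ext
      show ((x.1 * r ^ (2 * m + 1) : G) : G ⧸ Z) = (y.1 : G ⧸ Z)
      symm
      rw [QuotientGroup.eq, hy, pow_succ', pow_mul]
      have : (x.1 * r)⁻¹ * (x.1 * (r * (r ^ 2) ^ m)) = (r ^ 2) ^ m := by group
      rw [this]; exact Z.pow_mem hr2 m
    · have hzz : r ^ (2 * m + 1) * r ^ (2 * m + 1) = 1 := by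
        rw [← sq, ← pow_mul, mul_comm, pow_mul]; exact hZpow _ hr2
      have hzinv : (r ^ (2 * m + 1))⁻¹ = r ^ (2 * m + 1) := inv_eq_of_mul_eq_one_right hzz
      have : Commute x.1 (r ^ (2 * m + 1)) := by
        show x.1 * _ = _ * x.1
        rw [cpow x.1 r hra, hzinv]
      exact (Commute.refl x.1).mul_right this
  have step1 : ∀ (u v : conjugatesOf (QuotientGroup.mk d : G ⧸ Z))
      (_ : (Cfsg.commutingGraph (conjugatesOf (QuotientGroup.mk d : G ⧸ Z))).Walk u v) (x : conjugatesOf d),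
      π x = u → ∃ y, π y = v ∧ (Cfsg.commutingGraph (conjugatesOf d)).Reachable x y := by
    intro u v w
    induction w with
    | nil => intro x hx; exact ⟨x, hx, SimpleGraph.Reachable.refl _⟩
    | @cons u u' v h w ih =>
      intro x hx
      obtain ⟨y, rfl⟩ := πsurj u'
      have hc : Commute (π x).1 (π y).1 := by
        unfold Cfsg.commutingGraph at h
        rw [SimpleGraph.fromRel_adj] at h
        rw [hx]
        exact h.2.elim id Commute.symm
      obtain ⟨y', hy', hc'⟩ := lift x y hc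
      obtain ⟨w', hw', hr⟩ := ih y' hy'
      exact ⟨w', hw', (reach_of_commute d x y' hc').trans hr⟩
  -- the stabiliser of the component
  let K : Subgroup G :=
    { carrier := {g | (Cfsg.commutingGraph (conjugatesOf d)).Reachable d0 (conjHom d g d0)}
      mul_mem' := by
        intro a b ha hb
        have h1 := hb.map (conjHom d a)
        have e : conjHom d a (conjHom d b d0) = conjHom d (a * b) d0 := by
          apply Subtype.ext
          show a * (b * d * b⁻¹) * a⁻¹ = a * b * d * (a * b)⁻¹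
          group
        rw [e] at h1
        exact SimpleGraph.Reachable.trans ha h1
      one_mem' := by
        have e : conjHom d 1 d0 = d0 := by
          apply Subtype.ext
          show 1 * d * 1⁻¹ = d
          group
        show (Cfsg.commutingGraph (conjugatesOf d)).Reachable d0 (conjHom d 1 d0)
        rw [e]
      inv_mem' := by
        intro a ha
        have h1 := SimpleGraph.Reachable.map (conjHom d a⁻¹) ha
        have e : conjHom d a⁻¹ (conjHom d a d0) = d0 := by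
          apply Subtype.ext
          show a⁻¹ * (a * d * a⁻¹) * a⁻¹⁻¹ = d
          group
        rw [e] at h1
        exact h1.symm }
  have step2 : ∀ g : G, ∃ z ∈ Z, z * g ∈ K := by
    intro g
    obtain ⟨w⟩ := hconn.preconnected (π d0) (π (conjHom d g d0))
    obtain ⟨y, hy, hr⟩ := step1 _ _ w d0 rfl
    have h1 : (y.1 : G ⧸ Z) = ((g * d * g⁻¹ : G) : G ⧸ Z) := congrArg Subtype.val hy
    obtain ⟨x, hx⟩ : ∃ x, x = g * d * g⁻¹ := ⟨_, rfl⟩
    have hxD : x ∈ conjugatesOf d := isConj_iff.2 ⟨g, hx.symm⟩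
    rw [← hx, eq_comm, QuotientGroup.eq] at h1
    obtain ⟨c, hc⟩ : ∃ c, c = x⁻¹ * y.1 := ⟨_, rfl⟩
    rw [← hc] at h1
    have hy' : y.1 = x * c := by rw [hc]; group
    have h2 := cpow x c (hinv' x hxD c h1) (m + 1)
    refine ⟨(c ^ (m + 1))⁻¹, Z.inv_mem (Z.pow_mem h1 _), ?_⟩
    show (Cfsg.commutingGraph (conjugatesOf d)).Reachable d0 (conjHom d _ d0)
    have e : conjHom d ((c ^ (m + 1))⁻¹ * g) d0 = y := by
      apply Subtype.ext
      show (c ^ (m + 1))⁻¹ * g * d * ((c ^ (m + 1))⁻¹ * g)⁻¹ = y.1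
      calc (c ^ (m + 1))⁻¹ * g * d * ((c ^ (m + 1))⁻¹ * g)⁻¹
          = (c ^ (m + 1))⁻¹ * (g * d * g⁻¹) * c ^ (m + 1) := by group
        _ = x * c ^ (m + 1) * c ^ (m + 1) := by rw [← hx, h2]
        _ = x * c * c ^ (2 * m + 1) := by group
        _ = y.1 := by rw [hZpow c h1, mul_one, hy']
    rw [e]; exact hr
  have step3 : ∀ l ∈ L, l ∈ K := by
    have h1 : commutator L ≤ K.subgroupOf L := by
      rw [commutator_def, Subgroup.commutator_le]
      intro a _ b _
      obtain ⟨z, hz, hza⟩ := step2 a.1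
      obtain ⟨w, hw, hwb⟩ := step2 b.1
      rw [Subgroup.mem_subgroupOf]
      have h3 : ⁅z * a.1, w * b.1⁆ ∈ K := by
        rw [commutatorElement_def]
        exact K.mul_mem (K.mul_mem (K.mul_mem hza hwb) (K.inv_mem hza)) (K.inv_mem hwb)
      have cz : ∀ l ∈ L, Commute z l := fun l hl => hZc z hz l hl
      have cw : ∀ l ∈ L, Commute w l := fun l hl => hZc w hw l hl
      have e : ⁅z * a.1, w * b.1⁆ = ((⁅a, b⁆ : L) : G) := by
        have c1 := (cz _ (L.mul_mem (L.mul_mem a.2 (L.mul_mem (hZL w hw) b.2)) (L.inv_mem a.2))).eq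
        have c2 := (cw _ a.2).eq
        have c3 := (cw _ (L.mul_mem (L.mul_mem (L.mul_mem a.2 b.2) (L.inv_mem a.2)) (L.inv_mem b.2))).eq
        rw [commutatorElement_def, commutatorElement_def]
        show _ = a.1 * b.1 * a.1⁻¹ * b.1⁻¹
        calc z * a.1 * (w * b.1) * (z * a.1)⁻¹ * (w * b.1)⁻¹
            = (z * (a.1 * (w * b.1) * a.1⁻¹)) * z⁻¹ * (w * b.1)⁻¹ := by group
          _ = a.1 * w * b.1 * a.1⁻¹ * (w * b.1)⁻¹ := by rw [c1]; group
          _ = (w * (a.1 * b.1 * a.1⁻¹ * b.1⁻¹)) * w⁻¹ := by rw [← c2]; group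
          _ = _ := by rw [c3]; group
      rw [← e]; exact h3
    intro l hl
    have h2 : commutator L = ⊤ := hL.1.commutator_eq_top
    have : (⟨l, hl⟩ : L) ∈ K.subgroupOf L := h1 (h2 ▸ Subgroup.mem_top _)
    exact this
  have step4 : ∀ x : conjugatesOf d, (Cfsg.commutingGraph (conjugatesOf d)).Reachable d0 x := by
    rintro ⟨x, hx⟩
    obtain ⟨g, rfl⟩ := isConj_iff.1 hx
    obtain ⟨z, hz, hzg⟩ := step2 g
    have : g ∈ K := by
      have := K.mul_mem (K.inv_mem (step3 z (hZL z hz))) hzg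
      simpa using this
    exact this
  have : Nonempty (conjugatesOf d) := ⟨d0⟩
  exact ⟨fun x y => (step4 x).symm.trans (step4 y)⟩

end Cfsg.Agent.S5459
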