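import Cfsg.Statements.S5520
import Cfsg.Agent.H15.LF.SU

set_option autoImplicit false
open Cfsg

namespace Cfsg.Agent.S5520

open Subgroup H15 H15.LF H97

/-- In the special unitary group of dimension 6 over the field with four elements (determinant-one matrices preserving the standard Hermitian form), the subgroups K whose centre has order 3 with K modulo its centre isomorphic to the projective special unitary group of dimension 4 over the field with nine elements fall into exactly three conjugacy classes. -/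
theorem result (F : Type) [Field F] [Fintype F] (hF : Fintype.card F = 4) (F9 : Type) [Field F9] [Fintype F9] (hF9 : Fintype.card F9 = 9) : ∃ K₁ K₂ K₃ : Subgroup ↥(Cfsg.SU 6 F 2), (∀ K ∈ [K₁, K₂, K₃], Nat.card ↥(Subgroup.center ↥K) = 3 ∧ Nonempty (↥K ⧸ Subgroup.center ↥K ≃* Cfsg.PSU 4 F9 3)) ∧ (¬ ∃ g : ↥(Cfsg.SU 6 F 2), K₁.map (MulAut.conj g).toMonoidHom = K₂) ∧ (¬ ∃ g : ↥(Cfsg.SU 6 F 2), K₁.map (MulAut.conj g).toMonoidHom = K₃) ∧ (¬ ∃ g : ↥(Cfsg.SU 6 F 2), K₂.map (MulAut.conj g).toMonoidHom = K₃) ∧ ∀ K : Subgroup ↥(Cfsg.SU 6 F 2), Nat.card ↥(Subgroup.center ↥K) = 3 → Nonempty (↥K ⧸ Subgroup.center ↥K ≃* Cfsg.PSU 4 F9 3) → ∃ g : ↥(Cfsg.SU 6 F 2), K.map (MulAut.conj g).toMonoidHom = K₁ ∨ K.map (MulAut.conj g).toMonoidHom = K₂ ∨ K.map (MulAut.conj g).toMonoidHom = K₃ := by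
  obtain ⟨σ, δ, hσ, hr, hδ, hd⟩ := exists_su F hF
  obtain ⟨e9⟩ := U43.equiv hF9
  obtain ⟨θ, hθ, hk⟩ := exists_theta
  have hKU : K0 ≤ Iso ⊓ Lin := fun a ha => ⟨(K0_le_W ha).1.1, K0_le_lin ha⟩
  have h3 : ∀ a : Fˣ, a ^ 3 = 1 := fun a => by
    have := pow_card_eq_one' (x := a)
    rwa [Nat.card_units, Nat.card_eq_fintype_card, hF] at this
  have hK : ∀ a (ha : a ∈ K0), δ ⟨a, hKU ha⟩ = 1 := fun a ha => by
    have : commutator K0 ≤ (δ.comp (inclusion hKU)).ker := Abelianization.commutator_subset_ker _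
    exact this (commutator_K0.ge (mem_top (⟨a, ha⟩ : K0)))
  let d : (Iso ⊓ Lin : Subgroup G12) := ⟨d1, d1_mem⟩
  have hle : ∀ f : (Iso ⊓ Lin : Subgroup G12), cjs (f : G12) K0 ≤ σ.range := by
    rintro f _ ⟨a, ha, rfl⟩
    exact (hδ (f * ⟨a, hKU ha⟩ * f⁻¹)).1 (by rw [map_mul, map_mul, hK a ha]; simp)
  let Kf : (Iso ⊓ Lin : Subgroup G12) → Subgroup (SU 6 F 2) := fun f => (cjs (f : G12) K0).comap σ
  have hcj : ∀ f (g : SU 6 F 2), (Kf f).map (MulAut.conj g).toMonoidHom = Kf (⟨σ g, hr ⟨g, rfl⟩⟩ * f) :=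
    fun f g => by
      ext a
      rw [show _ ↔ _ from mem_cjs (g := g) (a := a) (Q := Kf f)]
      simp only [Kf, mem_comap, mem_cjs, coe_mul, map_mul, map_inv, mul_inv_rev, mul_assoc]
  have hiso : ∀ f, Nat.card (center (Kf f)) = 3 ∧ Nonempty (Kf f ⧸ center (Kf f) ≃* PSU 4 F9 3) := fun f => by
    have e : Kf f ≃* K0 := ((Kf f).equivMapOfInjective σ hσ).trans ((MulEquiv.subgroupCongr
      (map_comap_eq_self (hle f))).trans (K0.equivMapOfInjective _ (MulAut.conj (f : G12)).injective).symm)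
    have hc : (θ.comp e.toMonoidHom).ker = center (Kf f) := by
      ext a
      rw [← MonoidHom.comap_ker, hk, ← center_K0, mem_comap, mem_center_iff, mem_center_iff]
      exact ⟨fun h g => e.injective (by rw [map_mul, map_mul]; exact h _), fun h g => by
        obtain ⟨g, rfl⟩ := e.surjective g
        exact (map_mul e _ _).symm.trans ((congrArg e (h g)).trans (map_mul e _ _))⟩
    have hs : Function.Surjective (θ.comp e.toMonoidHom) := hθ.comp e.surjective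
    refine ⟨?_, ⟨(QuotientGroup.quotientMulEquivOfEq hc.symm).trans
      ((QuotientGroup.quotientKerEquivOfSurjective _ hs).trans e9.symm)⟩⟩
    have h1 := (θ.comp e.toMonoidHom).ker.card_mul_index
    rw [index_ker, MonoidHom.range_eq_top.2 hs, card_top, U43.card,
      Nat.card_congr e.toEquiv, card_K0, hc] at h1
    omega
  have hne : ∀ f f' (g : SU 6 F 2), (Kf f).map (MulAut.conj g).toMonoidHom = Kf f' → δ f = δ f' :=
    fun f f' g h => by
      rw [hcj] at h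
      have h1 := congrArg (Subgroup.map σ) h
      rw [map_comap_eq_self (hle _), map_comap_eq_self (hle _)] at h1
      set k := f'⁻¹ * (⟨σ g, hr ⟨g, rfl⟩⟩ * f) with hk
      have hW : ((k⁻¹ : (Iso ⊓ Lin : Subgroup G12)) : G12) ∈ W := ⟨⟨k⁻¹.2.1, lin_le_slin k⁻¹.2.2⟩,
        mem_setStab_of_norm k⁻¹.2.1 fun a ha => by
          have := mem_cjs.1 (h1.le (conj_mem_cjs.2 ha))
          simpa [hk, mul_assoc] using this⟩
      have h4 := hK _ (pow_four_mem hW)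
      rw [show (⟨_, _⟩ : (Iso ⊓ Lin : Subgroup G12)) = k⁻¹ ^ 4 from rfl, map_pow, pow_succ, h3, one_mul,
        map_inv, inv_eq_one, hk, map_mul, map_mul, (hδ ⟨σ g, _⟩).2 ⟨g, rfl⟩, one_mul, map_inv,
        inv_mul_eq_one] at h4
      exact h4.symm
  have hd2 : δ d * δ d ≠ 1 := fun h => hd (by rw [← h3 (δ d), pow_succ, pow_two, h, one_mul])
  refine ⟨Kf 1, Kf d, Kf (d * d), fun K hK => ?_, fun ⟨g, h⟩ => ?_, fun ⟨g, h⟩ => ?_, fun ⟨g, h⟩ => ?_,
    fun K hc ⟨e⟩ => ?_⟩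
  · simp only [List.mem_cons, List.not_mem_nil, or_false] at hK
    rcases hK with rfl | rfl | rfl <;> exact hiso _
  · exact hd ((hne _ _ g h).symm.trans (map_one δ))
  · exact hd2 ((map_mul δ _ _).symm.trans ((hne _ _ g h).symm.trans (map_one δ)))
  · exact hd (mul_eq_left.1 ((map_mul δ _ _).symm.trans (hne _ _ g h).symm))
  obtain ⟨φ, hφ, h⟩ := core_lin (σ.comp K.subtype) (hσ.comp (subtype_injective _))
    (by rintro _ ⟨a, rfl⟩; exact hr ⟨a, rfl⟩) hc (e.trans e9)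
  have hKf : K = Kf (⟨φ, hφ⟩ : (Iso ⊓ Lin : Subgroup G12))⁻¹ := by
    ext a
    simp only [Kf, mem_comap, mem_cjs, coe_inv, inv_inv]
    rw [← h, conj_mem_cjs]
    exact ⟨fun ha => ⟨⟨a, ha⟩, rfl⟩, fun ⟨b, hb⟩ => hσ hb ▸ b.2⟩
  have key : ∀ f, δ f = δ (⟨φ, hφ⟩ : (Iso ⊓ Lin : Subgroup G12))⁻¹ →
      ∃ g : SU 6 F 2, K.map (MulAut.conj g).toMonoidHom = Kf f := fun f hf => by
    obtain ⟨g, hg⟩ := (hδ (f * ⟨φ, hφ⟩)).1 (by rw [map_mul, hf, ← map_mul, inv_mul_cancel, map_one])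
    refine ⟨g, ?_⟩
    rw [hKf, hcj, show (⟨σ g, _⟩ : (Iso ⊓ Lin : Subgroup G12)) = f * ⟨φ, hφ⟩ from Subtype.ext hg,
      mul_inv_cancel_right]
  have : Fact (Nat.Prime 3) := ⟨Nat.prime_three⟩
  have ho : orderOf (δ d) = 3 := orderOf_eq_prime (h3 _) hd
  have htop : zpowers (δ d) = ⊤ := eq_top_of_card_eq _ (by
    rw [Nat.card_zpowers, ho, Nat.card_units, Nat.card_eq_fintype_card, hF])
  rcases zpowers_three ho (htop.ge (mem_top (δ (⟨φ, hφ⟩ : (Iso ⊓ Lin : Subgroup G12))⁻¹))) with e | e | e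
  · obtain ⟨g, hg⟩ := key 1 ((map_one δ).trans e.symm)
    exact ⟨g, Or.inl hg⟩
  · obtain ⟨g, hg⟩ := key d e.symm
    exact ⟨g, Or.inr (Or.inl hg)⟩
  · obtain ⟨g, hg⟩ := key (d * d) ((map_mul δ _ _).trans e.symm)
    exact ⟨g, Or.inr (Or.inr hg)⟩

end Cfsg.Agent.S5520
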