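import Cfsg.Statements.S5541
-- import your own Cfsg.Agent.* helpers here

set_option autoImplicit false
open Cfsg

namespace Cfsg.Agent.S5541

section
variable {U : Type*} [AddCommGroup U] [Module ℝ U] [FiniteDimensional ℝ U]

/-- the product attached to a trilinear form through a nondegenerate form -/
noncomputable def toMul (B : LinearMap.BilinForm ℝ U) (hB : B.Nondegenerate)
    (t : U →ₗ[ℝ] U →ₗ[ℝ] U →ₗ[ℝ] ℝ) : U →ₗ[ℝ] U →ₗ[ℝ] U :=
  LinearMap.compr₂ t (B.toDual hB).symm.toLinearMap

theorem toMul_spec (B : LinearMap.BilinForm ℝ U) (hB : B.Nondegenerate)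
    (t : U →ₗ[ℝ] U →ₗ[ℝ] U →ₗ[ℝ] ℝ) (u v w : U) : B (toMul B hB t u v) w = t u v w := by
  simp [toMul, LinearMap.BilinForm.apply_toDual_symm_apply]

end


/-- Let ρ be a representation of a group H on a finite-dimensional real vector space U whose only ρ-invariant subspaces are the zero subspace and U, and suppose U carries a non-zero ρ-invariant symmetric bilinear form. Then the following are equivalent: (1) there is a non-zero ρ-equivariant commutative bilinear product on U of which every ρ-equivariant bilinear product is a scalar multiple; (2) there is a non-zero ρ-invariant trilinear form on U that is symmetric under all permutations of its arguments and of which every ρ-invariant trilinear form is a scalar multiple. -/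
theorem result {H : Type*} [Group H] {U : Type*} [AddCommGroup U] [Module ℝ U] [FiniteDimensional ℝ U] (ρ : Representation ℝ H U) (hirr : ∀ W : Submodule ℝ U, (∀ g : H, W.map (ρ g) ≤ W) → W = ⊥ ∨ W = ⊤) (B : LinearMap.BilinForm ℝ U) (hB0 : B ≠ 0) (hBs : ∀ u v, B u v = B v u) (hBi : ∀ (g : H) (u v : U), B (ρ g u) (ρ g v) = B u v) : (∃ m : U →ₗ[ℝ] U →ₗ[ℝ] U, m ≠ 0 ∧ (∀ u v, m u v = m v u) ∧ (∀ (g : H) (u v : U), m (ρ g u) (ρ g v) = ρ g (m u v)) ∧ ∀ m' : U →ₗ[ℝ] U →ₗ[ℝ] U, (∀ (g : H) (u v : U), m' (ρ g u) (ρ g v) = ρ g (m' u v)) → ∃ c : ℝ, m' = c • m) ↔ (∃ t : U →ₗ[ℝ] U →ₗ[ℝ] U →ₗ[ℝ] ℝ, t ≠ 0 ∧ (∀ u v w, t u v w = t v u w ∧ t u v w = t u w v) ∧ (∀ (g : H) (u v w : U), t (ρ g u) (ρ g v) (ρ g w) = t u v w) ∧ ∀ t' : U →ₗ[ℝ] U →ₗ[ℝ] U →ₗ[ℝ] ℝ, (∀ (g : H) (u v w : U), t' (ρ g u) (ρ g v) (ρ g w) = t' u v w) → ∃ c : ℝ, t' = c • t) := by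
  have hleft : ∀ x : U, (∀ y, B x y = 0) → x = 0 := by
    have h := hirr (LinearMap.ker B) (by
      intro g x hx
      obtain ⟨y, hy, rfl⟩ := hx
      have hy' : B y = 0 := hy
      show B (ρ g y) = 0
      ext z
      have : z = ρ g (ρ g⁻¹ z) := by
        rw [← Module.End.mul_apply, ← map_mul]; simp
      rw [this, hBi, hy']; simp)
    rcases h with h | h
    · intro x hx
      have : x ∈ LinearMap.ker B := by
        show B x = 0
        ext y; exact hx y
      rw [h] at this
      simpa using this
    · exfalso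
      apply hB0
      exact LinearMap.ker_eq_top.mp h
  have hB : B.Nondegenerate := ⟨hleft, fun y hy => hleft y fun x => by rw [hBs]; exact hy x⟩
  have hext : ∀ x x' : U, (∀ y, B x y = B x' y) → x = x' := by
    intro x x' h
    have := hleft (x - x') (fun y => by simp [h y])
    exact sub_eq_zero.mp this
  have hinv : ∀ (g : H) (z : U), ρ g (ρ g⁻¹ z) = z := by
    intro g z
    rw [← Module.End.mul_apply, ← map_mul]; simp
  have hequiv : ∀ t' : U →ₗ[ℝ] U →ₗ[ℝ] U →ₗ[ℝ] ℝ,
      (∀ (g : H) (u v w : U), t' (ρ g u) (ρ g v) (ρ g w) = t' u v w) →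
      ∀ (g : H) (u v : U), toMul B hB t' (ρ g u) (ρ g v) = ρ g (toMul B hB t' u v) := by
    intro t' ht' g u v
    apply hext
    intro y
    rw [← hinv g y, toMul_spec, ht', hBi, toMul_spec]
  constructor
  · rintro ⟨m, hm0, hmc, hme, hmu⟩
    have huniq : ∀ t' : U →ₗ[ℝ] U →ₗ[ℝ] U →ₗ[ℝ] ℝ,
        (∀ (g : H) (u v w : U), t' (ρ g u) (ρ g v) (ρ g w) = t' u v w) →
        ∃ c : ℝ, t' = c • LinearMap.compr₂ m B := by
      intro t' ht'
      obtain ⟨c, hc⟩ := hmu _ (hequiv t' ht')
      refine ⟨c, ?_⟩
      ext u v w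
      rw [← toMul_spec B hB t', hc]
      simp
    have hti : ∀ (g : H) (u v w : U), LinearMap.compr₂ m B (ρ g u) (ρ g v) (ρ g w) =
        LinearMap.compr₂ m B u v w := by
      intro g u v w
      simp only [LinearMap.compr₂_apply]
      rw [hme, hBi]
    have ht0 : LinearMap.compr₂ m B ≠ 0 := by
      intro h
      apply hm0
      ext u v
      apply hleft
      intro y
      have := congrArg (fun f => f u v y) h
      simpa using this
    refine ⟨LinearMap.compr₂ m B, ht0, ?_, hti, huniq⟩
    obtain ⟨c, hc⟩ := huniq ((LinearMap.lflip.toLinearMap).comp (LinearMap.compr₂ m B)) (by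
      intro g u v w
      exact hti g u w v)
    have hc' : ∀ u v w, B (m u w) v = c * B (m u v) w := by
      intro u v w
      have := congrArg (fun f => f u v w) hc
      simpa using this
    have hc3 : c ^ 3 = 1 := by
      by_contra hne
      apply ht0
      ext u v w
      have h1 : B (m u v) w = c ^ 3 * B (m u v) w := by
        calc B (m u v) w = B (m v u) w := by rw [hmc]
          _ = c * B (m v w) u := hc' v w u
          _ = c * B (m w v) u := by rw [hmc]
          _ = c * (c * B (m w u) v) := by rw [hc' w u v]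
          _ = c * (c * B (m u w) v) := by rw [hmc]
          _ = c * (c * (c * B (m u v) w)) := by rw [hc' u v w]
          _ = c ^ 3 * B (m u v) w := by ring
      have h2 : (1 - c ^ 3) * B (m u v) w = 0 := by linarith
      rcases mul_eq_zero.mp h2 with h | h
      · exact absurd (by linarith) hne
      · simpa using h
    have hc1 : c = 1 := by
      have : (c - 1) * (c ^ 2 + c + 1) = 0 := by linarith
      rcases mul_eq_zero.mp this with h | h
      · linarith
      · nlinarith [sq_nonneg (c + 1 / 2)]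
    intro u v w
    simp only [LinearMap.compr₂_apply]
    refine ⟨by rw [hmc], ?_⟩
    rw [hc' u v w, hc1, one_mul]
  · rintro ⟨t, ht0, hts, hti, htu⟩
    refine ⟨toMul B hB t, ?_, ?_, hequiv t hti, ?_⟩
    · intro h
      apply ht0
      ext u v w
      rw [← toMul_spec B hB t, h]; simp
    · intro u v
      apply hext
      intro y
      rw [toMul_spec, toMul_spec, (hts u v y).1]
    · intro m' hm'
      obtain ⟨c, hc⟩ := htu (LinearMap.compr₂ m' B) (by
        intro g u v w
        simp only [LinearMap.compr₂_apply]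
        rw [hm', hBi])
      refine ⟨c, ?_⟩
      ext u v
      apply hext
      intro y
      have := congrArg (fun f => f u v y) hc
      simp only [LinearMap.compr₂_apply, LinearMap.smul_apply, smul_eq_mul] at this
      simp [this, toMul_spec]

end Cfsg.Agent.S5541
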