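import Cfsg.Statements.S5543
import Cfsg.Agent.H97.Majorana

set_option autoImplicit false
open Cfsg

namespace Cfsg.Agent.S5543

/-- Let V be a finite-dimensional real vector space with a commutative bilinear product and a positive-definite symmetric bilinear form that associates with the product and satisfies the Norton inequality (the Majorana setting of the definitions). Let X be a group of linear automorphisms of V in which every element squares to the identity, and suppose every non-identity element x of X is a Majorana involution with an axial vector a(x) of squared length 1, such that for any two distinct non-identity x, y the product a(x) ∘ a(y) equals (1/8)(a(x) + a(y) − a(xy)) (the dihedral subalgebra of type 2A whose third axis belongs to the involution xy). Then X has order at most 4. -/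
theorem result {V : Type*} [AddCommGroup V] [Module ℝ V] [FiniteDimensional ℝ V] (mul : V →ₗ[ℝ] V →ₗ[ℝ] V) (B : LinearMap.BilinForm ℝ V) (hV : Cfsg.Axial.IsMajoranaAmbient mul B) (X : Subgroup (V ≃ₗ[ℝ] V)) (hX : ∀ x ∈ X, x * x = 1) (ax : (V ≃ₗ[ℝ] V) → V) (hax : ∀ x ∈ X, x ≠ 1 → Cfsg.Axial.IsMajoranaPair mul B x (ax x)) (h1 : ∀ x ∈ X, x ≠ 1 → B (ax x) (ax x) = 1) (h2A : ∀ x ∈ X, ∀ y ∈ X, x ≠ 1 → y ≠ 1 → x ≠ y → mul (ax x) (ax y) = (1 / 8 : ℝ) • (ax x + ax y - ax (x * y))) : Nat.card ↥X ≤ 4 := by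
  by_contra hcard
  push Not at hcard
  have hfin : Finite X := Nat.finite_of_card_ne_zero (by omega)
  have hinv : ∀ x ∈ X, x⁻¹ = x := fun x hx => inv_eq_of_mul_eq_one_right (hX x hx)
  have hcomm : ∀ x ∈ X, ∀ y ∈ X, x * y = y * x := by
    intro x hx y hy
    have := hinv _ (X.mul_mem hx hy)
    rw [mul_inv_rev, hinv x hx, hinv y hy] at this
    exact this.symm
  -- pick elements outside small sets
  have hpick : ∀ s : Finset X, s.card ≤ 4 → ∃ z : X, z ∉ s := by
    intro s hs
    by_contra hno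
    push Not at hno
    have := Fintype.ofFinite X
    have h2 : s = Finset.univ := Finset.eq_univ_iff_forall.mpr hno
    rw [h2, Finset.card_univ, ← Nat.card_eq_fintype_card] at hs
    omega
  classical
  obtain ⟨x, hx⟩ := hpick {1} (by simp)
  obtain ⟨y, hy⟩ := hpick {1, x} (le_trans Finset.card_le_two (by norm_num))
  obtain ⟨z, hz⟩ := hpick {1, x, y, x * y} Finset.card_le_four
  simp only [Finset.mem_insert, Finset.mem_singleton, not_or] at hx hy hz
  obtain ⟨x, hxX⟩ := x
  obtain ⟨y, hyX⟩ := y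
  obtain ⟨z, hzX⟩ := z
  simp only [Subtype.ext_iff, OneMemClass.coe_one, MulMemClass.mk_mul_mk] at hx hy hz
  obtain ⟨hy1, hyx⟩ := hy
  obtain ⟨hz1, hzx, hzy, hzxy⟩ := hz
  have hxx := hX x hxX
  have hyy := hX y hyX
  have hzz := hX z hzX
  have cxy := hcomm x hxX y hyX
  have cxz := hcomm x hxX z hzX
  have cyz := hcomm y hyX z hzX
  have hne1 : ∀ u ∈ X, ∀ v ∈ X, u ≠ v → u * v ≠ 1 := by
    intro u hu v hv huv h
    apply huv
    rw [← hinv u hu]
    exact inv_eq_of_mul_eq_one_right h
  have hxyX := X.mul_mem hxX hyX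
  have hxzX := X.mul_mem hxX hzX
  have hyzX := X.mul_mem hyX hzX
  have hxyzX := X.mul_mem hxX hyzX
  have hxy1 : x * y ≠ 1 := hne1 x hxX y hyX (Ne.symm hyx)
  have hxz1 : x * z ≠ 1 := hne1 x hxX z hzX (Ne.symm hzx)
  have hyz1 : y * z ≠ 1 := hne1 y hyX z hzX (Ne.symm hzy)
  have hxyz1 : x * (y * z) ≠ 1 := by
    rw [← mul_assoc]; exact hne1 _ hxyX z hzX (Ne.symm hzxy)
  -- differences `ax u - ax (x u)` are quarter eigenvectors
  have hq : ∀ u ∈ X, u ≠ 1 → x * u ≠ 1 →
      mul (ax x) (ax u - ax (x * u)) = (1 / 4 : ℝ) • (ax u - ax (x * u)) := by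
    intro u hu hu1 hxu
    have hxu' : x ≠ u := by rintro rfl; exact hxu hxx
    have hxu'' : x ≠ x * u := by
      intro h; apply hu1; simpa using h.symm
    rw [map_sub, h2A x hxX u hu hx hu1 hxu', h2A x hxX (x * u) (X.mul_mem hxX hu) hx hxu hxu'',
      ← mul_assoc, hxx, one_mul]
    module
  have q1 := hq y hyX hy1 hxy1
  have q2 := hq z hzX hz1 hxz1
  have q3 := hq (y * z) hyzX hyz1 hxyz1
  have hA := H97.ax_of_pair hV (hax x hxX hx) (h1 x hxX hx)
  have hprod : mul (ax y - ax (x * y)) (ax z - ax (x * z)) =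
      (-1 / 4 : ℝ) • (ax (y * z) - ax (x * (y * z))) := by
    have n1 : y ≠ x * z := by
      intro h; apply hxyz1; rw [h, ← mul_assoc, ← mul_assoc, hxx, one_mul, hzz]
    have n2 : x * y ≠ x * z := by
      intro h; exact hzy (mul_left_cancel h).symm
    have e1 : y * (x * z) = x * (y * z) := by rw [← mul_assoc, ← cxy, mul_assoc]
    have e2 : x * y * (x * z) = y * z := by
      rw [mul_assoc, e1, ← mul_assoc, hxx, one_mul]
    simp only [map_sub, LinearMap.sub_apply]
    rw [h2A y hyX z hzX hy1 hz1 (Ne.symm hzy), h2A y hyX _ hxzX hy1 hxz1 n1,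
      h2A _ hxyX z hzX hxy1 hz1 (Ne.symm hzxy), h2A _ hxyX _ hxzX hxy1 hxz1 n2, e1, e2, mul_assoc]
    module
  have h44 := hA.f44 _ _ q1 q2
  rw [hprod] at h44
  set w := ax (y * z) - ax (x * (y * z)) with hw
  have hBw : B (ax x) w = 0 := by
    have := hV.2.2.2.1 (ax x) (ax x) w
    rw [q3, hA.idem, map_smul, smul_eq_mul] at this
    linarith
  rw [map_smul, map_smul, q3, hBw] at h44
  have hw0 : w = 0 := by simpa using h44
  have hax' : ax (y * z) = ax (x * (y * z)) := sub_eq_zero.mp hw0
  have := H97.maj_tau_unique (hax _ hyzX hyz1) (hax' ▸ hax _ hxyzX hxyz1)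
  apply hx
  simpa using this.symm

end Cfsg.Agent.S5543
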