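import Cfsg.Statements.S5544
import Cfsg.Agent.H97.MajoranaConj
import Cfsg.Agent.H97.SakumaSeq

set_option autoImplicit false
open Cfsg

namespace Cfsg.Agent.S5544

/-- Let V be a finite-dimensional real vector space with a commutative bilinear product and a positive-definite symmetric bilinear form that associates with the product and satisfies the Norton inequality (the Majorana setting of the definitions). Let μ₀ and μ₁ be Majorana involutions with axial vectors a₀ and a₁ of squared length 1, each involution having no other axial vector. Then the product μ₀μ₁ has order at most 6: some power (μ₀μ₁)^n with 1 ≤ n ≤ 6 is the identity (so the two involutions generate a dihedral group of order at most 12). This is the 6-transposition property of Majorana involutions. -/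
theorem result {V : Type*} [AddCommGroup V] [Module ℝ V] [FiniteDimensional ℝ V] (mul : V →ₗ[ℝ] V →ₗ[ℝ] V) (B : LinearMap.BilinForm ℝ V) (hV : Cfsg.Axial.IsMajoranaAmbient mul B) (μ₀ μ₁ : V ≃ₗ[ℝ] V) (a₀ a₁ : V) (h₀ : Cfsg.Axial.IsMajoranaPair mul B μ₀ a₀) (h₁ : Cfsg.Axial.IsMajoranaPair mul B μ₁ a₁) (hu₀ : ∀ a : V, Cfsg.Axial.IsMajoranaPair mul B μ₀ a → a = a₀) (hu₁ : ∀ a : V, Cfsg.Axial.IsMajoranaPair mul B μ₁ a → a = a₁) (hn₀ : B a₀ a₀ = 1) (hn₁ : B a₁ a₁ = 1) : ∃ n : ℕ, 1 ≤ n ∧ n ≤ 6 ∧ (μ₀ * μ₁) ^ n = 1 := by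
  have hA := H97.ax_of_pair hV h₀ hn₀
  have hB := H97.ax_of_pair hV h₁ hn₁
  have s0 : μ₀ * μ₀ = 1 := by ext v; exact hA.tt v
  have s1 : μ₁ * μ₁ = 1 := by ext v; exact hB.tt v
  set ρ := μ₁ * μ₀ with hρ
  have hρi : ρ⁻¹ = μ₀ * μ₁ := by
    rw [hρ, mul_inv_rev, inv_eq_of_mul_eq_one_right s0, inv_eq_of_mul_eq_one_right s1]
  have hμ₁ : μ₁ = ρ * μ₀ := by rw [hρ, mul_assoc, s0, mul_one]
  have hflip : ∀ j : ℤ, μ₀ * ρ ^ j = ρ ^ (-j) * μ₀ := by
    intro j
    have h1 : μ₀ * ρ * μ₀⁻¹ = ρ⁻¹ := by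
      rw [hρi, hρ]; group
    have h2 : μ₀ * ρ ^ j * μ₀⁻¹ = ρ ^ (-j) := by
      rw [← conj_zpow, h1, inv_zpow']
    rw [← h2]; group
  -- automorphisms
  let G : Subgroup (V ≃ₗ[ℝ] V) :=
    { carrier := {g | (∀ u v, g (mul u v) = mul (g u) (g v)) ∧ ∀ u v, B (g u) (g v) = B u v}
      one_mem' := ⟨fun _ _ => rfl, fun _ _ => rfl⟩
      mul_mem' := by
        rintro f g ⟨hf, hf'⟩ ⟨hg, hg'⟩
        refine ⟨fun u v => ?_, fun u v => ?_⟩
        · simp only [LinearEquiv.mul_apply, hg, hf]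
        · simp only [LinearEquiv.mul_apply, hg', hf']
      inv_mem' := by
        rintro f ⟨hf, hf'⟩
        refine ⟨fun u v => ?_, fun u v => ?_⟩
        · apply f.injective
          rw [hf]
          simp
        · rw [← hf']
          simp }
  have hρG : ∀ j : ℤ, ρ ^ j ∈ G := fun j =>
    G.zpow_mem (G.mul_mem ⟨hB.tmul, hB.tB⟩ ⟨hA.tmul, hA.tB⟩) j
  let a : ℤ → V := fun i => (ρ ^ (i / 2)) (if i % 2 = 0 then a₀ else a₁)
  have ae : ∀ j : ℤ, a (2 * j) = (ρ ^ j) a₀ := fun j => by simp [a]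
  have ao : ∀ j : ℤ, a (2 * j + 1) = (ρ ^ j) a₁ := fun j => by
    have e1 : (2 * j + 1) / 2 = j := by omega
    have e2 : ¬ (2 * j + 1) % 2 = 0 := by omega
    simp only [a, e1, if_neg e2]
  have hpair : ∀ i : ℤ, Cfsg.Axial.IsMajoranaPair mul B (ρ ^ i * μ₀) (a i) ∧ B (a i) (a i) = 1 := by
    intro i
    rcases Int.even_or_odd' i with ⟨j, rfl | rfl⟩
    · rw [ae, (hρG j).2]
      refine ⟨?_, hn₀⟩
      have := H97.maj_conj h₀ (ρ ^ j) (hρG j).1 (hρG j).2
      rwa [← zpow_neg, mul_assoc, hflip, neg_neg, ← mul_assoc, ← zpow_add, ← two_mul] at this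
    · rw [ao, (hρG j).2]
      refine ⟨?_, hn₁⟩
      have := H97.maj_conj h₁ (ρ ^ j) (hρG j).1 (hρG j).2
      rwa [← zpow_neg, hμ₁, mul_assoc, mul_assoc, hflip, neg_neg, ← mul_assoc, ← mul_assoc,
        ← zpow_add_one, ← zpow_add, show j + 1 + j = 2 * j + 1 by ring] at this
  have hτ : ∀ i k : ℤ, (ρ ^ i * μ₀) (a k) = a (2 * i - k) := by
    intro i k
    rcases Int.even_or_odd' k with ⟨j, rfl | rfl⟩
    · rw [show 2 * i - 2 * j = 2 * (i - j) by ring, ae, ae, ← LinearEquiv.mul_apply, mul_assoc,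
        hflip, ← mul_assoc, ← zpow_add, LinearEquiv.mul_apply, hA.ta, sub_eq_add_neg]
    · have e : μ₀ = ρ⁻¹ * μ₁ := by rw [hρi, mul_assoc, s1, mul_one]
      rw [show 2 * i - (2 * j + 1) = 2 * (i - j - 1) + 1 by ring, ao, ao, ← LinearEquiv.mul_apply,
        mul_assoc, hflip, ← mul_assoc, ← zpow_add]
      conv_lhs => rw [e]
      rw [← mul_assoc, ← zpow_sub_one, LinearEquiv.mul_apply, hB.ta, sub_eq_add_neg i j]
  obtain ⟨i, N, hN1, hN6, hN⟩ := H97.sak_seq hV.1 hV.2.1 hV.2.2.2.1 a (fun i => ρ ^ i * μ₀)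
    (fun i => H97.ax_of_pair hV (hpair i).1 (hpair i).2) hτ
  have heq : a i = a (i + N) := by
    by_contra hne
    have := hV.2.2.1 _ (sub_ne_zero.mpr hne)
    simp only [map_sub, LinearMap.sub_apply, (hpair i).2, (hpair (i + N)).2, hN,
      hV.2.1 (a (i + N)) (a i)] at this
    norm_num at this
  have hτeq := H97.maj_tau_unique (hpair i).1 (heq ▸ (hpair (i + N)).1)
  have hρN : ρ ^ N = 1 := by
    have := mul_right_cancel hτeq
    rw [zpow_add] at this
    exact (left_eq_mul.mp this)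
  refine ⟨N.toNat, by omega, by omega, ?_⟩
  rw [← hρi, inv_pow, ← zpow_natCast, Int.toNat_of_nonneg (by omega), hρN, inv_one]

end Cfsg.Agent.S5544
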