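import Cfsg.Statements.S5545
import Cfsg.Agent.H97.MajoranaConj

set_option autoImplicit false
open Cfsg

namespace Cfsg.Agent.S5545

section
variable {V : Type*} [AddCommGroup V] [Module ℝ V] {mul : V →ₗ[ℝ] V →ₗ[ℝ] V}
  {B : LinearMap.BilinForm ℝ V}

theorem key (hc : ∀ u v, mul u v = mul v u) {τ σ : V ≃ₗ[ℝ] V} {a b : V} (ha : H97.Ax mul B τ a)
    (hb : H97.Ax mul B σ b) (hab : τ b = b) (hba : σ a = a) (l : ℝ) (hl : B a b = l)
    (hl' : B b a = l) :
    (∃ k : ℝ, (1 / 2 - 4 * l) • mul a b = k • a) ∧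
      (16 : ℝ) • mul (mul a b) (mul a b) = (1 + 3 * l) • mul a b + (3 * l) • b + (9 * l ^ 2) • a -
        (1 - 3 * l) • ((3 : ℝ) • mul a b - (3 * l) • a) := by
  have h1 := ha.plus b hab
  have h2 := hb.plus a hba
  rw [hl] at h1
  rw [hl', hc b a] at h2
  have haa := ha.idem
  have hbb := hb.idem
  have hba' := hc b a
  set p := mul a b with hp
  have hpa := hc p a
  have hpb := hc p b
  set q := mul p p with hq
  have hα : mul a (b - (4 : ℝ) • p + (3 * l) • a) = 0 := by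
    simp only [map_add, map_sub, map_smul, haa, h1, ← hp]
    module
  have hβ : mul a ((4 : ℝ) • p - (4 * l) • a) = (1 / 4 : ℝ) • ((4 : ℝ) • p - (4 * l) • a) := by
    simp only [map_sub, map_smul, haa, h1]
    module
  have e1 := ha.f00 _ _ hα hα
  have e2 := ha.f44 _ _ hβ hβ
  have e3 := ha.f04 _ _ hα hβ
  generalize B a (mul ((4 : ℝ) • p - (4 * l) • a) ((4 : ℝ) • p - (4 * l) • a)) = c at e2
  simp only [map_add, map_sub, map_smul, LinearMap.add_apply, LinearMap.sub_apply,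
    LinearMap.smul_apply, haa, hbb, hba', hpa, hpb, h1, h2, ← hp, ← hq] at e1 e2 e3
  refine ⟨⟨-c - (5 * l ^ 2 - 3 / 2 * l), ?_⟩, ?_⟩
  · linear_combination (norm := module) e1 - e2
  · linear_combination (norm := module) (4 : ℝ) • e1 + (4 : ℝ) • e3

end


/-- Let V be a finite-dimensional real vector space with a commutative bilinear product and a positive-definite symmetric bilinear form that associates with the product and satisfies the Norton inequality (the Majorana setting of the definitions). Let μ₀, μ₁ be commuting Majorana involutions with distinct axial vectors a₀ ≠ a₁ of squared length 1, each involution having no other axial vector. Then either a₀ and a₁ are orthogonal with a₀ ∘ a₁ = 0 (type 2B), or their inner product is 1/8 and, with a₂ = a₀ + a₁ − 8 a₀ ∘ a₁, the vector a₂ is an idempotent and a₀ ∘ a₂ = (1/8)(a₀ + a₂ − a₁), a₁ ∘ a₂ = (1/8)(a₁ + a₂ − a₀) (type 2A: the three idempotents span a subalgebra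 with aᵢ ∘ aⱼ = (1/8)(aᵢ + aⱼ − aₖ)). -/
theorem result {V : Type*} [AddCommGroup V] [Module ℝ V] [FiniteDimensional ℝ V] (mul : V →ₗ[ℝ] V →ₗ[ℝ] V) (B : LinearMap.BilinForm ℝ V) (hV : Cfsg.Axial.IsMajoranaAmbient mul B) (μ₀ μ₁ : V ≃ₗ[ℝ] V) (a₀ a₁ : V) (h₀ : Cfsg.Axial.IsMajoranaPair mul B μ₀ a₀) (h₁ : Cfsg.Axial.IsMajoranaPair mul B μ₁ a₁) (hu₀ : ∀ a : V, Cfsg.Axial.IsMajoranaPair mul B μ₀ a → a = a₀) (hu₁ : ∀ a : V, Cfsg.Axial.IsMajoranaPair mul B μ₁ a → a = a₁) (hn₀ : B a₀ a₀ = 1) (hn₁ : B a₁ a₁ = 1) (hc : μ₀ * μ₁ = μ₁ * μ₀) (hne : a₀ ≠ a₁) : (B a₀ a₁ = 0 ∧ mul a₀ a₁ = 0) ∨ (B a₀ a₁ = 1 / 8 ∧ mul (a₀ + a₁ - (8 : ℝ) • mul a₀ a₁) (a₀ + a₁ - (8 : ℝ) • mul a₀ a₁) = a₀ + a₁ - (8 : ℝ) • mul a₀ a₁ ∧ mul a₀ (a₀ + a₁ - (8 : ℝ) • mul a₀ a₁) = (1 / 8 : ℝ) • (a₀ + (a₀ + a₁ - (8 : ℝ) • mul a₀ a₁) - a₁) ∧ mul a₁ (a₀ + a₁ - (8 : ℝ) • mul a₀ a₁) = (1 / 8 : ℝ) • (a₁ + (a₀ + a₁ - (8 : ℝ) • mul a₀ a₁) - a₀)) := by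
  have hA := H97.ax_of_pair hV h₀ hn₀
  have hB := H97.ax_of_pair hV h₁ hn₁
  have hcomm : ∀ u v, mul u v = mul v u := hV.1
  have hab : μ₀ a₁ = a₁ := by
    apply hu₁
    have := H97.maj_conj h₁ μ₀ hA.tmul hA.tB
    rwa [hc, mul_inv_cancel_right] at this
  have hba : μ₁ a₀ = a₀ := by
    apply hu₀
    have := H97.maj_conj h₀ μ₁ hB.tmul hB.tB
    rwa [← hc, mul_inv_cancel_right] at this
  obtain ⟨l, hl⟩ : ∃ l, B a₀ a₁ = l := ⟨_, rfl⟩
  have hl' : B a₁ a₀ = l := by rw [hV.2.1, hl]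
  obtain ⟨⟨k, hk⟩, hq⟩ := key hcomm hA hB hab hba l hl hl'
  obtain ⟨⟨k', hk'⟩, -⟩ := key hcomm hB hA hba hab l hl' hl
  have h1 := hA.plus a₁ hab
  have h2 := hB.plus a₀ hba
  rw [hl] at h1
  rw [hl', hcomm a₁ a₀] at h2
  by_cases h8 : l = 1 / 8
  · right
    subst h8
    have haa := hA.idem
    have hbb := hB.idem
    have hba' := hcomm a₁ a₀
    set p := mul a₀ a₁ with hp
    have hpa := hcomm p a₀
    have hpb := hcomm p a₁
    refine ⟨hl, ?_, ?_, ?_⟩
    · simp only [map_add, map_sub, map_smul, LinearMap.add_apply, LinearMap.sub_apply,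
        LinearMap.smul_apply, haa, hbb, hba', hpa, hpb, h1, h2, ← hp]
      linear_combination (norm := module) (4 : ℝ) • hq
    · simp only [map_add, map_sub, map_smul, haa, h1, ← hp]
      module
    · simp only [map_add, map_sub, map_smul, hbb, hba', h2]
      module
  · left
    have hne' : (1 / 2 - 4 * l) ≠ 0 := by
      intro h; apply h8; linarith
    rw [hcomm a₁ a₀, hk] at hk'
    have hk0 : k = 0 := by
      by_contra hk0
      have e : a₀ = (k' / k) • a₁ := by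
        rw [div_eq_inv_mul, mul_smul, ← hk', smul_smul, inv_mul_cancel₀ hk0, one_smul]
      have e2 := hA.idem
      have e3 := hA.len
      rw [e] at e2 e3
      simp only [map_smul, LinearMap.smul_apply, hB.idem, hB.len, smul_eq_mul] at e2 e3
      have e4 := congrArg (B a₁) e2
      simp only [map_smul, hB.len, smul_eq_mul] at e4
      have : k' / k = 1 := by linarith
      rw [this, one_smul] at e
      exact hne e
    rw [hk0, zero_smul] at hk
    have hp : mul a₀ a₁ = 0 := (smul_eq_zero.mp hk).resolve_left hne'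
    refine ⟨?_, hp⟩
    rw [← hA.idem, ← hV.2.2.2.1, hp, map_zero]

end Cfsg.Agent.S5545
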