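import Cfsg.Statements.S5546
import Cfsg.Agent.H15.Mono

set_option autoImplicit false
open Cfsg

namespace Cfsg.Agent.S5546

open Cfsg.Agent.H15

/-- reduction modulo 13 -/
def red (v : leechLattice) : GolayPt → ZMod 13 := fun i => ((v : Vec) i : ZMod 13)

/-- the matrix of a lattice automorphism modulo 13 -/
noncomputable def mat (g : Co0) : Matrix GolayPt GolayPt (ZMod 13) :=
  fun j i => 5 * (((g • e8 i : leechLattice) : Vec) j : ZMod 13)

theorem mat_red (g : Co0) (v : leechLattice) : (mat g).mulVecLin (red v) = red (g • v) := by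
  funext j
  have h := congrArg (Int.cast : ℤ → ZMod 13) (eight_mul_smul_apply g v j)
  push_cast at h
  have h2 : (5 : ZMod 13) * 8 = 1 := by decide
  change ∑ i, (5 * (((g • e8 i : leechLattice) : Vec) j : ZMod 13)) * ((v : Vec) i : ZMod 13) =
    (((g • v : leechLattice) : Vec) j : ZMod 13)
  generalize (((g • v : leechLattice) : Vec) j : ZMod 13) = a at h ⊢
  calc _ = 5 * (8 * a) := by
        rw [h, Finset.mul_sum]
        exact Finset.sum_congr rfl fun i _ => by ring
    _ = a := by rw [← mul_assoc, h2, one_mul]

theorem ext_red {W : Type*} [AddCommGroup W] [Module (ZMod 13) W]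
    {f g : (GolayPt → ZMod 13) →ₗ[ZMod 13] W} (h : ∀ v, f (red v) = g (red v)) : f = g := by
  refine (Pi.basisFun (ZMod 13) GolayPt).ext fun i => ?_
  have : Pi.basisFun (ZMod 13) GolayPt i = (5 : ZMod 13) • red (e8 i) := by
    funext j
    by_cases hj : j = i
    · subst hj
      simp [red, e8_val]
      decide
    · simp [red, e8_val, hj]
  rw [this, map_smul, map_smul, h]

/-- the representation of degree 24 -/
noncomputable def rho : Representation (ZMod 13) Co0 (GolayPt → ZMod 13) where
  toFun g := (mat g).mulVecLin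
  map_one' := ext_red fun v => by rw [mat_red, one_smul]; rfl
  map_mul' g h := ext_red fun v => by rw [Module.End.mul_apply, mat_red, mat_red, mat_red, mul_smul]

theorem rho_red (g : Co0) (v : leechLattice) : rho g (red v) = red (g • v) := mat_red g v

theorem dot_red (v w : leechLattice) :
    red v ⬝ᵥ red w = (dotInt (v : Vec) (w : Vec) : ZMod 13) := by
  simp [dotProduct, red, dotInt]

theorem hdot : red Spor.leechU ⬝ᵥ red Spor.leechU = 6 := by
  rw [dot_red]
  change ((dotInt Spor.vecU Spor.vecU : ℤ) : ZMod 13) = 6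
  decide +kernel

theorem h0 : red Spor.leechU ≠ 0 := fun e => by
  have := hdot
  rw [e, dotProduct_zero] at this
  exact absurd this (by decide)

theorem six_ne : (6 : ZMod 13) ≠ 0 := by decide

theorem eq_one_of_red {g : Co0} (h : ∀ v, red (g • v) = red v) : g = 1 := by
  refine co0_ext_e8 fun i => ?_
  rw [one_smul]
  have h1 : ∀ j, ∃ y : ℤ, ((g • e8 i : leechLattice) : Vec) j - (e8 i : Vec) j = 13 * y := fun j =>
    (ZMod.intCast_eq_intCast_iff_dvd_sub _ _ 13).1 (congrFun (h (e8 i)) j).symm
  choose y hy using h1
  have h2 : ((g • e8 i : leechLattice) : Vec) - (e8 i : Vec) = (13 : ℤ) • y := funext hy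
  have h3 := sixteen_dvd_sqNorm (leechLattice.sub_mem (g • e8 i).2 (e8 i).2)
  have h4 := sqNorm_sub ((g • e8 i : leechLattice) : Vec) (e8 i : Vec)
  have h5 := sqNorm_nonneg (((g • e8 i : leechLattice) : Vec) + (e8 i : Vec))
  have h6 : sqNorm (e8 i : Vec) = 64 := by rw [e8_val, sqNorm_single]; norm_num
  rw [sqNorm_add] at h5
  rw [co0_norm, h6] at h4 h5
  rw [h2, sqNorm_smul] at h3 h4
  have h7 := sqNorm_nonneg y
  rw [sqNorm_eq_zero (show sqNorm y = 0 by omega), smul_zero, sub_eq_zero] at h2
  exact Subtype.ext h2

/-- The second Conway group (the stabilizer in the Leech lattice automorphism group of the short vector fixed in the definitions) is isomorphic to a subgroup of the general linear group of degree 23 over the field with 13 elements: there is an injective homomorphism into it. -/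
theorem result : ∃ f : ↥Cfsg.Spor.Co2 →* GL (Fin 23) (ZMod 13), Function.Injective f := by
  have : Fact (Nat.Prime 13) := ⟨by norm_num⟩
  let ι : Spor.Co2 →* Co0 := Subgroup.inclusion inf_le_left
  have hu : ∀ g : Spor.Co2, ι g • Spor.leechU = Spor.leechU := fun g => g.2.2
  let W : Submodule (ZMod 13) (GolayPt → ZMod 13) := Submodule.span (ZMod 13) {red Spor.leechU}
  let q := Representation.quotient (rho.comp ι) W fun g => by
    rw [Submodule.span_singleton_le_iff_mem, Submodule.mem_comap, MonoidHom.comp_apply, rho_red, hu]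
    exact Submodule.mem_span_singleton_self _
  have hr : Module.finrank (ZMod 13) ((GolayPt → ZMod 13) ⧸ W) = 23 := by
    have := W.finrank_quotient_add_finrank
    rw [finrank_span_singleton h0, Module.finrank_fintype_fun_eq_card,
      show Fintype.card GolayPt = 24 by decide] at this
    omega
  let b := Module.finBasisOfFinrankEq (ZMod 13) _ hr
  refine ⟨(((LinearMap.toMatrixAlgEquiv b : _ →* _)).comp q).toHomUnits,
    (injective_iff_map_eq_one _).2 fun g hg => ?_⟩
  have h1 : q g = 1 := by
    apply (LinearMap.toMatrixAlgEquiv b).injective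
    rw [map_one]
    exact congrArg Units.val hg
  suffices h : ι g = 1 from Subtype.ext (congrArg (fun x : Co0 => (x : Equiv.Perm leechLattice)) h)
  refine eq_one_of_red fun v => ?_
  have h2 : W.mkQ (red (ι g • v)) = W.mkQ (red v) := by
    rw [← rho_red]
    exact LinearMap.congr_fun h1 (W.mkQ (red v))
  obtain ⟨c, hc⟩ := Submodule.mem_span_singleton.1 ((Submodule.Quotient.eq W).1 h2)
  have h3 := congrArg (· ⬝ᵥ red Spor.leechU) hc
  simp only [smul_dotProduct, sub_dotProduct, hdot] at h3
  rw [dot_red, dot_red] at h3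
  conv_rhs at h3 => rw [← hu g, co0_dot, hu g, sub_self]
  have h4 : c = 0 := (mul_eq_zero.1 h3).resolve_right six_ne
  rw [h4, zero_smul] at hc
  exact sub_eq_zero.1 hc.symm

end Cfsg.Agent.S5546
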