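import Cfsg.Statements.S5548
import Cfsg.Agent.H97.GolayMod

set_option autoImplicit false
open Cfsg

namespace Cfsg.Agent.S5548

open Cfsg.Agent.H14 Cfsg.Agent.H97

/-- For the automorphism group of the length-24 binary Golay code of the definitions (the Mathieu group of degree 24) acting on binary words of length 24 by permuting coordinates, the only invariant subspaces of the space of all words are: zero, the span of the all-ones word, the code itself, the even-weight words, and the whole space. (So the permutation module has a unique composition series.) -/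
theorem result (W : Submodule (ZMod 2) (Cfsg.GolayPt → ZMod 2)) (hW : ∀ σ ∈ Cfsg.M24, ∀ w ∈ W, (fun p => w (σ.symm p)) ∈ W) : W = ⊥ ∨ W = Submodule.span (ZMod 2) {fun _ => (1 : ZMod 2)} ∨ W = Cfsg.golayCode ∨ (W : Set (Cfsg.GolayPt → ZMod 2)) = {w | ∑ p, w p = 0} ∨ W = ⊤ := by
  have hF : H97.Inv {s | indW s ∈ W} := ⟨by
      change indW ∅ ∈ W
      rw [← wsupp_zero, indW_supp]
      exact W.zero_mem,
    fun s hs t ht => by
      change indW _ ∈ W
      rw [indW_symmDiff]
      exact W.add_mem hs ht,
    fun g hg s hs => by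
      change indW _ ∈ W
      rw [indW_smul]
      exact hW g hg _ hs⟩
  have hm : ∀ w, w ∈ W ↔ support₂ w ∈ {s | indW s ∈ W} := fun w => by
    change _ ↔ indW _ ∈ W
    rw [indW_supp]
  have hsum : ∀ w : GolayPt → ZMod 2, ∑ p, w p = 0 ↔ (support₂ w).card % 2 = 0 := fun w => by
    rw [sum_mem_eq, Finset.inter_univ, ZMod.natCast_eq_zero_iff, Nat.dvd_iff_mod_eq_zero]
  by_cases h1 : ∃ w ∈ W, w ∉ golayCode
  · obtain ⟨w, hw, hw'⟩ := h1
    have h2 := hF.even_of_two (hF.two_of_notMem ((hm w).1 hw) (mt support_mem_cSets_iff.1 hw'))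
    by_cases h3 : ∃ v ∈ W, ∑ p, v p ≠ 0
    · obtain ⟨v, hv, hv'⟩ := h3
      refine Or.inr (Or.inr (Or.inr (Or.inr (eq_top_iff.2 fun u _ => ?_))))
      by_cases h4 : ∑ p, u p = 0
      · exact (hm u).2 (h2 _ ((hsum u).1 h4))
      · have h5 : ∑ p, (u - v) p = 0 := by
          simp only [Pi.sub_apply, Finset.sum_sub_distrib]
          rw [(z2 _).resolve_left h4, (z2 _).resolve_left hv', sub_self]
        simpa using W.add_mem ((hm _).2 (h2 _ ((hsum _).1 h5))) hv
    · push Not at h3
      exact Or.inr (Or.inr (Or.inr (Or.inl (Set.ext fun u =>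
        ⟨h3 u, fun h4 => (hm u).2 (h2 _ ((hsum u).1 h4))⟩))))
  · push Not at h1
    by_cases h2 : ∃ c ∈ W, c ≠ 0 ∧ c ≠ fun _ => 1
    · obtain ⟨c, hc, c0, c1⟩ := h2
      have := hF.of_cset (support_mem_cSets_iff.2 (h1 c hc)) ((hm c).1 hc)
        (fun e => c0 (support₂_injective (e.trans wsupp_zero.symm)))
        (fun e => c1 (support₂_injective (e.trans wsupp_one.symm)))
      exact Or.inr (Or.inr (Or.inl (le_antisymm h1 fun u hu =>
        (hm u).2 (this (support_mem_cSets_iff.2 hu)))))
    · push Not at h2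
      by_cases h3 : (fun _ => (1 : ZMod 2)) ∈ W
      · refine Or.inr (Or.inl (le_antisymm (fun u hu => ?_) (by simpa using h3)))
        by_cases h0 : u = 0
        · exact h0 ▸ Submodule.zero_mem _
        · exact h2 u hu h0 ▸ Submodule.mem_span_singleton_self _
      · refine Or.inl (eq_bot_iff.2 fun u hu => ?_)
        by_contra h0
        exact h3 (h2 u hu h0 ▸ hu)

end Cfsg.Agent.S5548
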