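import Cfsg.Statements.S5549
import Cfsg.Agent.H97.GolayMod

set_option autoImplicit false
open Cfsg

namespace Cfsg.Agent.S5549

open Cfsg.Agent.H14 Cfsg.Agent.H97 Finset
open scoped Pointwise symmDiff

/-- the number of octads and complements of octads meeting `s` oddly -/
noncomputable def cntS (s : Finset GolayPt) : ℕ :=
  {c | c ∈ CSets ∧ ((c.card = 8 ∨ c.card = 16) ∧ (c ∩ s).card % 2 = 1)}.ncard

theorem cntS_smul {g : Equiv.Perm GolayPt} (hg : g ∈ M24) (s : Finset GolayPt) :
    cntS (g • s) = cntS s := by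
  symm
  refine Set.ncard_congr (fun c _ => g • c) (fun c hc => ⟨smul_mem_cSets hg hc.1, ?_⟩)
    (fun _ _ _ _ h => smul_left_cancel g h) fun c hc => ⟨g⁻¹ • c,
      ⟨smul_mem_cSets (M24.inv_mem hg) hc.1, ?_⟩, smul_inv_smul g c⟩
  · rw [← smul_finset_inter, card_smul_finset, card_smul_finset]
    exact hc.2
  · rw [← card_smul_finset g (_ ∩ _), smul_finset_inter, smul_inv_smul, card_smul_finset]
    exact hc.2

theorem cntS_bits (m : ℕ) : cntS (bits m) = cnt2 64 64 fun x => force (enc x) fun c =>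
    (Nat.beq (pc c) 8 || Nat.beq (pc c) 16) && Nat.beq (pc (Nat.land c m) % 2) 1 :=
  ncard_cSets_filter _ _ fun x _ => by
    rw [force_eq, Bool.and_eq_true, Bool.or_eq_true, beq_iff, beq_iff, beq_iff, ← bits_and,
      card_bits, card_bits]
    rfl

theorem cntS_two {s : Finset GolayPt} (h : s.card = 2) : cntS s = 704 := by
  obtain ⟨g, hg, rfl⟩ := exists_smul_set (s := bits 3) (t := s) (by rw [h]; decide) (by omega)
  rw [cntS_smul hg, cntS_bits]
  decide +kernel

theorem cntS_four {s : Finset GolayPt} (h : s.card = 4) : cntS s = 768 := by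
  obtain ⟨g, hg, rfl⟩ := exists_smul_set (s := bits 15) (t := s) (by rw [h]; decide) (by omega)
  rw [cntS_smul hg, cntS_bits]
  decide +kernel

theorem cntS_zero : cntS ∅ = 0 := by simp [cntS]

/-- the same count for a function on the code -/
noncomputable def cntW (φ : golayCode → ZMod 2) : ℕ :=
  {c : golayCode | ((support₂ c.1).card = 8 ∨ (support₂ c.1).card = 16) ∧ φ c = 1}.ncard

theorem cntW_sum (s : Finset GolayPt) : cntW (fun c => ∑ p ∈ s, c.1 p) = cntS s := by
  have key : ∀ n : ℕ, (n : ZMod 2) = 1 ↔ n % 2 = 1 := fun n => by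
    rw [ZMod.natCast_eq_one_iff_odd, Nat.odd_iff]
  refine Set.ncard_congr (fun c _ => support₂ c.1)
    (fun c hc => ⟨support_mem_cSets_iff.2 c.2, hc.1, ?_⟩)
    (fun _ _ _ _ h => Subtype.ext (support₂_injective h)) ?_
  · rw [← key, ← sum_mem_eq]
    exact hc.2
  · rintro _ ⟨⟨w, hw, rfl⟩, h1, h2⟩
    refine ⟨⟨w, hw⟩, ⟨h1, ?_⟩, rfl⟩
    change ∑ p ∈ s, w p = 1
    rw [sum_mem_eq, key, h2]

theorem xor_of_inter {α : Type*} [DecidableEq α] {a b : α} (hab : a ≠ b) {E : Finset α}
    (h : (({a, b} : Finset α) ∩ E).card = 1) : a ∈ E ↔ b ∉ E := by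
  by_cases h1 : a ∈ E <;> by_cases h2 : b ∈ E <;> simp_all

theorem common_pt {α : Type*} [DecidableEq α] (D : ZMod 23 → Finset α) (h2 : ∀ p, (D p).card = 2)
    (h1 : ∀ p q, p ≠ q → (D p ∩ D q).card = 1) : ∃ z, ∀ p, z ∈ D p := by
  obtain ⟨a, ha⟩ := card_eq_one.1 (h1 0 1 (by decide))
  have a0 : a ∈ D 0 ∩ D 1 := ha ▸ mem_singleton_self a
  rw [mem_inter] at a0
  have other : ∀ p, a ∈ D p → ∃ b, a ≠ b ∧ D p = {a, b} := fun p hp => by
    obtain ⟨x, y, hxy, e⟩ := card_eq_two.1 (h2 p)
    rw [e, mem_insert, mem_singleton] at hp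
    rcases hp with rfl | rfl
    · exact ⟨y, hxy, e⟩
    · exact ⟨x, hxy.symm, e.trans (pair_comm _ _)⟩
  obtain ⟨b, hb, eb⟩ := other 0 a0.1
  obtain ⟨c, hc, ec⟩ := other 1 a0.2
  have hbc : b ≠ c := by
    rintro rfl
    have := h1 0 1 (by decide)
    rw [eb, ec, inter_self, card_pair hb] at this
    omega
  refine ⟨a, fun t => ?_⟩
  by_contra hat
  have t0 : 0 ≠ t := fun e => hat (e ▸ a0.1)
  have t1 : 1 ≠ t := fun e => hat (e ▸ a0.2)
  have hbt : b ∈ D t := by
    by_contra h
    exact hat ((xor_of_inter hb (eb ▸ h1 0 t t0)).2 h)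
  have hct : c ∈ D t := by
    by_contra h
    exact hat ((xor_of_inter hc (ec ▸ h1 1 t t1)).2 h)
  have et : D t = {b, c} := (eq_of_subset_of_card_le (by simp [insert_subset_iff, hbt, hct])
    (by rw [h2, card_pair hbc])).symm
  obtain ⟨u, u0, u1, ut⟩ := (by decide : ∀ t : ZMod 23, ∃ u, 0 ≠ u ∧ 1 ≠ u ∧ t ≠ u) t
  have k0 := xor_of_inter hb (eb ▸ h1 0 u u0)
  have k1 := xor_of_inter hc (ec ▸ h1 1 u u1)
  have k2 := xor_of_inter hbc (et ▸ h1 t u ut)
  tauto

theorem exists_dual (φ : golayCode →ₗ[ZMod 2] ZMod 2) :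
    ∃ s : Finset GolayPt, s.card ≤ 4 ∧ ∀ c : golayCode, φ c = ∑ p ∈ s, c.1 p := by
  obtain ⟨ψ, hψ⟩ := LinearMap.exists_extend φ
  obtain ⟨s, h4, hs⟩ := exists_leader (support₂ fun i => ψ (Pi.single i 1))
  refine ⟨s, h4, fun c => ?_⟩
  have e1 : φ c = ∑ i, c.1 i * ψ (Pi.single i 1) := by
    rw [← hψ, LinearMap.comp_apply, Submodule.subtype_apply]
    conv_lhs => rw [pi_eq_sum_univ' c.1]
    simp
  have e2 := (even_card_inter (support_mem_cSets_iff.2 c.2) hs).natCast_zmod_two
  rw [← wsupp_indW s, ← wsupp_add, ← dot_eq_card_inter] at e2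
  simp only [Pi.add_apply, mul_add, sum_add_distrib] at e2
  rw [e1, eq_neg_of_add_eq_zero_left e2, ZMod.neg_eq_self_mod_two, dot_eq_card_inter, wsupp_indW,
    sum_mem_eq]

/-- Let X be a group of linear automorphisms of the length-24 binary Golay code of the definitions that fix the all-ones word, containing the coordinate-permutation action of every element of the code's automorphism group (the Mathieu group of degree 24), and such that every element of X sends each codeword into its orbit under that Mathieu group up to adding the all-ones word (X has the same orbits as the Mathieu group on the code modulo the all-ones word). Then every element of X agrees, modulo the all-ones word, with the action of a single element of the Mathieu group: X induces exactly the Mathieu group on the code modulo the all-ones word. -/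
theorem result (X : Subgroup (↥Cfsg.golayCode ≃ₗ[ZMod 2] ↥Cfsg.golayCode)) (h1 : ∀ x ∈ X, ∀ e : ↥Cfsg.golayCode, (e : (Cfsg.GolayPt → ZMod 2)) = (fun _ => (1 : ZMod 2)) → x e = e) (hM : ∀ σ ∈ Cfsg.M24, ∃ x ∈ X, ∀ c : ↥Cfsg.golayCode, ((x c : ↥Cfsg.golayCode) : (Cfsg.GolayPt → ZMod 2)) = fun p => (c : (Cfsg.GolayPt → ZMod 2)) (σ.symm p)) (horb : ∀ x ∈ X, ∀ c : ↥Cfsg.golayCode, ∃ σ ∈ Cfsg.M24, ((x c : ↥Cfsg.golayCode) : (Cfsg.GolayPt → ZMod 2)) = (fun p => (c : (Cfsg.GolayPt → ZMod 2)) (σ.symm p)) ∨ ((x c : ↥Cfsg.golayCode) : (Cfsg.GolayPt → ZMod 2)) = (fun p => (c : (Cfsg.GolayPt → ZMod 2)) (σ.symm p)) + fun _ => (1 : ZMod 2)) (x : ↥Cfsg.golayCode ≃ₗ[ZMod 2] ↥Cfsg.golayCode) (hx : x ∈ X) : ∃ σ ∈ Cfsg.M24, ∀ c : ↥Cfsg.golayCode, ((x c : ↥Cfsg.golayCode) : (Cfsg.GolayPt → ZMod 2)) = (fun p => (c : (Cfsg.GolayPt → ZMod 2)) (σ.symm p)) ∨ ((x c : ↥Cfsg.golayCode) : (Cfsg.GolayPt → ZMod 2)) = (fun p => (c : (Cfsg.GolayPt → ZMod 2)) (σ.symm p)) + fun _ => (1 : ZMod 2) := by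
  have hwt : ∀ y ∈ X, ∀ c : golayCode, ((support₂ c.1).card = 8 ∨ (support₂ c.1).card = 16) →
      ((support₂ (y c).1).card = 8 ∨ (support₂ (y c).1).card = 16) := by
    intro y hy c hc
    obtain ⟨σ, -, e | e⟩ := horb y hy c
    · rwa [e, wsupp_act, card_smul_finset]
    · rw [e, wsupp_add, wsupp_act, wsupp_one, show ∀ s : Finset GolayPt, s ∆ univ = sᶜ from fun s => symmDiff_top s, card_compl,
        card_smul_finset, card_golayPt]
      omega
  have hcnt : ∀ φ : golayCode → ZMod 2, cntW (fun c => φ (x c)) = cntW φ := fun φ =>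
    Set.ncard_congr (fun c _ => x c) (fun c hc => ⟨hwt x hx c hc.1, hc.2⟩)
      (fun _ _ _ _ h => x.injective h) fun c hc =>
        ⟨x.symm c, ⟨hwt x⁻¹ (X.inv_mem hx) c hc.1, by simpa using hc.2⟩, by simp⟩
  have one_mem : (fun _ => (1 : ZMod 2)) ∈ golayCode :=
    support_mem_cSets_iff.1 (wsupp_one ▸ univ_mem_cSets)
  have K : ∀ p q, p ≠ q → ∀ s : Finset GolayPt, s.card ≤ 4 →
      (∀ c, (x c).1 p + (x c).1 q = ∑ i ∈ s, c.1 i) → s.card = 2 := by
    intro p q hpq s h4 h
    have e1 := h ⟨_, one_mem⟩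
    rw [h1 x hx _ rfl] at e1
    simp only [sum_const, nsmul_eq_mul, mul_one] at e1
    have e2 : s.card % 2 = 0 := by
      rw [← Nat.dvd_iff_mod_eq_zero, ← ZMod.natCast_eq_zero_iff, ← e1]
      decide
    have e3 : cntS s = 704 := by
      rw [← cntW_sum, ← cntS_two (card_pair hpq), ← cntW_sum, ← hcnt (fun c => ∑ i ∈ {p, q}, c.1 i)]
      congr 1
      funext c
      rw [sum_pair hpq, h]
    by_contra h2
    rcases (by omega : s.card = 0 ∨ s.card = 4) with h0 | h0
    · rw [card_eq_zero.1 h0, cntS_zero] at e3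
      omega
    · rw [cntS_four h0] at e3
      omega
  have hD : ∀ p : ZMod 23, ∃ s : Finset GolayPt, s.card = 2 ∧
      ∀ c, (x c).1 (some p) + (x c).1 none = ∑ i ∈ s, c.1 i := fun p => by
    obtain ⟨s, h4, hs⟩ := exists_dual 
      ⟨⟨fun c => (x c).1 (some p) + (x c).1 none, fun a b => by simp; ring⟩,
        fun a b => by simp; ring⟩
    exact ⟨s, K (some p) none (by simp) s h4 hs, hs⟩
  choose D D2 hD using hD
  have D1 : ∀ p q, p ≠ q → (D p ∩ D q).card = 1 := fun p q hpq => by
    have e := card_symmDiff_add (D p) (D q)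
    rw [D2, D2] at e
    have := K (some p) (some q) (by simpa using hpq) (D p ∆ D q) (by omega) fun c => by
      have e1 : ∀ s : Finset GolayPt, ∑ i ∈ s, c.1 i = ∑ i, c.1 i * indW s i := fun s => by
        simp [indW]
      rw [e1, indW_symmDiff]
      simp only [Pi.add_apply, mul_add, sum_add_distrib]
      rw [← e1, ← e1, ← hD, ← hD]
      generalize (x c).1 (some p) = a
      generalize (x c).1 (some q) = b
      generalize (x c).1 none = d
      revert a b d
      decide
    omega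
  obtain ⟨z, hz⟩ := common_pt D D2 D1
  have other : ∀ p, ∃ b, z ≠ b ∧ D p = {z, b} := fun p => by
    obtain ⟨x, y, hxy, e⟩ := card_eq_two.1 (D2 p)
    have hp := hz p
    rw [e, mem_insert, mem_singleton] at hp
    rcases hp with rfl | rfl
    · exact ⟨y, hxy, e⟩
    · exact ⟨x, hxy.symm, e.trans (pair_comm _ _)⟩
  choose π π1 π2 using other
  have hinj : Function.Injective (fun p : GolayPt => p.elim z π) := by
    rintro (_ | p) (_ | q) h
    · rfl
    · exact absurd h (π1 q)
    · exact absurd h.symm (π1 p)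
    · by_contra hne
      have := D1 p q fun e => hne (e ▸ rfl)
      rw [π2, π2, show π p = π q from h, inter_self, card_pair (π1 q)] at this
      omega
  let τ : Equiv.Perm GolayPt := Equiv.ofBijective _ (Finite.injective_iff_bijective.1 hinj)
  have key : ∀ c : golayCode, (x c).1 = (fun p => c.1 (τ p)) ∨
      (x c).1 = (fun p => c.1 (τ p)) + fun _ => (1 : ZMod 2) := by
    intro c
    have e : ∀ p, (x c).1 p = c.1 (τ p) + ((x c).1 none + c.1 z) := by
      rintro (_ | p)
      · change _ = c.1 z + _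
        generalize (x c).1 none = a
        generalize c.1 z = b
        revert a b
        decide
      · have := hD p c
        rw [π2, sum_pair (π1 p)] at this
        change _ = c.1 (π p) + _
        revert this
        generalize (x c).1 none = a
        generalize c.1 z = b
        generalize c.1 (π p) = d
        generalize (x c).1 (some p) = f
        revert a b d f
        decide
    rcases z2 ((x c).1 none + c.1 z) with h | h
    · exact Or.inl (funext fun p => by rw [e, h, add_zero])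
    · exact Or.inr (funext fun p => by rw [e, h]; rfl)
  refine ⟨τ.symm, mem_M24_iff.2 ?_, key⟩
  rintro _ ⟨w, hw, rfl⟩
  rw [← wsupp_act, support_mem_cSets_iff]
  rcases key ⟨w, hw⟩ with e | e
  · exact (show (x ⟨w, hw⟩).1 = _ from e) ▸ (x ⟨w, hw⟩).2
  · have := golayCode.sub_mem (x ⟨w, hw⟩).2 one_mem
    rwa [e, add_sub_cancel_right] at this

end Cfsg.Agent.S5549
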