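import Cfsg.Statements.S5594
import Cfsg.Agent.H15.Norm23

set_option autoImplicit false
open Cfsg

namespace Cfsg.Agent.S5594

/-- The automorphism group of the Leech lattice contains the negation map, and the subgroup of order 2 it generates has no complement: the automorphism group is a non-split extension of its quotient by that subgroup (it is not the direct product of a group of order 2 with the first Conway group). -/
theorem result :
    ∃ n : ↥Cfsg.Co0, (∀ v : ↥Cfsg.leechLattice, ((n • v : ↥Cfsg.leechLattice) : Cfsg.GolayPt → ℤ) = -(v : Cfsg.GolayPt → ℤ)) ∧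
    ∀ K : Subgroup ↥Cfsg.Co0, ¬ (Subgroup.zpowers n).IsComplement' K := by
  refine ⟨H15.negC, fun v => by rw [H15.negC_smul]; rfl, fun K hK => ?_⟩
  have h1 : K.index = 2 := by
    rw [hK.index_eq_card, Nat.card_zpowers, H15.orderOf_negC]
  have hc : H15.IsCw (H14.bits 340831) := H15.isCw_bits (by decide +kernel)
  let σ : M24 := ⟨projInv, H14.projInv_mem⟩
  have h2 : (H15.signC _ hc * H15.permC σ) ^ 2 = H15.negC := by
    refine H15.co0_ext fun v => Subtype.ext (funext fun i => ?_)
    rw [pow_two, H15.negC_smul]
    simp only [mul_smul, H15.signC_apply, H15.permC_apply]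
    have h3 : ∀ i, projInv.symm (projInv.symm i) = i := by decide
    have h4 : ∀ i, projInv.symm i ∈ H14.bits 340831 ↔ i ∉ H14.bits 340831 := by decide +kernel
    simp only [σ, h3, h4]
    by_cases h : i ∈ H14.bits 340831 <;> simp [h]
  have h3 : H15.negC ∈ K := h2 ▸ Subgroup.sq_mem_of_index_two h1 _
  exact H15.negC_ne_one (Subgroup.disjoint_def.1 hK.disjoint (Subgroup.mem_zpowers _) h3)

end Cfsg.Agent.S5594
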