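import Cfsg.Statements.S5599
import Cfsg.Agent.H14.Mathieu

set_option autoImplicit false
open scoped Pointwise
open Cfsg

namespace Cfsg.Agent.S5599

open Cfsg.Agent.H14

/-- In the automorphism group of the length-24 code, the two-point Mathieu group (permutations of the code's group fixing the extra point and the residue 0) has index 2 in the setwise stabiliser of that pair of points, and an element of the code's group interchanging the two points normalises the two-point group and induces on it, by conjugation, an automorphism that is not inner. -/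
theorem result (g : Equiv.Perm Cfsg.GolayPt) (hg : g ∈ Cfsg.M24) (h₁ : g none = some 0) (h₂ : g (some 0) = none) : Cfsg.Spor.M22.relIndex (Cfsg.M24 ⊓ MulAction.stabilizer (Equiv.Perm Cfsg.GolayPt) ({none, some 0} : Finset Cfsg.GolayPt)) = 2 ∧ (∀ x ∈ Cfsg.Spor.M22, g * x * g⁻¹ ∈ Cfsg.Spor.M22) ∧ ¬ ∃ h ∈ Cfsg.Spor.M22, ∀ x ∈ Cfsg.Spor.M22, g * x * g⁻¹ = h * x * h⁻¹ := by
  have mem22 : ∀ x, x ∈ Cfsg.Spor.M22 ↔ x ∈ M24 ∧ x none = none ∧ x (some 0) = some 0 :=
    fun x => and_assoc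
  have memS : ∀ x : Equiv.Perm GolayPt,
      x ∈ MulAction.stabilizer (Equiv.Perm GolayPt) ({none, some 0} : Finset GolayPt) ↔
      (x none = none ∧ x (some 0) = some 0) ∨ (x none = some 0 ∧ x (some 0) = none) := by
    intro x
    rw [MulAction.mem_stabilizer_iff, Finset.smul_finset_insert, Finset.smul_finset_singleton,
      ← Finset.coe_inj, Finset.coe_pair, Finset.coe_pair, Set.pair_eq_pair_iff]
    rfl
  have g1 : g⁻¹ none = some 0 := by rw [← h₂]; simp
  have g2 : g⁻¹ (some 0) = none := by rw [← h₁]; simp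
  refine ⟨Subgroup.relIndex_eq_two_iff.2 ⟨g, ⟨hg, (memS g).2 (Or.inr ⟨h₁, h₂⟩)⟩, fun b hb => ?_⟩,
    fun x hx => ?_, ?_⟩
  · rw [mem22, mem22, Equiv.Perm.mul_apply, Equiv.Perm.mul_apply, h₁, h₂]
    rcases (memS b).1 hb.2 with ⟨e1, e2⟩ | ⟨e1, e2⟩
    · exact Or.inr ⟨⟨hb.1, e1, e2⟩, by simp [e1, e2]⟩
    · exact Or.inl ⟨⟨M24.mul_mem hb.1 hg, e2, e1⟩, by simp [e1, e2]⟩
  · obtain ⟨x1, x2, x3⟩ := (mem22 x).1 hx
    exact (mem22 _).2 ⟨(conj_mem_iff hg x).2 x1, by simp only [Equiv.Perm.mul_apply, g1, x3, h₂],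
      by simp only [Equiv.Perm.mul_apply, g2, x2, h₁]⟩
  · rintro ⟨h, hh, e⟩
    obtain ⟨x1, x2, x3⟩ := (mem22 h).1 hh
    have hc : h⁻¹ * g ∈ M24 := M24.mul_mem (M24.inv_mem x1) hg
    have c0 : (h⁻¹ * g) (some 0) = none := by
      rw [Equiv.Perm.mul_apply, h₂, Equiv.Perm.inv_eq_iff_eq, x2]
    have c1 : (h⁻¹ * g) none = some 0 := by
      rw [Equiv.Perm.mul_apply, h₁, Equiv.Perm.inv_eq_iff_eq, x3]
    have hcomm : ∀ x ∈ Cfsg.Spor.M22, h⁻¹ * g * x = x * (h⁻¹ * g) := by
      intro x hx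
      calc h⁻¹ * g * x = h⁻¹ * (g * x * g⁻¹) * g := by group
        _ = _ := by rw [e x hx]; group
    generalize h⁻¹ * g = c at hc c0 c1 hcomm
    have hfix : ∀ a, a ≠ none → a ≠ some 0 → c a = a := by
      intro a a1 a2
      by_contra hne
      have p1 : c a ≠ none := fun e => a2 (c.injective (e.trans c0.symm))
      have p2 : c a ≠ some 0 := fun e => a1 (c.injective (e.trans c1.symm))
      obtain ⟨q, q1, q2, q3, q4⟩ := (by decide : ∀ a b : GolayPt, ∃ q : GolayPt,
        q ≠ none ∧ q ≠ some 0 ∧ q ≠ a ∧ q ≠ b) a (c a)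
      obtain ⟨x, hx, ex⟩ := m24_exists_apply_eq (t := 4) (by norm_num) ![none, some 0, a, c a]
        ![none, some 0, a, q] (inj4 (by simp) a1 a2 p1 p2 hne) (inj4 (by simp) a1 a2 q1 q2 q3)
      have := congrArg (fun f : Equiv.Perm GolayPt => f a)
        (hcomm x ((mem22 x).2 ⟨hx, ex 0, ex 1⟩))
      have e2 : x a = a := ex 2
      have e3 : x (c a) = q := ex 3
      simp only [Equiv.Perm.mul_apply, e2, e3] at this
      exact q4 this.symm
    have := fix_of_rigidOK hc (F := 8388606) (F' := 1) [1302533] (by decide +kernel)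
      (fun a ha => hfix a (by rintro rfl; revert ha; decide) (by rintro rfl; revert ha; decide))
      (some 0) (by decide)
    rw [c0] at this
    exact absurd this (by simp)

end Cfsg.Agent.S5599
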