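import Cfsg.Statements.S5600
import Cfsg.Agent.H97.M24Six

set_option autoImplicit false
open scoped Pointwise
open Cfsg

namespace Cfsg.Agent.S5600

open Cfsg.Agent.H14 Cfsg.Agent.H97

/-- Although the group of the length-24 code is only 5-transitive on the 24 points, it induces the full symmetric group on every 6-element subset: every permutation of a 6-set E is the restriction of an element of the group mapping E to itself. The pointwise stabiliser of E has order 16 when E lies in an octad and order 3 otherwise; in the latter case the setwise stabiliser of E has order 2160. -/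
theorem result (E : Finset Cfsg.GolayPt) (hE : E.card = 6) : (∀ σ : Equiv.Perm ↥E, ∃ g ∈ Cfsg.M24, ∀ p : ↥E, g p = σ p) ∧ ((∃ o ∈ Cfsg.octads, E ⊆ o) → Nat.card {g : Equiv.Perm Cfsg.GolayPt // g ∈ Cfsg.M24 ∧ ∀ p ∈ E, g p = p} = 16) ∧ ((¬ ∃ o ∈ Cfsg.octads, E ⊆ o) → Nat.card {g : Equiv.Perm Cfsg.GolayPt // g ∈ Cfsg.M24 ∧ ∀ p ∈ E, g p = p} = 3 ∧ Nat.card ↥(MulAction.stabilizer Cfsg.M24 E) = 2160) := by
  obtain ⟨u, hu⟩ := exists_enum hE
  have e0 : Nat.card {g : Equiv.Perm GolayPt // g ∈ M24 ∧ ∀ p ∈ E, g p = p} =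
      Nat.card {g : Equiv.Perm GolayPt // g ∈ M24 ∧ ∀ i, g (u i) = u i} :=
    Nat.card_congr (Equiv.subtypeEquivRight fun g => and_congr_right fun _ =>
      ⟨fun h i => h _ (u i).2, fun h p hp => by simpa using h (u.symm ⟨p, hp⟩)⟩)
  refine ⟨six_sym hE, ?_, fun h => ?_⟩
  · rintro ⟨o, ho, h⟩
    obtain ⟨g, hg, e, -⟩ := six_special _ hu ho fun i => h (u i).2
    rw [e0, card_fix_tuple hg e, card_fix_tupA]
  · obtain ⟨g, hg, e⟩ := six_umbral _ hu (by
      rintro ⟨o, ho, h'⟩
      exact h ⟨o, ho, fun p hp => by simpa using h' (u.symm ⟨p, hp⟩)⟩)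
    have h3 : Nat.card {g : Equiv.Perm GolayPt // g ∈ M24 ∧ ∀ p ∈ E, g p = p} = 3 := by
      rw [e0, card_fix_tuple hg e, card_fix_tupB]
    refine ⟨h3, ?_⟩
    have hst : ∀ g : Equiv.Perm GolayPt, (∀ p ∈ E, g p ∈ E) → g • E = E := fun g hg =>
      Finset.eq_of_subset_of_card_le (fun b hb => by
        obtain ⟨a, ha, rfl⟩ := Finset.mem_smul_finset.1 hb
        exact hg a ha) (Finset.card_smul_finset _ _).ge
    rw [card_eq_of_res (M24.subtype.comp (MulAction.stabilizer M24 E).subtype) E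
      (fun h p hp => by
        have : ((h : M24) : Equiv.Perm GolayPt) • E = E := h.2
        exact apply_mem_of_smul_eq this hp)
      (fun σ => by
        obtain ⟨g, hg, e⟩ := six_sym hE σ
        exact ⟨⟨⟨g, hg⟩, hst g fun p hp => by rw [e ⟨p, hp⟩]; exact (σ _).2⟩, e⟩), hE]
    have : Nat.card {h : MulAction.stabilizer M24 E //
        ∀ p ∈ E, (M24.subtype.comp (MulAction.stabilizer M24 E).subtype) h p = p} = 3 := by
      rw [← h3]
      exact Nat.card_congr ⟨fun h => ⟨h.1.1.1, h.1.1.2, h.2⟩,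
        fun g => ⟨⟨⟨g.1, g.2.1⟩, hst g.1 fun p hp => by rw [g.2.2 p hp]; exact hp⟩, g.2.2⟩,
        fun _ => rfl, fun _ => rfl⟩
    rw [this]
    rfl

end Cfsg.Agent.S5600
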