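import Cfsg.Statements.S5601
import Cfsg.Agent.H97.M24Cls

set_option autoImplicit false
open scoped Pointwise
open Cfsg

namespace Cfsg.Agent.S5601

/-- The group of the length-24 code has exactly two conjugacy classes of subgroups of order 3: a subgroup of order 3 fixes either exactly 6 of the 24 points or none of them, both cases occur, and two subgroups of order 3 with the same number of fixed points are conjugate. -/
theorem result : (∀ X : Subgroup ↥Cfsg.M24, Nat.card X = 3 → {p : Cfsg.GolayPt | ∀ x ∈ X, ((x : ↥Cfsg.M24) : Equiv.Perm Cfsg.GolayPt) p = p}.ncard = 6 ∨ {p : Cfsg.GolayPt | ∀ x ∈ X, ((x : ↥Cfsg.M24) : Equiv.Perm Cfsg.GolayPt) p = p}.ncard = 0) ∧ (∃ X : Subgroup ↥Cfsg.M24, Nat.card X = 3 ∧ {p : Cfsg.GolayPt | ∀ x ∈ X, ((x : ↥Cfsg.M24) : Equiv.Perm Cfsg.GolayPt) p = p}.ncard = 6) ∧ (∃ X : Subgroup ↥Cfsg.M24, Nat.card X = 3 ∧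 {p : Cfsg.GolayPt | ∀ x ∈ X, ((x : ↥Cfsg.M24) : Equiv.Perm Cfsg.GolayPt) p = p}.ncard = 0) ∧ ∀ X Y : Subgroup ↥Cfsg.M24, Nat.card X = 3 → Nat.card Y = 3 → {p : Cfsg.GolayPt | ∀ x ∈ X, ((x : ↥Cfsg.M24) : Equiv.Perm Cfsg.GolayPt) p = p}.ncard = {p : Cfsg.GolayPt | ∀ x ∈ Y, ((x : ↥Cfsg.M24) : Equiv.Perm Cfsg.GolayPt) p = p}.ncard → ∃ k : ↥Cfsg.M24, MulAut.conj k • X = Y := by
  open Cfsg.Agent.H97 Cfsg.Agent.H14 in
  have key : ∀ X : Subgroup ↥Cfsg.M24, Nat.card X = 3 → ∃ x : ↥Cfsg.M24, Subgroup.zpowers x = X ∧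
      (((∃ a ∈ M24, a * GE.perm m24_3A.X * a⁻¹ = x) ∧ {p : Cfsg.GolayPt | ∀ x ∈ X, ((x : ↥Cfsg.M24) : Equiv.Perm Cfsg.GolayPt) p = p}.ncard = 6) ∨
      ((∃ a ∈ M24, a * GE.perm m24_3B.X * a⁻¹ = x) ∧ {p : Cfsg.GolayPt | ∀ x ∈ X, ((x : ↥Cfsg.M24) : Equiv.Perm Cfsg.GolayPt) p = p}.ncard = 0)) := by
    intro X hX
    obtain ⟨x, rfl, hx⟩ := exists_zpowers_of_prime (by norm_num) hX
    rw [ncard_fix_zpowers]
    exact ⟨x, rfl, m24_order3 x.2 (by rw [Subgroup.orderOf_coe, hx])⟩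
  open Cfsg.Agent.H97 Cfsg.Agent.H14 in
  refine ⟨fun X hX => ?_, ?_, ?_, fun X Y hX hY h => ?_⟩
  · obtain ⟨x, -, h | h⟩ := key X hX
    exacts [Or.inl h.2, Or.inr h.2]
  · obtain ⟨h1, h2, h3⟩ := Cfsg.Agent.H97.m24_3A_order
    refine ⟨Subgroup.zpowers ⟨_, h2⟩, ?_, ?_⟩
    · rw [Nat.card_zpowers, ← Subgroup.orderOf_coe, h1]
    · rw [Cfsg.Agent.H97.ncard_fix_zpowers, h3]
  · obtain ⟨h1, h2, h3⟩ := Cfsg.Agent.H97.m24_3B_order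
    refine ⟨Subgroup.zpowers ⟨_, h2⟩, ?_, ?_⟩
    · rw [Nat.card_zpowers, ← Subgroup.orderOf_coe, h1]
    · rw [Cfsg.Agent.H97.ncard_fix_zpowers, h3]
  · have fin : ∀ (r : Equiv.Perm Cfsg.GolayPt) (x y : ↥Cfsg.M24), (∃ a ∈ M24, a * r * a⁻¹ = x) →
        (∃ a ∈ M24, a * r * a⁻¹ = y) →
        ∃ k : ↥Cfsg.M24, MulAut.conj k • Subgroup.zpowers x = Subgroup.zpowers y := by
      rintro r x y ⟨a, ha, e1⟩ ⟨b, hb, e2⟩
      refine ⟨⟨b * a⁻¹, M24.mul_mem hb (M24.inv_mem ha)⟩, ?_⟩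
      rw [Cfsg.Agent.H97.conj_smul_zpowers]
      congr 1
      apply Subtype.ext
      simp only [Subgroup.coe_mul, Subgroup.coe_inv]
      rw [← e1, ← e2]
      group
    obtain ⟨x, rfl, h1 | h1⟩ := key X hX <;> obtain ⟨y, rfl, h2 | h2⟩ := key Y hY
    · exact fin _ x y h1.1 h2.1
    · omega
    · omega
    · exact fin _ x y h1.1 h2.1

end Cfsg.Agent.S5601
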