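import Cfsg.Statements.S5603
import Cfsg.Agent.H56.FixCnt

set_option autoImplicit false
open scoped Pointwise
open Cfsg

namespace Cfsg.Agent.S5603

open H14 H55 H56

/-- A fixed-point-free element of order 3 of the group of the length-24 code maps to themselves exactly 7 sextets and exactly 15 trios. -/
theorem result (g : Equiv.Perm Cfsg.GolayPt) (hg : g ∈ Cfsg.M24) (h₃ : orderOf g = 3) (h₀ : ∀ p, g p ≠ p) : {S : Finset (Finset Cfsg.GolayPt) | S ∈ Cfsg.sextets ∧ g • S = S}.ncard = 7 ∧ {T : Finset (Finset Cfsg.GolayPt) | T ∈ Cfsg.trios ∧ g • T = T}.ncard = 15 := by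
  rcases H97.m24_order3 hg h₃ with ⟨-, h⟩ | ⟨h, -⟩
  · rw [Finset.filter_false_of_mem fun p _ => h₀ p] at h
    exact absurd h (by decide)
  · obtain ⟨x, hx, e⟩ := fix_rep (by simp [m24Cl]) hg h
    exact ⟨(e fun g _ => smul_mem_sextets g).trans ((fix_sx hx).trans (by decide +kernel)),
      (e fun g _ => smul_mem_trios g).trans ((fix_tr hx).trans (by decide +kernel))⟩

end Cfsg.Agent.S5603
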