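import Cfsg.Statements.S5607
import Cfsg.Agent.H97.M24Cls
import Cfsg.Agent.H97.M24Fam

set_option autoImplicit false
open scoped Pointwise
open Cfsg

namespace Cfsg.Agent.S5607

open Cfsg.Agent.H14 Cfsg.Agent.H97

def c2BGens : List ℕ := [nat_lit 0x4316779933202e22d83180e92ab5ca, nat_lit 0x6ca021868f9a906adce0291895da2e]
def c2BL0 : Lev := ⟨nat_lit 23, nat_lit 0xffffff, (.node (nat_lit 12) (.node (nat_lit 6) (.node (nat_lit 3) (.node (nat_lit 1) (.leaf (nat_lit 0x1aa5990e34b9b664a347ac4182157)) (.node (nat_lit 2) (.leaf (nat_lit 0x7120c1a4ab3a912306829d6d1782ed)) (.leaf (nat_lit 0x888b020c2f9290da31c99d4e65dc16)))) (.node (nat_lit 4) (.leaf (nat_lit 0x88ca120a0095667a30c9429aebadf6)) (.node (nat_lit 5) (.leaf (nat_lit 0x7546882a71390af3096162417b4a8d)) (.leaf (nat_lit 0x8d4882aa669082ba25ec80ee03b5d6))))) (.node (nat_lit 9) (.node (nat_lit 7) (.leaf (nat_lit 0x2aa32b5107808291b98d05deb35664)) (.node (nat_lit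 8) (.leaf (nat_lit 0xa8cd3b9122a58324616b816fa5662)) (.leaf (nat_lit 0x69068828a99ca8ba81f7106d1618ee)))) (.node (nat_lit 10) (.leaf (nat_lit 0x148d33d6838b5c0b12e55bd8982141)) (.node (nat_lit 11) (.leaf (nat_lit 0x6ca021868f9a906adce0291895da2e)) (.leaf (nat_lit 0x62e9090de505a2dbd5d331d0a20449)))))) (.node (nat_lit 18) (.node (nat_lit 15) (.node (nat_lit 13) (.leaf (nat_lit 0x4b693955c435a37388017ae032a14c)) (.node (nat_lit 14) (.leaf (nat_lit 0x4316779933202e22d83180e92ab5ca)) (.leaf (nat_lit 0x405f65c4531dc04834ae624c7aca8a)))) (.node (nat_lit 16) (.leaf (nat_lit 0xbccc3a570bb5d2056938d90a19482)) (.node (nat_lit 17) (.leaf (nat_lit 0x72605191973d6763062242a5403d6d)) (.leaf (nat_lit 0x48242a06e45c6c67a0ea6bab328e0c))))) (.node (nat_lit 21) (.node (nat_lit 19) (.leaf (nat_lit 0x425607dd871845583a6db4654310aa)) (.node (nat_lit 20) (.leaf (nat_lit 0x9880bbbc322312a2c5166b8e6a0e15)) (.leaf (nat_lit 0x40df758212231352c676399aea082a))))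 (.node (nat_lit 22) (.leaf (nat_lit 0x9b6e601dd25258142c4f29203a46d5)) (.node (nat_lit 23) (.leaf (nat_lit 0xdcef32c121b1288354e21675a46c2)) (.leaf (nat_lit 0xbdab49ca307b9ac5a928398a418820)))))))⟩
def c2BC0 : LevCert := ⟨c2BL0,
    [(nat_lit 13, nat_lit 0), (nat_lit 10, nat_lit 1), (nat_lit 2, nat_lit 0), (nat_lit 0, nat_lit 0), (nat_lit 14, nat_lit 1), (nat_lit 12, nat_lit 0), (nat_lit 20, nat_lit 1), (nat_lit 8, nat_lit 1), (nat_lit 1, nat_lit 0), (nat_lit 22, nat_lit 0), (nat_lit 5, nat_lit 1), (nat_lit 17, nat_lit 1), (nat_lit 9, nat_lit 0), (nat_lit 18, nat_lit 1), (nat_lit 11, nat_lit 0), (nat_lit 7, nat_lit 1), (nat_lit 4, nat_lit 1), (nat_lit 21, nat_lit 0), (nat_lit 3, nat_lit 1), (nat_lit 15, nat_lit 0), (nat_lit 6, nat_lit 1), (nat_lit 19, nat_lit 1), (nat_lit 16, nat_lit 1)],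
    [[nat_lit 2, nat_lit 2, nat_lit 2, nat_lit 0, nat_lit 2, nat_lit 0, nat_lit 2, nat_lit 2, nat_lit 0], [nat_lit 4, nat_lit 2, nat_lit 2, nat_lit 2, nat_lit 2, nat_lit 2, nat_lit 2, nat_lit 2]],
    [nat_lit 0xbb669ab1c129cd4246565be0312900, nat_lit 0xb9e64a94d0635d14d2d25bc221a900]⟩
def c2BL1 : Lev := ⟨nat_lit 1, nat_lit 0x57fffe, (.node (nat_lit 11) (.node (nat_lit 6) (.node (nat_lit 3) (.node (nat_lit 2) (.leaf (nat_lit 0xbdab49ca307b9ac5a928398a418820)) (.leaf (nat_lit 0xbc2a89a864946cfa316931dcd28440))) (.node (nat_lit 4) (.leaf (nat_lit 0xbda6babe22718e868d50a48850b120)) (.node (nat_lit 5) (.leaf (nat_lit 0xb9a6dab8e47da235a20aa48412b120)) (.leaf (nat_lit 0xb9e64a94d0635d14d2d25bc221a900))))) (.node (nat_lit 8) (.node (nat_lit 7) (.leaf (nat_lit 0xbbe65a9172825961b62e1050aa18e0)) (.leaf (nat_lit 0xba66dab98b2a9032461608a5479cc0))) (.node (nat_lit 9) (.leaf (nat_lit 0xba66aaa190335cf38961b4654190a0))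 (.node (nat_lit 10) (.leaf (nat_lit 0xbb667a99d24258253c2bb4603a10a0)) (.leaf (nat_lit 0xba66faad8e38e0a305028da5469480)))))) (.node (nat_lit 16) (.node (nat_lit 13) (.node (nat_lit 12) (.leaf (nat_lit 0xbdaa39c2321312e09da6520a4a3d60)) (.leaf (nat_lit 0xb8e66a9e125a5817a8488d9cda1480))) (.node (nat_lit 14) (.leaf (nat_lit 0xbb2b19d9274082552c8f1c254335c0)) (.node (nat_lit 15) (.leaf (nat_lit 0xb8e74aca072844924596521cd32de0)) (.leaf (nat_lit 0xbbab69c5a80ade4118a74b20355240))))) (.node (nat_lit 18) (.node (nat_lit 17) (.leaf (nat_lit 0xbb669ab1c129cd4246565be0312900)) (.leaf (nat_lit 0xb8aaa9a032b312b895e41c0e6a35c0))) (.node (nat_lit 20) (.leaf (nat_lit 0xbaea2985f08b9a6b10e54b10a1d240)) (.node (nat_lit 22) (.leaf (nat_lit 0xbb2a19892585a271b8cd5225423d60)) (.leaf (nat_lit 0xb8664a944e90e11a26cc520e66ade0)))))))⟩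
def c2BC1 : LevCert := ⟨c2BL1,
    [(nat_lit 16, nat_lit 0), (nat_lit 5, nat_lit 1), (nat_lit 15, nat_lit 0), (nat_lit 18, nat_lit 1), (nat_lit 6, nat_lit 0), (nat_lit 9, nat_lit 0), (nat_lit 8, nat_lit 1), (nat_lit 13, nat_lit 0), (nat_lit 17, nat_lit 1), (nat_lit 20, nat_lit 0), (nat_lit 11, nat_lit 1), (nat_lit 22, nat_lit 0), (nat_lit 14, nat_lit 1), (nat_lit 10, nat_lit 0), (nat_lit 12, nat_lit 1), (nat_lit 7, nat_lit 0), (nat_lit 2, nat_lit 0), (nat_lit 3, nat_lit 0), (nat_lit 4, nat_lit 1)],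
    [[nat_lit 2, nat_lit 0, nat_lit 0, nat_lit 2, nat_lit 0, nat_lit 0, nat_lit 2, nat_lit 2, nat_lit 0, nat_lit 0, nat_lit 2, nat_lit 2], [nat_lit 4, nat_lit 2, nat_lit 2, nat_lit 2, nat_lit 2, nat_lit 4, nat_lit 2, nat_lit 2, nat_lit 2, nat_lit 4, nat_lit 2]],
    [nat_lit 0xb96b29d08e5c0697a18a39ad168820, nat_lit 0xbae71ad9f21a584838ad31d48a0820]⟩
def c2BL2 : Lev := ⟨nat_lit 3, nat_lit 0x57ff38, (.node (nat_lit 13) (.node (nat_lit 9) (.node (nat_lit 5) (.node (nat_lit 4) (.leaf (nat_lit 0xbdab49ca307b9ac5a928398a418820)) (.leaf (nat_lit 0xbbaab9bda595a2aa310939a0320820))) (.node (nat_lit 8) (.leaf (nat_lit 0xbb6aa9a1c44c6cb651f23987028820)) (.leaf (nat_lit 0xbbe64a95746b131742c331d0a90820)))) (.node (nat_lit 11) (.node (nat_lit 10) (.leaf (nat_lit 0xbb26eab5282bd702447631e9250820)) (.leaf (nat_lit 0xba265a914c7525668e3031deb48820))) (.node (nat_lit 12) (.leaf (nat_lit 0xbaa76ac50984a851b48e31d6f60820))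 (.leaf (nat_lit 0xbd26daba4f221432da1131d8958820))))) (.node (nat_lit 17) (.node (nat_lit 15) (.node (nat_lit 14) (.leaf (nat_lit 0xb96b29d08e5c0697a18a39ad168820)) (.leaf (nat_lit 0xb92a99b0ad50e1243e8b39a3670820))) (.node (nat_lit 16) (.leaf (nat_lit 0xbae71ad9f21a584838ad31d48a0820)) (.leaf (nat_lit 0xbc6ac9a6c3435d452e4f3988580820)))) (.node (nat_lit 20) (.node (nat_lit 18) (.leaf (nat_lit 0xbc2af9ac76a14889254c399cd88820)) (.leaf (nat_lit 0xba670a8d8ab2dee891a531e5440820))) (.node (nat_lit 22) (.leaf (nat_lit 0xbca63ac28b8a90db15c431d2c78820)) (.leaf (nat_lit 0xb8ea89aa11610af4c974399aeb0820))))))⟩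
def c2BC2 : LevCert := ⟨c2BL2,
    [(nat_lit 13, nat_lit 0), (nat_lit 15, nat_lit 1), (nat_lit 8, nat_lit 1), (nat_lit 11, nat_lit 0), (nat_lit 17, nat_lit 1), (nat_lit 10, nat_lit 0), (nat_lit 4, nat_lit 1), (nat_lit 22, nat_lit 1), (nat_lit 20, nat_lit 1), (nat_lit 5, nat_lit 1), (nat_lit 12, nat_lit 1), (nat_lit 18, nat_lit 1), (nat_lit 9, nat_lit 1), (nat_lit 16, nat_lit 1), (nat_lit 14, nat_lit 1)],
    [],
    []⟩
def c2B : List LevCert := [c2BC0, c2BC1, c2BC2]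
def c2BL : List Lev := [c2BL0, c2BL1, c2BL2]

theorem c2B_ok : preOK (nat_lit 5) (nat_lit 32) (nat_lit 24) c2B c2BGens = true := by
  decide +kernel

theorem pk2B : GE.pk (GE.perm m24_2B.X) = m24_2B.X := m24_classes.pk_perm (by simp [m24Cl])

theorem c2B_chain : GE.IsChain c2BL (M24 ⊓ Subgroup.centralizer {GE.perm m24_2B.X}) ∧
    M24 ⊓ Subgroup.centralizer {GE.perm m24_2B.X} = GE.grp c2BGens := by
  refine Enc.isChain_of_preOK (cs := c2B) (fun P hP => ?_) c2B_ok ?_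
  · have : ∀ P ∈ c2BGens, valid (nat_lit 5) (nat_lit 32) (nat_lit 24) P = true ∧ inM24 P = true ∧
      comp (nat_lit 5) (nat_lit 32) (nat_lit 24) P m24_2B.X =
        comp (nat_lit 5) (nat_lit 32) (nat_lit 24) m24_2B.X P := by decide +kernel
    exact inG_cent (inG_M24 (this P hP).1 (this P hP).2.1) (by rw [pk2B]; exact (this P hP).2.2)
  · rw [m24_classes.card m24_2B (by simp [m24Cl])]
    decide +kernel

theorem c2B_trans (p : GolayPt) :
    ∃ c ∈ M24 ⊓ Subgroup.centralizer {GE.perm m24_2B.X}, c none = p :=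
  (c2B_chain.1.exists_apply p).2 ((by decide +kernel : ∀ a, tb c2BL0.O (idx a) = true) p)

theorem c2B_sextet : ∀ c ∈ M24 ⊓ Subgroup.centralizer {GE.perm m24_2B.X},
    c • fam [198, 36096, 90120, 1315328, 4325424, 11010049] =
      fam [198, 36096, 90120, 1315328, 4325424, 11010049] := by
  rw [c2B_chain.2]
  refine (Subgroup.closure_le (MulAction.stabilizer _ _)).2 fun g hg => smul_fam ?_
  exact (by decide +kernel : ∀ P ∈ c2BGens,
    famFix [198, 36096, 90120, 1315328, 4325424, 11010049] P = true) _ hg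

/-- For a fixed-point-free involution t of the group of the length-24 code: its centraliser in that group has order 7680, is transitive on the 24 points, and is contained, together with t, in the stabiliser of some sextet. -/
theorem result (t : Equiv.Perm Cfsg.GolayPt) (ht : t ∈ Cfsg.M24) (h₂ : orderOf t = 2) (h₀ : ∀ p, t p ≠ p) : Nat.card {c : Equiv.Perm Cfsg.GolayPt // c ∈ Cfsg.M24 ∧ c * t = t * c} = 7680 ∧ (∀ p q : Cfsg.GolayPt, ∃ c ∈ Cfsg.M24, c * t = t * c ∧ c p = q) ∧ ∃ S ∈ Cfsg.sextets, t • S = S ∧ ∀ c ∈ Cfsg.M24, c * t = t * c → c • S = S := by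
  rcases m24_order2 ht h₂ with ⟨-, h, -⟩ | ⟨⟨a, ha, rfl⟩, -, h⟩
  · rw [Finset.filter_eq_empty_iff.2 fun p _ => h₀ p] at h
    simp at h
  have key : ∀ c ∈ M24, c * (a * GE.perm m24_2B.X * a⁻¹) = (a * GE.perm m24_2B.X * a⁻¹) * c ↔
      a⁻¹ * c * a ∈ M24 ⊓ Subgroup.centralizer {GE.perm m24_2B.X} := by
    intro c hc
    rw [Subgroup.mem_inf, Subgroup.mem_centralizer_singleton_iff,
      and_iff_right (M24.mul_mem (M24.mul_mem (M24.inv_mem ha) hc) ha)]
    constructor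
    · intro e
      calc a⁻¹ * c * a * GE.perm m24_2B.X = a⁻¹ * (c * (a * GE.perm m24_2B.X * a⁻¹)) * a := by group
        _ = _ := by rw [e]; group
    · intro e
      calc c * (a * GE.perm m24_2B.X * a⁻¹) = a * (a⁻¹ * c * a * GE.perm m24_2B.X) * a⁻¹ := by group
        _ = _ := by rw [e]; group
  have hS : ∀ c ∈ M24, c * (a * GE.perm m24_2B.X * a⁻¹) = (a * GE.perm m24_2B.X * a⁻¹) * c →
      c • a • fam [198, 36096, 90120, 1315328, 4325424, 11010049] =
        a • fam [198, 36096, 90120, 1315328, 4325424, 11010049] := by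
    intro c hc e
    have := c2B_sextet _ ((key c hc).1 e)
    rwa [mul_smul, mul_smul, inv_smul_eq_iff] at this
  refine ⟨?_, fun p q => ?_, _, smul_mem_sextets ha (fam_mem_sextets (by decide +kernel)),
    hS _ ht rfl, hS⟩
  · rw [← h]
    exact Nat.card_congr (Equiv.subtypeEquivRight fun c => by
      rw [Subgroup.mem_inf, Subgroup.mem_centralizer_singleton_iff])
  · obtain ⟨c, hc, e⟩ := c2B_trans (a⁻¹ p)
    obtain ⟨d, hd, e'⟩ := c2B_trans (a⁻¹ q)
    have hm : a * (d * c⁻¹) * a⁻¹ ∈ M24 :=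
      M24.mul_mem (M24.mul_mem ha (M24.mul_mem hd.1 (M24.inv_mem hc.1))) (M24.inv_mem ha)
    refine ⟨_, hm, (key _ hm).2 ?_, ?_⟩
    · rw [show a⁻¹ * (a * (d * c⁻¹) * a⁻¹) * a = d * c⁻¹ by group]
      exact Subgroup.mul_mem _ hd (Subgroup.inv_mem _ hc)
    · simp only [Equiv.Perm.mul_apply]
      rw [← e]
      simp [e']

end Cfsg.Agent.S5607
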