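import Cfsg.Statements.S5608
import Cfsg.Agent.H97.M24Cls

set_option autoImplicit false
open scoped Pointwise
open Cfsg

namespace Cfsg.Agent.S5608

/-- If an element of order 3 and an involution of the group of the length-24 code commute, then either the element of order 3 has exactly 6 fixed points and the involution exactly 8, or both are fixed-point-free. -/
theorem result (x s : Equiv.Perm Cfsg.GolayPt) (hx : x ∈ Cfsg.M24) (hs : s ∈ Cfsg.M24) (h₃ : orderOf x = 3) (h₂ : orderOf s = 2) (hc : Commute x s) : ((Finset.univ.filter fun p => x p = p).card = 6 ∧ (Finset.univ.filter fun p => s p = p).card = 8) ∨ ((Finset.univ.filter fun p => x p = p).card = 0 ∧ (Finset.univ.filter fun p => s p = p).card = 0) := by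
  have h6 : orderOf (x * s) = 6 := by
    rw [hc.orderOf_mul_eq_mul_orderOf_of_coprime (by rw [h₃, h₂]; decide), h₃, h₂]
  have x3 : x ^ 3 = 1 := h₃ ▸ pow_orderOf_eq_one x
  have s2 : s ^ 2 = 1 := h₂ ▸ pow_orderOf_eq_one s
  have e4 : (x * s) ^ 4 = x := by
    rw [hc.mul_pow, show x ^ 4 = x ^ 3 * x from pow_succ x 3, show s ^ 4 = (s ^ 2) ^ 2 by group, x3, s2]
    simp
  have e3 : (x * s) ^ 3 = s := by
    rw [hc.mul_pow, show s ^ 3 = s ^ 2 * s from pow_succ s 2, x3, s2]
    simp
  have := Cfsg.Agent.H97.m24_order6 (Cfsg.M24.mul_mem hx hs) h6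
  rwa [e4, e3] at this

end Cfsg.Agent.S5608
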