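import Cfsg.Statements.S5609
import Cfsg.Agent.H56.SubTools

set_option autoImplicit false
open scoped Pointwise
open Cfsg

namespace Cfsg.Agent.S5609

open H14 H55 H56

theorem card_zero {s t : Finset GolayPt} : (s ∩ t).card = 0 ↔ Disjoint s t := by
  rw [Finset.card_eq_zero, Finset.disjoint_iff_inter_eq_empty]

theorem adj_iff {a b : octads} : (blockGraph octads).Adj a b ↔ (a.1 ∩ b.1).card = 0 := by
  rw [blockGraph, SimpleGraph.fromRel_adj, card_zero]
  exact ⟨fun h => h.2.elim id fun h => h.symm, fun h =>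
    ⟨fun e => ne_of_disjoint a.2 h (congrArg Subtype.val e), Or.inl h⟩⟩

theorem mid {a b : octads} {x c k : ℕ} (hx : enc x = x ∧ pc x = 8) (hc : enc c = c ∧ pc c = 8)
    (h : (a.1 ∩ b.1).card = pc (Nat.land 5279 x)) (h1 : pc (Nat.land 5279 c) = 0)
    (h2 : pc (Nat.land c x) = k) : ∃ c, (blockGraph octads).Adj a c ∧ (c.1 ∩ b.1).card = k := by
  obtain ⟨g, e1, e2⟩ := exists_smul_disjoint oct0_mem (bits_mem_octads hx.1 hx.2) a.2 b.2
    ((card_inter_bits _ _).trans h.symm)
  refine ⟨⟨_, m24_smul_mem_octads g (bits_mem_octads hc.1 hc.2)⟩, adj_iff.2 ?_, ?_⟩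
  · rw [← e1, card_smul_inter, card_inter_bits, h1]
  · rw [← e2, card_smul_inter, card_inter_bits, h2]

theorem walk4 {a b : octads} (h : (a.1 ∩ b.1).card = 4) :
    ∃ p : (blockGraph octads).Walk a b, p.length = 2 := by
  obtain ⟨c, h1, h2⟩ := mid (x := 10558) (c := 8077824) (k := 0) (by decide +kernel) (by decide +kernel)
    (h.trans (by decide +kernel)) (by decide +kernel) (by decide +kernel)
  exact ⟨.cons h1 (.cons (adj_iff.2 h2) .nil), rfl⟩

theorem walk2 {a b : octads} (h : (a.1 ∩ b.1).card = 2) :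
    ∃ p : (blockGraph octads).Walk a b, p.length = 3 := by
  obtain ⟨c, h1, h2⟩ := mid (x := 31554) (c := 1009728) (k := 4) (by decide +kernel) (by decide +kernel)
    (h.trans (by decide +kernel)) (by decide +kernel) (by decide +kernel)
  obtain ⟨p, hp⟩ := walk4 h2
  exact ⟨.cons h1 p, by rw [SimpleGraph.Walk.length_cons, hp]⟩

theorem no_mid {a b c : octads} (h : (a.1 ∩ b.1).card = 2) (h1 : (blockGraph octads).Adj a c)
    (h2 : (blockGraph octads).Adj c b) : False := by
  rw [adj_iff, card_zero] at h1 h2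
  have h3 := third_octad a.2 c.2 h1
  have h4 : b.1 ⊆ a.1 ∩ b.1 ∪ (a.1 ∪ c.1)ᶜ ∩ b.1 := fun x hx => by
    have := Finset.disjoint_right.1 h2 hx
    by_cases e : x ∈ a.1 <;> simp [*]
  have h5 := (Finset.card_le_card h4).trans (Finset.card_union_le _ _)
  rw [octad_card b.2, h] at h5
  have h6 := octad_eq_of_five h3 b.2 (by omega)
  rw [← h6, card_zero.2 (disjoint_compl_right.mono_left Finset.subset_union_left)] at h
  omega

theorem conn : (blockGraph octads).Connected := by
  have : Nonempty octads := ⟨⟨_, oct0_mem⟩⟩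
  refine ⟨fun a b => ?_⟩
  rcases octad_inter_card a.2 b.2 with h | h | h | h
  · exact (adj_iff.2 h).reachable
  · exact ⟨(walk2 h).choose⟩
  · exact ⟨(walk4 h).choose⟩
  · rw [Subtype.ext h]

theorem dist_eq {a b : octads} (h : a ≠ b) :
    ((a.1 ∩ b.1).card = 0 ∧ (blockGraph octads).dist a b = 1) ∨
    ((a.1 ∩ b.1).card = 4 ∧ (blockGraph octads).dist a b = 2) ∨
    ((a.1 ∩ b.1).card = 2 ∧ (blockGraph octads).dist a b = 3) := by
  have h0 : (blockGraph octads).dist a b ≠ 0 := fun e => h (conn.dist_eq_zero_iff.1 e)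
  have h1 : (blockGraph octads).dist a b = 1 ↔ (a.1 ∩ b.1).card = 0 :=
    SimpleGraph.dist_eq_one_iff_adj.trans adj_iff
  rcases octad_inter_card a.2 b.2 with e | e | e | e
  · exact Or.inl ⟨e, h1.2 e⟩
  · obtain ⟨p, hp⟩ := walk2 e
    have h2 := SimpleGraph.dist_le p
    have h3 : (blockGraph octads).dist a b ≠ 2 := fun h4 => by
      obtain ⟨q, hq⟩ := (conn a b).exists_walk_length_eq_dist
      rw [h4] at hq
      match q, hq with
      | .cons h5 (.cons h6 .nil), _ => exact no_mid e h5 h6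
    exact Or.inr (Or.inr ⟨e, by omega⟩)
  · obtain ⟨p, hp⟩ := walk4 e
    have h2 := SimpleGraph.dist_le p
    exact Or.inr (Or.inl ⟨e, by omega⟩)
  · exact absurd (Subtype.ext e) h

/-- In the graph on the 759 octads of the length-24 code in which two octads are adjacent when they are disjoint, the graph is connected (of diameter 3) and two distinct octads are at distance 1, 2 or 3 exactly when they meet in 0, 4 or 2 points respectively. -/
theorem result (o o' : Finset Cfsg.GolayPt) (ho : o ∈ Cfsg.octads) (ho' : o' ∈ Cfsg.octads) (hne : o ≠ o') : (Cfsg.blockGraph Cfsg.octads).Connected ∧ ((Cfsg.blockGraph Cfsg.octads).dist ⟨o, ho⟩ ⟨o', ho'⟩ = 1 ↔ (o ∩ o').card = 0) ∧ ((Cfsg.blockGraph Cfsg.octads).dist ⟨o, ho⟩ ⟨o', ho'⟩ = 2 ↔ (o ∩ o').card = 4) ∧ ((Cfsg.blockGraph Cfsg.octads).dist ⟨o, ho⟩ ⟨o', ho'⟩ = 3 ↔ (o ∩ o').card = 2) := by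
  have h := dist_eq (a := ⟨o, ho⟩) (b := ⟨o', ho'⟩) fun e => hne (congrArg Subtype.val e)
  dsimp only at h
  exact ⟨conn, by omega, by omega, by omega⟩

end Cfsg.Agent.S5609
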