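import Cfsg.Statements.S5614
import Cfsg.Agent.H97.M24Six

set_option autoImplicit false
open scoped Pointwise
open Cfsg

namespace Cfsg.Agent.S5614

open Cfsg.Agent.H14 Cfsg.Agent.H97

/-- the elements of `K6` -/
def l16 : List ℕ := [nat_lit 0xbdab49ca307b9ac5a928398a418820, nat_lit 0xb9e086be3593a6952d94b10a618820, nat_lit 0xb99b28523343aaa4b16f258a718820, nat_lit 0xbc92655a2c3b9706cea47d0a818820, nat_lit 0xba91094e346b9e63d8955b0a918820, nat_lit 0xba64d4562f83a87312d362caa18820, nat_lit 0xbb1f3a4232ab916218ed4a8ab18820, nat_lit 0xbae957b6289ba44b1cd0524ac18820, nat_lit 0xbc0ea332364b892451ebaccad18820, nat_lit 0xbd17661a2a23933ac1a7448af18820, nat_lit 0xbb4c93ae2453ac893e8c9d4b018820, nat_lit 0xba1474922b3398d85676a3cb218820, nat_lit 0xbd6cb22627638cfa224a834b318820, nat_lit 0xbbd8459e29b39559b606920b418820, nat_lit 0xbcc8cb2a265b8f47c9096c0b518820, nat_lit 0xb926faa22da3a0b6255231cb618820]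

theorem A1 {u : Finset GolayPt} (hu : u ∈ octads) (h : bits 8536111 ∩ u = bits 147456) :
    ∃ k ∈ K6, k • bits 2019456 = u := by
  obtain ⟨x, hx, h8, rfl⟩ := mem_octads_iff.1 hu
  have h1 : all2 64 64 (fun x => force (enc x) fun m =>
      bimp (Nat.beq (pc m) 8 && Nat.beq (Nat.land 8536111 m) 147456)
        (anyL l16 fun P => Nat.beq (img (nat_lit 5) (nat_lit 32) (nat_lit 24) P 2019456) m)) = true := by
    decide +kernel
  have h2 := all2_iff.1 h1 x hx
  rw [force_eq, bimp_iff, Bool.and_eq_true, beq_iff, beq_iff, anyL_iff] at h2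
  rw [← bits_and] at h
  obtain ⟨P, hP, e⟩ := h2 ⟨h8, bits_inj (Nat.and_lt_two_pow _ (enc_lt hx)) (by norm_num) h⟩
  obtain ⟨k, hk, rfl⟩ := k6_chain.inG_of_sift (P := P)
    ((by decide +kernel : ∀ P ∈ l16, valid (nat_lit 5) (nat_lit 32) (nat_lit 24) P = true) P hP)
    ((by decide +kernel : ∀ P ∈ l16,
      sift (nat_lit 5) (nat_lit 32) (nat_lit 24) [m24CertL6] P = true) P hP)
  exact ⟨k, hk, by rw [smul_bits, beq_iff.1 e]⟩

theorem A2 {k : Equiv.Perm GolayPt} (hk : k ∈ K6) (h : k • bits 2019456 = bits 2019456) :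
    k = 1 := by
  have h1 := k6_chain.forall_of_allElts (f := fun P =>
    bimp (Nat.beq (img (nat_lit 5) (nat_lit 32) (nat_lit 24) P 2019456) 2019456)
      (Nat.beq P (idP (nat_lit 5) (nat_lit 24)))) (by decide +kernel) k hk
  rw [bimp_iff, beq_iff, beq_iff, ← GE.pk_one, GE.pk_inj] at h1
  rw [smul_bits] at h
  exact h1 (bits_inj (GE.img_pk_lt _ _) (by norm_num) h)

theorem normal {o o' : Finset GolayPt} (ho : o ∈ octads) (ho' : o' ∈ octads)
    (x : Fin 6 → GolayPt) (hx : Function.Injective x) (h : ∀ p, p ∈ o \ o' ↔ ∃ i, x i = p) :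
    ∃ g ∈ M24, (∀ i, g (x i) = tupA i) ∧ g • o = bits 8536111 ∧ g • o' = bits 2019456 := by
  obtain ⟨g, hg, e1, e2⟩ := six_special x hx ho fun i => (Finset.mem_sdiff.1 ((h _).2 ⟨i, rfl⟩)).1
  obtain ⟨k, hk, e3⟩ := A1 (smul_mem_octads hg ho') (by
    ext a
    obtain ⟨p, rfl⟩ := g.surjective a
    have h1 : g p ∈ bits 147456 ↔ g p ∈ bits 8536111 ∧ ¬ ∃ i, tupA i = g p :=
      (by decide : ∀ a, a ∈ bits 147456 ↔ a ∈ bits 8536111 ∧ ¬ ∃ i, tupA i = a) _
    rw [h1, Finset.mem_inter, ← e2, apply_mem_perm_smul_finset, apply_mem_perm_smul_finset]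
    simp only [← e1, EmbeddingLike.apply_eq_iff_eq, ← h, Finset.mem_sdiff]
    tauto)
  obtain ⟨k1, k2⟩ := mem_K6.1 (K6.inv_mem hk)
  refine ⟨k⁻¹ * g, M24.mul_mem k1 hg, fun i => by rw [Equiv.Perm.mul_apply, e1, k2], ?_, ?_⟩
  · rw [mul_smul, e2]
    exact smul_eq_octA k1 octA_mem (fun i => tupA i.castSucc) (by decide) fun i =>
      (k2 _).trans (by revert i; decide)
  · rw [mul_smul, ← e3, inv_smul_smul]

/-- In the group of the length-24 code, the joint stabiliser of two octads meeting in exactly two points is isomorphic to the symmetric group of degree 6. -/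
theorem result (o o' : Finset Cfsg.GolayPt) (ho : o ∈ Cfsg.octads) (ho' : o' ∈ Cfsg.octads) (h₂ : (o ∩ o').card = 2) : Nonempty (↥(MulAction.stabilizer Cfsg.M24 o ⊓ MulAction.stabilizer Cfsg.M24 o') ≃* Equiv.Perm (Fin 6)) := by
  have h6 : (o \ o').card = 6 := by
    have := Finset.card_sdiff_add_card_inter o o'
    rw [octad_card ho] at this
    omega
  obtain ⟨u, hu⟩ := exists_enum h6
  obtain ⟨g, hg, e1, e2, e3⟩ := normal ho ho' _ hu fun p =>
    ⟨fun hp => ⟨u.symm ⟨p, hp⟩, by simp⟩, by rintro ⟨i, rfl⟩; exact (u i).2⟩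
  refine nonempty_equiv_perm (M24.subtype.comp (Subgroup.subtype _)) (o \ o') h6
    (fun h p hp => ?_) (fun σ => ?_) (fun h hh => ?_)
  · have h1 : ((h : M24) : Equiv.Perm GolayPt) • o = o := h.2.1
    have h2 : ((h : M24) : Equiv.Perm GolayPt) • o' = o' := h.2.2
    exact apply_mem_of_smul_eq (g := ((h : M24) : Equiv.Perm GolayPt))
      (by rw [Finset.smul_finset_sdiff, h1, h2]) hp
  · obtain ⟨g', hg', e1', e2', e3'⟩ := normal ho ho' (fun i => σ (u i))
      (Subtype.val_injective.comp (σ.injective.comp u.injective)) fun p =>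
      ⟨fun hp => ⟨u.symm (σ.symm ⟨p, hp⟩), by simp⟩, by rintro ⟨i, rfl⟩; exact (σ (u i)).2⟩
    refine ⟨⟨⟨g'⁻¹ * g, M24.mul_mem (M24.inv_mem hg') hg⟩, ?_, ?_⟩, fun p => ?_⟩
    · change (g'⁻¹ * g) • o = o
      rw [mul_smul, e2, ← e2', inv_smul_smul]
    · change (g'⁻¹ * g) • o' = o'
      rw [mul_smul, e3, ← e3', inv_smul_smul]
    · obtain ⟨i, rfl⟩ := u.surjective p
      change g'⁻¹ (g (u i)) = _
      rw [e1, ← e1']
      simp
  · have h2 : ((h : M24) : Equiv.Perm GolayPt) • o' = o' := h.2.2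
    have := A2 (k := g * (h : M24) * g⁻¹) (mem_K6.2 ⟨(conj_mem_iff hg _).2 h.1.2, fun i => by
      have := hh _ (u i).2
      change ((h : M24) : Equiv.Perm GolayPt) (u i) = u i at this
      rw [← e1]
      simp [this]⟩) (by rw [← e3, mul_smul, inv_smul_smul, mul_smul, h2])
    exact Subtype.ext (Subtype.ext (by simpa using this))

end Cfsg.Agent.S5614
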