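import Cfsg.Statements.S5618
import Cfsg.Agent.H97.M24Six

set_option autoImplicit false
open scoped Pointwise
open Cfsg

namespace Cfsg.Agent.S5618

open Cfsg.Agent.H14 Cfsg.Agent.H97

/-- For a dodecad d of the length-24 code and a hexad C on it (a 6-point intersection of d with an octad): the joint stabiliser of d and C in the code's group is isomorphic to the symmetric group of degree 6, and it acts faithfully both on the six points of C and on the six points of d outside C. -/
theorem result (d : Finset Cfsg.GolayPt) (hd : d ∈ Cfsg.dodecads) (C : Finset Cfsg.GolayPt) (hC : C ∈ Cfsg.hexadsOn d) : Nonempty (↥(MulAction.stabilizer Cfsg.M24 d ⊓ MulAction.stabilizer Cfsg.M24 C) ≃* Equiv.Perm (Fin 6)) ∧ (∀ g ∈ MulAction.stabilizer Cfsg.M24 d ⊓ MulAction.stabilizer Cfsg.M24 C, (∀ p ∈ C, ((g : ↥Cfsg.M24) : Equiv.Perm Cfsg.GolayPt) p = p) → g = 1) ∧ ∀ g ∈ MulAction.stabilizer Cfsg.M24 d ⊓ MulAction.stabilizer Cfsg.M24 C, (∀ p ∈ d \ C, ((g : ↥Cfsg.M24) : Equiv.Perm Cfsg.GolayPt) p = p) → g = 1 := by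
  obtain ⟨h6, o, ho, rfl⟩ := hC
  have f1 : ∀ g ∈ MulAction.stabilizer M24 d ⊓ MulAction.stabilizer M24 (o ∩ d),
      (∀ p ∈ o ∩ d, ((g : M24) : Equiv.Perm GolayPt) p = p) → g = 1 := fun g hg h =>
    Subtype.ext (dod_fix hd g.2 hg.1 Finset.inter_subset_right (by omega) h)
  refine ⟨?_, f1, fun g hg h => Subtype.ext (dod_fix hd g.2 hg.1 Finset.sdiff_subset ?_ h)⟩
  · refine nonempty_equiv_perm (M24.subtype.comp (Subgroup.subtype _)) (o ∩ d) h6
      (fun h p hp => ?_) (fun σ => ?_) (fun h hh => Subtype.ext (f1 _ h.2 hh))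
    · have h1 : ((h : M24) : Equiv.Perm GolayPt) • (o ∩ d) = o ∩ d := h.2.2
      exact apply_mem_of_smul_eq h1 hp
    · obtain ⟨u, hu⟩ := exists_enum h6
      obtain ⟨g, hg, e1, e2⟩ := dod_five hd le_rfl (fun i => u i.castSucc)
        (fun i => σ (u i.castSucc)) (hu.comp (Fin.castSucc_injective 5))
        ((Subtype.val_injective.comp (σ.injective.comp u.injective)).comp (Fin.castSucc_injective 5))
        (fun i => (Finset.mem_inter.1 (u _).2).2) (fun i => (Finset.mem_inter.1 (σ _).2).2)
      have e3 : g • o = o := by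
        refine smul_octad_eq hg ho ho (s := Finset.univ.image fun i : Fin 5 => (u i.castSucc : GolayPt))
          (fun a ha => ?_) ?_ (fun a ha => ?_)
        · obtain ⟨i, -, rfl⟩ := Finset.mem_image.1 ha
          exact (Finset.mem_inter.1 (u _).2).1
        · exact le_of_eq ((Finset.card_image_of_injective _
            (hu.comp (Fin.castSucc_injective 5))).trans (by simp)).symm
        · obtain ⟨i, -, rfl⟩ := Finset.mem_image.1 ha
          rw [e2]
          exact (Finset.mem_inter.1 (σ _).2).1
      have e4 : g • (o ∩ d) = o ∩ d := by rw [Finset.smul_finset_inter, e3, e1]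
      refine ⟨⟨⟨g, hg⟩, e1, e4⟩, fun p => ?_⟩
      change g p = σ p
      obtain ⟨i, rfl⟩ := u.surjective p
      induction i using Fin.lastCases with
      | cast i => exact e2 i
      | last =>
        have h1 : g (u (Fin.last 5)) ∈ o ∩ d := apply_mem_of_smul_eq e4 (u _).2
        obtain ⟨q, hq⟩ := σ.surjective ⟨_, h1⟩
        obtain ⟨j, rfl⟩ := u.surjective q
        induction j using Fin.lastCases with
        | cast j =>
          have := (e2 j).trans (congrArg Subtype.val hq)
          exact absurd (hu (g.injective this)) (Fin.castSucc_lt_last j).ne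
        | last => rw [hq]
  · have := Finset.card_sdiff_add_card_inter d (o ∩ d)
    rw [Finset.inter_eq_right.2 Finset.inter_subset_right, dodecad_card hd] at this
    omega

end Cfsg.Agent.S5618
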