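import Cfsg.Statements.S5619
import Cfsg.Agent.H97.M24Six
import Cfsg.Agent.H14.MathieuIso
import Cfsg.Agent.H9.QuatHom

set_option autoImplicit false
open scoped Pointwise
open Cfsg

namespace Cfsg.Agent.S5619

open Cfsg.Agent.H14 Cfsg.Agent.H97

theorem abs72 {G B : Type*} [Group G] [Group B] (e : G ≃* B) (h72 : Nat.card B = 72)
    (h9 : ∀ g : B, g ^ 9 = 1 → g ^ 3 = 1) (hT : {g : B | g ^ 3 = 1}.ncard = 9) (x y : B)
    (hx : orderOf x = 4) (hy : y * y = x ^ 2) (hxy : y * x * y⁻¹ = x⁻¹) :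
    (∀ Q : Sylow 3 G, (Q : Subgroup G).Normal ∧ Nat.card Q = 9 ∧ ∀ x ∈ (Q : Subgroup G), x ^ 3 = 1) ∧
      ∀ P : Sylow 2 G, Nonempty (P ≃* QuaternionGroup 2) := by
  have h72' : Nat.card G = 72 := (Nat.card_congr e.toEquiv).trans h72
  have : Finite G := Nat.finite_of_card_ne_zero (by omega)
  have : Fact (Nat.Prime 3) := ⟨by norm_num⟩
  have f3 : (72 : ℕ).factorization 3 = 2 := by
    rw [show (72 : ℕ) = 3 ^ 2 * 8 by norm_num, Nat.factorization_mul (by norm_num) (by norm_num),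
      Nat.Prime.factorization_pow (by norm_num)]
    simp [Nat.factorization_eq_zero_of_not_dvd]
  have f2 : (72 : ℕ).factorization 2 = 3 := by
    rw [show (72 : ℕ) = 2 ^ 3 * 9 by norm_num, Nat.factorization_mul (by norm_num) (by norm_num),
      Nat.Prime.factorization_pow (by norm_num)]
    simp [Nat.factorization_eq_zero_of_not_dvd]
  refine ⟨fun Q => ?_, fun P => ?_⟩
  · have c9 : Nat.card Q = 9 := by rw [Q.card_eq_multiplicity, h72', f3]; norm_num
    have e3 : ∀ x ∈ (Q : Subgroup G), x ^ 3 = 1 := fun g hg => by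
      apply e.injective
      rw [map_pow, map_one]
      apply h9
      rw [← map_pow, ← c9]
      have := pow_card_eq_one' (x := (⟨g, hg⟩ : Q))
      rw [show g ^ Nat.card Q = 1 from congrArg Subtype.val this, map_one]
    have hT' : {g : G | g ^ 3 = 1}.ncard = 9 := by
      rw [← hT]
      refine Set.ncard_congr (fun g _ => e g) (fun g hg => ?_) (fun _ _ _ _ h => e.injective h)
        fun b hb => ⟨e.symm b, ?_, by simp⟩
      · change e g ^ 3 = 1
        rw [← map_pow, show g ^ 3 = 1 from hg, map_one]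
      · change e.symm b ^ 3 = 1
        rw [← map_pow, show b ^ 3 = 1 from hb, map_one]
    have hQ : ((Q : Subgroup G) : Set G) = {g : G | g ^ 3 = 1} :=
      Set.eq_of_subset_of_ncard_le e3 (by rw [hT', ← Nat.card_coe_set_eq]; exact c9.ge)
    refine ⟨⟨fun n hn g => ?_⟩, c9, e3⟩
    rw [← SetLike.mem_coe, hQ]
    change (g * n * g⁻¹) ^ 3 = 1
    rw [conj_pow, e3 n hn]
    simp
  · obtain ⟨Q, -, -, -, c8, ⟨f⟩⟩ := H9.exists_subgroup_quaternion (n := 2) le_rfl (e.symm x)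
      (e.symm y) (by rw [MulEquiv.orderOf_eq, hx]) (by rw [← map_mul, hy, map_pow])
      (by rw [← map_inv, ← map_mul, ← map_mul, hxy, map_inv])
    exact ⟨(Sylow.equiv P (Sylow.ofCard Q (by rw [c8, h72', f2]; norm_num))).trans f⟩

/-- the standard three-point stabiliser -/
def M9 : Subgroup (Equiv.Perm GolayPt) :=
  Spor.M12 ⊓ MulAction.stabilizer _ (pt 0) ⊓ MulAction.stabilizer _ (pt 1) ⊓
    MulAction.stabilizer _ (pt 2)

theorem m9_chain : GE.IsChain [m12CertL3, m12CertL4] M9 := m12_chain.2.2.2.2.2.2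

/-- In the group of the length-24 code, the subgroup fixing a dodecad setwise and three of its points individually (a group of order 72) has a normal Sylow 3-subgroup that is elementary abelian of order 9, and its Sylow 2-subgroups are quaternion of order 8. -/
theorem result (d : Finset Cfsg.GolayPt) (hd : d ∈ Cfsg.dodecads) (p q r : Cfsg.GolayPt) (hp : p ∈ d) (hq : q ∈ d) (hr : r ∈ d) (hpq : p ≠ q) (hpr : p ≠ r) (hqr : q ≠ r) : (∀ Q : Sylow 3 ↥(MulAction.stabilizer Cfsg.M24 d ⊓ MulAction.stabilizer Cfsg.M24 p ⊓ MulAction.stabilizer Cfsg.M24 q ⊓ MulAction.stabilizer Cfsg.M24 r), (Q : Subgroup ↥(MulAction.stabilizer Cfsg.M24 d ⊓ MulAction.stabilizer Cfsg.M24 p ⊓ MulAction.stabilizer Cfsg.M24 q ⊓ MulAction.stabilizer Cfsg.M24 r)).Normal ∧ Nat.card ↥Q = 9 ∧ ∀ x ∈ (Q : Subgroup ↥(MulAction.stabilizer Cfsg.M24 d ⊓ MulAction.stabilizer Cfsg.M24 p ⊓ MulAction.stabilizer Cfsg.M24 q ⊓ MulAction.stabilizer Cfsg.M24 r)), x ^ 3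 = 1) ∧ ∀ P : Sylow 2 ↥(MulAction.stabilizer Cfsg.M24 d ⊓ MulAction.stabilizer Cfsg.M24 p ⊓ MulAction.stabilizer Cfsg.M24 q ⊓ MulAction.stabilizer Cfsg.M24 r), Nonempty (↥P ≃* QuaternionGroup 2) := by
  obtain ⟨a, ha, ea⟩ := exists_smul_eq_squareDodecad hd
  obtain ⟨b, hb, eb⟩ := m12_exists_apply_eq (t := 3) (by norm_num) ![a p, a q, a r] ![pt 0, pt 1, pt 2]
    (inj3 (a.injective.ne hpq.symm) (a.injective.ne hpr.symm) (a.injective.ne hqr.symm)) (by decide)
    (fun i => by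
      rw [← ea]
      fin_cases i
      exacts [apply_mem_perm_smul_finset.2 hp, apply_mem_perm_smul_finset.2 hq,
        apply_mem_perm_smul_finset.2 hr])
    (by rw [squareDodecad_eq]; decide)
  have hg : b * a ∈ M24 := M24.mul_mem hb.1 ha
  have e : (b * a) • d = Spor.squareDodecad := by rw [mul_smul, ea]; exact hb.2
  have e0 : (b * a) • p = pt 0 := eb 0
  have e1 : (b * a) • q = pt 1 := eb 1
  have e2 : (b * a) • r = pt 2 := eb 2
  obtain ⟨f⟩ := nonempty_equiv_of_conj (MulAction.stabilizer M24 d ⊓ MulAction.stabilizer M24 p ⊓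
      MulAction.stabilizer M24 q ⊓ MulAction.stabilizer M24 r) M9 (b * a) fun x => by
    rw [M9, Spor.M12, Subgroup.mem_inf, Subgroup.mem_inf, Subgroup.mem_inf, Subgroup.mem_inf,
      conj_mem_iff hg, ← e, ← e0, ← e1, ← e2, conj_mem_stab_iff, conj_mem_stab_iff,
      conj_mem_stab_iff, conj_mem_stab_iff]
    exact ⟨fun ⟨h, h1⟩ => ⟨⟨⟨⟨h, h1.1.1.1⟩, h1.1.1.2⟩, h1.1.2⟩, h1.2⟩,
      fun h => ⟨h.1.1.1.1, ⟨⟨h.1.1.1.2, h.1.1.2⟩, h.1.2⟩, h.2⟩⟩
  obtain ⟨x, hx, ex⟩ := m9_chain.inG_of_sift (P := 0x2bd47b11c65c5929d209aa2ed18820)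
    (by decide +kernel) (by decide +kernel)
  obtain ⟨y, hy, ey⟩ := m9_chain.inG_of_sift (P := 0x752cb3a4a455cd0acdac7ca2818820)
    (by decide +kernel) (by decide +kernel)
  refine abs72 f (by rw [m9_chain.card]; decide +kernel) (fun g h => ?_) ?_ ⟨x, hx⟩ ⟨y, hy⟩ ?_ ?_ ?_
  · have h1 := m9_chain.forall_of_allElts (f := fun P =>
      bimp (Nat.beq (powP (nat_lit 5) (nat_lit 32) (nat_lit 24) P 9) (idP (nat_lit 5) (nat_lit 24)))
        (Nat.beq (powP (nat_lit 5) (nat_lit 32) (nat_lit 24) P 3) (idP (nat_lit 5) (nat_lit 24))))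
      (by decide +kernel) g g.2
    rw [bimp_iff, beq_iff, beq_iff, ← GE.pk_pow, ← GE.pk_pow, ← GE.pk_one, GE.pk_inj,
      GE.pk_inj] at h1
    exact Subtype.ext (h1 (congrArg Subtype.val h))
  · have h1 := m9_chain.ncard_eq (fun g => g ^ 3 = 1) (fun P =>
      Nat.beq (powP (nat_lit 5) (nat_lit 32) (nat_lit 24) P 3) (idP (nat_lit 5) (nat_lit 24)))
      (fun g _ => by rw [beq_iff, ← GE.pk_pow, ← GE.pk_one, GE.pk_inj])
    rw [show sumElts _ _ _ _ _ _ = 9 by decide +kernel] at h1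
    rw [← h1]
    exact Set.ncard_congr (fun g _ => (g : Equiv.Perm GolayPt))
      (fun g hg => ⟨g.2, congrArg Subtype.val hg⟩) (fun _ _ _ _ h => Subtype.ext h)
      fun b hb => ⟨⟨b, hb.1⟩, Subtype.ext hb.2, rfl⟩
  · rw [← Subgroup.orderOf_coe]
    have : Fact (Nat.Prime 2) := ⟨by norm_num⟩
    refine orderOf_eq_prime_pow (p := 2) (n := 1) ?_ ?_
    · change ¬ x ^ 2 = 1
      rw [← GE.pk_inj, GE.pk_pow, GE.pk_one, ex]
      decide +kernel
    · change x ^ 4 = 1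
      rw [← GE.pk_inj, GE.pk_pow, GE.pk_one, ex]
      decide +kernel
  · apply Subtype.ext
    change y * y = x ^ 2
    rw [← GE.pk_inj, GE.pk_pow, GE.pk_mul, ex, ey]
    decide +kernel
  · apply Subtype.ext
    change y * x * y⁻¹ = x⁻¹
    rw [← GE.pk_inj, GE.pk_mul, GE.pk_mul, GE.pk_inv, GE.pk_inv, ex, ey]
    decide +kernel

end Cfsg.Agent.S5619
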