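import Cfsg.Statements.S5620
import Cfsg.Agent.H14.Mathieu
import Cfsg.Agent.H97.M24Fam

set_option autoImplicit false
open scoped Pointwise
open Cfsg

namespace Cfsg.Agent.S5620

open Cfsg.Agent.H14 Cfsg.Agent.H97

/-- Inside the stabiliser of the dodecad of squares (a Mathieu group of degree 12), the stabiliser of the residue 0 (a point of the dodecad) and the stabiliser of the extra point (a point outside the dodecad) are isomorphic but not conjugate; conjugation by a suitable element of the code's group that maps the dodecad of squares onto its complement carries the first onto the second. -/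
theorem result : Nonempty (↥(Cfsg.Spor.M12 ⊓ MulAction.stabilizer (Equiv.Perm Cfsg.GolayPt) (none : Cfsg.GolayPt)) ≃* ↥Cfsg.Spor.M11) ∧ (¬ ∃ k ∈ Cfsg.Spor.M12, MulAut.conj k • Cfsg.Spor.M11 = Cfsg.Spor.M12 ⊓ MulAction.stabilizer (Equiv.Perm Cfsg.GolayPt) (none : Cfsg.GolayPt)) ∧ ∃ g ∈ Cfsg.M24, g • Cfsg.Spor.squareDodecad = Finset.univ \ Cfsg.Spor.squareDodecad ∧ MulAut.conj g • Cfsg.Spor.M11 = Cfsg.Spor.M12 ⊓ MulAction.stabilizer (Equiv.Perm Cfsg.GolayPt) (none : Cfsg.GolayPt) := by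
  obtain ⟨g, hg, e⟩ := exists_M24 0x1a0040ccce80a2b4ca8763daa2d6d7 (by decide +kernel)
  have g1 : g • Spor.squareDodecad = Finset.univ \ Spor.squareDodecad := by
    rw [squareDodecad_eq, smul_bits, e, ← Finset.compl_eq_univ_sdiff, ← bits_compl]
    exact congrArg bits (by decide +kernel)
  have g2 : g (some 0) = none := by
    have := GE.apply_pt g (i := 0) (by decide)
    rw [e] at this
    exact this.trans (by decide +kernel)
  have hc : ∀ x : Equiv.Perm GolayPt, x • (Finset.univ \ Spor.squareDodecad) =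
      Finset.univ \ Spor.squareDodecad ↔ x • Spor.squareDodecad = Spor.squareDodecad := by
    intro x
    rw [Finset.smul_finset_sdiff, Finset.smul_finset_univ, ← Finset.compl_eq_univ_sdiff,
      ← Finset.compl_eq_univ_sdiff, compl_inj_iff]
  have hmem : ∀ (k x : Equiv.Perm GolayPt), k ∈ M24 → (x ∈ MulAut.conj k • Spor.M11 ↔ x ∈ M24 ∧
      x • k • Spor.squareDodecad = k • Spor.squareDodecad ∧ x (k (some 0)) = k (some 0)) := by
    intro k x hk
    rw [Subgroup.mem_pointwise_smul_iff_inv_smul_mem, ← map_inv, MulAut.smul_def, MulAut.conj_apply]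
    change (k⁻¹ * x * k⁻¹⁻¹ ∈ M24 ∧ (k⁻¹ * x * k⁻¹⁻¹) • Spor.squareDodecad = Spor.squareDodecad) ∧
      (k⁻¹ * x * k⁻¹⁻¹) (some 0) = some 0 ↔ _
    rw [conj_mem_iff (M24.inv_mem hk), inv_inv, mul_smul, mul_smul, inv_smul_eq_iff,
      Equiv.Perm.mul_apply, Equiv.Perm.mul_apply, Equiv.Perm.inv_eq_iff_eq, and_assoc]
  have g3 : MulAut.conj g • Spor.M11 =
      Spor.M12 ⊓ MulAction.stabilizer (Equiv.Perm GolayPt) (none : GolayPt) := by
    ext x
    rw [hmem g x hg, g1, g2, hc, ← and_assoc]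
    rfl
  refine ⟨⟨?_⟩, ?_, g, hg, g1, g3⟩
  · rw [← g3]
    exact (Subgroup.equivSMul (MulAut.conj g) Spor.M11).symm
  · rintro ⟨k, hk, ek⟩
    have h1 : k (some 0) ∈ Spor.squareDodecad := (m12_apply_mem_iff hk).2 zero_mem_squareDodecad
    have h2 : g⁻¹ (k (some 0)) ∉ Spor.squareDodecad := by
      rw [← mem_perm_smul_finset, g1]
      simp [h1]
    obtain ⟨q, q1, q2⟩ := (by rw [squareDodecad_eq]; decide : ∀ a : GolayPt, ∃ q : GolayPt,
      q ∉ Spor.squareDodecad ∧ q ≠ a) (g⁻¹ (k (some 0)))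
    obtain ⟨x, hx, ex⟩ := m11_exists_apply_eq_compl (t := 1) (by norm_num) ![g⁻¹ (k (some 0))] ![q]
      (Function.injective_of_subsingleton _) (Function.injective_of_subsingleton _)
      (fun i => by rw [Subsingleton.elim i 0]; exact h2)
      (fun i => by rw [Subsingleton.elim i 0]; exact q1)
    have e0 : x (g⁻¹ (k (some 0))) = q := ex 0
    have h3 : g * x * g⁻¹ ∈ MulAut.conj k • Spor.M11 := by
      rw [ek, ← g3]
      exact Subgroup.smul_mem_pointwise_smul x (MulAut.conj g) _ hx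
    have h4 := ((hmem k _ hk.1).1 h3).2.2
    rw [Equiv.Perm.mul_apply, Equiv.Perm.mul_apply, e0] at h4
    exact q2 (by rw [← h4]; simp)

end Cfsg.Agent.S5620
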