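import Cfsg.Statements.S5621
import Cfsg.Agent.H97.AbsGolay

set_option autoImplicit false
open Cfsg

namespace Cfsg.Agent.S5621

/-- Let C be a self-dual binary code of length 24 with minimum weight at least 8 (a 12-dimensional subspace of the 24-dimensional space over the field with two elements, any two of whose words have dot product zero, with no non-zero word of weight below 8 — an abstract extended binary Golay code). Then C is doubly even: every word of C has weight divisible by 4. -/
theorem result (C : Submodule (ZMod 2) (Fin 24 → ZMod 2)) (hdim : Module.finrank (ZMod 2) C = 12) (horth : ∀ v ∈ C, ∀ w ∈ C, ∑ i, v i * w i = 0) (hmin : ∀ w ∈ C, w ≠ 0 → 8 ≤ hammingNorm w) : ∀ w ∈ C, 4 ∣ hammingNorm w := by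
  intro w hw
  have hle : Submodule.span (ZMod 2) {w : H97.W24 | w ∈ C ∧ hammingNorm w = 8} ≤ C :=
    (H97.span_octads hdim hmin).le
  rw [← H97.span_octads hdim hmin] at hw
  induction hw using Submodule.span_induction with
  | mem x hx => rw [hx.2]; norm_num
  | zero => simp
  | add x y hx hy ihx ihy =>
    have h1 := H97.hn_add x y
    have h2 := horth x (hle hx) y (hle hy)
    have h3 : ∑ i, x i * y i = ((Cfsg.support₂ x ∩ Cfsg.support₂ y).card : ZMod 2) := by
      rw [Finset.card_eq_sum_ones, Nat.cast_sum, ← Finset.sum_filter_add_sum_filter_not Finset.univ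
        (fun i => i ∈ Cfsg.support₂ x ∩ Cfsg.support₂ y), Finset.filter_mem_eq_inter,
        Finset.univ_inter, Finset.sum_eq_zero (s := Finset.filter _ _), add_zero]
      · refine Finset.sum_congr rfl fun i hi => ?_
        rw [Finset.mem_inter, H97.mem_supp, H97.mem_supp] at hi
        simp [hi.1, hi.2]
      · intro i hi
        simp only [Finset.mem_filter, Finset.mem_univ, true_and, Finset.mem_inter,
          H97.mem_supp] at hi
        rcases H97.z2_cases (x i) with h | h <;> rcases H97.z2_cases (y i) with h' | h' <;>
          simp_all
    rw [h3, ZMod.natCast_eq_zero_iff] at h2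
    omega
  | smul a x _ ihx =>
    rcases H97.z2_cases a with rfl | rfl
    · simp
    · simpa using ihx

end Cfsg.Agent.S5621
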