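import Cfsg.Statements.S5625
import Cfsg.Agent.H16.Steiner

set_option autoImplicit false
open Cfsg

namespace Cfsg.Agent.S5625

/-- In any Steiner system S(5, 8, 24) and for any set Y of three points, the blocks meeting Y in exactly 3, 2, 1 and 0 points number 21, 168, 360 and 210 respectively (so there are 759 blocks in all). -/
theorem result (α : Type*) [Fintype α] [DecidableEq α] (hα : Fintype.card α = 24) (B : Set (Finset α)) (hB : Cfsg.IsSteinerSystem 5 8 B) (Y : Finset α) (hY : Y.card = 3) : {b : Finset α | b ∈ B ∧ (b ∩ Y).card = 3}.ncard = 21 ∧ {b : Finset α | b ∈ B ∧ (b ∩ Y).card = 2}.ncard = 168 ∧ {b : Finset α | b ∈ B ∧ (b ∩ Y).card = 1}.ncard = 360 ∧ {b : Finset α | b ∈ B ∧ (b ∩ Y).card = 0}.ncard = 210 := by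
  have key : ∀ j, {b : Finset α | b ∈ B ∧ (b ∩ Y).card = j}.ncard = H16.nj B ∅ Y j := by
    intro j
    rw [H16.nj, ← Set.ncard_coe_finset]
    congr 1
    ext b
    simp
  have h0 := H16.nj_eq0 hB hα Y 0 759 (by norm_num) (by norm_num) (by decide)
  have h1 := H16.nj_eq0 hB hα Y 1 253 (by norm_num) (by norm_num) (by decide)
  have h2 := H16.nj_eq0 hB hα Y 2 77 (by norm_num) (by norm_num) (by decide)
  have h3 := H16.nj_eq0 hB hα Y 3 21 (by norm_num) (by norm_num) (by decide)
  have h4 := H16.nj_eq_zero_of_lt (B := B) (s := ∅) (W := Y) (j := 4) (by omega)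
  have h5 := H16.nj_eq_zero_of_lt (B := B) (s := ∅) (W := Y) (j := 5) (by omega)
  have h6 := H16.nj_eq_zero_of_lt (B := B) (s := ∅) (W := Y) (j := 6) (by omega)
  have h7 := H16.nj_eq_zero_of_lt (B := B) (s := ∅) (W := Y) (j := 7) (by omega)
  have h8 := H16.nj_eq_zero_of_lt (B := B) (s := ∅) (W := Y) (j := 8) (by omega)
  rw [hY] at h0 h1 h2 h3
  simp only [Finset.sum_range_succ, Finset.sum_range_zero, h4, h5, h6, h7, h8, Nat.choose]
    at h0 h1 h2 h3
  rw [key, key, key, key]
  omega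

end Cfsg.Agent.S5625
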