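import Cfsg.Statements.S5626
import Cfsg.Agent.H97.Plane4
import Cfsg.Agent.H16.SSearch2

set_option autoImplicit false
open Cfsg

namespace Cfsg.Agent.S5626

/-- Uniqueness of the projective plane of order 4: any two Steiner systems S(2, 5, 21) (21 points, lines of 5 points, two points on exactly one line) are isomorphic. -/
theorem result {α β : Type*} [Fintype α] [DecidableEq α] [Fintype β] [DecidableEq β] (hα : Fintype.card α = 21) (hβ : Fintype.card β = 21) {L : Set (Finset α)} {L' : Set (Finset β)} (hL : Cfsg.IsSteinerSystem 2 5 L) (hL' : Cfsg.IsSteinerSystem 2 5 L') : Cfsg.SetSystemIso L L' := by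
  obtain ⟨e1, h1⟩ := Cfsg.Agent.H97.p4_iso_of_card hα hL
  obtain ⟨e2, h2⟩ := Cfsg.Agent.H97.p4_iso_of_card hβ hL'
  refine Cfsg.Agent.H16.setSystemIso_of_iff (e1.trans e2.symm) fun b => ?_
  rw [h1, h2]
  refine exists_congr fun n => ⟨fun h x => ?_, fun h y => ?_⟩
  · simpa using h ((e1.trans e2.symm) x)
  · rw [Finset.mem_map_equiv, h]
    simp

end Cfsg.Agent.S5626
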