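import Cfsg.Statements.S5627
import Cfsg.Agent.H97.Plane4

set_option autoImplicit false
open Cfsg

namespace Cfsg.Agent.S5627

/-- In a projective plane of order 4 (a Steiner system S(2, 5, 21)), call a set of points independent when no line meets it in more than two points. There are exactly 2520 independent 4-sets and exactly 168 independent 6-sets (hyperovals), and every independent 4-set lies in exactly one hyperoval. -/
theorem result {α : Type*} [Fintype α] [DecidableEq α] (hα : Fintype.card α = 21) (L : Set (Finset α)) (hL : Cfsg.IsSteinerSystem 2 5 L) : {S : Finset α | (S.card = 4 ∧ ∀ l ∈ L, (l ∩ S).card ≤ 2)}.ncard = 2520 ∧ {H : Finset α | (H.card = 6 ∧ ∀ l ∈ L, (l ∩ H).card ≤ 2)}.ncard = 168 ∧ ∀ S : Finset α, (S.card = 4 ∧ ∀ l ∈ L, (l ∩ S).card ≤ 2) → ∃! H : Finset α, (H.card = 6 ∧ ∀ l ∈ L, (l ∩ H).card ≤ 2) ∧ S ⊆ H := by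
  classical
  open Finset Cfsg.Agent.H97 in
  have hu := fun (S : Finset α) (hS : S.card = 4 ∧ ∀ l ∈ L, (l ∩ S).card ≤ 2) =>
    p4_hyperoval hα hL hS.1 hS.2
  open Finset Cfsg.Agent.H97 in
  have h4 : (univ.filter (fun S : Finset α => S.card = 4 ∧ ∀ l ∈ L, (l ∩ S).card ≤ 2)).card
      = 2520 := by
    obtain ⟨e, he⟩ := p4_iso_of_card hα hL
    rw [← inc4_quad]
    refine card_bijective (fun S => S.map e.toEmbedding) (Equiv.finsetCongr e).bijective
      fun S => ?_
    simp only [mem_filter, mem_univ, true_and, mem_powersetCard, subset_univ, card_map]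
    refine and_congr_right fun _ => ?_
    have key : ∀ (l : Finset α) n, (∀ x, x ∈ l ↔ inc4 n (e x)) →
        (l ∩ S).card = ((S.map e.toEmbedding).filter (inc4 n)).card := by
      intro l n hn
      rw [filter_map, card_map]
      congr 1
      ext x
      simp [hn, and_comm]
    constructor
    · intro h n
      have hn : ∀ x, x ∈ univ.filter (fun x => inc4 n (e x)) ↔ inc4 n (e x) := by simp
      rw [← key _ n hn]
      exact h _ ((he _).2 ⟨n, hn⟩)
    · intro h l hl
      obtain ⟨n, hn⟩ := (he l).1 hl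
      rw [key l n hn]
      exact h n
  open Finset Cfsg.Agent.H97 in
  have h6 : (univ.filter (fun S : Finset α => S.card = 6 ∧ ∀ l ∈ L, (l ∩ S).card ≤ 2)).card
      = 168 := by
    have := Finset.card_mul_eq_card_mul
      (s := univ.filter (fun S : Finset α => S.card = 6 ∧ ∀ l ∈ L, (l ∩ S).card ≤ 2))
      (t := univ.filter (fun S : Finset α => S.card = 4 ∧ ∀ l ∈ L, (l ∩ S).card ≤ 2))
      (fun H Q => Q ⊆ H) (m := 15) (n := 1) ?_ ?_
    · omega
    · intro H hH
      rw [mem_filter] at hH
      have : (H.powersetCard 4).card = 15 := by rw [card_powersetCard, hH.2.1]; rfl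
      rw [← this]
      congr 1
      ext Q
      simp only [mem_bipartiteAbove, mem_filter, mem_univ, true_and, mem_powersetCard]
      refine ⟨fun h => ⟨h.2, h.1.1⟩, fun h => ⟨⟨h.2, fun l hl => ?_⟩, h.1⟩⟩
      exact (card_le_card (inter_subset_inter_left h.1)).trans (hH.2.2 l hl)
    · intro Q hQ
      obtain ⟨H, hH, hH'⟩ := hu Q (mem_filter.1 hQ).2
      refine card_eq_one.2 ⟨H, ?_⟩
      ext K
      simp only [mem_bipartiteBelow, mem_filter, mem_univ, true_and, mem_singleton]
      exact ⟨fun h => hH' K h, fun h => h ▸ hH⟩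
  refine ⟨?_, ?_, hu⟩
  · rw [← h4, ← Set.ncard_coe_finset]
    congr 1
    ext S
    simp
  · rw [← h6, ← Set.ncard_coe_finset]
    congr 1
    ext S
    simp

end Cfsg.Agent.S5627
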