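import Cfsg.Statements.S5628
import Cfsg.Agent.H97.Plane4
import Cfsg.Agent.H16.SSearch2

set_option autoImplicit false
open Cfsg

namespace Cfsg.Agent.S5628

/-- In a projective plane of order 4 (a Steiner system S(2, 5, 21)), every permutation of the six points of a hyperoval (a 6-set met by no line in more than two points) is the restriction of exactly one automorphism of the plane. In particular the stabiliser of a hyperoval in the automorphism group is isomorphic to the symmetric group of degree 6 acting faithfully on the hyperoval. -/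
theorem result {α : Type*} [Fintype α] [DecidableEq α] (hα : Fintype.card α = 21) (L : Set (Finset α)) (hL : Cfsg.IsSteinerSystem 2 5 L) (H : Finset α) (hH : (H.card = 6 ∧ ∀ l ∈ L, (l ∩ H).card ≤ 2)) (σ : Equiv.Perm ↥H) : ∃! g : Equiv.Perm α, g ∈ Cfsg.setSystemAut L ∧ ∀ p : ↥H, g p = σ p := by
  open Finset Cfsg.Agent.H97 Cfsg.Agent.H16 in
  have hen : ∀ u : Fin 6 ≃ H, univ.map (u.toEmbedding.trans (Function.Embedding.subtype _)) = H := by
    intro u
    refine eq_of_subset_of_card_le (fun x hx => ?_) (by simp [hH.1])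
    obtain ⟨i, -, rfl⟩ := mem_map.1 hx
    exact (u i).2
  let u : Fin 6 ≃ H := (H.equivFinOfCardEq hH.1).symm
  obtain ⟨e1, a1, h1⟩ := Cfsg.Agent.H97.p4_iso hα hL _ ((hen u).symm ▸ hH.2)
  obtain ⟨e2, a2, h2⟩ := Cfsg.Agent.H97.p4_iso hα hL _ ((hen (u.trans σ)).symm ▸ hH.2)
  have b1 : ∀ i, e1 (u i) = .inl i := a1
  have b2 : ∀ i, e2 (σ (u i)) = .inl i := a2
  have hg : ∀ p : H, (e1.trans e2.symm) p = σ p := by
    intro p
    obtain ⟨i, rfl⟩ := u.surjective p
    rw [Equiv.trans_apply, b1, ← b2, Equiv.symm_apply_apply]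
  have hg' : e1.trans e2.symm ∈ Cfsg.setSystemAut L := by
    refine Cfsg.Agent.H16.mem_setSystemAut_iff.2 fun b => ?_
    rw [h1 b, h2]
    refine exists_congr fun n => ⟨fun h x => ?_, fun h y => ?_⟩
    · simpa using h ((e1.trans e2.symm) x)
    · rw [Finset.mem_map_equiv, h]
      simp
  refine ⟨e1.trans e2.symm, ⟨hg', hg⟩, ?_⟩
  rintro g ⟨g1, g2⟩
  ext x
  rw [Equiv.trans_apply, Equiv.eq_symm_apply]
  refine Cfsg.Agent.H97.inc4_sep _ _ fun n i j hij hi hj => ?_
  have hn : ∀ x, x ∈ Finset.univ.filter (fun x => Cfsg.Agent.H97.inc4 n (e1 x)) ↔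
      Cfsg.Agent.H97.inc4 n (e1 x) := by simp
  have hl := (h1 _).2 ⟨n, hn⟩
  obtain ⟨n', hn'⟩ := (h2 _).1 ((Cfsg.Agent.H16.mem_setSystemAut_iff.1 g1 _).2 hl)
  have k : ∀ y, Cfsg.Agent.H97.inc4 n' (e2 (g y)) ↔ Cfsg.Agent.H97.inc4 n (e1 y) := by
    intro y
    rw [← hn', ← hn y]
    exact Finset.mem_map' _
  obtain rfl : n = n' := Cfsg.Agent.H97.inc4_unique n _ hi _ hj (by simpa using hij) n'
    (by rw [← b2, ← g2, k, b1]; exact hi) (by rw [← b2, ← g2, k, b1]; exact hj)
  exact k x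

end Cfsg.Agent.S5628
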