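import Cfsg.Statements.S5632
import Cfsg.Agent.H27.TvSL

set_option autoImplicit false
open Cfsg

namespace Cfsg.Agent.S5632

/-- For a finite field F and subspaces 0 < W < U of F^n with dim W + dim U = n, the elements of SL_n(F) stabilising both W and U form a subgroup that is not maximal in SL_n(F): some subgroup lies strictly between it and SL_n(F). -/
theorem result {F : Type*} [Field F] [Fintype F] (n : ℕ) (W U : Submodule F (Fin n → F)) (hW0 : W ≠ ⊥) (hWU : W < U) (hdim : Module.finrank F W + Module.finrank F U = n) : ∃ K : Subgroup (Matrix.GeneralLinearGroup (Fin n) F), Cfsg.Geo.subspaceStabilizer W ⊓ Cfsg.Geo.subspaceStabilizer U ⊓ Cfsg.Geo.specialLinear (Fin n) F < K ∧ K < Cfsg.Geo.specialLinear (Fin n) F := by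
  have hU : U ≠ ⊤ := by
    rintro rfl
    have h1 : Module.finrank F W ≠ 0 := fun h => hW0 (Submodule.finrank_eq_zero.1 h)
    rw [finrank_top, Module.finrank_fin_fun] at hdim
    omega
  obtain ⟨u, hu, huW⟩ := SetLike.exists_of_lt hWU
  obtain ⟨z, -, hz⟩ := SetLike.exists_of_lt (lt_top_iff_ne_top.2 hU)
  have h := Cfsg.Agent.H27.stab_inf_lt (W := W) hu (z := z) (by
    intro hc
    obtain ⟨w, hw, y, hy, rfl⟩ := Submodule.mem_sup.1 hc
    obtain ⟨c, rfl⟩ := Submodule.mem_span_singleton.1 hy
    have h1 : c • z ∈ U := by simpa using U.sub_mem hu (hWU.le hw)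
    rcases eq_or_ne c 0 with rfl | hc0
    · exact huW (by simpa using hw)
    · exact hz ((U.smul_mem_iff hc0).1 h1)) hz hW0 (hWU.trans_le le_top).ne
  have := Cfsg.Agent.H27.exists_between_comap (Cfsg.Agent.H27.toLE (Fin n) F) h
  rwa [Subgroup.comap_inf, Subgroup.comap_inf, Cfsg.Agent.H27.comap_SLV,
    Cfsg.Agent.H27.comap_stab, Cfsg.Agent.H27.comap_stab] at this

end Cfsg.Agent.S5632
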