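import Cfsg.Statements.S5633
import Cfsg.Agent.H27.TvSL

set_option autoImplicit false
open Cfsg

namespace Cfsg.Agent.S5633

/-- For a finite field F and complementary non-zero subspaces W ⊕ U = F^n with dim W < dim U, the elements of SL_n(F) stabilising both W and U form a subgroup that is not maximal in SL_n(F): some subgroup lies strictly between it and SL_n(F). -/
theorem result {F : Type*} [Field F] [Fintype F] (n : ℕ) (W U : Submodule F (Fin n → F)) (hW0 : W ≠ ⊥) (hWU : W ⊓ U = ⊥) (hWU' : W ⊔ U = ⊤) (hdim : Module.finrank F W < Module.finrank F U) : ∃ K : Subgroup (Matrix.GeneralLinearGroup (Fin n) F), Cfsg.Geo.subspaceStabilizer W ⊓ Cfsg.Geo.subspaceStabilizer U ⊓ Cfsg.Geo.specialLinear (Fin n) F < K ∧ K < Cfsg.Geo.specialLinear (Fin n) F := by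
  have hU : U ≠ ⊥ := Cfsg.Agent.H27.ne_bot_of_finrank_pos (by omega)
  obtain ⟨u, hu, hu0⟩ := Submodule.exists_mem_ne_zero_of_ne_bot hU
  obtain ⟨z, hz, hz0⟩ := Submodule.exists_mem_ne_zero_of_ne_bot hW0
  have huW : u ∉ W := fun h => hu0 (by
    have : u ∈ W ⊓ U := ⟨h, hu⟩
    rwa [hWU, Submodule.mem_bot] at this)
  have h := Cfsg.Agent.H27.stab_inf_lt (W := W) hu (z := z) (by
    rwa [sup_eq_left.2 ((Submodule.span_singleton_le_iff_mem z W).2 hz)]) (fun h => hz0 (by
      have : z ∈ W ⊓ U := ⟨hz, h⟩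
      rwa [hWU, Submodule.mem_bot] at this)) hW0 (by rintro rfl; exact huW trivial)
  have := Cfsg.Agent.H27.exists_between_comap (Cfsg.Agent.H27.toLE (Fin n) F) h
  rwa [Subgroup.comap_inf, Subgroup.comap_inf, Cfsg.Agent.H27.comap_SLV,
    Cfsg.Agent.H27.comap_stab, Cfsg.Agent.H27.comap_stab] at this

end Cfsg.Agent.S5633
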