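import Cfsg.Statements.S5634
import Cfsg.Agent.H27.MonoSL3

set_option autoImplicit false
open Cfsg

namespace Cfsg.Agent.S5634

/-- For a finite field F with q elements and n ≥ 13, let D be a decomposition of F^n into t ≥ 2 independent subspaces of equal dimension m ≥ 1 spanning F^n. Unless m = 1 and q ≤ 4, or m = 2 and q = 2, the elements of SL_n(F) permuting the members of D form a maximal subgroup of SL_n(F). -/
theorem result {F : Type*} [Field F] [Fintype F] (n : ℕ) (hn : 13 ≤ n) {t : ℕ} (m : ℕ) (D : Fin t → Submodule F (Fin n → F)) (hD : Cfsg.Geo.IsMDecomposition m D) (h1 : ¬ (m = 1 ∧ Fintype.card F ≤ 4)) (h2 : ¬ (m = 2 ∧ Fintype.card F = 2)) : Cfsg.Geo.IsMaximalIn (Cfsg.Geo.specialLinear (Fin n) F) (Cfsg.Geo.decompositionStabilizer D ⊓ Cfsg.Geo.specialLinear (Fin n) F) := by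
  have hdim := Cfsg.Agent.H27.Dec.finrank_eq hD.indep hD.iSup_eq_top hD.finrank_eq
  rw [Module.finrank_fin_fun, Fintype.card_fin] at hdim
  have h := Cfsg.Agent.H27.isMaximalIn_dstab_SLV hD.indep hD.iSup_eq_top hD.finrank_eq hD.pos
    (by simpa using hD.two_le) (fun hm => by
      rw [Fintype.card_fin]
      subst hm
      constructor
      · by_contra hc
        exact h1 ⟨rfl, by omega⟩
      · omega) (fun hm => Or.inl ⟨by
      have h3 : 2 < Fintype.card F := by
        have := Fintype.one_lt_card (α := F)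
        have h4 : Fintype.card F ≠ 2 := fun h => h2 ⟨hm, h⟩
        omega
      classical
      obtain ⟨a, ha⟩ := Cfsg.Agent.H27.exists_not_mem_list (ι := F) [0, 1] (by simpa using h3)
      exact ⟨a, by simpa using ha⟩, by
      rw [Fintype.card_fin]
      subst hm
      omega⟩)
  have := Cfsg.Agent.H27.isMaximalIn_comap (Cfsg.Agent.H27.toLE (Fin n) F) h
  rwa [Subgroup.comap_inf, Cfsg.Agent.H27.comap_SLV, Cfsg.Agent.H27.comap_dstab] at this

end Cfsg.Agent.S5634
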