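import Cfsg.Statements.S5635
import Cfsg.Agent.H99.ExclSL

set_option autoImplicit false
open Cfsg

namespace Cfsg.Agent.S5635

open Cfsg.Geo Matrix Cfsg.Agent.H99 Cfsg.Agent.H98 in
theorem between {G : Type*} [Group G] {S H M : Subgroup G} (hM : H ≤ M) (hS : ¬ S ≤ M) {g : G}
    (h1 : g ∈ M) (h2 : g ∈ S) (h3 : g ∉ H) : ∃ K, H ⊓ S < K ∧ K < S :=
  ⟨M ⊓ S, lt_of_le_of_ne (inf_le_inf_right _ hM) fun e => h3 (e.ge ⟨h1, h2⟩).1,
    lt_of_le_of_ne inf_le_right fun e => hS (e.ge.trans inf_le_left)⟩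


/-- For a finite field F with q elements and n ≥ 13, let D be a decomposition of F^n into t ≥ 2 independent subspaces of equal dimension m spanning F^n, where m = 1 and q ≤ 4, or m = 2 and q = 2. Then the elements of SL_n(F) permuting the members of D form a subgroup that is not maximal: some subgroup lies strictly between it and SL_n(F). -/
theorem result {F : Type*} [Field F] [Fintype F] (n : ℕ) (hn : 13 ≤ n) {t : ℕ} (m : ℕ) (D : Fin t → Submodule F (Fin n → F)) (hD : Cfsg.Geo.IsMDecomposition m D) (h : (m = 1 ∧ Fintype.card F ≤ 4) ∨ (m = 2 ∧ Fintype.card F = 2)) : ∃ K : Subgroup (Matrix.GeneralLinearGroup (Fin n) F), Cfsg.Geo.decompositionStabilizer D ⊓ Cfsg.Geo.specialLinear (Fin n) F < K ∧ K < Cfsg.Geo.specialLinear (Fin n) F := by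
  open Cfsg.Geo Matrix Cfsg.Agent.H99 Cfsg.Agent.H98 in
  have h3 : 3 ≤ Fintype.card (Fin n) := by simp; omega
  have h4 := card_eq_of_dec hD
  rw [Fintype.card_fin] at h4
  rcases h with ⟨rfl, h⟩ | ⟨rfl, h⟩
  swap
  · obtain ⟨e, P, hP⟩ := exists_adapted hD
    obtain ⟨t, rfl⟩ : ∃ s, t = s + 2 := ⟨t - 2, by omega⟩
    refine between (hP.planes_two h) (not_sl_le_similarity h3 (symp_pushF e P symp_sumAlt).1.1
      (symp_pushF e P symp_sumAlt).1.2 (symp_pushF e P symp_sumAlt).4)
      (g := frmG e P (tv (Pi.single (0, 0) 1 + Pi.single (1, 0) 1)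
        (Pi.single (0, 1) 1 + Pi.single (1, 1) 1) (by simp))) ?_
      ((frmG_mem_sl e P).2 (tv_mem_sl _ _ _))
      (hP.not_mem_decStab (k := (0, 1)) (k' := (1, 0)) (l := (0, 1)) (by simp) (by simp [tv_apply])
        (by simp [tv_apply]))
    rw [mem_sim_pushF, MulEquiv.symm_apply_apply]
    refine ⟨1, fun x y => ?_⟩
    simp [tv_mulVec, sumAlt, Fin.sum_univ_succ, Pi.single_apply, Fin.succ_succ_ne_one,
      Fin.succ_ne_zero]
    ring
  obtain ⟨e, P, hP⟩ := exists_adapted_one hD
  obtain ⟨t, rfl⟩ : ∃ s, t = s + 6 := ⟨t - 6, by omega⟩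
  let v : Fin (t + 6) → F := Fin.cons 1 (Fin.cons 1 (Fin.cons 1 (Fin.cons 1 0)))
  have h5 : ∀ x : Fin (t + 6) → F, v ⬝ᵥ x =
      x 0 + x (.succ 0) + x (.succ (.succ 0)) + x (.succ (.succ (.succ 0))) := fun x => by
    simp only [v, dotProduct, Fin.sum_univ_succ, Fin.cons_zero, Fin.cons_succ]; simp [add_assoc]
  have h6 : v ⬝ᵥ v = 4 := by rw [h5]; change (1 + 1 + 1 + 1 : F) = 4; norm_num
  have h1 := Fintype.one_lt_card (α := F)
  have h8 : ∀ g : GL (Fin (t + 6)) F, g.1 *ᵥ Pi.single 0 1 = Pi.single 0 1 + v →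
      frmG e P g ∉ decompositionStabilizer D := fun g hg =>
    hP.not_mem_decStab (k := .succ 0) (k' := .succ (.succ 0)) (l := 0)
      (fun e => Fin.succ_ne_zero _ (Fin.succ_injective _ e).symm)
      (by simpa using (congrFun hg (.succ 0)).trans_ne (by simp [v, -Fin.succ_zero_eq_one]))
      (by simpa using (congrFun hg (.succ (.succ 0))).trans_ne (by
        rw [Pi.add_apply, Pi.single_eq_of_ne (Fin.succ_ne_zero _), zero_add]; exact one_ne_zero))
  by_cases h2 : (2 : F) = 0
  · have h7 : v ⬝ᵥ v = 0 := by rw [h6]; linear_combination 2 * h2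
    replace h8 := h8 (tv v v h7) (by rw [tv_mulVec]; simp [v])
    have h9 := (frmG_mem_sl e P).2 (tv_mem_sl v v h7)
    have := FiniteField.even_card_of_char_two (CharP.ringChar_of_prime_eq_zero Nat.prime_two h2)
    by_cases hq : Fintype.card F = 2
    · refine between (hP.frame_two hq) (not_sl_le_stab (span_one_ne (by omega) e P).1
        (span_one_ne (by omega) e P).2) ?_ h9 h8
      rw [mem_stab_push, MulEquiv.symm_apply_apply]
      refine mem_stab_of_mapsTo fun x hx => ?_
      obtain ⟨c, rfl⟩ := Submodule.mem_span_singleton.1 hx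
      rw [tv_mulVec, dotProduct_smul, h5, show (1 + 1 + 1 + 1 : F) = 2 * 2 by norm_num, h2]
      simpa using hx
    · obtain ⟨s, s1, s2, s3⟩ := exists_conj_of_card_four (F := F) (by omega)
      have s4 := unit_pushF e P (unit_sumHerm (κ := Fin (t + 6)) s1 s2)
      refine between (hP.frame_four (by omega) s3) (not_sl_le_similarity h3 s4.3 s4.4 s4.6) ?_ h9 h8
      rw [mem_sim_pushF, MulEquiv.symm_apply_apply]
      refine ⟨1, fun x y => ?_⟩
      have e1 : ∀ x y, sumHerm (Fin (t + 6)) s x y = x ⬝ᵥ (s ∘ y) := fun _ _ => rfl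
      have e2 : s ∘ (y + (v ⬝ᵥ y) • v) = s ∘ y + (v ⬝ᵥ (s ∘ y)) • v := by
        ext i
        have : s (v i) = v i := by
          exact Fin.cases (map_one s) (Fin.cases (map_one s) (Fin.cases (map_one s)
            (Fin.cases (map_one s) fun _ => map_zero s))) i
        simp [h5, this]
      simp only [tv_mulVec, e1, e2, add_dotProduct, dotProduct_add, smul_dotProduct, dotProduct_smul,
        h7, dotProduct_comm x v, smul_eq_mul, Units.val_one]
      linear_combination (v ⬝ᵥ x) * (v ⬝ᵥ (s ∘ y)) * h2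
  have hq : Fintype.card F = 3 := by
    have := FiniteField.odd_card_of_char_ne_two (F := F) fun e => h2 (by
      simpa [e] using ringChar.Nat.cast_ringChar (R := F))
    omega
  have h7 : (3 : F) = 0 := by simpa [hq] using FiniteField.cast_card_eq_zero F
  let w : Fin (t + 6) → F := Pi.single (Fin.last _) 1
  have h9 : ∀ u x : Fin (t + 6) → F, u ⬝ᵥ u = 1 →
      sumSq _ F ((1 + vecMulVec u u) *ᵥ x) = sumSq _ F x := fun u x hu => by
    have e1 : ∀ x, sumSq (Fin (t + 6)) F x = x ⬝ᵥ x := fun _ => by simp [sumSq, dotProduct, sq]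
    simp only [e1, add_mulVec, one_mulVec, vmv_mulVec, add_dotProduct, dotProduct_add,
      smul_dotProduct, dotProduct_smul, hu, dotProduct_comm x u, smul_eq_mul]
    linear_combination (u ⬝ᵥ x) ^ 2 * h7
  let g : SpecialLinearGroup (Fin (t + 6)) F := ⟨(1 + vecMulVec v v) * (1 + vecMulVec w w), by
    rw [det_mul, det_one_add_vmv, det_one_add_vmv, h6]
    simp only [w, single_dotProduct, Pi.single_eq_same]
    linear_combination 3 * h7⟩
  have e : ∀ x, (SpecialLinearGroup.toGL g).1 *ᵥ x =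
    (1 + vecMulVec v v) *ᵥ ((1 + vecMulVec w w) *ᵥ x) := fun x => (mulVec_mulVec _ _ _).symm
  refine between (hP.frame_three hq) (not_sl_le_quadSim h3 (quad_pushQ _ P (quad_sumSq h2))) ?_
    ((frmG_mem_sl _ P).2 (mem_sl.2 g.2)) (h8 (SpecialLinearGroup.toGL g) ?_)
  · rw [mem_quadSim_pushQ, MulEquiv.symm_apply_apply]
    exact ⟨1, fun x => by
      rw [e, h9 _ _ (by rw [h6]; linear_combination h7), h9 _ _ (by simp [w]), Units.val_one, one_mul]⟩
  · rw [e]
    simp only [add_mulVec, one_mulVec, vmv_mulVec]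
    simp [w, v, Fin.ext_iff]

end Cfsg.Agent.S5635
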