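import Cfsg.Statements.S5638
import Cfsg.Agent.H99.ExclSL

set_option autoImplicit false
open Cfsg

namespace Cfsg.Agent.S5638

/-- Over the field with 2 elements, for n = 2 n₂ ≥ 13, the stabiliser in SL_n of a tensor decomposition with factors of dimensions 2 and n₂ (the conjugate by any P of the Kronecker-product subgroup transported along any bijection Fin n ≃ Fin 2 × Fin n₂, intersected with SL_n) is not a maximal subgroup: some subgroup lies strictly between it and SL_n. -/
theorem result {F : Type*} [Field F] [Fintype F] (n : ℕ) (hn : 13 ≤ n) (hq : Fintype.card F = 2) (n₂ : ℕ) (e : Fin n ≃ Fin 2 × Fin n₂) (P : Matrix.GeneralLinearGroup (Fin n) F) : ∃ K : Subgroup (Matrix.GeneralLinearGroup (Fin n) F), Cfsg.Geo.tensorProductSubgroup 2 n₂ e P ⊓ Cfsg.Geo.specialLinear (Fin n) F < K ∧ K < Cfsg.Geo.specialLinear (Fin n) F := by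
  open Cfsg.Geo Matrix Kronecker Cfsg.Agent.H99 Cfsg.Agent.H98 in
  have h4 := Fintype.card_congr e
  simp only [Fintype.card_fin, Fintype.card_prod] at h4
  obtain ⟨m, rfl⟩ : ∃ s, n₂ = s + 2 := ⟨n₂ - 2, by omega⟩
  have h2 : (2 : F) = 0 := two_eq_zero_of_even (by rw [hq])
  let N : Matrix (Fin 2 × Fin (m + 2)) (Fin 2 × Fin (m + 2)) F := om4 F ⊗ₖ single 0 1 1
  have hN : N * N = 0 := by simp [N, ← mul_kronecker_mul]
  let g : GL (Fin 2 × Fin (m + 2)) F := ⟨1 + N, 1 - N, by simp [mul_sub, add_mul, hN],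
    by simp [sub_mul, mul_add, hN]⟩
  have hS := not_sl_le_fieldNorm (by simp; omega) le_rfl
    (isField_tensSub (by omega) e P (isField_fld4 hq))
  have h1 : ∀ x : GL (Fin n) F, x ∈ specialLinear (Fin n) F := fun x =>
    mem_sl.2 (eq_one_of_card_two hq (GeneralLinearGroup.det_ne_zero x))
  refine ⟨_, lt_of_le_of_ne (inf_le_inf_right _ (tensor_le_norm e P fun x k => fld4_conj hq x))
    fun h => ?_, lt_of_le_of_ne inf_le_right fun e => hS (e.ge.trans inf_le_left)⟩
  have h3 : frmG e P g ∈ subalgebraNormalizer (tensSub e P (fld4 F)) := by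
    have key : ∀ k ∈ tensSub e P (fld4 F), (frmG e P g).1 * k = k * (frmG e P g).1 := by
      rintro _ ⟨k, hk, rfl⟩
      have : (1 + N) * kronL _ _ F k = kronL _ _ F k * (1 + N) := by
        obtain ⟨a, b, rfl⟩ := mem_fld4.1 hk
        simp [N, kronL_apply, add_mul, mul_add, ← mul_kronecker_mul]
      exact (map_mul (frm e P) _ _).symm.trans ((congrArg (frm e P) this).trans (map_mul _ _ _))
    refine fun k => ⟨fun hk => by simpa [key k hk, mul_assoc] using hk, fun hk => ?_⟩
    have := key _ hk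
    rw [mul_assoc _ _ (frmG e P g).1, Units.inv_mul, mul_one, Units.mul_right_inj] at this
    rwa [← this]
  obtain ⟨x, y, hxy⟩ := mem_tensorProductSubgroup.1 (h.ge ⟨h3, h1 _⟩).1
  have h5 : 1 + N = x.1 ⊗ₖ y.1 := (frm e P).injective hxy
  have a1 := congrFun₂ h5 (0, 0) (0, 0)
  have a2 := congrFun₂ h5 (0, 0) (1, 0)
  have a3 := congrFun₂ h5 (0, 0) (1, 1)
  simp [N, om4] at a1 a2 a3
  rcases a2 with a2 | a2
  exacts [by simp [a2] at a3, by simp [a2] at a1]

end Cfsg.Agent.S5638
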