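import Cfsg.Statements.S5639
import Cfsg.Agent.H77.SubSL

set_option autoImplicit false
open Cfsg

namespace Cfsg.Agent.S5639

open Cfsg.Agent.H77 Cfsg.Agent.H27

/-- For a finite field F, a subfield F₀ with |F| = |F₀| ^ r for a prime r, and n ≥ 13, the subfield group (the conjugate by any P of the product of GL_n(F₀) with the non-zero scalars of F, intersected with SL_n(F)) is a maximal subgroup of SL_n(F). -/
theorem result {F : Type*} [Field F] [Fintype F] (n : ℕ) (hn : 13 ≤ n) (F₀ : Subfield F) (r : ℕ) (hr : r.Prime) (hcard : Fintype.card F = Nat.card F₀ ^ r) (P : Matrix.GeneralLinearGroup (Fin n) F) : Cfsg.Geo.IsMaximalIn (Cfsg.Geo.specialLinear (Fin n) F) (Cfsg.Geo.subfieldSubgroup F₀ P ⊓ Cfsg.Geo.specialLinear (Fin n) F) := by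
  refine isMaximalIn_sl_of (Cfsg.Agent.H99.not_sl_le_subfield (by simp; omega)
    (subfield_ne_top hr hcard) P) fun H hH g hg hgH =>
    sub_SLV_le (rs_jP F₀ P) (by simp; omega) (fun u φ h1 h2 => ?_) (subring_dichotomy hr hcard) hgH
      (fun h => hg (mem_subfield_iff_nr.mpr h))
  rw [one_smul]
  obtain ⟨A, hA⟩ := (toLE (Fin n) F).surjective (tv _ φ h2)
  refine t1_of_tv h2 (hA ▸ hH A (mem_subfield_iff_nr.mpr ⟨1, one_ne_zero, fun x => ?_⟩)
    (hA ▸ tv_mem_SLV _ _ _))
  exact ⟨x + (⟨_, h1 x⟩ : F₀) • u, by rw [hA, tv_apply, one_smul, map_add, j_smul]⟩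

end Cfsg.Agent.S5639
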