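import Cfsg.Statements.S5642
import Cfsg.Agent.H77.C8Skew

set_option autoImplicit false
open Cfsg

namespace Cfsg.Agent.S5642

open Cfsg.Agent.H77

/-- For a finite field F and n ≥ 13, let f be a non-degenerate symplectic form on F^n (so n is even). Then the elements of SL_n(F) that are similarities of f (f(gu, gv) = c f(u, v) for a non-zero scalar c depending on g) form a maximal subgroup of SL_n(F). -/
theorem result {F : Type*} [Field F] [Fintype F] (n : ℕ) (hn : 13 ≤ n) (f : (Fin n → F) → (Fin n → F) → F) (hf : Cfsg.Geo.IsSymplecticForm f) : Cfsg.Geo.IsMaximalIn (Cfsg.Geo.specialLinear (Fin n) F) (Cfsg.Geo.similarityGroup f ⊓ Cfsg.Geo.specialLinear (Fin n) F) := by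
  let B : (Fin n → F) →ₗ[F] (Fin n → F) →ₗ[F] F :=
    LinearMap.mk₂ F (fun x y => f y x) (fun x y v => hf.bilinear.add_right _ _ _)
      (fun c x v => hf.bilinear.smul_right _ _ _) (fun x y v => hf.bilinear.add_left _ _ _)
      (fun c x v => hf.bilinear.smul_left _ _ _)
  have hB : ∀ x y, B x y = f y x := fun _ _ => rfl
  refine isMaximalIn_skew (σ := RingHom.id F) (B := B) (d := 1)
    (Cfsg.Agent.H99.not_sl_le_similarity (by simp; omega) hf.bilinear.add_left
      hf.bilinear.smul_left hf.nondegenerate) one_ne_zero (fun x y => by rw [hB, one_mul])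
    ⟨fun _ => rfl, fun x hx => ?_, fun x y h => ?_⟩ (fun x y => hf.skew _ _)
    (solv_alt (fun x => hf.alternating x) 3) (by simp; omega)
  · by_contra h0
    obtain ⟨y, hy⟩ := (hf.nondegenerate x h0).1
    exact hy (hx y)
  · rw [hB] at h ⊢
    rw [hf.skew, h, neg_zero]

end Cfsg.Agent.S5642
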