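import Cfsg.Statements.S5643
import Cfsg.Agent.H77.C8Skew

set_option autoImplicit false
open Cfsg

namespace Cfsg.Agent.S5643

open Cfsg.Agent.H77

/-- For a finite field F and n ≥ 13, let σ be a field automorphism of F of order two and f a non-degenerate unitary form on F^n with respect to σ. Then the elements of SL_n(F) that are similarities of f form a maximal subgroup of SL_n(F). -/
theorem result {F : Type*} [Field F] [Fintype F] (n : ℕ) (hn : 13 ≤ n) (σ : F ≃+* F) (f : (Fin n → F) → (Fin n → F) → F) (hf : Cfsg.Geo.IsUnitaryForm σ f) : Cfsg.Geo.IsMaximalIn (Cfsg.Geo.specialLinear (Fin n) F) (Cfsg.Geo.similarityGroup f ⊓ Cfsg.Geo.specialLinear (Fin n) F) := by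
  obtain ⟨e, he⟩ : ∃ e, σ e ≠ e := by
    by_contra h
    push Not at h
    exact hf.ne_refl (RingEquiv.ext h)
  set d := e - σ e with hd
  have hd0 : d ≠ 0 := sub_ne_zero.mpr he.symm
  have hd1 : σ d = -d := by rw [hd, map_sub, hf.involutive]; ring
  let B : (Fin n → F) →ₛₗ[(σ : F →+* F)] (Fin n → F) →ₗ[F] F :=
    LinearMap.mk₂'ₛₗ (σ : F →+* F) (RingHom.id F) (fun x y => d * f y x)
      (fun x y v => by
        rw [hf.herm v, hf.add_left, map_add, ← hf.herm, ← hf.herm, mul_add])
      (fun c x v => by
        rw [hf.herm v, hf.smul_left, map_mul, ← hf.herm, smul_eq_mul]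
        exact mul_left_comm _ _ _)
      (fun x y v => by rw [hf.add_left, mul_add])
      (fun c x v => by rw [hf.smul_left, smul_eq_mul, RingHom.id_apply, mul_left_comm])
  have hB : ∀ x y, B x y = d * f y x := fun _ _ => rfl
  have hs : ∀ x y, B y x = -(σ : F →+* F) (B x y) := fun x y => by
    rw [hB, hB, hf.herm x y]
    show _ = -σ _
    rw [map_mul, hd1]; ring
  have hR : RF B := ⟨hf.involutive, fun x hx => by
    by_contra h0
    obtain ⟨y, hy⟩ := (hf.nondegenerate x h0).1
    exact mul_ne_zero hd0 hy (hx y), fun x y h => by rw [hs, h, map_zero, neg_zero]⟩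
  exact isMaximalIn_skew
    (Cfsg.Agent.H99.not_sl_le_similarity (by simp; omega) hf.add_left
      hf.smul_left hf.nondegenerate) hd0 hB hR hs
    (solv_skew hR hs (fun h => he (RingHom.congr_fun h e)) (by simp; omega)) (by simp; omega)

end Cfsg.Agent.S5643
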