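import Cfsg.Statements.S5644
import Cfsg.Agent.H77.C8Orth

set_option autoImplicit false
open Cfsg

namespace Cfsg.Agent.S5644

open Cfsg.Agent.H77 Cfsg.Agent.H27 QuadraticMap

/-- For a finite field F of odd order and n ≥ 13, let Q be a non-degenerate quadratic form on F^n (its polar form is non-degenerate). Then the elements of SL_n(F) that are similarities of Q (Q(gv) = c Q(v) for a non-zero scalar c depending on g) form a maximal subgroup of SL_n(F). -/
theorem result {F : Type*} [Field F] [Fintype F] (n : ℕ) (hn : 13 ≤ n) (hodd : Odd (Fintype.card F)) (Q : (Fin n → F) → F) (hQ : Cfsg.Geo.IsNondegenerateQuadraticForm Q) : Cfsg.Geo.IsMaximalIn (Cfsg.Geo.specialLinear (Fin n) F) (Cfsg.Geo.quadSimilarityGroup Q ⊓ Cfsg.Geo.specialLinear (Fin n) F) := by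
  have h2 : (2 : F) ≠ 0 := two_ne_zero_of_odd_card hodd
  have hR := rf_toQF hQ
  refine isMaximalIn_sl_of (Cfsg.Agent.H99.not_sl_le_quadSim (by simp; omega) hQ)
    fun H hH g hg hgH => orth_SLV_le hR (by simpa using hn) (fun x y hx hy hxy => ?_) hgH
    fun c hc => hg ?_
  · obtain ⟨e, he, h1, h3⟩ := exists_siegel hx hy hxy
    obtain ⟨A, rfl⟩ := (toLE (Fin n) F).surjective e
    exact ⟨_, hH A ⟨1, fun v => by rw [Units.val_one, one_mul]; exact h3 v⟩ he, h1⟩
  · have hc0 : c ≠ 0 := by
      rintro rfl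
      haveI : Nontrivial (Fin n → F) :=
        Module.nontrivial_of_finrank_pos (R := F) (by simp; omega)
      obtain ⟨a, ha⟩ := exists_ne (0 : Fin n → F)
      exact hR.ne_zero ha (LinearMap.ext fun y => by simpa using hc a y)
    refine ⟨(Units.mk0 c hc0)⁻¹, fun v => ?_⟩
    have := hc v v
    rw [polarBilin_apply_apply, polarBilin_apply_apply, polar_self_eq, polar_self_eq,
      mul_left_comm] at this
    have h3 : Q v = c * Q (toLE (Fin n) F g v) := mul_left_cancel₀ h2 this
    rw [h3]
    simp [toLE_apply, hc0]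

end Cfsg.Agent.S5644
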