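import Cfsg.Statements.S5647
import Cfsg.Agent.H27.SpDec

set_option autoImplicit false
open Cfsg

namespace Cfsg.Agent.S5647

/-- For a finite field F with q elements and m ≥ 7, let D be a decomposition of F^(2m) into t ≥ 2 pairwise orthogonal subspaces of equal dimension k on each of which the standard alternating form is non-degenerate, spanning F^(2m). Unless k = 2 and q = 2, the elements of Sp_2m(F) permuting the members of D form a maximal subgroup of Sp_2m(F). -/
theorem result {F : Type*} [Field F] [Fintype F] (m : ℕ) (hm : 7 ≤ m) {t : ℕ} (k : ℕ) (D : Fin t → Submodule F (Fin m ⊕ Fin m → F)) (hD : Cfsg.Geo.IsNondegenerateMDecomposition (Cfsg.sympForm m F) k D) (hex : ¬ (k = 2 ∧ Fintype.card F = 2)) : Cfsg.Geo.IsMaximalIn (Cfsg.spGL m F) (Cfsg.Geo.decompositionStabilizer D ⊓ Cfsg.spGL m F) := by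
  classical
  obtain ⟨d⟩ := Cfsg.Agent.H27.exists_dec hD.decomp.indep hD.decomp.iSup_eq_top
  have : Nontrivial (Fin t) := Fin.nontrivial_iff_two_le.2 hD.decomp.two_le
  have := Cfsg.Agent.H27.isMaximalIn_comap (Cfsg.Agent.H27.toLE (Fin m ⊕ Fin m) F)
    (Cfsg.Agent.H27.isMaximalIn_dstab_alt (B := Cfsg.Agent.H27.sympBilin m F)
      Cfsg.Agent.H27.sympBilin_isAlt Cfsg.Agent.H27.sympBilin_nondegenerate.1 d
      (fun i j hij x hx y hy => by
        rw [Cfsg.Agent.H27.sympBilin_apply]; exact hD.orthogonal i j hij x hx y hy)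
      hD.decomp.pos hD.decomp.finrank_eq fun hk => by
        have h1 : 1 < Fintype.card F := Fintype.one_lt_card
        obtain ⟨c, hc⟩ := Cfsg.Agent.H27.exists_not_mem_list [(0 : F), -1] (by
          have : Fintype.card F ≠ 2 := fun h => hex ⟨hk, h⟩
          simp only [List.length_cons, List.length_nil]; omega)
        exact ⟨c, by simpa using hc⟩)
  rwa [Subgroup.comap_inf, Cfsg.Agent.H27.comap_GG_symp, Cfsg.Agent.H27.comap_dstab] at this

end Cfsg.Agent.S5647
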