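import Cfsg.Statements.S5648
import Cfsg.Agent.H9.SpExcl

set_option autoImplicit false
open Cfsg

namespace Cfsg.Agent.S5648

/-- Over the field with 2 elements and for m ≥ 7, let D be a decomposition of F^(2m) into t pairwise orthogonal non-degenerate 2-dimensional subspaces for the standard alternating form (t = m ≥ 2). Then the elements of Sp_2m(2) permuting the members of D form a subgroup that is not maximal: some subgroup lies strictly between it and Sp_2m(2). -/
theorem result {F : Type*} [Field F] [Fintype F] (m : ℕ) (hm : 7 ≤ m) (hq : Fintype.card F = 2) {t : ℕ} (D : Fin t → Submodule F (Fin m ⊕ Fin m → F)) (hD : Cfsg.Geo.IsNondegenerateMDecomposition (Cfsg.sympForm m F) 2 D) : ∃ K : Subgroup (Matrix.GeneralLinearGroup (Fin m ⊕ Fin m) F), Cfsg.Geo.decompositionStabilizer D ⊓ Cfsg.spGL m F < K ∧ K < Cfsg.spGL m F := by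
  have hf : H98.IsSesq (RingEquiv.refl F) (-1) (sympForm m F) := H9.isSesq_symp
  have h2 : (2 : F) = 0 := H9.two_eq_zero_of_not_odd (by rw [hq]; decide)
  obtain ⟨Q, hQ, hp, hle⟩ := H9.dec_two_quad hq hD
  obtain ⟨-, -, -, ht⟩ := H9.even_of_dec hD
  obtain ⟨d⟩ := H27.exists_dec hD.decomp.indep hD.decomp.iSup_eq_top
  have hadd : ∀ u v, Q (u + v) = Q u + Q v + sympForm m F u v := fun u v => by
    rw [← hp, QuadraticMap.polar]; ring
  have hone : ∀ i, ∀ x ∈ D i, x ≠ 0 → Q x = 1 := by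
    intro i x hx hx0
    obtain ⟨y, hy, hxy⟩ := (hD.nondegenerate i x hx hx0).1
    have h1 : H9.tS x (1 : F) ∈ Geo.decompositionStabilizer D := ⟨1, fun j => H9.map_eq_of_mem_stab
      (H98.mem_stab_of_mapsTo fun v hv => by
        rw [H9.tS_mulVec]
        by_cases hij : j = i
        · subst hij; exact (D j).add_mem hv ((D j).smul_mem _ hx)
        · simpa [hD.orthogonal j i hij v hv x hx] using hv)⟩
    obtain ⟨c, hc⟩ := hle h1
    have h3 := hc y
    rw [H9.tS_mulVec, H9.eq_one_of_card_two hq c.ne_zero, H9.eq_one_of_card_two hq hxy, mul_one,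
      one_smul, hadd, H9.eq_one_of_card_two hq hxy] at h3
    linear_combination h3 - h2
  let i0 : Fin t := ⟨0, by omega⟩
  let i1 : Fin t := ⟨1, by omega⟩
  let i2 : Fin t := ⟨2, by omega⟩
  have h01 : i0 ≠ i1 := by simp [i0, i1, Fin.ext_iff]
  have h02 : i0 ≠ i2 := by simp [i0, i2, Fin.ext_iff]
  have h12 : i1 ≠ i2 := by simp [i1, i2, Fin.ext_iff]
  obtain ⟨x0, hx0, hx0'⟩ := Submodule.exists_mem_ne_zero_of_ne_bot (H99.IsMDec.ne_bot hD.decomp i0)
  obtain ⟨x1, hx1, hx1'⟩ := Submodule.exists_mem_ne_zero_of_ne_bot (H99.IsMDec.ne_bot hD.decomp i1)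
  obtain ⟨x2, hx2, hx2'⟩ := Submodule.exists_mem_ne_zero_of_ne_bot (H99.IsMDec.ne_bot hD.decomp i2)
  have hw : Q (x0 + x1 + x2) = 1 := by
    rw [hadd, hadd, hf.add_left, hone _ _ hx0 hx0', hone _ _ hx1 hx1', hone _ _ hx2 hx2',
      hD.orthogonal _ _ h01 _ hx0 _ hx1, hD.orthogonal _ _ h02 _ hx0 _ hx2,
      hD.orthogonal _ _ h12 _ hx1 _ hx2]
    linear_combination h2
  refine H9.exists_between (M := Geo.quadSimilarityGroup Q) (inf_le_left.trans hle)
    (H9.not_sp_le_quad (by omega) h2 hQ hp) (g := H9.tS (x0 + x1 + x2) 1) ⟨1, fun v => ?_⟩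
    (H9.tS_mem _ _) ?_
  · rw [H9.tS_mulVec, hadd, hQ.smul, hw, H9.bil_smul_right hf, Units.val_one]
    linear_combination (sympForm m F v (x0 + x1 + x2)) ^ 2 * h2
  · intro hg
    obtain ⟨σ, hσ⟩ := H99.mem_of_decStab hg
    obtain ⟨y, hy, hxy⟩ := (hD.nondegenerate i0 x0 hx0 hx0').1
    have h1 := hσ i0 y hy
    rw [H9.tS_mulVec, hf.add_right, hf.add_right, hD.orthogonal _ _ h01 _ hy _ hx1,
      hD.orthogonal _ _ h02 _ hy _ hx2, H9.eq_one_of_card_two hq hxy] at h1
    by_cases hl : i1 = σ i0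
    · have h3 := d.ne (hl ▸ h12.symm : i2 ≠ σ i0) h1
      simp [d.ne h02.symm hy, d.ne h02.symm hx0, d.ne h12.symm hx1, d.self hx2, hx2'] at h3
    · have h3 := d.ne hl h1
      simp [d.ne h01.symm hy, d.ne h01.symm hx0, d.ne h12 hx2, d.self hx1, hx1'] at h3

end Cfsg.Agent.S5648
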