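import Cfsg.Statements.S5649
import Cfsg.Agent.H27.SkHInst
import Cfsg.Agent.H27.SkHPair

set_option autoImplicit false
open Cfsg

namespace Cfsg.Agent.S5649

/-- For a finite field F of odd order and m ≥ 7, let D be a decomposition of F^(2m) into two complementary subspaces of dimension m on each of which the standard alternating form vanishes identically. Then the elements of Sp_2m(F) preserving or interchanging the two subspaces form a maximal subgroup of Sp_2m(F). -/
theorem result {F : Type*} [Field F] [Fintype F] (m : ℕ) (hm : 7 ≤ m) (hodd : Odd (Fintype.card F)) (D : Fin 2 → Submodule F (Fin m ⊕ Fin m → F)) (hD : Cfsg.Geo.IsMDecomposition m D) (hts : ∀ i, Cfsg.Geo.IsTotallySingularFor (Cfsg.sympForm m F) (D i)) : Cfsg.Geo.IsMaximalIn (Cfsg.spGL m F) (Cfsg.Geo.decompositionStabilizer D ⊓ Cfsg.spGL m F) := by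
  obtain ⟨d⟩ := Cfsg.Agent.H27.exists_dec hD.indep hD.iSup_eq_top
  have h2 : (2 : F) ≠ 0 := by
    refine Ring.two_ne_zero fun h => ?_
    have := FiniteField.even_card_of_char_two h
    rw [Nat.odd_iff] at hodd
    omega
  have := Cfsg.Agent.H27.isMaximalIn_comap (Cfsg.Agent.H27.toLE (Fin m ⊕ Fin m) F)
    (Cfsg.Agent.H27.skH_symp.isMaximalIn_pair d (fun i x hx y hy => by
      rw [Cfsg.Agent.H27.sympBilin_apply]; exact hts i x hx y hy)
      (fun t _ => ⟨t / 2, by rw [RingHom.id_apply]; field_simp; ring⟩) hD.finrank_eq (by omega))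
  rwa [Subgroup.comap_inf, Cfsg.Agent.H27.comap_GG_symp, Cfsg.Agent.H27.comap_dstab] at this

end Cfsg.Agent.S5649
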