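import Cfsg.Statements.S5650
import Cfsg.Agent.H77.SubInst

set_option autoImplicit false
open Cfsg

namespace Cfsg.Agent.S5650

open Cfsg.Agent.H77 Cfsg.Agent.H27

/-- For a finite field F, a subfield F₀ with |F| = |F₀| ^ r for a prime r, and m ≥ 7, let P be an invertible matrix and ζ a non-zero scalar such that ζ times the standard alternating form takes values in F₀ on the F₀-span of the columns of P. Then the elements of Sp_2m(F) lying in the subfield group of P (the conjugate by P of the product of GL_2m(F₀) with the scalars) form a maximal subgroup of Sp_2m(F). -/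
theorem result {F : Type*} [Field F] [Fintype F] (m : ℕ) (hm : 7 ≤ m) (F₀ : Subfield F) (r : ℕ) (hr : r.Prime) (hcard : Fintype.card F = Nat.card F₀ ^ r) (P : Matrix.GeneralLinearGroup (Fin m ⊕ Fin m) F) (ζ : F) (hζ : ζ ≠ 0) (hP : Cfsg.Geo.IsFormRationalStructure (Cfsg.sympForm m F) F₀ ζ P) : Cfsg.Geo.IsMaximalIn (Cfsg.spGL m F) (Cfsg.Geo.subfieldSubgroup F₀ P ⊓ Cfsg.spGL m F) := by
  let B : (Fin m ⊕ Fin m → F) →ₗ[F] (Fin m ⊕ Fin m → F) →ₗ[F] F := ζ • sympBilin m F
  have hB : ∀ x y, B x y = ζ * sympBilin m F x y := fun _ _ => rfl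
  have hA : ∀ x, B x x = 0 := fun x => by rw [hB, sympBilin_isAlt x, mul_zero]
  have hnd : ∀ x, (∀ y, B x y = 0) → x = 0 := fun x h =>
    sympBilin_nondegenerate.1 x fun y => (mul_eq_zero.mp (h y)).resolve_left hζ
  have hK : ∀ x y, B (jP F₀ P x) (jP F₀ P y) ∈ F₀ := fun x y => by
    rw [hB, sympBilin_apply]
    exact hP _ _ (fun i => (x i).2) fun i => (y i).2
  refine isMaximalIn_subfield (G := GG B) (by rw [GG, Iso_smul hζ hB]; exact comap_GG_symp)
    fun N hN => maximal_skew (B₀ := formK (jP F₀ P) B (RingHom.id F₀) (fun _ => rfl) hK)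
      (skH_alt hA hnd) (rs_jP F₀ P) (fun _ => rfl) (fun _ _ => rfl)
      (solv_alt (fun x => Subtype.ext (hA _)) 5) (by simp; omega) hN
      (subfield_ne_top hr hcard) (subring_dichotomy hr hcard)

end Cfsg.Agent.S5650
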