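import Cfsg.Statements.S5652
import Cfsg.Agent.H77.C8Orth
import Cfsg.Agent.H27.WittFam
import Cfsg.Agent.H27.SpGen
import Cfsg.Agent.H27.SpPrim

set_option autoImplicit false
open Cfsg

namespace Cfsg.Agent.S5652

open Cfsg.Agent.H77 Cfsg.Agent.H27 QuadraticMap Module

theorem all_tv {F V : Type*} [Field F] [Finite F] [AddCommGroup V] [Module F V]
    [FiniteDimensional F V] (h2 : (2 : F) = 0) {Q : QuadraticForm F V}
    (h : RF (σ := RingHom.id F) (polarBilin Q)) (hn : 7 ≤ finrank F V)
    {H : Subgroup (V ≃ₗ[F] V)} (hO : ∀ g : V ≃ₗ[F] V, (∀ x, Q (g x) = Q x) → g ∈ H)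
    (hH : ∀ g ∈ H, ∀ x y, polarBilin Q (g x) (g y) = polarBilin Q x y)
    {g : V ≃ₗ[F] V} (hg : g ∈ H) (hg' : ¬ ∀ x, Q (g x) = Q x) (v : V) :
    T1 H v (polarBilin Q v) := by
  have hself : ∀ x, polarBilin Q x x = 0 := fun x => by
    rw [polarBilin_apply_apply, polar_self_eq, h2, zero_mul]
  have hq : ∀ w x, Q (x + polarBilin Q w x • w) = Q x + polarBilin Q w x ^ 2 * (1 + Q w) := by
    intro w x
    rw [quad_add_smul, polarBilin_apply_apply, polar_comm Q x w]; ring
  have h1 : ∀ u, Q u = 1 → T1 H u (polarBilin Q u) := fun u hu =>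
    t1_of_tv (hself u) (hO _ fun x => by rw [tv_apply, hq, hu, one_add_one_eq_two, h2]; simp)
  have hc : ∀ k ∈ H, ∀ u, T1 H u (polarBilin Q u) → T1 H (k u) (polarBilin Q (k u)) := by
    intro k hk u hu
    refine T1.of_conj hk ?_
    rwa [show polarBilin Q (k u) ∘ₗ (k : V →ₗ[F] V) = polarBilin Q u from
      LinearMap.ext fun x => hH k hk u x]
  obtain ⟨u, hu, hgu⟩ : ∃ u, Q u = 1 ∧ Q (g u) ≠ 1 := by
    by_contra hc
    push Not at hc
    have h3 : ∀ x, Q x ≠ 0 → Q (g x) = Q x := by
      intro x hx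
      obtain ⟨t, ht⟩ := exists_sq_eq_of_two_eq_zero h2 (Q x)⁻¹
      have h4 := hc (t • x) (by rw [quad_smul, ← ht, inv_mul_cancel₀ hx])
      rw [map_smul, quad_smul, ← ht] at h4
      rw [← mul_inv_cancel_left₀ hx (Q (g x)), h4, mul_one]
    apply hg'
    intro x
    by_cases hx : Q x = 0
    · obtain ⟨y, hy, h4⟩ := solv_quad_val h (k := 1) (by omega) 1 [x] le_rfl 0
      have h5 : polar Q x y = 0 := by simpa using h4 x (by simp)
      have h6 := h3 (x + y) (by rw [quad_add, hx, hy, h5]; simp)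
      have h7 := hH g hg x y
      rw [polarBilin_apply_apply, polarBilin_apply_apply] at h7
      rw [map_add, quad_add, quad_add, h7, hc y hy, hy] at h6
      simpa using h6
    · exact h3 x hx
  have hw := hc g hg u (h1 u hu)
  have hw0 : g u ≠ 0 := by
    intro h0
    rw [g.map_eq_zero_iff.mp h0] at hu
    simp at hu
  set w := g u
  by_cases hv : v = 0
  · rw [hv]; exact t1_zero_left _
  have hd : 1 + Q w ≠ 0 := fun h0 => hgu (by linear_combination h0 - h2)
  obtain ⟨β, hβ⟩ := exists_sq_eq_of_two_eq_zero h2 ((Q v - 1) / (1 + Q w))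
  obtain ⟨y, hy, -, h4⟩ := (solv_quad_val h (k := 1) (by omega) 1).one h (l := []) (a := w)
    (by rwa [mem_sp_nil]) β (by simp)
  obtain ⟨k, hk, hkf⟩ := hw.exists
  have h5 : Q (k y) = Q v := by
    rw [hkf, hq, hy, h4, ← hβ]; field_simp; ring
  have h6 : k y ≠ 0 := by
    intro h0
    rw [k.map_eq_zero_iff.mp h0] at hy
    simp at hy
  obtain ⟨e, he, he'⟩ := witt_quad_family Q h.nd (u := ![k y]) (v := ![v])
    (linearIndependent_unique_iff.mpr (by simpa using h6))
    (linearIndependent_unique_iff.mpr (by simpa using hv))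
    (fun i => by fin_cases i; exact h5) (fun i j hij => absurd (Subsingleton.elim i j) hij)
  have h7 : e (k y) = v := he' 0
  rw [← h7]
  exact hc e (hO e he) _ (hc k hk y (h1 y hy))


/-- For a finite field F of characteristic two and m ≥ 7, let Q be a non-degenerate quadratic form on F^(2m) whose polar form is the standard alternating form. Then the elements of Sp_2m(F) that are similarities of Q (they are exactly the isometries of Q) form a maximal subgroup of Sp_2m(F). -/
theorem result {F : Type*} [Field F] [Fintype F] (m : ℕ) (hm : 7 ≤ m) (heven : ¬ Odd (Fintype.card F)) (Q : (Fin m ⊕ Fin m → F) → F) (hQ : Cfsg.Geo.IsNondegenerateQuadraticForm Q) (hpol : ∀ u v, QuadraticMap.polar Q u v = Cfsg.sympForm m F u v) : Cfsg.Geo.IsMaximalIn (Cfsg.spGL m F) (Cfsg.Geo.quadSimilarityGroup Q ⊓ Cfsg.spGL m F) := by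
  have h2 : (2 : F) = 0 := by
    by_contra h
    exact heven (Nat.odd_iff.mpr (card_mod_two_of_two_ne_zero h))
  have hR := rf_toQF hQ
  have hB : ∀ x y, polarBilin (toQF hQ) x y = sympForm m F x y := hpol
  have hn : 7 ≤ finrank F (Fin m ⊕ Fin m → F) := by simp; omega
  have hspT : ∀ (w : Fin m ⊕ Fin m → F) (t : F) (x : Fin m ⊕ Fin m → F),
      toLE _ F (spToSpGL (spT w (t ^ 2))).1 x = x + polarBilin (toQF hQ) (t • w) x • t • w := by
    intro w t x
    refine (spT_mulVec w (t ^ 2) x).trans ?_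
    rw [hB, sympForm_smul_left, smul_smul, sympForm_neg_comm w x]
    congr 2
    linear_combination (t ^ 2 * sympForm m F x w) * h2
  refine isMaximalIn_of inf_le_right ?_ fun M hM hM' g hg hg' => ?_
  · obtain ⟨w, hw, -, hw0⟩ := exists_singular_perp (toQF hQ) [] [] (by simp; omega)
    rw [mem_sp_nil] at hw0
    refine ⟨_, (spToSpGL (spT w (1 ^ 2))).2, fun h => ?_⟩
    obtain ⟨c, hc⟩ := h.1
    have hc' : ∀ x, toQF hQ (x + polarBilin (toQF hQ) w x • w) = c * toQF hQ x := fun x => by
      have := hspT w 1 x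
      rw [one_smul] at this
      rw [← this]; exact hc x
    obtain ⟨y, hy, -, h4⟩ := (solv_quad_val hR (k := 1) (by omega) 0).one hR (l := []) (a := w)
      (by rwa [mem_sp_nil]) 1 (by simp)
    have := hc' y
    rw [quad_add_smul, h4, hy, hw, polar_comm, ← polarBilin_apply_apply, h4] at this
    simp at this
  · have key := all_tv h2 hR hn (H := M.map (toLE (Fin m ⊕ Fin m) F : GL (Fin m ⊕ Fin m) F →* _)) (fun e he => by
      obtain ⟨A, rfl⟩ := (toLE _ F).surjective e
      refine ⟨A, hM ⟨⟨1, fun v => by rw [Units.val_one, one_mul]; exact he v⟩, fun u v => ?_⟩, rfl⟩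
      rw [← hB, ← hB]
      exact polar_eq_of_quad_eq (toQF hQ) (toQF hQ) (toLE _ F A : _ →ₗ[F] _) he u v)
      (by
        rintro _ ⟨A, hA, rfl⟩ x y
        rw [hB, hB]
        exact hM' hA x y) ⟨g, hg, rfl⟩
      (fun h => hg' ⟨⟨1, fun v => by rw [Units.val_one, one_mul]; exact h v⟩, hM' hg⟩)
    have h3 := sp_eq_top_of_spT_mem (M.comap (Matrix.symplecticGroup (Fin m) F).subtype.toHomUnits)
      (fun w c => by
        obtain ⟨t, rfl⟩ := exists_sq_eq_of_two_eq_zero h2 c
        obtain ⟨A, hA, hA'⟩ := Has.mem (key (t • w)) (hspT w t)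
        rw [Subgroup.mem_comap]
        have := (toLE _ F).injective hA'
        rw [this] at hA
        exact hA)
    intro A hA
    have h4 : (⟨A.1, mem_sp_iff.mpr hA⟩ : Matrix.symplecticGroup (Fin m) F) ∈
        M.comap (Matrix.symplecticGroup (Fin m) F).subtype.toHomUnits := by rw [h3]; trivial
    rw [Subgroup.mem_comap] at h4
    convert h4 using 1
    exact Units.ext rfl

end Cfsg.Agent.S5652
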