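import Cfsg.Statements.S5654
import Cfsg.Agent.H27.SUDec

set_option autoImplicit false
open Cfsg

namespace Cfsg.Agent.S5654

/-- Let F be the field with q² elements and n ≥ 13. In SU_n(q) (determinant-one isometries of the standard unitary form on F^n) the stabiliser of a non-zero subspace W on which the form is non-degenerate and with 2 dim W < n is a maximal subgroup. -/
theorem result {F : Type*} [Field F] [Fintype F] (n q : ℕ) (hF : Fintype.card F = q ^ 2) (hn : 13 ≤ n) (W : Submodule F (Fin n → F)) (hW0 : W ≠ ⊥) (hW : Cfsg.Geo.IsNondegenerateOn (Cfsg.hermForm n F q) W) (hdim : 2 * Module.finrank F W < n) : Cfsg.Geo.IsMaximalIn (Cfsg.GU n F q ⊓ Cfsg.Geo.specialLinear (Fin n) F) (Cfsg.Geo.subspaceStabilizer W ⊓ (Cfsg.GU n F q ⊓ Cfsg.Geo.specialLinear (Fin n) F)) := by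
  haveI : Fact (Fintype.card F = q ^ 2) := ⟨hF⟩
  obtain ⟨ζ, h0, hζ⟩ := Cfsg.Agent.H10.exists_skew F q
  have := Cfsg.Agent.H27.isMaximalIn_comap (Cfsg.Agent.H27.toLE (Fin n) F)
    ((Cfsg.Agent.H27.uH_su (n := n) (by omega) h0 hζ).isMaximalIn_stab hW0 (fun x hx h => by
        by_contra h1
        obtain ⟨y, hy, hy'⟩ := (hW x hx h1).1
        exact hy' ((Cfsg.Agent.H27.suB_eq_zero h0).1 (h y hy))) (by simpa using hdim)
      (by simp; omega))
  rwa [Subgroup.comap_inf, Cfsg.Agent.H27.comap_GG_su h0, Cfsg.Agent.H27.comap_stab] at this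

end Cfsg.Agent.S5654
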