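import Cfsg.Statements.S5657
import Cfsg.Agent.H27.SkHInst
import Cfsg.Agent.H27.SkHPair

set_option autoImplicit false
open Cfsg

namespace Cfsg.Agent.S5657

/-- Let F be the field with q² elements and n = 2k ≥ 13. Let D be a decomposition of F^n into two complementary subspaces of dimension k on each of which the standard unitary form vanishes identically. Then the elements of SU_n(q) preserving or interchanging the two subspaces form a maximal subgroup of SU_n(q). -/
theorem result {F : Type*} [Field F] [Fintype F] (n q : ℕ) (hF : Fintype.card F = q ^ 2) (hn : 13 ≤ n) (k : ℕ) (hk : 2 * k = n) (D : Fin 2 → Submodule F (Fin n → F)) (hD : Cfsg.Geo.IsMDecomposition k D) (hts : ∀ i, Cfsg.Geo.IsTotallySingularFor (Cfsg.hermForm n F q) (D i)) : Cfsg.Geo.IsMaximalIn (Cfsg.GU n F q ⊓ Cfsg.Geo.specialLinear (Fin n) F) (Cfsg.Geo.decompositionStabilizer D ⊓ (Cfsg.GU n F q ⊓ Cfsg.Geo.specialLinear (Fin n) F)) := by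
  haveI : Fact (Fintype.card F = q ^ 2) := ⟨hF⟩
  obtain ⟨d⟩ := Cfsg.Agent.H27.exists_dec hD.indep hD.iSup_eq_top
  obtain ⟨ζ, h0, hζ⟩ := Cfsg.Agent.H10.exists_skew F q
  have := Cfsg.Agent.H27.isMaximalIn_comap (Cfsg.Agent.H27.toLE (Fin n) F)
    ((Cfsg.Agent.H27.skH_su (n := n) (by omega) h0 hζ).isMaximalIn_pair d (fun i x hx y hy =>
      (Cfsg.Agent.H27.suB_eq_zero h0).2 (hts i y hy x hx))
      (fun t ht => (Cfsg.Agent.H10.exists_trace_eq ht).imp fun _ h => h.symm) hD.finrank_eq
      (by omega))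
  rwa [Subgroup.comap_inf, Cfsg.Agent.H27.comap_GG_su h0, Cfsg.Agent.H27.comap_dstab] at this

end Cfsg.Agent.S5657
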