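import Cfsg.Statements.S5658
import Cfsg.Agent.H77.SubInst

set_option autoImplicit false
open Cfsg

namespace Cfsg.Agent.S5658

open Cfsg.Agent.H77 Cfsg.Agent.H27 Cfsg.Agent.H10

/-- Let F be the field with q² elements, n ≥ 13, and F₀ a subfield with |F| = |F₀| ^ r for an odd prime r. Let P be an invertible matrix such that the standard unitary form takes values in F₀ on the F₀-span of the columns of P. Then the elements of SU_n(q) lying in the subfield group of P (the conjugate by P of the product of GL_n(F₀) with the scalars) form a maximal subgroup of SU_n(q). -/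
theorem result {F : Type*} [Field F] [Fintype F] (n q : ℕ) (hF : Fintype.card F = q ^ 2) (hn : 13 ≤ n) (F₀ : Subfield F) (r : ℕ) (hr : r.Prime) (hro : Odd r) (hcard : Fintype.card F = Nat.card F₀ ^ r) (P : Matrix.GeneralLinearGroup (Fin n) F) (hP : Cfsg.Geo.IsFormRationalStructure (Cfsg.hermForm n F q) F₀ 1 P) : Cfsg.Geo.IsMaximalIn (Cfsg.GU n F q ⊓ Cfsg.Geo.specialLinear (Fin n) F) (Cfsg.Geo.subfieldSubgroup F₀ P ⊓ (Cfsg.GU n F q ⊓ Cfsg.Geo.specialLinear (Fin n) F)) := by
  haveI : Fact (Fintype.card F = q ^ 2) := ⟨hF⟩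
  have hd := subring_dichotomy hr hcard
  obtain ⟨e, heK, he⟩ : ∃ e ∈ F₀, H10.cj F q e ≠ e := by
    by_contra hc
    push Not at hc
    obtain ⟨θ, hθ⟩ := exists_cj_ne (F := F) (q := q)
    have h1 := Nat.card_le_card_of_surjective (fun x : F₀ × F₀ => (x.1 : F) + x.2 * θ) fun x => by
      obtain ⟨a, b, h⟩ := fix_decomp H10.cj_cj hθ hc hd x
      exact ⟨(a, b), h.symm⟩
    rw [Nat.card_prod, Nat.card_eq_fintype_card, hcard, ← pow_two,
      Nat.pow_le_pow_iff_right (Finite.one_lt_card (α := F₀))] at h1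
    have := hr.two_le
    obtain rfl : r = 2 := by omega
    exact absurd hro (by decide)
  set ζ := e - H10.cj F q e with hζ
  have hζ0 : ζ ≠ 0 := sub_ne_zero.mpr he.symm
  have hζ1 : H10.cj F q ζ = -ζ := by rw [hζ, map_sub, H10.cj_cj]; ring
  have hK : ∀ x y, suB n q ζ (jP F₀ P x) (jP F₀ P y) ∈ F₀ := fun x y =>
    F₀.mul_mem (F₀.sub_mem heK (F₀.pow_mem heK q))
      (by simpa [jP_apply] using hP _ _ (fun i => (y i).2) fun i => (x i).2)
  let σ₀ : F₀ →+* F₀ := (H10.cj F q).restrict F₀ F₀ fun x hx => F₀.pow_mem hx q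
  have hS := skH_su (n := n) (by omega) hζ0 hζ1
  have hinv : ∀ a, σ₀ (σ₀ a) = a := fun a => Subtype.ext (H10.cj_cj (q := q) a.1)
  exact isMaximalIn_subfield (comap_GG_su hζ0)
    fun N hN => maximal_skew (B₀ := formK (jP F₀ P) (suB n q ζ) σ₀ (fun _ => rfl) hK)
      hS (rs_jP F₀ P) hinv (fun _ _ => rfl)
      (solv_skew (rf_of_rs (rs_jP F₀ P) (rf_of_skH hS) hinv fun _ _ => rfl)
        (fun x y => Subtype.ext (hS.skew _ _))
        (fun h => he (congrArg Subtype.val (RingHom.congr_fun h ⟨e, heK⟩))) (by simp; omega))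
      (by simp; omega) hN (subfield_ne_top hr hcard) hd

end Cfsg.Agent.S5658
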