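import Cfsg.Statements.S5659
import Cfsg.Agent.H77.SubInst

set_option autoImplicit false
open Cfsg

namespace Cfsg.Agent.S5659

open Cfsg.Agent.H77 Cfsg.Agent.H27 Cfsg.Agent.H10

/-- Let F be the field with q² elements, q odd, n ≥ 13, and F₀ the subfield with q elements. Let P be an invertible matrix such that the standard unitary form takes values in F₀ on the F₀-span of the columns of P (so it restricts to a non-degenerate symmetric bilinear form there). Then the elements of SU_n(q) lying in the subfield group of P form a maximal subgroup of SU_n(q). -/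
theorem result {F : Type*} [Field F] [Fintype F] (n q : ℕ) (hF : Fintype.card F = q ^ 2) (hn : 13 ≤ n) (hodd : Odd q) (F₀ : Subfield F) (hcard : Fintype.card F = Nat.card F₀ ^ 2) (P : Matrix.GeneralLinearGroup (Fin n) F) (hP : Cfsg.Geo.IsFormRationalStructure (Cfsg.hermForm n F q) F₀ 1 P) : Cfsg.Geo.IsMaximalIn (Cfsg.GU n F q ⊓ Cfsg.Geo.specialLinear (Fin n) F) (Cfsg.Geo.subfieldSubgroup F₀ P ⊓ (Cfsg.GU n F q ⊓ Cfsg.Geo.specialLinear (Fin n) F)) := by
  haveI : Fact (Fintype.card F = q ^ 2) := ⟨hF⟩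
  have hd := subring_dichotomy Nat.prime_two hcard
  have h2 : (2 : F) ≠ 0 := two_ne_zero_of_odd_card (hF ▸ hodd.pow)
  have hfix : ∀ c ∈ F₀, H10.cj F q c = c := fun c hc => by
    haveI := Fintype.ofFinite F₀
    have hq : Fintype.card F₀ = q := by
      rw [← Nat.card_eq_fintype_card]
      exact Nat.pow_left_injective two_ne_zero (hcard.symm.trans hF)
    exact congrArg Subtype.val (hq ▸ FiniteField.pow_card (⟨c, hc⟩ : F₀))
  obtain ⟨θ, hθ⟩ := exists_cj_ne (F := F) (q := q)
  obtain ⟨ζ, hζ0, hζ⟩ := exists_skew (F := F) (q := q)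
  have hS := skH_su (n := n) (by omega) hζ0 hζ
  have hK : ∀ x y, suB n q (1 : F) (jP F₀ P x) (jP F₀ P y) ∈ F₀ := fun x y =>
    hP _ _ (fun i => (y i).2) fun i => (x i).2
  let B₁ := formK (jP F₀ P) (suB n q (1 : F)) (RingHom.id F₀) (fun d => hfix d d.2) hK
  have hB₁ : ∀ x y, (B₁ x y : F) = hermForm n F q (jP F₀ P y) (jP F₀ P x) := fun x y => one_mul _
  have hs : ∀ x y, suB n q (2 : F) y x = -(-1) * H10.cj F q (suB n q (2 : F) x y) := fun x y => by
    rw [suB_apply, suB_apply, map_mul, cj_herm, map_ofNat]; ring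
  have hR : RF (suB n q (2 : F)) := ⟨H10.cj_cj,
    fun x h => eq_zero_of_herm_right (q := q) fun y => (suB_eq_zero h2).1 (h y),
    fun x y h => by rw [hs, h, map_zero, mul_zero]⟩
  have hB : ∀ x y, suB n q (2 : F) (jP F₀ P x) (jP F₀ P y) =
      QuadraticMap.polarBilin (LinearMap.BilinMap.toQuadraticMap B₁) x y := fun x y => by
    rw [QuadraticMap.polarBilin_apply_apply, LinearMap.BilinMap.polar_toQuadraticMap,
      Subfield.coe_add, ← hfix _ (B₁ y x).2, hB₁, hB₁, cj_herm, suB_apply, two_mul]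
  have hQ : ∀ x, LinearMap.BilinMap.toQuadraticMap B₁ x = 0 →
      suB n q (2 : F) (jP F₀ P x) (jP F₀ P x) = 0 := fun x hx => by
    rw [suB_apply, ← hB₁, show B₁ x x = 0 from hx]; simp
  have E := ec_quad (G := GG (suB n q (2 : F))) (rs_jP F₀ P) hR hB (Or.inr rfl) hs
    (by simpa using hn) (fun g hg => hg.1) fun a b ha hb hab =>
      has_Ef_GG H10.cj_cj (Or.inr rfl) hs (hQ a ha) (hQ b hb) (by rw [hB, hab]; rfl)
  have hG : GG (suB n q (2 : F)) = GG (suB n q ζ) := by
    rw [GG, GG, Iso_smul (B := suB n q (2 : F)) (div_ne_zero hζ0 h2) (B' := suB n q ζ) fun x y => by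
      rw [suB_apply, suB_apply]; field_simp]
  refine isMaximalIn_subfield (comap_GG_su h2) fun N hN => E.maximal hN
    (subfield_ne_top Nat.prime_two hcard)
    (fun θ a b ha hb hab => has_Ef_GG H10.cj_cj (Or.inr rfl) hs (hQ a ha) (by simp [hQ b hb])
      (by simp [E.z hab])) hd
    (fun H _ E' _ h g hg => E'.nr_of_deg_two h (by simp; omega)
      ((rs_jP F₀ P).deg_two (fix_decomp H10.cj_cj hθ hfix hd)) hg) fun H _ E' _ h => ?_
  rw [hG]
  refine hS.gen H fun v hv t ht => ?_
  have := E'.all_tv h (fun u hu => E'.tv_of_full h θ hu)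
    (norm_span H10.cj_cj (by rw [neg_one_mul, neg_add_eq_sub]; exact sub_ne_zero.mpr hθ)
      (by rw [map_add, map_mul, map_neg, map_one, H10.cj_cj]; ring))
    (v := v) ((suB_eq_zero h2).mpr ((suB_eq_zero hζ0).mp hv)) (t := t * ζ / 2)
    (by rw [map_div₀, map_mul, ht, hζ, map_ofNat]; ring)
  convert this using 1
  ext x
  simp only [LinearMap.comp_apply, LinearMap.smul_apply, suB_apply, smul_eq_mul]
  field_simp

end Cfsg.Agent.S5659
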