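import Cfsg.Statements.S5673
import Cfsg.Agent.H11.OOdd

set_option autoImplicit false
open Cfsg

namespace Cfsg.Agent.S5673

/-- Subgroup structure of the odd-dimensional orthogonal groups. Let F be a finite field of odd order and m ≥ 3, let Q be the standard quadratic form x₀² + Σ x_i y_i on F^(2m+1), and let Ω be the commutator subgroup of its isometry group, viewed inside GL_(2m+1)(F). Let H be a subgroup of Ω whose product with the scalar matrices in Ω is not all of Ω. Then either H is contained in a member of one of the geometric classes of subgroups of the isometry group (with the conditions built into InOrthogonalOddClass), or H is in the residual class: modulo scalars it is almost simple, and the perfect preimage of its socle acts absolutely irreducibly, is realisable over no proper subfield, and fixes no non-degenerate unitary form. -/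
theorem result {F : Type*} [Field F] [Fintype F] (hodd : Odd (Fintype.card F)) (m : ℕ) (hm : 3 ≤ m) (H : Subgroup (Matrix.GeneralLinearGroup (Unit ⊕ (Fin m ⊕ Fin m)) F)) (hH : H ≤ Cfsg.Geo.omegaGL (Cfsg.quadFormOdd m F)) (hproper : H ⊔ (Cfsg.Geo.scalars (Unit ⊕ (Fin m ⊕ Fin m)) F ⊓ Cfsg.Geo.omegaGL (Cfsg.quadFormOdd m F)) ≠ Cfsg.Geo.omegaGL (Cfsg.quadFormOdd m F)) : (∃ M : Subgroup (Matrix.GeneralLinearGroup (Unit ⊕ (Fin m ⊕ Fin m)) F), Cfsg.Geo.InOrthogonalOddClass m F M ∧ H ≤ M) ∨ Cfsg.Geo.InOrthogonalResidualClass H := by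
  have hI := hH.trans (H11.omegaGL_le _)
  refine (H11.odd_std_aschbacher hodd (by omega) hI).imp_left ?_
  rintro ⟨X, hX, hle⟩
  refine ⟨X ⊓ isometryGroup F (quadFormOdd m F), ?_, le_inf hle hI⟩
  cases hX with
  | sing W h0 hW => exact .inl ⟨W, h0, hW, rfl⟩
  | nondeg W h0 he hW h3 =>
    refine .inr (.inl ⟨W, h0, ?_, hW, rfl⟩)
    rintro rfl
    rw [finrank_top, H11.fr_eq, Nat.even_iff] at he
    simp at he
    omega
  | dec t k D hk h3 hD => exact .inr (.inr (.inl ⟨t, k, D, hk, hD, rfl⟩))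
  | frame t D hp hD => exact .inr (.inr (.inr (.inl ⟨t, D, hp, hD, rfl⟩)))
  | fld r K hr hn hK hs =>
    exact .inr (.inr (.inr (.inr (.inl ⟨r, K, hr, by simp at hn; omega, hK, hs, rfl⟩))))
  | tens a b e P f₁ f₂ ha hab h₁ h₂ hT =>
    exact .inr (.inr (.inr (.inr (.inr (.inl ⟨a, b, e, P, f₁, f₂, ha, hab, h₁, h₂, hT, rfl⟩)))))
  | sub F₀ r P hr hc hP =>
    exact .inr (.inr (.inr (.inr (.inr (.inr (.inl ⟨F₀, r, P, hr, hc, hP, rfl⟩))))))
  | wr k t e P f₁ hk ht h3 h₁ hT =>
    exact .inr (.inr (.inr (.inr (.inr (.inr (.inr ⟨k, t, e, P, f₁, hk, ht, h3, h₁, hT, rfl⟩))))))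

end Cfsg.Agent.S5673
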