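import Cfsg.Statements.S5674
import Cfsg.Agent.H27.OC1

set_option autoImplicit false
open Cfsg

namespace Cfsg.Agent.S5674

/-- Let F be a finite field of odd order, m ≥ 6, Q the standard quadratic form x₀² + Σ x_i y_i on F^(2m+1) and Ω the commutator subgroup of its isometry group inside GL_(2m+1)(F). The elements of Ω stabilising a non-zero subspace on which Q vanishes form a maximal subgroup of Ω. -/
theorem result {F : Type*} [Field F] [Fintype F] (hodd : Odd (Fintype.card F)) (m : ℕ) (hm : 6 ≤ m) (W : Submodule F (Unit ⊕ (Fin m ⊕ Fin m) → F)) (hW0 : W ≠ ⊥) (hW : Cfsg.Geo.IsTotallySingularQuad (Cfsg.quadFormOdd m F) W) : Cfsg.Geo.IsMaximalIn (Cfsg.Geo.omegaGL (Cfsg.quadFormOdd m F)) (Cfsg.Geo.subspaceStabilizer W ⊓ Cfsg.Geo.omegaGL (Cfsg.quadFormOdd m F)) := by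
  have e : Cfsg.quadFormOdd m F = Cfsg.Agent.H11.qOdd F m := funext (Cfsg.Agent.H11.qOdd_eq F m)
  rw [e] at hW ⊢
  have h := Cfsg.Agent.H11.nd_qOdd (F := F) (Cfsg.Agent.H11.two_ne_zero_iff_odd.2 hodd) m
  exact Cfsg.Agent.H27.isMaximalIn_omega (K := Cfsg.Agent.H27.stab W)
    (h.not_le_stab (by simp; omega) hW0 (h.ne_top_of_sing (by simp) hW))
    fun M hM hG g hg hg' => Cfsg.Agent.H27.OM_le_of_ts h (by simp; omega) hW
      (fun X _ hX => by simp at hX; omega) hM hG hg hg'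

end Cfsg.Agent.S5674
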