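import Cfsg.Statements.S5677
import Cfsg.Agent.H27.ODec3

set_option autoImplicit false
open Cfsg

namespace Cfsg.Agent.S5677

/-- Let F be a finite field of odd order q, m ≥ 6, Q the standard quadratic form on F^(2m+1) and Ω the commutator subgroup of its isometry group. Let D be a decomposition of F^(2m+1) into t ≥ 2 pairwise orthogonal, pairwise Q-isometric subspaces of equal dimension k > 1 on which the polar form is non-degenerate. Unless q = 3 and k = 3, the elements of Ω permuting the members of D form a maximal subgroup of Ω. -/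
theorem result {F : Type*} [Field F] [Fintype F] (hodd : Odd (Fintype.card F)) (m : ℕ) (hm : 6 ≤ m) {t : ℕ} (k : ℕ) (hk : 1 < k) (D : Fin t → Submodule F (Unit ⊕ (Fin m ⊕ Fin m) → F)) (hD : Cfsg.Geo.IsOrthogonalMDecomposition (Cfsg.quadFormOdd m F) k D) (hex : ¬ (Fintype.card F = 3 ∧ k = 3)) : Cfsg.Geo.IsMaximalIn (Cfsg.Geo.omegaGL (Cfsg.quadFormOdd m F)) (Cfsg.Geo.decompositionStabilizer D ⊓ Cfsg.Geo.omegaGL (Cfsg.quadFormOdd m F)) := by
  have e : Cfsg.quadFormOdd m F = Cfsg.Agent.H11.qOdd F m := funext (Cfsg.Agent.H11.qOdd_eq F m)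
  rw [e] at hD ⊢
  have h := Cfsg.Agent.H11.nd_qOdd (F := F) (Cfsg.Agent.H11.two_ne_zero_iff_odd.2 hodd) m
  have hn := Cfsg.Agent.H98.IsMDecomposition_mul_eq hD.decomp.decomp
  simp at hn
  have ho : Odd (t * k) := ⟨m, by omega⟩
  obtain ⟨⟨a, ha⟩, b, hb⟩ := Nat.odd_mul.1 ho
  refine Cfsg.Agent.H27.isMaximalIn_dec_of h (by simp; omega) hD fun M S d =>
    S.OM_le_dec3 hD (by omega) (by omega) (fun h3 => ⟨hodd, fun h4 => hex ⟨h4, h3⟩⟩) (by omega) d

end Cfsg.Agent.S5677
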