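import Cfsg.Statements.S5693
import Cfsg.Agent.H99.ONonMax

set_option autoImplicit false
open Cfsg

namespace Cfsg.Agent.S5693

/-- Let F be a finite field with q elements, n ≥ 13 even, Q a non-degenerate quadratic form on F^n of plus type (some subspace of dimension n/2 is totally singular), and Ω the commutator subgroup of the isometry group of Q, viewed inside GL_n(F). Let D be a decomposition of F^n into t ≥ 2 pairwise orthogonal, pairwise Q-isometric subspaces of equal dimension k on which the polar form is non-degenerate (with, for even k, all members of plus type or t even; for odd k, q odd and square discriminant), in one of the cases: k = 2 with q = 3; k = 2 with plus-type members and q ∈ {2, 4, 5}; k = 3 with q = 3; k = 4 with plus-type members and q = 2. Then the elements of Ω permuting the members of D form a subgroup that is not maximal: some subgroup lies strictly between it and Ω. -/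
theorem result {F : Type*} [Field F] [Fintype F] {n : ℕ} (hn : 13 ≤ n) (heven : Even n) (Q : (Fin n → F) → F) (hQ : Cfsg.Geo.IsNondegenerateQuadraticForm Q) (hplus : Cfsg.Geo.IsPlusTypeOn Q ⊤) {t : ℕ} (k : ℕ) (D : Fin t → Submodule F (Fin n → F)) (hD : Cfsg.Geo.IsOrthogonalMDecomposition Q k D) (hke : Even k → ((∀ i, Cfsg.Geo.IsPlusTypeOn Q (D i)) ∨ Even t)) (hko : Odd k → (Odd (Fintype.card F) ∧ Cfsg.Geo.HasSquareDiscriminant Q)) (hcase : ((k = 2 ∧ (Fintype.card F = 3 ∨ ((∀ i, Cfsg.Geo.IsPlusTypeOn Q (D i)) ∧ (Fintype.card F = 2 ∨ Fintype.card F = 4 ∨ Fintype.card F = 5)))) ∨ (k = 3 ∧ Fintype.card F = 3) ∨ (k = 4 ∧ Fintype.card F = 2 ∧ ∀ i, Cfsg.Geo.IsPlusTypeOn Q (D i)))) : ∃ K : Subgroup (Matrix.GeneralLinearGroup (Fin n) F), Cfsg.Geo.decompositionStabilizer D ⊓ Cfsg.Geo.omegaGL Q < K ∧ K < Cfsg.Geo.omegaGL Q := by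
  obtain ⟨Q, rfl⟩ := H99.exists_quadraticForm hQ
  have hN : Fintype.card (Fin n) = n := Fintype.card_fin _
  have h1 := H98.IsMDecomposition_mul_eq hD.decomp.decomp
  have ht := hD.decomp.decomp.two_le
  have fr : k = 2 → Odd (Fintype.card F) → (∀ v ∈ H99.lenSet Q D 1, ∀ w ∈ H99.lenSet Q D 1,
      QuadraticMap.polar Q v w = 0 ∨ w = v ∨ w = -v) → _ := fun a b c =>
    H99.between_of_frame hQ (H98.two_ne_zero_of_odd_card b) hD.decomp a.ge (by subst a; omega)
      one_ne_zero (fun i => by
        obtain ⟨v, h2, h3⟩ := H99.lenSet_nonempty hD.decomp a.ge 1 i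
        exact ⟨v, h2, h3.2⟩) c
  have th : k = 3 → Fintype.card F = 3 → ∃ K, Cfsg.Geo.decompositionStabilizer D ⊓
      Cfsg.Geo.omegaGL Q < K ∧ K < Cfsg.Geo.omegaGL Q := fun a b => by
    subst a
    obtain ⟨c, h2, h3, h4⟩ := H99.lenSet_three_three b hD
    exact H99.between_of_frame hQ (H98.two_ne_zero_of_odd_card (by rw [b]; decide)) hD.decomp
      (by omega) (by omega) h2 h3 h4
  have sm := fun (a : k = 2) (b : Fintype.card F < 4) c => H99.between_of_small_plus hQ
    (H99.sq_eq_one_of_card_le b) (a ▸ hD.decomp) (by subst a; omega) c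
  rcases hcase with ⟨rfl, hq | ⟨hp, hq | hq | hq⟩⟩ | ⟨a, b⟩ | ⟨rfl, hq, hp⟩
  · by_cases hp : Cfsg.Geo.IsPlusTypeOn Q (D ⟨0, by omega⟩)
    · exact sm rfl (by omega) fun i => H99.orthDec_same_type hD _ i hp
    · exact fr rfl (by rw [hq]; decide)
        (H99.lenSet_three hq hD.decomp fun i h => hp (H99.orthDec_same_type hD i _ h))
  · exact sm rfl (by omega) hp
  · exact H99.between_of_plus_four hQ hq hD.decomp (by omega) hp
  · exact fr rfl (by rw [hq]; decide) (H99.lenSet_five hq hD.decomp hp)
  · exact th a b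
  · exact H99.between_of_four_two hQ hq hD.decomp hp

end Cfsg.Agent.S5693
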