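import Cfsg.Statements.S5697
import Cfsg.Agent.H27.OPair

set_option autoImplicit false
open Cfsg

namespace Cfsg.Agent.S5697

/-- Let F be a finite field with q elements, n ≥ 13 even, Q a non-degenerate quadratic form on F^n of plus type (some subspace of dimension n/2 is totally singular), and Ω the commutator subgroup of the isometry group of Q, viewed inside GL_n(F). Suppose n/2 is even and let D be a decomposition of F^n into two complementary subspaces of dimension n/2 on each of which Q vanishes. Then the elements of Ω preserving or interchanging the two subspaces form a maximal subgroup of Ω. -/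
theorem result {F : Type*} [Field F] [Fintype F] {n : ℕ} (hn : 13 ≤ n) (heven : Even n) (Q : (Fin n → F) → F) (hQ : Cfsg.Geo.IsNondegenerateQuadraticForm Q) (hplus : Cfsg.Geo.IsPlusTypeOn Q ⊤) (k : ℕ) (hk : 2 * k = n) (hke : Even k) (D : Fin 2 → Submodule F (Fin n → F)) (hD : Cfsg.Geo.IsMDecomposition k D) (hts : ∀ i, Cfsg.Geo.IsTotallySingularQuad Q (D i)) : Cfsg.Geo.IsMaximalIn (Cfsg.Geo.omegaGL Q) (Cfsg.Geo.decompositionStabilizer D ⊓ Cfsg.Geo.omegaGL Q) := by
  obtain ⟨Q, rfl, h⟩ := Cfsg.Agent.H11.exists_qf hQ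
  obtain ⟨d⟩ := Cfsg.Agent.H27.exists_dec hD.indep hD.iSup_eq_top
  rw [← Cfsg.Agent.H27.comap_dstab]
  refine Cfsg.Agent.H27.isMaximalIn_omega ?_ fun M hM hG g hg hg' =>
    Cfsg.Agent.H27.OM_le_of_pair h d hts hD.finrank_eq hke (by omega) hM hG hg hg'
  rw [Cfsg.Agent.H27.comap_dstab]
  obtain ⟨u, hu, hu0⟩ := Submodule.exists_mem_ne_zero_of_ne_bot
    (Cfsg.Agent.H27.ne_bot_of_finrank_pos (W := D 0) (by rw [hD.finrank_eq]; omega))
  obtain ⟨y, hy, hy1, hy2⟩ := Cfsg.Agent.H27.exists_ker_list [Cfsg.Agent.H27.pB Q u] (W := D 1)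
    (S := ⊥) (by rw [hD.finrank_eq]; simp; omega)
  refine h.not_le_decStab_of (by simp; omega) hD.iSup_eq_top (hts 0 u hu) hu0 (hts 1 y hy)
    (by simpa using hy2) (hy1 _ (List.mem_singleton_self _)) fun i => ?_
  fin_cases i
  · exact Or.inl ((Cfsg.Agent.H9.mem_perp' _).2 fun w hw =>
      Cfsg.Agent.H27.pB_of_sing (hts 0) hw hu)
  · exact Or.inr ((Cfsg.Agent.H9.mem_perp' _).2 fun w hw =>
      Cfsg.Agent.H27.pB_of_sing (hts 1) hw hy)

end Cfsg.Agent.S5697
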