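import Cfsg.Statements.S5699
import Cfsg.Agent.H27.OGeoC

set_option autoImplicit false
open Cfsg

namespace Cfsg.Agent.S5699

/-- Let F be a finite field with q elements, n ≥ 13 even, Q a non-degenerate quadratic form on F^n (of either type), and Ω the commutator subgroup of the isometry group of Q, viewed inside GL_n(F). Let D be a decomposition of F^n into two orthogonal subspaces of odd dimension n/2 on which the polar form is non-degenerate and which are not Q-isometric to each other. Then the elements of Ω permuting (necessarily fixing) the two subspaces form a maximal subgroup of Ω. -/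
theorem result {F : Type*} [Field F] [Fintype F] {n : ℕ} (hn : 13 ≤ n) (heven : Even n) (Q : (Fin n → F) → F) (hQ : Cfsg.Geo.IsNondegenerateQuadraticForm Q) (k : ℕ) (hk : 2 * k = n) (hko : Odd k) (D : Fin 2 → Submodule F (Fin n → F)) (hD : Cfsg.Geo.IsNondegenerateMDecomposition (QuadraticMap.polar Q) k D) (hni : ¬ Cfsg.Geo.AreIsometricFor Q (D 0) (D 1)) : Cfsg.Geo.IsMaximalIn (Cfsg.Geo.omegaGL Q) (Cfsg.Geo.decompositionStabilizer D ⊓ Cfsg.Geo.omegaGL Q) := by
  obtain ⟨Q, rfl, h⟩ := Cfsg.Agent.H11.exists_qf hQ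
  obtain ⟨d⟩ := Cfsg.Agent.H27.exists_dec hD.decomp.indep hD.decomp.iSup_eq_top
  have o : Cfsg.Agent.H27.Orth (Cfsg.Agent.H27.pB Q) D := hD.orthogonal
  have hd := hD.decomp.finrank_eq
  refine Cfsg.Agent.H27.isMaximalIn_omega (K := Cfsg.Agent.H27.dstab D)
    (h.not_le_decStab (by simp; omega) hD) fun M hM hG g hg hg' => ?_
  have S : Cfsg.Agent.H27.OD Q D M := ⟨h, by simp; omega, o,
    fun g hg h => hM ⟨Cfsg.Agent.H27.mem_dstab_of_stab h, hg⟩, hG⟩
  refine S.OM_le_of_nd d (i := 1) (j := 0) (by decide) (by rw [hd]; omega)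
    (Cfsg.Agent.H27.irrOK_of_ne (Cfsg.Agent.H27.ndon_summand h d o 1) (by rw [hd]; omega)) hg
    (fun h1 => hg' (Cfsg.Agent.H27.mem_dstab_of_stab
      (Cfsg.Agent.H27.stab_of_stab h d o (hG hg) h1))) fun h1 => hni ?_
  exact ⟨LinearEquiv.ofSubmodules g _ _
    (Cfsg.Agent.H27.map_eq_of_mapsTo h1 (by rw [hd, hd])), fun w => hG hg w⟩

end Cfsg.Agent.S5699
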