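import Cfsg.Statements.S5778
import Cfsg.Agent.H10.UThreeD

set_option autoImplicit false
open Cfsg

namespace Cfsg.Agent.S5778

/-- Every maximal subgroup of SU_3(q), q ≥ 3, is of one of the listed geometric types or lies in the residual class. Let F be the field with q² elements, f the standard unitary form Σ u_i v_i^q on F^3, and H a maximal subgroup of SU_3(q) (the determinant-one isometries of f, inside GL_3(F)). Then H is the intersection with SU_3(q) of one of: the stabiliser of a non-zero subspace on which f vanishes; the stabiliser of a non-degenerate 1-space; for q ≠ 5, the stabiliser of a decomposition into three mutually orthogonal non-degenerate 1-spaces; for q ≠ 3, 5, the normaliser of an adjoint-closed degree-3 subfield of the matrix algebra; a subfield group of odd prime index whose F₀-structure carries f; for q odd, q ≥ 7, a subfield group of index 2 whose F₀-structure carries f; for q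 = p ≡ 2 mod 3 prime with p ≥ 11, the normaliser of an absolutely irreducible subgroup of order 27 with centre of order 3, exponent 3 and all characteristic abelian subgroups cyclic, contained in the similarity group of f — or else H lies in the residual class of the unitary case. -/
theorem result {F : Type*} [Field F] [Fintype F] (q : ℕ) (hF : Fintype.card F = q ^ 2) (hq : 3 ≤ q) (H : Subgroup (Matrix.GeneralLinearGroup (Fin 3) F)) (hH : Cfsg.Geo.IsMaximalIn (Cfsg.GU 3 F q ⊓ Cfsg.Geo.specialLinear (Fin 3) F) H) :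
    (∃ W : Submodule F (Fin 3 → F), W ≠ ⊥ ∧ Cfsg.Geo.IsTotallySingularFor (Cfsg.hermForm 3 F q) W ∧ H = Cfsg.Geo.subspaceStabilizer W ⊓ (Cfsg.GU 3 F q ⊓ Cfsg.Geo.specialLinear (Fin 3) F)) ∨
    (∃ W : Submodule F (Fin 3 → F), W ≠ ⊥ ∧ Cfsg.Geo.IsNondegenerateOn (Cfsg.hermForm 3 F q) W ∧ 2 * Module.finrank F W < 3 ∧ H = Cfsg.Geo.subspaceStabilizer W ⊓ (Cfsg.GU 3 F q ⊓ Cfsg.Geo.specialLinear (Fin 3) F)) ∨
    (q ≠ 5 ∧ ∃ D : Fin 3 → Submodule F (Fin 3 → F), Cfsg.Geo.IsNondegenerateMDecomposition (Cfsg.hermForm 3 F q) 1 D ∧ H = Cfsg.Geo.decompositionStabilizer D ⊓ (Cfsg.GU 3 F q ⊓ Cfsg.Geo.specialLinear (Fin 3) F)) ∨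
    (q ≠ 3 ∧ q ≠ 5 ∧ ∃ K : Subalgebra F (Matrix (Fin 3) (Fin 3) F), Cfsg.Geo.IsFieldSubalgebra 3 K ∧ Cfsg.Geo.IsAdjointClosedFor (Cfsg.hermForm 3 F q) K ∧ H = Cfsg.Geo.subalgebraNormalizer K ⊓ (Cfsg.GU 3 F q ⊓ Cfsg.Geo.specialLinear (Fin 3) F)) ∨
    (∃ (F₀ : Subfield F) (r : ℕ) (P : Matrix.GeneralLinearGroup (Fin 3) F), r.Prime ∧ Odd r ∧ Fintype.card F = Nat.card F₀ ^ r ∧ Cfsg.Geo.IsFormRationalStructure (Cfsg.hermForm 3 F q) F₀ 1 P ∧ H = Cfsg.Geo.subfieldSubgroup F₀ P ⊓ (Cfsg.GU 3 F q ⊓ Cfsg.Geo.specialLinear (Fin 3) F)) ∨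
    (Odd q ∧ 7 ≤ q ∧ ∃ (F₀ : Subfield F) (P : Matrix.GeneralLinearGroup (Fin 3) F), Fintype.card F = Nat.card F₀ ^ 2 ∧ Cfsg.Geo.IsFormRationalStructure (Cfsg.hermForm 3 F q) F₀ 1 P ∧ H = Cfsg.Geo.subfieldSubgroup F₀ P ⊓ (Cfsg.GU 3 F q ⊓ Cfsg.Geo.specialLinear (Fin 3) F)) ∨
    (∃ (p : ℕ) (R : Subgroup (Matrix.GeneralLinearGroup (Fin 3) F)), p.Prime ∧ q = p ∧ p % 3 = 2 ∧ 11 ≤ p ∧ Cfsg.Geo.IsSymplecticTypeGroup 3 R ∧ Cfsg.Geo.ActsAbsolutelyIrreducibly (Cfsg.Geo.matrixSet R) ∧ R ≤ Cfsg.Geo.similarityGroup (Cfsg.hermForm 3 F q) ∧ Nat.card R = 27 ∧ Nat.card (Subgroup.center R) = 3 ∧ H = Cfsg.Geo.subgroupNormalizer R ⊓ (Cfsg.GU 3 F q ⊓ Cfsg.Geo.specialLinear (Fin 3) F)) ∨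
    Cfsg.Geo.InUnitaryResidualClass H := by
  haveI : Fact (Fintype.card F = q^2) := ⟨hF⟩
  have hp7 : Nat.Prime 3 := by norm_num
  rcases H10.max_cases (q := q) (by norm_num) (by omega) hH with h | h |
    ⟨t, k, D, h1, h2, hD, h⟩ | ⟨k, D, h1, -⟩ | ⟨r, K, hr, -, h1, hK, h⟩ |
    ⟨a, b, e, P, f₁, f₂, h1, h2, h3, -⟩ | h | ⟨h, -⟩ | ⟨ho, F₀, P, h1, h2, h⟩ |
    ⟨r, R, p, a, k, hR, hi, hs, hrp, hp, hc, ha, hq', h1, h2, h⟩ |
    ⟨k, t, e, P, f₁, h1, -, h2, -⟩ | h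
  · exact Or.inl h
  · exact Or.inr (Or.inl h)
  · obtain ⟨rfl, rfl⟩ := H10.mul_cases_prime hp7 h1 h2
    exact Or.inr (Or.inr (Or.inl ⟨fun h5 =>
      H10.frame_three_five h5 hH hD (h.le.trans inf_le_left), D, hD, h⟩))
  · omega
  · obtain rfl := (Nat.prime_dvd_prime_iff_eq hr hp7).1 h1
    have h3 := fun h5 => H10.singer_three h5 hH hK h.1 (h.2.le.trans inf_le_left)
    exact Or.inr (Or.inr (Or.inr (Or.inl ⟨fun h5 => h3 (Or.inl h5), fun h5 => h3 (Or.inr h5),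
      K, hK, h⟩)))
  · obtain ⟨rfl, rfl⟩ := H10.mul_cases_prime hp7 h1 h2
    omega
  · iterate 4 right
    exact Or.inl h
  · exact absurd h (by decide)
  · by_cases h3 : q = 3
    · exact Or.inr (Or.inr (Or.inl ⟨by omega,
        H10.real_three_three h3 hH h1 h2 (h.le.trans inf_le_left)⟩))
    have h5 : q ≠ 5 := fun h5 => H10.real_three_five h5 hH h1 h2 (h.le.trans inf_le_left)
    iterate 5 right
    refine Or.inl ⟨ho, ?_, F₀, P, h1, h2, h⟩
    obtain ⟨m, rfl⟩ := ho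
    omega
  · obtain rfl := H10.eq_of_prime_eq_pow hp7 h1
    iterate 6 right
    left
    rcases h2 with ⟨-, hz, hcard, h3, h4⟩ | ⟨h2, -⟩
    · obtain ⟨rfl, h5⟩ := H10.arith_three ha h3 h4
      obtain rfl : q = p := by simpa using hq'
      have h6 : q ≠ 5 := fun h6 =>
        H10.extra_three_five h6 hH hR hi hs hz hcard (h.le.trans inf_le_left)
      have h7 : q ≠ 8 := by rintro rfl; norm_num at hp
      exact ⟨q, R, hp, rfl, h5, by omega, hR, hi, hs, hcard, hz, h⟩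
    · omega
  · exact (H10.not_prime_eq_pow hp7 h1 h2).elim
  · iterate 7 right
    exact h

end Cfsg.Agent.S5778
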