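import Cfsg.Statements.S5784
import Cfsg.Agent.H10.UFour

set_option autoImplicit false
open Cfsg

namespace Cfsg.Agent.S5784

/-- Every maximal subgroup of SU_4(q) is of one of the listed geometric types or lies in the residual class. Let F be the field with q² elements, f the standard unitary form Σ u_i v_i^q on F^4, and H a maximal subgroup of SU_4(q) (inside GL_4(F)). Then H is the intersection with SU_4(q) of one of: the stabiliser of a non-zero subspace on which f vanishes; the stabiliser of a non-degenerate 1-space; for q ≠ 3, the stabiliser of a decomposition into four mutually orthogonal non-degenerate 1-spaces; for q ≥ 3, of a decomposition into two orthogonal non-degenerate 2-spaces; for q ≥ 4, of a decomposition into two totally isotropic 2-spaces; a subfield group of odd prime index whose F₀-structure carries f; a subfield group of index 2 whose F₀-structure carries ζ f, vanishing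 on pairs (u, u), for some non-zero ζ with ζ + ζ^q = 0; for q odd, a subfield group of index 2 whose F₀-structure carries f; for q = p ≡ 3 mod 4 prime, the normaliser of an absolutely irreducible symplectic-type 2-group of exponent 4, order 64 and centre of order 4 inside the similarity group of f — or else H lies in the residual class of the unitary case. -/
theorem result {F : Type*} [Field F] [Fintype F] (q : ℕ) (hF : Fintype.card F = q ^ 2) (H : Subgroup (Matrix.GeneralLinearGroup (Fin 4) F)) (hH : Cfsg.Geo.IsMaximalIn (Cfsg.GU 4 F q ⊓ Cfsg.Geo.specialLinear (Fin 4) F) H) :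
    (∃ W : Submodule F (Fin 4 → F), W ≠ ⊥ ∧ Cfsg.Geo.IsTotallySingularFor (Cfsg.hermForm 4 F q) W ∧ H = Cfsg.Geo.subspaceStabilizer W ⊓ (Cfsg.GU 4 F q ⊓ Cfsg.Geo.specialLinear (Fin 4) F)) ∨
    (∃ W : Submodule F (Fin 4 → F), W ≠ ⊥ ∧ Cfsg.Geo.IsNondegenerateOn (Cfsg.hermForm 4 F q) W ∧ 2 * Module.finrank F W < 4 ∧ H = Cfsg.Geo.subspaceStabilizer W ⊓ (Cfsg.GU 4 F q ⊓ Cfsg.Geo.specialLinear (Fin 4) F)) ∨
    (q ≠ 3 ∧ ∃ D : Fin 4 → Submodule F (Fin 4 → F), Cfsg.Geo.IsNondegenerateMDecomposition (Cfsg.hermForm 4 F q) 1 D ∧ H = Cfsg.Geo.decompositionStabilizer D ⊓ (Cfsg.GU 4 F q ⊓ Cfsg.Geo.specialLinear (Fin 4) F)) ∨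
    (3 ≤ q ∧ ∃ D : Fin 2 → Submodule F (Fin 4 → F), Cfsg.Geo.IsNondegenerateMDecomposition (Cfsg.hermForm 4 F q) 2 D ∧ H = Cfsg.Geo.decompositionStabilizer D ⊓ (Cfsg.GU 4 F q ⊓ Cfsg.Geo.specialLinear (Fin 4) F)) ∨
    (4 ≤ q ∧ ∃ D : Fin 2 → Submodule F (Fin 4 → F), Cfsg.Geo.IsMDecomposition 2 D ∧ (∀ i, Cfsg.Geo.IsTotallySingularFor (Cfsg.hermForm 4 F q) (D i)) ∧ H = Cfsg.Geo.decompositionStabilizer D ⊓ (Cfsg.GU 4 F q ⊓ Cfsg.Geo.specialLinear (Fin 4) F)) ∨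
    (∃ (F₀ : Subfield F) (r : ℕ) (P : Matrix.GeneralLinearGroup (Fin 4) F), r.Prime ∧ Odd r ∧ Fintype.card F = Nat.card F₀ ^ r ∧ Cfsg.Geo.IsFormRationalStructure (Cfsg.hermForm 4 F q) F₀ 1 P ∧ H = Cfsg.Geo.subfieldSubgroup F₀ P ⊓ (Cfsg.GU 4 F q ⊓ Cfsg.Geo.specialLinear (Fin 4) F)) ∨
    (∃ (F₀ : Subfield F) (P : Matrix.GeneralLinearGroup (Fin 4) F) (ζ : F), Fintype.card F = Nat.card F₀ ^ 2 ∧ ζ ≠ 0 ∧ ζ + ζ ^ q = 0 ∧ Cfsg.Geo.IsFormRationalStructure (Cfsg.hermForm 4 F q) F₀ ζ P ∧ (∀ u : Fin 4 → F, (∀ i, u i ∈ F₀) → (Cfsg.hermForm 4 F q) (Matrix.mulVec (P : Matrix (Fin 4) (Fin 4) F) u) (Matrix.mulVec (P : Matrix (Fin 4) (Fin 4) F) u) = 0) ∧ H = Cfsg.Geo.subfieldSubgroup F₀ P ⊓ (Cfsg.GU 4 F q ⊓ Cfsg.Geo.specialLinear (Fin 4) F)) ∨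
    (Odd q ∧ ∃ (F₀ : Subfield F) (P : Matrix.GeneralLinearGroup (Fin 4) F), Fintype.card F = Nat.card F₀ ^ 2 ∧ Cfsg.Geo.IsFormRationalStructure (Cfsg.hermForm 4 F q) F₀ 1 P ∧ H = Cfsg.Geo.subfieldSubgroup F₀ P ⊓ (Cfsg.GU 4 F q ⊓ Cfsg.Geo.specialLinear (Fin 4) F)) ∨
    (∃ (p : ℕ) (R : Subgroup (Matrix.GeneralLinearGroup (Fin 4) F)), p.Prime ∧ q = p ∧ p % 4 = 3 ∧ Cfsg.Geo.IsSymplecticTypeGroup 2 R ∧ Cfsg.Geo.ActsAbsolutelyIrreducibly (Cfsg.Geo.matrixSet R) ∧ R ≤ Cfsg.Geo.similarityGroup (Cfsg.hermForm 4 F q) ∧ Nat.card R = 64 ∧ Nat.card (Subgroup.center R) = 4 ∧ H = Cfsg.Geo.subgroupNormalizer R ⊓ (Cfsg.GU 4 F q ⊓ Cfsg.Geo.specialLinear (Fin 4) F)) ∨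
    Cfsg.Geo.InUnitaryResidualClass H := by
  haveI : Fact (Fintype.card F = q^2) := ⟨hF⟩
  have hq2 := H10.two_le_q F q
  rcases H10.max_cases (q := q) (by norm_num) (by norm_num) hH with h | h |
    ⟨t, k, D, h1, h2, hD, h⟩ | ⟨k, D, h1, h⟩ | ⟨r, K, hr, ho, h1, hK, h⟩ |
    ⟨a, b, e, P, f₁, f₂, h1, h2, h3, h⟩ | h | ⟨-, h⟩ | h |
    ⟨r, R, p, a, k, hR, hi, hs, hrp, hp, hc, ha, hq, h1, h2, h⟩ |
    ⟨k, t, e, P, f₁, h1, h2, h3, h4, h⟩ | h
  · exact Or.inl h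
  · exact Or.inr (Or.inl h)
  · have h3 : t ≤ 4 := Nat.le_of_dvd (by norm_num) ⟨k, h1⟩
    have h4 : (t = 4 ∧ k = 1) ∨ (t = 2 ∧ k = 2) := by interval_cases t <;> omega
    rcases h4 with ⟨rfl, rfl⟩ | ⟨rfl, rfl⟩
    · exact Or.inr (Or.inr (Or.inl ⟨fun hq =>
        H10.frame_four_three hq hH hD (h.le.trans inf_le_left), D, hD, h⟩))
    · rcases hq2.eq_or_lt with hq | hq
      · exact Or.inr (Or.inr (Or.inl ⟨by omega, H10.max_planes hq.symm (by norm_num) hH hD h⟩))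
      · exact Or.inr (Or.inr (Or.inr (Or.inl ⟨hq, D, hD, h⟩)))
  · obtain rfl : k = 2 := by omega
    iterate 4 right
    refine Or.inl ⟨?_, D, h⟩
    by_contra hq
    exact H10.pair_four (by omega) hH h.1 h.2.1 (h.2.2.le.trans inf_le_left)
  · obtain rfl := (Nat.prime_dvd_prime_iff_eq hr Nat.prime_two).1
      (hr.dvd_of_dvd_pow (show r ∣ 2 ^ 2 from h1))
    exact absurd ho (by decide)
  · have h4 : a ≤ 4 := Nat.le_of_dvd (by norm_num) ⟨b, h1⟩
    interval_cases a <;> omega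
  · iterate 5 right
    exact Or.inl h
  · iterate 6 right
    exact Or.inl h
  · iterate 7 right
    exact Or.inl h
  · have hk : k ≠ 0 := by rintro rfl; simp at h1
    obtain rfl := (Nat.prime_dvd_prime_iff_eq hR.prime Nat.prime_two).1
      (hR.prime.dvd_of_dvd_pow (show r ∣ 2 ^ 2 from (dvd_pow_self r hk).trans h1.symm.dvd))
    iterate 8 right
    left
    rcases h2 with ⟨ho, -⟩ | ⟨-, h2, h3, hz, hcard⟩
    · exact absurd ho (by decide)
    · exact ⟨p, R, hp, h2, h3, hR, hi, hs, hcard, hz, h⟩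
  · exact absurd (H10.pow_cases_le h1 h2 h3 (by norm_num)) (by norm_num)
  · iterate 9 right
    exact h

end Cfsg.Agent.S5784
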