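import Cfsg.Statements.S5787
import Cfsg.Agent.H9.SpExcl3

set_option autoImplicit false
open Cfsg

namespace Cfsg.Agent.S5787

/-- Every maximal subgroup of Sp_4(q), q odd, is of one of the listed geometric types or lies in the residual class. Let F be a finite field of odd order q, f the standard alternating form on F^4 (coordinates Fin 2 ⊕ Fin 2), and H a maximal subgroup of the isometry group Sp_4(F) (inside GL_4(F)). Then H is the intersection with Sp_4(F) of one of: the stabiliser of a non-zero totally isotropic subspace; the stabiliser of a decomposition into two orthogonal non-degenerate 2-spaces; for q ≥ 5, of a decomposition into two totally isotropic 2-spaces; the normaliser of a degree-2 subfield K of the matrix algebra, self-adjoint with f(k v, v) = 0; for q ≥ 5, the normaliser of a degree-2 subfield closed under adjoints but not self-adjoint; a subfield group whose F₀-structure carries a non-zero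 multiple of f, |F| = |F₀|^r with r prime; for q = p prime, the normaliser of an absolutely irreducible symplectic-type 2-group of exponent 4, order 32, centre of order 2 and minus type inside the similarity group of f — or else H lies in the residual class of the symplectic case. -/
theorem result {F : Type*} [Field F] [Fintype F] (hodd : Odd (Fintype.card F)) (H : Subgroup (Matrix.GeneralLinearGroup (Fin 2 ⊕ Fin 2) F)) (hH : Cfsg.Geo.IsMaximalIn (Cfsg.spGL 2 F) H) :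
    (∃ W : Submodule F (Fin 2 ⊕ Fin 2 → F), W ≠ ⊥ ∧ Cfsg.Geo.IsTotallySingularFor (Cfsg.sympForm 2 F) W ∧ H = Cfsg.Geo.subspaceStabilizer W ⊓ Cfsg.spGL 2 F) ∨
    (∃ D : Fin 2 → Submodule F (Fin 2 ⊕ Fin 2 → F), Cfsg.Geo.IsNondegenerateMDecomposition (Cfsg.sympForm 2 F) 2 D ∧ H = Cfsg.Geo.decompositionStabilizer D ⊓ Cfsg.spGL 2 F) ∨
    (5 ≤ Fintype.card F ∧ ∃ D : Fin 2 → Submodule F (Fin 2 ⊕ Fin 2 → F), Cfsg.Geo.IsMDecomposition 2 D ∧ (∀ i, Cfsg.Geo.IsTotallySingularFor (Cfsg.sympForm 2 F) (D i)) ∧ H = Cfsg.Geo.decompositionStabilizer D ⊓ Cfsg.spGL 2 F) ∨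
    (∃ K : Subalgebra F (Matrix (Fin 2 ⊕ Fin 2) (Fin 2 ⊕ Fin 2) F), Cfsg.Geo.IsFieldSubalgebra 2 K ∧ Cfsg.Geo.IsSelfAdjointFor (Cfsg.sympForm 2 F) K ∧ (∀ k ∈ K, ∀ v : (Fin 2 ⊕ Fin 2 → F), (Cfsg.sympForm 2 F) (Matrix.mulVec k v) v = 0) ∧ H = Cfsg.Geo.subalgebraNormalizer K ⊓ Cfsg.spGL 2 F) ∨
    (5 ≤ Fintype.card F ∧ ∃ K : Subalgebra F (Matrix (Fin 2 ⊕ Fin 2) (Fin 2 ⊕ Fin 2) F), Cfsg.Geo.IsFieldSubalgebra 2 K ∧ Cfsg.Geo.IsAdjointClosedFor (Cfsg.sympForm 2 F) K ∧ ¬ Cfsg.Geo.IsSelfAdjointFor (Cfsg.sympForm 2 F) K ∧ H = Cfsg.Geo.subalgebraNormalizer K ⊓ Cfsg.spGL 2 F) ∨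
    (∃ (F₀ : Subfield F) (r : ℕ) (P : Matrix.GeneralLinearGroup (Fin 2 ⊕ Fin 2) F) (ζ : F), r.Prime ∧ Fintype.card F = Nat.card F₀ ^ r ∧ ζ ≠ 0 ∧ Cfsg.Geo.IsFormRationalStructure (Cfsg.sympForm 2 F) F₀ ζ P ∧ H = Cfsg.Geo.subfieldSubgroup F₀ P ⊓ Cfsg.spGL 2 F) ∨
    (∃ (p : ℕ) (R : Subgroup (Matrix.GeneralLinearGroup (Fin 2 ⊕ Fin 2) F)), p.Prime ∧ Fintype.card F = p ∧ Cfsg.Geo.IsSymplecticTypeGroup 2 R ∧ Cfsg.Geo.ActsAbsolutelyIrreducibly (Cfsg.Geo.matrixSet R) ∧ R ≤ Cfsg.Geo.similarityGroup (Cfsg.sympForm 2 F) ∧ Nat.card R = 32 ∧ Nat.card (Subgroup.center R) = 2 ∧ Cfsg.Geo.IsOfMinusType 2 R ∧ H = Cfsg.Geo.subgroupNormalizer R ⊓ Cfsg.spGL 2 F) ∨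
    Cfsg.Geo.InSymplecticResidualClass H := by
  rcases H9.sp_max_cases (by norm_num) hH with ⟨X, hX, rfl⟩ | h
  swap
  · exact Or.inr (Or.inr (Or.inr (Or.inr (Or.inr (Or.inr (Or.inr (h)))))))
  cases hX with
  | ts W h0 h => exact Or.inl ⟨W, h0, h, rfl⟩
  | nd W h0 h hd =>
    obtain ⟨k, hk⟩ := H9.even_finrank_of_nondegOn h
    exact absurd (Submodule.finrank_eq_zero.1 (by omega)) h0
  | dec t k D h =>
    obtain ⟨⟨l, hl⟩, h1, h2, h3⟩ := H9.even_of_dec h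
    have : k ≤ 2 := by nlinarith
    obtain rfl : k = 2 := by omega
    obtain rfl : t = 2 := by omega
    exact Or.inr (Or.inl ⟨D, h, rfl⟩)
  | pair D ho h hs =>
    by_cases hq : Fintype.card F = 3
    · exact absurd hH (H9.not_max_of_between (H9.pair_three_between hq h hs))
    · exact Or.inr (Or.inr (Or.inl ⟨H9.five_le_of_odd ho hq, D, h, hs, rfl⟩))
  | sub F₀ r P ζ hr hc hζ h => exact Or.inr (Or.inr (Or.inr (Or.inr (Or.inr (Or.inl ⟨F₀, r, P, ζ, hr, hc, hζ, h, rfl⟩)))))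
  | ext R p k h ha hs hp ho hc hR hZ hm' hk =>
    obtain rfl : k = 2 := by
      have := H9.ext_num (by norm_num) (by norm_num) hk
      omega
    exact Or.inr (Or.inr (Or.inr (Or.inr (Or.inr (Or.inr (Or.inl ⟨p, R, hp, hc, h, ha, hs, hR, hZ, hm', rfl⟩))))))
  | quad Q he h hp => exact absurd hodd he
  | fld r K hr h hs ha =>
    obtain rfl : r = 2 :=
      (Nat.prime_dvd_prime_iff_eq hr Nat.prime_two).1 (H9.fld_dvd (by norm_num) h hs ha)
    exact Or.inr (Or.inr (Or.inr (Or.inl ⟨K, h, hs, ha, rfl⟩)))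
  | uni K ho h ha hs =>
    by_cases hq : Fintype.card F = 3
    · exact absurd hH (H9.not_max_of_between (H9.uni_three_between hq h ha hs))
    · exact Or.inr (Or.inr (Or.inr (Or.inr (Or.inl ⟨H9.five_le_of_odd ho hq, K, h, ha, hs, rfl⟩))))
  | tens n₁ n₂ e P f₁ f₂ ho h3 h₁ h₂ h =>
    obtain ⟨⟨l, hl⟩, h1, h2⟩ := H9.tens_num (by norm_num) e h₁
    have : 2 ≤ n₁ := by omega
    nlinarith
  | wr k t e P f₁ ho ht h3 hx h₁ h =>
    have := H9.wr_num (by norm_num) (by norm_num) e h3 ht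
    omega

end Cfsg.Agent.S5787
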