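import Cfsg.Statements.S5796
import Cfsg.Agent.H10.UFive

set_option autoImplicit false
open Cfsg

namespace Cfsg.Agent.S5796

/-- Every maximal subgroup of SU_5(q) is of one of the listed geometric types or lies in the residual class. Let F be the field with q² elements (characteristic p), f the standard unitary form Σ u_i v_i^q on F^5, and H a maximal subgroup of SU_5(q) (inside GL_5(F)). Then H is the intersection with SU_5(q) of one of: the stabiliser of a non-zero totally isotropic subspace; the stabiliser of a non-degenerate 1-space or 2-space; the stabiliser of a decomposition into five mutually orthogonal non-degenerate 1-spaces; for q ≥ 3, the normaliser of an adjoint-closed degree-5 subfield of the matrix algebra; a subfield group of odd prime index whose F₀-structure carries f; for q odd, a subfield group of index 2 whose F₀-structure carries f; for q = p ≡ 4 mod 5 or q = p² with p ≡ 2,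 3 mod 5, the normaliser of an absolutely irreducible 5-group of exponent 5, order 125 and centre of order 5 with all characteristic abelian subgroups cyclic inside the similarity group of f — or else H lies in the residual class of the unitary case. -/
theorem result {F : Type*} [Field F] [Fintype F] (q : ℕ) (hF : Fintype.card F = q ^ 2) (H : Subgroup (Matrix.GeneralLinearGroup (Fin 5) F)) (hH : Cfsg.Geo.IsMaximalIn (Cfsg.GU 5 F q ⊓ Cfsg.Geo.specialLinear (Fin 5) F) H) :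
    (∃ W : Submodule F (Fin 5 → F), W ≠ ⊥ ∧ Cfsg.Geo.IsTotallySingularFor (Cfsg.hermForm 5 F q) W ∧ H = Cfsg.Geo.subspaceStabilizer W ⊓ (Cfsg.GU 5 F q ⊓ Cfsg.Geo.specialLinear (Fin 5) F)) ∨
    (∃ W : Submodule F (Fin 5 → F), W ≠ ⊥ ∧ Cfsg.Geo.IsNondegenerateOn (Cfsg.hermForm 5 F q) W ∧ 2 * Module.finrank F W < 5 ∧ H = Cfsg.Geo.subspaceStabilizer W ⊓ (Cfsg.GU 5 F q ⊓ Cfsg.Geo.specialLinear (Fin 5) F)) ∨
    (∃ D : Fin 5 → Submodule F (Fin 5 → F), Cfsg.Geo.IsNondegenerateMDecomposition (Cfsg.hermForm 5 F q) 1 D ∧ H = Cfsg.Geo.decompositionStabilizer D ⊓ (Cfsg.GU 5 F q ⊓ Cfsg.Geo.specialLinear (Fin 5) F)) ∨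
    (3 ≤ q ∧ ∃ K : Subalgebra F (Matrix (Fin 5) (Fin 5) F), Cfsg.Geo.IsFieldSubalgebra 5 K ∧ Cfsg.Geo.IsAdjointClosedFor (Cfsg.hermForm 5 F q) K ∧ H = Cfsg.Geo.subalgebraNormalizer K ⊓ (Cfsg.GU 5 F q ⊓ Cfsg.Geo.specialLinear (Fin 5) F)) ∨
    (∃ (F₀ : Subfield F) (r : ℕ) (P : Matrix.GeneralLinearGroup (Fin 5) F), r.Prime ∧ Odd r ∧ Fintype.card F = Nat.card F₀ ^ r ∧ Cfsg.Geo.IsFormRationalStructure (Cfsg.hermForm 5 F q) F₀ 1 P ∧ H = Cfsg.Geo.subfieldSubgroup F₀ P ⊓ (Cfsg.GU 5 F q ⊓ Cfsg.Geo.specialLinear (Fin 5) F)) ∨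
    (Odd q ∧ ∃ (F₀ : Subfield F) (P : Matrix.GeneralLinearGroup (Fin 5) F), Fintype.card F = Nat.card F₀ ^ 2 ∧ Cfsg.Geo.IsFormRationalStructure (Cfsg.hermForm 5 F q) F₀ 1 P ∧ H = Cfsg.Geo.subfieldSubgroup F₀ P ⊓ (Cfsg.GU 5 F q ⊓ Cfsg.Geo.specialLinear (Fin 5) F)) ∨
    (∃ (p : ℕ) (R : Subgroup (Matrix.GeneralLinearGroup (Fin 5) F)), p.Prime ∧ CharP F p ∧ ((q = p ∧ p % 5 = 4) ∨ (q = p ^ 2 ∧ (p % 5 = 2 ∨ p % 5 = 3))) ∧ Cfsg.Geo.IsSymplecticTypeGroup 5 R ∧ Cfsg.Geo.ActsAbsolutelyIrreducibly (Cfsg.Geo.matrixSet R) ∧ R ≤ Cfsg.Geo.similarityGroup (Cfsg.hermForm 5 F q) ∧ Nat.card R = 125 ∧ Nat.card (Subgroup.center R) = 5 ∧ H = Cfsg.Geo.subgroupNormalizer R ⊓ (Cfsg.GU 5 F q ⊓ Cfsg.Geo.specialLinear (Fin 5) F)) ∨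
    Cfsg.Geo.InUnitaryResidualClass H := by
  haveI : Fact (Fintype.card F = q^2) := ⟨hF⟩
  have hq2 := H10.two_le_q F q
  have hp7 : Nat.Prime 5 := by norm_num
  rcases H10.max_cases (q := q) (by norm_num) (by norm_num) hH with h | h |
    ⟨t, k, D, h1, h2, hD, h⟩ | ⟨k, D, h1, -⟩ | ⟨r, K, hr, -, h1, hK, h⟩ |
    ⟨a, b, e, P, f₁, f₂, h1, h2, h3, -⟩ | h | ⟨h, -⟩ | h |
    ⟨r, R, p, a, k, hR, hi, hs, hrp, hp, hc, ha, hq, h1, h2, h⟩ | ⟨k, t, e, P, f₁, h1, -, h2, -⟩ | h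
  · exact Or.inl h
  · exact Or.inr (Or.inl h)
  · obtain ⟨rfl, rfl⟩ := H10.mul_cases_prime hp7 h1 h2
    exact Or.inr (Or.inr (Or.inl ⟨D, hD, h⟩))
  · omega
  · obtain rfl := (Nat.prime_dvd_prime_iff_eq hr hp7).1 h1
    refine Or.inr (Or.inr (Or.inr (Or.inl ⟨?_, K, hK, h⟩)))
    by_contra hq
    exact H10.singer_five_two (by omega) hH hK h.1 (h.2.le.trans inf_le_left)
  · obtain ⟨rfl, rfl⟩ := H10.mul_cases_prime hp7 h1 h2
    omega
  · iterate 4 right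
    exact Or.inl h
  · exact absurd h (by decide)
  · iterate 5 right
    exact Or.inl h
  · obtain rfl := H10.eq_of_prime_eq_pow hp7 h1
    iterate 6 right
    left
    rcases h2 with ⟨-, hz, hcard, h3, h4⟩ | ⟨h2, -⟩
    · refine ⟨p, R, hp, hc, ?_, hR, hi, hs, hcard, hz, h⟩
      rcases H10.arith_five ha h3 h4 with ⟨rfl, h5⟩ | ⟨rfl, h5⟩
      · exact Or.inl ⟨by simpa using hq, h5⟩
      · exact Or.inr ⟨hq, h5⟩
    · omega
  · exact (H10.not_prime_eq_pow hp7 h1 h2).elim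
  · iterate 7 right
    exact h

end Cfsg.Agent.S5796
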