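import Cfsg.Statements.S5802
import Cfsg.Agent.H10.USix

set_option autoImplicit false
open Cfsg

namespace Cfsg.Agent.S5802

/-- Every maximal subgroup of SU_6(q) is of one of the listed geometric types or lies in the residual class. Let F be the field with q² elements, f the standard unitary form Σ u_i v_i^q on F^6, and H a maximal subgroup of SU_6(q) (inside GL_6(F)). Then H is the intersection with SU_6(q) of one of: the stabiliser of a non-zero totally isotropic subspace; the stabiliser of a non-degenerate 1- or 2-space; for q ≥ 3, the stabiliser of a decomposition into six mutually orthogonal non-degenerate 1-spaces; for q ≥ 3, of a decomposition into three mutually orthogonal non-degenerate 2-spaces; of a decomposition into two orthogonal non-degenerate 3-spaces; of a decomposition into two totally isotropic 3-spaces; for q ≥ 3, the normaliser of an adjoint-closed degree-3 subfield of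 the matrix algebra; for q ≥ 3, the stabiliser of a tensor decomposition of f into unitary forms on F^2 and F^3; a subfield group of odd prime index whose F₀-structure carries f; a subfield group of index 2 and symplectic type; for q odd, a subfield group of index 2 and orthogonal type — or else H lies in the residual class of the unitary case. -/
theorem result {F : Type*} [Field F] [Fintype F] (q : ℕ) (hF : Fintype.card F = q ^ 2) (H : Subgroup (Matrix.GeneralLinearGroup (Fin 6) F)) (hH : Cfsg.Geo.IsMaximalIn (Cfsg.GU 6 F q ⊓ Cfsg.Geo.specialLinear (Fin 6) F) H) :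
    (∃ W : Submodule F (Fin 6 → F), W ≠ ⊥ ∧ Cfsg.Geo.IsTotallySingularFor (Cfsg.hermForm 6 F q) W ∧ H = Cfsg.Geo.subspaceStabilizer W ⊓ (Cfsg.GU 6 F q ⊓ Cfsg.Geo.specialLinear (Fin 6) F)) ∨
    (∃ W : Submodule F (Fin 6 → F), W ≠ ⊥ ∧ Cfsg.Geo.IsNondegenerateOn (Cfsg.hermForm 6 F q) W ∧ 2 * Module.finrank F W < 6 ∧ H = Cfsg.Geo.subspaceStabilizer W ⊓ (Cfsg.GU 6 F q ⊓ Cfsg.Geo.specialLinear (Fin 6) F)) ∨
    (3 ≤ q ∧ ∃ D : Fin 6 → Submodule F (Fin 6 → F), Cfsg.Geo.IsNondegenerateMDecomposition (Cfsg.hermForm 6 F q) 1 D ∧ H = Cfsg.Geo.decompositionStabilizer D ⊓ (Cfsg.GU 6 F q ⊓ Cfsg.Geo.specialLinear (Fin 6) F)) ∨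
    (3 ≤ q ∧ ∃ D : Fin 3 → Submodule F (Fin 6 → F), Cfsg.Geo.IsNondegenerateMDecomposition (Cfsg.hermForm 6 F q) 2 D ∧ H = Cfsg.Geo.decompositionStabilizer D ⊓ (Cfsg.GU 6 F q ⊓ Cfsg.Geo.specialLinear (Fin 6) F)) ∨
    (∃ D : Fin 2 → Submodule F (Fin 6 → F), Cfsg.Geo.IsNondegenerateMDecomposition (Cfsg.hermForm 6 F q) 3 D ∧ H = Cfsg.Geo.decompositionStabilizer D ⊓ (Cfsg.GU 6 F q ⊓ Cfsg.Geo.specialLinear (Fin 6) F)) ∨
    (∃ D : Fin 2 → Submodule F (Fin 6 → F), Cfsg.Geo.IsMDecomposition 3 D ∧ (∀ i, Cfsg.Geo.IsTotallySingularFor (Cfsg.hermForm 6 F q) (D i)) ∧ H = Cfsg.Geo.decompositionStabilizer D ⊓ (Cfsg.GU 6 F q ⊓ Cfsg.Geo.specialLinear (Fin 6) F)) ∨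
    (3 ≤ q ∧ ∃ K : Subalgebra F (Matrix (Fin 6) (Fin 6) F), Cfsg.Geo.IsFieldSubalgebra 3 K ∧ Cfsg.Geo.IsAdjointClosedFor (Cfsg.hermForm 6 F q) K ∧ H = Cfsg.Geo.subalgebraNormalizer K ⊓ (Cfsg.GU 6 F q ⊓ Cfsg.Geo.specialLinear (Fin 6) F)) ∨
    (3 ≤ q ∧ ∃ (e : Fin 6 ≃ Fin 2 × Fin 3) (P : Matrix.GeneralLinearGroup (Fin 6) F) (f₁ : (Fin 2 → F) → (Fin 2 → F) → F) (f₂ : (Fin 3 → F) → (Fin 3 → F) → F), Cfsg.Geo.IsUnitaryFormPow q f₁ ∧ Cfsg.Geo.IsUnitaryFormPow q f₂ ∧ Cfsg.Geo.IsTensorFormStructure (fun x : F => x ^ q) (Cfsg.hermForm 6 F q) f₁ f₂ e P ∧ H = Cfsg.Geo.tensorProductSubgroup 2 3 e P ⊓ (Cfsg.GU 6 F q ⊓ Cfsg.Geo.specialLinear (Fin 6) F)) ∨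
    (∃ (F₀ : Subfield F) (r : ℕ) (P : Matrix.GeneralLinearGroup (Fin 6) F), r.Prime ∧ Odd r ∧ Fintype.card F = Nat.card F₀ ^ r ∧ Cfsg.Geo.IsFormRationalStructure (Cfsg.hermForm 6 F q) F₀ 1 P ∧ H = Cfsg.Geo.subfieldSubgroup F₀ P ⊓ (Cfsg.GU 6 F q ⊓ Cfsg.Geo.specialLinear (Fin 6) F)) ∨
    (∃ (F₀ : Subfield F) (P : Matrix.GeneralLinearGroup (Fin 6) F) (ζ : F), Fintype.card F = Nat.card F₀ ^ 2 ∧ ζ ≠ 0 ∧ ζ + ζ ^ q = 0 ∧ Cfsg.Geo.IsFormRationalStructure (Cfsg.hermForm 6 F q) F₀ ζ P ∧ (∀ u : Fin 6 → F, (∀ i, u i ∈ F₀) → (Cfsg.hermForm 6 F q) (Matrix.mulVec (P : Matrix (Fin 6) (Fin 6) F) u) (Matrix.mulVec (P : Matrix (Fin 6) (Fin 6) F) u) = 0) ∧ H = Cfsg.Geo.subfieldSubgroup F₀ P ⊓ (Cfsg.GU 6 F q ⊓ Cfsg.Geo.specialLinear (Fin 6) F)) ∨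
    (Odd q ∧ ∃ (F₀ : Subfield F) (P : Matrix.GeneralLinearGroup (Fin 6) F), Fintype.card F = Nat.card F₀ ^ 2 ∧ Cfsg.Geo.IsFormRationalStructure (Cfsg.hermForm 6 F q) F₀ 1 P ∧ H = Cfsg.Geo.subfieldSubgroup F₀ P ⊓ (Cfsg.GU 6 F q ⊓ Cfsg.Geo.specialLinear (Fin 6) F)) ∨
    Cfsg.Geo.InUnitaryResidualClass H := by
  haveI : Fact (Fintype.card F = q^2) := ⟨hF⟩
  have hq2 := H10.two_le_q F q
  rcases H10.max_cases (q := q) (by norm_num) (by norm_num) hH with h | h |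
    ⟨t, k, D, h1, h2, hD, h⟩ | ⟨k, D, h1, h⟩ | ⟨r, K, hr, ho, h1, hK, ha, h⟩ |
    ⟨a, b, e, P, f₁, f₂, h1, h2, h3, h⟩ | h | ⟨-, h⟩ | h |
    ⟨r, R, p, a, k, hR, hi, hs, hrp, hp, hc, ha, hq, h1, h2, h⟩ |
    ⟨k, t, e, P, f₁, h1, h2, h3, h4, h⟩ | h
  · exact Or.inl h
  · exact Or.inr (Or.inl h)
  · have h3 : t ≤ 6 := Nat.le_of_dvd (by norm_num) ⟨k, h1⟩
    have h4 : (t = 6 ∧ k = 1) ∨ (t = 3 ∧ k = 2) ∨ (t = 2 ∧ k = 3) := by interval_cases t <;> omega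
    rcases h4 with ⟨rfl, rfl⟩ | ⟨rfl, rfl⟩ | ⟨rfl, rfl⟩
    · rcases hq2.eq_or_lt with hq | hq
      · exact (H10.frame_six_two hq.symm hH hD (h.le.trans inf_le_left)).elim
      · exact Or.inr (Or.inr (Or.inl ⟨hq, D, hD, h⟩))
    · rcases hq2.eq_or_lt with hq | hq
      · obtain ⟨D', hD', h'⟩ := H10.max_planes hq.symm (by norm_num) hH hD h
        exact (H10.frame_six_two hq.symm hH hD' (h'.le.trans inf_le_left)).elim
      · exact Or.inr (Or.inr (Or.inr (Or.inl ⟨hq, D, hD, h⟩)))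
    · iterate 4 right
      exact Or.inl ⟨D, hD, h⟩
  · obtain rfl : k = 3 := by omega
    iterate 5 right
    exact Or.inl ⟨D, h⟩
  · have h3 : r ≤ 6 := Nat.le_of_dvd (by norm_num) h1
    obtain rfl : r = 3 := by
      interval_cases r <;> first | rfl | exact absurd ho (by decide) | exact absurd hr (by decide) |
        exact absurd h1 (by decide)
    rcases hq2.eq_or_lt with hq | hq
    · exact (H10.cubic_six_two hq.symm hH hK ha (h.le.trans inf_le_left)).elim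
    · iterate 6 right
      exact Or.inl ⟨hq, K, hK, ha, h⟩
  · have h4 : a ≤ 6 := Nat.le_of_dvd (by norm_num) ⟨b, h1⟩
    obtain ⟨rfl, rfl⟩ : a = 2 ∧ b = 3 := by interval_cases a <;> omega
    rcases hq2.eq_or_lt with hq | hq
    · iterate 4 right
      exact Or.inl (H10.max_tensor_two hq.symm (by norm_num) hH (by norm_num) h)
    · iterate 7 right
      exact Or.inl ⟨hq, e, P, f₁, f₂, h⟩
  · iterate 8 right
    exact Or.inl h
  · iterate 9 right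
    exact Or.inl h
  · iterate 10 right
    exact Or.inl h
  · exact (H10.not_prime_pow_of hR.prime h1 Nat.prime_two Nat.prime_three (by norm_num)
      (by norm_num) (by norm_num)).elim
  · exact absurd (H10.pow_cases_le h1 h2 h3 (by norm_num)) (by norm_num)
  · iterate 11 right
    exact h

end Cfsg.Agent.S5802
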