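import Cfsg.Statements.S5826
import Cfsg.Agent.H99.OEven

set_option autoImplicit false
open Cfsg

namespace Cfsg.Agent.S5826

/-- Every maximal subgroup of Ω_8^-(q) is of one of the listed geometric types or lies in the residual class. Let F be a finite field with q elements, Q a non-degenerate quadratic form on F^8 of minus type (no totally singular 4-space), Ω the commutator subgroup of its isometry group, and H a maximal subgroup of Ω (inside GL_8(F)). Then H is the intersection with Ω of one of: the stabiliser of a non-zero totally singular subspace; for q odd, the stabiliser of a non-degenerate subspace of odd dimension; the stabiliser of a non-degenerate 2-space of minus type; for q ≥ 4, the stabiliser of a non-degenerate 2-space of plus type; the stabiliser of a non-degenerate 4-space; for q even, the stabiliser of the span of a non-singular vector; the normaliser of a degree-2 subfield of the matrix algebra; a subfield group of odd prime index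 whose F₀-structure carries a non-zero multiple of Q — or else H lies in the residual class of the orthogonal case (modulo scalars H is almost simple, with absolutely irreducible perfect socle preimage realisable over no proper subfield and fixing no non-degenerate unitary form). -/
theorem result {F : Type*} [Field F] [Fintype F] (Q : (Fin 8 → F) → F) (hQ : Cfsg.Geo.IsNondegenerateQuadraticForm Q) (hminus : ¬ Cfsg.Geo.IsPlusTypeOn Q ⊤) (H : Subgroup (Matrix.GeneralLinearGroup (Fin 8) F)) (hH : Cfsg.Geo.IsMaximalIn (Cfsg.Geo.omegaGL Q) H) :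
    (∃ W : Submodule F (Fin 8 → F), W ≠ ⊥ ∧ Cfsg.Geo.IsTotallySingularQuad Q W ∧ H = Cfsg.Geo.subspaceStabilizer W ⊓ Cfsg.Geo.omegaGL Q) ∨
    (Odd (Fintype.card F) ∧ ∃ W : Submodule F (Fin 8 → F), W ≠ ⊥ ∧ W ≠ ⊤ ∧ Odd (Module.finrank F W) ∧ Cfsg.Geo.IsNondegenerateOn (QuadraticMap.polar Q) W ∧ H = Cfsg.Geo.subspaceStabilizer W ⊓ Cfsg.Geo.omegaGL Q) ∨
    (∃ W : Submodule F (Fin 8 → F), Module.finrank F W = 2 ∧ Cfsg.Geo.IsNondegenerateOn (QuadraticMap.polar Q) W ∧ ¬ Cfsg.Geo.IsPlusTypeOn Q W ∧ H = Cfsg.Geo.subspaceStabilizer W ⊓ Cfsg.Geo.omegaGL Q) ∨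
    (4 ≤ Fintype.card F ∧ ∃ W : Submodule F (Fin 8 → F), Module.finrank F W = 2 ∧ Cfsg.Geo.IsNondegenerateOn (QuadraticMap.polar Q) W ∧ Cfsg.Geo.IsPlusTypeOn Q W ∧ H = Cfsg.Geo.subspaceStabilizer W ⊓ Cfsg.Geo.omegaGL Q) ∨
    (∃ W : Submodule F (Fin 8 → F), Module.finrank F W = 4 ∧ Cfsg.Geo.IsNondegenerateOn (QuadraticMap.polar Q) W ∧ H = Cfsg.Geo.subspaceStabilizer W ⊓ Cfsg.Geo.omegaGL Q) ∨
    (¬ Odd (Fintype.card F) ∧ ∃ v : (Fin 8 → F), Q v ≠ 0 ∧ H = Cfsg.Geo.subspaceStabilizer (Submodule.span F {v}) ⊓ Cfsg.Geo.omegaGL Q) ∨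
    (∃ K : Subalgebra F (Matrix (Fin 8) (Fin 8) F), Cfsg.Geo.IsFieldSubalgebra 2 K ∧ H = Cfsg.Geo.subalgebraNormalizer K ⊓ Cfsg.Geo.omegaGL Q) ∨
    (∃ (F₀ : Subfield F) (r : ℕ) (P : Matrix.GeneralLinearGroup (Fin 8) F) (ζ : F), r.Prime ∧ Odd r ∧ Fintype.card F = Nat.card F₀ ^ r ∧ ζ ≠ 0 ∧ Cfsg.Geo.IsQuadFormRationalStructure (fun v : Fin 8 → F => ζ * Q v) F₀ P ∧ H = Cfsg.Geo.subfieldSubgroup F₀ P ⊓ Cfsg.Geo.omegaGL Q) ∨
    Cfsg.Geo.InOrthogonalResidualClass H := by
  obtain ⟨Q, rfl⟩ := H99.exists_quadraticForm hQ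
  have hN : Fintype.card (Fin 8) = 8 := Fintype.card_fin _
  rcases H99.even_max_cases hQ (.inr (.inr ⟨hN, hminus⟩)) (fun h => by rw [hN] at h; omega) (fun h => absurd h hminus) hH with ⟨X, hX, rfl⟩ | h
  swap
  · exact .inr (.inr (.inr (.inr (.inr (.inr (.inr (.inr (h))))))))
  have hq1 := Fintype.one_lt_card (α := F)
  cases hX with
  | sing W h0 hW => exact .inl ⟨W, h0, hW, rfl⟩
  | ndOdd W hq h0 h1 ho _ hW => exact .inr (.inl ⟨hq, W, h0, h1, ho, hW, rfl⟩)
  | nd2m W hd hW hp => exact .inr (.inr (.inl ⟨W, hd, hW, hp, rfl⟩))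
  | nd2p W hq hd hW hp => exact .inr (.inr (.inr (.inl ⟨hq, W, hd, hW, hp, rfl⟩)))
  | nd4 W hd hW => exact .inr (.inr (.inr (.inr (.inl ⟨W, hd, hW, rfl⟩))))
  | nd6 W hd hW hn => omega
  | point v hq hv => exact .inr (.inr (.inr (.inr (.inr (.inl ⟨hq, v, hv, rfl⟩)))))
  | frame t D hp hD =>
    have h1 := H98.IsMDecomposition_mul_eq hD.decomp.decomp
    have ht := hD.decomp.decomp.two_le
    rw [hN] at h1
    exact absurd (H99.plus_of_dec_four hD odd_one (by omega)) hminus
  | dec t k D hk hD =>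
    have h1 := H98.IsMDecomposition_mul_eq hD.decomp.decomp
    have ht := hD.decomp.decomp.two_le
    rw [hN] at h1
    have : k ≤ 4 := by nlinarith
    refine absurd (H99.plus_of_dec_even hD.decomp ?_ (H99.orthDec_same_type hD) ?_) hminus <;>
      rw [Nat.even_iff] <;> interval_cases k <;> omega
  | decNI k D hk hD =>
    have h1 := H98.IsMDecomposition_mul_eq hD.decomp
    rw [Nat.odd_iff] at hk; omega
  | pair k D hk hD hs => exact absurd (H99.plus_of_pair hD hs) hminus
  | fld r K hr _ hK =>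
    have h1 := H98.IsFieldSubalgebra_dvd_card hK
    obtain rfl : r = 2 := (Nat.prime_dvd_prime_iff_eq hr Nat.prime_two).1
      (hr.dvd_of_dvd_pow (n := 3) (by rwa [hN] at h1))
    exact .inr (.inr (.inr (.inr (.inr (.inr (.inl ⟨K, hK, rfl⟩))))))
  | fldS K _ hK => exact .inr (.inr (.inr (.inr (.inr (.inr (.inl ⟨K, hK, rfl⟩))))))
  | fldU K hK => exact .inr (.inr (.inr (.inr (.inr (.inr (.inl ⟨K, hK, rfl⟩))))))
  | tensSp b e P f₁ f₂ _ _ _ _ _ hp => exact absurd hp hminus
  | tensO e => have := Fintype.card_congr e; simp at this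
  | sub F₀ r P ζ hr hc hζ hP =>
    exact .inr (.inr (.inr (.inr (.inr (.inr (.inr (.inl ⟨F₀, r, P, ζ, hr, H99.odd_of_sub_minus hQ (by rw [hN]; decide) hminus hr hc hζ hP, hc, hζ, hP, rfl⟩)))))))

end Cfsg.Agent.S5826
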