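import Cfsg.Statements.S5835
import Cfsg.Agent.H11.OOdd

set_option autoImplicit false
open Cfsg

namespace Cfsg.Agent.S5835

/-- Every maximal subgroup of Ω_9(q), q odd, is of one of the listed geometric types or lies in the residual class. Let F be a finite field of odd order q, Q the standard quadratic form x₀² + Σ x_i y_i on F^9 (coordinates Unit ⊕ (Fin 4 ⊕ Fin 4)), Ω the commutator subgroup of its isometry group, and H a maximal subgroup of Ω (inside GL_9(F)). Then H is the intersection with Ω of one of: the stabiliser of a non-zero totally singular subspace; the stabiliser of a non-zero non-degenerate subspace of even dimension (not a plus-type plane when q = 3); for q prime, the stabiliser of a decomposition into nine pairwise orthogonal, pairwise isometric non-degenerate 1-spaces; for q ≥ 5, the stabiliser of a decomposition into three pairwise orthogonal, pairwise isometric non-degenerate 3-spaces; the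 normaliser of a degree-3 subfield of the matrix algebra, self-adjoint for the polar form; a subfield group (|F| = |F₀|^r, r prime) whose F₀-structure carries Q; for q ≥ 5, the stabiliser of a tensor decomposition of the polar form as a tensor square of a symmetric form on F^3 — or else H lies in the residual class of the orthogonal case (modulo scalars H is almost simple, with absolutely irreducible perfect socle preimage realisable over no proper subfield and fixing no non-degenerate unitary form). -/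
theorem result {F : Type*} [Field F] [Fintype F] (hodd : Odd (Fintype.card F)) (H : Subgroup (Matrix.GeneralLinearGroup (Unit ⊕ (Fin 4 ⊕ Fin 4)) F)) (hH : Cfsg.Geo.IsMaximalIn (Cfsg.Geo.omegaGL (Cfsg.quadFormOdd 4 F)) H) :
    (∃ W : Submodule F (Unit ⊕ (Fin 4 ⊕ Fin 4) → F), W ≠ ⊥ ∧ Cfsg.Geo.IsTotallySingularQuad (Cfsg.quadFormOdd 4 F) W ∧ H = Cfsg.Geo.subspaceStabilizer W ⊓ Cfsg.Geo.omegaGL (Cfsg.quadFormOdd 4 F)) ∨
    (∃ W : Submodule F (Unit ⊕ (Fin 4 ⊕ Fin 4) → F), W ≠ ⊥ ∧ Even (Module.finrank F W) ∧ Cfsg.Geo.IsNondegenerateOn (QuadraticMap.polar (Cfsg.quadFormOdd 4 F)) W ∧ ¬ (Fintype.card F = 3 ∧ Module.finrank F W = 2 ∧ Cfsg.Geo.IsPlusTypeOn (Cfsg.quadFormOdd 4 F) W) ∧ H = Cfsg.Geo.subspaceStabilizer W ⊓ Cfsg.Geo.omegaGL (Cfsg.quadFormOdd 4 F)) ∨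
    ((Fintype.card F).Prime ∧ ∃ D : Fin 9 → Submodule F (Unit ⊕ (Fin 4 ⊕ Fin 4) → F), Cfsg.Geo.IsOrthogonalMDecomposition (Cfsg.quadFormOdd 4 F) 1 D ∧ H = Cfsg.Geo.decompositionStabilizer D ⊓ Cfsg.Geo.omegaGL (Cfsg.quadFormOdd 4 F)) ∨
    (5 ≤ Fintype.card F ∧ ∃ D : Fin 3 → Submodule F (Unit ⊕ (Fin 4 ⊕ Fin 4) → F), Cfsg.Geo.IsOrthogonalMDecomposition (Cfsg.quadFormOdd 4 F) 3 D ∧ H = Cfsg.Geo.decompositionStabilizer D ⊓ Cfsg.Geo.omegaGL (Cfsg.quadFormOdd 4 F)) ∨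
    (∃ K : Subalgebra F (Matrix (Unit ⊕ (Fin 4 ⊕ Fin 4)) (Unit ⊕ (Fin 4 ⊕ Fin 4)) F), Cfsg.Geo.IsFieldSubalgebra 3 K ∧ Cfsg.Geo.IsSelfAdjointFor (QuadraticMap.polar (Cfsg.quadFormOdd 4 F)) K ∧ H = Cfsg.Geo.subalgebraNormalizer K ⊓ Cfsg.Geo.omegaGL (Cfsg.quadFormOdd 4 F)) ∨
    (∃ (F₀ : Subfield F) (r : ℕ) (P : Matrix.GeneralLinearGroup (Unit ⊕ (Fin 4 ⊕ Fin 4)) F), r.Prime ∧ Fintype.card F = Nat.card F₀ ^ r ∧ Cfsg.Geo.IsQuadFormRationalStructure (Cfsg.quadFormOdd 4 F) F₀ P ∧ H = Cfsg.Geo.subfieldSubgroup F₀ P ⊓ Cfsg.Geo.omegaGL (Cfsg.quadFormOdd 4 F)) ∨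
    (5 ≤ Fintype.card F ∧ ∃ (e : (Unit ⊕ (Fin 4 ⊕ Fin 4)) ≃ (Fin 2 → Fin 3)) (P : Matrix.GeneralLinearGroup (Unit ⊕ (Fin 4 ⊕ Fin 4)) F) (f₁ : (Fin 3 → F) → (Fin 3 → F) → F), Cfsg.Geo.IsSymmetricForm f₁ ∧ Cfsg.Geo.IsTensorPowerFormStructure id (QuadraticMap.polar (Cfsg.quadFormOdd 4 F)) f₁ e P ∧ H = Cfsg.Geo.tensorWreathSubgroup 3 2 e P ⊓ Cfsg.Geo.omegaGL (Cfsg.quadFormOdd 4 F)) ∨
    Cfsg.Geo.InOrthogonalResidualClass H := by
  rcases H11.odd_max_cases hodd (by omega) hH with ⟨X, hX, rfl⟩ | h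
  swap
  · exact .inr (.inr (.inr (.inr (.inr (.inr (.inr h))))))
  have hN : Fintype.card (Unit ⊕ (Fin 4 ⊕ Fin 4)) = 9 := by simp
  have h5 : Fintype.card F ≠ 3 → 5 ≤ Fintype.card F := fun h3 => by
    have := Fintype.one_lt_card (α := F)
    rw [Nat.odd_iff] at hodd
    omega
  cases hX with
  | sing W h0 hW => exact .inl ⟨W, h0, hW, rfl⟩
  | nondeg W h0 he hW h3 => exact .inr (.inl ⟨W, h0, he, hW, h3, rfl⟩)
  | dec t k D hk h3 hD =>
    have h1 := H98.IsMDecomposition_mul_eq hD.decomp.decomp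
    have h2 := hD.decomp.decomp.two_le
    rw [hN] at h1
    have hk9 : k ≤ 4 := by nlinarith
    obtain ⟨rfl, rfl⟩ : t = 3 ∧ k = 3 := by interval_cases k <;> omega
    exact .inr (.inr (.inr (.inl ⟨h5 fun e => h3 ⟨e, rfl⟩, D, hD, rfl⟩)))
  | frame t D hp hD =>
    have h1 := H98.IsMDecomposition_mul_eq hD.decomp.decomp
    rw [hN, mul_one] at h1
    subst h1
    exact .inr (.inr (.inl ⟨hp, D, hD, rfl⟩))
  | fld r K hr hn hK hs =>
    have h1 := H98.IsFieldSubalgebra_dvd_card hK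
    rw [hN] at h1
    obtain rfl : r = 3 :=
      (Nat.prime_dvd_prime_iff_eq hr Nat.prime_three).1 (hr.dvd_of_dvd_pow (n := 2) h1)
    exact .inr (.inr (.inr (.inr (.inl ⟨K, hK, hs, rfl⟩))))
  | tens a b e P f₁ f₂ ha hab h₁ h₂ hT =>
    have h1 := Fintype.card_congr e
    rw [hN, Fintype.card_prod, Fintype.card_fin, Fintype.card_fin] at h1
    nlinarith
  | sub F₀ r P hr hc hP =>
    exact .inr (.inr (.inr (.inr (.inr (.inl ⟨F₀, r, P, hr, hc, hP, rfl⟩)))))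
  | wr k t e P f₁ hk ht h3 h₁ hT =>
    have h1 := Fintype.card_congr e
    rw [hN, Fintype.card_fun, Fintype.card_fin, Fintype.card_fin] at h1
    have h2 : k ^ 2 ≤ 9 := h1 ▸ Nat.pow_le_pow_right (by omega) ht
    obtain rfl : k = 3 := by nlinarith
    obtain rfl : t = 2 := Nat.pow_right_injective (show 2 ≤ 3 by omega) h1.symm
    exact .inr (.inr (.inr (.inr (.inr (.inr (.inl
      ⟨h5 fun e => h3 ⟨e, rfl⟩, e, P, f₁, h₁, hT, rfl⟩))))))

end Cfsg.Agent.S5835
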