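import Cfsg.Statements.S5859
import Cfsg.Agent.H11.OOdd

set_option autoImplicit false
open Cfsg

namespace Cfsg.Agent.S5859

/-- Every maximal subgroup of Ω_11(q), q odd, is of one of the listed geometric types or lies in the residual class. Let F be a finite field of odd order q, Q the standard quadratic form x₀² + Σ x_i y_i on F^11 (coordinates Unit ⊕ (Fin 5 ⊕ Fin 5)), Ω the commutator subgroup of its isometry group, and H a maximal subgroup of Ω (inside GL_11(F)). Then H is the intersection with Ω of one of: the stabiliser of a non-zero totally singular subspace; the stabiliser of a non-zero non-degenerate subspace of even dimension (not a plus-type plane when q = 3); for q prime, the stabiliser of a decomposition into eleven pairwise orthogonal, pairwise isometric non-degenerate 1-spaces; a subfield group (|F| = |F₀|^r, r prime) whose F₀-structure carries Q — or else H lies in the residual class of the orthogonal case (modulo scalars H is almost simple,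 with absolutely irreducible perfect socle preimage realisable over no proper subfield and fixing no non-degenerate unitary form). -/
theorem result {F : Type*} [Field F] [Fintype F] (hodd : Odd (Fintype.card F)) (H : Subgroup (Matrix.GeneralLinearGroup (Unit ⊕ (Fin 5 ⊕ Fin 5)) F)) (hH : Cfsg.Geo.IsMaximalIn (Cfsg.Geo.omegaGL (Cfsg.quadFormOdd 5 F)) H) :
    (∃ W : Submodule F (Unit ⊕ (Fin 5 ⊕ Fin 5) → F), W ≠ ⊥ ∧ Cfsg.Geo.IsTotallySingularQuad (Cfsg.quadFormOdd 5 F) W ∧ H = Cfsg.Geo.subspaceStabilizer W ⊓ Cfsg.Geo.omegaGL (Cfsg.quadFormOdd 5 F)) ∨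
    (∃ W : Submodule F (Unit ⊕ (Fin 5 ⊕ Fin 5) → F), W ≠ ⊥ ∧ Even (Module.finrank F W) ∧ Cfsg.Geo.IsNondegenerateOn (QuadraticMap.polar (Cfsg.quadFormOdd 5 F)) W ∧ ¬ (Fintype.card F = 3 ∧ Module.finrank F W = 2 ∧ Cfsg.Geo.IsPlusTypeOn (Cfsg.quadFormOdd 5 F) W) ∧ H = Cfsg.Geo.subspaceStabilizer W ⊓ Cfsg.Geo.omegaGL (Cfsg.quadFormOdd 5 F)) ∨
    ((Fintype.card F).Prime ∧ ∃ D : Fin 11 → Submodule F (Unit ⊕ (Fin 5 ⊕ Fin 5) → F), Cfsg.Geo.IsOrthogonalMDecomposition (Cfsg.quadFormOdd 5 F) 1 D ∧ H = Cfsg.Geo.decompositionStabilizer D ⊓ Cfsg.Geo.omegaGL (Cfsg.quadFormOdd 5 F)) ∨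
    (∃ (F₀ : Subfield F) (r : ℕ) (P : Matrix.GeneralLinearGroup (Unit ⊕ (Fin 5 ⊕ Fin 5)) F), r.Prime ∧ Fintype.card F = Nat.card F₀ ^ r ∧ Cfsg.Geo.IsQuadFormRationalStructure (Cfsg.quadFormOdd 5 F) F₀ P ∧ H = Cfsg.Geo.subfieldSubgroup F₀ P ⊓ Cfsg.Geo.omegaGL (Cfsg.quadFormOdd 5 F)) ∨
    Cfsg.Geo.InOrthogonalResidualClass H := by
  rcases H11.odd_max_cases hodd (by omega) hH with ⟨X, hX, rfl⟩ | h
  swap
  · exact .inr (.inr (.inr (.inr h)))
  have hN : Fintype.card (Unit ⊕ (Fin 5 ⊕ Fin 5)) = 11 := by simp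
  have hp : Nat.Prime 11 := by norm_num
  cases hX with
  | sing W h0 hW => exact .inl ⟨W, h0, hW, rfl⟩
  | nondeg W h0 he hW h3 => exact .inr (.inl ⟨W, h0, he, hW, h3, rfl⟩)
  | dec t k D hk h3 hD =>
    have h1 := H98.IsMDecomposition_mul_eq hD.decomp.decomp
    have h2 := hD.decomp.decomp.two_le
    rw [hN] at h1
    rcases (Nat.dvd_prime hp).1 (Dvd.intro_left t h1) with e | e <;> subst e <;> omega
  | frame t D hp hD =>
    have h1 := H98.IsMDecomposition_mul_eq hD.decomp.decomp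
    rw [hN, mul_one] at h1
    subst h1
    exact .inr (.inr (.inl ⟨hp, D, hD, rfl⟩))
  | fld r K hr hn hK hs =>
    have h1 := H98.IsFieldSubalgebra_dvd_card hK
    rw [hN] at h1 hn
    exact absurd ((Nat.prime_dvd_prime_iff_eq hr hp).1 h1).symm hn
  | tens a b e P f₁ f₂ ha hab h₁ h₂ hT =>
    have h1 := Fintype.card_congr e
    rw [hN, Fintype.card_prod, Fintype.card_fin, Fintype.card_fin] at h1
    rcases (Nat.dvd_prime hp).1 (Dvd.intro b h1.symm) with e | e <;> subst e <;> omega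
  | sub F₀ r P hr hc hP => exact .inr (.inr (.inr (.inl ⟨F₀, r, P, hr, hc, hP, rfl⟩)))
  | wr k t e P f₁ hk ht h3 h₁ hT =>
    have h1 := Fintype.card_congr e
    rw [hN, Fintype.card_fun, Fintype.card_fin, Fintype.card_fin] at h1
    have := (Nat.Prime.eq_one_of_pow (h1 ▸ hp))
    omega

end Cfsg.Agent.S5859
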