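import Cfsg.Statements.S5877
import Cfsg.Agent.H99.Xs1
import Cfsg.Agent.H98.Basic

set_option autoImplicit false
open Cfsg

namespace Cfsg.Agent.S5877

/-- Eigenspaces of elements normalising an absolutely irreducible extraspecial group. Let F be a finite field, r a prime, and R ≤ GL_n(F) an absolutely irreducible extraspecial r-group (an r-group whose centre equals its derived subgroup and has order r) of exponent r or 4. Let g ∈ GL_n(F) normalise the product of R with the scalar matrices, have prime order ϖ and not be scalar, and let W be the eigenspace of g for any c ∈ F (W may be the zero subspace). Then dim W ≤ 3n/4 if ϖ = 2, dim W ≤ 2n/3 if ϖ = 3, and dim W ≤ n/2 if ϖ > 3; moreover if ϖ = 3 and 3 does not divide n then dim W ≤ n/2. -/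
theorem result {F : Type*} [Field F] [Fintype F] {n r ϖ : ℕ} (R : Subgroup (Matrix.GeneralLinearGroup (Fin n) F)) (hr : r.Prime) (hR : IsPGroup r R) (hZ : Nat.card (Subgroup.center R) = r) (hext : commutator R = Subgroup.center R) (hexp : Monoid.exponent R = r ∨ Monoid.exponent R = 4) (hirr : Cfsg.Geo.ActsAbsolutelyIrreducibly (Cfsg.Geo.matrixSet R)) (g : Matrix.GeneralLinearGroup (Fin n) F) (hg : g ∈ Cfsg.Geo.subgroupNormalizer (R ⊔ Cfsg.Geo.scalars (Fin n) F)) (hϖ : ϖ.Prime) (hord : orderOf g = ϖ) (hns : g ∉ Cfsg.Geo.scalars (Fin n) F) (c : F) :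
    (ϖ = 2 → 4 * Module.finrank F (Module.End.eigenspace (Matrix.toLin' (g : Matrix (Fin n) (Fin n) F)) c) ≤ 3 * n) ∧
    (ϖ = 3 → 3 * Module.finrank F (Module.End.eigenspace (Matrix.toLin' (g : Matrix (Fin n) (Fin n) F)) c) ≤ 2 * n) ∧
    (3 < ϖ → 2 * Module.finrank F (Module.End.eigenspace (Matrix.toLin' (g : Matrix (Fin n) (Fin n) F)) c) ≤ n) ∧
    (ϖ = 3 → ¬ 3 ∣ n → 2 * Module.finrank F (Module.End.eigenspace (Matrix.toLin' (g : Matrix (Fin n) (Fin n) F)) c) ≤ n) := by

  haveI : Nonempty (Fin n) := by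
    by_contra h
    rw [not_nonempty_iff] at h
    haveI : Subsingleton (GL (Fin n) F) := ⟨fun a b => Units.ext (Subsingleton.elim _ _)⟩
    exact hns (by rw [Subsingleton.elim g 1]; exact one_mem _)
  let ρ : Representation F (GL (Fin n) F) (Fin n → F) :=
    { toFun := fun h => Matrix.toLin' (h : Matrix (Fin n) (Fin n) F)
      map_one' := by simp [Module.End.one_eq_id]
      map_mul' := fun a b => by simp [Matrix.toLin'_mul, Module.End.mul_eq_comp] }
  let z : Fˣ →* GL (Fin n) F :=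
    Units.map (Matrix.scalar (Fin n) : F →+* Matrix (Fin n) (Fin n) F).toMonoidHom
  have hzs : ∀ a, z a = H98.scal (Fin n) a := fun _ => rfl
  have hz : ∀ a, ρ (z a) = (a : F) • (1 : Module.End F (Fin n → F)) := fun a => by
    change Matrix.toLin' ((H98.scal (Fin n) a : GL (Fin n) F) : Matrix (Fin n) (Fin n) F) = _
    rw [H98.coe_scal]
    simp [Module.End.one_eq_id]
  have hzc : ∀ a h, z a * h = h * z a := fun a h => H98.scal_comm a h
  have hnd0 : ∀ h : GL (Fin n) F, (∀ y ∈ R, Commute h y) → h ∈ z.range := fun h hh => by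
    obtain ⟨d, hd⟩ := hirr.2 h (by
      rintro _ ⟨y, hy, rfl⟩
      exact congrArg Units.val (hh y hy).eq)
    exact H98.mem_scalars_of_coe_eq hd
  have hR0 : ∀ s ∈ R, ∀ t ∈ R, ∃ a : Fˣ, a ^ r = 1 ∧ s * t = z a * (t * s) := by
    intro s hs t ht
    have h1 : (⟨s, hs⟩ : R) * ⟨t, ht⟩ * (⟨s, hs⟩ : R)⁻¹ * (⟨t, ht⟩ : R)⁻¹ ∈ Subgroup.center R := by
      rw [← hext, commutator_def]
      exact Subgroup.commutator_mem_commutator (Subgroup.mem_top _) (Subgroup.mem_top _)
    obtain ⟨a, ha⟩ := hnd0 (s * t * s⁻¹ * t⁻¹) fun y hy =>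
      (congrArg Subtype.val (Subgroup.mem_center_iff.1 h1 ⟨y, hy⟩)).symm
    have h2 := pow_card_eq_one' (x := (⟨_, h1⟩ : Subgroup.center R))
    rw [hZ] at h2
    have h3 : (s * t * s⁻¹ * t⁻¹) ^ r = 1 := congrArg (fun u : Subgroup.center R => ((u : R) : GL (Fin n) F)) h2
    refine ⟨a, H98.scal_injective (ι := Fin n) ?_, by rw [ha]; group⟩
    rw [← hzs, ← hzs, map_pow, ha, h3, map_one]
  set S := R ⊔ Cfsg.Geo.scalars (Fin n) F with hSdef
  have hdec : ∀ s ∈ S, ∃ u ∈ R, ∃ a, s = z a * u := by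
    let T : Subgroup (GL (Fin n) F) :=
      { carrier := {s | ∃ u ∈ R, ∃ a, s = z a * u}
        one_mem' := ⟨1, R.one_mem, 1, by simp⟩
        mul_mem' := by
          rintro _ _ ⟨u, hu, a, rfl⟩ ⟨v, hv, b, rfl⟩
          refine ⟨u * v, R.mul_mem hu hv, a * b, ?_⟩
          rw [map_mul, mul_assoc, ← mul_assoc u, ← hzc]; group
        inv_mem' := by
          rintro _ ⟨u, hu, a, rfl⟩
          exact ⟨u⁻¹, R.inv_mem hu, a⁻¹, by rw [mul_inv_rev, hzc, map_inv]⟩ }
    have : S ≤ T := sup_le (fun u hu => ⟨u, hu, 1, by simp⟩) (by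
      rintro _ ⟨a, rfl⟩
      exact ⟨1, R.one_mem, a, (mul_one _).symm⟩)
    exact fun s hs => this hs
  have hS : ∀ s ∈ S, ∀ t ∈ S, ∃ a : Fˣ, a ^ r = 1 ∧ s * t = z a * (t * s) := by
    intro s hs t ht
    obtain ⟨u, hu, a, rfl⟩ := hdec s hs
    obtain ⟨v, hv, b, rfl⟩ := hdec t ht
    obtain ⟨d, hd, e⟩ := hR0 u hu v hv
    refine ⟨d, hd, ?_⟩
    calc z a * u * (z b * v) = z a * (u * z b) * v := by group
      _ = z (a * b) * (u * v) := by rw [← hzc, map_mul]; group
      _ = z (d * (b * a)) * (v * u) := by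
        rw [e, ← mul_assoc, ← map_mul]; congr 2; ac_rfl
      _ = z d * (z b * (z a * v) * u) := by rw [map_mul, map_mul]; group
      _ = _ := by rw [hzc a v]; group
  have hnd : ∀ h : GL (Fin n) F, (∀ y ∈ S, Commute h y) → h ∈ z.range := fun h hh =>
    hnd0 h fun y hy => hh y (Subgroup.mem_sup_left hy)
  have hg' : ∀ s ∈ S, g * s * g⁻¹ ∈ S := fun s hs => (Subgroup.mem_normalizer_iff.1 hg s).1 hs
  have hgw : g ^ ϖ = 1 := hord ▸ pow_orderOf_eq_one g
  have hV : Module.finrank F (Fin n → F) = n := by simp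
  have B1 := H99.Xs.bound_one hz hr hS hnd hg' hns c
  have B2 := fun h1 h2 => H99.Xs.bound_two hz hr hS hnd hg' hns hzc (w := ϖ) h1 hgw h2 c
  rw [hV] at B1 B2
  change _ ∧ (_ → 3 * Module.finrank F (Module.End.eigenspace (ρ g) c) ≤ _) ∧ _
  refine ⟨fun _ => B1.1, fun h3 => ?_, fun h3 => B2 (hϖ.odd_of_ne_two (by omega)) ?_,
    fun h3 hn => B2 (by rw [h3]; decide) (Or.inl ?_)⟩
  · rcases eq_or_ne r 2 with rfl | h2
    · have := B2 (by rw [h3]; decide) (Or.inl (by rw [h3]; decide))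
      omega
    · exact B1.2 h2
  · rcases eq_or_ne ϖ r with rfl | h
    · exact Or.inr h3
    · exact Or.inl ((Nat.coprime_primes hϖ hr).2 h)
  · refine (Nat.coprime_primes hϖ hr).2 fun h => hn ?_
    rw [← h3, h]
    by_contra hrn
    have hcomm : ∀ s t : R, s * t = t * s := by
      intro s t
      obtain ⟨a, ha, e⟩ := hR0 s s.2 t t.2
      have h1 := congrArg (fun u : GL (Fin n) F => (u : Matrix (Fin n) (Fin n) F).det) e
      simp only [Units.val_mul, Matrix.det_mul, hzs, H98.coe_scal, Matrix.det_smul, Matrix.det_one,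
        Fintype.card_fin, mul_one] at h1
      have h2 : ((s : GL (Fin n) F) : Matrix (Fin n) (Fin n) F).det *
          ((t : GL (Fin n) F) : Matrix (Fin n) (Fin n) F).det ≠ 0 :=
        mul_ne_zero (Matrix.GeneralLinearGroup.det_ne_zero _) (Matrix.GeneralLinearGroup.det_ne_zero _)
      rw [mul_comm (Matrix.det ((t : GL (Fin n) F) : Matrix (Fin n) (Fin n) F))] at h1
      have h4 : a ^ n = 1 := Units.ext (by
        rw [Units.val_pow_eq_pow_val]
        exact (mul_eq_right₀ h2).1 h1.symm)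
      have h5 : a = 1 := by
        by_contra h1
        exact H99.Xs.pow_ne_one hr h1 ha hrn h4
      rw [h5, map_one, one_mul] at e
      exact Subtype.ext e
    have h1 : commutator R = ⊥ := by
      rw [commutator_def, Subgroup.commutator_eq_bot_iff_le_centralizer]
      intro s _ t _
      exact hcomm t s
    rw [← hext, h1, Subgroup.card_bot] at hZ
    exact hr.one_lt.ne hZ

end Cfsg.Agent.S5877
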