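import Cfsg.Statements.S5944

set_option autoImplicit false
open Cfsg

namespace Cfsg.Agent.S5944

/-- For n ≠ 4, every proper subgroup of the symmetric group S_n other than the alternating group A_n has index at least n. -/
theorem result (n : ℕ) (hn : n ≠ 4) (H : Subgroup (Equiv.Perm (Fin n))) (hH : H ≠ ⊤) (hA : H ≠ alternatingGroup (Fin n)) : n ≤ H.index := by
  by_contra hlt
  push Not at hlt
  have h0 : H.index ≠ 0 := Subgroup.index_ne_zero_of_finite
  have h1 : H.index ≠ 1 := fun h => hH (Subgroup.index_eq_one.1 h)
  have h2 : H.index ≠ 2 := fun h => hA (Equiv.Perm.eq_alternatingGroup_of_index_eq_two h)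
  have h5 : 5 ≤ n := by omega
  have hcore : Nontrivial H.normalCore := by
    rw [Subgroup.nontrivial_iff_ne_bot]
    intro hbot
    rw [Subgroup.normalCore_eq_ker, MonoidHom.ker_eq_bot_iff] at hbot
    have := Nat.card_le_card_of_injective _ hbot
    rw [Nat.card_perm, Nat.card_perm, ← Subgroup.index_eq_card, Nat.card_eq_fintype_card,
      Fintype.card_fin] at this
    exact absurd ((Nat.factorial_lt (by omega)).2 hlt) (not_lt.2 this)
  have hle : alternatingGroup (Fin n) ≤ H :=
    (Equiv.Perm.alternatingGroup_le_of_normal (by simpa using h5) hcore).trans H.normalCore_le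
  have hdvd := Subgroup.index_dvd_of_le hle
  have : Nontrivial (Fin n) := Fin.nontrivial_iff_two_le.2 (by omega)
  rw [alternatingGroup.index_eq_two] at hdvd
  have := Nat.le_of_dvd (by norm_num) hdvd
  omega

end Cfsg.Agent.S5944
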