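import Cfsg.Statements.S5945
import Cfsg.Agent.H99.SymAut

set_option autoImplicit false
open Cfsg

namespace Cfsg.Agent.S5945

open Equiv MulAction

/-- The symmetric group S_6 has exactly 12 subgroups of index 6; each of them is isomorphic to S_5, and at least one of them is not the stabilizer of any point. -/
theorem result : Nat.card {H : Subgroup (Equiv.Perm (Fin 6)) // H.index = 6} = 12 ∧ (∀ H : Subgroup (Equiv.Perm (Fin 6)), H.index = 6 → Nonempty (H ≃* Equiv.Perm (Fin 5))) ∧ ∃ H : Subgroup (Equiv.Perm (Fin 6)), H.index = 6 ∧ ∀ a : Fin 6, H ≠ MulAction.stabilizer (Equiv.Perm (Fin 6)) a := by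
  classical
  have h6 : Fintype.card (Fin 6) = 6 := rfl
  obtain ⟨K, hK, hK'⟩ := H99.exists_index_six h6
  refine ⟨?_, fun H hH => ?_, K, hK, hK'⟩
  · have hc : Nat.card (Perm (Fin 6) ⧸ K) = 6 := by rw [← Subgroup.index_eq_card, hK]
    obtain ⟨χ, hχ⟩ := H99.exists_coset_equiv (by omega) K (by omega)
    let f : Fin 6 ⊕ (Perm (Fin 6) ⧸ K) → {H : Subgroup (Perm (Fin 6)) // H.index = 6} := fun s =>
      match s with
      | .inl a => ⟨stabilizer _ a, by rw [index_stabilizer_of_transitive]; simp⟩
      | .inr q => ⟨stabilizer _ q, by rw [index_stabilizer_of_transitive, hc]⟩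
    have hinj : ∀ {X : Type} (a b : X), stabilizer (Perm X) a = stabilizer (Perm X) b →
        2 < Nat.card X → a = b := by
      intro X a b h hX
      by_contra hab
      have : Finite X := Nat.finite_of_card_ne_zero (by omega)
      have := Fintype.ofFinite X
      obtain ⟨c, hc⟩ : ∃ c, c ∉ ({a, b} : Finset X) := by
        by_contra hcon
        push Not at hcon
        have h1 := Finset.eq_univ_of_forall hcon
        have h2 := Finset.card_le_two (a := a) (b := b)
        rw [h1, Finset.card_univ, ← Nat.card_eq_fintype_card] at h2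
        omega
      simp only [Finset.mem_insert, Finset.mem_singleton, not_or] at hc
      have h1 : swap b c ∈ stabilizer (Perm X) a := swap_apply_of_ne_of_ne hab (Ne.symm hc.1)
      rw [h] at h1
      exact hc.2 ((swap_apply_left b c).symm.trans h1)
    have hne : ∀ (a : Fin 6) (q : Perm (Fin 6) ⧸ K), stabilizer (Perm (Fin 6)) a ≠ stabilizer _ q := by
      intro a q h
      obtain ⟨g, hg⟩ := exists_smul_eq (Perm (Fin 6)) q ((1 : Perm (Fin 6)) : _ ⧸ K)
      apply hK' (g • a)
      rw [stabilizer_smul_eq_stabilizer_map_conj, h, ← stabilizer_smul_eq_stabilizer_map_conj, hg,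
        stabilizer_quotient]
    have hf : Function.Bijective f := by
      constructor
      · rintro (a | a) (b | b) h
        · rw [hinj a b (congrArg Subtype.val h) (by simp)]
        · exact absurd (congrArg Subtype.val h) (hne a b)
        · exact absurd (congrArg Subtype.val h).symm (hne b a)
        · have h1 : stabilizer (Perm (Fin 6)) a = stabilizer _ b := congrArg Subtype.val h
          rw [← H99.map_symm_stabilizer χ hχ, ← H99.map_symm_stabilizer χ hχ] at h1
          rw [hinj a b (Subgroup.map_injective χ.symm.injective h1) (by omega)]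
      · rintro ⟨H, hH⟩
        by_cases h : ∃ a : Fin 6, H = stabilizer (Perm (Fin 6)) a
        · obtain ⟨a, rfl⟩ := h
          exact ⟨.inl a, rfl⟩
        · push Not at h
          obtain ⟨q, rfl⟩ := H99.index_six_cases h6 hK hK' hH h
          exact ⟨.inr q, rfl⟩
    rw [← Nat.card_eq_of_bijective f hf, Nat.card_sum, hc]
    simp
  · obtain ⟨φ, hφ⟩ := H99.exists_coset_equiv (by omega) H (by omega)
    have hc : Fintype.card (Perm (Fin 6) ⧸ H) = 5 + 1 := by
      rw [← Nat.card_eq_fintype_card, ← Subgroup.index_eq_card, hH]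
    obtain ⟨e⟩ := H99.stabilizer_equiv_perm ((1 : Perm (Fin 6)) : _ ⧸ H) hc
    have h1 := H99.map_symm_stabilizer φ hφ ((1 : Perm (Fin 6)) : _ ⧸ H)
    rw [stabilizer_quotient] at h1
    exact ⟨((MulEquiv.subgroupCongr h1).symm.trans (φ.symm.subgroupMap _).symm).trans e⟩

end Cfsg.Agent.S5945
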