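import Cfsg.Statements.S5950
import Cfsg.Agent.H99.ElJordan

set_option autoImplicit false
open scoped MatrixGroups
open Cfsg

namespace Cfsg.Agent.S5950

/-- Elements of prime order of PSL_n(q) fixing no decomposition `F^n = U ⊕ W` with `dim U = m`. Here `T = PSL_n(F)` for a field `F` with `q = p^f` elements (`n ≥ 2`, `(n, q) ≠ (2, 2), (2, 3)`); an element of `T` of prime order `r` is represented by a matrix `x` of determinant 1 with `x^r` scalar and `x` not scalar; `i` denotes the multiplicative order of `q` modulo `r` (when `r ≠ p`), and `(a)_r` the `r`-part of `a`. Let `n ≥ 3`, `1 ≤ m < n/2`, and let `r` be a prime dividing the number of such decompositions (unordered pairs `{U, W}` of complementary subspaces with `dim U = m`; since `m ≠ n − m` these are the ordered pairs with `dim U = m`). Then every element of `T` of order `r` fixes such a pair (fixes both `U` and `W` for some complementary `U, W` with `dim U = m`) if and only if one of: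 (i) `r = p > 2` and every partition of `n` into parts of size at most `p` contains, as a sub-multiset, a partition of `m`; (ii) `r = p = 2` and `n` is odd or `m` is even; (iii) `r ≠ p`, `i = 1`, and `r ∣ m` or `(q−1)_r ≥ (n)_r` (with `q ≡ 1 (mod 4)` required when `r = 2` and `n` is even); (iv) `r ≠ p`, `2 ≤ i ≤ m` and `n mod i ≥ m mod i`. -/
theorem result {F : Type*} [Field F] [Fintype F] {p : ℕ} [Fact p.Prime] [CharP F p] {q : ℕ} (hq : Fintype.card F = q)
    (n m : ℕ) (hn : 3 ≤ n) (hm : 1 ≤ m) (hmn : 2 * m < n)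
    (r : ℕ) [Fact r.Prime]
    (hrΩ : r ∣ Nat.card {P : Submodule F (Fin n → F) × Submodule F (Fin n → F) // IsCompl P.1 P.2 ∧ Module.finrank F ↥P.1 = m}) :
    (∀ x : Matrix.SpecialLinearGroup (Fin n) F,
      (∃ c : F, ((x ^ r : Matrix.SpecialLinearGroup (Fin n) F) : Matrix (Fin n) (Fin n) F) = c • (1 : Matrix (Fin n) (Fin n) F)) →
      (∀ c : F, (x : Matrix (Fin n) (Fin n) F) ≠ c • (1 : Matrix (Fin n) (Fin n) F)) →
      ∃ U W : Submodule F (Fin n → F), IsCompl U W ∧ Module.finrank F ↥U = m ∧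
        U.map (Matrix.toLin' (x : Matrix (Fin n) (Fin n) F)) ≤ U ∧ W.map (Matrix.toLin' (x : Matrix (Fin n) (Fin n) F)) ≤ W) ↔
    ((r = p ∧ 2 < p ∧ (∀ μ : Multiset ℕ, (∀ a ∈ μ, 0 < a ∧ a ≤ p) → μ.sum = n → ∃ ν : Multiset ℕ, ν ≤ μ ∧ ν.sum = m)) ∨
     (r = p ∧ p = 2 ∧ (Odd n ∨ Even m)) ∨
     (r ≠ p ∧
      ((orderOf (q : ZMod r) = 1 ∧ (r ∣ m ∨ (padicValNat r n ≤ padicValNat r (q - 1) ∧ (r = 2 → Even n → q % 4 = 1)))) ∨
       (2 ≤ orderOf (q : ZMod r) ∧ orderOf (q : ZMod r) ≤ m ∧ m % orderOf (q : ZMod r) ≤ n % orderOf (q : ZMod r))))) := by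
  subst hq
  rw [H99.sl_forall_iff r (fun A => ∃ U W : Submodule F (Fin n → F), IsCompl U W ∧
    Module.finrank F ↥U = m ∧ U.map (Matrix.toLin' A) ≤ U ∧ W.map (Matrix.toLin' A) ≤ W)]
  simp only [← H99.tInv_iff_map]
  haveI : Nonempty (Fin n) := ⟨⟨0, by omega⟩⟩
  by_cases hrp : r = p
  · subst hrp
    have key : (∀ A : Matrix (Fin n) (Fin n) F, A.det = 1 → (∃ c : F, A ^ r = c • 1) →
        (∀ c : F, A ≠ c • 1) → ∃ U W : Submodule F (Fin n → F), IsCompl U W ∧
          Module.finrank F ↥U = m ∧ H99.TInv (Matrix.toLin' A) U ∧ H99.TInv (Matrix.toLin' A) W) ↔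
        (∀ μ : Multiset ℕ, (∀ a ∈ μ, 0 < a ∧ a ≤ r) → μ.sum = n →
          ∃ ν : Multiset ℕ, ν ≤ μ ∧ ν.sum = m) := by
      constructor
      · intro h μ hμ hs
        by_cases h1 : ∃ b ∈ μ, 1 < b
        · obtain ⟨b, hb, h1⟩ := h1
          obtain ⟨A, hd, hA, hns, hj⟩ := H99.exists_sl_jt (F := F) (ι := Fin n) hμ (by simpa) hb h1
          obtain ⟨U, W, hc, hU, hTU, hTW⟩ := h A hd ⟨1, by simpa⟩ hns
          rw [← hc.sup_eq_top] at hj
          obtain ⟨ν, ν', rfl, h2, -⟩ := hj.exists_le hTU hTW hc.inf_eq_bot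
          exact ⟨ν, Multiset.le_add_right _ _, h2.2.1.trans hU⟩
        · push Not at h1
          exact ⟨_, H99.exists_le_of_all_one (m := m) (fun a ha => (hμ a ha).1)
            (fun b hb => not_lt.2 (h1 b hb)) (by omega), by simp⟩
      · rintro h A hd ⟨z, hz⟩ -
        obtain ⟨c, hc, -, hu⟩ := H99.exists_unip_of_pow (by rw [hd]; exact one_ne_zero) hz
        obtain ⟨μ, hj, hle⟩ := H99.exists_jt (H99.TInv.top (c • Matrix.toLin' A)) (N := r)
          (fun w _ => by rw [hu]; rfl)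
        obtain ⟨ν, hν, hs⟩ := h μ (fun a ha => ⟨hj.1 a ha, hle a ha⟩) (by simpa using hj.2.1)
        obtain ⟨ν', rfl⟩ := Multiset.le_iff_exists_add.1 hν
        obtain ⟨U, W, hU, hW, hi, hs', h1, -⟩ := hj.split (H99.TInv.top _)
        exact ⟨U, W, ⟨disjoint_iff.2 hi, codisjoint_iff.2 hs'⟩, h1.2.1.symm.trans hs,
          hU.of_smul hc, hW.of_smul hc⟩
    rw [key]
    have h2 := (Fact.out : r.Prime).two_le
    rcases h2.eq_or_lt with rfl | h2
    · rw [H99.part_two_iff hm (by omega)]; simp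
    · have : r ≠ 2 := by omega
      simp [h2, this]
  · have hN : (r : F) ≠ 0 := H99.cast_ne_zero_of_ne hrp
    obtain ⟨j, hj, hjd⟩ := H99.dvd_of_dvd_card_compl (V := Fin n → F) hN (by simp; omega) hrΩ
    rw [Module.finrank_fin_fun] at hjd
    have := H99.sl_sub_iff hN hm (by omega) hj hjd
    simp only [hrp, ne_eq, not_false_eq_true, true_and, false_and, false_or]
    refine Iff.trans ?_ this
    refine forall_congr' fun A => forall_congr' fun hd => forall_congr' fun hz =>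
      forall_congr' fun _ => ⟨fun ⟨U, W, _, h1, h2, _⟩ => ⟨U, h1, h2⟩, fun ⟨U, h1, h2⟩ => ?_⟩
    obtain ⟨z, hz⟩ := hz
    obtain ⟨W, hW, -, hi, hs⟩ := H99.exists_compl_in
      (H99.sl_semisimple hN (by rw [hd]; exact one_ne_zero) hz) h2 (H99.TInv.top _) le_top
    exact ⟨U, W, ⟨disjoint_iff.2 hi, codisjoint_iff.2 hs⟩, h1, h2, hW⟩

end Cfsg.Agent.S5950
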