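import Cfsg.Statements.S5952
import Cfsg.Agent.H99.ElCore

set_option autoImplicit false
open Cfsg

namespace Cfsg.Agent.S5952

open Cfsg.Agent.H99

/-- Which dimensions of invariant subspaces a semisimple linear map has. Let `V` be a finite-dimensional vector space over a field `F` and `f` an invertible semisimple linear map of `V`. Suppose `V` is the internal direct sum of the fixed space `C_V(f)` (the eigenspace for 1) and subspaces `U_1, …, U_s`, each `f`-invariant of dimension `a ≥ 1` on which `f` acts irreducibly (no `f`-invariant subspaces other than 0 and `U_j`). Let `0 < m < dim V` and `ℓ = m mod a`. Then `f` leaves some `m`-dimensional subspace invariant if and only if `dim C_V(f) ≥ m`, or `a ≤ m` and `dim C_V(f) ≥ ℓ`. -/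
theorem result {F V : Type*} [Field F] [AddCommGroup V] [Module F V]
    [FiniteDimensional F V] (f : V →ₗ[F] V) (hf : Function.Bijective f) (hss : Module.End.IsSemisimple f)
    {s a : ℕ} (ha : 1 ≤ a) (U : Fin s → Submodule F V)
    (hUinv : ∀ j, (U j).map f ≤ U j) (hUdim : ∀ j, Module.finrank F ↥(U j) = a)
    (hUirr : ∀ j, ∀ W : Submodule F V, W ≤ U j → W.map f ≤ W → W = ⊥ ∨ W = U j)
    (hdec : DirectSum.IsInternal (fun o : Option (Fin s) => o.elim (Module.End.eigenspace f 1) U))
    (m : ℕ) (hm : 0 < m) (hmV : m < Module.finrank F V) :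
    (∃ W : Submodule F V, Module.finrank F ↥W = m ∧ W.map f ≤ W) ↔
    (m ≤ Module.finrank F ↥(Module.End.eigenspace f 1) ∨
      (a ≤ m ∧ m % a ≤ Module.finrank F ↥(Module.End.eigenspace f 1))) := by
  classical
  set E := Module.End.eigenspace f 1 with hE
  have hind := hdec.submodule_iSupIndep
  have htop := hdec.submodule_iSup_eq_top
  have hUi : ∀ j, TInv f (U j) := fun j => tInv_iff_map.2 (hUinv j)
  have hEi : ∀ X ≤ E, TInv f X := fun X hX => TInv.of_le_fix fun v hv => by
    simpa using Module.End.mem_eigenspace_iff.1 (hX hv)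
  have hdis : ∀ (S : Finset (Fin s)) (k : Fin s), k ∉ S → ∀ X ≤ E,
      (X ⊔ ⨆ j ∈ S, U j) ⊓ U k = ⊥ := by
    intro S k hk X hX
    have := hind (some k)
    rw [← disjoint_iff]
    refine (this.mono_right ?_).symm
    refine sup_le (hX.trans ?_) (iSup₂_le fun j hj => ?_)
    · exact le_iSup₂_of_le (f := fun o (_ : o ≠ some k) => o.elim E U) none (by simp) le_rfl
    · exact le_iSup₂_of_le (f := fun o (_ : o ≠ some k) => o.elim E U) (some j)
        (by rintro h; exact hk (Option.some.inj h ▸ hj)) le_rfl
  have hdim : ∀ (S : Finset (Fin s)), ∀ X ≤ E,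
      Module.finrank F (X ⊔ ⨆ j ∈ S, U j : Submodule F V) = Module.finrank F X + S.card * a := by
    intro S X hX
    induction S using Finset.induction_on with
    | empty =>
      have : (X ⊔ ⨆ j ∈ (∅ : Finset (Fin s)), U j) = X := by simp
      rw [this]; simp
    | insert k S hk ih =>
      rw [Finset.iSup_insert, sup_comm (U k), ← sup_assoc, finrank_sup_of_inf (hdis S k hk X hX), ih,
        hUdim, Finset.card_insert_of_notMem hk]
      ring
  have hinv : ∀ (S : Finset (Fin s)), ∀ X ≤ E, TInv f (X ⊔ ⨆ j ∈ S, U j) := fun S X hX =>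
    (hEi X hX).sup (TInv.iSup fun j => TInv.iSup fun _ => hUi j)
  have htop' : (E ⊔ ⨆ j ∈ (Finset.univ : Finset (Fin s)), U j) = ⊤ := by
    rw [eq_top_iff, ← htop]
    refine iSup_le fun o => ?_
    cases o with
    | none => exact le_sup_left
    | some j =>
      exact le_sup_of_le_right (le_iSup₂_of_le (f := fun j (_ : j ∈ Finset.univ) => U j) j
        (Finset.mem_univ j) le_rfl)
  have hn : Module.finrank F V = Module.finrank F E + s * a := by
    rw [← finrank_top, ← htop', hdim _ _ le_rfl]; simp
  have key : ∀ (S : Finset (Fin s)) (W : Submodule F V), TInv f W → W ≤ E ⊔ ⨆ j ∈ S, U j →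
      ∃ j, Module.finrank F W = Module.finrank F (W ⊓ E : Submodule F V) + j * a := by
    intro S
    induction S using Finset.induction_on with
    | empty =>
      intro W _ h
      exact ⟨0, by rw [inf_eq_left.2 (by simpa using h)]; simp⟩
    | insert k S hk ih =>
      intro W hW h
      rw [Finset.iSup_insert, sup_comm (U k), ← sup_assoc] at h
      set A := E ⊔ ⨆ j ∈ S, U j with hA
      obtain ⟨j, hj⟩ := ih (W ⊓ A) (hW.inf (hinv S E le_rfl)) inf_le_right
      rw [inf_assoc, inf_eq_right.2 (le_sup_left : E ≤ A)] at hj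
      have h1 := Submodule.finrank_sup_add_finrank_inf_eq W A
      have h2 : W ⊔ A = A ⊔ (U k ⊓ (W ⊔ A)) := by
        rw [← sup_inf_assoc_of_le _ (le_sup_right : A ≤ W ⊔ A), inf_eq_right.2 (sup_le h le_sup_left)]
      have h3 : Module.finrank F (W ⊔ A : Submodule F V) =
          Module.finrank F A + Module.finrank F (U k ⊓ (W ⊔ A) : Submodule F V) := by
        conv_lhs => rw [h2]
        apply finrank_sup_of_inf
        rw [eq_bot_iff, ← hdis S k hk E le_rfl]
        exact inf_le_inf_left _ inf_le_left
      rcases hUirr k (U k ⊓ (W ⊔ A)) inf_le_left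
        (tInv_iff_map.1 ((hUi k).inf (hW.sup (hinv S E le_rfl)))) with h4 | h4
      · rw [h4, finrank_bot] at h3
        exact ⟨j, by omega⟩
      · rw [h4, hUdim] at h3
        exact ⟨j + 1, by rw [add_mul]; omega⟩
  constructor
  · rintro ⟨W, rfl, hW⟩
    obtain ⟨j, hj⟩ := key Finset.univ W (tInv_iff_map.2 hW) (htop' ▸ le_top)
    have h1 : Module.finrank F (W ⊓ E : Submodule F V) ≤ Module.finrank F E :=
      Submodule.finrank_mono inf_le_right
    rcases Nat.eq_zero_or_pos j with rfl | hj0
    · left; omega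
    · right
      refine ⟨by nlinarith, ?_⟩
      rw [hj, Nat.add_mul_mod_self_right]
      exact (Nat.mod_le _ _).trans h1
  · intro h
    obtain ⟨j, hj, d, hd, rfl⟩ : ∃ j ≤ s, ∃ d ≤ Module.finrank F E, m = d + j * a := by
      rcases h with h | ⟨-, h⟩
      · exact ⟨0, Nat.zero_le _, m, h, by simp⟩
      · have h2 := Nat.mod_add_div' m a
        by_cases hs : m / a ≤ s
        · exact ⟨m / a, hs, m % a, h, h2.symm⟩
        · have : s * a ≤ m / a * a := Nat.mul_le_mul_right _ (by omega)
          exact ⟨s, le_rfl, m - s * a, by omega, by omega⟩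
    obtain ⟨X, -, hX, hXd⟩ := exists_le_finrank (bot_le (a := E)) (by simp) hd
    obtain ⟨S, -, hS⟩ := Finset.exists_subset_card_eq (s := (Finset.univ : Finset (Fin s))) (n := j)
      (by simpa using hj)
    exact ⟨_, by rw [hdim S X hX, hXd, hS], tInv_iff_map.1 (hinv S X hX)⟩

end Cfsg.Agent.S5952
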