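import Cfsg.Statements.S5953
import Cfsg.Agent.H99.FmHerm

set_option autoImplicit false
open scoped MatrixGroups
open Cfsg

namespace Cfsg.Agent.S5953

/-- Elements of prime order of PSU_n(q) with no fixed totally isotropic `m`-space. Here `T = PSU_n(q)` (`n ≥ 3`, `(n, q) ≠ (3, 2)`), realised through the matrices of determinant 1 over the field `F` with `q²` elements preserving the Hermitian form `h(u, v) = Σ u_i v_i^q`; an element of `T` of prime order `r` is such a matrix `x` with `x^r` scalar and `x` not scalar. For `r ≠ p` let `i` be the multiplicative order of `q` modulo `r`, `b = i/2` for `i` even and `b = i` for `i` odd, `c = i, i/2, 2i` according as `i ≡ 0, 2 (mod 4)` or `i` odd, and write `k = n mod c`, `ℓ = m mod b`, `ℓ' = m mod c`, `n' = ⌊n/b⌋`, `m' = ⌊m/b⌋`, `s = (r−1)/b`; `(a)_r` is the `r`-part of `a`. Let `1 ≤ m ≤ n/2` and let `r` be a prime dividing the number of totally isotropic `m`-spaces. Then every element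 of `T` of order `r` fixes a totally isotropic `m`-space if and only if either (i) `r = 2`, `p ≠ 2`, and (`m < n/2` or `(q+1)_2 ≤ (n)_2`); or (ii) `r ≠ p`, `r > 2`, `b ≤ m`, `k ≥ 2ℓ`, and either `i ≢ 2 (mod 4)`, or `i ≡ 2 (mod 4)`, `n' − 2m' ≥ s` and (`i > 2`, or `i = 2` and (`r ∣ m` or `(q+1)_r ≥ (n)_r`)). -/
theorem result {F : Type*} [Field F] [Fintype F] {p : ℕ} [Fact p.Prime] [CharP F p] {q : ℕ} (hq : Fintype.card F = q ^ 2)
    (n m : ℕ) (hn : 3 ≤ n) (hT : (n, q) ≠ (3, 2)) (hm : 1 ≤ m) (hmn : 2 * m ≤ n)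
    (r : ℕ) [Fact r.Prime]
    (hrΩ : r ∣ Nat.card {W : Submodule F (Fin n → F) // Module.finrank F ↥W = m ∧ (∀ u ∈ W, ∀ v ∈ W, Cfsg.hermForm n F q u v = 0)})
    (i b c : ℕ) (hi : i = orderOf (q : ZMod r)) (hb : b = if Even i then i / 2 else i)
    (hc : c = if i % 4 = 0 then i else if i % 4 = 2 then i / 2 else 2 * i) :
    (∀ x : Matrix.SpecialLinearGroup (Fin n) F, x ∈ Cfsg.SU n F q →
      (∃ z : F, ((x ^ r : Matrix.SpecialLinearGroup (Fin n) F) : Matrix (Fin n) (Fin n) F) = z • (1 : Matrix (Fin n) (Fin n) F)) →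
      (∀ z : F, (x : Matrix (Fin n) (Fin n) F) ≠ z • (1 : Matrix (Fin n) (Fin n) F)) →
      ∃ W : Submodule F (Fin n → F), Module.finrank F ↥W = m ∧ (∀ u ∈ W, ∀ v ∈ W, Cfsg.hermForm n F q u v = 0) ∧
        W.map (Matrix.toLin' (x : Matrix (Fin n) (Fin n) F)) ≤ W) ↔
    ((r = 2 ∧ p ≠ 2 ∧ (2 * m < n ∨ padicValNat 2 (q + 1) ≤ padicValNat 2 n)) ∨
     (r ≠ p ∧ 2 < r ∧ b ≤ m ∧ 2 * (m % b) ≤ n % c ∧
       (i % 4 ≠ 2 ∨ (i % 4 = 2 ∧ (r - 1) / b + 2 * (m / b) ≤ n / b ∧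
         (2 < i ∨ (i = 2 ∧ (r ∣ m ∨ padicValNat r n ≤ padicValNat r (q + 1)))))))) := by
  haveI := Fact.mk hq
  have hf := H10.isSesq_herm (F := F) (q := q) (n := n)
  haveI : Nonempty (Fin n) := ⟨⟨0, by omega⟩⟩
  have hr := (Fact.out : r.Prime)
  have hn' := Fintype.card_fin n
  have hrp : r ≠ p := by
    rintro rfl
    have h1 := H99.p_dvd_q (F := F) (q := q) (p := r)
    have h0 := H10.two_le_q F q
    have h2 : ∀ k, 0 < k → ¬ r ∣ q ^ k + 1 := fun k hk e => hr.one_lt.ne' (Nat.dvd_one.1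
      ((Nat.dvd_add_right (h1.trans (dvd_pow_self q hk.ne'))).1 e))
    have h3 : ∀ k, 0 < k → ¬ r ∣ q ^ k - 1 := fun k hk e => hr.one_lt.ne' (Nat.dvd_one.1
      ((Nat.dvd_add_right e).1 (by
        rw [Nat.sub_add_cancel (Nat.one_le_pow _ _ (by omega))]
        exact h1.trans (dvd_pow_self q hk.ne'))))
    refine H99.not_dvd_of_count (by positivity) (H11.card_ti_herm n m hmn) (fun i hi => ?_) hrΩ
    unfold H11.uIso
    split_ifs <;> rw [hr.dvd_mul, not_or]
    exacts [⟨h3 _ (by omega), h2 _ (by omega)⟩, ⟨h2 _ (by omega), h3 _ (by omega)⟩]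
  refine (H99.su_forall_iff r fun T => ∃ W : Submodule F (Fin n → F),
    Module.finrank F W = m ∧ H99.Ort (hermForm n F q) W W ∧ W.map T ≤ W).trans ?_
  simp only [← H99.tInv_iff_map]
  by_cases hr2 : r = 2
  · subst hr2
    have h2 : (2 : F) ≠ 0 := mt H99.two_eq_zero_iff.1 hrp.symm
    simp only [hrp.symm, lt_irrefl, ne_eq, not_false_eq_true, false_and, and_false, or_false,
      true_and]
    refine ⟨fun h => ?_, fun h T h1 h0 ⟨z, hz⟩ _ => ?_⟩
    · by_contra hc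
      rw [not_or, not_lt, not_le] at hc
      obtain ⟨w, S, w0, s1, s2, s3, s4, s5, s6⟩ := H99.exists_herm_refl (q := q) h2 (by omega) hc.2
      obtain ⟨W, w1, w2, w3⟩ := h _ s2 s3 ⟨w ^ 2, by rw [smul_pow, s4]⟩ fun z e =>
        H99.ne_smul_of_ti hf (by omega) (H99.ne_one_of_V0 (by omega)) s6 (w⁻¹ * z)
          (by rw [mul_smul, ← e]; simp [w0])
      have := (s1.nd_V0 hf s4 (by simpa using h2)).two_mul_le hf (s6 W w2 (w3.of_smul w0)) w2
      omega
    · obtain ⟨w, S, w0, rfl, s1, ⟨s2, s3⟩ | ⟨s2, s3⟩⟩ := H99.herm_two_cases hf h2 h1 hz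
      · obtain ⟨W, w1, w2, w3⟩ := s3.ti_sq_one hf (H99.herm_exists_ti hf) h2 s1 (m := m) (by
          have := H99.finrank_V0_add_V1 S
          rw [H99.finrank_fun'] at this
          rcases h with h | h
          · omega
          · obtain ⟨_, _⟩ := H99.herm_two_even h2 s1 h0 s2 (by rwa [hn'])
            omega)
        exact ⟨W, w1, w2, w3.smul w⟩
      · obtain ⟨W, w1, w2, w3⟩ := H99.anti_ti hf h2 s3 s1 (m := m) (by omega)
        exact ⟨W, w1, w2, w3.smul w⟩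
  have hr3 : 2 < r := lt_of_le_of_ne hr.two_le (Ne.symm hr2)
  have hN : (r : F) ≠ 0 := H99.cast_ne_zero_of_ne hrp
  have k := H99.pk_herm (p := p) hf hN hr2 hi hc
  have hb' := H99.ordF_herm (F := F) hi hb
  have hb0 := hb' ▸ H99.ordF_pos hN
  simp only [hr3, hr2, hrp, ne_eq, not_false_eq_true, false_and, false_or, true_and]
  simp only [Nat.even_iff] at hb
  by_cases h0 : r ∣ q + 1
  · have h1 := hi.trans ((H99.ord_eq_two_iff hN hr2).2 h0)
    obtain rfl : b = 1 := by simpa [h1] using hb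
    obtain rfl : c = 1 := by simpa [h1] using hc
    simp only [h1, hm, Nat.mod_one, Nat.div_one, lt_irrefl, not_true, false_or, true_and, le_refl,
      mul_zero, Nat.mod_succ]
    refine ⟨fun h => ⟨not_lt.1 fun hc => ?_, ?_⟩, fun h T h1 hd ⟨z, hz⟩ _ => ?_⟩
    · obtain ⟨u, hu⟩ := hr.odd_of_ne_two hr2
      obtain ⟨S, s1, s2, s3, s4, s5⟩ := H99.exists_herm_split (F := F) (n := n) h0
        (t := min u (n / 2)) (by omega) (by omega)
      obtain ⟨W, w1, w2, w3⟩ := h S s1 s2 ⟨1, by simpa⟩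
        (H99.ne_smul_of_ti hf (by omega) (H99.ne_one_of_V1 (by omega)) s5)
      have := (s1.nd_V0 hf s3 hN).two_mul_le hf (s5 W w2 w3) w2
      have := H99.finrank_V0_add_V1 S
      rw [H99.finrank_fun'] at this
      omega
    · by_contra hc
      rw [not_or, not_le] at hc
      obtain ⟨T, z, t1, t2, t3, t4⟩ := H99.exists_herm_nonpow (F := F) hr2 h0 (by omega) hc.2
      obtain ⟨W, w1, -, w3⟩ := h T t1 t2 ⟨z, t3⟩ (H99.ne_smul_of_nonpow t4 t3)
      exact hc.1 (w1 ▸ (H99.homog_of_nonpow t4 t3 W w3 le_top).1)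
    · rcases H99.herm_dich hr2 ((H99.norm_eq_pow z).symm.trans (h1.norm_of_pow hf hz)) with
        ⟨w, w1, w2⟩ | ⟨-, h2⟩
      · obtain ⟨a, b, c⟩ := H99.herm_reduce hf h1 hz w1 w2
        obtain ⟨W, w1, w2, w3⟩ := k.ti_suff (H99.herm_exists_ti hf) (m := m) (by omega)
          (by simp [hb', Nat.mod_one]) (fun _ => by simpa [hb'] using h.1) b c
        exact ⟨W, w1, w2, w3.of_smul a⟩
      · obtain ⟨j, rfl⟩ := h.2.resolve_right (H99.herm_nonpow_lt hr2 h0 hd hz h2).not_ge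
        rw [mul_comm r j] at hmn ⊢
        exact H99.herm_nonpow_ti hf h1 hN hr2 h0 hz h2 (by omega)
  have h1 := mt (H99.ord_eq_two_iff hN hr2).1 h0
  rw [← hi] at h1
  rw [H99.herm_forall_cop h0 _ fun T c h ⟨W, h1, h2, h3⟩ => ⟨W, h1, h2, h3.of_smul h⟩,
    k.ti_iff (H99.ws_herm hf H10.sig_ne_refl) (by omega) (H99.herm_exists_ti hf)
      (H99.exists_herm_V0 hN (H99.ord_neg hr2 (H99.not_dvd_q hN) hi hc) k.pos)
      (fun e T => H99.exists_herm_sim hN hr2 (by rw [← hi]; split_ifs at hb hc <;> omega)) hrΩ,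
    hb', hn']
  refine and_congr_right fun _ => and_congr_right fun _ => ?_
  split_ifs at hb hc <;> omega

end Cfsg.Agent.S5953
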