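import Cfsg.Statements.S5954
import Cfsg.Agent.H99.FmHerm

set_option autoImplicit false
open scoped MatrixGroups
open Cfsg

namespace Cfsg.Agent.S5954

/-- Elements of prime order of PSU_n(q) with no fixed nondegenerate `m`-space. Here `T = PSU_n(q)` (`n ≥ 3`, `(n, q) ≠ (3, 2)`), realised through the matrices of determinant 1 over the field `F` with `q²` elements preserving the Hermitian form `h(u, v) = Σ u_i v_i^q`; an element of `T` of prime order `r` is such a matrix `x` with `x^r` scalar and `x` not scalar. For `r ≠ p` let `i` be the multiplicative order of `q` modulo `r`, `b = i/2` for `i` even and `b = i` for `i` odd, `c = i, i/2, 2i` according as `i ≡ 0, 2 (mod 4)` or `i` odd, and write `k = n mod c`, `ℓ = m mod b`, `ℓ' = m mod c`, `n' = ⌊n/b⌋`, `m' = ⌊m/b⌋`, `s = (r−1)/b`; `(a)_r` is the `r`-part of `a`. Let `1 ≤ m < n/2` and let `r` be a prime dividing the number of nondegenerate `m`-spaces. Then every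 element of `T` of order `r` fixes a nondegenerate `m`-space if and only if one of: (i) `r = p > 2` and every partition of `n` into parts of size at most `p` contains (as a sub-multiset) a partition of `m`; (ii) `r = p = 2` and (`n` is odd or `m` is even); (iii) `r = 2 ≠ p` and (`n` is odd, or `m` is even, or `(q+1)_2 ≥ (n)_2` and `q ≡ 3 (mod 4)`); (iv) `r ≠ p`, `r > 2`, and either `i ≠ 2`, `c ≤ m` and `k ≥ ℓ'`, or `i = 2` and (`r ∣ m` or `(q+1)_r ≥ (n)_r`). -/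
theorem result {F : Type*} [Field F] [Fintype F] {p : ℕ} [Fact p.Prime] [CharP F p] {q : ℕ} (hq : Fintype.card F = q ^ 2)
    (n m : ℕ) (hn : 3 ≤ n) (hT : (n, q) ≠ (3, 2)) (hm : 1 ≤ m) (hmn : 2 * m < n)
    (r : ℕ) [Fact r.Prime]
    (hrΩ : r ∣ Nat.card {W : Submodule F (Fin n → F) // Module.finrank F ↥W = m ∧ (∀ u ∈ W, u ≠ 0 → ∃ v ∈ W, Cfsg.hermForm n F q u v ≠ 0)})
    (i b c : ℕ) (hi : i = orderOf (q : ZMod r)) (hb : b = if Even i then i / 2 else i)
    (hc : c = if i % 4 = 0 then i else if i % 4 = 2 then i / 2 else 2 * i) :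
    (∀ x : Matrix.SpecialLinearGroup (Fin n) F, x ∈ Cfsg.SU n F q →
      (∃ z : F, ((x ^ r : Matrix.SpecialLinearGroup (Fin n) F) : Matrix (Fin n) (Fin n) F) = z • (1 : Matrix (Fin n) (Fin n) F)) →
      (∀ z : F, (x : Matrix (Fin n) (Fin n) F) ≠ z • (1 : Matrix (Fin n) (Fin n) F)) →
      ∃ W : Submodule F (Fin n → F), Module.finrank F ↥W = m ∧ (∀ u ∈ W, u ≠ 0 → ∃ v ∈ W, Cfsg.hermForm n F q u v ≠ 0) ∧
        W.map (Matrix.toLin' (x : Matrix (Fin n) (Fin n) F)) ≤ W) ↔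
    ((r = p ∧ 2 < p ∧ (∀ μ : Multiset ℕ, (∀ a ∈ μ, 0 < a ∧ a ≤ p) → μ.sum = n → ∃ ν : Multiset ℕ, ν ≤ μ ∧ ν.sum = m)) ∨
     (r = p ∧ p = 2 ∧ (Odd n ∨ Even m)) ∨
     (r = 2 ∧ p ≠ 2 ∧ (Odd n ∨ Even m ∨ (padicValNat 2 n ≤ padicValNat 2 (q + 1) ∧ q % 4 = 3))) ∨
     (r ≠ p ∧ 2 < r ∧ ((i ≠ 2 ∧ c ≤ m ∧ m % c ≤ n % c) ∨ (i = 2 ∧ (r ∣ m ∨ padicValNat r n ≤ padicValNat r (q + 1)))))) := by
  haveI := Fact.mk hq
  have hf := H10.isSesq_herm (F := F) (q := q) (n := n)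
  haveI : Nonempty (Fin n) := ⟨⟨0, by omega⟩⟩
  have hr := (Fact.out : r.Prime)
  have hn' := Fintype.card_fin n
  refine (H99.su_forall_iff r fun T => ∃ W : Submodule F (Fin n → F),
    Module.finrank F W = m ∧ H99.Nd (hermForm n F q) W ∧ W.map T ≤ W).trans ?_
  simp only [← H99.tInv_iff_map]
  have hP : ∀ (T : Module.End F (Fin n → F)) (c : F), c ≠ 0 → (∃ W : Submodule F (Fin n → F),
      Module.finrank F W = m ∧ H99.Nd (hermForm n F q) W ∧ H99.TInv (c • T) W) →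
      ∃ W : Submodule F (Fin n → F), Module.finrank F W = m ∧ H99.Nd (hermForm n F q) W ∧
        H99.TInv T W := fun T c h ⟨W, h1, h2, h3⟩ => ⟨W, h1, h2, h3.of_smul h⟩
  by_cases hrp : r = p
  · subst hrp
    rw [H99.herm_forall_cop (H99.p_not_dvd_succ (F := F)) _ hP]
    trans ∀ μ : Multiset ℕ, (∀ a ∈ μ, 0 < a ∧ a ≤ r) → μ.sum = n →
      ∃ ν : Multiset ℕ, ν ≤ μ ∧ ν.sum = m
    · refine ⟨fun h μ h0 h3 => ?_, fun h T h1 hT _ => ?_⟩
      · by_cases hb : ∀ b ∈ μ, ¬ 1 < b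
        · exact ⟨_, H99.exists_le_of_all_one (fun a h => (h0 a h).1) hb (m := m) (by omega),
            by simp⟩
        push Not at hb
        obtain ⟨b, b1, b2⟩ := hb
        obtain ⟨T, t1, t2⟩ := H99.exists_herm_jt (F := F) (q := q) (fun a h => (h0 a h).1) h3
        obtain ⟨W, w1, w2, w3⟩ := h T t1 (H99.pow_char_of_sub_one (LinearMap.ext fun v =>
          t2.pow_eq_zero (fun a h => (h0 a h).2) v trivial) le_rfl) (t2.ne_one b1 b2)
        obtain ⟨ν, n1, n2⟩ := t1.jt_le hf t2 w2 w3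
        exact ⟨ν, n1, n2.2.1.trans w1⟩
      · obtain ⟨μ, m1, m2⟩ := H99.exists_jt (H99.TInv.top T) (N := r) fun w _ => by
          rw [H99.sub_one_pow_char (F := F), hT, sub_self]; rfl
        obtain ⟨ν, n1, n2⟩ := h μ (fun a h => ⟨m1.1 a h, m2 a h⟩) (m1.2.1.trans (by simp))
        obtain ⟨W, -, w1, w2, w3⟩ := (H99.par_herm hf h1 H10.sig_ne_refl).exists_nd hf h1 μ
          (H99.nd_top hf) (H99.TInv.top T) m1 n1 (by simp)
        exact ⟨W, w3.2.1.symm.trans n2, w1, w2⟩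
    · rcases hr.two_le.eq_or_lt with rfl | h
      · simp only [H99.part_two_iff hm (by omega : m ≤ n)]; simp
      · simp [h, h.ne']
  have hN : (r : F) ≠ 0 := H99.cast_ne_zero_of_ne hrp
  by_cases hr2 : r = 2
  · subst hr2
    have h2 : (2 : F) ≠ 0 := by simpa using hN
    have hq2 := H99.q_odd (q := q) h2
    simp only [hrp, Ne.symm hrp, lt_irrefl, ne_eq, not_false_eq_true, false_and, and_false,
      or_false, false_or, true_and]
    refine ⟨fun h => ?_, fun h T h1 h0 ⟨z, hz⟩ _ => ?_⟩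
    · by_contra hc
      rw [not_or, not_or, Nat.not_odd_iff_even] at hc
      obtain ⟨w, S, w0, s1, s2, s3, s4⟩ := H99.exists_herm_anti hf h2 (by simpa using hc.1)
        fun e => by rw [hn']; exact not_le.1 fun e' => hc.2.2 ⟨e', e⟩
      obtain ⟨-, -, a, -⟩ := H99.anti_facts hf h2 s4 s3
      obtain ⟨W, w1, w2, w3⟩ := h _ s1 s2 ⟨w ^ 2, by rw [smul_pow, s3]⟩ fun z e =>
        H99.ne_smul_of_V0 (H99.ne_one_of_V0 (T := S) (by omega)) (by omega) (w⁻¹ * z)
          (by rw [mul_smul, ← e]; simp [w0])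
      exact hc.2.1 (w1 ▸ (H99.anti_inv hf h2 s4 s3 w2 (w3.of_smul w0)).1)
    · obtain ⟨w, S, w0, rfl, s1, ⟨s2, s3⟩ | ⟨s2, s3⟩⟩ := H99.herm_two_cases hf h2 h1 hz
      · have := H99.finrank_V0_add_V1 S
        rw [H99.finrank_fun'] at this
        obtain ⟨A, a1, a2, a3⟩ := H99.herm_exists_nd hf (s3.nd_V0 hf s1 hN) (min_le_right m _)
        obtain ⟨B, b1, b2, b3⟩ := H99.herm_exists_nd hf (s3.nd_V1 hf s1 hN)
          (e := m - Module.finrank F A) (by omega)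
        obtain ⟨c1, c2⟩ := H99.tInv_sup_two s1 h2 a1 b1
        exact ⟨A ⊔ B, by omega, a2.sup hf b2 ((s3.ort_V0_V1 hf).mono a1 b1), c1.smul w⟩
      · obtain ⟨-, -, a, -⟩ := H99.anti_facts hf h2 s3 s1
        obtain ⟨j, rfl⟩ := (h.resolve_left (by rw [Nat.odd_iff]; omega)).resolve_right fun e =>
          e.1.not_gt (hn' ▸ H99.herm_anti_cond hf h2 s1 s3 h0 s2 e.2)
        obtain ⟨B, -, b1, b2, b3⟩ := h1.exists_blocks hf (U := ⊤) (c := 2) (fun W _ w1 w2 w3 => by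
          obtain ⟨B, b1, b2, b3, b4⟩ := (H99.anti_inv hf h2 s3 s1 w1 (w2.of_smul w0)).2
            (H99.ne_bot_of_pos (by omega))
          exact ⟨B, b1, b2, b3.smul w, b4⟩) j ⊤ le_rfl (H99.nd_top hf) (H99.TInv.top _)
          (by simp; omega)
        exact ⟨B, by omega, b1, b2⟩
  have hr3 : 2 < r := lt_of_le_of_ne hr.two_le (Ne.symm hr2)
  have k := H99.pk_herm (p := p) hf hN hr2 hi hc
  simp only [hr3, hr2, hrp, ne_eq, not_false_eq_true, false_and, false_or, true_and]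
  by_cases h0 : r ∣ q + 1
  · have h1 := hi.trans ((H99.ord_eq_two_iff hN hr2).2 h0)
    obtain rfl : c = 1 := by simpa [h1] using hc
    simp only [h1, not_true, false_and, false_or, true_and]
    refine ⟨fun h => ?_, fun h T h1 hd ⟨z, hz⟩ _ => ?_⟩
    · by_contra hc
      rw [not_or, not_le] at hc
      obtain ⟨T, z, t1, t2, t3, t4⟩ := H99.exists_herm_nonpow (F := F) hr2 h0 (by omega) hc.2
      obtain ⟨W, w1, -, w3⟩ := h T t1 t2 ⟨z, t3⟩ (H99.ne_smul_of_nonpow t4 t3)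
      exact hc.1 (w1 ▸ (H99.homog_of_nonpow t4 t3 W w3 le_top).1)
    · rcases H99.herm_dich hr2 ((H99.norm_eq_pow z).symm.trans (h1.norm_of_pow hf hz)) with
        ⟨w, w1, w2⟩ | ⟨-, h2⟩
      · obtain ⟨a, b, c⟩ := H99.herm_reduce hf h1 hz w1 w2
        exact hP _ _ a (k.nd_suff b c (by omega) (by simp [Nat.mod_one])
          fun e j h _ => H99.herm_exists_nd hf (b.nd_V0 hf c hN) h)
      · obtain ⟨j, rfl⟩ := h.resolve_right (H99.herm_nonpow_lt hr2 h0 hd hz h2).not_ge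
        rw [mul_comm r j] at hmn ⊢
        exact h1.nonpow_nd hf hr2 hz h2 (by omega)
  have h1 := mt (H99.ord_eq_two_iff hN hr2).1 h0
  rw [← hi] at h1
  rw [H99.herm_forall_cop h0 _ hP, k.nd_iff (H99.ws_herm hf H10.sig_ne_refl) (by omega)
    (fun W W' => H99.ism_herm hf) (fun U e j h1 h2 _ => H99.herm_exists_nd hf h1 h2)
    (H99.exists_herm_V0 hN (H99.ord_neg hr2 (H99.not_dvd_q hN) hi hc) k.pos) hrΩ, hn']
  simp [h1]

end Cfsg.Agent.S5954
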