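import Cfsg.Statements.S5955
import Cfsg.Agent.H99.FmInv
import Cfsg.Agent.H11.TSCount

set_option autoImplicit false
open scoped MatrixGroups
open Cfsg

namespace Cfsg.Agent.S5955

/-- Elements of prime order of PSp_n(q) with no fixed totally isotropic `m`-space. Here `T = PSp_n(q)` with `n = 2d ≥ 4`, `(n, q) ≠ (4, 2)`, realised through the symplectic matrices over the field `F` with `q` elements (preserving the standard alternating form); an element of `T` of prime order `r` is such a matrix `x` with `x^r` scalar and `x` not scalar. For `r ≠ p` let `i` be the multiplicative order of `q` modulo `r`, `c = i` for `i` even and `c = 2i` for `i` odd, and write `k = n mod c`, `ℓ = m mod i`, `ℓ' = m mod c`, `n' = ⌊n/i⌋`, `m' = ⌊m/i⌋`, `t = (r−1)/i`. Let `1 ≤ m ≤ n/2` and let `r` be a prime dividing the number of totally isotropic `m`-spaces. Then every element of `T` of order `r` fixes a totally isotropic `m`-space if and only if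 either (i) `r = 2 ≠ p` and (`m` is even or `q ≡ 1 (mod 4)`); or (ii) `r ≠ p`, `r > 2`, `i ≤ m`, `k ≥ 2ℓ`, and (`i` is odd or `n' − 2m' ≥ t`). -/
theorem result {F : Type*} [Field F] [Fintype F] {p : ℕ} [Fact p.Prime] [CharP F p] {q : ℕ} (hq : Fintype.card F = q)
    (d m : ℕ) (hd : 2 ≤ d) (hT : (d, q) ≠ (2, 2)) (hm : 1 ≤ m) (hmd : m ≤ d)
    (r : ℕ) [Fact r.Prime]
    (hrΩ : r ∣ Nat.card {W : Submodule F (Fin d ⊕ Fin d → F) // Module.finrank F ↥W = m ∧ (∀ u ∈ W, ∀ v ∈ W, Cfsg.sympForm d F u v = 0)})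
    (i c : ℕ) (hi : i = orderOf (q : ZMod r)) (hc : c = if Even i then i else 2 * i) :
    (∀ x : ↥(Matrix.symplecticGroup (Fin d) F),
      (∃ z : F, ((x ^ r : ↥(Matrix.symplecticGroup (Fin d) F)) : Matrix (Fin d ⊕ Fin d) (Fin d ⊕ Fin d) F) = z • (1 : Matrix (Fin d ⊕ Fin d) (Fin d ⊕ Fin d) F)) →
      (∀ z : F, (x : Matrix (Fin d ⊕ Fin d) (Fin d ⊕ Fin d) F) ≠ z • (1 : Matrix (Fin d ⊕ Fin d) (Fin d ⊕ Fin d) F)) →
      ∃ W : Submodule F (Fin d ⊕ Fin d → F), Module.finrank F ↥W = m ∧ (∀ u ∈ W, ∀ v ∈ W, Cfsg.sympForm d F u v = 0) ∧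
        W.map (Matrix.toLin' (x : Matrix (Fin d ⊕ Fin d) (Fin d ⊕ Fin d) F)) ≤ W) ↔
    ((r = 2 ∧ p ≠ 2 ∧ (Even m ∨ q % 4 = 1)) ∨
     (r ≠ p ∧ 2 < r ∧ i ≤ m ∧ 2 * (m % i) ≤ (2 * d) % c ∧ (Odd i ∨ (r - 1) / i + 2 * (m / i) ≤ (2 * d) / i))) := by
  subst hq hi
  have hf : H98.IsSesq (RingEquiv.refl F) (-1) (sympForm d F) := H9.isSesq_symp
  have ha : ∀ v, sympForm d F v v = 0 := H27.sympForm_self
  haveI : Nonempty (Fin d ⊕ Fin d) := ⟨.inl ⟨0, by omega⟩⟩
  have hr := (Fact.out : r.Prime)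
  have hn : Fintype.card (Fin d ⊕ Fin d) = 2 * d := by simp [two_mul]
  have hn' : Module.finrank F (⊤ : Submodule F (Fin d ⊕ Fin d → F)) = 2 * d := by simp [two_mul]
  have hrp : r ≠ p := by
    rintro rfl
    refine H99.not_dvd_of_count (g := fun i => Fintype.card F ^ (2 * d - 2 * i) - 1)
      Fintype.card_pos ((H11.card_ti_alt hf ha m (by omega)).trans
        (Finset.prod_congr rfl fun i hi => ?_)) (fun i hi => H99.not_dvd_pow_sub_one (by omega)) hrΩ
    have := Finset.mem_range.1 hi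
    rw [Nat.mul_sub, ← pow_add, mul_one, hn]
    congr 2; omega
  refine (H99.sp_forall_iff r fun T => ∃ W : Submodule F (Fin d ⊕ Fin d → F),
    Module.finrank F W = m ∧ H99.Ort (sympForm d F) W W ∧ W.map T ≤ W).trans ?_
  simp only [← H99.tInv_iff_map]
  by_cases hr2 : r = 2
  · subst hr2
    have h2 : (2 : F) ≠ 0 := mt H99.two_eq_zero_iff.1 hrp.symm
    simp only [hrp.symm, lt_irrefl, ne_eq, not_false_eq_true, false_and, and_false, or_false,
      true_and]
    refine ⟨fun h => ?_, fun h T h1 ⟨z, hz⟩ _ => ?_⟩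
    · by_contra hc
      have h3 := mt (H99.isSquare_neg_one_iff h2).1 fun e => hc (Or.inr e)
      have h4 : Matrix.toLin' (Matrix.J (Fin d) F) ^ 2 = (-1 : F) • 1 :=
        H99.toLin'_pow_eq_smul.2 (by rw [pow_two, Matrix.J_squared]; simp)
      obtain ⟨W, w1, -, w3⟩ := h _ (H99.sp_iso ⟨_, SymplecticGroup.J_mem _ _⟩) ⟨_, h4⟩
        (H99.ne_smul_of_neg h3 h4)
      exact hc (Or.inl (w1 ▸ even_iff_two_dvd.2 (H99.homog_of_neg h3 h4 W w3 le_top).1))
    · rcases h1.sq_cases hf hz with hT | hT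
      · obtain ⟨W, w1, w2, w3⟩ := h1.ti_sq_one hf (H99.alt_exists_ti hf ha) h2 hT (m := m) (by
          obtain ⟨a, ha⟩ := (h1.nd_V0 hf hT (by simpa using h2)).even_alt hf ha
          have := H99.finrank_V0_add_V1 T
          rw [H99.finrank_fun', hn] at this
          omega)
        exact ⟨W, w1, w2, w3⟩
      · by_cases h3 : IsSquare (-1 : F)
        · exact h1.ti_neg_sq hf h2 hT h3 (by omega)
        · obtain ⟨j, rfl⟩ := h.resolve_right (mt (H99.isSquare_neg_one_iff h2).2 h3)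
          obtain ⟨W, -, w1, w2, w3⟩ := h1.ti_neg_nonsq (p := p) hf h2 hT h3 (H99.nd_top hf)
            (H99.TInv.top T) (j := j) (by omega)
          exact ⟨W, by omega, w2, w1⟩
  have hr3 : 2 < r := lt_of_le_of_ne hr.two_le (Ne.symm hr2)
  have hN : (r : F) ≠ 0 := H99.cast_ne_zero_of_ne hrp
  rw [H99.bilin_forall_odd hf (hr.odd_of_ne_two hr2) _
    fun T ⟨W, h1, h2, h3⟩ => ⟨W, h1, h2, h3.neg⟩]
  simp only [hr3, hr2, hrp, ne_eq, not_false_eq_true, false_and, false_or, true_and]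
  rw [← hn, ← H99.bilin_c_imp hN hc]
  exact (H99.pk_sp hrp hr2 hc).ti_iff H99.ws_sp (by omega) (H99.alt_exists_ti hf ha)
    (H99.exists_sp_V0 hN hr2 hc)
    (fun e T => H99.exists_sp_sim hN hr2 ((H99.bilin_c_eq hN hc).1 e)) hrΩ

end Cfsg.Agent.S5955
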