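import Cfsg.Statements.S5956
import Cfsg.Agent.H99.FmAlt

set_option autoImplicit false
open scoped MatrixGroups
open Cfsg

namespace Cfsg.Agent.S5956

/-- Elements of prime order of PSp_n(q) with no fixed nondegenerate `m`-space. Here `T = PSp_n(q)` with `n = 2d ≥ 4`, `(n, q) ≠ (4, 2)`, realised through the symplectic matrices over the field `F` with `q` elements (preserving the standard alternating form); an element of `T` of prime order `r` is such a matrix `x` with `x^r` scalar and `x` not scalar. For `r ≠ p` let `i` be the multiplicative order of `q` modulo `r`, `c = i` for `i` even and `c = 2i` for `i` odd, and write `k = n mod c`, `ℓ = m mod i`, `ℓ' = m mod c`, `n' = ⌊n/i⌋`, `m' = ⌊m/i⌋`, `t = (r−1)/i`. Let `m` be even with `2 ≤ m < n/2` and let `r` be a prime dividing the number of nondegenerate `m`-spaces. Then every element of `T` of order `r` fixes a nondegenerate `m`-space if and only if one of: (i) `r = p >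 2` and every partition of `n` into parts of size at most `p` in which every odd part has even multiplicity contains (as a sub-multiset) a partition of `m` in which every odd part has even multiplicity; (ii) `r = p = 2` and (`n ≡ 2 (mod 4)` or `m ≡ 0 (mod 4)`); (iii) `r = 2 ≠ p`; (iv) `r ≠ p`, `r > 2`, `c ≤ m` and `k ≥ ℓ'`. -/
theorem result {F : Type*} [Field F] [Fintype F] {p : ℕ} [Fact p.Prime] [CharP F p] {q : ℕ} (hq : Fintype.card F = q)
    (d m : ℕ) (hd : 2 ≤ d) (hT : (d, q) ≠ (2, 2)) (hm : 2 ≤ m) (hme : Even m) (hmd : m < d)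
    (r : ℕ) [Fact r.Prime]
    (hrΩ : r ∣ Nat.card {W : Submodule F (Fin d ⊕ Fin d → F) // Module.finrank F ↥W = m ∧ (∀ u ∈ W, u ≠ 0 → ∃ v ∈ W, Cfsg.sympForm d F u v ≠ 0)})
    (i c : ℕ) (hi : i = orderOf (q : ZMod r)) (hc : c = if Even i then i else 2 * i) :
    (∀ x : ↥(Matrix.symplecticGroup (Fin d) F),
      (∃ z : F, ((x ^ r : ↥(Matrix.symplecticGroup (Fin d) F)) : Matrix (Fin d ⊕ Fin d) (Fin d ⊕ Fin d) F) = z • (1 : Matrix (Fin d ⊕ Fin d) (Fin d ⊕ Fin d) F)) →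
      (∀ z : F, (x : Matrix (Fin d ⊕ Fin d) (Fin d ⊕ Fin d) F) ≠ z • (1 : Matrix (Fin d ⊕ Fin d) (Fin d ⊕ Fin d) F)) →
      ∃ W : Submodule F (Fin d ⊕ Fin d → F), Module.finrank F ↥W = m ∧ (∀ u ∈ W, u ≠ 0 → ∃ v ∈ W, Cfsg.sympForm d F u v ≠ 0) ∧
        W.map (Matrix.toLin' (x : Matrix (Fin d ⊕ Fin d) (Fin d ⊕ Fin d) F)) ≤ W) ↔
    ((r = p ∧ 2 < p ∧ (∀ μ : Multiset ℕ, (∀ a ∈ μ, 0 < a ∧ a ≤ p) → (∀ a : ℕ, Odd a → Even (μ.count a)) → μ.sum = 2 * d →
        ∃ ν : Multiset ℕ, ν ≤ μ ∧ ν.sum = m ∧ ∀ a : ℕ, Odd a → Even (ν.count a))) ∨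
     (r = p ∧ p = 2 ∧ ((2 * d) % 4 = 2 ∨ m % 4 = 0)) ∨
     (r = 2 ∧ p ≠ 2) ∨
     (r ≠ p ∧ 2 < r ∧ c ≤ m ∧ m % c ≤ (2 * d) % c)) := by
  subst hq hi
  have hf : H98.IsSesq (RingEquiv.refl F) (-1) (sympForm d F) := H9.isSesq_symp
  have ha : ∀ v, sympForm d F v v = 0 := H27.sympForm_self
  haveI : Nonempty (Fin d ⊕ Fin d) := ⟨.inl ⟨0, by omega⟩⟩
  have hr := (Fact.out : r.Prime)
  have hn : Fintype.card (Fin d ⊕ Fin d) = 2 * d := by simp [two_mul]
  have hn' : Module.finrank F (⊤ : Submodule F (Fin d ⊕ Fin d → F)) = 2 * d := by simp [two_mul]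
  refine (H99.sp_forall_iff r fun T => ∃ W : Submodule F (Fin d ⊕ Fin d → F),
    Module.finrank F W = m ∧ H99.Nd (sympForm d F) W ∧ W.map T ≤ W).trans ?_
  simp only [← H99.tInv_iff_map]
  by_cases hr2 : r = 2
  · subst hr2
    by_cases hp : p = 2
    · have h2 : (2 : F) = 0 := H99.two_eq_zero_iff.2 hp
      simp only [hp, lt_irrefl, ne_eq, not_true, false_and, and_false, false_or, or_false, true_and]
      refine ⟨fun h => ?_, fun h T h1 ⟨z, hz⟩ _ => ?_⟩
      · by_contra hc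
        obtain ⟨M, -, m1, m2⟩ := H99.alt_exists_ti hf ha ⊤ d (H99.nd_top hf) hn'.ge
        obtain ⟨T, t1, t2, t3⟩ := H99.exists_siegel (H99.isSesq_one_of_two hf h2) m1
          (by rw [m2, Nat.even_iff]; omega)
        have t4 := t1.V1_le_V0 hf (t2 ▸ m1)
        have t5 := H99.sub_one_sq_of_le t4
        obtain ⟨W, w1, w2, w3⟩ := h T t1 ⟨1, by
          simpa using hp ▸ H99.pow_char_of_sub_one (p := p) t5 hp.ge⟩
          (H99.ne_smul_of_unip t5 (H99.ne_one_of_V1 (by rw [t2]; omega)))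
        have := t1.four_dvd hf (H99.V0_eq_V1 t4 (by rw [t2, m2, hn])) t3 w2 w3
        obtain ⟨_, _⟩ := hme
        omega
      · have hT := h1.sq_eq_one hf h2 hz
        obtain ⟨W, -, w1, w2, w3⟩ := H99.alt_two_nd hf ha h2 h1 hT (H99.nd_top hf) (H99.TInv.top T)
          hme (by omega) (h.symm.imp_right fun e =>
            H99.alt_two_plane hf ha h2 h1 hT (H99.nd_top hf) (H99.TInv.top T) (by omega))
        exact ⟨W, w3, w1, w2⟩
    · refine iff_of_true (fun T h1 ⟨z, hz⟩ _ => ?_) (by simp [hp])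
      obtain ⟨W, -, w1, w2, w3⟩ := H99.alt_inv_nd hf ha (mt H99.two_eq_zero_iff.1 hp) h1 hz
        (H99.nd_top hf) (H99.TInv.top T) hme (by omega)
      exact ⟨W, w3, w1, w2⟩
  have hr3 : 2 < r := lt_of_le_of_ne hr.two_le (Ne.symm hr2)
  rw [H99.bilin_forall_odd hf (hr.odd_of_ne_two hr2) _
    fun T ⟨W, h1, h2, h3⟩ => ⟨W, h1, h2, h3.neg⟩]
  by_cases hrp : r = p
  · subst hrp
    have h2 : (2 : F) ≠ 0 := mt H99.two_eq_zero_iff.1 hr2
    simp only [hr3, hr2, ne_eq, not_true, false_and, and_false, or_false, true_and]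
    refine ⟨fun h μ h0 h1 h3 => ?_, fun h T h1 hT _ => ?_⟩
    · by_cases hb : ∀ b ∈ μ, ¬ 1 < b
      · refine ⟨_, H99.exists_le_of_all_one (fun a h => (h0 a h).1) hb (m := m) (by omega),
          by simp, fun a _ => ?_⟩
        rw [Multiset.count_replicate]
        split_ifs
        exacts [hme, by simp]
      push Not at hb
      obtain ⟨b, b1, b2⟩ := hb
      obtain ⟨T, t1, t2⟩ := H99.exists_sp_jt (F := F) (fun a h => (h0 a h).1) h1 h3
      obtain ⟨W, w1, w2, w3⟩ := h T t1 (H99.pow_char_of_sub_one (LinearMap.ext fun v =>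
        t2.pow_eq_zero (fun a h => (h0 a h).2) v trivial) le_rfl) (t2.ne_one b1 b2)
      obtain ⟨ν, n1, n2⟩ := t1.jt_le hf t2 w2 w3
      exact ⟨ν, n1, n2.2.1.trans w1, (H99.par_alt hf t1 h2).even_count hf t1 ν w2 w3 n2⟩
    · obtain ⟨μ, m1, m2⟩ := H99.exists_jt (H99.TInv.top T) (N := r) fun w _ => by
        rw [H99.sub_one_pow_char (F := F), hT, sub_self]; rfl
      have hP := H99.par_alt hf h1 h2
      obtain ⟨ν, n1, n2, n3⟩ := h μ (fun a h => ⟨m1.1 a h, m2 a h⟩)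
        (hP.even_count hf h1 μ (H99.nd_top hf) (H99.TInv.top T) m1) (m1.2.1.trans hn')
      obtain ⟨W, -, w1, w2, w3⟩ := hP.exists_nd hf h1 μ (H99.nd_top hf) (H99.TInv.top T) m1 n1 n3
      exact ⟨W, w3.2.1.symm.trans n2, w1, w2⟩
  · simp only [hr3, hr2, hrp, ne_eq, not_false_eq_true, false_and, false_or, true_and]
    rw [← hn]
    refine (H99.pk_sp hrp hr2 hc).nd_iff H99.ws_sp (by omega)
      (fun W W' => H99.ism_alt hf ha) (fun U e j h1 h2 h3 => H99.alt_exists_nd hf ha h1 ?_ h2)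
      (H99.exists_sp_V0 (H99.cast_ne_zero_of_ne hrp) hr2 hc) hrΩ
    exact (Nat.even_add.1 (h3 ▸ hme)).2 ((H99.even_of_bilin_c hc).mul_left j)

end Cfsg.Agent.S5956
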