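import Cfsg.Statements.S5957
import Cfsg.Agent.H99.ElDec3

set_option autoImplicit false
open scoped MatrixGroups
open Cfsg

namespace Cfsg.Agent.S5957

/-- Involutions of PSL_n(q) and imprimitive subgroups. Here `T = PSL_n(F)` for a field `F` with `q = p^f` elements (`n ≥ 2`, `(n, q) ≠ (2, 2), (2, 3)`), `n = a·t` with `t ≥ 2`, and Ω is the set of direct-sum decompositions of `F^n` into `t` subspaces of dimension `a` (unordered; their number is the number of ordered ones divided by `t!`), whose stabilizers are the imprimitive subgroups of type GL_a(q) ≀ S_t (maximal except in some small cases; maximality is not assumed); an element of `T` of prime order `r` (a matrix `x` of determinant 1 with `x^r` scalar, `x` not scalar) fixes a point of Ω when it permutes the summands of some such decomposition. If the number of such decompositions is even, then every involution of `T` stabilizes one of them (the action is 2-elusive). -/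
theorem result {F : Type*} [Field F] [Fintype F] {p : ℕ} [Fact p.Prime] [CharP F p] {q : ℕ} (hq : Fintype.card F = q)
    (n a t : ℕ) (hn : 2 ≤ n) (hT : (n, q) ≠ (2, 2) ∧ (n, q) ≠ (2, 3)) (hat : n = a * t) (ha : 1 ≤ a) (ht : 2 ≤ t)
    (hΩ : 2 ∣ Nat.card {D : Fin t → Submodule F (Fin n → F) // Cfsg.Geo.IsMDecomposition a D} / Nat.factorial t)
    (x : Matrix.SpecialLinearGroup (Fin n) F)
    (hx1 : ∃ z : F, ((x ^ 2 : Matrix.SpecialLinearGroup (Fin n) F) : Matrix (Fin n) (Fin n) F) = z • (1 : Matrix (Fin n) (Fin n) F))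
    (hx2 : ∀ z : F, (x : Matrix (Fin n) (Fin n) F) ≠ z • (1 : Matrix (Fin n) (Fin n) F)) :
    ∃ D : Fin t → Submodule F (Fin n → F), Cfsg.Geo.IsMDecomposition a D ∧
        ∃ σ : Equiv.Perm (Fin t), ∀ j, (D j).map (Matrix.toLin' (x : Matrix (Fin n) (Fin n) F)) = D (σ j) := by
  haveI : Nonempty (Fin n) := ⟨⟨0, by omega⟩⟩
  haveI : Fact (Nat.Prime 2) := ⟨Nat.prime_two⟩
  obtain ⟨z, hz⟩ := hx1
  have hz' : (x : Matrix (Fin n) (Fin n) F) ^ 2 = z • 1 := by simpa using hz
  have hd : (x : Matrix (Fin n) (Fin n) F).det ≠ 0 := by rw [x.2]; exact one_ne_zero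
  have hz0 := H99.ne_zero_of_pow_eq_smul hd hz'
  have hi := H99.inj_of_pow_eq_smul two_pos hz0 (H99.toLin'_pow_eq_smul.2 hz')
  have hn' : Module.finrank F (Fin n → F) = a * t := by simpa using hat
  suffices h : H99.PD0 (Matrix.toLin' (x : Matrix (Fin n) (Fin n) F)) a t ⊤ by
    obtain ⟨D, h1, h2⟩ := h.isM hi ha ht (by simpa using hat)
    exact ⟨D, h1.1, h2⟩
  by_cases hp : 2 = p
  · subst hp
    obtain ⟨c, hc, h1, h2⟩ := H99.exists_unip_of_pow hd hz'
    exact (H99.pd0_of_unip_two h2 h1 (H99.TInv.top _) (by simpa using hat)).smul hc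
  have hN : ((2 : ℕ) : F) ≠ 0 := H99.cast_ne_zero_of_ne hp
  rcases H99.sl_dichotomy x.2 hz' with ⟨c, hc, h1⟩ | ⟨-, h1, -⟩
  · refine H99.PD.smul hc (H99.pd0_of_ord hN h1 ?_ hn')
    have h2 : H99.ordF F 2 = 1 := by
      refine (H99.ord_eq_one_iff Fintype.card_pos).2 ?_
      have := H99.not_dvd_card_of_cast_ne hN
      omega
    rw [h2, Nat.mod_one]; simp
  · exact H99.pd0_of_nonpow (H99.sl_semisimple hN hd hz') hi hz0 (H99.toLin'_pow_eq_smul.2 hz') h1 hn'

end Cfsg.Agent.S5957
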