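import Cfsg.Statements.S5958
import Cfsg.Agent.H99.ElDec3

set_option autoImplicit false
open scoped MatrixGroups
open Cfsg

namespace Cfsg.Agent.S5958

/-- Elements of odd prime order of PSL_n(q) and imprimitive subgroups. Here `T = PSL_n(F)` for a field `F` with `q = p^f` elements (`n ≥ 2`, `(n, q) ≠ (2, 2), (2, 3)`), `n = a·t` with `t ≥ 2`, and Ω is the set of direct-sum decompositions of `F^n` into `t` subspaces of dimension `a` (unordered; their number is the number of ordered ones divided by `t!`), whose stabilizers are the imprimitive subgroups of type GL_a(q) ≀ S_t (maximal except in some small cases; maximality is not assumed); an element of `T` of prime order `r` (a matrix `x` of determinant 1 with `x^r` scalar, `x` not scalar) fixes a point of Ω when it permutes the summands of some such decomposition. Let `r ≠ p` be an odd prime dividing the number of such decompositions, let `c` be the multiplicative order of `q` modulo `r`, and write `k = n mod c`, `ℓ = a mod c`. Then every element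 of `T` of order `r` stabilizes such a decomposition if and only if either `a = 1`, `c = r − 1 > 1` and `n ≤ k·r`, or `c ≤ a` and `k = t·ℓ`. -/
theorem result {F : Type*} [Field F] [Fintype F] {p : ℕ} [Fact p.Prime] [CharP F p] {q : ℕ} (hq : Fintype.card F = q)
    (n a t : ℕ) (hn : 2 ≤ n) (hT : (n, q) ≠ (2, 2) ∧ (n, q) ≠ (2, 3)) (hat : n = a * t) (ha : 1 ≤ a) (ht : 2 ≤ t)
    (r : ℕ) [Fact r.Prime] (hr2 : r ≠ 2) (hrp : r ≠ p) (hΩ : r ∣ Nat.card {D : Fin t → Submodule F (Fin n → F) // Cfsg.Geo.IsMDecomposition a D} / Nat.factorial t)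
    (c : ℕ) (hc : c = orderOf (q : ZMod r)) :
    (∀ x : Matrix.SpecialLinearGroup (Fin n) F,
      (∃ z : F, ((x ^ r : Matrix.SpecialLinearGroup (Fin n) F) : Matrix (Fin n) (Fin n) F) = z • (1 : Matrix (Fin n) (Fin n) F)) →
      (∀ z : F, (x : Matrix (Fin n) (Fin n) F) ≠ z • (1 : Matrix (Fin n) (Fin n) F)) →
      ∃ D : Fin t → Submodule F (Fin n → F), Cfsg.Geo.IsMDecomposition a D ∧
        ∃ σ : Equiv.Perm (Fin t), ∀ j, (D j).map (Matrix.toLin' (x : Matrix (Fin n) (Fin n) F)) = D (σ j)) ↔
    ((a = 1 ∧ 1 < c ∧ c = r - 1 ∧ n ≤ (n % c) * r) ∨ (c ≤ a ∧ n % c = t * (a % c))) := by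
  subst hq
  rw [H99.sl_forall_iff r (fun A => ∃ D : Fin t → Submodule F (Fin n → F),
    Cfsg.Geo.IsMDecomposition a D ∧
      ∃ σ : Equiv.Perm (Fin t), ∀ j, (D j).map (Matrix.toLin' A) = D (σ j))]
  haveI : Nonempty (Fin n) := ⟨⟨0, by omega⟩⟩
  have hN : (r : F) ≠ 0 := H99.cast_ne_zero_of_ne hrp
  change c = H99.ordF F r at hc
  have hc0 : 0 < c := hc ▸ H99.ordF_pos hN
  have hr := (Fact.out : r.Prime)
  have hr3 : 3 ≤ r := by have := hr.two_le; omega
  have hcr : c ≤ r - 1 := hc ▸ Nat.le_of_dvd (by omega)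
    (H99.ord_dvd_sub_one (H99.not_dvd_card_of_cast_ne hN))
  have hn' : Module.finrank F (Fin n → F) = a * t := by simpa using hat
  have hdm := Nat.mod_add_div n c
  have hlt := Nat.mod_lt n hc0
  constructor
  · intro h
    by_cases hc1 : c = 1
    · right; subst hc1; simp [Nat.mod_one]; omega
    have hq1 : ¬ r ∣ Fintype.card F - 1 := fun e =>
      hc1 (hc.trans ((H99.ord_eq_one_iff Fintype.card_pos).2 e))
    have hcn : c ≤ n := by
      simpa [← hc] using H99.ordF_le_of_dvd_isM hN ha ht (by simpa using hat) hΩ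
    obtain ⟨A, hd, hA, hns, hk⟩ := H99.exists_sl_ord (ι := Fin n) hN hq1 (s := n / c) (k := n % c)
      (Nat.div_pos hcn hc0) (by rw [← hc, mul_comm]; simp [hdm])
    obtain ⟨B, hd', hB, hns', hk'⟩ := H99.exists_sl_ord (ι := Fin n) hN hq1 (s := 1) (k := n - c)
      one_pos (by rw [← hc]; simp; omega)
    obtain ⟨D, hD, σ, hσ⟩ := h A hd ⟨1, by simpa⟩ hns
    obtain ⟨E, hE, τ, hτ⟩ := h B hd' ⟨1, by simpa⟩ hns'
    have hT := H99.toLin'_pow_eq_one.2 hA
    have hS := H99.toLin'_pow_eq_one.2 hB
    have hS1 : Matrix.toLin' B ≠ 1 := by simpa using H99.smul_toLin'_ne_one hns' 1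
    set T := Matrix.toLin' A
    set S := Matrix.toLin' B
    have hσp := H99.fam_pow_eq_one ha hD.finrank_eq hD.indep hσ hT
    have hτp := H99.fam_pow_eq_one ha hE.finrank_eq hE.indep hτ hS
    have hS2 := H99.finrank_V0_add_V1 S
    rw [Module.finrank_fin_fun] at hS2
    by_cases hfix : ∀ j, τ j = j
    · right
      have hinv : ∀ j, H99.TInv S (E j) := fun j => H99.tInv_iff_map.2 (by rw [hτ, hfix])
      obtain ⟨j, hj⟩ := H99.fam_exists_V1 hN hS hS1 hE.iSup_eq_top hinv
      have hca : c ≤ a := by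
        obtain ⟨M, -, h1, h2⟩ := (H99.homog_V1 hN hS _ ((hinv j).inf (H99.tInv_V1 S))
          inf_le_right).2 hj
        have := Submodule.finrank_mono (h1.trans inf_le_left)
        rw [hE.finrank_eq] at this
        omega
      refine ⟨hca, ?_⟩
      have hfix' : ∀ j, σ j = j := by
        intro j
        by_contra hne
        have := H99.fam_le_V0 hD.finrank_eq hD.indep hσ hσp hT hne
        omega
      have h1 := H99.fam_sum_le hD.indep (H99.V0 T)
      rw [Finset.sum_congr rfl fun j _ => (H99.mod_le_of_inv hN hT (by omega)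
        (H99.tInv_iff_map.2 (by rw [hσ, hfix']) : H99.TInv T (D j))).symm] at h1
      simp only [hD.finrank_eq, Finset.sum_const, Finset.card_univ, Fintype.card_fin, smul_eq_mul,
        ← hc, hk] at h1
      have h2 : n % c = (t * (a % c)) % c := by rw [hat, mul_comm a t, Nat.mul_mod_mod]
      rw [h2, Nat.mod_eq_of_lt (by omega)]
    · left
      push Not at hfix
      obtain ⟨j, hj⟩ := hfix
      have h1 := H99.fam_le_V1 hN hE.finrank_eq hE.indep hτ hτp hS hj
      have h2 : (r - 1) * a ≤ c := by rw [Nat.sub_mul]; omega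
      have ha1 : a = 1 := by
        by_contra h3
        have : (r - 1) * 2 ≤ (r - 1) * a := Nat.mul_le_mul_left _ (by omega)
        omega
      subst ha1
      refine ⟨rfl, by omega, by omega, ?_⟩
      have := H99.fam_orbits hD.finrank_eq hD.iSup_eq_top hn' hσ hσp hT fun j hj => by
        have h3 := H99.mod_le_of_inv hN hT (by omega)
          (H99.tInv_iff_map.2 (by rw [hσ, hj]) : H99.TInv T (D j))
        rw [hD.finrank_eq, Nat.mod_eq_of_lt (by omega)] at h3
        rw [← inf_eq_left]
        exact Submodule.eq_of_le_of_finrank_le inf_le_left (by rw [hD.finrank_eq]; omega)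
      rw [hk, mul_comm r] at this
      omega
  · rintro h A hd ⟨z, hz⟩ -
    have hd0 : A.det ≠ 0 := by rw [hd]; exact one_ne_zero
    have hz0 := H99.ne_zero_of_pow_eq_smul hd0 hz
    have hi := H99.inj_of_pow_eq_smul hr.pos hz0 (H99.toLin'_pow_eq_smul.2 hz)
    suffices h : H99.PD0 (Matrix.toLin' A) a t ⊤ by
      obtain ⟨D, h1, h2⟩ := h.isM hi ha ht (by simpa using hat)
      exact ⟨D, h1.1, h2⟩
    rcases H99.sl_dichotomy hd hz with ⟨e, he, h1⟩ | ⟨-, h1, -⟩
    · refine H99.PD.smul he ?_
      obtain ⟨s, -, h2⟩ := H99.finrank_V1_eq hN h1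
      rw [Module.finrank_fin_fun, ← hc] at h2
      have h3 : n % c ≤ Module.finrank F (H99.V0 (e • Matrix.toLin' A)) := by
        generalize Module.finrank F (H99.V0 (e • Matrix.toLin' A)) = k at h2
        rw [h2, Nat.add_mul_mod_self_right]; exact Nat.mod_le _ _
      rcases h with ⟨rfl, h4, h5, h6⟩ | ⟨-, h4⟩
      · refine H99.pd0_one hN h1 (by omega) ?_ (by simpa using hat)
        have := Nat.mul_le_mul_left r h3
        rw [mul_comm] at h6
        omega
      · exact H99.pd0_of_ord hN h1 (by rw [← hc]; omega) hn'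
    · exact H99.pd0_of_nonpow (H99.sl_semisimple hN hd0 hz) hi hz0 (H99.toLin'_pow_eq_smul.2 hz)
        h1 hn'

end Cfsg.Agent.S5958
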