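import Cfsg.Statements.S5959
import Cfsg.Agent.H99.ElDec

set_option autoImplicit false
open scoped MatrixGroups
open Cfsg

namespace Cfsg.Agent.S5959

open Polynomial in
theorem nrm_eq {F V : Type*} [Field F] [AddCommGroup V] [Module F V] {p : ℕ} [hp : Fact p.Prime]
    [CharP F p] (T : Module.End F V) : H99.nrm T p = (T - 1) ^ (p - 1) := by
  have h : ∑ k ∈ Finset.range p, (X : F[X]) ^ k = (X - 1) ^ (p - 1) := by
    apply mul_right_cancel₀ (X_sub_C_ne_zero (1 : F))
    rw [map_one, geom_sum_mul, ← pow_succ, Nat.sub_add_cancel hp.out.one_le, sub_pow_char, one_pow]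
  have := congrArg (aeval T) h
  simpa [H99.nrm, map_sum] using this

theorem sum_min_pred (μ : Multiset ℕ) {p : ℕ} (hp : 0 < p) (h : ∀ b ∈ μ, b ≤ p) :
    (μ.map (min · (p - 1))).sum + μ.count p = μ.sum := by
  induction μ using Multiset.induction_on with
  | empty => simp
  | cons b μ ih =>
    have := ih fun c hc => h c (Multiset.mem_cons_of_mem hc)
    have hb := h b (Multiset.mem_cons_self _ _)
    simp only [Multiset.map_cons, Multiset.sum_cons, Multiset.count_cons]
    split_ifs <;> omega


/-- Elements of order `p` of PSL_n(q) and imprimitive subgroups: a necessary condition. Here `T = PSL_n(F)` for a field `F` with `q = p^f` elements (`n ≥ 2`, `(n, q) ≠ (2, 2), (2, 3)`), `n = a·t` with `t ≥ 2`, and Ω is the set of direct-sum decompositions of `F^n` into `t` subspaces of dimension `a` (unordered; their number is the number of ordered ones divided by `t!`), whose stabilizers are the imprimitive subgroups of type GL_a(q) ≀ S_t (maximal except in some small cases; maximality is not assumed);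 an element of `T` of prime order `r` (a matrix `x` of determinant 1 with `x^r` scalar, `x` not scalar) fixes a point of Ω when it permutes the summands of some such decomposition. Suppose `p > 2` divides the number of such decompositions. If every element of `T` of order `p` stabilizes such a decomposition, then every partition of `n` into parts of size at most `p` in which the part `p` occurs fewer than `a` times contains (as a sub-multiset) a partition of `a`. -/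
theorem result {F : Type*} [Field F] [Fintype F] {p : ℕ} [Fact p.Prime] [CharP F p] {q : ℕ} (hq : Fintype.card F = q)
    (n a t : ℕ) (hn : 2 ≤ n) (hT : (n, q) ≠ (2, 2) ∧ (n, q) ≠ (2, 3)) (hat : n = a * t) (ha : 1 ≤ a) (ht : 2 ≤ t)
    (hp : 2 < p) (hΩ : p ∣ Nat.card {D : Fin t → Submodule F (Fin n → F) // Cfsg.Geo.IsMDecomposition a D} / Nat.factorial t)
    (h : ∀ x : Matrix.SpecialLinearGroup (Fin n) F,
      (∃ z : F, ((x ^ p : Matrix.SpecialLinearGroup (Fin n) F) : Matrix (Fin n) (Fin n) F) = z • (1 : Matrix (Fin n) (Fin n) F)) →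
      (∀ z : F, (x : Matrix (Fin n) (Fin n) F) ≠ z • (1 : Matrix (Fin n) (Fin n) F)) →
      ∃ D : Fin t → Submodule F (Fin n → F), Cfsg.Geo.IsMDecomposition a D ∧
        ∃ σ : Equiv.Perm (Fin t), ∀ j, (D j).map (Matrix.toLin' (x : Matrix (Fin n) (Fin n) F)) = D (σ j)) :
    (∀ μ : Multiset ℕ, (∀ b ∈ μ, 0 < b ∧ b ≤ p) → μ.sum = n → μ.count p < a → ∃ ν : Multiset ℕ, ν ≤ μ ∧ ν.sum = a) := by
  subst hq
  rw [H99.sl_forall_iff p (fun A => ∃ D : Fin t → Submodule F (Fin n → F),
    Cfsg.Geo.IsMDecomposition a D ∧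
      ∃ σ : Equiv.Perm (Fin t), ∀ j, (D j).map (Matrix.toLin' A) = D (σ j))] at h
  intro μ hμ hs hcnt
  have han : a ≤ n := by rw [hat]; exact Nat.le_mul_of_pos_right _ (by omega)
  by_cases h1 : ∃ b ∈ μ, 1 < b
  swap
  · push Not at h1
    exact ⟨_, H99.exists_le_of_all_one (m := a) (fun a ha => (hμ a ha).1)
      (fun b hb => not_lt.2 (h1 b hb)) (by omega), by simp⟩
  obtain ⟨b, hb, h1⟩ := h1
  obtain ⟨A, hd, hA, hns, hj⟩ := H99.exists_sl_jt (F := F) (ι := Fin n) hμ (by simpa) hb h1
  obtain ⟨D, hD, σ, hσ⟩ := h A hd ⟨1, by simpa⟩ hns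
  have hT := H99.toLin'_pow_eq_one.2 hA
  set T := Matrix.toLin' A
  have hσp := H99.fam_pow_eq_one ha hD.finrank_eq hD.indep hσ hT
  have hfix : ∀ j, σ j = j := by
    intro j
    by_contra hne
    have h2 := H99.fam_nrm_inj hD.indep hσ hσp hne
    rw [nrm_eq] at h2
    have h3 := H99.finrank_sup_of_inf h2
    have h4 := hj.2.2 (p - 1)
    rw [top_inf_eq] at h4
    have h5 := sum_min_pred μ (by omega : 0 < p) (fun b hb => (hμ b hb).2)
    have h6 := Submodule.finrank_le (D j ⊔ LinearMap.ker ((T - 1) ^ (p - 1)))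
    rw [Module.finrank_fin_fun] at h6
    rw [hD.finrank_eq] at h3
    omega
  have hinv : ∀ j, H99.TInv T (D j) := fun j => H99.tInv_iff_map.2 (by rw [hσ, hfix])
  let j0 : Fin t := ⟨0, by omega⟩
  have e : D j0 ⊔ ⨆ j, ⨆ (_ : j ≠ j0), D j = ⊤ := by
    rw [← hD.iSup_eq_top, iSup_split_single D j0]
  rw [← e] at hj
  obtain ⟨ν, ν', rfl, h2, -⟩ := hj.exists_le (hinv j0)
    (H99.TInv.iSup fun j => H99.TInv.iSup fun _ => hinv j) (disjoint_iff.1 (hD.indep j0))
  exact ⟨ν, Multiset.le_add_right _ _, h2.2.1.trans (hD.finrank_eq _)⟩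

end Cfsg.Agent.S5959
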