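import Cfsg.Statements.S5963
import Cfsg.Agent.H99.FmDec
import Cfsg.Agent.H11.TSCount

set_option autoImplicit false
open scoped MatrixGroups
open Cfsg

namespace Cfsg.Agent.S5963

/-- Derangements of odd prime order of PSp_n(q), q odd, on pairs of complementary totally isotropic subspaces. Here `T = PSp_n(q)`, `n = 2d ≥ 4`, `q` odd, realised through the symplectic matrices over the field `F` with `q` elements; Ω is the set of unordered pairs `{U, W}` of complementary totally isotropic `d`-spaces (`F^n = U ⊕ W`), whose stabilizers are the subgroups of type GL_d(q).2 (maximal except in some small cases; maximality is not assumed); an element of `T` of prime order `r` (a symplectic matrix `x` with `x^r` scalar, `x` not scalar) fixes such a pair when it fixes or interchanges `U` and `W`. For every odd prime `r ≠ p` dividing the number of such pairs, some element of `T` of order `r` fixes no such pair (the action is never `r`-elusive for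 odd `r ≠ p`). -/
theorem result {F : Type*} [Field F] [Fintype F] {p : ℕ} [Fact p.Prime] [CharP F p] {q : ℕ} (hq : Fintype.card F = q)
    (d : ℕ) (hd : 2 ≤ d) (hT : (d, q) ≠ (2, 2)) (hodd : Odd q)
    (r : ℕ) [Fact r.Prime] (hr2 : r ≠ 2) (hrp : r ≠ p) (hΩ : r ∣ Nat.card {P : Submodule F (Fin d ⊕ Fin d → F) × Submodule F (Fin d ⊕ Fin d → F) // IsCompl P.1 P.2 ∧ (∀ u ∈ P.1, ∀ v ∈ P.1, Cfsg.sympForm d F u v = 0) ∧ (∀ u ∈ P.2, ∀ v ∈ P.2, Cfsg.sympForm d F u v = 0)} / 2) :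
    ∃ x : ↥(Matrix.symplecticGroup (Fin d) F),
      (∃ z : F, ((x ^ r : ↥(Matrix.symplecticGroup (Fin d) F)) : Matrix (Fin d ⊕ Fin d) (Fin d ⊕ Fin d) F) = z • (1 : Matrix (Fin d ⊕ Fin d) (Fin d ⊕ Fin d) F)) ∧
      (∀ z : F, (x : Matrix (Fin d ⊕ Fin d) (Fin d ⊕ Fin d) F) ≠ z • (1 : Matrix (Fin d ⊕ Fin d) (Fin d ⊕ Fin d) F)) ∧
      ¬ (∃ U W : Submodule F (Fin d ⊕ Fin d → F), IsCompl U W ∧ (∀ u ∈ U, ∀ v ∈ U, Cfsg.sympForm d F u v = 0) ∧ (∀ u ∈ W, ∀ v ∈ W, Cfsg.sympForm d F u v = 0) ∧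
        ((U.map (Matrix.toLin' (x : Matrix (Fin d ⊕ Fin d) (Fin d ⊕ Fin d) F)) = U ∧ W.map (Matrix.toLin' (x : Matrix (Fin d ⊕ Fin d) (Fin d ⊕ Fin d) F)) = W) ∨
         (U.map (Matrix.toLin' (x : Matrix (Fin d ⊕ Fin d) (Fin d ⊕ Fin d) F)) = W ∧ W.map (Matrix.toLin' (x : Matrix (Fin d ⊕ Fin d) (Fin d ⊕ Fin d) F)) = U))) := by
  subst hq
  have hf : H98.IsSesq (RingEquiv.refl F) (-1) (sympForm d F) := H9.isSesq_symp
  have ha' : ∀ v, sympForm d F v v = 0 := H27.sympForm_self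
  haveI : Nonempty (Fin d ⊕ Fin d) := ⟨.inl ⟨0, by omega⟩⟩
  have hn : Fintype.card (Fin d ⊕ Fin d) = 2 * d := by simp [two_mul]
  have hr := (Fact.out : r.Prime)
  have hN : (r : F) ≠ 0 := H99.cast_ne_zero_of_ne hrp
  have h2 : (2 : F) ≠ 0 := fun e => by
    obtain rfl := H99.two_eq_zero_iff.1 e
    exact Nat.not_even_iff_odd.2 hodd (even_iff_two_dvd.2 H99.dvd_card_of_charP)
  obtain ⟨U, W, h0, -⟩ := H99.alt_polar hf ha' h2 H99.iso_one (z := 1) (by simp)
  have h1 := H99.factorial_dvd_card_fam (t := 2) (fun D => H99.PP (sympForm d F) (D 0) (D 1))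
    (fun D hD σ => by
      fin_cases σ
      exacts [hD, hD.symm])
    fun D hD i j e => by
      have h3 : D 0 ≠ D 1 := fun e => by
        have h4 := hD.finrank hf
        have h5 := hD.1.inf_eq_bot
        rw [← e, inf_idem] at h5
        rw [h5] at h4
        simp at h4; omega
      fin_cases i <;> fin_cases j <;> first | rfl | exact (h3 e).elim | exact (h3 e.symm).elim
  rw [Nat.card_congr ((finTwoArrowEquiv _).subtypeEquiv
    (p := fun D => H99.PP (sympForm d F) (D 0) (D 1)) (q := fun P =>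
    H99.PP (sympForm d F) P.1 P.2) fun _ => Iff.rfl)] at h1
  have h3 := h0.dvd_card H99.ws_sp hN hn (hΩ.trans (Nat.div_dvd_of_dvd h1))
  unfold H99.Ort at h3
  rw [H99.eq_prod_of_count (g := fun i => Fintype.card F ^ (d - i) + 1) Fintype.one_lt_card
    ((H11.card_ti_alt hf ha' d (by omega)).trans (Finset.prod_congr rfl fun i hi => ?_))] at h3
  · obtain ⟨i, hi, h4⟩ := (hr.prime.dvd_finsetProd_iff _).1 h3
    have := Finset.mem_range.1 hi
    obtain ⟨h5, h6, -⟩ := H99.even_ord_of_dvd hr2 h4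
    have h7 := Nat.le_of_dvd (by omega) h6
    have h8 := H99.ordF_pos hN
    obtain ⟨T, t1, t2, t3⟩ := H99.exists_sp_V0 hN hr2 (if_pos h5).symm (2 * d - H99.ordF F r) 1
      (by rw [hn]; unfold H99.ordF; omega)
    have t4 := H99.finrank_V0_add_V1 T
    rw [H99.finrank_fun', hn] at t4
    have t5 : T ≠ 1 := H99.ne_one_of_V0 (by omega)
    obtain ⟨x, rfl⟩ := H99.exists_sp t1
    refine ⟨x, ⟨1, H99.toLin'_pow_eq_smul.1 (by rw [t2, one_smul])⟩, fun z e =>
      t1.ne_smul_bilin hf (hr.odd_of_ne_two hr2) t2 t5 z (H99.toLin'_eq_smul.2 e), ?_⟩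
    rintro ⟨U, W, u1, u2, u3, u4⟩
    exact t1.no_polar hf hN hr2 t2 t5 (by unfold H99.ordF at *; omega) ⟨u1, u2, u3⟩ u4
  · have := Finset.mem_range.1 hi
    rw [mul_comm (_ - 1), ← Nat.sq_sub_sq, ← pow_mul, Nat.mul_sub, ← pow_add, one_pow, mul_one, hn]
    congr 2; omega

end Cfsg.Agent.S5963
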