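import Cfsg.Statements.S5964
import Cfsg.Agent.H99.Ix3

set_option autoImplicit false
open scoped MatrixGroups
open Cfsg

namespace Cfsg.Agent.S5964

open H99 H98 H67 H9


/-- Involutions of PSL_n(q) and subfield subgroups. Here `T = PSL_n(F)` for a field `F` with `q = p^f` elements (`n ≥ 2`, `(n, q) ≠ (2, 2), (2, 3)`), `F₀` is the subfield with `q₀` elements where `q = q₀^k` for a prime `k`, and `H` is the subgroup of matrices of determinant 1 lying in the subfield group of `F₀` (invertible matrices over `F₀` times scalars) — a maximal subgroup of type GL_n(q₀) (the case `n = 2`, `q₀ = 2` is excluded); Ω is the set of `T`-conjugates of `H` (cosets of `H`), so an element of `T` of prime order `r` (a matrix `x` of determinant 1 with `x^r` scalar, `x` not scalar) fixes a point of Ω when some conjugate of `x` by a matrix of determinant 1 lies in `H`. Suppose the index of `H` is even. Then every involution of `T` is conjugate in `T` into `H` if and only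 if either `q` is even, or `k = 2` and `(n)_2 ≤ (q − 1)_2`. (For `q` odd and `k` odd the index of `H` is odd, so that case does not arise.) -/
theorem result {F : Type*} [Field F] [Fintype F] {p : ℕ} [Fact p.Prime] [CharP F p] {q : ℕ} (hq : Fintype.card F = q)
    (n : ℕ) (hn : 2 ≤ n) (hT : (n, q) ≠ (2, 2) ∧ (n, q) ≠ (2, 3))
    (F₀ : Subfield F) (k q₀ : ℕ) (hk : k.Prime) (hF₀ : Nat.card ↥F₀ = q₀) (hqk : q = q₀ ^ k) (hC5 : ¬ (n = 2 ∧ q₀ = 2)) (hΩ : 2 ∣ ((Cfsg.Geo.subfieldSubgroup F₀ 1).comap (Matrix.SpecialLinearGroup.toGL : Matrix.SpecialLinearGroup (Fin n) F →* GL (Fin n) F)).index) :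
    (∀ x : Matrix.SpecialLinearGroup (Fin n) F,
      (∃ z : F, ((x ^ 2 : Matrix.SpecialLinearGroup (Fin n) F) : Matrix (Fin n) (Fin n) F) = z • (1 : Matrix (Fin n) (Fin n) F)) →
      (∀ z : F, (x : Matrix (Fin n) (Fin n) F) ≠ z • (1 : Matrix (Fin n) (Fin n) F)) →
      ∃ P : Matrix.SpecialLinearGroup (Fin n) F, P⁻¹ * x * P ∈ ((Cfsg.Geo.subfieldSubgroup F₀ 1).comap (Matrix.SpecialLinearGroup.toGL : Matrix.SpecialLinearGroup (Fin n) F →* GL (Fin n) F))) ↔
    (Odd q → (k = 2 ∧ padicValNat 2 n ≤ padicValNat 2 (q - 1))) := by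
  haveI : Nonempty (Fin n) := ⟨⟨0, by omega⟩⟩
  letI := Fintype.ofFinite F₀
  subst hq hF₀
  rw [sl_forall_cm 2 ds_two]
  refine ⟨fun h ho => ?_, fun hv T h1 ⟨z, hz⟩ _ => ?_⟩
  · obtain ⟨j, -, -, h1⟩ := sub_index hqk (two_ne_of_odd ho) (by omega) hΩ
    have h2 : Odd (Nat.card F₀) := (Nat.odd_pow_iff hk.ne_zero).1 (hqk ▸ ho)
    replace h1 := even_iff_two_dvd.2 h1
    rw [Finset.even_sum_iff_even_card_odd, Finset.filter_true_of_mem
      fun i _ => h2.pow.pow, Finset.card_range, hk.even_iff] at h1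
    subst h1
    refine ⟨rfl, by_contra fun e => ?_⟩
    obtain ⟨A, z, a1, a2, a3, a4, -⟩ := exists_sl_nonpow (ι := Fin n) (F := F) (r := 2)
      (by rw [Nat.odd_iff] at ho; omega) fun h => e (by simpa using h.1)
    have a5 := toLin'_pow_eq_smul.2 a2
    obtain ⟨c, B, h1, h3⟩ := (h _ (by simpa) ⟨z, a5⟩ (by simpa [toLin'_eq_smul])).sub
    obtain ⟨s, hs⟩ := isSquare_of_mem_sub hqk (mem_of_pow_smul (h3.pow_smul (N := 2)
      (z := c ^ 2 * z) (by rw [smul_pow, a5, smul_smul])))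
    exact a3 (s / c) (by field_simp; rw [hs, sq])
  rcases sl_two_cases h1 hz with ⟨w, S, h0, rfl, s1⟩ | hw
  · refine CM.smul scalars_le_sub ?_ h0
    obtain ⟨S', t1, t2⟩ := exists_invol (F := F₀) (V := Fin n → F₀) (a := Module.finrank F (V1 S))
      (by simpa using (V1 S).finrank_le) fun e => by
        simpa using two_mul_V1_le ((sq_zero_of_two (congrArg Subtype.val e)).2 s1)
    obtain ⟨B, rfl⟩ := Matrix.toLin'.surjective S'
    rw [toLin'_pow_eq_one] at t1
    refine cm_sub (B := B) (IsUnit.of_pow_eq_one (by rw [← Matrix.det_pow, t1, Matrix.det_one])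
      two_ne_zero).ne_zero (sim_invol s1 (toLin'_pow_eq_one.2 (by
        rw [← Matrix.map_pow, t1]; simp)) rfl ?_)
    rw [← t2, ← rk_one, ← rk_one, ← rk_map F₀.subtype, map_one]
  obtain ⟨A, rfl⟩ := Matrix.toLin'.surjective T
  have h2 : 2 ∣ Fintype.card F - 1 := by_contra fun e =>
    (exists_pow_eq_of_not_dvd e z).elim hw
  have h3 : Odd (Fintype.card F) := by
    have := Fintype.card_pos (α := F)
    rw [Nat.odd_iff]; omega
  obtain ⟨rfl, h4⟩ := hv h3
  obtain ⟨m, m1, m2⟩ := det_of_nonpow hw (toLin'_pow_eq_smul.1 hz)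
  rw [Fintype.card_fin] at m1
  refine ((exists_nonpow_det_iff h2 (k := m) (by omega)).1 ⟨z, hw, m2.symm.trans (by simpa using h1)⟩
    ⟨m1 ▸ h4, fun _ _ => ?_⟩).elim
  obtain ⟨a, ha⟩ := (Nat.odd_pow_iff two_ne_zero).1 (hqk ▸ h3)
  rw [hqk, ha, show (2 * a + 1) ^ 2 = 1 + 4 * (a * a + a) by ring, Nat.add_mul_mod_self_left]

end Cfsg.Agent.S5964
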