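import Cfsg.Statements.S5965
import Cfsg.Agent.H99.Ix3

set_option autoImplicit false
open scoped MatrixGroups
open Cfsg

namespace Cfsg.Agent.S5965

open H99 H98 H67 H9

theorem sym35 {r : ℕ} (hr : r = 3 ∨ r = 5) (E : Multiset (ZMod r)) (h : E.card = r)
    (h0 : E.sum = 0) : ∃ s, (E.map (s + ·)).map (- ·) = E.map (s + ·) := by
  obtain ⟨l, rfl⟩ := Quot.exists_rep E
  rcases hr with rfl | rfl
  · match l, h with
    | [a, b, c], _ => revert a b c; decide +kernel
  · match l, h with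
    | [a, b, c, d, e], _ => revert a b c d e; decide +kernel

set_option maxHeartbeats 1000000 in

/-- Elements of odd prime order r ≠ p of PSL_n(q) and subfield subgroups. Here `T = PSL_n(F)` for a field `F` with `q = p^f` elements (`n ≥ 2`, `(n, q) ≠ (2, 2), (2, 3)`), `F₀` is the subfield with `q₀` elements where `q = q₀^k` for a prime `k`, and `H` is the subgroup of matrices of determinant 1 lying in the subfield group of `F₀` (invertible matrices over `F₀` times scalars) — a maximal subgroup of type GL_n(q₀) (the case `n = 2`, `q₀ = 2` is excluded); Ω is the set of `T`-conjugates of `H` (cosets of `H`), so an element of `T` of prime order `r` (a matrix `x` of determinant 1 with `x^r` scalar, `x` not scalar) fixes a point of Ω when some conjugate of `x` by a matrix of determinant 1 lies in `H`. Let `r ≠ p` be an odd prime dividing the index of `H`, with `(n, r) ≠ (6, 3)` and, when `r = k` divides `q₀ − 1`, with `(n)_r ≤ (q − 1)_r`. Then every element of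 `T` of order `r` is conjugate in `T` into `H` if and only if `r = k`, or `k = 2`, `r = n ∈ {3, 5}` and `(q₀ + 1)_r = r`. The two excluded cases, `(n, r) = (6, 3)` and `r = k ∣ q₀ − 1` with `(n)_r > (q − 1)_r`, are ones where this criterion can fail, so they are left out. -/
theorem result {F : Type*} [Field F] [Fintype F] {p : ℕ} [Fact p.Prime] [CharP F p] {q : ℕ} (hq : Fintype.card F = q)
    (n : ℕ) (hn : 2 ≤ n) (hT : (n, q) ≠ (2, 2) ∧ (n, q) ≠ (2, 3))
    (F₀ : Subfield F) (k q₀ : ℕ) (hk : k.Prime) (hF₀ : Nat.card ↥F₀ = q₀) (hqk : q = q₀ ^ k) (hC5 : ¬ (n = 2 ∧ q₀ = 2)) (r : ℕ) [Fact r.Prime] (hr2 : r ≠ 2) (hrp : r ≠ p) (hgap : ¬ (n = 6 ∧ r = 3)) (hgapk : r = k → r ∣ q₀ - 1 → padicValNat r n ≤ padicValNat r (q - 1)) (hΩ : r ∣ ((Cfsg.Geo.subfieldSubgroup F₀ 1).comap (Matrix.SpecialLinearGroup.toGL : Matrix.SpecialLinearGroup (Fin n) F →* GL (Fin n) F)).index) :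
    (∀ x : Matrix.SpecialLinearGroup (Fin n) F,
      (∃ z : F, ((x ^ r : Matrix.SpecialLinearGroup (Fin n) F) : Matrix (Fin n) (Fin n) F) = z • (1 : Matrix (Fin n) (Fin n) F)) →
      (∀ z : F, (x : Matrix (Fin n) (Fin n) F) ≠ z • (1 : Matrix (Fin n) (Fin n) F)) →
      ∃ P : Matrix.SpecialLinearGroup (Fin n) F, P⁻¹ * x * P ∈ ((Cfsg.Geo.subfieldSubgroup F₀ 1).comap (Matrix.SpecialLinearGroup.toGL : Matrix.SpecialLinearGroup (Fin n) F →* GL (Fin n) F))) ↔
    (r = k ∨ (k = 2 ∧ r = n ∧ (n = 3 ∨ n = 5) ∧ padicValNat r (q₀ + 1) = 1)) := by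
  classical
  haveI : Nonempty (Fin n) := ⟨⟨0, by omega⟩⟩
  letI := Fintype.ofFinite F₀
  subst hq
  have hr : r.Prime := Fact.out
  have hN : (r : F) ≠ 0 := fun e => hrp ((Nat.prime_dvd_prime_iff_eq Fact.out hr).1
    ((CharP.cast_eq_zero_iff F p r).1 e)).symm
  have hq1 : 1 < q₀ := hF₀ ▸ Finite.one_lt_card
  have hq0 : ¬ r ∣ q₀ := fun h => not_dvd_card_of_cast_ne hN (hqk ▸ dvd_pow h hk.ne_zero)
  have hu : ∀ j, r ∣ q₀ ^ j - 1 ↔ (q₀ : ZMod r) ^ j = 1 := fun j => by
    rw [← ord_dvd_iff (by omega), orderOf_dvd_iff_pow_eq_one]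
  have h21 : k = 2 → Fintype.card F - 1 = (q₀ + 1) * (q₀ - 1) := by
    rintro rfl; rw [hqk, ← Nat.sq_sub_sq, one_pow]
  rw [sl_forall_cm r (ds_of_ss hN)]
  refine ⟨fun h => by_contra fun e => ?_, fun hv T h1 ⟨z, hz⟩ _ => ?_⟩
  · obtain ⟨j, j1, j2, j3⟩ := sub_index (hF₀ ▸ hqk) hN (by omega) hΩ
    rw [hF₀, ← ZMod.natCast_eq_zero_iff] at j3
    push_cast at j3
    have u1 : (q₀ : ZMod r) ^ j ≠ 1 := fun e' => e (Or.inl ((Nat.prime_dvd_prime_iff_eq hr hk).1
      ((ZMod.natCast_eq_zero_iff _ _).1 (by simpa [e'] using j3))))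
    have u0 : (q₀ : ZMod r) ≠ 1 := fun e => u1 (by rw [e, one_pow])
    by_cases hi : r ∣ Fintype.card F - 1
    swap
    · have u2 : ordF F r ∣ j := by
        rw [ordF, orderOf_dvd_iff_pow_eq_one, hqk, Nat.cast_pow, pow_right_comm, ← sub_eq_zero,
          ← geom_sum_mul, j3, zero_mul]
      have := Nat.le_of_dvd (by omega) u2
      obtain ⟨A, a1, a2, a3, a4⟩ := exists_sl_ord (ι := Fin n) hN hi (s := 1) (k := n - ordF F r)
        one_pos (by simp; omega)
      have a5 := toLin'_pow_eq_one.2 a2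
      obtain ⟨c, B, c1, c2⟩ := (h (Matrix.toLin' A) (by simpa) ⟨1, by simpa⟩
        (by simpa [toLin'_eq_smul])).sub
      have h8 : c ∈ F₀ := by
        have := mem_of_pow_smul (c2.pow_smul (N := r) (z := c ^ r) (by rw [smul_pow, a5]))
        rw [mem_subfield_iff_pow] at this ⊢
        exact (div_eq_one_iff_eq c1).1 (eq_one_of_pow_of_not_dvd hi (by
          rw [div_pow, pow_right_comm, this, div_self (pow_ne_zero _ c1)]))
      have c3 : Sim (Matrix.toLin' A) (Matrix.toLin' (((⟨c, h8⟩ : F₀)⁻¹ • B).map F₀.subtype)) := by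
        have := c2.smul c⁻¹
        rwa [inv_smul_smul₀ c1, ← map_smul] at this
      obtain ⟨s, s1, -⟩ := finrank_V1_eq (r := r) (T := Matrix.toLin' ((⟨c, h8⟩ : F₀)⁻¹ • B))
        (fun e => hN (by simpa using congrArg F₀.subtype e)) (toLin'_pow_eq_one.2
          (Matrix.map_injective F₀.subtype.injective (by
            simpa [← Matrix.map_pow] using (Matrix.map_pow _ F₀.subtype r).trans
              (toLin'_pow_eq_one.1 (c3.pow_one' a5)))))
      have := finrank_V0_add_V1 (Matrix.toLin' A)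
      rw [← rk_one, ← rk_map F₀.subtype, map_one, ← c3.rk, rk_one, ordF,
        ← Nat.card_eq_fintype_card, hF₀] at s1
      refine u1 (orderOf_dvd_iff_pow_eq_one.1 (Dvd.dvd.trans ⟨s, ?_⟩ u2))
      simp at this
      rw [mul_comm, ← s1]; omega
    have key : ∀ (s : Multiset F) (z : F), s.card = n → s.prod = 1 → (∀ a ∈ s, a ^ r = z) →
        ∀ w, 0 < s.count w → s.count w < n →
        ∃ c, c ≠ 0 ∧ ∀ μ, s.count (c * μ ^ q₀) = s.count μ := fun s z s1 s2 s3 w s4 s5 => by
      obtain ⟨d, -, d1, d2, d3⟩ := exists_diag_ms (ι := Fin n) s (by simpa)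
      have := d2 w
      rw [Fintype.card_fin] at d2 this
      obtain ⟨c, c1, c2⟩ := (h _ (d1.trans s2) ⟨z, d3 r z s3⟩ (ne_smul_of_rk (μ := w) (by omega)
        (by simp; omega))).rk_sub
      exact ⟨c, c1, fun μ => by have := d2 μ; have := d2 (c * μ ^ q₀); have := hF₀ ▸ c2 μ; omega⟩
    have hζ : ∀ ζ : F, ζ ^ r = 1 → ζ ≠ 1 → ∀ a b : ℕ, ζ ^ a = ζ ^ b → (a : ZMod r) = b :=
      fun ζ h1 h2 a b h3 => by
        lift ζ to Fˣ using IsUnit.of_pow_eq_one h1 hr.ne_zero
        rw [ZMod.natCast_eq_natCast_iff, ← orderOf_eq_prime (x := ζ) (Units.ext h1)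
          (by simpa using h2), ← pow_eq_pow_iff_modEq]
        exact Units.ext h3
    by_cases hv : padicValNat r n < padicValNat r (Fintype.card F - 1)
    · obtain ⟨y, hy⟩ := exists_prim ((pow_dvd_pow r hv).trans pow_padicValNat_dvd)
      have h0 := inv_ne_zero (hy.ne_zero (pow_ne_zero _ hr.ne_zero))
      have z1 : (y ^ n) ^ r = 1 := by
        rw [← pow_mul, hy.pow_eq_one_iff_dvd]
        exact Nat.mul_dvd_mul_right pow_padicValNat_dvd r
      have z2 : y ^ n ≠ 1 := fun e => pow_succ_padicValNat_not_dvd (by omega)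
        ((hy.pow_eq_one_iff_dvd n).1 e)
      have z3 : y⁻¹ ≠ y⁻¹ * y ^ n := fun e => z2 (by simpa [h0] using e.symm)
      obtain ⟨c, c1, c2⟩ := key ((y⁻¹ * y ^ n) ::ₘ .replicate (n - 1) y⁻¹) (y⁻¹ ^ r) (by simp; omega)
        (by rw [Multiset.prod_cons, Multiset.prod_replicate, mul_right_comm, ← pow_succ',
          Nat.sub_add_cancel (by omega), ← mul_pow, inv_mul_cancel₀ (by simpa using h0), one_pow])
        (by simp +contextual [Multiset.mem_replicate, mul_pow, z1]) y⁻¹
        (by simp [z3, -inv_inj]; omega) (by simp [z3, -inv_inj]; omega)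
      generalize y ^ n = ζ at *
      generalize y⁻¹ = w at *
      have c3 := c2 w
      have c4 := c2 (w * ζ)
      rw [mul_pow, ← mul_assoc] at c4
      simp only [Multiset.count_cons, Multiset.count_replicate, z3, z3.symm, if_true,
        if_false] at c3 c4
      by_cases e1 : w = c * w ^ q₀
      · rw [← e1, mul_right_inj' h0, eq_comm (a := w), mul_eq_left₀ h0] at c4
        rw [if_neg fun e => hq0 ((ZMod.natCast_eq_zero_iff _ _).1 (by
          simpa using hζ ζ z1 z2 q₀ 0 (by simpa))), if_neg fun e => u0 (by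
          simpa using hζ ζ z1 z2 q₀ 1 (by simpa))] at c4
        omega
      rw [if_neg e1] at c3
      have e2 : c * w ^ q₀ = w * ζ := by_contra fun e => by rw [if_neg e] at c3; omega
      obtain rfl : n = 2 := by rw [if_pos e2] at c3; omega
      obtain rfl : j = 2 := by omega
      rw [e2, mul_assoc, ← pow_succ', mul_right_inj' h0, eq_comm (a := w), mul_eq_left₀ h0] at c4
      rw [if_neg fun e => u1 (by
        have := hζ ζ z1 z2 (q₀ + 1) 0 (by simpa)
        push_cast at this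
        linear_combination (q₀ - 1 : ZMod r) * this), if_neg fun e => hq0
          ((ZMod.natCast_eq_zero_iff _ _).1 (by simpa using hζ ζ z1 z2 (q₀ + 1) 1 (by simpa)))] at c4
      omega
    have h1 := one_le_padicValNat_of_dvd (Nat.sub_ne_zero_of_lt Fintype.one_lt_card) hi
    have h2 : r ∣ n := dvd_of_one_le_padicValNat (by omega)
    have h3 := hr.two_le
    by_cases h7 : 7 ≤ n
    · obtain ⟨ω, h0, hω⟩ := exists_root hi
      have z1 := (hω r).2 dvd_rfl
      have z2 : ω ≠ 1 := fun e => hr.one_lt.ne' (Nat.dvd_one.1 ((hω 1).1 (by simpa)))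
      have z3 : 1 ≠ (ω ^ 2)⁻¹ := fun e => hr2 ((Nat.prime_dvd_prime_iff_eq hr Nat.prime_two).1
        ((hω 2).1 (inv_eq_one.1 e.symm)))
      obtain ⟨c, c1, c2⟩ := key (ω ::ₘ ω ::ₘ (ω ^ 2)⁻¹ ::ₘ .replicate (n - 3) 1) 1 (by simp; omega)
        (by simp [sq, h0]) (by simp [Multiset.mem_replicate, z1, pow_right_comm ω 2 r]) 1
        (by simp [z2.symm, z3]; omega) (by simp [z2.symm, z3]; omega)
      have c3 := c2 1
      have c4 := c2 ω
      simp only [Multiset.count_cons, Multiset.count_replicate, z3, z2.symm, if_true, if_false,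
        one_pow, mul_one] at c3 c4
      obtain rfl : 1 = c := by_contra fun e => by rw [if_neg e] at c3; split_ifs at c3 <;> omega
      rw [one_mul, if_neg fun e => hq0 ((hω _).1 e.symm), if_neg (c := ω ^ q₀ = ω) fun e =>
        u0 (by simpa using hζ ω z1 z2 q₀ 1 (by simpa))] at c4
      split_ifs at c4 <;> omega
    obtain ⟨rfl, h4⟩ : r = n ∧ (n = 3 ∨ n = 5) := by
      have := Nat.le_of_dvd (by omega) h2
      have := hr.eq_two_or_odd
      interval_cases n <;> interval_cases r <;> simp_all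
    haveI := Fact.mk hk
    rw [hqk, hu] at hi
    have h5 := orderOf_eq_prime hi u0 ▸ ord_dvd_sub_one hq0
    obtain rfl : k = 2 := (Nat.prime_dvd_prime_iff_eq hk Nat.prime_two).1
      (hk.dvd_of_dvd_pow (n := 2) (h5.trans (by rcases h4 with rfl | rfl <;> decide)))
    refine e (Or.inr ⟨rfl, rfl, h4, le_antisymm ?_ (one_le_padicValNat_of_dvd (by omega)
      ((ZMod.natCast_eq_zero_iff _ _).1 ?_))⟩)
    · rw [h21 rfl, padicValNat.mul (by omega) (by omega), padicValNat_self] at hv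
      omega
    · push_cast
      exact (mul_eq_zero.1 (by linear_combination hi)).resolve_right (sub_ne_zero.2 u0)
  obtain ⟨A, rfl⟩ := Matrix.toLin'.surjective T
  rw [LinearMap.det_toLin'] at h1
  have hA := sl_dichotomy h1 (toLin'_pow_eq_smul.1 hz)
  have hev : ∀ {A : Matrix (Fin n) (Fin n) F}, A ^ r = 1 → ∀ x ∈ ev (AlgebraicClosure F) A,
      x ^ r = 1 := fun h x hx => (pow_eq_of_mem_ev (c := 1) (by simpa using h) hx).trans (map_one _)
  rcases hv with rfl | ⟨rfl, rfl, h4, h5⟩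
  · obtain ⟨c, c1, c2⟩ := hA.resolve_right fun ⟨h2, _, h3, _⟩ => h3 ⟨by
      simpa using hgapk rfl (by
        rw [hqk, hu, ZMod.pow_card] at h2
        simpa using (hu 1).2 (by simpa)), fun e => absurd e hr2⟩
    rw [← map_smul, toLin'_pow_eq_one] at c2
    refine CM.of_smul scalars_le_sub c1 (map_smul Matrix.toLin' c A ▸ cm_sub_of_ev hN c2
      ((Multiset.map_congr rfl fun x hx => pow_eq_pow_of_modEq ?_ (hev c2 x hx)).trans
        (ev_map_frob _)))
    rw [hF₀, hqk, ← ZMod.natCast_eq_natCast_iff, Nat.cast_pow, ZMod.pow_card]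
  have h6 : r ∣ q₀ + 1 := dvd_of_one_le_padicValNat h5.ge
  have h7 : padicValNat r (Fintype.card F - 1) = 1 := by
    rw [h21 rfl, padicValNat.mul (by omega) (by omega), h5, padicValNat.eq_zero_of_not_dvd fun h =>
      hr2 ((Nat.prime_dvd_prime_iff_eq hr Nat.prime_two).1 ((Nat.dvd_add_right h).1
        (by rwa [show q₀ - 1 + 2 = q₀ + 1 by omega])))]
  obtain ⟨c, c1, c2⟩ := hA.resolve_right fun ⟨_, _, h3, _⟩ => h3 ⟨by simp [h7], fun e => absurd e hr2⟩
  have h8 : A ^ r = 1 := by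
    have h1 : c ^ r ^ 2 = 1 := by
      simpa [h1, ← pow_mul, sq] using congrArg LinearMap.det c2
    obtain ⟨i, i1, i2⟩ := (Nat.dvd_prime_pow hr).1 (orderOf_dvd_of_pow_eq_one h1)
    have := (padicValNat_dvd_iff_le (Nat.sub_ne_zero_of_lt Fintype.one_lt_card)).1
      (i2 ▸ orderOf_dvd_of_pow_eq_one (FiniteField.pow_card_sub_one_eq_one c c1))
    rwa [smul_pow, orderOf_dvd_iff_pow_eq_one.1 (i2 ▸ (pow_dvd_pow r (h7 ▸ this)).trans
      (pow_one r).dvd), one_smul, toLin'_pow_eq_one] at c2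
  obtain ⟨ω, hω⟩ := exists_prim (dvd_of_one_le_padicValNat h7.ge)
  have hω' := hω.map_of_injective (algebraMap F (AlgebraicClosure F)).injective
  let χ := AddChar.zmodChar r hω'.pow_eq_one
  obtain ⟨E, hE⟩ : ∃ E : Multiset (ZMod r), E.map χ = ev _ A := by
    refine (@Multiset.canLift _ _ χ (fun x => ∃ a, χ a = x) ⟨fun _ h => h⟩).prf _ fun x hx => ?_
    obtain ⟨i, -, rfl⟩ := hω'.eq_pow_of_pow_eq_one (hev h8 x hx)
    exact ⟨i, AddChar.zmodChar_apply' _ i⟩
  obtain ⟨s, hs⟩ := sym35 h4 E (by simpa [← hE] using card_ev (AlgebraicClosure F) A)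
    (((AddChar.zmodChar_primitive_of_primitive_root r hω').zmod_char_eq_one_iff r _).1 (by
      have := prod_ev (Ω := AlgebraicClosure F) A
      rw [h1, map_one, ← hE] at this
      exact (show ∀ E : Multiset (ZMod r), χ E.sum = (E.map χ).prod from fun E =>
        Multiset.induction_on E (by simp) fun a E ih => by
          simp [AddChar.map_add_eq_mul, ih]) E |>.trans this))
  have h0 := pow_ne_zero s.val (hω.ne_zero hr.ne_zero)
  refine CM.of_smul scalars_le_sub h0 (map_smul Matrix.toLin' _ A ▸ cm_sub_of_ev hN (by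
    rw [smul_pow, pow_right_comm, hω.pow_eq_one, h8, one_pow, one_smul]) ?_)
  have h9 : ev _ (ω ^ s.val • A) = (E.map (s + ·)).map χ := by
    rw [ev_smul _ h0, ← hE, Multiset.map_map, Multiset.map_map]
    exact Multiset.map_congr rfl fun a _ => by
      simp [χ, AddChar.map_add_eq_mul, AddChar.zmodChar_apply]
  rw [h9]
  conv_rhs => rw [← hs]
  rw [Multiset.map_map, Multiset.map_map χ (- ·)]
  refine Multiset.map_congr rfl fun a _ => ?_
  rw [Function.comp_apply, ← AddChar.map_nsmul_eq_pow, hF₀, nsmul_eq_mul,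
    eq_neg_of_add_eq_zero_left ((Nat.cast_succ q₀).symm.trans ((ZMod.natCast_eq_zero_iff _ _).2 h6))]
  simp

end Cfsg.Agent.S5965
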