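import Cfsg.Statements.S5966
import Cfsg.Agent.H99.Ix3

set_option autoImplicit false
open scoped MatrixGroups
open Cfsg

namespace Cfsg.Agent.S5966

open H99 H98 H67 H9

theorem isSquare_det_of_comm {F V : Type*} [Field F] [AddCommGroup V] [Module F V]
    [FiniteDimensional F V] {N C : Module.End F V} (h : LinearMap.ker N = LinearMap.range N)
    (hC : C * N = N * C) : IsSquare (LinearMap.det C) := by
  have h1 : ∀ v, C (N v) = N (C v) := LinearMap.congr_fun hC
  have h2 : LinearMap.ker N ≤ (LinearMap.ker N).comap C := fun v hv => by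
    simp [← h1, LinearMap.mem_ker.1 hv]
  rw [C.det_eq_det_mul_det _ h2, Sim.det_eq (T := Submodule.mapQ _ _ C h2) (S := C.restrict h2)
    ⟨N.quotKerEquivRange.trans (.ofEq _ _ h.symm), fun v => by
      obtain ⟨v, rfl⟩ := Submodule.Quotient.mk_surjective _ v
      exact Subtype.ext (h1 v).symm⟩]
  exact IsSquare.mul_self _

theorem nonsq_of_odd {F : Type*} [Field F] [Fintype F] {F₀ : Subfield F} {k : ℕ}
    (h : Fintype.card F = Nat.card F₀ ^ k) (hk : Odd k) {δ : F₀} (hδ : ¬ IsSquare δ) :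
    ¬ IsSquare δ.1 := fun ⟨s, hs⟩ => by
  have h1 : Module.finrank F₀ F = k := Nat.pow_right_injective (Finite.one_lt_card (α := F₀))
    ((card_eq_pow_finrank_subfield F₀).symm.trans (Nat.card_eq_fintype_card.trans h))
  obtain ⟨j, rfl⟩ := hk
  have h2 : Algebra.norm F₀ s * Algebra.norm F₀ s = δ ^ (2 * j + 1) := by
    rw [← map_mul, ← hs, ← h1]; exact Algebra.norm_algebraMap δ
  have h0 : δ ≠ 0 := fun e => hδ (by simp [e])
  exact hδ ⟨Algebra.norm F₀ s / δ ^ j, by field_simp; linear_combination -h2⟩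


/-- Elements of order 3 of PSL_n(q) in characteristic 3 and subfield subgroups. Here `T = PSL_n(F)` for a field `F` with `q` elements, `q` a power of 3 (`n ≥ 2`, `(n, q) ≠ (2, 2), (2, 3)`), `F₀` is the subfield with `q₀` elements where `q = q₀^k` for a prime `k`, and `H` is the subgroup of matrices of determinant 1 lying in the subfield group of `F₀` (invertible matrices over `F₀` times scalars) — a maximal subgroup of type GL_n(q₀) (the case `n = 2`, `q₀ = 2` is excluded); Ω is the set of `T`-conjugates of `H` (cosets of `H`), so an element of `T` of prime order `r` (a matrix `x` of determinant 1 with `x^r` scalar, `x` not scalar) fixes a point of Ω when some conjugate of `x` by a matrix of determinant 1 lies in `H`. Suppose 3 divides the index of `H`. Then every element of `T` of order 3 is conjugate in `T` into `H` if and only if `n` is odd, or `n` is even and `k > 2`. -/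
theorem result {F : Type*} [Field F] [Fintype F] [CharP F 3] {q : ℕ} (hq : Fintype.card F = q)
    (n : ℕ) (hn : 2 ≤ n) (hT : (n, q) ≠ (2, 3))
    (F₀ : Subfield F) (k q₀ : ℕ) (hk : k.Prime) (hF₀ : Nat.card ↥F₀ = q₀) (hqk : q = q₀ ^ k) (hC5 : ¬ (n = 2 ∧ q₀ = 2)) (hΩ : 3 ∣ ((Cfsg.Geo.subfieldSubgroup F₀ 1).comap (Matrix.SpecialLinearGroup.toGL : Matrix.SpecialLinearGroup (Fin n) F →* GL (Fin n) F)).index) :
    (∀ x : Matrix.SpecialLinearGroup (Fin n) F,
      (∃ z : F, ((x ^ 3 : Matrix.SpecialLinearGroup (Fin n) F) : Matrix (Fin n) (Fin n) F) = z • (1 : Matrix (Fin n) (Fin n) F)) →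
      (∀ z : F, (x : Matrix (Fin n) (Fin n) F) ≠ z • (1 : Matrix (Fin n) (Fin n) F)) →
      ∃ P : Matrix.SpecialLinearGroup (Fin n) F, P⁻¹ * x * P ∈ ((Cfsg.Geo.subfieldSubgroup F₀ 1).comap (Matrix.SpecialLinearGroup.toGL : Matrix.SpecialLinearGroup (Fin n) F →* GL (Fin n) F))) ↔
    (Odd n ∨ (Even n ∧ 2 < k)) := by
  classical
  haveI : Nonempty (Fin n) := ⟨⟨0, by omega⟩⟩
  haveI := Fact.mk Nat.prime_three
  letI := Fintype.ofFinite F₀
  subst hq hF₀
  have hc : ringChar F ≠ 2 := by rw [ringChar.eq F 3]; omega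
  have hd : ∀ {K : Type _} [Field K] (a : K), ∃ D : Matrix (Fin n) (Fin n) K, D.det = a :=
    fun a => ⟨.diagonal (Function.update 1 ⟨0, by omega⟩ a), by
      simp [Finset.prod_update_of_mem]⟩
  refine ⟨fun h => by_contra fun e => ?_, fun hv => ?_⟩
  · obtain ⟨m, rfl⟩ : Even n := Nat.not_odd_iff_even.1 fun h => e (Or.inl h)
    obtain rfl : k = 2 := le_antisymm (not_lt.1 fun h => e (Or.inr ⟨⟨m, rfl⟩, h⟩)) hk.two_le
    obtain ⟨S, hS⟩ := exists_end_jt (F := F₀) (V := Fin (m + m) → F₀) (μ := .replicate m 2)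
      (by simp [Multiset.mem_replicate]) (by simp; omega)
    obtain ⟨B, rfl⟩ := Matrix.toLin'.surjective S
    have h1 := (jt_map_field F₀.subtype B).2 hS
    have h2 : (Matrix.toLin' (B.map F₀.subtype) - 1) ^ 2 = 0 := LinearMap.ext fun w =>
      h1.pow_eq_zero (by simp [Multiset.mem_replicate]) w trivial
    obtain ⟨δ, hδ⟩ := FiniteField.exists_nonsquare hc
    obtain ⟨D, rfl⟩ := hd δ
    let g := Matrix.GeneralLinearGroup.mkOfDetNeZero D fun e => hδ (by simp [e])
    have h3 := det_eq_one_of_unip h2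
    let b := Matrix.GeneralLinearGroup.mkOfDetNeZero _ (h3 ▸ one_ne_zero)
    have h4 := sim_conj_gl g b
    obtain ⟨x, hx⟩ : g⁻¹ * b * g ∈ (Matrix.SpecialLinearGroup.toGL : _ →* GL _ F).range := by
      rw [← sl_eq_range, mem_sl, ← LinearMap.det_toLin', ← h4.det_eq, LinearMap.det_toLin']
      exact h3
    have h5 : Sim (Matrix.toLin' (B.map F₀.subtype)) (Matrix.toLin' x.1) := by rwa [← hx] at h4
    have h6 := pow_char_of_sub_one (p := 3) h2 (by omega)
    obtain ⟨P, hP⟩ := h x ⟨1, by simpa using toLin'_pow_eq_one.1 (h5.pow_one' h6)⟩ fun z e =>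
      ne_smul_of_unip ((h5.sub_one.pow 2).eq_zero_iff.1 h2) ((h1.of_sim h5).ne_one (b := 2)
        (by simp [Multiset.mem_replicate]; omega) one_lt_two) z (toLin'_eq_smul.2 e)
    obtain ⟨c, B', c1, c2⟩ := of_mem_sub hP
    have h7 := h5.trans (sim_conj_gl (Matrix.SpecialLinearGroup.toGL P)
      (Matrix.SpecialLinearGroup.toGL x))
    rw [← map_inv, ← map_mul, ← map_mul] at h7
    have h8 : c ∈ F₀ := by
      have := mem_of_pow_smul (B := B') (N := 3) (z := c ^ 3) (by
        rw [← c2, map_smul, smul_pow, h7.pow_one' h6])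
      rw [mem_subfield_iff_pow] at this ⊢
      exact frobenius_inj F 3 (by simpa [frobenius_def, pow_right_comm c 3] using this)
    have h9 : (Matrix.SpecialLinearGroup.toGL (P⁻¹ * x * P)).1 =
        ((⟨c, h8⟩ : F₀)⁻¹ • B').map F₀.subtype := by
      rw [← inv_smul_smul₀ c1 (Matrix.SpecialLinearGroup.toGL (P⁻¹ * x * P)).1, c2]; rfl
    obtain ⟨e, he⟩ := ((jt_map_field _ _).1 (h9 ▸ h1.of_sim h7)).sim hS
    obtain ⟨E, hE⟩ := Matrix.toLin'.surjective e.symm.toLinearMap
    have h10 : E * B = ((⟨c, h8⟩ : F₀)⁻¹ • B') * E := Matrix.toLin'.injective (by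
      rw [Matrix.toLin'_mul, Matrix.toLin'_mul, hE]
      exact LinearMap.ext fun v => e.injective (by
        simpa [-Matrix.toLin'_apply] using (he (e.symm v)).symm))
    have h11 := isSquare_det_of_comm (N := Matrix.toLin' (B.map F₀.subtype) - 1)
      (C := Matrix.toLin' (D * P.1 * E.map F₀.subtype))
      (V0_eq_V1 (by rintro _ ⟨v, rfl⟩; exact LinearMap.congr_fun ((sq _).symm.trans h2) v)
        (by
          have := h1.finrank_V0
          have := finrank_V0_add_V1 (Matrix.toLin' (B.map F₀.subtype))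
          simp at *; omega)) (Commute.sub_right (by
        rw [Commute, SemiconjBy, Module.End.mul_eq_comp, Module.End.mul_eq_comp,
          ← Matrix.toLin'_mul, ← Matrix.toLin'_mul, mul_assoc, ← Matrix.map_mul, h10,
          Matrix.map_mul, ← h9, ← mul_assoc, ← mul_assoc]
        exact congrArg (fun z : GL _ F => Matrix.toLin' (z.1 * _))
          (show g * Matrix.SpecialLinearGroup.toGL P * _ = b * (g * Matrix.SpecialLinearGroup.toGL P)
            by rw [map_mul, map_mul, hx, map_inv]; group)) (Commute.one_right _))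
    have h12 : E.det ≠ 0 := by
      rw [← LinearMap.det_toLin', hE]; exact e.symm.isUnit_det'.ne_zero
    rw [LinearMap.det_toLin', Matrix.det_mul, Matrix.det_mul, P.2, mul_one,
      ← RingHom.mapMatrix_apply, ← RingHom.map_det] at h11
    exact hδ (by simpa [h12] using h11.div (isSquare_of_mem_sub hqk E.det.2))
  rw [sl_forall_cm 3 fun T z h1 hz => ?_]
  · rintro T h1 ⟨z, hz⟩ -
    obtain ⟨c, c1, μ, m1, -, m2⟩ := exists_unip_jt h1 hz
    obtain ⟨S, hS⟩ := exists_end_jt (F := F₀) (V := Fin n → F₀) m1.1 (by simpa using m1.2.1)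
    obtain ⟨B, rfl⟩ := Matrix.toLin'.surjective S
    exact (cm_sub (det_eq_one_of_unip (LinearMap.ext fun w => hS.nil w trivial) ▸ one_ne_zero)
      (m1.sim ((jt_map_field _ B).2 hS))).of_smul scalars_le_sub c1
  obtain ⟨c, c1, μ, m1, m2, m3⟩ := exists_unip_jt h1 hz
  refine DS.of_smul c1 ((em _).elim (m1.ds (p := 3)) fun e a ha => ?_)
  have h2 : μ = .replicate μ.card 2 := Multiset.eq_replicate_card.2 fun b hb => by
    have := m1.1 b hb
    have := m3 b hb
    interval_cases b <;> simp_all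
  have h3 := m1.2.1
  rw [h2] at h3
  simp at h3
  have h4 : Odd k := hk.odd_of_ne_two (hv.elim (fun ⟨j, h⟩ => by omega) fun h => h.2.ne')
  obtain ⟨d, d1, s, rfl⟩ : ∃ d ∈ F₀, ∃ s : F, s ^ 2 * d = a := by
    by_cases h : IsSquare a
    · exact ⟨1, F₀.one_mem, h.choose, by rw [mul_one, sq, ← h.choose_spec]⟩
    obtain ⟨δ, hδ⟩ := FiniteField.exists_nonsquare (F := F₀) (by rw [ringChar.eq F₀ 3]; omega)
    have h5 := nonsq_of_odd hqk h4 hδ
    have h0 : δ.1 ≠ 0 := fun e => h5 (by simp [e])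
    obtain ⟨s, hs⟩ : IsSquare (a * δ) := by
      rw [← quadraticChar_neg_one_iff_not_isSquare] at h h5
      rw [← quadraticChar_one_iff_isSquare (mul_ne_zero ha h0), map_mul, h, h5]; simp
    exact ⟨_, F₀.inv_mem δ.2, s, by rw [sq, ← hs, mul_inv_cancel_right₀ h0]⟩
  obtain ⟨C, t1, t2⟩ := m1.exists_comm (b := 2) (by
    rw [h2, Multiset.mem_replicate]; exact ⟨by omega, rfl⟩) s
  obtain ⟨D, hD⟩ := hd (⟨d, d1⟩ : F₀)
  obtain ⟨y, y1, y2⟩ := exists_sub (B := D) (by
    rw [hD]; exact fun e => right_ne_zero_of_mul ha (congrArg Subtype.val e))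
  exact ⟨C, y, y1, t1, by rw [t2, y2, ← RingHom.mapMatrix_apply, ← RingHom.map_det, hD]; rfl⟩

end Cfsg.Agent.S5966
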