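import Cfsg.Statements.S5967
import Cfsg.Agent.H99.Ix1

set_option autoImplicit false
open scoped MatrixGroups
open Cfsg

namespace Cfsg.Agent.S5967

open H99 H98 H67 H9


/-- Involutions of PSL_n(q) and the symplectic-type subgroups. Here `T = PSL_n(F)` for a field `F` with `q` elements, `n ≥ 4` even, `f` is a nondegenerate alternating form on `F^n`, and `H` is the subgroup of matrices of determinant 1 preserving `f` up to a scalar — a maximal subgroup of type Sp_n(q); Ω is the set of `T`-conjugates of `H` (cosets of `H`), so an element of `T` of prime order `r` (a matrix `x` of determinant 1 with `x^r` scalar, `x` not scalar) fixes a point of Ω when some conjugate of `x` by a matrix of determinant 1 preserves `f` up to a scalar. Suppose the index of `H` is even. Then every involution of `T` is conjugate in `T` into `H` if and only if `(q − 1)_2 ≤ (n)_2`. -/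
theorem result {F : Type*} [Field F] [Fintype F] {p : ℕ} [Fact p.Prime] [CharP F p] {q : ℕ} (hq : Fintype.card F = q)
    (n : ℕ) (hn : 4 ≤ n) (he : Even n) (f : (Fin n → F) → (Fin n → F) → F) (hf : Cfsg.Geo.IsSymplecticForm f)
    (hΩ : 2 ∣ ((Cfsg.Geo.similarityGroup f).comap (Matrix.SpecialLinearGroup.toGL : Matrix.SpecialLinearGroup (Fin n) F →* GL (Fin n) F)).index) :
    (∀ x : Matrix.SpecialLinearGroup (Fin n) F,
      (∃ z : F, ((x ^ 2 : Matrix.SpecialLinearGroup (Fin n) F) : Matrix (Fin n) (Fin n) F) = z • (1 : Matrix (Fin n) (Fin n) F)) →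
      (∀ z : F, (x : Matrix (Fin n) (Fin n) F) ≠ z • (1 : Matrix (Fin n) (Fin n) F)) →
      ∃ P : Matrix.SpecialLinearGroup (Fin n) F, P⁻¹ * x * P ∈ ((Cfsg.Geo.similarityGroup f).comap (Matrix.SpecialLinearGroup.toGL : Matrix.SpecialLinearGroup (Fin n) F →* GL (Fin n) F))) ↔
    padicValNat 2 (q - 1) ≤ padicValNat 2 n := by
  haveI : Nonempty (Fin n) := ⟨⟨0, by omega⟩⟩
  have hs := isSesq_of_symplectic hf
  subst hq
  obtain ⟨d, rfl⟩ := he.two_dvd
  rw [sl_forall_cm 2 ds_two]
  refine ⟨fun h => not_lt.1 fun hv => ?_, fun hv T h1 ⟨z, hz⟩ _ => ?_⟩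
  · obtain ⟨w, S, h0, s1, s2, s3, s4, s5⟩ := exists_sl_refl (F := F) (ι := Fin (2 * d))
      (by simp; omega) (Or.inr (by simpa))
    obtain ⟨S', c, t1, t2, t3⟩ := ((h _ s1 ⟨_, s4⟩ s5).of_smul (scalars_le_simil hs) h0).simil
    have h2 : (2 : F) ≠ 0 := fun e => by
      have := (two_eq_zero_iff (p := p)).1 e
      subst this
      rw [padicValNat.eq_zero_of_not_dvd (not_dvd_card_sub_one (F := F))] at hv
      omega
    have h3 := rk_simil hs t2 one_ne_zero t3
    have h4 := t1.V1
    obtain rfl : c = 1 := by
      by_contra e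
      have := card_le_rk_add e S'
      rw [div_one] at h3
      rw [← h3, rk_one, Fintype.card_fin] at this
      omega
    have := (Iso.nd_V1 hs (fun u v => by simpa using t3 u v) (t1.pow_one' s2) h2).even_alt hs
      hf.alternating
    rw [← h4, s3] at this
    exact absurd this (by decide)
  rcases sl_two_cases h1 hz with ⟨w, S, h0, rfl, s1⟩ | hw
  · refine CM.smul (scalars_le_simil hs) ?_ h0
    by_cases h2 : (2 : F) = 0
    · have h3 := (sq_zero_of_two h2).2 s1
      have h4 := two_mul_V1_le h3
      obtain ⟨a, ha⟩ : ∃ a, Module.finrank F (V1 S) = a := ⟨_, rfl⟩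
      rw [ha, Module.finrank_fin_fun] at h4
      obtain ⟨S', t1, t2⟩ := exists_sp_jt (F := F) (d := d)
        (μ := .replicate a 2 + .replicate (2 * (d - a)) 1) (by simp [Multiset.mem_replicate]; omega)
        (fun b hb => by
          have : 2 ≠ b := by rintro rfl; exact absurd hb (by decide)
          simp [Multiset.count_replicate, this]; split_ifs <;> simp) (by simp; omega)
      have h5 := t2.finrank_V0
      have h6 := finrank_V0_add_V1 S'
      have m : Sim S S' := sim_of_sq_zero h3 (LinearMap.ext fun w => t2.pow_eq_zero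
        (by simp [Multiset.mem_replicate]; omega) w trivial) (by simp [two_mul])
        (by simp at h5 h6; omega)
      exact cm_alt hf m H27.sympBilin_isAlt H27.sympBilin_nondegenerate one_ne_zero
        fun u v => by simpa [H27.sympBilin_apply] using t1 u v
    · obtain ⟨U, -, u1, u2⟩ := alt_exists_nd hs hf.alternating (nd_top hs)
        (sl_even_V1 h2 s1 h1 h0 (by simpa)) (Submodule.finrank_mono le_top)
      obtain ⟨S', t1, t2, t3, -⟩ := exists_neg_on hs h2 u1
      exact (cm_simil hs one_ne_zero fun u v => by simpa using t1 u v).of_sim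
        (sim_invol s1 t2 rfl (by rw [t3, u2]))
  · have h0 := ne_zero_of_det h1 hz
    refine cm_alt hf (S := Matrix.toLin' (Matrix.fromBlocks 0 (z • 1) 1 0))
      (sim_of_nonpow Nat.prime_two hw hz (toLin'_pow_eq_smul.2 ?_) (by simp [two_mul]))
      (H27.sympBilin_isAlt (m := d)) H27.sympBilin_nondegenerate (neg_ne_zero.2 h0) fun u v => ?_
    · simp [sq, Matrix.fromBlocks_multiply, ← Matrix.fromBlocks_one, Matrix.fromBlocks_smul]
    · simp [H27.sympBilin_apply, sympForm, Matrix.J, Matrix.fromBlocks_mulVec, dotProduct,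
        Matrix.smul_mulVec, Matrix.neg_mulVec, Finset.mul_sum, mul_add, mul_left_comm, add_comm, mul_assoc]

end Cfsg.Agent.S5967
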