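import Cfsg.Statements.S5968
import Cfsg.Agent.H99.Ix1

set_option autoImplicit false
open scoped MatrixGroups
open Cfsg

namespace Cfsg.Agent.S5968

open H99 H98 H67 H9


/-- Derangements of odd prime order of PSL_n(q) on the cosets of a symplectic-type subgroup. Here `T = PSL_n(F)` for a field `F` with `q` elements, `n ≥ 4` even, `f` is a nondegenerate alternating form on `F^n`, and `H` is the subgroup of matrices of determinant 1 preserving `f` up to a scalar — a maximal subgroup of type Sp_n(q); Ω is the set of `T`-conjugates of `H` (cosets of `H`), so an element of `T` of prime order `r` (a matrix `x` of determinant 1 with `x^r` scalar, `x` not scalar) fixes a point of Ω when some conjugate of `x` by a matrix of determinant 1 preserves `f` up to a scalar. For every odd prime `r` dividing the index of `H`, with `(n, r) ≠ (6, 3)`, there is an element of `T` of order `r` with no conjugate in `H`. (For `n = 6`, `r = 3` this can fail: when `(q − 1)_3 = 3` every element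 of order 3 is conjugate into `H`.) -/
theorem result {F : Type*} [Field F] [Fintype F] {p : ℕ} [Fact p.Prime] [CharP F p] {q : ℕ} (hq : Fintype.card F = q)
    (n : ℕ) (hn : 4 ≤ n) (he : Even n) (f : (Fin n → F) → (Fin n → F) → F) (hf : Cfsg.Geo.IsSymplecticForm f)
    (r : ℕ) [Fact r.Prime] (hr2 : r ≠ 2) (hgap : ¬ (n = 6 ∧ r = 3)) (hΩ : r ∣ ((Cfsg.Geo.similarityGroup f).comap (Matrix.SpecialLinearGroup.toGL : Matrix.SpecialLinearGroup (Fin n) F →* GL (Fin n) F)).index) :
    ∃ x : Matrix.SpecialLinearGroup (Fin n) F,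
      (∃ z : F, ((x ^ r : Matrix.SpecialLinearGroup (Fin n) F) : Matrix (Fin n) (Fin n) F) = z • (1 : Matrix (Fin n) (Fin n) F)) ∧
      (∀ z : F, (x : Matrix (Fin n) (Fin n) F) ≠ z • (1 : Matrix (Fin n) (Fin n) F)) ∧
      ∀ P : Matrix.SpecialLinearGroup (Fin n) F, P⁻¹ * x * P ∉ ((Cfsg.Geo.similarityGroup f).comap (Matrix.SpecialLinearGroup.toGL : Matrix.SpecialLinearGroup (Fin n) F →* GL (Fin n) F)) := by
  classical
  haveI : Nonempty (Fin n) := ⟨⟨0, by omega⟩⟩
  have hs := isSesq_of_symplectic hf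
  have hr : r.Prime := Fact.out
  have ho := hr.odd_of_ne_two hr2
  have key : ¬ r ∣ Fintype.card F - 1 → ∀ T : Module.End F (Fin n → F), T ^ r = 1 →
      CM (Geo.similarityGroup f) T → ∃ S, Sim T S ∧ Iso f S := fun h T hT hc => by
    obtain ⟨S, c, t1, t2, t3⟩ := hc.simil
    obtain ⟨w, w1, w2, w3⟩ := sim_odd hs t2 t3 ho (s := 1) (by rw [t1.pow_one' hT, one_smul])
    rw [smul_pow, t1.pow_one' hT] at w3
    rw [eq_one_of_pow_of_not_dvd h (scalar_eq_one_of_unip (N := 1) (by simp) w3.symm),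
      one_smul] at w2
    exact ⟨S, t1, w2⟩
  rcases eq_or_ne r p with rfl | hrp
  · obtain ⟨T, hT⟩ := exists_end_jt (F := F) (V := Fin n → F) (μ := 3 ::ₘ .replicate (n - 3) 1)
      (by simp [Multiset.mem_replicate]) (by simp; omega)
    have h1 : (T - 1) ^ 3 = 0 := LinearMap.ext fun w => hT.pow_eq_zero
      (by simp [Multiset.mem_replicate]) w trivial
    have h2 := pow_char_of_sub_one h1 (p := r) (by have := hr.two_le; omega)
    refine sl_not_forall r (T := T) ?_ (z := 1) (by rw [h2, one_smul])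
      (ne_smul_of_unip h1 (hT.ne_one (b := 3) (by simp) (by omega))) fun hc => ?_
    · obtain ⟨A, rfl⟩ := Matrix.toLin'.surjective T
      simpa using det_eq_one_of_unip h1
    · obtain ⟨S, t1, t2⟩ := key not_dvd_card_sub_one T h2 hc
      have := Pres.even_count_alt (T := S) ⟨bilL hs, bilL_nd hs, hf.alternating, t2⟩
        (fun k => by rw [← (hT.of_sim t1).2.2 k, top_inf_eq]) (j := 3) (by decide)
      simp [Multiset.count_replicate] at this
  have hN : (r : F) ≠ 0 := fun e => hrp ((Nat.prime_dvd_prime_iff_eq Fact.out hr).1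
    ((CharP.cast_eq_zero_iff F p r).1 e)).symm
  obtain ⟨i1, i2⟩ := alt_index hf he hN hΩ
  by_cases h : r ∣ Fintype.card F - 1
  swap
  · obtain ⟨A, a1, a2, a3, a4⟩ := exists_sl_ord (ι := Fin n) hN h (s := 1) (k := n - ordF F r)
      one_pos (by simp; omega)
    have a5 := toLin'_pow_eq_one.2 a2
    refine sl_not_forall r (T := Matrix.toLin' A) (by simpa) (z := 1) (by simpa)
      (by simpa [toLin'_eq_smul]) fun hc => ?_
    obtain ⟨S, t1, t2⟩ := key h _ a5 hc
    have h1 := (pk_bilin (p := p) hs (Or.inr hf.alternating) hN hr2 rfl).dvd t2 (t1.pow_one' a5)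
      le_rfl (t2.nd_V1 hs (t1.pow_one' a5) hN) (tInv_V1 _)
    have h2 := finrank_V0_add_V1 (Matrix.toLin' A)
    rw [if_neg (Nat.not_even_iff_odd.2 i1), ← t1.V1] at h1
    have := Nat.le_of_dvd (by have := i1.pos; simp at h2; omega) h1
    have := i1.pos
    simp at h2
    omega
  obtain ⟨ω, h0, hω⟩ := exists_root h
  have h4 : ∀ k, ω ^ 2 ^ k ≠ 1 := fun k e =>
    hr2 ((Nat.prime_dvd_prime_iff_eq hr Nat.prime_two).1 (hr.dvd_of_dvd_pow ((hω _).1 e)))
  have h1 : ω ≠ 1 := by simpa using h4 0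
  have h2 : ω ^ 2 ≠ 1 := by simpa using h4 1
  have h3 : ω ^ 3 = 1 → n ≠ 6 := fun e e' =>
    hgap ⟨e', (Nat.prime_dvd_prime_iff_eq hr Nat.prime_three).1 ((hω _).1 e)⟩
  replace h4 : ω ^ 4 ≠ 1 := by simpa using h4 2
  obtain ⟨d, -, d1, d2, d3⟩ := exists_diag_ms (ι := Fin n)
    (ω ::ₘ ω ::ₘ (ω ^ 2)⁻¹ ::ₘ .replicate (n - 3) 1) (by simp; omega)
  simp only [Multiset.count_cons, Multiset.count_replicate, Fintype.card_fin] at d2
  have e1 : 1 ≠ (ω ^ 2)⁻¹ := by simpa using h2
  have d4 := d2 1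
  simp only [h1.symm, e1, if_false, if_true] at d4
  refine sl_not_forall r (by rw [d1]; simp [sq, h0]) (d3 r 1 (by
    simp [Multiset.mem_replicate, (hω r).2 dvd_rfl, pow_right_comm ω 2 r]))
    (ne_smul_of_rk (μ := 1) (by omega) (by simp; omega)) fun hc => ?_
  obtain ⟨S, c, t1, t2, t3⟩ := hc.simil
  have k1 := rk_simil hs t2 one_ne_zero t3
  have k2 := rk_simil hs t2 h0 t3
  rw [← t1.rk, ← t1.rk] at k1 k2
  have d5 := d2 (c / 1)
  have d6 := d2 ω
  have d7 := d2 (c / ω)
  obtain ⟨m, hm⟩ := he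
  rw [div_one] at d5 k1
  rcases eq_or_ne 1 c with rfl | e
  · rw [if_neg (by field_simp; exact h1), if_neg (by field_simp; exact h1),
      if_neg (by field_simp; exact h2.symm)] at d7
    rw [if_pos rfl] at d6
    omega
  rw [if_neg e] at d5
  by_cases e2 : c = (ω ^ 2)⁻¹
  · subst e2
    by_cases e3 : (ω ^ 2)⁻¹ = ω
    · have := h3 (by field_simp at e3; exact e3.symm)
      rw [if_pos rfl, if_pos e3] at d5
      omega
    rw [if_pos rfl, if_neg e3] at d5
    rw [if_neg (by field_simp; exact h1.symm : ¬ _ / ω = (ω ^ 2)⁻¹),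
      if_neg (by field_simp; exact h4.symm : ¬ _ / ω = ω)] at d7
    rw [if_pos rfl] at d6
    split_ifs at d7 <;> omega
  · rw [if_neg e2] at d5
    split_ifs at d5 <;> omega

end Cfsg.Agent.S5968
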