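import Cfsg.Statements.S5969
import Cfsg.Agent.H99.Ix2

set_option autoImplicit false
open scoped MatrixGroups
open Cfsg

namespace Cfsg.Agent.S5969

open H99 H98 H67 H9


/-- Involutions of PSL_n(q) and extension-field subgroups of degree 2. Here `T = PSL_n(F)` for a field `F` with `q = p^f` elements (`n ≥ 2`, `(n, q) ≠ (2, 2), (2, 3)`), `k` is a prime dividing `n`, `K` is a subalgebra of the `n × n` matrices that is a field of degree `k` over `F` (an extension-field structure F_{q^k} on `F^n`), and `H` is the subgroup of matrices of determinant 1 normalizing `K` — a subgroup of type GL_{n/k}(q^k) (maximal except in some small cases; maximality is not assumed); Ω is the set of cosets of `H` in `T`, so an element of `T` of prime order `r` (a matrix `x` of determinant 1 with `x^r` scalar, `x` not scalar) fixes a point of Ω when some conjugate of `x` by a matrix of determinant 1 normalizes `K`. Take `k = 2` and suppose the index of `H` is even. Then every involution of `T` is conjugate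 in `T` into `H` if and only if `n = 2`, or `q` is odd and `(q − 1)_2 ≤ (n)_2`. -/
theorem result {F : Type*} [Field F] [Fintype F] {p : ℕ} [Fact p.Prime] [CharP F p] {q : ℕ} (hq : Fintype.card F = q)
    (n : ℕ) (hn : 2 ≤ n) (hT : (n, q) ≠ (2, 2) ∧ (n, q) ≠ (2, 3))
    (k : ℕ) (hk : k.Prime) (hkn : k ∣ n) (K : Subalgebra F (Matrix (Fin n) (Fin n) F)) (hK : Cfsg.Geo.IsFieldSubalgebra k K) (hk2 : k = 2) (hΩ : 2 ∣ ((Cfsg.Geo.subalgebraNormalizer K).comap (Matrix.SpecialLinearGroup.toGL : Matrix.SpecialLinearGroup (Fin n) F →* GL (Fin n) F)).index) :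
    (∀ x : Matrix.SpecialLinearGroup (Fin n) F,
      (∃ z : F, ((x ^ 2 : Matrix.SpecialLinearGroup (Fin n) F) : Matrix (Fin n) (Fin n) F) = z • (1 : Matrix (Fin n) (Fin n) F)) →
      (∀ z : F, (x : Matrix (Fin n) (Fin n) F) ≠ z • (1 : Matrix (Fin n) (Fin n) F)) →
      ∃ P : Matrix.SpecialLinearGroup (Fin n) F, P⁻¹ * x * P ∈ ((Cfsg.Geo.subalgebraNormalizer K).comap (Matrix.SpecialLinearGroup.toGL : Matrix.SpecialLinearGroup (Fin n) F →* GL (Fin n) F))) ↔
    (n = 2 ∨ (Odd q ∧ padicValNat 2 (q - 1) ≤ padicValNat 2 n)) := by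
  haveI : Nonempty (Fin n) := ⟨⟨0, by omega⟩⟩
  subst hq hk2
  rw [sl_forall_cm 2 ds_two]
  refine ⟨fun h => ?_, fun hv T h1 ⟨z, hz⟩ h3 => ?_⟩
  · by_contra! e
    obtain ⟨w, S, h0, s1, s2, s3, s4, s5⟩ := exists_sl_refl (F := F) (ι := Fin n) (by simpa)
      ((em _).imp_right fun h2 => by simpa using e.2 (Nat.odd_iff.2 (card_odd h2)))
    have := ((h _ s1 ⟨_, s4⟩ s5).of_smul scalars_le_norm h0).dvd_rk hK (μ := 1) (by
      rw [rk_one, s3, Fintype.card_fin]; omega)
    rw [rk_one, s3] at this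
    omega
  rcases sl_two_cases h1 hz with ⟨w, S, h0, rfl, s1⟩ | hw
  swap
  · exact cm_norm_nonpow hK hk dvd_rfl hw hz
  refine CM.smul scalars_le_norm ?_ h0
  rcases hv with rfl | hv
  · have key : ∀ S : Module.End F (Fin 2 → F), S ^ 2 = 1 → (∀ c : F, S ≠ c • 1) →
        Module.finrank F (V1 S) = 1 := fun S h1 h2 => by
      have h3 := rk_eq_zero.ne.2 (h2 1)
      have h4 := rk_eq_zero.ne.2 (h2 (-1))
      have h5 := rk_add_ker S 1
      have h6 : rk S (-1) ≤ Module.finrank F (LinearMap.ker (S - (1 : F) • 1)) :=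
        Submodule.finrank_mono (by rintro _ ⟨v, rfl⟩; simp [sq_apply_one h1, add_comm])
      rw [← rk_one]
      simp only [Module.finrank_fin_fun] at h5
      omega
    obtain ⟨y, y1, y2, -, y3⟩ := exists_frob' hK hk (by simp)
    have y4 := toLin'_pow_eq_one.2 y2
    exact ⟨y, y1, sim_invol s1 y4 rfl ((key S s1 fun c e => h3 (w * c) (by rw [e, smul_smul])).trans
      (key _ y4 (gl_ne_smul' y3)).symm)⟩
  · obtain ⟨a, ha⟩ := sl_even_V1 (two_ne_of_odd hv.1) s1 h1 h0 (by simpa using hv.2)
    have h4 := finrank_KF_mul hK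
    have h5 := finrank_V0_add_V1 S
    letI := Fintype.ofFinite (KF hK)
    obtain ⟨S', t1, t2⟩ := exists_invol (F := KF hK) (V := Fin n → F) (a := a)
      (by simp at h4 h5; omega) fun e => absurd ((algebraMap F (KF hK)).injective
        (by rw [map_ofNat, e, map_zero])) (two_ne_of_odd hv.1)
    obtain ⟨y, y1, y2, y3⟩ := exists_norm_lin hK S' (Module.End.isUnit_iff _ |>.1
      (IsUnit.of_pow_eq_one t1 two_ne_zero) |>.1)
    exact ⟨y, y1, sim_invol s1 (LinearMap.ext fun v => by
      simpa [sq, -Matrix.toLin'_apply, y2] using LinearMap.congr_fun t1 v) rfl (by omega)⟩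

end Cfsg.Agent.S5969
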