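import Cfsg.Statements.S5970
import Cfsg.Agent.H99.Ix2

set_option autoImplicit false
open scoped MatrixGroups
open Cfsg

namespace Cfsg.Agent.S5970

open H99 H98 H67 H9


/-- Elements of order `n` of PSL_n(q), `n` prime, and the normalizer of a Singer cycle. Here `T = PSL_n(F)` for a field `F` with `q = p^f` elements (`n ≥ 2`, `(n, q) ≠ (2, 2), (2, 3)`), `k` is a prime dividing `n`, `K` is a subalgebra of the `n × n` matrices that is a field of degree `k` over `F` (an extension-field structure F_{q^k} on `F^n`), and `H` is the subgroup of matrices of determinant 1 normalizing `K` — a subgroup of type GL_{n/k}(q^k) (maximal except in some small cases; maximality is not assumed); Ω is the set of cosets of `H` in `T`, so an element of `T` of prime order `r` (a matrix `x` of determinant 1 with `x^r` scalar, `x` not scalar) fixes a point of Ω when some conjugate of `x` by a matrix of determinant 1 normalizes `K`. Take `k = n > 3` prime with `n ≠ p` (so `H` is the normalizer of a Singer cycle),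 and suppose `n` divides the index of `H`. Then every element of `T` of order `n` is conjugate in `T` into `H` if and only if the multiplicative order of `q` modulo `n` is `n − 1`. -/
theorem result {F : Type*} [Field F] [Fintype F] {p : ℕ} [Fact p.Prime] [CharP F p] {q : ℕ} (hq : Fintype.card F = q)
    (n : ℕ) (hn : 2 ≤ n) (hT : (n, q) ≠ (2, 2) ∧ (n, q) ≠ (2, 3))
    (k : ℕ) (hk : k.Prime) (hkn : k ∣ n) (K : Subalgebra F (Matrix (Fin n) (Fin n) F)) (hK : Cfsg.Geo.IsFieldSubalgebra k K) (hkn' : k = n) (hn3 : 3 < n) (hnp : n ≠ p) (hΩ : n ∣ ((Cfsg.Geo.subalgebraNormalizer K).comap (Matrix.SpecialLinearGroup.toGL : Matrix.SpecialLinearGroup (Fin n) F →* GL (Fin n) F)).index) :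
    (∀ x : Matrix.SpecialLinearGroup (Fin n) F,
      (∃ z : F, ((x ^ n : Matrix.SpecialLinearGroup (Fin n) F) : Matrix (Fin n) (Fin n) F) = z • (1 : Matrix (Fin n) (Fin n) F)) →
      (∀ z : F, (x : Matrix (Fin n) (Fin n) F) ≠ z • (1 : Matrix (Fin n) (Fin n) F)) →
      ∃ P : Matrix.SpecialLinearGroup (Fin n) F, P⁻¹ * x * P ∈ ((Cfsg.Geo.subalgebraNormalizer K).comap (Matrix.SpecialLinearGroup.toGL : Matrix.SpecialLinearGroup (Fin n) F →* GL (Fin n) F))) ↔
    orderOf (q : ZMod n) = n - 1 := by
  haveI : Nonempty (Fin n) := ⟨⟨0, by omega⟩⟩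
  subst hq hkn'
  haveI := Fact.mk hk
  have hN : (k : F) ≠ 0 := fun e => hnp ((Nat.prime_dvd_prime_iff_eq Fact.out hk).1
    ((CharP.cast_eq_zero_iff F p k).1 e)).symm
  rw [sl_forall_cm k (ds_of_ss hN)]
  refine ⟨fun h => by_contra fun e => ?_, fun h => cm_norm_of_ord hK (by simp) hN h hn3.le⟩
  obtain ⟨A, a1, a2, a3, a4⟩ : ∃ A : Matrix (Fin k) (Fin k) F, A.det = 1 ∧ A ^ k = 1 ∧
      0 < rk (Matrix.toLin' A) 1 ∧ rk (Matrix.toLin' A) 1 + 1 < k := by
    by_cases h1 : k ∣ Fintype.card F - 1
    · obtain ⟨ω, h0, hω⟩ := exists_root h1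
      obtain ⟨A, a1, a2, a3, -⟩ := exists_diag_two hn h0 fun e =>
        hk.one_lt.ne' (Nat.dvd_one.1 ((hω 1).1 (by simpa)))
      exact ⟨A, a1, a2 k ((hω k).2 dvd_rfl), by omega, by omega⟩
    · have h2 := Nat.le_of_dvd (by omega) (ord_dvd_sub_one (not_dvd_card_of_cast_ne hN))
      have h3 := ordF_pos hN
      change ¬ ordF F k = _ at e
      change ordF F k ≤ _ at h2
      obtain ⟨A, a1, a2, -, a4⟩ := exists_sl_ord (ι := Fin k) hN h1 (s := 1) (k := k - ordF F k)
        one_pos (by simp; omega)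
      have := finrank_V0_add_V1 (Matrix.toLin' A)
      rw [Module.finrank_fin_fun, ← rk_one] at this
      exact ⟨A, a1, a2, by omega, by omega⟩
  have h1 := ne_smul_of_rk a3 (by simp; omega)
  exact ((h _ (by simpa) ⟨1, by simpa using toLin'_pow_eq_one.2 a2⟩ h1).le_rk hK hk (by simp)
    (h1 1)).not_gt a4

end Cfsg.Agent.S5970
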