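import Cfsg.Statements.S5971
import Cfsg.Agent.H99.Ix2

set_option autoImplicit false
open scoped MatrixGroups
open Cfsg

namespace Cfsg.Agent.S5971

open H99 H98 H67 H9

theorem cube3 {Ω : Type*} [Field Ω] {a b c x : Ω} (ha : a ^ 3 = 1) (hb : b ^ 3 = 1)
    (hc : c ^ 3 = 1) (h : a * b * c = 1) (hx : x ^ 3 = 1) (hne : ¬ (a = b ∧ b = c)) :
    x = a ∨ x = b ∨ x = c := by
  grind


/-- Elements of order 3 of PSL_3(q) and the normalizer of a Singer cycle. Here `T = PSL_n(F)` for a field `F` with `q = p^f` elements (`n ≥ 2`, `(n, q) ≠ (2, 2), (2, 3)`), `k` is a prime dividing `n`, `K` is a subalgebra of the `n × n` matrices that is a field of degree `k` over `F` (an extension-field structure F_{q^k} on `F^n`), and `H` is the subgroup of matrices of determinant 1 normalizing `K` — a subgroup of type GL_{n/k}(q^k) (maximal except in some small cases; maximality is not assumed); Ω is the set of cosets of `H` in `T`, so an element of `T` of prime order `r` (a matrix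 `x` of determinant 1 with `x^r` scalar, `x` not scalar) fixes a point of Ω when some conjugate of `x` by a matrix of determinant 1 normalizes `K`. Take `n = k = 3` and suppose 3 divides the index of `H`. Then every element of `T` of order 3 is conjugate in `T` into `H` if and only if `q ≡ 4, 7` or `8 (mod 9)`. -/
theorem result {F : Type*} [Field F] [Fintype F] {p : ℕ} [Fact p.Prime] [CharP F p] {q : ℕ} (hq : Fintype.card F = q)
    (n : ℕ) (hn : n = 3) (k : ℕ) (hk : k.Prime) (hkn : k ∣ n) (K : Subalgebra F (Matrix (Fin n) (Fin n) F)) (hK : Cfsg.Geo.IsFieldSubalgebra k K) (hk3 : k = 3) (hΩ : 3 ∣ ((Cfsg.Geo.subalgebraNormalizer K).comap (Matrix.SpecialLinearGroup.toGL : Matrix.SpecialLinearGroup (Fin n) F →* GL (Fin n) F)).index) :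
    (∀ x : Matrix.SpecialLinearGroup (Fin n) F,
      (∃ z : F, ((x ^ 3 : Matrix.SpecialLinearGroup (Fin n) F) : Matrix (Fin n) (Fin n) F) = z • (1 : Matrix (Fin n) (Fin n) F)) →
      (∀ z : F, (x : Matrix (Fin n) (Fin n) F) ≠ z • (1 : Matrix (Fin n) (Fin n) F)) →
      ∃ P : Matrix.SpecialLinearGroup (Fin n) F, P⁻¹ * x * P ∈ ((Cfsg.Geo.subalgebraNormalizer K).comap (Matrix.SpecialLinearGroup.toGL : Matrix.SpecialLinearGroup (Fin n) F →* GL (Fin n) F))) ↔
    (q % 9 = 4 ∨ q % 9 = 7 ∨ q % 9 = 8) := by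
  classical
  subst hq hn hk3
  haveI := Fact.mk hk
  have hq := Fintype.one_lt_card (α := F)
  have h3 : ((3 : ℕ) : F) = 0 ↔ 3 ∣ Fintype.card F := ⟨fun e => by
    have := (Nat.prime_dvd_prime_iff_eq Fact.out hk).1 ((CharP.cast_eq_zero_iff F p 3).1 e)
    subst this
    exact dvd_card_of_charP, fun h => by_contra fun e => not_dvd_card_of_cast_ne e h⟩
  refine ⟨fun h => ?_, fun h => ?_⟩
  · have h1 : ∀ (T : Module.End F (Fin 3 → F)) (μ z : F), LinearMap.det T = 1 → T ^ 3 = z • 1 →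
        rk T μ ≠ 1 := fun T μ z a b c => by
      have h1 := ne_smul_of_rk (c ▸ one_pos) (by simp [c])
      have := ((sl_forall_end 3 (CM _)).1 (fun x a b => (h x a b).elim fun _ => cm_of_conj) T a
        ⟨z, b⟩ h1).le_rk hK hk (by simp) (h1 μ)
      omega
    by_cases hN : ((3 : ℕ) : F) = 0
    · have := (Nat.prime_dvd_prime_iff_eq Fact.out hk).1 ((CharP.cast_eq_zero_iff F p 3).1 hN)
      subst this
      obtain ⟨A, a1, a2, a3⟩ := exists_sl_tv (F := F) (p := 3) (n := 3) (by omega)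
      exact (h1 _ 1 1 (by simpa) (by simpa using toLin'_pow_eq_one.2 a2) a3).elim
    rw [h3] at hN
    have h2 : ¬ 9 ∣ Fintype.card F - 1 := fun e => by
      obtain ⟨ζ, hζ⟩ := exists_prim e
      have h0 := hζ.ne_zero (by omega)
      obtain ⟨d, -, d1, d2, d3⟩ := exists_diag_ms (ι := Fin 3) {ζ, ζ, (ζ ^ 2)⁻¹} rfl
      have h4 : ζ ≠ (ζ ^ 2)⁻¹ := fun e =>
        hζ.pow_ne_one_of_pos_of_lt (l := 3) (by omega) (by omega) (by field_simp at e; exact e)
      refine h1 _ ζ (ζ ^ 3) (by rw [d1]; simp [sq, h0]) (d3 3 _ ?_) (by simpa [h4] using d2 ζ)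
      simp only [Multiset.insert_eq_cons, Multiset.mem_cons, Multiset.mem_singleton]
      rintro _ (rfl | rfl | rfl)
      exacts [rfl, rfl, by field_simp; exact hζ.pow_eq_one.symm]
    obtain ⟨y, y1, y2, -, y3⟩ := exists_frob' hK hk (by simp)
    have h4 := sl_index_mul_dvd (Subgroup.zpowers y).subtype Subtype.val_injective
      fun g => (Subgroup.zpowers_le.2 y1) g.2
    rw [Nat.card_zpowers, orderOf_eq_prime (Units.ext y2) fun e => y3 1 (by simp [e]),
      card_gl'] at h4
    have h5 := (ZMod.natCast_eq_zero_iff _ 9).2 ((Nat.mul_dvd_mul_right hΩ 3).trans h4)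
    simp only [Finset.prod_range_succ, Finset.prod_range_zero, Finset.sum_range_succ, Nat.cast_mul, Nat.cast_pow,
      Nat.cast_sub (Nat.one_le_pow _ _ Fintype.card_pos), ← ZMod.natCast_mod (Fintype.card F) 9]
      at h5
    by_contra e
    rcases (by omega : Fintype.card F % 9 = 2 ∨ Fintype.card F % 9 = 5) with e | e <;>
      rw [e] at h5 <;> exact absurd h5 (by decide)
  have hN : ((3 : ℕ) : F) ≠ 0 := fun e => by have := h3.1 e; omega
  rw [sl_forall_cm 3 (ds_of_ss hN)]
  by_cases h8 : Fintype.card F % 9 = 8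
  · refine cm_norm_of_ord hK (by simp) hN ?_ le_rfl
    rw [ordF, ← ZMod.natCast_mod, show Fintype.card F % 3 = 2 by omega]
    exact orderOf_eq_prime (p := 2) (by decide) (by decide)
  rintro T h1 ⟨z, hz⟩ h2
  by_cases h4 : ∀ b : F, b ^ 3 ≠ z
  · exact cm_norm_nonpow hK hk dvd_rfl h4 hz
  obtain ⟨b, rfl⟩ := not_forall_not.1 h4
  have h5 : b ^ 9 = 1 := by simpa [h1, ← pow_mul] using congrArg LinearMap.det hz.symm
  have h6 : b ^ Nat.gcd 9 (Fintype.card F - 1) = 1 := pow_gcd_eq_one.2 ⟨h5,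
    FiniteField.pow_card_sub_one_eq_one b fun e => by simp [e] at h5⟩
  rw [show Nat.gcd 9 (Fintype.card F - 1) = 3 by
    rcases (by omega : (Fintype.card F - 1) % 9 = 3 ∨ (Fintype.card F - 1) % 9 = 6) with e | e <;>
      rw [Nat.gcd_rec, e] <;> rfl] at h6
  obtain ⟨A, rfl⟩ := Matrix.toLin'.surjective T
  rw [h6, toLin'_pow_eq_smul] at hz
  obtain ⟨y, y1, y2, y3, -⟩ := exists_frob' hK hk (by simp)
  refine ⟨y, y1, sim_reg hN (by simp) (by simpa using hz) y2 (fun x hx => ?_) y3⟩
  obtain ⟨a, b, c, e⟩ := Multiset.card_eq_three.1 (card_ev (AlgebraicClosure F) A)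
  have h7 := fun x => pow_eq_of_mem_ev (Ω := AlgebraicClosure F) (x := x) hz
  have h9 := prod_ev (Ω := AlgebraicClosure F) A
  rw [LinearMap.det_toLin'] at h1
  rw [e, map_one] at h7
  rw [e, h1, map_one] at h9
  simp only [e, Multiset.insert_eq_cons, Multiset.mem_cons, Multiset.mem_singleton]
  refine cube3 (h7 a (by simp)) (h7 b (by simp)) (h7 c (by simp)) (by simpa [mul_assoc] using h9)
    hx ?_
  rintro ⟨rfl, rfl⟩
  obtain ⟨μ, hμ⟩ := exists_algebraMap_eq_of_pow_card (F := F) (x := a) (by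
    rw [← Nat.div_add_mod (Fintype.card F) 3, pow_add, pow_mul, h7 a (by simp),
      show Fintype.card F % 3 = 1 by omega]; simp)
  refine h2 μ (toLin'_eq_smul.2 (pow_one A ▸ (IsSS_pow_eq_smul_iff (Ω := AlgebraicClosure F)
    (isSS_of_pow_smul hN one_ne_zero hz) 1 μ).2 ?_))
  simp [e, hμ]

end Cfsg.Agent.S5971
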