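import Cfsg.Statements.S5972
import Cfsg.Agent.H99.FmO5

set_option autoImplicit false
open scoped MatrixGroups
open Cfsg

namespace Cfsg.Agent.S5972

/-- Elements of prime order of Ω_n(q), n = 2d+1 ≥ 7, q odd, with no fixed totally singular `m`-space. Here `T = Ω_n(q)` is realised as the commutator subgroup of the isometry group of the quadratic form `x₀² + Σ xᵢyᵢ` over the field `F` with `q` elements (it has trivial centre, so its elements of prime order `r` are used directly); let `1 ≤ m ≤ d` and let `r` be a prime dividing the number of totally singular `m`-spaces. For `r ≠ p` let `i` be the multiplicative order of `q` modulo `r`, `c = i` for `i` even and `c = 2i` for `i` odd, and write `k = n mod c`, `ℓ = m mod i`, `n' = ⌊n/i⌋`, `m' = ⌊m/i⌋`, `t = (r−1)/i`. Then every element of `T` of order `r` fixes some totally singular `m`-space if and only if either (i) `r = 2` and (`m < (n−1)/2` or `q ≡ 1 (mod 4)`); or (ii) `r ≠ p` is odd, `i ≤ m`, `k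 > 2ℓ`, and (`i` is odd or `n' − 2m' ≥ t`). -/
theorem result {F : Type*} [Field F] [Fintype F] {p : ℕ} [Fact p.Prime] [CharP F p] {q : ℕ} (hq : Fintype.card F = q) (hqodd : Odd q)
    (d m : ℕ) (hd : 3 ≤ d) (hm : 1 ≤ m) (hmd : m ≤ d)
    (r : ℕ) [Fact r.Prime]
    (hrΩ : r ∣ Nat.card {W : Submodule F (Unit ⊕ (Fin d ⊕ Fin d) → F) // Module.finrank F ↥W = m ∧ (∀ w ∈ W, Cfsg.quadFormOdd d F w = 0)})
    (i c : ℕ) (hi : i = orderOf (q : ZMod r)) (hc : c = if Even i then i else 2 * i) :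
    (∀ x : GL (Unit ⊕ (Fin d ⊕ Fin d)) F, x ∈ Cfsg.Geo.omegaGL (Cfsg.quadFormOdd d F) → orderOf x = r →
      ∃ W : Submodule F (Unit ⊕ (Fin d ⊕ Fin d) → F), Module.finrank F ↥W = m ∧ (∀ w ∈ W, Cfsg.quadFormOdd d F w = 0) ∧
        W.map (Matrix.toLin' (x : Matrix (Unit ⊕ (Fin d ⊕ Fin d)) (Unit ⊕ (Fin d ⊕ Fin d)) F)) ≤ W) ↔
    ((r = 2 ∧ (m < d ∨ q % 4 = 1)) ∨
     (r ≠ p ∧ 2 < r ∧ i ≤ m ∧ 2 * (m % i) < (2 * d + 1) % c ∧ (Odd i ∨ (r - 1) / i + 2 * (m / i) ≤ (2 * d + 1) / i))) := by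
  subst hq
  replace hi : H99.ordF F r = i := hi.symm
  have h2 := H28.two_ne_zero_of_odd_card hqodd
  have hQ := H99.nq_odd h2 d
  have hr := (Fact.out : r.Prime)
  rw [← H67.coe_QOdd] at hrΩ ⊢
  have hn : Fintype.card (Unit ⊕ (Fin d ⊕ Fin d)) = 2 * d + 1 := by simp; omega
  have hrp : r ≠ p := by
    rintro rfl
    exact H99.not_dvd_ts_odd h2 hmd hrΩ
  refine (H99.om_forall_ord hQ r fun T => ∃ W : Submodule F (Unit ⊕ (Fin d ⊕ Fin d) → F),
    Module.finrank F W = m ∧ H99.Ts (H67.QOdd F d) W ∧ W.map T ≤ W).trans ?_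
  simp only [← H99.tInv_iff_map]
  by_cases hr2 : r = 2
  · subst hr2
    simp only [lt_irrefl, false_and, and_false, or_false, true_and]
    refine ⟨fun h => by_contra fun hc => ?_, fun h T t1 t2 t3 => ?_⟩
    · obtain ⟨T, t1, t2, t3, t4⟩ := hQ.exists_neg_plane (by omega) h2 fun e => hc (Or.inr e)
      obtain ⟨W, w1, w2, w3⟩ := h T t1 t2 (H99.ne_one_of_V1 (by omega))
      have := t1.oi.inv_ts_plane hQ h2 t2 t3 t4 w2 w3
      omega
    · obtain ⟨a, ha⟩ := t1.even_V1 hQ (by omega)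
      have h3 := H99.V1_pos t3
      have h4 := (t1.oi.inv_nd hQ h2 t2).2.2.2.1
      obtain ⟨W, w1, w2⟩ := t1.oi.inv_ts hQ h2 t2 (a := min m (d - a)) (b := m - min m (d - a))
        (Or.inl (by omega)) (by
          rcases h with h | h
          · exact Or.inl (by omega)
          · have := t1.pl_V1 hQ (by omega) h2 t2 h
            simp only [this, and_true]
            omega)
      exact ⟨W, by omega, w2⟩
  have hr3 : 2 < r := lt_of_le_of_ne hr.two_le (Ne.symm hr2)
  have hN : (r : F) ≠ 0 := H99.cast_ne_zero_of_ne hrp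
  rw [H99.om_forall_odd' hQ (by omega) (hr.odd_of_ne_two hr2),
    hQ.ts_iff' hN hr2 (hi ▸ hc) hn (iff_false_intro (H99.not_pl_odd d)) (by omega) hrΩ, hi]
  simp only [hr3, hr2, hrp, ne_eq, not_false_eq_true, false_and, false_or, true_and]
  refine and_congr_right fun _ => ?_
  have h3 : (2 * d + 1) % c % 2 = 1 := by
    rw [Nat.mod_mod_of_dvd _ (H99.even_of_bilin_c hc).two_dvd]; omega
  rcases H99.bilin_c_cases hc with ⟨e, rfl⟩ | ⟨e, rfl⟩
  · simp only [H99.tau_even e, e, Nat.not_odd_iff_even.2 e, false_iff, true_imp_iff, false_or]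
    omega
  · simp only [H99.tau_odd e, e, Nat.not_even_iff_odd.2 e, false_iff, false_imp_iff]
    simp
    omega

end Cfsg.Agent.S5972
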