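import Cfsg.Statements.S5973
import Cfsg.Agent.H99.FmO5

set_option autoImplicit false
open scoped MatrixGroups
open Cfsg

namespace Cfsg.Agent.S5973

/-- Elements of prime order of PΩ⁺_n(q), n = 2d ≥ 8, with no fixed totally singular `m`-space, `m < n/2`. Here `T = PΩ⁺_n(q)` is realised through `Ω⁺_n(q)`, the commutator subgroup of the isometry group of the quadratic form `Σ xᵢyᵢ` over the field `F` with `q` elements; an element of `T` of prime order `r` is an element `x` of `Ω⁺_n(q)` with `x^r` scalar and `x` not scalar. Let `1 ≤ m < d` and let `r` be a prime dividing the number of totally singular `m`-spaces. For `r ≠ p` let `i` be the multiplicative order of `q` modulo `r`, `c = i` for `i` even and `c = 2i` for `i` odd, and write `k = n mod c`, `ℓ = m mod i`, `n' = ⌊n/i⌋`, `m' = ⌊m/i⌋`, `t = (r−1)/i`. Then every element of `T` of order `r` fixes some totally singular `m`-space if and only if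 one of: (i) `r = 2 ≠ p` and either `q ≡ 1 (mod 4)`, or `q ≡ 3 (mod 4)`, `m ≤ n/2 − 2` and (`m` even or `n ≡ 2 (mod 4)`); (ii) `r ≠ p` odd, `i` odd, `i ≤ m` and `k ≥ 2ℓ`; (iii) `r ≠ p` odd, `i` even, `i ≤ m`, `n' − 2m' ≥ t`, and one of: `i ≥ 2ℓ`, `k = 0`, `n/i` odd and `n' − 2m' > t`; or `k ≥ 2ℓ` and `n'` even; or `k > 2ℓ` and `n'` odd. -/
theorem result {F : Type*} [Field F] [Fintype F] {p : ℕ} [Fact p.Prime] [CharP F p] {q : ℕ} (hq : Fintype.card F = q)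
    (d m : ℕ) (hd : 4 ≤ d) (hm : 1 ≤ m) (hmd : m < d)
    (r : ℕ) [Fact r.Prime]
    (hrΩ : r ∣ Nat.card {W : Submodule F (Fin d ⊕ Fin d → F) // Module.finrank F ↥W = m ∧ (∀ w ∈ W, Cfsg.quadFormPlus d F w = 0)})
    (i c : ℕ) (hi : i = orderOf (q : ZMod r)) (hc : c = if Even i then i else 2 * i) :
    (∀ x : GL (Fin d ⊕ Fin d) F, x ∈ Cfsg.Geo.omegaGL (Cfsg.quadFormPlus d F) →
      (∃ z : F, ((x ^ r : GL (Fin d ⊕ Fin d) F) : Matrix (Fin d ⊕ Fin d) (Fin d ⊕ Fin d) F) = z • (1 : Matrix (Fin d ⊕ Fin d) (Fin d ⊕ Fin d) F)) →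
      (∀ z : F, (x : Matrix (Fin d ⊕ Fin d) (Fin d ⊕ Fin d) F) ≠ z • (1 : Matrix (Fin d ⊕ Fin d) (Fin d ⊕ Fin d) F)) →
      ∃ W : Submodule F (Fin d ⊕ Fin d → F), Module.finrank F ↥W = m ∧ (∀ w ∈ W, Cfsg.quadFormPlus d F w = 0) ∧
        W.map (Matrix.toLin' (x : Matrix (Fin d ⊕ Fin d) (Fin d ⊕ Fin d) F)) ≤ W) ↔
    ((r = 2 ∧ p ≠ 2 ∧ (q % 4 = 1 ∨ (q % 4 = 3 ∧ m + 2 ≤ d ∧ (Even m ∨ (2 * d) % 4 = 2)))) ∨
     (r ≠ p ∧ 2 < r ∧ Odd i ∧ i ≤ m ∧ 2 * (m % i) ≤ (2 * d) % c) ∨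
     (r ≠ p ∧ 2 < r ∧ Even i ∧ i ≤ m ∧ (r - 1) / i + 2 * (m / i) ≤ (2 * d) / i ∧
       ((2 * (m % i) ≤ i ∧ (2 * d) % c = 0 ∧ Odd ((2 * d) / i) ∧ (r - 1) / i + 2 * (m / i) < (2 * d) / i) ∨
        (2 * (m % i) ≤ (2 * d) % c ∧ Even ((2 * d) / i)) ∨
        (2 * (m % i) < (2 * d) % c ∧ Odd ((2 * d) / i))))) := by
  subst hq
  replace hi : H99.ordF F r = i := hi.symm
  have hQ := H99.nq_plus (F := F) d
  have hP := H99.pl_plus (F := F) d
  have hr := (Fact.out : r.Prime)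
  rw [← H67.coe_QPlus] at hrΩ ⊢
  have hn : Fintype.card (Fin d ⊕ Fin d) = 2 * d := by simp; omega
  haveI : Nonempty (Fin d ⊕ Fin d) := ⟨.inl ⟨0, by omega⟩⟩
  have hrp : r ≠ p := by
    rintro rfl
    exact H99.not_dvd_ts_plus hmd hrΩ
  refine (H99.om_forall_iff hQ r fun T => ∃ W : Submodule F (Fin d ⊕ Fin d → F),
    Module.finrank F W = m ∧ H99.Ts (H67.QPlus F d) W ∧ W.map T ≤ W).trans ?_
  simp only [← H99.tInv_iff_map]
  by_cases hr2 : r = 2
  · subst hr2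
    have h2 : (2 : F) ≠ 0 := mt H99.two_eq_zero_iff.1 hrp.symm
    have h5 := H99.card_odd h2
    simp only [hrp.symm, lt_irrefl, ne_eq, not_false_eq_true, false_and, and_false, or_false,
      true_and, Nat.even_iff]
    refine ⟨fun h => or_iff_not_imp_left.2 fun hc => ⟨by omega, ?_, ?_⟩, fun h T t1 ⟨z, hz⟩ t3 => ?_⟩
    · obtain ⟨T, t1, t2, t3, t4⟩ := hQ.exists_neg_plane (by omega) h2 hc
      have := (t1.oi.inv_nd hQ h2 t2).2.2.2.1
      obtain ⟨W, w1, w2, w3⟩ := h T t1 ⟨1, by simpa⟩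
        (H99.ne_smul_of_V0 (H99.ne_one_of_V1 (by omega)) (by omega))
      have := (t1.oi.inv_ts_plane hQ h2 t2 t3 t4 w2 w3).resolve_right fun a => a.2 hP
      omega
    · refine or_iff_not_imp_right.2 fun h4 => ?_
      have h6 : Even d := Nat.even_iff.2 (by omega)
      have h3 := mt (H99.isSquare_neg_one_iff h2).1 hc
      obtain ⟨T, t1, t2⟩ := (hQ.om_sq_neg_iff (by omega) h2 hn).2
        ⟨iff_of_true hP (Or.inl h6), Or.inl h6⟩
      obtain ⟨W, w1, -, w3⟩ := h T t1 ⟨_, t2⟩ (H99.ne_smul_of_neg h3 t2)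
      have := (H99.homog_of_neg h3 t2 W w3 le_top).1
      omega
    rcases t1.oi.iso.sq_cases hQ.sq hz with t2 | t2
    · obtain ⟨a, ha⟩ := t1.even_V1 hQ (by omega)
      have h3 := H99.V1_pos (T := T) (by simpa using t3 1)
      have h3' := H99.V0_pos t2 (t3 _)
      obtain ⟨n0, n1, o, h4, e⟩ := t1.oi.inv_nd hQ h2 t2
      by_cases h6 : H99.Pl (H67.QPlus F d) (H99.V1 T)
      · have h7 := (hQ.pl_sup_right n0 n1 o h6).1 (e ▸ hP)
        obtain ⟨W, w1, w2⟩ := t1.oi.inv_ts hQ h2 t2 (a := min m (d - a)) (b := m - min m (d - a))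
          (by simp only [h7, and_true]; omega) (by simp only [h6, and_true]; omega)
        exact ⟨W, by omega, w2⟩
      · have h7 := h.resolve_left fun e => h6 (t1.pl_V1 hQ (by omega) h2 t2 e)
        obtain ⟨W, w1, w2⟩ := t1.oi.inv_ts hQ h2 t2 (a := min m (d - a - 1))
          (b := m - min m (d - a - 1)) (Or.inl (by omega)) (Or.inl (by omega))
        exact ⟨W, by omega, w2⟩
    · by_cases h3 : IsSquare (-1 : F)
      · obtain ⟨W, w1, w2, w3⟩ := t1.oi.iso.ti_neg_sq hQ.sq h2 t2 h3 (m := m) (by omega)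
        exact ⟨W, w1, w2.ts h2, w3⟩
      · have h4 := mt (H99.isSquare_neg_one_iff h2).2 h3
        have h6 := ((hQ.om_sq_neg_iff (by omega) h2 hn).1 ⟨T, t1, t2⟩).1.1 hP
        rw [Nat.even_iff] at h6
        obtain ⟨W, -, w1, w2, w3⟩ := t1.oi.iso.ti_neg_nonsq (p := p) hQ.sq h2 t2 h3
          (H99.nd_top hQ.sq) (H99.TInv.top T) (j := m / 2) (by simp; omega)
        exact ⟨W, by omega, w2.ts h2, w1⟩
  have hr3 : 2 < r := lt_of_le_of_ne hr.two_le (Ne.symm hr2)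
  have hN : (r : F) ≠ 0 := H99.cast_ne_zero_of_ne hrp
  rw [H99.om_forall_odd hQ (by omega) (hr.odd_of_ne_two hr2) _
    fun T ⟨W, h1, h2, h3⟩ => ⟨W, h1, h2, h3.neg⟩,
    hQ.ts_iff' hN hr2 (hi ▸ hc) hn (iff_true_intro hP) (by omega) hrΩ, hi]
  simp only [hr3, hr2, hrp, ne_eq, not_false_eq_true, false_and, false_or, true_and]
  rcases H99.bilin_c_cases hc with ⟨e, rfl⟩ | ⟨e, rfl⟩
  · simp only [H99.tau_even e, e, Nat.not_odd_iff_even.2 e, true_iff, true_imp_iff, false_or,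
      false_and, true_and]
    simp only [Nat.even_iff, Nat.odd_iff]
    omega
  · simp only [H99.tau_odd e, e, Nat.not_even_iff_odd.2 e, true_iff, false_imp_iff]
    simp
    omega

end Cfsg.Agent.S5973
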