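import Cfsg.Statements.S5974
import Cfsg.Agent.H99.FmO5

set_option autoImplicit false
open scoped MatrixGroups
open Cfsg

namespace Cfsg.Agent.S5974

/-- Elements of prime order of PΩ⁺_n(q), n = 2d ≥ 8, with no fixed nondegenerate hyperbolic `m`-space. Here `T = PΩ⁺_n(q)` is realised through `Ω⁺_n(q)`, the commutator subgroup of the isometry group of `Q = Σ xᵢyᵢ` over the field `F` with `q` elements; an element of `T` of prime order `r` is an element `x` of `Ω⁺_n(q)` with `x^r` scalar and `x` not scalar. A hyperbolic `m`-space is a subspace `W` of even dimension `m` on which the polar form of `Q` is nondegenerate and which contains a totally singular subspace of dimension `m/2`. Let `m` be even with `2 ≤ m < n/2`, and let `r` be a prime dividing the number of hyperbolic `m`-spaces, with `r = 2` or `r ≠ p`. For `r ≠ p` let `i` be the multiplicative order of `q` modulo `r`, `c = i` for `i` even and `c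 = 2i` for `i` odd, and write `k = n mod c`, `ℓ' = m mod c`. Then every element of `T` of order `r` fixes some hyperbolic `m`-space if and only if one of: (i) `r = 2` and (`n ≡ 2 (mod 4)`, or `m ≡ 0 (mod 4)`, or `q ≡ 1 (mod 4)`); (ii) `r ≠ p` odd, `i` odd, `c ≤ m` and `k ≥ ℓ'`; (iii) `r ≠ p` odd, `i` even, and either `k = 0` and (`n/i` odd, or `ℓ' = 0` and `m/i` even), or `i ≤ m` and (`k > ℓ' > 0`, or `k = ℓ' > 0` and `(n + m − 2k)/i` even, or `k > ℓ' = 0` and `m/i` even). -/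
theorem result {F : Type*} [Field F] [Fintype F] {p : ℕ} [Fact p.Prime] [CharP F p] {q : ℕ} (hq : Fintype.card F = q)
    (d m : ℕ) (hd : 4 ≤ d) (hm : 2 ≤ m) (hme : Even m) (hmd : m < d)
    (r : ℕ) [Fact r.Prime] (hr : r = 2 ∨ r ≠ p)
    (hrΩ : r ∣ Nat.card {W : Submodule F (Fin d ⊕ Fin d → F) // (Module.finrank F ↥W = m ∧ (∀ u ∈ W, u ≠ 0 → ∃ v ∈ W, QuadraticMap.polar (Cfsg.quadFormPlus d F) u v ≠ 0) ∧
          ∃ U : Submodule F (Fin d ⊕ Fin d → F), U ≤ W ∧ 2 * Module.finrank F ↥U = m ∧ ∀ u ∈ U, Cfsg.quadFormPlus d F u = 0)})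
    (i c : ℕ) (hi : i = orderOf (q : ZMod r)) (hc : c = if Even i then i else 2 * i) :
    (∀ x : GL (Fin d ⊕ Fin d) F, x ∈ Cfsg.Geo.omegaGL (Cfsg.quadFormPlus d F) →
      (∃ z : F, ((x ^ r : GL (Fin d ⊕ Fin d) F) : Matrix (Fin d ⊕ Fin d) (Fin d ⊕ Fin d) F) = z • (1 : Matrix (Fin d ⊕ Fin d) (Fin d ⊕ Fin d) F)) →
      (∀ z : F, (x : Matrix (Fin d ⊕ Fin d) (Fin d ⊕ Fin d) F) ≠ z • (1 : Matrix (Fin d ⊕ Fin d) (Fin d ⊕ Fin d) F)) →
      ∃ W : Submodule F (Fin d ⊕ Fin d → F), (Module.finrank F ↥W = m ∧ (∀ u ∈ W, u ≠ 0 → ∃ v ∈ W, QuadraticMap.polar (Cfsg.quadFormPlus d F) u v ≠ 0) ∧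
          ∃ U : Submodule F (Fin d ⊕ Fin d → F), U ≤ W ∧ 2 * Module.finrank F ↥U = m ∧ ∀ u ∈ U, Cfsg.quadFormPlus d F u = 0) ∧
        W.map (Matrix.toLin' (x : Matrix (Fin d ⊕ Fin d) (Fin d ⊕ Fin d) F)) ≤ W) ↔
    ((r = 2 ∧ ((2 * d) % 4 = 2 ∨ m % 4 = 0 ∨ q % 4 = 1)) ∨
     (r ≠ p ∧ 2 < r ∧ Odd i ∧ c ≤ m ∧ m % c ≤ (2 * d) % c) ∨
     (r ≠ p ∧ 2 < r ∧ Even i ∧
       (((2 * d) % c = 0 ∧ (Odd ((2 * d) / i) ∨ (m % c = 0 ∧ Even (m / i)))) ∨
        (i ≤ m ∧ ((m % c < (2 * d) % c ∧ 0 < m % c) ∨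
                  ((2 * d) % c = m % c ∧ 0 < m % c ∧ Even ((2 * d + m - 2 * ((2 * d) % c)) / i)) ∨
                  (0 < (2 * d) % c ∧ m % c = 0 ∧ Even (m / i))))))) := by
  subst hq
  replace hi : H99.ordF F r = i := hi.symm
  have hQ := H99.nq_plus (F := F) d
  have hP := H99.pl_plus (F := F) d
  have hr' := (Fact.out : r.Prime)
  rw [← H67.coe_QPlus] at hrΩ ⊢
  have hn : Fintype.card (Fin d ⊕ Fin d) = 2 * d := by simp; omega
  haveI : Nonempty (Fin d ⊕ Fin d) := ⟨.inl ⟨0, by omega⟩⟩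
  have hS : ∀ W : Submodule F (Fin d ⊕ Fin d → F), (Module.finrank F W = m ∧
      (∀ u ∈ W, u ≠ 0 → ∃ v ∈ W, QuadraticMap.polar (H67.QPlus F d) u v ≠ 0) ∧
      ∃ U : Submodule F (Fin d ⊕ Fin d → F), U ≤ W ∧ 2 * Module.finrank F U = m ∧
        ∀ u ∈ U, H67.QPlus F d u = 0) ↔ Module.finrank F W = m ∧
      H99.Nd (QuadraticMap.polar (H67.QPlus F d)) W ∧ H99.Pl (H67.QPlus F d) W := fun W =>
    and_congr_right fun e => and_congr_right fun _ => ⟨fun ⟨U, a, b, c⟩ =>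
      ⟨U, a, c, b.trans e.symm⟩, fun ⟨U, a, b, c⟩ => ⟨U, a, c.trans e, b⟩⟩
  simp only [hS] at hrΩ ⊢
  refine (H99.om_forall_iff hQ r fun T => ∃ W : Submodule F (Fin d ⊕ Fin d → F),
    (Module.finrank F W = m ∧ H99.Nd (QuadraticMap.polar (H67.QPlus F d)) W ∧
      H99.Pl (H67.QPlus F d) W) ∧ W.map T ≤ W).trans ?_
  simp only [← H99.tInv_iff_map]
  have hm2 := Nat.even_iff.1 hme
  by_cases hr2 : r = 2
  · subst hr2
    simp only [lt_irrefl, false_and, and_false, or_false, true_and, and_assoc]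
    by_cases hp : p = 2
    · have h2 : (2 : F) = 0 := H99.two_eq_zero_iff.2 hp
      have h5 := FiniteField.even_card_of_char_two (CharP.ringChar_of_prime_eq_zero Nat.prime_two h2)
      refine ⟨fun h => by_contra fun hc => ?_, fun h T t1 ⟨z, hz⟩ _ => ?_⟩
      · obtain ⟨T, t1, t2, t3, -, -, t4⟩ := hQ.exists_siegel (p := p) (by omega) (k := d / 2)
          (by omega) (Or.inr ⟨by omega, hP⟩)
        obtain ⟨W, w1, w2, -, w3⟩ := h T t1 ⟨1, by simpa [hp] using t2⟩ t3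
        obtain ⟨a, e, π, a1, -, -, a2⟩ := t4 W w2 w3
        omega
      · have t2 := t1.oi.iso.sq_eq_one hQ.sq h2 hz
        by_cases h4 : m % 4 = 0
        · obtain ⟨W, -, w1, w2, w3, w4⟩ := t1.oi.two_pl hQ h2 t2 (m / 4) ⊤ (H99.nd_top hQ.sq)
            (H99.TInv.top T) (Or.inl (by simp; omega))
          exact ⟨W, by omega, w1, w4, w2⟩
        · obtain ⟨W, w1, w2, w3, w4⟩ := t1.oi.two_compl hQ h2 t2 (m := m) (by omega) (by omega) hm
          exact ⟨W, w1, w2, w3.2 hP, w4⟩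
    have h2 : (2 : F) ≠ 0 := mt H99.two_eq_zero_iff.1 hp
    have h5 := H99.card_odd h2
    have h8 := hQ.om_sq_neg_iff (by omega) h2 hn
    simp only [hP, true_iff, Nat.even_iff] at h8
    refine ⟨fun h => by_contra fun hc => ?_, fun h T t1 ⟨z, hz⟩ t3 => ?_⟩
    · obtain ⟨T, t1, t2⟩ := h8.2 (by omega)
      obtain ⟨W, w1, w2, w3, w4⟩ := h T t1 ⟨_, t2⟩
        (H99.ne_smul_of_neg (mt (H99.isSquare_neg_one_iff h2).1 (by omega)) t2)
      obtain ⟨a, a1, a2⟩ := t1.oi.pl_sq_neg hQ h2 t2 w2 w4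
      have := a2.1 w3
      rw [Nat.even_iff] at this
      omega
    rcases t1.oi.iso.sq_cases hQ.sq hz with t2 | t2
    · obtain ⟨W, w1, w2, w3, w4⟩ := t1.oi.inv_type hQ h2 t2 (t1.even_V1 hQ (by omega))
        (H99.V0_pos t2 (t3 _)) (H99.V1_pos (by simpa using t3 1)) hme hm (by omega) True
      exact ⟨W, w1, w2, w3.2 trivial, w4⟩
    · have h6 := h8.1 ⟨T, t1, t2⟩
      obtain ⟨W, w1, w2, w3, w4⟩ := t1.oi.exists_sq_neg hQ h2 t2 (j := m / 2) (by omega)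
      exact ⟨W, by omega, w2, w4.2 (by rw [Nat.even_iff]; omega), w3⟩
  have hrp := hr.resolve_left hr2
  have hr3 : 2 < r := lt_of_le_of_ne hr'.two_le (Ne.symm hr2)
  have hN : (r : F) ≠ 0 := H99.cast_ne_zero_of_ne hrp
  rw [H99.om_forall_odd hQ (by omega) (hr'.odd_of_ne_two hr2) _
    fun T ⟨W, h1, h3⟩ => ⟨W, h1, h3.neg⟩,
    hQ.nd_even_iff' hN hr2 (hi ▸ hc) hn (iff_true_intro hP) _ (by omega) (by omega) hme True
      (by simp) hrΩ,
    hi]
  simp only [hr3, hr2, hrp, ne_eq, not_false_eq_true, false_and, false_or, true_and, H99.NDc]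
  have h3 : m % c % 2 = 0 := by rw [Nat.mod_mod_of_dvd _ (H99.even_of_bilin_c hc).two_dvd, hm2]
  have h0 := hi ▸ H99.ordF_pos hN
  rcases H99.bilin_c_cases hc with ⟨e, rfl⟩ | ⟨e, rfl⟩
  · simp only [H99.tau_even e, e, Nat.not_odd_iff_even.2 e, true_iff, false_or, false_and, true_and]
    simp only [Nat.even_iff, Nat.odd_iff]
    have := H99.div_add_div' (n := 2 * d) (m := m) h0
    have : m % c = 0 → c ≤ m := fun e => Nat.le_of_dvd (by omega) (Nat.dvd_of_mod_eq_zero e)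
    omega
  · simp only [H99.tau_odd e, e, Nat.not_even_iff_odd.2 e, true_iff, false_and, or_false]
    simp [Nat.even_iff]
    omega

end Cfsg.Agent.S5974
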