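import Cfsg.Statements.S5975
import Mathlib
import Cfsg.Agent.H67.El2

set_option autoImplicit false
open scoped MatrixGroups
open scoped Matrix
open Cfsg

namespace Cfsg.Agent.S5975

open Cfsg.Agent.H67 Cfsg.Agent.H99 Cfsg.Agent.H98 Module Submodule in
theorem models {F : Type*} [Field F] [Fintype F] {ι : Type} [Fintype ι] [DecidableEq ι]
    {f : (ι → F) → (ι → F) → F} (hf : IsSesq (RingEquiv.refl F) (-1) f) (ha : ∀ v, f v v = 0)
    (h2 : (2 : F) ≠ 0) (hn : Fintype.card ι = 4) {J : End F (ι → F)} {δ : F} (hδ : ¬ IsSquare δ)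
    (hJ : ∀ v, J (J v) = δ • v) (hs : ∀ u v, f (J u) v = f u (J v)) :
    (∃ T, Iso f T ∧ T ^ 2 = 1 ∧ rk T 1 = 2 ∧ T * J = -(J * T)) ∧
      ∃ T, Iso f T ∧ T ^ 2 = (-1 : F) • 1 ∧ T * J = J * T := by
  haveI : Nonempty ι := Fintype.card_pos_iff.1 (by omega)
  have δ0 : δ ≠ 0 := fun e => hδ ⟨0, by simp [e]⟩
  have sk : ∀ u v, f u v = - f v u := fun u v => by rw [hf.herm]; simp
  have h0 : ∀ v, f v (J v) = 0 := fun v => by
    have := sk v (J v)
    rw [hs] at this
    exact (mul_eq_zero.1 (by linear_combination this)).resolve_left h2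
  obtain ⟨a, ha0⟩ := exists_ne (0 : ι → F)
  obtain ⟨w, hw⟩ := (hf.nondeg a ha0).2
  have h1 : δ * f a w ^ 2 - f a (J w) ^ 2 ≠ 0 := fun e =>
    hδ ⟨f a (J w) / f a w, by field_simp; linear_combination e⟩
  obtain ⟨b, b1, b2⟩ : ∃ b, f a b = 1 ∧ f a (J b) = 0 := by
    refine ⟨(δ * f a w ^ 2 - f a (J w) ^ 2)⁻¹ • ((δ * f a w) • w - f a (J w) • J w), ?_, ?_⟩
    · simp only [hf.smul_right, hf.sub_right, RingEquiv.refl_apply]
      field_simp
    · simp only [map_smul, map_sub, hJ, hf.smul_right, hf.sub_right, RingEquiv.refl_apply]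
      ring
  have b3 : f b a = -1 := by rw [sk, b1]
  have b4 : f b (J a) = 0 := by rw [← hs, sk, b2, neg_zero]
  obtain ⟨u1, u2⟩ := nd_pair hf (ha a) (ha b) (by rw [b1]; exact one_ne_zero)
  set U := span F {a, b}
  have Jinj : Function.Injective J := fun u v e =>
    smul_right_injective _ δ0 (by simp only [← hJ, e])
  have u3 : U.map J = H9.perp hf U := by
    refine eq_of_le_of_finrank_le ((le_perp_iff hf).2 ?_) ?_
    · rintro _ ⟨u, hu, rfl⟩ v hv
      obtain ⟨s, t, rfl⟩ := mem_span_pair.1 hu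
      obtain ⟨s', t', rfl⟩ := mem_span_pair.1 hv
      simp [hs, hf.add_left, hf.add_right, hf.smul_left, hf.smul_right, h0, b2, b4]
    · have := (nd_top hf).finrank_inf_perp hf (le_top : U ≤ ⊤)
      rw [top_inf_eq, finrank_top, finrank_fun'] at this
      rw [finrank_map_inj Jinj]
      omega
  have u4 := u1.sup_perp hf
  constructor
  · obtain ⟨T, t1, t2, t3, t4, t5⟩ := exists_neg_on hf h2 u1
    refine ⟨T, t1, t2, by rw [rk_one, t3, u2], end_ext_sup u4 (fun u hu => ?_) fun u hu => ?_⟩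
    · simp [t4 u hu, t5 (J u) (u3 ▸ mem_map_of_mem hu)]
    · have := t5 u hu
      rw [← u3] at hu
      obtain ⟨v, hv, rfl⟩ := hu
      simp [this, hJ, t4 v hv]
  · let T : End F (ι → F) := (lfm hf b).smulRight b + (lfm hf a).smulRight a +
      δ⁻¹ • ((lfm hf (J b)).smulRight (J b) + (lfm hf (J a)).smulRight (J a))
    have hT : ∀ v, T v = f v b • b + f v a • a + δ⁻¹ • (f v (J b) • J b + f v (J a) • J a) :=
      fun v => rfl
    have t1 : T * J = J * T := LinearMap.ext fun v => by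
      simp only [End.mul_apply, hT, map_add, map_smul, hs, hJ, hf.smul_right, RingEquiv.refl_apply]
      match_scalars <;> field_simp
    have ta : T a = b := by simp [hT, b1, b2, ha, h0]
    have tb : T b = -a := by simp [hT, b3, b4, ha, h0]
    have t2 : ∀ u ∈ U, T (T u) = -u := fun u hu => by
      obtain ⟨s, t, rfl⟩ := mem_span_pair.1 hu
      simp [ta, tb, add_comm]
    have t3 : T ^ 2 = (-1 : F) • 1 := end_ext_sup u4 (fun u hu => by simp [sq, t2 u hu])
      fun u hu => by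
        rw [← u3] at hu
        obtain ⟨v, hv, rfl⟩ := hu
        have e : ∀ v, T (J v) = J (T v) := fun v => LinearMap.congr_fun t1 v
        simp [sq, e, t2 v hv]
    refine ⟨T, fun u v => ?_, t3, t1⟩
    have t4 : ∀ u v, f (T u) v = - f u (T v) := fun u v => by
      simp only [hT, hf.add_left, hf.add_right, hf.smul_left, hf.smul_right, RingEquiv.refl_apply,
        smul_add, sk b v, sk a v, sk (J a) v, sk (J b) v]
      ring
    rw [t4, sq_apply t3]
    simp [hf.neg_right]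


/-- Elements of prime order of PSp_n(q) and the field-extension subgroups of type Sp_{n/k}(q^k). Here `T = PSp_{2d}(F)` for a field `F` with `q` elements (`d ≥ 2`, `(d, q) ≠ (2, 2)`), realised through the matrices preserving the standard alternating form `f`; `k` is a prime and `K` is a subalgebra of the `2d × 2d` matrices that is a field of degree `k` over `F` whose elements are self-adjoint for `f` and satisfy `f(a v, v) = 0` (so `F^{2d}` becomes a vector space over `K ≅ F_{q^k}` on which `f` is the trace of a `K`-bilinear alternating form); `H` is the subgroup of `T` normalizing `K` — the symplectic maps that are `K`-linear or `K`-semilinear, a subgroup of type Sp_{2d/k}(q^k) (maximality is not assumed). Ω is the set of cosets of `H` in `T`, so an element of `T` of prime order `r` (`x ∈ T` with `x^r` scalar, `x` not scalar) fixes a point of Ω exactly when some `T`-conjugate of `x` normalizes `K`. Let `r` be a prime dividing the index of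 `H`. Then every element of `T` of order `r` fixes a point of Ω if and only if `r = 2`, `d = 2`, `k = 2` and `q` is odd. -/
theorem result {F : Type*} [Field F] [Fintype F] {p : ℕ} [Fact p.Prime] [CharP F p] {q : ℕ} (hq : Fintype.card F = q)
    (d : ℕ) (hd : 2 ≤ d) (hT : (d, q) ≠ (2, 2)) (k : ℕ) (hk : k.Prime)
    (K : Subalgebra F (Matrix (Fin d ⊕ Fin d) (Fin d ⊕ Fin d) F)) (hK : Cfsg.Geo.IsFieldSubalgebra k K)
    (hKf : Cfsg.Geo.IsSelfAdjointFor (Cfsg.sympForm d F) K) (hKalt : ∀ a ∈ K, ∀ v : Fin d ⊕ Fin d → F, Cfsg.sympForm d F (a *ᵥ v) v = 0)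
    (r : ℕ) [Fact r.Prime]
    (hΩ : r ∣ (Cfsg.Geo.subalgebraNormalizer K).relIndex (Cfsg.spGL d F)) :
    (∀ x ∈ Cfsg.spGL d F, (∃ z : F, ((x ^ r : GL (Fin d ⊕ Fin d) F) : Matrix (Fin d ⊕ Fin d) (Fin d ⊕ Fin d) F) = z • (1 : Matrix (Fin d ⊕ Fin d) (Fin d ⊕ Fin d) F)) →
      (∀ z : F, (x : Matrix (Fin d ⊕ Fin d) (Fin d ⊕ Fin d) F) ≠ z • (1 : Matrix (Fin d ⊕ Fin d) (Fin d ⊕ Fin d) F)) →
      ∃ g ∈ Cfsg.spGL d F, g⁻¹ * x * g ∈ Cfsg.Geo.subalgebraNormalizer K) ↔
    (r = 2 ∧ d = 2 ∧ k = 2 ∧ Odd q) := by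
  subst hq
  have hr := (Fact.out : r.Prime)
  have hf : H98.IsSesq (RingEquiv.refl F) (-1) (sympForm d F) := H9.isSesq_symp
  have ha' : ∀ v, sympForm d F v v = 0 := H27.sympForm_self
  haveI : Nonempty (Fin d ⊕ Fin d) := ⟨.inl ⟨0, by omega⟩⟩
  have hn : Fintype.card (Fin d ⊕ Fin d) = 2 * d := by simp [two_mul]
  have hkd : k ∣ d := by
    have := H67.sp_ext_dvd hK hKf hKalt (W := ⊤) (fun _ _ => H99.TInv.top _) (H99.nd_top hf)
    rw [finrank_top, H99.finrank_fun', hn] at this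
    exact Nat.dvd_of_mul_dvd_mul_left two_pos this
  constructor
  · intro H
    have key : ∀ T, H99.Iso (sympForm d F) T → T ^ r = 1 → 0 < H67.rk T 1 → H67.rk T 1 < 2 * d ∨ Odd r →
        (H67.rk T 1 < d ∨ r ≠ k) → ∃ W : Submodule F (Fin d ⊕ Fin d → F),
          (∀ a ∈ K, H99.TInv (Matrix.toLin' a) W) ∧ Module.finrank F W = H67.rk T 1 ∧
          ((r : F) ≠ 0 → H99.Nd (sympForm d F) W) := fun T h1 h3 h4 h5 h6 => by
      obtain ⟨x, rfl⟩ := H99.exists_gl (h1.inj hf)
      obtain ⟨g, g1, hg⟩ := H x h1 ⟨1, H67.gl_pow_smul_iff.2 (by rw [h3, one_smul])⟩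
        (H67.gl_ne_smul (h5.elim (fun h => H67.ne_smul_of_rk h4 (by omega)) fun h =>
          h1.ne_smul_bilin hf h h3 fun e => by rw [H67.rk_one_eq_zero.2 e] at h4; omega))
      have h7 := H67.sim_conj_gl g x
      have h8 := h7.pow_one' h3
      refine ⟨H99.V1 (Matrix.toLin' (g⁻¹ * x * g).1), fun a ha => H67.tInv_V1_of_comm ?_,
        by rw [h7.rk, H67.rk_one], fun hN => H99.Iso.nd_V1 hf
          (H67.mem_spGL_iff.1 (mul_mem (mul_mem (inv_mem g1) h1) g1)) h8 hN⟩
      rcases h6 with h6 | h6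
      · exact H67.comm_of_rk hK hg (μ := 1) (by rw [← h7.rk]; omega) ha
      · exact H67.comm_of_coprime hK hk hg (H67.gl_pow_of_toLin' h8)
          (fun e => h6 ((Nat.prime_dvd_prime_iff_eq hk hr).1 e).symm) ha
    have hrp : r ≠ p := by
      rintro rfl
      obtain ⟨T, h1, h3, -, h4⟩ := H67.exists_sp_tv (F := F) (p := r) (d := d) (by omega)
      obtain ⟨W, w1, w2, -⟩ := key T h1 h3 (by omega) (by omega) (by omega)
      have := H98.IsFieldSubalgebra_dvd hK (W := W) w1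
      rw [w2, h4] at this
      exact hk.one_lt.ne' (Nat.dvd_one.1 this)
    have hN : (r : F) ≠ 0 := H99.cast_ne_zero_of_ne hrp
    by_cases hr2 : r = 2
    · subst hr2
      have h2 : (2 : F) ≠ 0 := by exact_mod_cast hN
      obtain ⟨U, -, u1, u2⟩ := H99.alt_exists_nd hf ha' (H99.nd_top hf) (e := 2) even_two
        (by rw [finrank_top, H99.finrank_fun']; omega)
      obtain ⟨T, t1, t2, t3, -⟩ := H67.exists_neg_on hf h2 u1
      have t4 : H67.rk T 1 = 2 := by rw [H67.rk_one, t3, u2]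
      have hd2 : d = 2 := by
        by_contra h
        obtain ⟨W, w1, w2, w3⟩ := key T t1 t2 (by omega) (by omega) (by omega)
        have := Nat.le_of_dvd (by omega) (H67.sp_ext_dvd hK hKf hKalt w1 (w3 hN))
        have := hk.two_le
        omega
      exact ⟨rfl, hd2, (Nat.prime_dvd_prime_iff_eq hk Nat.prime_two).1 (hd2 ▸ hkd),
        Nat.odd_iff.2 (H99.card_odd h2)⟩
    exfalso
    obtain ⟨c, hc⟩ : ∃ c, c = if Even (H99.ordF F r) then H99.ordF F r else 2 * H99.ordF F r :=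
      ⟨_, rfl⟩
    have k0 := (H99.pk_sp (d := d) hrp hr2 hc).pos
    obtain ⟨j, j0, j1, j2, j3⟩ := H67.sp_ext_index hK hKf hKalt hk.pos hN hΩ
    have h3 : c ∣ 2 * j := by
      have := (H99.ord_dvd_iff Fintype.card_pos).2 j3
      rw [hc]
      split_ifs with h
      · exact this
      · exact Nat.mul_dvd_mul_left 2 ((Nat.not_even_iff_odd.1 h).coprime_two_right.dvd_of_dvd_mul_left
          this)
    have h4 := Nat.le_of_dvd (by omega) h3
    obtain ⟨T, t1, t2, t3⟩ := H99.exists_sp_V0 (d := d) hN hr2 hc (2 * d - c) 1 (by omega)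
    have t4 := H99.finrank_V0_add_V1 T
    rw [H99.finrank_fun', ← H67.rk_one] at t4
    have h5 := H99.bilin_c_le hN hr2 hc
    have h6 := Nat.le_of_dvd (by omega) hkd
    obtain ⟨W, w1, w2, w3⟩ := key T t1 t2 (by omega) (.inr (hr.odd_of_ne_two hr2)) (by omega)
    have h7 := H67.sp_ext_dvd hK hKf hKalt w1 (w3 hN)
    rw [w2, show H67.rk T 1 = c by omega] at h7
    exact j2 (Nat.dvd_of_mul_dvd_mul_left two_pos (h7.trans h3))
  · rintro ⟨rfl, rfl, rfl, ho⟩ x hx ⟨z, hz⟩ hns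
    have h2 := H67.two_ne_of_odd ho
    have hx' := H67.mem_spGL_iff.1 hx
    obtain ⟨j, δ, hj⟩ := H67.exists_qGen h2 hK
    obtain ⟨⟨T, t1, t2, t3, t4⟩, ⟨S, s1, s2, s3⟩⟩ := models hf ha' h2 hn (J := Matrix.toLin' j) hj.ns
      hj.mulVec_sq (hKf j hj.mem)
    have h4 : ((2 * 2 : ℕ) : F) ≠ 0 := by rw [Nat.cast_mul]; exact mul_ne_zero h2 h2
    rcases hx'.sq_cases hf (H67.gl_pow_smul_iff.1 hz) with h | h
    · obtain ⟨y, rfl⟩ := H99.exists_gl (t1.inj hf)
      obtain ⟨i, hi⟩ := (hx'.nd_V1 hf h (by exact_mod_cast h2)).even_alt hf ha'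
      have h5 := H99.V1_pos (T := Matrix.toLin' x.1) fun e => H67.gl_ne_smul' hns 1 (by rw [e, one_smul])
      have h6 := H99.V0_pos h (H67.gl_ne_smul' hns _)
      have h7 := H99.finrank_V0_add_V1 (Matrix.toLin' x.1)
      rw [H99.finrank_fun'] at h7
      obtain ⟨g, g1, g2⟩ := H67.sp_conj_of_sim (y := y) hx t1 h4
        (H67.gl_pow_of_toLin' (by rw [pow_mul, t2, one_pow]))
        (H67.sim_of_invol h2 h t2 rfl (by rw [t3, H67.rk_one]; omega))
      refine ⟨g, g1, g2 ▸ (hj.mem_norm h2).2 (.inr (Matrix.toLin'.injective ?_))⟩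
      rw [map_neg, Matrix.toLin'_mul, Matrix.toLin'_mul]
      exact t4
    · obtain ⟨y, rfl⟩ := H99.exists_gl (s1.inj hf)
      obtain ⟨g, g1, g2⟩ := H67.sp_conj_of_sim (y := y) hx s1 h4
        (H67.gl_pow_of_toLin' (by rw [pow_mul, s2]; simp [smul_pow]))
        (H67.sim_of_sq_neg hf hf h2 hx' s1 h s2 rfl)
      refine ⟨g, g1, g2 ▸ (hj.mem_norm h2).2 (.inl (Matrix.toLin'.injective ?_))⟩
      rw [Matrix.toLin'_mul, Matrix.toLin'_mul]
      exact s3

end Cfsg.Agent.S5975
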