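import Cfsg.Statements.S5976
import Mathlib
import Cfsg.Agent.H67.El3

set_option autoImplicit false
open scoped MatrixGroups
open Cfsg

namespace Cfsg.Agent.S5976


/-- Elements of prime order of PSp_n(q), q odd, and the subgroups of type GU_{n/2}(q). Here `T = PSp_{2d}(F)` for a field `F` with `q` elements, `q` odd, `d ≥ 2`, realised through the matrices preserving the standard alternating form `f`; `K` is a subalgebra of the `2d × 2d` matrices that is a field of degree 2 over `F`, closed under taking adjoints for `f` but not consisting of self-adjoint elements (so `F^{2d}` becomes a `d`-dimensional space over `K ≅ F_{q²}` on which `f` is the trace of a multiple of a non-degenerate hermitian form); `H` is the subgroup of `T` normalizing `K` — the symplectic maps that are `K`-linear or `K`-semilinear, a subgroup of type GU_d(q) (maximality is not assumed). Ω is the set of cosets of `H` in `T`, so an element of `T` of prime order `r` (`x ∈ T` with `x^r`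 scalar, `x` not scalar) fixes a point of Ω exactly when some `T`-conjugate of `x` normalizes `K`. Let `r` be a prime dividing the index of `H`. Then every element of `T` of order `r` fixes a point of Ω if and only if `r = 2`. -/
theorem result {F : Type*} [Field F] [Fintype F] {p : ℕ} [Fact p.Prime] [CharP F p] {q : ℕ} (hq : Fintype.card F = q)
    (hodd : Odd q) (d : ℕ) (hd : 2 ≤ d)
    (K : Subalgebra F (Matrix (Fin d ⊕ Fin d) (Fin d ⊕ Fin d) F)) (hK : Cfsg.Geo.IsFieldSubalgebra 2 K)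
    (hKf : Cfsg.Geo.IsAdjointClosedFor (Cfsg.sympForm d F) K) (hKns : ¬ Cfsg.Geo.IsSelfAdjointFor (Cfsg.sympForm d F) K)
    (r : ℕ) [Fact r.Prime]
    (hΩ : r ∣ (Cfsg.Geo.subalgebraNormalizer K).relIndex (Cfsg.spGL d F)) :
    (∀ x ∈ Cfsg.spGL d F, (∃ z : F, ((x ^ r : GL (Fin d ⊕ Fin d) F) : Matrix (Fin d ⊕ Fin d) (Fin d ⊕ Fin d) F) = z • (1 : Matrix (Fin d ⊕ Fin d) (Fin d ⊕ Fin d) F)) →
      (∀ z : F, (x : Matrix (Fin d ⊕ Fin d) (Fin d ⊕ Fin d) F) ≠ z • (1 : Matrix (Fin d ⊕ Fin d) (Fin d ⊕ Fin d) F)) →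
      ∃ g ∈ Cfsg.spGL d F, g⁻¹ * x * g ∈ Cfsg.Geo.subalgebraNormalizer K) ↔ r = 2 := by
  classical
  subst hq
  have hr := (Fact.out : r.Prime)
  have hf : H98.IsSesq (RingEquiv.refl F) (-1) (sympForm d F) := H9.isSesq_symp
  have ha' : ∀ v, sympForm d F v v = 0 := H27.sympForm_self
  haveI : Nonempty (Fin d ⊕ Fin d) := ⟨.inl ⟨0, by omega⟩⟩
  have hn : Fintype.card (Fin d ⊕ Fin d) = 2 * d := by simp [two_mul]
  have h2 := H67.two_ne_of_odd hodd
  letI : Fintype (H98.KF hK) := Fintype.ofFinite _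
  have hk := H98.KF.finrank_eq hK
  haveI := Fact.mk (H98.card_sq_of_two hk)
  obtain ⟨τ, hτ⟩ := H98.exists_adj_aut (K := H98.KF hK) (B := H27.sympBilin d F)
    H27.sympBilin_nondegenerate.2 fun k => by
      obtain ⟨k', h1, h2⟩ := hKf _ (H98.KF.mat_mem hK k)
      obtain ⟨k', rfl⟩ := H98.KF.exists_mat hK h1
      exact ⟨k', fun x y => by rw [H27.sympBilin_apply, H27.sympBilin_apply]; exact h2 x y⟩
  simp only [H27.sympBilin_apply] at hτ
  have hτ1 : τ ≠ 1 := by
    rintro rfl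
    refine hKns fun k hk x y => ?_
    obtain ⟨k, rfl⟩ := H98.KF.exists_mat hK hk
    exact hτ k x y
  obtain ⟨n, E, φ, h⟩ := H67.exists_guc hf hk hτ1 hτ
  obtain rfl : d = n := by
    have h1 := H98.finrank_KF_mul hK
    rw [E.finrank_eq, Module.finrank_fin_fun, hn] at h1
    omega
  constructor
  · intro H
    by_contra hr2
    have ho := hr.odd_of_ne_two hr2
    have key : ∀ T, H99.Iso (sympForm d F) T → T ^ r = 1 → T ≠ 1 →
        ∃ S : Module.End (H98.KF hK) (Fin d ⊕ Fin d → F),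
          H99.Iso (sympForm d F) (S.restrictScalars F) ∧ H67.Sim T (S.restrictScalars F) :=
      fun T h1 h3 h4 => by
      obtain ⟨x, rfl⟩ := H99.exists_gl (h1.inj hf)
      obtain ⟨g, g1, hg⟩ := H x h1 ⟨1, H67.gl_pow_smul_iff.2 (by rw [h3, one_smul])⟩
        (H67.gl_ne_smul (h1.ne_smul_bilin hf ho h3 h4))
      have h7 := H67.sim_conj_gl g x
      obtain ⟨S, hS⟩ := H67.exists_klin_of_comm hK (x := (g⁻¹ * x * g).1) fun a ha =>
        H67.comm_of_coprime hK Nat.prime_two hg (H67.gl_pow_of_toLin' (h7.pow_one' h3))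
          (fun e => hr2 ((Nat.prime_dvd_prime_iff_eq Nat.prime_two hr).1 e).symm) ha
      exact ⟨S, hS ▸ H67.mem_spGL_iff.1 (mul_mem (mul_mem (inv_mem g1) h1) g1), hS ▸ h7⟩
    have hrp : r ≠ p := by
      rintro rfl
      obtain ⟨T, h1, h3, -, h4⟩ := H67.exists_sp_tv (F := F) (p := r) (d := d) (by omega)
      obtain ⟨S, -, s2⟩ := key T h1 h3 fun e => by rw [H67.rk_one_eq_zero.2 e] at h4; omega
      rw [H67.rk_one, s2.V1, H67.finrank_V1_res, hk] at h4
      omega
    have hN : (r : F) ≠ 0 := H99.cast_ne_zero_of_ne hrp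
    obtain ⟨c, hc⟩ : ∃ c, c = if Even (H99.ordF F r) then H99.ordF F r else 2 * H99.ordF F r :=
      ⟨_, rfl⟩
    have k0 := (H99.pk_sp (d := d) hrp hr2 hc).pos
    obtain ⟨ψ, h1, h3, h4⟩ := H67.exists_hom_norm hK E
      ((Units.coeHom _).comp (GU d (H98.KF hK) (Fintype.card F)).subtype)
      (Units.val_injective.comp Subtype.val_injective)
    have h5 := H67.relIndex_mul_dvd ψ h1 h3 (K := spGL d F) fun g u v => by
      change sympForm d F ((ψ g).1.mulVec u) ((ψ g).1.mulVec v) = _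
      rw [h.eq, h.eq, h4, h4]
      exact congrArg φ (g.2 _ _)
    rw [H10.card_GU, H99.card_spGL'] at h5
    obtain ⟨j, j0, j1, j2⟩ := H67.gu_index_arith Fintype.one_lt_card
      (H99.not_dvd_card_of_cast_ne hN) hΩ h5
    have hm1 := H99.neg_one_ne_one_zmod hr2
    have j3 : H99.ordF F r ∣ 2 * j := orderOf_dvd_of_pow_eq_one (by
      rw [pow_mul', j2, neg_sq, ← pow_mul, pow_mul', neg_one_sq, one_pow])
    have h6 : c ∣ 2 * j := by
      rw [hc]
      split_ifs with h
      · exact j3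
      · exact Nat.mul_dvd_mul_left 2 ((Nat.not_even_iff_odd.1 h).coprime_two_right.dvd_of_dvd_mul_left
          j3)
    have h7 := Nat.le_of_dvd (by omega) h6
    obtain ⟨T, t1, t2, t3⟩ := H99.exists_sp_V0 (d := d) hN hr2 hc (2 * d - c) 1 (by omega)
    have t4 := H99.finrank_V0_add_V1 T
    rw [H99.finrank_fun'] at t4
    obtain ⟨S, s1, s2⟩ := key T t1 t2 (H99.ne_one_of_V0 (by omega))
    obtain ⟨m, m1, m2⟩ := h.fpf hk hN s1 (s2.pow_one' t2)
    rw [← s2.V1] at m1
    split_ifs at hc with he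
    · have h8 := H99.half_ord hr2 (H99.not_dvd_card_of_cast_ne hN) (u := m)
        (by unfold H99.ordF at hc; omega)
      rw [neg_pow, h8] at m2
      rcases Nat.even_or_odd m with hm | hm
      · rw [hm.neg_one_pow, one_mul] at m2
        exact hm1 m2
      · obtain ⟨s, hs⟩ : m ∣ j := Nat.dvd_of_mul_dvd_mul_left two_pos (by
          rwa [show c = 2 * m by omega] at h6)
        rw [hs, pow_mul, h8, pow_mul, hm.neg_one_pow] at j2
        rcases neg_one_pow_eq_or (ZMod r) s with e | e <;> rw [e] at j2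
        · exact hm1 j2.symm
        · exact hm1 (by rwa [neg_neg] at j2)
    · have h8 : m = H99.ordF F r := by omega
      rw [neg_pow, h8, pow_orderOf_eq_one, mul_one, (Nat.not_even_iff_odd.1 he).neg_one_pow] at m2
      exact hm1 m2
  · rintro rfl x hx ⟨z, hz⟩ -
    have hx' := H67.mem_spGL_iff.1 hx
    have h4 : ((2 * 2 : ℕ) : F) ≠ 0 := by rw [Nat.cast_mul]; exact mul_ne_zero h2 h2
    rcases hx'.sq_cases hf (H67.gl_pow_smul_iff.1 hz) with h1 | h1
    · obtain ⟨i, hi⟩ := (hx'.nd_V1 hf h1 (by exact_mod_cast h2)).even_alt hf ha'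
      have h7 := H99.finrank_V0_add_V1 (Matrix.toLin' x.1)
      rw [H99.finrank_fun'] at h7
      obtain ⟨T, t1, t2, t3⟩ := h.exists_invol hk h2 (s := i) (by omega)
      obtain ⟨y, hy⟩ := H99.exists_gl (t1.inj hf)
      obtain ⟨g, g1, g2⟩ := H67.sp_conj_of_sim (y := y) hx (H67.mem_spGL_iff.2 (hy ▸ t1)) h4
        (H67.gl_pow_of_toLin' (by rw [pow_mul, hy, t2, one_pow]))
        (hy ▸ H67.sim_of_invol h2 h1 t2 rfl (by rw [H67.rk_one, H67.rk_one]; omega))
      refine ⟨g, g1, g2 ▸ H67.mem_norm_of_semi hK 1 fun a v => ?_⟩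
      rw [hy]
      exact T.map_smul a v
    · obtain ⟨T, t1, t2, t3⟩ := h.exists_semi τ (H98.aut_eq_cj hk hτ1)
      obtain ⟨y, rfl⟩ := H99.exists_gl (t1.inj hf)
      obtain ⟨g, g1, g2⟩ := H67.sp_conj_of_sim (y := y) hx t1 h4
        (H67.gl_pow_of_toLin' (by rw [pow_mul, t2]; simp [smul_pow]))
        (H67.sim_of_sq_neg hf hf h2 hx' t1 h1 t2 rfl)
      exact ⟨g, g1, g2 ▸ H67.mem_norm_of_semi hK τ t3⟩

end Cfsg.Agent.S5976
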