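import Cfsg.Statements.S5979
import Mathlib
import Cfsg.Agent.H67.El0

set_option autoImplicit false
open scoped MatrixGroups
open Cfsg

namespace Cfsg.Agent.S5979

open Cfsg.Agent.H67 Cfsg.Agent.H99 Cfsg.Agent.H98 Module in
open scoped Kronecker in
theorem no_ord {F : Type*} [Field F] [Fintype F] {r : ℕ} [hr : Fact r.Prime] (hN : (r : F) ≠ 0)
    (h1 : ¬ r ∣ Fintype.card F - 1) {a b : ℕ} (ha : 2 ≤ a) (hlt : a < b)
    {X : Matrix (Fin a) (Fin a) F} {Y : Matrix (Fin b) (Fin b) F} (hY : IsUnit Y)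
    (h2 : Matrix.toLin' (X ⊗ₖ Y) ^ r = 1) : rk (Matrix.toLin' (X ⊗ₖ Y)) 1 ≠ ordF F r := by
  intro h3
  haveI : Nonempty (Fin a) := ⟨⟨0, by omega⟩⟩
  haveI : Nonempty (Fin b) := ⟨⟨0, by omega⟩⟩
  have h0 := ordF_pos hN
  by_cases hX : ∀ c : F, X ≠ c • 1
  · have h4 := le_rk_kron hX hY 1
    rw [toLin'_pow_eq_one, kron_pow, ← one_smul F (1 : Matrix _ _ F)] at h2
    obtain ⟨⟨c, c0, hc⟩, -⟩ := scalar_of_kron_eq one_ne_zero h2
    obtain ⟨w, hw⟩ := exists_pow_eq_of_not_dvd h1 c
    have h5 := ordF_le_of_ne_one hN (smul_pow_eq_one (toLin'_pow_eq_smul.2 hc) hw c0)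
      (smul_toLin'_ne_one hX _)
    have h6 := Submodule.finrank_le (V1 (w⁻¹ • Matrix.toLin' X))
    rw [finrank_fun'] at h6
    simp only [Fintype.card_fin] at h4 h6
    omega
  · push Not at hX
    obtain ⟨c, rfl⟩ := hX
    rw [Matrix.smul_kronecker, ← Matrix.kronecker_smul] at h2 h3
    rw [rk_one_kron, Fintype.card_fin] at h3
    have h5 := ordF_le_of_ne_one hN (pow_of_one_kron h2) fun e => by
      rw [rk_one_eq_zero.2 e] at h3
      omega
    rw [← rk_one] at h5
    nlinarith


/-- Elements of prime order of PSL_n(q) and the stabilizers of tensor decompositions with factors of different dimensions. Here `T = PSL_n(F)` for a field `F` with `q` elements and `n = a·b` with `2 ≤ a < b`; a tensor decomposition `F^n ≅ F^a ⊗ F^b` is given by a bijection `e` of index sets and a change of basis `P`, and `H` is the subgroup of matrices of determinant 1 in its stabilizer (the conjugate by `P` of the group of Kronecker products `g₁ ⊗ g₂`) — a subgroup of type GL_a(q)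 ⊗ GL_b(q) (maximality is not assumed); Ω is the set of cosets of `H` in `T`, so an element of `T` of prime order `r` (a matrix `x` of determinant 1 with `x^r` scalar, `x` not scalar) fixes a point of Ω exactly when some conjugate of `x` by a matrix of determinant 1 lies in `H`. Let `r` be a prime dividing the index of `H`. Then every element of `T` of order `r` fixes a point of Ω if and only if `r = 2`, `a = 2`, `q` is odd and `(q − 1)_2 ≤ (n)_2` (2-parts). -/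
theorem result {F : Type*} [Field F] [Fintype F] {p : ℕ} [Fact p.Prime] [CharP F p] {q : ℕ} (hq : Fintype.card F = q)
    (n a b : ℕ) (hab : n = a * b) (ha : 2 ≤ a) (hlt : a < b) (e : Fin n ≃ Fin a × Fin b) (P : GL (Fin n) F)
    (r : ℕ) [Fact r.Prime]
    (hΩ : r ∣ (Cfsg.Geo.tensorProductSubgroup a b e P).relIndex (Cfsg.Geo.specialLinear (Fin n) F)) :
    (∀ x ∈ Cfsg.Geo.specialLinear (Fin n) F, (∃ z : F, ((x ^ r : GL (Fin n) F) : Matrix (Fin n) (Fin n) F) = z • (1 : Matrix (Fin n) (Fin n) F)) →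
      (∀ z : F, (x : Matrix (Fin n) (Fin n) F) ≠ z • (1 : Matrix (Fin n) (Fin n) F)) →
      ∃ g ∈ Cfsg.Geo.specialLinear (Fin n) F, g⁻¹ * x * g ∈ Cfsg.Geo.tensorProductSubgroup a b e P) ↔
    (r = 2 ∧ a = 2 ∧ Odd q ∧ padicValNat 2 (q - 1) ≤ padicValNat 2 n) := by
  open Cfsg.Agent.H67 Cfsg.Agent.H99 Cfsg.Agent.H98 Module in
  subst hq
  have hr := (Fact.out : r.Prime)
  have hn : 6 ≤ n := by nlinarith
  haveI : Nonempty (Fin n) := ⟨⟨0, by omega⟩⟩
  have han : a ∣ n := Dvd.intro _ hab.symm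
  have h2q : (2 : F) ≠ 0 ↔ Odd (Fintype.card F) := ⟨fun h => Nat.odd_iff.2 (H99.card_odd h),
    fun h e => by
      obtain rfl := H99.two_eq_zero_iff.1 e
      exact Nat.not_even_iff_odd.2 h (even_iff_two_dvd.2 H99.dvd_card_of_charP)⟩
  constructor
  · intro H
    have key : ∀ A : Matrix (Fin n) (Fin n) F, A.det = 1 → ∀ z : F, A ^ r = z • 1 →
        (∀ z : F, A ≠ z • 1) → ∃ (X : GL (Fin a) F) (Y : GL (Fin b) F), H67.Sim (Matrix.toLin' A)
          (Matrix.toLin' (Matrix.kroneckerMap (· * ·) X.1 Y.1)) := fun A h1 z h2 h3 => by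
      have hu : IsUnit A := (Matrix.isUnit_iff_isUnit_det _).2 (h1 ▸ isUnit_one)
      obtain ⟨g, -, hg⟩ := H hu.unit (H67.mem_specialLinear.2 h1) ⟨z, by simpa using h2⟩ h3
      obtain ⟨X, Y, -, h⟩ := H67.sim_kron_of_mem hg
      exact ⟨X, Y, h⟩
    have key2 : ∀ A : Matrix (Fin n) (Fin n) F, A.det = 1 → ∀ z : F, A ^ r = z • 1 → ∀ μ : F,
        0 < H67.rk (Matrix.toLin' A) μ → H67.rk (Matrix.toLin' A) μ < b → ∀ ν,
        a ∣ H67.rk (Matrix.toLin' A) ν := fun A h1 z h2 μ h3 h4 ν => by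
      obtain ⟨X, Y, h⟩ := key A h1 z h2 (H67.ne_smul_of_rk' h3 (by simp; nlinarith))
      have := H67.dvd_rk_kron (A := X.1) Y.isUnit (μ := μ) (by rw [← h.rk]; simpa using h4) ν
      rwa [← h.rk, Fintype.card_fin] at this
    have hrp : r ≠ p := by
      rintro rfl
      obtain ⟨A, h1, h2, h3⟩ := H67.exists_sl_tv (F := F) (p := r) (n := n) (by omega)
      have := Nat.le_of_dvd (by omega) (key2 A h1 1 (by rw [h2, one_smul]) 1 (by omega) (by omega) 1)
      omega
    have hN : (r : F) ≠ 0 := H99.cast_ne_zero_of_ne hrp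
    by_cases h1 : r ∣ Fintype.card F - 1
    · obtain ⟨ζ, hζ⟩ := H99.exists_prim h1
      obtain ⟨A, a1, a2, a3, a4⟩ := H67.exists_diag_two (n := n) (by omega) (hζ.ne_zero hr.ne_zero)
        (hζ.ne_one hr.one_lt)
      have k := key2 A a1 1 (by rw [a2 r hζ.pow_eq_one, one_smul]) 1 (by omega) (by omega)
      have hr2 : r = 2 := by
        by_contra h
        have h3 := a4 fun e => h ((Nat.prime_dvd_prime_iff_eq hr Nat.prime_two).1
          (hζ.dvd_of_pow_eq_one 2 e))
        have := Nat.le_of_dvd one_pos ((Nat.dvd_add_right (k ζ)).1 (h3.symm ▸ han))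
        omega
      subst hr2
      have h2 : (2 : F) ≠ 0 := by exact_mod_cast hN
      have := Nat.le_of_dvd (by omega) (k 1)
      refine ⟨rfl, by omega, h2q.1 h2, ?_⟩
      by_contra hv
      have hq1 : Fintype.card F - 1 ≠ 0 := by have := Fintype.one_lt_card (α := F); omega
      obtain ⟨w, hw, -⟩ := H99.exists_pow_neg (F := F) (b := n) (by omega)
        ((padicValNat_dvd_iff_le hq1).2 (by omega))
      have w0 : w ≠ 0 := by
        rintro rfl
        rw [zero_pow (by omega)] at hw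
        simp at hw
      obtain ⟨S, s1, s2⟩ := H67.exists_diag_invol h2 (n := n) (j := 1) (by omega)
      have s3 : H67.rk (Matrix.toLin' (w • S)) w = 1 := by
        rw [← s2, map_smul, ← H67.rk_smul _ w0 1, mul_one]
      have s4 := H99.det_invol (H99.toLin'_pow_eq_one.2 s1)
      rw [← H67.rk_one, s2, LinearMap.det_toLin'] at s4
      have := Nat.le_of_dvd (by omega) (key2 (w • S) (by simp [s4, hw]) (w ^ 2)
        (by rw [smul_pow, s1]) w (by omega) (by omega) w)
      omega
    · exfalso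
      obtain ⟨g, -, g1, g2⟩ := H67.exists_ord_of_relIndex hΩ
      have h3 := H99.ordF_le_of_ne_one hN (T := Matrix.toLin' g.1)
        (by rw [H99.toLin'_pow_eq_one, ← Units.val_pow_eq_pow_val, g1, Units.val_one])
        fun e => g2 (Units.ext (Matrix.toLin'.injective (by rw [e]; simp; rfl)))
      have h4 := H67.rk_le_card (Matrix.toLin' g.1) 1
      rw [H67.rk_one, Fintype.card_fin] at h4
      obtain ⟨A, a1, a2, a3, a4⟩ := H99.exists_sl_ord (ι := Fin n) hN h1 (s := 1)
        (k := n - H99.ordF F r) one_pos (by simp; omega)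
      obtain ⟨X, Y, h⟩ := key A a1 1 (by rw [a2, one_smul]) a3
      refine no_ord hN h1 ha hlt Y.isUnit (h.pow_one' (H99.toLin'_pow_eq_one.2 a2)) ?_
      have := H99.finrank_V0_add_V1 (Matrix.toLin' A)
      rw [H99.finrank_fun', Fintype.card_fin] at this
      rw [← h.rk, H67.rk_one]
      omega
  · rintro ⟨rfl, rfl, ho, hv⟩ x hx ⟨z, hz⟩ -
    have h2 := h2q.2 ho
    rw [Units.val_pow_eq_pow_val] at hz
    have hd := H67.mem_specialLinear.1 hx
    have z0 := H99.ne_zero_of_pow_eq_smul (by rw [hd]; exact one_ne_zero) hz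
    suffices ∃ (X : Matrix (Fin 2) (Fin 2) F) (Y : Matrix (Fin b) (Fin b) F), IsUnit X ∧ IsUnit Y ∧
        H67.Sim (Matrix.toLin' x.1) (Matrix.toLin' (Matrix.kroneckerMap (· * ·) X Y)) by
      obtain ⟨X, Y, x1, y1, h⟩ := this
      obtain ⟨y, hy, e1⟩ := H67.exists_mem_tensor e P x1 y1
      obtain ⟨g, g1, g2⟩ := H67.sl_conj_of_sim (y := y) (H67.isSS_of_pow_smul (by exact_mod_cast h2) z0 hz)
        (h.trans (e1 ▸ H67.sim_frm e P _))
      exact ⟨g, g1, g2 ▸ hy⟩
    have hdim : Module.finrank F (Fin n → F) = Module.finrank F (Fin 2 × Fin b → F) := by simp [hab]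
    by_cases hs : ∃ w : F, w ^ 2 = z
    · obtain ⟨w, hw⟩ := hs
      have w0 : w ≠ 0 := by rintro rfl; exact z0 (by rw [← hw]; simp)
      have s1 := H99.smul_pow_eq_one (H99.toLin'_pow_eq_smul.2 hz) hw z0
      have s2 := H99.det_invol s1
      rw [H99.det_smul', LinearMap.det_toLin', hd, mul_one, Fintype.card_fin] at s2
      have s3 : Even (Module.finrank F (H99.V1 (w⁻¹ • Matrix.toLin' x.1))) := by
        by_contra h
        rw [(Nat.not_even_iff_odd.1 h).neg_one_pow] at s2
        have hq1 : Fintype.card F - 1 ≠ 0 := by have := Fintype.one_lt_card (α := F); omega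
        have := H99.v2_lt_of_pow h2 hq1 (FiniteField.pow_card_sub_one_eq_one _ (inv_ne_zero w0)) s2
        omega
      obtain ⟨j, hj⟩ := s3
      have s4 := H67.rk_le_card (w⁻¹ • Matrix.toLin' x.1) 1
      rw [H67.rk_one, Fintype.card_fin] at s4
      obtain ⟨S, t1, t2⟩ := H67.exists_diag_invol h2 (n := b) (j := j) (by omega)
      refine ⟨1, w • S, isUnit_one, ?_, H67.Sim.of_smul (inv_ne_zero w0) ?_⟩
      · refine IsUnit.of_pow_eq_one (n := 2 * (Fintype.card F - 1)) ?_ ?_
        · rw [smul_pow, pow_mul S, t1, one_pow, pow_mul', FiniteField.pow_card_sub_one_eq_one _ w0,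
            one_pow, one_smul]
        · have := Fintype.one_lt_card (α := F); omega
      · rw [Matrix.kronecker_smul, map_smul, smul_smul, inv_mul_cancel₀ w0, one_smul]
        refine H67.sim_of_invol h2 s1 ?_ hdim ?_
        · rw [H99.toLin'_pow_eq_one, H67.kron_pow, t1]; simp
        · rw [H67.rk_one_kron, t2, H67.rk_one, hj]; simp [two_mul]
    · push Not at hs
      have h3 : (!![0, z; 1, 0] : Matrix (Fin 2) (Fin 2) F) ^ 2 = z • 1 := by
        ext i j; fin_cases i <;> fin_cases j <;> simp [sq, Matrix.mul_apply, Fin.sum_univ_two]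
      refine ⟨!![0, z; 1, 0], 1, ?_, isUnit_one, H67.sim_of_nonpow Nat.prime_two hs
        (H99.toLin'_pow_eq_smul.2 hz) ?_ hdim⟩
      · rw [Matrix.isUnit_iff_isUnit_det]; simp [z0]
      · rw [H99.toLin'_pow_eq_smul, H67.kron_pow, h3, Matrix.smul_kronecker]; simp

end Cfsg.Agent.S5979
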