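import Cfsg.Statements.S5980
import Mathlib
import Cfsg.Agent.H67.El1
import Cfsg.Agent.H99.FmPol

set_option autoImplicit false
open scoped MatrixGroups
open Cfsg

namespace Cfsg.Agent.S5980


/-- Elements of prime order of PSp_n(q), q odd, and the stabilizers of tensor decompositions Sp_a(q) ⊗ O_b(q). Here `T = PSp_{2d}(F)` for a field `F` with `q` elements, `q` odd, `d ≥ 2`, realised through the matrices preserving the standard alternating form `f`; `2d = a·b` with `a` even, `b ≥ 3`, and the bijection `e` and change of basis `P` exhibit `f` as a non-zero scalar multiple of the tensor product of a non-degenerate alternating form `f₁` on `F^a` and a non-degenerate symmetric bilinear form `f₂` on `F^b`; `H` is the subgroup of `T` stabilizing this tensor decomposition (the elements of `T` in the conjugate by `P` of the group of Kronecker products) — a subgroup of type Sp_a(q) ⊗ O^ε_b(q) (maximality is not assumed). Ω is the set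 of cosets of `H` in `T`, so an element of `T` of prime order `r` (`x ∈ T` with `x^r` scalar, `x` not scalar) fixes a point of Ω exactly when some `T`-conjugate of `x` lies in `H`. Let `r` be a prime dividing the index of `H`. Then every element of `T` of order `r` fixes a point of Ω if and only if `r = 2` and `a = 2`. -/
theorem result {F : Type*} [Field F] [Fintype F] {p : ℕ} [Fact p.Prime] [CharP F p] {q : ℕ} (hq : Fintype.card F = q)
    (hodd : Odd q) (d : ℕ) (hd : 2 ≤ d) (a b : ℕ) (hab : 2 * d = a * b) (ha : Even a) (ha2 : 2 ≤ a) (hb : 3 ≤ b)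
    (e : (Fin d ⊕ Fin d) ≃ Fin a × Fin b) (P : GL (Fin d ⊕ Fin d) F)
    (f₁ : (Fin a → F) → (Fin a → F) → F) (f₂ : (Fin b → F) → (Fin b → F) → F)
    (hf₁ : Cfsg.Geo.IsSymplecticForm f₁) (hf₂ : Cfsg.Geo.IsSymmetricForm f₂)
    (hS : Cfsg.Geo.IsTensorFormStructure id (Cfsg.sympForm d F) f₁ f₂ e P)
    (r : ℕ) [Fact r.Prime]
    (hΩ : r ∣ (Cfsg.Geo.tensorProductSubgroup a b e P).relIndex (Cfsg.spGL d F)) :
    (∀ x ∈ Cfsg.spGL d F, (∃ z : F, ((x ^ r : GL (Fin d ⊕ Fin d) F) : Matrix (Fin d ⊕ Fin d) (Fin d ⊕ Fin d) F) = z • (1 : Matrix (Fin d ⊕ Fin d) (Fin d ⊕ Fin d) F)) →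
      (∀ z : F, (x : Matrix (Fin d ⊕ Fin d) (Fin d ⊕ Fin d) F) ≠ z • (1 : Matrix (Fin d ⊕ Fin d) (Fin d ⊕ Fin d) F)) →
      ∃ g ∈ Cfsg.spGL d F, g⁻¹ * x * g ∈ Cfsg.Geo.tensorProductSubgroup a b e P) ↔ (r = 2 ∧ a = 2) := by
  subst hq
  have hr := (Fact.out : r.Prime)
  have hf : H98.IsSesq (RingEquiv.refl F) (-1) (sympForm d F) := H9.isSesq_symp
  have ha' : ∀ v, sympForm d F v v = 0 := H27.sympForm_self
  have h₁ := H98.isSesq_of_symplectic hf₁
  have h₂ := H98.isSesq_of_symmetric hf₂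
  have hS' : Cfsg.Geo.IsTensorFormStructure (RingEquiv.refl F) (Cfsg.sympForm d F) f₁ f₂ e P := hS
  haveI : Nonempty (Fin d ⊕ Fin d) := ⟨.inl ⟨0, by omega⟩⟩
  haveI : Nonempty (Fin a) := ⟨⟨0, by omega⟩⟩
  haveI : Nonempty (Fin b) := ⟨⟨0, by omega⟩⟩
  have hn : Fintype.card (Fin d ⊕ Fin d) = 2 * d := by simp [two_mul]
  have h2 := H67.two_ne_of_odd hodd
  have hd3 : 3 ≤ d := by nlinarith
  constructor
  · intro H
    have key : ∀ T, H99.Iso (sympForm d F) T → T ^ r = 1 → (∀ z : F, T ≠ z • 1) →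
        ∃ (y : GL (Fin d ⊕ Fin d) F) (X : GL (Fin a) F) (Y : GL (Fin b) F), y ∈ spGL d F ∧
          y.1 = H98.frm e P (Matrix.kroneckerMap (· * ·) X.1 Y.1) ∧ H67.Sim T
          (Matrix.toLin' (Matrix.kroneckerMap (· * ·) X.1 Y.1)) := fun T h1 h3 h4 => by
      obtain ⟨x, rfl⟩ := H99.exists_gl (h1.inj hf)
      obtain ⟨g, g1, hg⟩ := H x h1 ⟨1, H67.gl_pow_smul_iff.2 (by rw [h3, one_smul])⟩
        (H67.gl_ne_smul h4)
      obtain ⟨X, Y, h5, h⟩ := H67.sim_kron_of_mem hg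
      exact ⟨_, X, Y, mul_mem (mul_mem (inv_mem g1) h1) g1, h5, h⟩
    have key2 : ∀ T, H99.Iso (sympForm d F) T → T ^ r = 1 → 0 < H67.rk T 1 → H67.rk T 1 < 3 →
        a ∣ H67.rk T 1 := fun T h1 h3 h4 h5 => by
      obtain ⟨-, X, Y, -, -, h⟩ := key T h1 h3 (H67.ne_smul_of_rk h4 (by omega))
      have := H67.dvd_rk_kron (A := X.1) Y.isUnit (μ := 1) (by rw [← h.rk]; simp; omega) 1
      rwa [← h.rk, Fintype.card_fin] at this
    have hrp : r ≠ p := by
      rintro rfl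
      obtain ⟨T, h1, h3, -, h4⟩ := H67.exists_sp_tv (F := F) (p := r) (d := d) (by omega)
      have := Nat.le_of_dvd (by omega) (key2 T h1 h3 (by omega) (by omega))
      omega
    by_cases hr2 : r = 2
    · subst hr2
      obtain ⟨U, -, u1, u2⟩ := H99.alt_exists_nd hf ha' (H99.nd_top hf) (e := 2) even_two
        (by rw [finrank_top, H99.finrank_fun']; omega)
      obtain ⟨T, t1, t2, t3, -⟩ := H67.exists_neg_on hf h2 u1
      have t4 : H67.rk T 1 = 2 := by rw [H67.rk_one, t3, u2]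
      have := Nat.le_of_dvd (by omega) (key2 T t1 t2 (by omega) (by omega))
      exact ⟨rfl, by omega⟩
    exfalso
    have hN : (r : F) ≠ 0 := H99.cast_ne_zero_of_ne hrp
    have ho := hr.odd_of_ne_two hr2
    obtain ⟨c, hc⟩ : ∃ c, c = if Even (H99.ordF F r) then H99.ordF F r else 2 * H99.ordF F r :=
      ⟨_, rfl⟩
    have k := H99.pk_sp (d := d) hrp hr2 hc
    have k₁ : H99.PK _ _ f₁ p r c := H99.pk_bilin h₁ (.inr hf₁.alternating) hN hr2 hc
    have k₂ : H99.PK _ _ f₂ p r c := H99.pk_bilin h₂ (.inl rfl) hN hr2 hc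
    obtain ⟨g, g0, g1, g2⟩ := H67.exists_ord_of_relIndex hΩ
    have h3 := k.le_card (H67.mem_spGL_iff.1 g0) (H67.toLin'_gl_pow g1) (H67.toLin'_gl_ne_one g2)
    obtain ⟨T, t1, t2, t3⟩ := H99.exists_sp_V0 (d := d) hN hr2 hc (2 * d - c) 1 (by omega)
    have t4 := H99.finrank_V0_add_V1 T
    rw [H99.finrank_fun', ← H67.rk_one] at t4
    have h0 := k.pos
    obtain ⟨y, X, Y, y1, y2, h⟩ := key T t1 t2
      (t1.ne_smul_bilin hf ho t2 (H99.ne_one_of_V0 (by omega)))
    obtain ⟨⟨l, hl⟩, ⟨m, hm⟩⟩ := H98.tensor_sim hf (by omega) (by omega) h₁ h₂ hS'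
      ⟨1, fun u v => by rw [Units.val_one, one_mul]; exact y1 u v⟩ y2
    have h4 := h.pow_one' t2
    have h5 := h4
    rw [H99.toLin'_pow_eq_one, H67.kron_pow, ← one_smul F (1 : Matrix _ _ F)] at h5
    obtain ⟨⟨s, -, hs⟩, ⟨s', -, hs'⟩⟩ := H98.scalar_of_kron_eq one_ne_zero h5
    obtain ⟨w, w0, w1, w2⟩ := H67.sim_odd (T := Matrix.toLin' X.1) h₁ l.ne_zero hl ho
      (H99.toLin'_pow_eq_smul.2 hs)
    obtain ⟨w', w0', w1', w2'⟩ := H67.sim_odd (T := Matrix.toLin' Y.1) h₂ m.ne_zero hm ho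
      (H99.toLin'_pow_eq_smul.2 hs')
    rw [← map_smul] at w1 w2 w1' w2'
    have h6 := H67.iso_kron hf h₁ h₂ hS' w1 w1'
    have h7 : Matrix.toLin' (Matrix.kroneckerMap (· * ·) (w⁻¹ • X.1) (w'⁻¹ • Y.1)) ^ r = 1 := by
      rw [H99.toLin'_pow_eq_one] at w2 w2' ⊢
      rw [H67.kron_pow, w2, w2', Matrix.one_kronecker_one]
    have h8 := H67.rk_kron_ne k₁ k₂ ha2 hb w1 w1' w2 w2'
    rw [Matrix.smul_kronecker, Matrix.kronecker_smul, smul_smul] at h6 h7 h8
    set t := w⁻¹ * w'⁻¹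
    rw [map_smul, ← y2, map_smul] at h6
    rw [map_smul, smul_pow, h4] at h7
    have h9 : t ^ r = 1 := by
      obtain ⟨v, hv⟩ := exists_ne (0 : Fin a × Fin b → F)
      have := LinearMap.congr_fun h7 v
      simp only [LinearMap.smul_apply, Module.End.one_apply] at this
      exact smul_left_injective F hv (this.trans (one_smul F v).symm)
    have h10 : t ^ 2 = 1 := by
      obtain ⟨u, hu⟩ := exists_ne (0 : Fin d ⊕ Fin d → F)
      obtain ⟨v, hv⟩ := (hf.nondeg u hu).2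
      have := h6 u v
      simp only [LinearMap.smul_apply, hf.smul_left, hf.smul_right, RingEquiv.refl_apply] at this
      rw [H67.mem_spGL_iff.1 y1 u v, ← mul_assoc, ← sq] at this
      exact mul_right_cancel₀ hv (this.trans (one_mul _).symm)
    have h11 : t = 1 := by
      obtain ⟨j, rfl⟩ := ho
      rwa [pow_succ, pow_mul, h10, one_pow, one_mul] at h9
    rw [h11, one_smul, ← h.rk] at h8
    omega
  · rintro ⟨rfl, rfl⟩ x hx ⟨z, hz⟩ -
    have hx' := H67.mem_spGL_iff.1 hx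
    have hdb : d = b := by omega
    suffices ∃ (X : Matrix (Fin 2) (Fin 2) F) (Y : Matrix (Fin b) (Fin b) F),
        H99.Iso f₁ (Matrix.toLin' X) ∧ H99.Iso f₂ (Matrix.toLin' Y) ∧ H67.Sim (Matrix.toLin' x.1)
          (Matrix.toLin' (H98.frm e P (Matrix.kroneckerMap (· * ·) X Y))) by
      obtain ⟨X, Y, x1, y1, h⟩ := this
      obtain ⟨y, hy, e1⟩ := H67.exists_mem_tensor e P (H67.isUnit_of_inj (x1.inj h₁))
        (H67.isUnit_of_inj (y1.inj h₂))
      rw [← e1] at h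
      obtain ⟨g, g1, g2⟩ := H67.sp_conj_of_sim (y := y) (N := 2 * 2) hx
        (H67.mem_spGL_iff.2 (e1 ▸ H67.iso_kron hf h₁ h₂ hS' x1 y1))
        (by rw [Nat.cast_mul]; exact mul_ne_zero h2 h2) (H67.gl_pow_of_toLin' (h.pow_one' (by
          rcases hx'.sq_cases hf (H67.gl_pow_smul_iff.1 hz) with h | h <;>
            rw [pow_mul, h] <;> simp [smul_pow]))) h
      exact ⟨g, g1, g2 ▸ hy⟩
    rcases hx'.sq_cases hf (H67.gl_pow_smul_iff.1 hz) with h | h
    · obtain ⟨j, hj⟩ := (hx'.nd_V1 hf h (by exact_mod_cast h2)).even_alt hf ha'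
      have s4 := H67.rk_le_card (Matrix.toLin' x.1) 1
      rw [H67.rk_one] at s4
      obtain ⟨U, -, u1, u2⟩ := H67.symm_exists_nd h₂ h2 (H99.nd_top h₂) (e := j)
        (by rw [finrank_top, H99.finrank_fun', Fintype.card_fin]; omega)
      obtain ⟨S, t1, t2, t3, -⟩ := H67.exists_neg_on h₂ h2 u1
      obtain ⟨Y, rfl⟩ := Matrix.toLin'.surjective S
      refine ⟨1, Y, by rw [Matrix.toLin'_one]; exact H99.iso_one, t1,
        H67.Sim.trans (H67.sim_of_invol h2 h ?_ (by simp; omega) ?_) (H67.sim_frm e P _)⟩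
      · rw [H99.toLin'_pow_eq_one] at t2 ⊢
        rw [H67.kron_pow, t2]; simp
      · rw [H67.rk_one_kron, H67.rk_one, H67.rk_one, t3, u2, hj]; simp [two_mul]
    · have h3 : (!![0, -1; 1, 0] : Matrix (Fin 2) (Fin 2) F) ^ 2 = (-1 : F) • 1 := by
        ext i j; fin_cases i <;> fin_cases j <;> simp [sq, Matrix.mul_apply, Fin.sum_univ_two]
      have h4 : H99.Iso f₁ (Matrix.toLin' !![0, -1; 1, 0]) := fun u v => by
        simpa using H67.alt_two_det h₁ hf₁.alternating !![0, -1; 1, 0] u v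
      have h5 : H99.Iso f₂ (Matrix.toLin' 1) := by rw [Matrix.toLin'_one]; exact H99.iso_one
      refine ⟨_, _, h4, h5, H67.sim_of_sq_neg hf hf h2 hx' (H67.iso_kron hf h₁ h₂ hS' h4 h5) h
        ?_ rfl⟩
      rw [H99.toLin'_pow_eq_smul, ← map_pow, H67.kron_pow, h3, Matrix.smul_kronecker, map_smul]
      simp

end Cfsg.Agent.S5980
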