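import Cfsg.Statements.S5981
import Cfsg.Agent.H99.Ix4

set_option autoImplicit false
open scoped MatrixGroups
open Cfsg

namespace Cfsg.Agent.S5981

open H99 H98 H67 H9

/-- Elements of prime order of PSL_n(q), q odd, and the subgroups of orthogonal type. Here `T = PSL_n(F)` for a field `F` with `q` elements, `q` odd, `n ≥ 3`; `Q` is a non-degenerate quadratic form on `F^n` (of either type when `n` is even) and `H` is the subgroup of matrices of determinant 1 that preserve `Q` up to a scalar — a subgroup of type O^ε_n(q) (maximality is not assumed); Ω is the set of cosets of `H` in `T`, so an element of `T` of prime order `r` (a matrix `x` of determinant 1 with `x^r` scalar, `x` not scalar) fixes a point of Ω exactly when some conjugate of `x` by a matrix of determinant 1 preserves `Q` up to a scalar. Let `r` be a prime dividing the index of `H`, with `(n, r) ≠ (6, 3)`. Then every element of `T` of order `r` fixes a point of Ω if and only if `r = 2`,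 or `r ∈ {3, 5}`, `n = r` and `(q − 1)_r = r` (the `r`-part of `q − 1` is exactly `r`). The case `(n, r) = (6, 3)` is not covered by this statement. -/
theorem result {F : Type*} [Field F] [Fintype F] {p : ℕ} [Fact p.Prime] [CharP F p] {q : ℕ} (hq : Fintype.card F = q)
    (hodd : Odd q) (n : ℕ) (hn : 3 ≤ n) (Q : (Fin n → F) → F) (hQ : Cfsg.Geo.IsNondegenerateQuadraticForm Q)
    (r : ℕ) [Fact r.Prime] (hgap : ¬ (n = 6 ∧ r = 3))
    (hΩ : r ∣ (Cfsg.Geo.quadSimilarityGroup Q).relIndex (Cfsg.Geo.specialLinear (Fin n) F)) :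
    (∀ x ∈ Cfsg.Geo.specialLinear (Fin n) F, (∃ z : F, ((x ^ r : GL (Fin n) F) : Matrix (Fin n) (Fin n) F) = z • (1 : Matrix (Fin n) (Fin n) F)) →
      (∀ z : F, (x : Matrix (Fin n) (Fin n) F) ≠ z • (1 : Matrix (Fin n) (Fin n) F)) →
      ∃ g ∈ Cfsg.Geo.specialLinear (Fin n) F, g⁻¹ * x * g ∈ Cfsg.Geo.quadSimilarityGroup Q) ↔
    (r = 2 ∨ ((r = 3 ∨ r = 5) ∧ n = r ∧ padicValNat r (q - 1) = 1)) := by
  classical
  obtain ⟨Q, rfl⟩ := exists_quadraticForm hQ
  subst hq
  haveI : Nonempty (Fin n) := ⟨⟨0, by omega⟩⟩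
  have hs := NQ.sq hQ
  have hr : r.Prime := Fact.out
  have h2 := two_ne_of_odd hodd
  change AllC _ r ↔ _
  rw [quadSim_eq h2]
  by_cases hr2 : r = 2
  · subst hr2
    refine iff_of_true (allC_of_cm ds_two fun T z h1 hz => ?_) (.inl rfl)
    rcases sl_two_cases h1 hz with ⟨w, S, h0, rfl, s1⟩ | hw
    · obtain ⟨U, -, u1, u2⟩ := symm_exists_nd hs h2 (nd_top hs) (e := Module.finrank F (V1 S))
        (Submodule.finrank_mono le_top)
      obtain ⟨S', t1, t2, t3, -⟩ := exists_neg_on hs h2 u1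
      exact ((t1.cm hs).of_sim (sim_invol s1 t2 rfl (by rw [t3, u2]))).smul
        (scalars_le_simil hs) h0
    · obtain ⟨A, rfl⟩ := Matrix.toLin'.surjective T
      obtain ⟨k, hk, -⟩ := det_of_nonpow hw (toLin'_pow_eq_smul.1 hz)
      obtain ⟨S, s1, s2⟩ := exists_simil_sq hs h2 hk z
      exact (cm_simil hs (ne_zero_of_det h1 hz) s2).of_sim
        (sim_of_nonpow Nat.prime_two hw hz s1 rfl)
  simp only [hr2, false_or]
  refine ⟨fun H => ?_, fun H => ?_⟩
  swap
  · have hd := dvd_of_one_le_padicValNat H.2.2.ge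
    have hN : (r : F) ≠ 0 := cast_ne_zero_of_ne (p := p) fun e =>
      not_dvd_card_sub_one (F := F) (p := p) (e ▸ hd)
    refine allC_of_cm (ds_of_ss hN) fun T z h1 hz => ?_
    obtain ⟨c, A, c0, a1, a2, a3⟩ := exists_symm_ev (by simpa using H) h1 hz
    obtain ⟨B, b1, b2, b3⟩ := NQ.exists_ev hQ hN hr2 (fun x hx => pow_eq_one_of_mem_ev a2 hx)
      (ev_map_frob A) a3 (card_ev _ A) fun m _ hm => by simp at hm; omega
    exact ((b1.iso.cm hs).of_sim (a1 ▸ sim_of_ev hN a2 b2 b3.symm)).of_smul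
      (scalars_le_simil hs) c0
  by_cases h : r ∣ Fintype.card F - 1
  · simpa using H.small hs (by simpa) hr2 h (fun _ _ => rfl) (by simpa using hgap)
  exfalso
  rcases eq_or_ne r p with rfl | hrp
  · obtain ⟨T, hT⟩ := exists_end_jt (F := F) (V := Fin n → F) (μ := 2 ::ₘ .replicate (n - 2) 1)
      (by simp [Multiset.mem_replicate]) (by simp; omega)
    have h1 : (T - 1) ^ 2 = 0 := LinearMap.ext fun w => hT.pow_eq_zero
      (by simp [Multiset.mem_replicate]) w trivial
    have h3 := pow_char_of_sub_one h1 (p := r) hr.two_le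
    obtain ⟨S, t1, t2⟩ := (H.cm (by
      obtain ⟨A, rfl⟩ := Matrix.toLin'.surjective T
      simpa using det_eq_one_of_unip h1) (z := 1) (by rw [h3, one_smul])
      (ne_smul_of_unip h1 (hT.ne_one (b := 2) (by simp) (by omega)))).iso hs h h3
    have := (par_symm hs t2 h2).even_count hs t2 _ (nd_top hs) (TInv.top _) (hT.of_sim t1) 2
      even_two
    simp [Multiset.count_replicate] at this
  have hN := cast_ne_zero_of_ne (F := F) hrp
  have key : ∀ k s, 0 < s → n = k + s * ordF F r → ∃ S, Iso (QuadraticMap.polar Q) S ∧ S ^ r = 1 ∧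
      Module.finrank F (V0 S) = k := fun k s a b => by
    obtain ⟨A, a1, a2, a3, a4⟩ := exists_sl_ord (ι := Fin n) hN h a (by simpa)
    have a5 := toLin'_pow_eq_one.2 a2
    obtain ⟨S, t1, t2⟩ := (H.cm (T := Matrix.toLin' A) (by simpa) (z := 1) (by simpa)
      (by simpa [toLin'_eq_smul])).iso hs h a5
    exact ⟨S, t2, t1.pow_one' a5, t1.V0 ▸ a4⟩
  rcases NQ.sl_index hQ h2 (by omega) hN hΩ with ⟨i1, i2⟩ | ⟨m, hm, h3⟩
  · obtain ⟨S, s1, s2, s3⟩ := key (n - ordF F r) 1 one_pos (by omega)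
    have h1 := (pk_bilin (p := p) hs (Or.inl rfl) hN hr2 rfl).dvd s1 s2 le_rfl
      (s1.nd_V1 hs s2 hN) (tInv_V1 _)
    have h3 := finrank_V0_add_V1 S
    rw [if_neg (Nat.not_even_iff_odd.2 i1)] at h1
    have := i1.pos
    simp at h3
    have := Nat.le_of_dvd (by omega) h1
    omega
  have h4 := neg_one_ne_one_zmod hr2
  obtain ⟨s, hs'⟩ : ordF F r ∣ n := orderOf_dvd_of_pow_eq_one (by
    rw [hm, mul_comm, pow_mul]; rcases h3 with ⟨-, h⟩ | ⟨-, h⟩ <;> simp [h])
  obtain ⟨S, s1, s2, s3⟩ := key 0 s (Nat.pos_of_ne_zero fun e => by simp [e] at hs'; omega)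
    (by rw [zero_add, mul_comm]; exact hs')
  have q2 := plusA_iff_of_fpf (ond hQ) hN hr2 (s1.oi h2) s2 (fun v hv =>
    (Submodule.mem_bot F).1 (Submodule.finrank_eq_zero.1 s3 ▸ mem_V0.2 hv)) (m := m) (by simpa)
  rw [← pl_top_iff] at q2
  rcases h3 with ⟨a, h⟩ | ⟨a, h⟩
  exacts [h4 (h.symm.trans (q2.1 a)), a (q2.2 h)]

end Cfsg.Agent.S5981
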