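import Cfsg.Statements.S5982
import Cfsg.Agent.H99.Ix4

set_option autoImplicit false
open scoped MatrixGroups
open Cfsg

namespace Cfsg.Agent.S5982

open H99 H98 H67 H9

/-- Elements of prime order of PSL_n(q), q = q₀², and the subgroups of unitary type. Here `T = PSL_n(F)` for a field `F` with `q = q₀²` elements (`n ≥ 3`), `f` is a non-degenerate unitary form on `F^n` for the involutory automorphism `x ↦ x^{q₀}`, and `H` is the subgroup of matrices of determinant 1 that preserve `f` up to a scalar — a subgroup of type GU_n(q₀) (maximality is not assumed); Ω is the set of cosets of `H` in `T`, so an element of `T` of prime order `r` (a matrix `x` of determinant 1 with `x^r` scalar, `x` not scalar) fixes a point of Ω exactly when some conjugate of `x` by a matrix of determinant 1 preserves `f` up to a scalar. Let `r` be a prime dividing the index of `H`, with `r = 2` or `r` different from the characteristic `p`, and with `(n, r) ≠ (6, 3)`. Then every element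 of `T` of order `r` fixes a point of Ω if and only if either `r = 2` and (`p = 2` or `(n)_2 ≤ (q − 1)_2`), or `r ∈ {3, 5}`, `n = r` and `(q₀ − 1)_r = r`. (Odd `r = p` and the case `(n, r) = (6, 3)` are not covered by this statement.) -/
theorem result {F : Type*} [Field F] [Fintype F] {p : ℕ} [Fact p.Prime] [CharP F p] {q : ℕ} (hq : Fintype.card F = q)
    (q₀ : ℕ) (hq₀ : q = q₀ ^ 2) (n : ℕ) (hn : 3 ≤ n) (f : (Fin n → F) → (Fin n → F) → F) (hf : Cfsg.Geo.IsUnitaryFormPow q₀ f)
    (r : ℕ) [Fact r.Prime] (hr : r = 2 ∨ r ≠ p) (hgap : ¬ (n = 6 ∧ r = 3))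
    (hΩ : r ∣ (Cfsg.Geo.similarityGroup f).relIndex (Cfsg.Geo.specialLinear (Fin n) F)) :
    (∀ x ∈ Cfsg.Geo.specialLinear (Fin n) F, (∃ z : F, ((x ^ r : GL (Fin n) F) : Matrix (Fin n) (Fin n) F) = z • (1 : Matrix (Fin n) (Fin n) F)) →
      (∀ z : F, (x : Matrix (Fin n) (Fin n) F) ≠ z • (1 : Matrix (Fin n) (Fin n) F)) →
      ∃ g ∈ Cfsg.Geo.specialLinear (Fin n) F, g⁻¹ * x * g ∈ Cfsg.Geo.similarityGroup f) ↔
    ((r = 2 ∧ (p = 2 ∨ padicValNat 2 n ≤ padicValNat 2 (q - 1))) ∨ ((r = 3 ∨ r = 5) ∧ n = r ∧ padicValNat r (q₀ - 1) = 1)) := by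
  classical
  subst hq
  haveI := Fact.mk hq₀
  haveI : Nonempty (Fin n) := ⟨⟨0, by omega⟩⟩
  have hs := H10.isSesq_of_pow hf
  have hp : r.Prime := Fact.out
  have hq : Fintype.card F - 1 ≠ 0 := by have := Fintype.one_lt_card (α := F); omega
  change AllC _ r ↔ _
  by_cases hr2 : r = 2
  · subst hr2
    have key : ∀ (w : F) (S : Module.End F (Fin n → F)), w ≠ 0 → S ^ 2 = 1 →
        CM (Geo.similarityGroup f) (w • S) := fun w S h0 s1 => by
      refine CM.smul (scalars_le_simil' hs) ?_ h0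
      by_cases h2 : (2 : F) = 0
      · obtain ⟨A, rfl⟩ := Matrix.toLin'.surjective S
        obtain ⟨B, b1, b2⟩ := exists_isIsom_unipotent (q := q₀) (A := A) (N := 2)
          (Matrix.toLinAlgEquiv'.injective (by
            rw [map_pow, map_sub, map_one, map_zero]; exact (sq_zero_of_two h2).2 s1))
        exact cm_herm hs b1 ((isConj_iff_sim _ _).1 b2)
      obtain ⟨U, -, u1, u2⟩ := herm_exists_nd hs (nd_top hs) (e := Module.finrank F (V1 S))
        (Submodule.finrank_mono le_top)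
      obtain ⟨S', t1, t2, t3, -⟩ := exists_neg_on hs h2 u1
      exact (t1.cm hs).of_sim (sim_invol s1 t2 rfl (by rw [t3, u2]))
    simp only [true_and, show ¬ (2 = 3 ∨ 2 = 5) by decide, false_and, or_false]
    by_cases h2 : p = 2
    · refine iff_of_true (allC_of_cm ds_two fun T z h1 hz => ?_) (.inl h2)
      rcases sl_two_cases h1 hz with ⟨w, S, h0, rfl, s1⟩ | hw
      · exact key w S h0 s1
      · exact (exists_pow_eq_of_not_dvd (h2 ▸ not_dvd_card_sub_one (p := p)) z).elim
          fun b hb => absurd hb (hw b)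
    have h3 : (2 : F) ≠ 0 := mt two_eq_zero_iff.1 h2
    have h4 := q_odd (q := q₀) h3
    have h5 : Fintype.card F % 4 = 1 := by
      obtain ⟨k, rfl⟩ : ∃ k, q₀ = 2 * k + 1 := ⟨q₀ / 2, by omega⟩
      rw [hq₀, show (2 * k + 1) ^ 2 = 4 * (k ^ 2 + k) + 1 by ring]; omega
    have h6 : Cond 2 (Fintype.card (Fin n)) (Fintype.card F) ↔
      padicValNat 2 n ≤ padicValNat 2 (Fintype.card F - 1) := by simp [Cond, h5]
    simp only [h2, false_or, ← h6]
    refine ⟨fun H => by_contra fun hc => ?_, fun H => allC_of_cm ds_two fun T z h1 hz => ?_⟩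
    · obtain ⟨A, z, a1, a2, a3, a4, -⟩ := exists_sl_nonpow (by omega) hc
      have a5 := toLin'_pow_eq_smul.2 a2
      obtain ⟨S, c, t1, t2, t3⟩ := (H.cm (by simpa) a5 (by simpa [toLin'_eq_smul])).simil
      obtain ⟨c1, c2⟩ := simil_norm hs t3 (t1.pow_smul a5)
      obtain ⟨k, rfl⟩ : ∃ k, q₀ = 2 * k + 1 := ⟨q₀ / 2, by omega⟩
      obtain ⟨b, hb⟩ := (FiniteField.isSquare_iff (F := F) (a := z)
        (H27.ringChar_ne_two_of_two_ne_zero h3) (ne_zero_of_det (by simpa) a5)).2 (by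
          rw [hq₀, show (2 * k + 1) ^ 2 / 2 = (2 * k + 1 + 1) * k by
            rw [show (2 * k + 1) ^ 2 = 1 + 2 * ((2 * k + 1 + 1) * k) by ring]; omega,
            pow_mul, ← norm_eq_pow, ← c1, ← pow_mul]
          exact mul_right_cancel₀ t2 (by rw [← pow_succ, one_mul]; exact c2))
      exact a3 b (by rw [hb, sq])
    · rcases sl_two_cases h1 hz with ⟨w, S, h0, rfl, s1⟩ | hw
      · exact key w S h0 s1
      obtain ⟨A, rfl⟩ := Matrix.toLin'.surjective T
      obtain ⟨k, k1, k2⟩ := det_of_nonpow hw (toLin'_pow_eq_smul.1 hz)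
      exact absurd (k1 ▸ H) ((exists_nonpow_det_iff (by omega) (by simp at k1; omega)).1
        ⟨z, hw, by rw [← k2]; simpa using h1⟩)
  have hN := cast_ne_zero_of_ne (F := F) (hr.resolve_left hr2)
  obtain ⟨j, j0, j1, j2⟩ := herm_index hs hN hΩ
  have h4 := neg_one_ne_one_zmod hr2
  have h5 : ¬ r ∣ q₀ + 1 := fun e => by
    have := (ZMod.natCast_eq_zero_iff _ _).2 e
    rw [show -(q₀ : ZMod r) = 1 by push_cast at this; linear_combination -this, one_pow] at j2
    exact h4 j2.symm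
  have h6 : q₀ - 1 ≠ 0 := fun e => hq (by rw [card_pred_eq (q := q₀), e, mul_zero])
  have h7 : padicValNat r (Fintype.card F - 1) = padicValNat r (q₀ - 1) := by
    rw [card_pred_eq (q := q₀), padicValNat.mul (by omega) h6, padicValNat.eq_zero_of_not_dvd h5,
      zero_add]
  have h8 : ∀ {Ω : Type _} [Field Ω], r ∣ Fintype.card F - 1 → ∀ ω : Ω, ω ^ r = 1 → ω ^ q₀ = ω :=
    fun h ω hω => by
    obtain ⟨k, hk⟩ := ((Nat.Prime.dvd_mul hp).1 (card_pred_eq (F := F) (q := q₀) ▸ h)).resolve_left h5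
    rw [show q₀ = r * k + 1 by omega, pow_succ, pow_mul, hω, one_pow, one_mul]
  simp only [hr2, false_and, false_or, ← h7]
  refine ⟨fun H => ?_, fun H => allC_of_cm (ds_of_ss hN) fun T z h1 hz => ?_⟩
  swap
  · obtain ⟨c, A, c0, a1, a2, a3⟩ := exists_symm_ev (by simpa using H) h1 hz
    have a4 := fun x (hx : x ∈ ev (AlgebraicClosure F) A) => pow_eq_one_of_mem_ev a2 hx
    obtain ⟨B, b1, b2, b3⟩ := exists_isIsom_ev_eq (K := F) (n := n) (q := q₀)
      ((Multiset.map_congr rfl fun x hx => by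
        rw [zpow_neg, zpow_natCast, h8 (dvd_of_one_le_padicValNat H.2.2.ge) x (a4 x hx)]).trans a3)
      (by simp [card_ev]) fun e => by simpa [hp.ne_zero] using a4 0 e
    exact (a1 ▸ cm_herm hs b1 (sim_of_ev hN a2 (IsSS_pow_eq_one b2 (b3 ▸ a4)) b3.symm)).of_smul
      (scalars_le_simil' hs) c0
  by_cases h : r ∣ Fintype.card F - 1
  · simpa using H.small hs (by simpa) hr2 h (h8 h) (by simpa using hgap)
  exfalso
  obtain ⟨k, hk⟩ : ordF F r ∣ j := orderOf_dvd_of_pow_eq_one (by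
    rw [hq₀, Nat.cast_pow, ← neg_sq, pow_right_comm, j2]; simp)
  have h9 := Nat.le_of_dvd j0 ⟨k, hk⟩
  obtain ⟨A, a1, a2, a3, a4⟩ := exists_sl_ord (ι := Fin n) hN h (s := 1) (k := n - ordF F r)
    one_pos (by simp; omega)
  have a5 := toLin'_pow_eq_one.2 a2
  obtain ⟨S, t1, t2⟩ := (H.cm (T := Matrix.toLin' A) (by simpa) (z := 1) (by simpa)
    (by simpa [toLin'_eq_smul])).iso hs h a5
  have s2 := t1.pow_one' a5
  have h1 := herm_fpf hs hN t2 s2 le_rfl (tInv_V1 _) (t2.nd_V1 hs s2 hN)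
  have h3 := finrank_V0_add_V1 (Matrix.toLin' A)
  rw [← t1.V1, show Module.finrank F (V1 (Matrix.toLin' A)) = ordF F r by simp at h3; omega] at h1
  rw [hk, pow_mul, h1, one_pow] at j2
  exact h4 j2.symm

end Cfsg.Agent.S5982
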