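import Cfsg.Statements.S5983
import Cfsg.Agent.H99.FmO7

set_option autoImplicit false
open scoped MatrixGroups
open Cfsg

namespace Cfsg.Agent.S5983

/-- Elements of prime order of PSp_n(q), q even, and the subgroups of orthogonal type. Here `T = Sp_{2d}(F)` for a field `F` of characteristic 2 with `q` elements (`d ≥ 2`, `(d, q) ≠ (2, 2)`), realised as the invertible matrices preserving the standard alternating form; `Q` is a non-degenerate quadratic form on `F^{2d}` whose polar form is that alternating form, and `H` is the subgroup of `T` preserving `Q` up to a scalar (equivalently preserving `Q`) — a subgroup of type O^±_{2d}(q) (maximality is not assumed); `Q` is of plus type when `F^{2d}` contains a `d`-dimensional subspace on which `Q` vanishes, of minus type otherwise. Ω is the set of cosets of `H` in `T`, so an element of `T` of prime order `r` (`x ∈ T` with `x^r` scalar, `x` not scalar) fixes a point of Ω exactly when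 some `T`-conjugate of `x` preserves `Q`. Let `r` be a prime dividing the index of `H`. Then every element of `T` of order `r` fixes a point of Ω if and only if `r = 2` and either `Q` is of plus type or `d` is odd. -/
theorem result {F : Type*} [Field F] [Fintype F] {p : ℕ} [Fact p.Prime] [CharP F p] {q : ℕ} (hq : Fintype.card F = q)
    (hp : p = 2) (d : ℕ) (hd : 2 ≤ d) (hT : (d, q) ≠ (2, 2)) (Q : (Fin d ⊕ Fin d → F) → F) (hQ : Cfsg.Geo.IsNondegenerateQuadraticForm Q)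
    (hQf : ∀ u v, QuadraticMap.polar Q u v = Cfsg.sympForm d F u v)
    (r : ℕ) [Fact r.Prime]
    (hΩ : r ∣ (Cfsg.Geo.quadSimilarityGroup Q).relIndex (Cfsg.spGL d F)) :
    (∀ x ∈ Cfsg.spGL d F, (∃ z : F, ((x ^ r : GL (Fin d ⊕ Fin d) F) : Matrix (Fin d ⊕ Fin d) (Fin d ⊕ Fin d) F) = z • (1 : Matrix (Fin d ⊕ Fin d) (Fin d ⊕ Fin d) F)) →
      (∀ z : F, (x : Matrix (Fin d ⊕ Fin d) (Fin d ⊕ Fin d) F) ≠ z • (1 : Matrix (Fin d ⊕ Fin d) (Fin d ⊕ Fin d) F)) →
      ∃ g ∈ Cfsg.spGL d F, g⁻¹ * x * g ∈ Cfsg.Geo.quadSimilarityGroup Q) ↔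
    (r = 2 ∧ (Cfsg.Geo.IsPlusTypeOn Q ⊤ ∨ Odd d)) := by
  obtain ⟨Q, rfl⟩ := H99.exists_quadraticForm hQ
  have e : QuadraticMap.polar Q = sympForm d F := funext₂ hQf
  have h2 : (2 : F) = 0 := H99.two_eq_zero_iff.2 hp
  obtain ⟨d, rfl⟩ : ∃ k, d = k + 1 := ⟨d - 1, by omega⟩
  have hn : Fintype.card (Fin (d + 1) ⊕ Fin (d + 1)) = 2 * (d + 1) := by simp; omega
  have hG : ∀ x : GL _ F, x ∈ spGL (d + 1) F ↔
    H99.Iso (QuadraticMap.polar Q) (Matrix.toLin' x.1) := fun x => e ▸ Iff.rfl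
  refine (H99.gl_forall_iff _ _ hG (fun T h => h.inj (H99.NQ.sq hQ)) r _ _ fun x hx =>
    H99.NQ.conj_iff hQ (hn ▸ even_two_mul _) hG hx).trans ?_
  by_cases hr2 : r = 2
  · subst hr2
    simpa using H99.NQ.fixQ_two_iff hQ h2 hn _
  have hN : (r : F) ≠ 0 := H99.cast_ne_zero_of_ne (hp ▸ hr2)
  have h3 := H99.NQ.sp_index hQ e hN hΩ
  have h4 := H99.neg_one_ne_one_zmod hr2
  have h5 : H99.ordF F r ∣ 2 * (d + 1) := orderOf_dvd_of_pow_eq_one (by
    rw [mul_comm, pow_mul]; rcases h3 with ⟨-, h⟩ | ⟨-, h⟩ <;> simp [h])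
  obtain ⟨s, hs⟩ : (if Even (H99.ordF F r) then H99.ordF F r else 2 * H99.ordF F r) ∣
      2 * (d + 1) := by
    split_ifs with h
    exacts [h5, mul_dvd_mul_left 2 ((Nat.coprime_two_right.2
      (Nat.not_even_iff_odd.1 h)).dvd_of_dvd_mul_left h5)]
  obtain ⟨T, t1, t2, t3⟩ := H99.exists_sp_V0 (d := d + 1) hN hr2 rfl 0 s (by rw [hn, hs]; ring)
  have t4 : ∀ v, T v = v → v = 0 := fun v hv =>
    (Submodule.mem_bot F).1 (Submodule.finrank_eq_zero.1 t3 ▸ H99.mem_V0.2 hv)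
  refine iff_of_false (fun h => ?_) fun h => hr2 h.1
  rw [H99.bilin_forall_odd (H99.NQ.sq hQ) ((Fact.out : r.Prime).odd_of_ne_two hr2) _
    fun T ⟨Q', a, b, c⟩ => ⟨Q', a, b, by simpa using c.neg⟩] at h
  obtain ⟨Q', q1, q2, q3⟩ := h T (e ▸ t1) t2 fun e =>
    one_ne_zero (congrFun (t4 (fun _ => 1) (by simp [e])) (.inl 0))
  rw [H99.pl_top_iff, H99.plusA_iff_of_fpf (H99.ond (H99.NQ.of_polar hQ q1)) hN hr2 q3 t2 t4
    (m := d + 1) (by simp; omega)] at q2
  rcases h3 with ⟨a, h⟩ | ⟨a, h⟩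
  exacts [h4 (h.symm.trans (q2.2 a)), a (q2.1 h)]

end Cfsg.Agent.S5983
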