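import Cfsg.Statements.S5984
import Cfsg.Agent.H99.FmPol

set_option autoImplicit false
open scoped MatrixGroups
open Cfsg

namespace Cfsg.Agent.S5984

/-- Elements of prime order of PSU_n(q) and the stabilizers of pairs of complementary totally singular subspaces. Here `T = PSU_n(q)` is realised through `SU_n(q)`, the matrices of determinant 1 over the field `F` with `q²` elements preserving the hermitian form `Σ uᵢ vᵢ^q`, with `n ≥ 4` even; `D` is a pair of complementary subspaces of dimension `n/2` on each of which the form vanishes identically, and `H` is the subgroup of `SU_n(q)` fixing or interchanging the two members — a subgroup of type GL_{n/2}(q²).2 (maximality is not assumed). Ω is the set of cosets of `H`, so an element of `T` of prime order `r` (`x ∈ SU_n(q)` with `x^r` scalar, `x` not scalar) fixes a point of Ω exactly when some `SU_n(q)`-conjugate of `x` lies in `H`. Let `r` be a prime dividing the index of `H`. Then every element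 of `T` of order `r` fixes a point of Ω if and only if `r = 2`, `q` is odd and `(q + 1)_2 ≤ (n)_2` (2-parts). -/
theorem result {F : Type*} [Field F] [Fintype F] {p : ℕ} [Fact p.Prime] [CharP F p] {q : ℕ} (hq : Fintype.card F = q ^ 2)
    (n : ℕ) (hn : 4 ≤ n) (he : Even n) (D : Fin 2 → Submodule F (Fin n → F)) (hD : Cfsg.Geo.IsMDecomposition (n / 2) D)
    (hDs : ∀ i, Cfsg.Geo.IsTotallySingularFor (Cfsg.hermForm n F q) (D i))
    (r : ℕ) [Fact r.Prime]
    (hΩ : r ∣ (Cfsg.Geo.decompositionStabilizer D).relIndex (Cfsg.GU n F q ⊓ Cfsg.Geo.specialLinear (Fin n) F)) :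
    (∀ x ∈ Cfsg.GU n F q ⊓ Cfsg.Geo.specialLinear (Fin n) F, (∃ z : F, ((x ^ r : GL (Fin n) F) : Matrix (Fin n) (Fin n) F) = z • (1 : Matrix (Fin n) (Fin n) F)) →
      (∀ z : F, (x : Matrix (Fin n) (Fin n) F) ≠ z • (1 : Matrix (Fin n) (Fin n) F)) →
      ∃ g ∈ Cfsg.GU n F q ⊓ Cfsg.Geo.specialLinear (Fin n) F, g⁻¹ * x * g ∈ Cfsg.Geo.decompositionStabilizer D) ↔
    (r = 2 ∧ Odd q ∧ padicValNat 2 (q + 1) ≤ padicValNat 2 n) := by
  haveI := Fact.mk hq
  have hf := H10.isSesq_herm (F := F) (q := q) (n := n)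
  haveI : Nonempty (Fin n) := ⟨⟨0, by omega⟩⟩
  have hr := (Fact.out : r.Prime)
  have hn' := Fintype.card_fin n
  have h0 := H99.pp_of_isM hf hD hDs
  obtain ⟨m, hm⟩ := he
  refine (H99.gl_forall_iff _ (fun T => H99.Iso (hermForm n F q) T ∧ LinearMap.det T = 1)
    (fun x => H99.mem_SUG') (fun T h => h.1.inj hf) r _ (fun T => ∃ U W, H99.PP (hermForm n F q) U W ∧
      ((U.map T = U ∧ W.map T = W) ∨ (U.map T = W ∧ W.map T = U))) fun x _ => ?_).trans ?_
  · simp only [H99.mem_stab_two, H99.map_conj_iff]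
    refine ⟨fun ⟨g, g1, g2⟩ => ⟨_, _, h0.map hf (H99.mem_SUG'.1 g1).1, g2⟩, fun ⟨U, W, h1, h2⟩ => ?_⟩
    obtain ⟨g, g1, rfl, rfl⟩ := h0.exists_su h1 (by omega)
    exact ⟨g, g1, h2⟩
  have key : ∀ T : Module.End F (Fin n → F), T ≠ 1 →
      (∀ U, H99.Ort (hermForm n F q) U U → H99.TInv T U → U ≤ H99.V0 T) →
      ((Odd r ∧ T ^ r = 1) ∨ Module.finrank F (H99.V1 T) ≤ 1) → ¬ ∃ U W, H99.PP (hermForm n F q) U W ∧
        ((U.map T = U ∧ W.map T = W) ∨ (U.map T = W ∧ W.map T = U)) := by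
    rintro T t1 t2 t3 ⟨U, W, h1, h2 | h2⟩
    · exact t1 (h1.eq_one (H99.tInv_iff_map.2 h2.1.le) (H99.tInv_iff_map.2 h2.2.le) t2)
    rcases t3 with t3 | t3
    · exact t1 (h1.eq_one (H99.tInv_of_swap t3.1 t3.2 h2.1 h2.2)
        (H99.tInv_of_swap t3.1 t3.2 h2.2 h2.1) t2)
    · have := h1.swap_le hf h2.1
      have := H99.finrank_V0_add_V1 T
      rw [H99.finrank_fun'] at this
      omega
  simp only [and_imp]
  by_cases hrp : r = p
  · subst hrp
    refine iff_of_false (fun h => ?_) fun h => ?_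
    · rw [H99.herm_forall_cop (H99.p_not_dvd_succ (F := F)) _
        fun T c hc => by simp only [H99.map_smul' hc]; exact id] at h
      obtain ⟨T, t1, t2, t3, t4, t5⟩ := H99.exists_herm_tv (F := F) (q := q) (n := n) (p := r)
        (by omega)
      exact key T t3 t5 (Or.inr t4) (h T t1 t2 t3)
    · obtain ⟨rfl, h, -⟩ := h
      exact Nat.not_even_iff_odd.2 h (even_iff_two_dvd.2 (H99.p_dvd_q (F := F)))
  have hN : (r : F) ≠ 0 := H99.cast_ne_zero_of_ne hrp
  by_cases hr2 : r = 2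
  · subst hr2
    have h2 : (2 : F) ≠ 0 := by simpa using hN
    simp only [Nat.odd_iff.2 (H99.q_odd (q := q) h2), true_and]
    refine ⟨fun h => not_lt.1 fun hc => ?_, fun h T h1 hd ⟨z, hz⟩ _ => ?_⟩
    · obtain ⟨w, S, w0, s1, s2, s3, s4, s5, s6⟩ := H99.exists_herm_refl (q := q) h2 (by omega) hc
      have s7 := H99.ne_one_of_V0 (T := S) (by omega)
      have := H99.finrank_V0_add_V1 S
      rw [H99.finrank_fun'] at this
      refine key S s7 s6 (Or.inr (by omega)) ?_
      simpa only [H99.map_smul' w0] using h _ s2 s3 ⟨w ^ 2, by rw [smul_pow, s4]⟩ fun z e =>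
        H99.ne_smul_of_ti hf (by omega) s7 s6 (w⁻¹ * z) (by rw [mul_smul, ← e]; simp [w0])
    · obtain ⟨w, S, w0, rfl, s1, hS⟩ := H99.herm_two_cases hf h2 h1 hz
      simp only [H99.map_smul' w0]
      have hi := H99.inj_of_pow_eq_one two_pos s1
      rcases hS with ⟨s2, s3⟩ | ⟨s2, s3⟩
      · have a := H99.herm_two_even h2 s1 hd s2 (by rwa [hn'])
        have := H99.finrank_V0_add_V1 S
        rw [H99.finrank_fun'] at this
        obtain ⟨A, A', a1, a2, a3⟩ := H99.herm_exists_pp hf (s3.nd_V0 hf s1 hN)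
          (by rw [Nat.even_iff] at a ⊢; omega)
        obtain ⟨B, B', b1, b2, b3⟩ := H99.herm_exists_pp hf (s3.nd_V1 hf s1 hN) a
        have o := s3.ort_V0_V1 hf
        have c1 := le_sup_left.trans a3.le
        have c2 := le_sup_right.trans a3.le
        have c3 := le_sup_left.trans b3.le
        have c4 := le_sup_right.trans b3.le
        exact ⟨A ⊔ B, A' ⊔ B', H99.pp_of_sup hf (a1.sup_self hf b1 (o.mono c1 c3))
          (a2.sup_self hf b2 (o.mono c2 c4)) (by
            rw [sup_sup_sup_comm, a3, b3, H99.V0_sup_V1 s1 hN]),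
          Or.inl ⟨(H99.tInv_sup_two s1 h2 c1 c3).1.map_eq hi,
            (H99.tInv_sup_two s1 h2 c2 c4).1.map_eq hi⟩⟩
      · obtain ⟨a, b, -⟩ := H99.anti_facts hf h2 s3 s1
        exact ⟨_, _, H99.pp_of_sup hf a b (H99.V0_sup_V1 s1 hN),
          Or.inl ⟨(H99.tInv_V0 S).map_eq hi, (H99.tInv_V1 S).map_eq hi⟩⟩
  refine iff_of_false (fun h => ?_) fun h => hr2 h.1
  have ho := hr.odd_of_ne_two hr2
  by_cases h1 : r ∣ q + 1
  · obtain ⟨S, s1, s2, s3, s4, s5⟩ := H99.exists_herm_split (F := F) (n := n) h1 (t := 1)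
      (by have := hr.two_le; omega) (by omega)
    have s6 := H99.ne_one_of_V1 (T := S) (by omega)
    exact key S s6 s5 (Or.inl ⟨ho, s3⟩) (h S s1 s2 ⟨1, by simpa⟩
      (H99.ne_smul_of_ti hf (by omega) s6 s5))
  rw [H99.herm_forall_cop h1 _ fun T c hc => by simp only [H99.map_smul' hc]; exact id] at h
  obtain ⟨h2, h3⟩ := H99.ord_of_dvd_pp hN hr2 (h0.dvd_card (H99.ws_herm hf H10.sig_ne_refl) hN
    (d := m) (by omega) (hΩ.trans (H99.relIndex_dvd_card _ _
      (fun g P => (P.1.map (Matrix.toLin' g.1), P.2.map (Matrix.toLin' g.1))) (by simp)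
      (by simp [Matrix.toLin'_mul, Submodule.map_comp]) (D 0, D 1) _ (fun P => ⟨fun h =>
        (h0.exists_su h (by omega)).imp fun g ⟨g1, g2⟩ => ⟨g1, Prod.ext g2.1 g2.2⟩,
        fun ⟨g, g1, e⟩ => e ▸ h0.map hf (H99.mem_SUG'.1 g1).1⟩)
      fun g _ e => H99.mem_stab_two.2 (Or.inl (Prod.ext_iff.1 e))))) (by omega)
  · have h4 := H99.ord_neg hr2 (H99.not_dvd_q hN) (q := q) rfl rfl
    have h5 := H99.ordF_herm (F := F) (q := q) (r := r) rfl rfl
    rw [if_neg (by omega), if_pos h2] at h4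
    rw [if_pos (Nat.even_iff.2 (by omega))] at h5
    obtain ⟨T, t1, t2, t3⟩ := H99.exists_herm_V0 (n := n) hN h4 (by omega)
      (n - orderOf (q : ZMod r) / 2) 1 (by omega)
    have := H99.finrank_V0_add_V1 T
    rw [H99.finrank_fun'] at this
    have t4 := H99.ne_one_of_V0 (T := T) (by omega)
    exact key T t4 (fun U => t1.ti_le_V0 hf hN t2 (by omega)) (Or.inl ⟨ho, t2⟩) (h T t1 t2 t4)

end Cfsg.Agent.S5984
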