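import Cfsg.Statements.S5987
import Cfsg.Agent.H99.FmO5

set_option autoImplicit false
open scoped MatrixGroups
open Cfsg

namespace Cfsg.Agent.S5987

/-- Elements of prime order of PΩ⁻_n(q) with no fixed totally singular `m`-space. Here `T = PΩ⁻_n(F)`, `n = 2d ≥ 8`, realised through `Ω⁻_n(q)`, the commutator subgroup of the isometry group of `Q = Σ_{i<d−1} xᵢyᵢ + z₁² + a z₁z₂ + b z₂²` with `z₁² + a z₁z₂ + b z₂²` anisotropic, over the field `F` with `q` elements; an element of `T` of prime order `r` is an element `x` of `Ω⁻_n(q)` with `x^r` scalar and `x` not scalar. Let `1 ≤ m ≤ d − 1` and let `r` be a prime dividing the number of totally singular `m`-spaces (subspaces of dimension `m` on which `Q` vanishes); for `r ≠ p` let `i` be the multiplicative order of `q` modulo `r`, `c = i` for `i` even and `c = 2i` for `i` odd, and write `k = n mod c`, `ℓ = m mod i`, `n' = ⌊n/i⌋`,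 `m' = ⌊m/i⌋`, `t = (r−1)/i`. Then every element of `T` of order `r` fixes some totally singular `m`-space if and only if one of: (i) `r = 2 ≠ p` and (`n ≡ 0 (mod 4)`, or `m` is even, or `q ≢ 7 (mod 8)`); (ii) `r ≠ p` odd, `i` odd, `i ≤ m` and (`k = 0` or `k > 2ℓ`); (iii) `r ≠ p` odd, `i` even, `i ≤ m`, `n' − 2m' ≥ t`, and one of: (a) `i ≥ 2ℓ`, `k = 0`, `n/i` even and `n' − 2m' > t` (all four); (b) `k ≥ 2ℓ` and `n'` odd; (c) `k > 2ℓ` and `n'` even. -/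
theorem result {F : Type*} [Field F] [Fintype F] {p : ℕ} [Fact p.Prime] [CharP F p] {q : ℕ} (hq : Fintype.card F = q)
    (d m : ℕ) (hd : 4 ≤ d) (hm : 1 ≤ m) (hmd : m + 1 ≤ d) (a b : F) (hab : ∀ x y : F, x ^ 2 + a * x * y + b * y ^ 2 = 0 → x = 0 ∧ y = 0)
    (r : ℕ) [Fact r.Prime]
    (hrΩ : r ∣ Nat.card {W : Submodule F ((Fin (d - 1) ⊕ Fin (d - 1)) ⊕ Fin 2 → F) // Module.finrank F ↥W = m ∧ Cfsg.Geo.IsTotallySingularQuad (Cfsg.quadFormMinus (d - 1) F a b) W})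
    (i c : ℕ) (hi : i = orderOf (q : ZMod r)) (hc : c = if Even i then i else 2 * i) :
    (∀ x : GL ((Fin (d - 1) ⊕ Fin (d - 1)) ⊕ Fin 2) F, x ∈ Cfsg.Geo.omegaGL (Cfsg.quadFormMinus (d - 1) F a b) →
      (∃ z : F, ((x ^ r : GL ((Fin (d - 1) ⊕ Fin (d - 1)) ⊕ Fin 2) F) : Matrix ((Fin (d - 1) ⊕ Fin (d - 1)) ⊕ Fin 2) ((Fin (d - 1) ⊕ Fin (d - 1)) ⊕ Fin 2) F) = z • (1 : Matrix ((Fin (d - 1) ⊕ Fin (d - 1)) ⊕ Fin 2) ((Fin (d - 1) ⊕ Fin (d - 1)) ⊕ Fin 2) F)) →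
      (∀ z : F, (x : Matrix ((Fin (d - 1) ⊕ Fin (d - 1)) ⊕ Fin 2) ((Fin (d - 1) ⊕ Fin (d - 1)) ⊕ Fin 2) F) ≠ z • (1 : Matrix ((Fin (d - 1) ⊕ Fin (d - 1)) ⊕ Fin 2) ((Fin (d - 1) ⊕ Fin (d - 1)) ⊕ Fin 2) F)) →
      ∃ W : Submodule F ((Fin (d - 1) ⊕ Fin (d - 1)) ⊕ Fin 2 → F), (Module.finrank F ↥W = m ∧ Cfsg.Geo.IsTotallySingularQuad (Cfsg.quadFormMinus (d - 1) F a b) W) ∧ W.map (Matrix.toLin' (x : Matrix ((Fin (d - 1) ⊕ Fin (d - 1)) ⊕ Fin 2) ((Fin (d - 1) ⊕ Fin (d - 1)) ⊕ Fin 2) F)) ≤ W) ↔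
    ((r = 2 ∧ p ≠ 2 ∧ (Even d ∨ Even m ∨ q % 8 ≠ 7)) ∨
     (r ≠ p ∧ 2 < r ∧ Odd i ∧ i ≤ m ∧ ((2 * d) % c = 0 ∨ 2 * (m % i) < (2 * d) % c)) ∨
     (r ≠ p ∧ 2 < r ∧ Even i ∧ i ≤ m ∧ (r - 1) / i + 2 * (m / i) ≤ (2 * d) / i ∧
       ((2 * (m % i) ≤ i ∧ (2 * d) % c = 0 ∧ Even ((2 * d) / i) ∧ (r - 1) / i + 2 * (m / i) < (2 * d) / i) ∨
        (2 * (m % i) ≤ (2 * d) % c ∧ Odd ((2 * d) / i)) ∨
        (2 * (m % i) < (2 * d) % c ∧ Even ((2 * d) / i))))) := by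
  subst hq
  replace hi : H99.ordF F r = i := hi.symm
  have hQ := H99.nq_minus (d - 1) hab
  have hP := H99.not_pl_minus (d - 1) hab
  have hr := (Fact.out : r.Prime)
  rw [← H67.coe_QMinus] at hrΩ ⊢
  have hn : Fintype.card ((Fin (d - 1) ⊕ Fin (d - 1)) ⊕ Fin 2) = 2 * d := by simp; omega
  haveI : Nonempty ((Fin (d - 1) ⊕ Fin (d - 1)) ⊕ Fin 2) := ⟨.inr 0⟩
  have hrp : r ≠ p := by
    rintro rfl
    exact H99.not_dvd_ts_minus (by omega) hab hrΩ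
  refine (H99.om_forall_iff hQ r fun T => ∃ W : Submodule F ((Fin (d - 1) ⊕ Fin (d - 1)) ⊕ Fin 2 → F),
    (Module.finrank F W = m ∧ H99.Ts (H67.QMinus F (d - 1) a b) W) ∧ W.map T ≤ W).trans ?_
  simp only [← H99.tInv_iff_map, and_assoc]
  by_cases hr2 : r = 2
  · subst hr2
    have h2 : (2 : F) ≠ 0 := mt H99.two_eq_zero_iff.1 hrp.symm
    have h5 := H99.card_odd h2
    have h8 := hQ.om_sq_neg_iff (by omega) h2 hn
    simp only [hP, false_iff, Nat.even_iff] at h8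
    simp only [hrp.symm, lt_irrefl, ne_eq, not_false_eq_true, false_and, and_false, or_false,
      true_and, Nat.even_iff]
    refine ⟨fun h => by_contra fun hc => ?_, fun h T t1 ⟨z, hz⟩ t3 => ?_⟩
    · have h3 := mt (H99.isSquare_neg_one_iff h2).1 (by omega)
      obtain ⟨T, t1, t2⟩ := h8.2 (by omega)
      obtain ⟨W, w1, -, w3⟩ := h T t1 ⟨_, t2⟩ (H99.ne_smul_of_neg h3 t2)
      have := (H99.homog_of_neg h3 t2 W w3 le_top).1
      omega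
    rcases t1.oi.iso.sq_cases hQ.sq hz with t2 | t2
    · obtain ⟨k, hk⟩ := t1.even_V1 hQ (by omega)
      have h3 := H99.V1_pos (T := T) (by simpa using t3 1)
      have h3' := H99.V0_pos t2 (t3 _)
      obtain ⟨n0, n1, o, h4, e⟩ := t1.oi.inv_nd hQ h2 t2
      by_cases h6 : H99.Pl (H67.QMinus F (d - 1) a b) (H99.V1 T)
      · obtain ⟨W, w1, w2⟩ := t1.oi.inv_ts hQ h2 t2 (a := min m (d - k - 1))
          (b := m - min m (d - k - 1)) (Or.inl (by omega)) (by simp only [h6, and_true]; omega)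
        exact ⟨W, by omega, w2⟩
      · have h7 : H99.Pl (H67.QMinus F (d - 1) a b) (H99.V0 T) := by_contra fun h7 =>
          hP (e ▸ (hQ.pl_sup_iff n0 n1 o ⟨d - k, by omega⟩ ⟨k, hk⟩).2 (iff_of_false h7 h6))
        obtain ⟨W, w1, w2⟩ := t1.oi.inv_ts hQ h2 t2 (a := min m (d - k)) (b := m - min m (d - k))
          (by simp only [h7, and_true]; omega) (Or.inl (by omega))
        exact ⟨W, by omega, w2⟩
    · have h6 := h8.1 ⟨T, t1, t2⟩
      obtain ⟨W, -, w1, w2, w3⟩ := t1.oi.iso.ti_neg_nonsq (p := p) hQ.sq h2 t2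
        (mt (H99.isSquare_neg_one_iff h2).1 (by omega))
        (H99.nd_top hQ.sq) (H99.TInv.top T) (j := m / 2) (by simp; omega)
      exact ⟨W, by omega, w2.ts h2, w1⟩
  have hr3 : 2 < r := lt_of_le_of_ne hr.two_le (Ne.symm hr2)
  have hN : (r : F) ≠ 0 := H99.cast_ne_zero_of_ne hrp
  rw [H99.om_forall_odd hQ (by omega) (hr.odd_of_ne_two hr2) _
    fun T ⟨W, h1, h2, h3⟩ => ⟨W, h1, h2, h3.neg⟩,
    hQ.ts_iff' hN hr2 (hi ▸ hc) hn (iff_false_intro hP) (by omega) hrΩ, hi]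
  simp only [hr3, hr2, hrp, ne_eq, not_false_eq_true, false_and, false_or, true_and]
  rcases H99.bilin_c_cases hc with ⟨e, rfl⟩ | ⟨e, rfl⟩
  · simp only [H99.tau_even e, e, Nat.not_odd_iff_even.2 e, false_iff, true_imp_iff, false_or,
      false_and, true_and]
    simp only [Nat.even_iff, Nat.odd_iff]
    omega
  · simp only [H99.tau_odd e, e, Nat.not_even_iff_odd.2 e, false_iff, false_imp_iff]
    simp
    omega

end Cfsg.Agent.S5987
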