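import Cfsg.Statements.S5988
import Cfsg.Agent.H99.FmO5

set_option autoImplicit false
open scoped MatrixGroups
open Cfsg

namespace Cfsg.Agent.S5988

/-- Elements of prime order of PΩ⁺_n(q) with no fixed elliptic `m`-space. Here `T = PΩ⁺_n(F)`, `n = 2d ≥ 8`, realised through `Ω⁺_n(q)`, the commutator subgroup of the isometry group of `Q = Σ xᵢyᵢ` over the field `F` with `q` elements; an element of `T` of prime order `r` is an element `x` of `Ω⁺_n(q)` with `x^r` scalar and `x` not scalar; a nondegenerate `m`-space (even `m`) is a subspace on which the polar form of `Q` is nondegenerate; it is hyperbolic if it contains an `m/2`-dimensional subspace on which `Q` vanishes, elliptic otherwise. Let `m` be even with `2 ≤ m < n/2` and let `r` be a prime dividing the number of elliptic `m`-spaces; for `r ≠ p` let `i` be the multiplicative order of `q` modulo `r`, `c = i` for `i` even and `c = 2i` for `i` odd, and write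 `k = n mod c`, `ℓ = m mod i`, `ℓ' = m mod c`, `n' = ⌊n/i⌋`, `m' = ⌊m/i⌋`, `t = (r−1)/i`. Then every element of `T` of order `r` fixes some elliptic `m`-space if and only if one of: (i) `r = 2 ≠ p` and either `n ≡ 0 (mod 4)`, `q ≡ 3 (mod 4)` and `m ≡ 2 (mod 4)`, or `n ≡ 2 (mod 4)` and `q ≢ 1 (mod 8)`; (ii) `r ≠ p` odd, `i` odd, `c ≤ m` and `k > ℓ' > 0`; (iii) `r ≠ p` odd, `i` even, and either `k = 0` and (`n/i` odd, or `ℓ' = 0` and `m/i` odd), or `i ≤ m` and (`k > ℓ' > 0`, or `k = ℓ' > 0` and `(n + m − 2k)/i` odd, or `k > ℓ' = 0` and `m/i` odd). (For `r = p` there is always an element of order `p` fixing no elliptic `m`-space.) -/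
theorem result {F : Type*} [Field F] [Fintype F] {p : ℕ} [Fact p.Prime] [CharP F p] {q : ℕ} (hq : Fintype.card F = q)
    (d m : ℕ) (hd : 4 ≤ d) (hm : 2 ≤ m) (hme : Even m) (hmd : m < d)
    (r : ℕ) [Fact r.Prime]
    (hrΩ : r ∣ Nat.card {W : Submodule F (Fin d ⊕ Fin d → F) // Module.finrank F ↥W = m ∧ Cfsg.Geo.IsNondegenerateOn (QuadraticMap.polar (Cfsg.quadFormPlus d F)) W ∧ ¬ Cfsg.Geo.IsPlusTypeOn (Cfsg.quadFormPlus d F) W})
    (i c : ℕ) (hi : i = orderOf (q : ZMod r)) (hc : c = if Even i then i else 2 * i) :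
    (∀ x : GL (Fin d ⊕ Fin d) F, x ∈ Cfsg.Geo.omegaGL (Cfsg.quadFormPlus d F) →
      (∃ z : F, ((x ^ r : GL (Fin d ⊕ Fin d) F) : Matrix (Fin d ⊕ Fin d) (Fin d ⊕ Fin d) F) = z • (1 : Matrix (Fin d ⊕ Fin d) (Fin d ⊕ Fin d) F)) →
      (∀ z : F, (x : Matrix (Fin d ⊕ Fin d) (Fin d ⊕ Fin d) F) ≠ z • (1 : Matrix (Fin d ⊕ Fin d) (Fin d ⊕ Fin d) F)) →
      ∃ W : Submodule F (Fin d ⊕ Fin d → F), (Module.finrank F ↥W = m ∧ Cfsg.Geo.IsNondegenerateOn (QuadraticMap.polar (Cfsg.quadFormPlus d F)) W ∧ ¬ Cfsg.Geo.IsPlusTypeOn (Cfsg.quadFormPlus d F) W) ∧ W.map (Matrix.toLin' (x : Matrix (Fin d ⊕ Fin d) (Fin d ⊕ Fin d) F)) ≤ W) ↔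
    ((r = 2 ∧ p ≠ 2 ∧ ((Even d ∧ q % 4 = 3 ∧ m % 4 = 2) ∨ (Odd d ∧ q % 8 ≠ 1))) ∨
     (r ≠ p ∧ 2 < r ∧ Odd i ∧ c ≤ m ∧ 0 < m % c ∧ m % c < (2 * d) % c) ∨
     (r ≠ p ∧ 2 < r ∧ Even i ∧
       (((2 * d) % c = 0 ∧ (Odd ((2 * d) / i) ∨ (m % c = 0 ∧ Odd (m / i)))) ∨
        (i ≤ m ∧ ((0 < m % c ∧ m % c < (2 * d) % c) ∨
                  (0 < m % c ∧ m % c = (2 * d) % c ∧ Odd ((2 * d + m - 2 * ((2 * d) % c)) / i)) ∨
                  (m % c = 0 ∧ 0 < (2 * d) % c ∧ Odd (m / i))))))) := by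
  subst hq
  replace hi : H99.ordF F r = i := hi.symm
  have hQ := H99.nq_plus (F := F) d
  have hP := H99.pl_plus (F := F) d
  have hr' := (Fact.out : r.Prime)
  rw [← H67.coe_QPlus] at hrΩ ⊢
  have hn : Fintype.card (Fin d ⊕ Fin d) = 2 * d := by simp; omega
  haveI : Nonempty (Fin d ⊕ Fin d) := ⟨.inl ⟨0, by omega⟩⟩
  simp only [← H99.nd_iff_nondegOn hQ.sq] at hrΩ ⊢
  refine (H99.om_forall_iff hQ r fun T => ∃ W : Submodule F (Fin d ⊕ Fin d → F),
    (Module.finrank F W = m ∧ H99.Nd (QuadraticMap.polar (H67.QPlus F d)) W ∧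
      ¬ H99.Pl (H67.QPlus F d) W) ∧ W.map T ≤ W).trans ?_
  simp only [← H99.tInv_iff_map]
  have hm2 := Nat.even_iff.1 hme
  by_cases hrp : r = p
  · subst hrp
    refine iff_of_false (fun h => ?_) (by simp; omega)
    obtain ⟨T, t1, t2, t3, -, -, t4⟩ := hQ.exists_siegel (p := r) (by omega) (k := d / 2)
      (by omega) (by simp only [hP, and_true]; omega)
    obtain ⟨W, ⟨w1, w2, w3⟩, w4⟩ := h T t1 ⟨1, by simpa using t2⟩ t3
    obtain ⟨a, e, π, a1, a2, a3, a4⟩ := t4 W w2 w4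
    refine w3 ((a2 ⟨e / 2, by omega⟩).2 ?_)
    rcases a4 with a4 | a4
    exacts [a3 (by omega), a4.2.2 hP]
  by_cases hr2 : r = 2
  · subst hr2
    have h2 : (2 : F) ≠ 0 := mt H99.two_eq_zero_iff.1 (Ne.symm hrp)
    simp only [Ne.symm hrp, lt_irrefl, ne_eq, not_false_eq_true, false_and, and_false, or_false,
      true_and, and_assoc, Nat.even_iff, Nat.odd_iff]
    have h5 := H99.card_odd h2
    have h8 := hQ.om_sq_neg_iff (by omega) h2 hn
    simp only [hP, true_iff, Nat.even_iff] at h8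
    refine ⟨fun h => by_contra fun hc => ?_, fun h T t1 ⟨z, hz⟩ t3 => ?_⟩
    · obtain ⟨T, t1, t2⟩ := h8.2 (by omega)
      obtain ⟨W, w1, w2, w3, w4⟩ := h T t1 ⟨_, t2⟩ fun z e => by
        obtain ⟨v, -, hv⟩ := (H99.nd_top hQ.sq).exists_Q_ne (by simp; omega)
        have := t1.oi.polar_sq_neg h2 t2 v
        have h3 := t1.oi v
        simp only [e, LinearMap.smul_apply, Module.End.one_apply, QuadraticMap.polar_smul_right,
          H99.polar_self', smul_eq_mul, mul_eq_zero, h2, hv, or_false] at this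
        simp [e, this, hv.symm] at h3
      obtain ⟨a, a1, a2⟩ := t1.oi.pl_sq_neg hQ h2 t2 w2 w4
      exact w3 (a2.2 (by rw [Nat.even_iff]; omega))
    rcases t1.oi.iso.sq_cases hQ.sq hz with t2 | t2
    · obtain ⟨W, w1, w2, w3, w4⟩ := t1.oi.inv_type hQ h2 t2 (t1.even_V1 hQ (by omega))
        (H99.V0_pos t2 (t3 _)) (H99.V1_pos (by simpa using t3 1)) hme hm (by omega) False
      exact ⟨W, w1, w2, w3.1, w4⟩
    · have h6 := h8.1 ⟨T, t1, t2⟩
      obtain ⟨W, w1, w2, w3, w4⟩ := t1.oi.exists_sq_neg hQ h2 t2 (j := m / 2) (by omega)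
      exact ⟨W, by omega, w2, mt w4.1 (by rw [Nat.even_iff]; omega), w3⟩
  have hr3 : 2 < r := lt_of_le_of_ne hr'.two_le (Ne.symm hr2)
  have hN : (r : F) ≠ 0 := H99.cast_ne_zero_of_ne hrp
  rw [H99.om_forall_odd hQ (by omega) (hr'.odd_of_ne_two hr2) _
    fun T ⟨W, h1, h3⟩ => ⟨W, h1, h3.neg⟩,
    hQ.nd_even_iff' hN hr2 (hi ▸ hc) hn (iff_true_intro hP) _ (by omega) (by omega) hme False
      (by simp) hrΩ, hi]
  simp only [hr3, hr2, hrp, ne_eq, not_false_eq_true, false_and, false_or, true_and, H99.NDc]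
  have h3 : m % c % 2 = 0 := by rw [Nat.mod_mod_of_dvd _ (H99.even_of_bilin_c hc).two_dvd, hm2]
  have h0 := hi ▸ H99.ordF_pos hN
  rcases H99.bilin_c_cases hc with ⟨e, rfl⟩ | ⟨e, rfl⟩
  · simp only [H99.tau_even e, e, Nat.not_odd_iff_even.2 e, true_iff, false_iff, false_or,
      false_and, true_and]
    simp only [Nat.even_iff, Nat.odd_iff]
    have := H99.div_add_div' (n := 2 * d) (m := m) h0
    have : m % c = 0 → c ≤ m := fun e => Nat.le_of_dvd (by omega) (Nat.dvd_of_mod_eq_zero e)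
    omega
  · simp only [H99.tau_odd e, e, Nat.not_even_iff_odd.2 e, true_iff, false_and, or_false]
    simp

end Cfsg.Agent.S5988
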