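import Cfsg.Statements.S5989
import Cfsg.Agent.H99.FmO6

set_option autoImplicit false
open scoped MatrixGroups
open Cfsg

namespace Cfsg.Agent.S5989

/-- Elements of prime order of PΩ⁺_n(q), q odd, with no fixed nondegenerate `m`-space of odd dimension. Here `T = PΩ⁺_n(F)`, `n = 2d ≥ 8`, realised through `Ω⁺_n(q)`, the commutator subgroup of the isometry group of `Q = Σ xᵢyᵢ` over the field `F` with `q` elements; an element of `T` of prime order `r` is an element `x` of `Ω⁺_n(q)` with `x^r` scalar and `x` not scalar; `q` and `m` are odd, `1 ≤ m < n/2`. The nondegenerate `m`-spaces (subspaces on which the polar form is nondegenerate) fall into two isometry classes, each an orbit of `T`, and the two actions are equivalent; fix one such space `W₀` and let Ω be the set of nondegenerate `m`-spaces isometric to `W₀` (some linear isomorphism preserves `Q`). Let `r` be a prime dividing the size of Ω; for `r ≠ p` let `i` be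 the multiplicative order of `q` modulo `r`, `c = i` for `i` even and `c = 2i` for `i` odd, and write `k = n mod c`, `ℓ = m mod i`, `ℓ' = m mod c`, `n' = ⌊n/i⌋`, `m' = ⌊m/i⌋`, `t = (r−1)/i`. Then every element of `T` of order `r` fixes a member of Ω if and only if one of: (i) `r = 2`, `n ≡ 2 (mod 4)` and `q ≢ 1 (mod 8)`; (ii) `r ≠ p` odd, `i` odd, `c ≤ m` and `k > ℓ' > 0`; (iii) `r ≠ p` odd, `i` even, and either `k = 0` and `n/i` odd, or `i ≤ m` and `k > ℓ' > 0`. (For `r = p` there is always an element of order `p` fixing no member of Ω.) -/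
theorem result {F : Type*} [Field F] [Fintype F] {p : ℕ} [Fact p.Prime] [CharP F p] {q : ℕ} (hq : Fintype.card F = q)
    (hodd : Odd q) (d m : ℕ) (hd : 4 ≤ d) (hm : Odd m) (hmd : m < d)
    (W₀ : Submodule F (Fin d ⊕ Fin d → F)) (hW₀ : Module.finrank F ↥W₀ = m ∧ Cfsg.Geo.IsNondegenerateOn (QuadraticMap.polar (Cfsg.quadFormPlus d F)) W₀)
    (r : ℕ) [Fact r.Prime]
    (hrΩ : r ∣ Nat.card {W : Submodule F (Fin d ⊕ Fin d → F) // Module.finrank F ↥W = m ∧ Cfsg.Geo.IsNondegenerateOn (QuadraticMap.polar (Cfsg.quadFormPlus d F)) W ∧ Cfsg.Geo.AreIsometricFor (Cfsg.quadFormPlus d F) W W₀})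
    (i c : ℕ) (hi : i = orderOf (q : ZMod r)) (hc : c = if Even i then i else 2 * i) :
    (∀ x : GL (Fin d ⊕ Fin d) F, x ∈ Cfsg.Geo.omegaGL (Cfsg.quadFormPlus d F) →
      (∃ z : F, ((x ^ r : GL (Fin d ⊕ Fin d) F) : Matrix (Fin d ⊕ Fin d) (Fin d ⊕ Fin d) F) = z • (1 : Matrix (Fin d ⊕ Fin d) (Fin d ⊕ Fin d) F)) →
      (∀ z : F, (x : Matrix (Fin d ⊕ Fin d) (Fin d ⊕ Fin d) F) ≠ z • (1 : Matrix (Fin d ⊕ Fin d) (Fin d ⊕ Fin d) F)) →
      ∃ W : Submodule F (Fin d ⊕ Fin d → F), (Module.finrank F ↥W = m ∧ Cfsg.Geo.IsNondegenerateOn (QuadraticMap.polar (Cfsg.quadFormPlus d F)) W ∧ Cfsg.Geo.AreIsometricFor (Cfsg.quadFormPlus d F) W W₀) ∧ W.map (Matrix.toLin' (x : Matrix (Fin d ⊕ Fin d) (Fin d ⊕ Fin d) F)) ≤ W) ↔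
    ((r = 2 ∧ Odd d ∧ q % 8 ≠ 1) ∨
     (r ≠ p ∧ 2 < r ∧ Odd i ∧ c ≤ m ∧ 0 < m % c ∧ m % c < (2 * d) % c) ∨
     (r ≠ p ∧ 2 < r ∧ Even i ∧ (((2 * d) % c = 0 ∧ Odd ((2 * d) / i)) ∨ (i ≤ m ∧ 0 < m % c ∧ m % c < (2 * d) % c)))) := by
  subst hq
  replace hi : H99.ordF F r = i := hi.symm
  have hQ := H99.nq_plus (F := F) d
  have hP := iff_true_intro (H99.pl_plus (F := F) d)
  rw [← H67.coe_QPlus] at hW₀ hrΩ ⊢
  haveI : Nonempty (Fin d ⊕ Fin d) := ⟨.inl ⟨0, by omega⟩⟩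
  have hr' := (Fact.out : r.Prime)
  have h2 := H28.two_ne_zero_of_odd_card hodd
  have hn : Fintype.card (Fin d ⊕ Fin d) = 2 * d := by simp; omega
  simp only [← H99.nd_iff_nondegOn hQ.sq] at hW₀ hrΩ ⊢
  refine (H99.om_forall_iff hQ r fun T => ∃ W : Submodule F (Fin d ⊕ Fin d → F),
    (Module.finrank F W = m ∧ H99.Nd (QuadraticMap.polar (H67.QPlus F d)) W ∧
      Cfsg.Geo.AreIsometricFor (H67.QPlus F d) W W₀) ∧ W.map T ≤ W).trans ?_
  simp only [← H99.tInv_iff_map]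
  have hm2 := Nat.odd_iff.1 hm
  by_cases hr2 : r = 2
  · subst hr2
    have h5 := H99.card_odd h2
    rw [hQ.class_two_iff h2 hW₀.2 hW₀.1 hm (by omega), hQ.om_sq_neg_iff (by omega) h2 hn, hP]
    simp only [true_iff, false_iff, lt_irrefl, false_and, and_false, or_false, true_and,
      Nat.even_iff, Nat.odd_iff]
    omega
  rw [H99.om_forall_odd hQ (by omega) (hr'.odd_of_ne_two hr2) _
    fun T ⟨W, h1, h3⟩ => ⟨W, h1, h3.neg⟩]
  by_cases hrp : r = p
  · subst hrp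
    obtain ⟨T, t1, t2, t3, t4⟩ := hQ.der_class h2 r (by rw [hn]; simp) (by omega) hW₀.2
      (hW₀.1 ▸ hm)
    refine iff_of_false (fun h => ?_) (by simp [hr2])
    obtain ⟨W, ⟨-, w1, w2⟩, w3⟩ := h T t1 t2 t3
    exact t4 W w1 w3 w2
  have hr3 : 2 < r := lt_of_le_of_ne hr'.two_le (Ne.symm hr2)
  have hN : (r : F) ≠ 0 := H99.cast_ne_zero_of_ne hrp
  rw [hQ.nd_odd_iff' hN hr2 (hi ▸ hc) hn hP _ (by omega) hm (even_two_mul d) hW₀.1 hW₀.2
      (fun _ => Iff.rfl) hrΩ, hi]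
  simp only [hr3, hr2, hrp, ne_eq, not_false_eq_true, false_and, false_or, true_and]
  rcases H99.bilin_c_cases hc with ⟨e, rfl⟩ | ⟨e, rfl⟩
  · simp only [H99.tau_even e, e, Nat.not_odd_iff_even.2 e, true_iff, false_iff, false_or,
      false_and, true_and]
    simp only [Nat.even_iff, Nat.odd_iff]
    omega
  · simp only [H99.tau_odd e, e, Nat.not_even_iff_odd.2 e, true_iff, false_and, or_false]
    simp

end Cfsg.Agent.S5989
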