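import Cfsg.Statements.S5990
import Cfsg.Agent.H99.FmO6

set_option autoImplicit false
open scoped MatrixGroups
open Cfsg

namespace Cfsg.Agent.S5990

/-- Elements of prime order of PΩ⁻_n(q) with no fixed elliptic `m`-space. Here `T = PΩ⁻_n(F)`, `n = 2d ≥ 8`, realised through `Ω⁻_n(q)`, the commutator subgroup of the isometry group of `Q = Σ_{i<d−1} xᵢyᵢ + z₁² + a z₁z₂ + b z₂²` with `z₁² + a z₁z₂ + b z₂²` anisotropic, over the field `F` with `q` elements; an element of `T` of prime order `r` is an element `x` of `Ω⁻_n(q)` with `x^r` scalar and `x` not scalar; a nondegenerate `m`-space (even `m`) is a subspace on which the polar form of `Q` is nondegenerate; it is hyperbolic if it contains an `m/2`-dimensional subspace on which `Q` vanishes, elliptic otherwise. Let `m` be even with `2 ≤ m ≤ n − 2` (no restriction `m < n/2`: fixing an elliptic `m`-space is the same as fixing its hyperbolic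 orthogonal complement) and let `r` be a prime dividing the number of elliptic `m`-spaces, with `r = 2` or `r ≠ p`; for `r ≠ p` let `i` be the multiplicative order of `q` modulo `r`, `c = i` for `i` even and `c = 2i` for `i` odd, and write `k = n mod c`, `ℓ = m mod i`, `ℓ' = m mod c`, `n' = ⌊n/i⌋`, `m' = ⌊m/i⌋`, `t = (r−1)/i`. Then every element of `T` of order `r` fixes some elliptic `m`-space if and only if one of: (i) `r = p = 2` and (`n ≡ 0 (mod 4)` or `m ≡ 2 (mod 4)`); (ii) `r = 2 ≠ p` and (`n ≡ 0 (mod 4)`, or `q ≢ 7 (mod 8)`, or `m ≡ 2 (mod 4)`); (iii) `r ≠ p` odd, `i` odd, and `k = 0` or (`c ≤ m` and `k ≥ ℓ' > 0`); (iv) `r ≠ p` odd, `i` even, and either `k = 0` and (`n/i` even, or `ℓ' = 0` and `m/i` odd), or `k > 0`, `i ≤ m` and (`k > ℓ' > 0`, or `ℓ' = 0` and `m/i` odd, or `k = ℓ'` and `(n + m − 2k)/i` even). (Odd `r = p` is not covered by this statement.) -/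
theorem result {F : Type*} [Field F] [Fintype F] {p : ℕ} [Fact p.Prime] [CharP F p] {q : ℕ} (hq : Fintype.card F = q)
    (d m : ℕ) (hd : 4 ≤ d) (hm : 2 ≤ m) (hme : Even m) (hmn : m + 2 ≤ 2 * d) (a b : F) (hab : ∀ x y : F, x ^ 2 + a * x * y + b * y ^ 2 = 0 → x = 0 ∧ y = 0)
    (r : ℕ) [Fact r.Prime] (hr : r = 2 ∨ r ≠ p)
    (hrΩ : r ∣ Nat.card {W : Submodule F ((Fin (d - 1) ⊕ Fin (d - 1)) ⊕ Fin 2 → F) // Module.finrank F ↥W = m ∧ Cfsg.Geo.IsNondegenerateOn (QuadraticMap.polar (Cfsg.quadFormMinus (d - 1) F a b)) W ∧ ¬ Cfsg.Geo.IsPlusTypeOn (Cfsg.quadFormMinus (d - 1) F a b) W})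
    (i c : ℕ) (hi : i = orderOf (q : ZMod r)) (hc : c = if Even i then i else 2 * i) :
    (∀ x : GL ((Fin (d - 1) ⊕ Fin (d - 1)) ⊕ Fin 2) F, x ∈ Cfsg.Geo.omegaGL (Cfsg.quadFormMinus (d - 1) F a b) →
      (∃ z : F, ((x ^ r : GL ((Fin (d - 1) ⊕ Fin (d - 1)) ⊕ Fin 2) F) : Matrix ((Fin (d - 1) ⊕ Fin (d - 1)) ⊕ Fin 2) ((Fin (d - 1) ⊕ Fin (d - 1)) ⊕ Fin 2) F) = z • (1 : Matrix ((Fin (d - 1) ⊕ Fin (d - 1)) ⊕ Fin 2) ((Fin (d - 1) ⊕ Fin (d - 1)) ⊕ Fin 2) F)) →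
      (∀ z : F, (x : Matrix ((Fin (d - 1) ⊕ Fin (d - 1)) ⊕ Fin 2) ((Fin (d - 1) ⊕ Fin (d - 1)) ⊕ Fin 2) F) ≠ z • (1 : Matrix ((Fin (d - 1) ⊕ Fin (d - 1)) ⊕ Fin 2) ((Fin (d - 1) ⊕ Fin (d - 1)) ⊕ Fin 2) F)) →
      ∃ W : Submodule F ((Fin (d - 1) ⊕ Fin (d - 1)) ⊕ Fin 2 → F), (Module.finrank F ↥W = m ∧ Cfsg.Geo.IsNondegenerateOn (QuadraticMap.polar (Cfsg.quadFormMinus (d - 1) F a b)) W ∧ ¬ Cfsg.Geo.IsPlusTypeOn (Cfsg.quadFormMinus (d - 1) F a b) W) ∧ W.map (Matrix.toLin' (x : Matrix ((Fin (d - 1) ⊕ Fin (d - 1)) ⊕ Fin 2) ((Fin (d - 1) ⊕ Fin (d - 1)) ⊕ Fin 2) F)) ≤ W) ↔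
    ((r = 2 ∧ p = 2 ∧ (Even d ∨ m % 4 = 2)) ∨
     (r = 2 ∧ p ≠ 2 ∧ (Even d ∨ q % 8 ≠ 7 ∨ m % 4 = 2)) ∨
     (r ≠ p ∧ 2 < r ∧ Odd i ∧ ((2 * d) % c = 0 ∨ (c ≤ m ∧ 0 < m % c ∧ m % c ≤ (2 * d) % c))) ∨
     (r ≠ p ∧ 2 < r ∧ Even i ∧
       (((2 * d) % c = 0 ∧ (Even ((2 * d) / i) ∨ (m % c = 0 ∧ Odd (m / i)))) ∨
        (0 < (2 * d) % c ∧ i ≤ m ∧ ((0 < m % c ∧ m % c < (2 * d) % c) ∨ (m % c = 0 ∧ Odd (m / i)) ∨
                                    (m % c = (2 * d) % c ∧ Even ((2 * d + m - 2 * ((2 * d) % c)) / i))))))) := by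
  subst hq
  replace hi : H99.ordF F r = i := hi.symm
  have hr' := (Fact.out : r.Prime)
  have hQ := H99.nq_minus (d - 1) hab
  have hP := H99.not_pl_minus (d - 1) hab
  rw [← H67.coe_QMinus] at hrΩ ⊢
  haveI : Nonempty ((Fin (d - 1) ⊕ Fin (d - 1)) ⊕ Fin 2) := ⟨.inr 0⟩
  have hn : Fintype.card ((Fin (d - 1) ⊕ Fin (d - 1)) ⊕ Fin 2) = 2 * d := by simp; omega
  simp only [← H99.nd_iff_nondegOn hQ.sq] at hrΩ ⊢
  have hm2 := Nat.even_iff.1 hme
  refine (H99.om_forall_iff hQ r fun T => ∃ W : Submodule F ((Fin (d - 1) ⊕ Fin (d - 1)) ⊕ Fin 2 → F),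
    (Module.finrank F W = m ∧ H99.Nd (QuadraticMap.polar (H67.QMinus F (d - 1) a b)) W ∧
      ¬ H99.Pl (H67.QMinus F (d - 1) a b) W) ∧ W.map T ≤ W).trans ?_
  simp only [← H99.tInv_iff_map]
  by_cases hr2 : r = 2
  · subst hr2
    simp only [lt_irrefl, false_and, and_false, or_false, true_and, and_assoc, Nat.even_iff]
    by_cases hp : p = 2
    · have h2 : (2 : F) = 0 := H99.two_eq_zero_iff.2 hp
      simp only [hp, ne_eq, not_true, false_and, or_false, true_and]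
      refine ⟨fun h => by_contra fun hc => ?_, fun h T t1 ⟨z, hz⟩ _ => ?_⟩
      · obtain ⟨T, t1, t2, t3, -, -, t4⟩ := hQ.exists_siegel (p := p) (by omega) (k := d / 2)
          (by omega) (Or.inl (by omega))
        obtain ⟨W, w1, w2, w4, w3⟩ := h T t1 ⟨1, by simpa [hp] using t2⟩ t3
        obtain ⟨a, e, π, a1, a2, a3, a4⟩ := t4 W w2 w3
        exact w4 ((a2 ⟨e / 2, by omega⟩).2 (a3 (by omega)))
      · have t2 := t1.oi.iso.sq_eq_one hQ.sq h2 hz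
        by_cases h4 : m % 4 = 2
        · exact t1.oi.two_minus hQ h2 t2 hP (by omega) h4
        · obtain ⟨W, w1, w2, w3, w4⟩ := t1.oi.two_compl hQ h2 t2 (m := m) (by omega) (by omega) hm
          exact ⟨W, w1, w2, mt w3.1 hP, w4⟩
    have h2 : (2 : F) ≠ 0 := mt H99.two_eq_zero_iff.1 hp
    have h5 := H99.card_odd h2
    have h8 := hQ.om_sq_neg_iff (by omega) h2 hn
    simp only [hP, false_iff, Nat.even_iff] at h8
    simp only [hp, ne_eq, not_false_eq_true, false_and, false_or, true_and]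
    refine ⟨fun h => by_contra fun hc => ?_, fun h T t1 ⟨z, hz⟩ t3 => ?_⟩
    · obtain ⟨T, t1, t2⟩ := h8.2 (by omega)
      obtain ⟨W, w1, w2, w3, w4⟩ := h T t1 ⟨_, t2⟩ (t1.oi.ne_smul_sq_neg hQ h2 t2 (by omega))
      obtain ⟨a, a1, a2⟩ := t1.oi.pl_sq_neg hQ h2 t2 w2 w4
      exact w3 (a2.2 (by rw [Nat.even_iff]; omega))
    rcases t1.oi.iso.sq_cases hQ.sq hz with t2 | t2
    · obtain ⟨W, w1, w2, w3, w4⟩ := t1.oi.inv_type hQ h2 t2 (t1.even_V1 hQ (by omega))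
        (H99.V0_pos t2 (t3 _)) (H99.V1_pos (by simpa using t3 1)) hme hm (by omega) False
      exact ⟨W, w1, w2, w3.1, w4⟩
    · have h6 := h8.1 ⟨T, t1, t2⟩
      obtain ⟨W, w1, w2, w3, w4⟩ := t1.oi.exists_sq_neg hQ h2 t2 (j := m / 2) (by omega)
      exact ⟨W, by omega, w2, mt w4.1 (by rw [Nat.even_iff]; omega), w3⟩
  have hrp := hr.resolve_left hr2
  have hr3 : 2 < r := lt_of_le_of_ne hr'.two_le (Ne.symm hr2)
  have hN : (r : F) ≠ 0 := H99.cast_ne_zero_of_ne hrp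
  rw [H99.om_forall_odd hQ (by omega) (hr'.odd_of_ne_two hr2) _
    fun T ⟨W, h1, h3⟩ => ⟨W, h1, h3.neg⟩,
    hQ.nd_even_iff' hN hr2 (hi ▸ hc) hn (iff_false_intro hP) _ (by omega) (by omega) hme False
      (by simp) hrΩ, hi]
  simp only [hr3, hr2, hrp, ne_eq, not_false_eq_true, false_and, false_or, true_and, H99.NDc]
  have h3 : m % c % 2 = 0 := by rw [Nat.mod_mod_of_dvd _ (H99.even_of_bilin_c hc).two_dvd, hm2]
  have h0 := hi ▸ H99.ordF_pos hN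
  have h4 : m % c = 0 → c ≤ m := fun e => Nat.le_of_dvd (by omega) (Nat.dvd_of_mod_eq_zero e)
  rcases H99.bilin_c_cases hc with ⟨e, rfl⟩ | ⟨e, rfl⟩
  · simp only [H99.tau_even e, e, Nat.not_odd_iff_even.2 e, true_iff, false_iff, false_or,
      false_and, true_and]
    simp only [Nat.even_iff, Nat.odd_iff]
    have := H99.div_add_div' (n := 2 * d) (m := m) h0
    omega
  · simp only [H99.tau_odd e, e, Nat.not_even_iff_odd.2 e, true_iff, false_and, or_false]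
    simp [Nat.even_iff]
    omega

end Cfsg.Agent.S5990
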