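import Cfsg.Statements.S5993
import Cfsg.Agent.H99.FmO6

set_option autoImplicit false
open scoped MatrixGroups
open Cfsg

namespace Cfsg.Agent.S5993

/-- Elements of prime order of Ω_n(q), nq odd, with no fixed elliptic `m`-space. Here `T = Ω_n(F)`, `n = 2d+1 ≥ 7`, `q` odd, realised as the commutator subgroup of the isometry group of `Q = x₀² + Σ xᵢyᵢ` over the field `F` with `q` elements (trivial centre, so its elements of prime order `r` are used directly); a nondegenerate `m`-space (even `m`) is a subspace on which the polar form of `Q` is nondegenerate; it is hyperbolic if it contains an `m/2`-dimensional subspace on which `Q` vanishes, elliptic otherwise. Let `m` be even with `2 ≤ m ≤ n − 1` (no restriction `m < n/2`) and let `r` be a prime dividing the number of elliptic `m`-spaces; for `r ≠ p` let `i` be the multiplicative order of `q` modulo `r`, `c = i` for `i` even and `c = 2i` for `i` odd, and write `k = n mod c`, `ℓ'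 = m mod c`. Then every element of `T` of order `r` fixes some elliptic `m`-space if and only if `r = 2`, or `r ≠ p` is odd and one of: (i) `i` odd, `c ≤ m` and `k > ℓ' > 0`; (ii) `i` even, `i ≤ m`, `k > ℓ'`, and `m/i` odd whenever `ℓ' = 0`. (For `r = p` there is always an element of order `p` fixing no elliptic `m`-space.) -/
theorem result {F : Type*} [Field F] [Fintype F] {p : ℕ} [Fact p.Prime] [CharP F p] {q : ℕ} (hq : Fintype.card F = q) (hqodd : Odd q)
    (d m : ℕ) (hd : 3 ≤ d) (hm : 2 ≤ m) (hme : Even m) (hmn : m ≤ 2 * d)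
    (r : ℕ) [Fact r.Prime]
    (hrΩ : r ∣ Nat.card {W : Submodule F (Unit ⊕ (Fin d ⊕ Fin d) → F) // Module.finrank F ↥W = m ∧ Cfsg.Geo.IsNondegenerateOn (QuadraticMap.polar (Cfsg.quadFormOdd d F)) W ∧ ¬ Cfsg.Geo.IsPlusTypeOn (Cfsg.quadFormOdd d F) W})
    (i c : ℕ) (hi : i = orderOf (q : ZMod r)) (hc : c = if Even i then i else 2 * i) :
    (∀ x : GL (Unit ⊕ (Fin d ⊕ Fin d)) F, x ∈ Cfsg.Geo.omegaGL (Cfsg.quadFormOdd d F) → orderOf x = r →
      ∃ W : Submodule F (Unit ⊕ (Fin d ⊕ Fin d) → F), (Module.finrank F ↥W = m ∧ Cfsg.Geo.IsNondegenerateOn (QuadraticMap.polar (Cfsg.quadFormOdd d F)) W ∧ ¬ Cfsg.Geo.IsPlusTypeOn (Cfsg.quadFormOdd d F) W) ∧ W.map (Matrix.toLin' (x : Matrix (Unit ⊕ (Fin d ⊕ Fin d)) (Unit ⊕ (Fin d ⊕ Fin d)) F)) ≤ W) ↔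
    (r = 2 ∨
     (r ≠ p ∧ 2 < r ∧ Odd i ∧ c ≤ m ∧ 0 < m % c ∧ m % c < (2 * d + 1) % c) ∨
     (r ≠ p ∧ 2 < r ∧ Even i ∧ i ≤ m ∧ m % c < (2 * d + 1) % c ∧ (0 < m % c ∨ Odd (m / i)))) := by
  subst hq
  replace hi : H99.ordF F r = i := hi.symm
  have hr' := (Fact.out : r.Prime)
  have h2 := H28.two_ne_zero_of_odd_card hqodd
  have hQ := H99.nq_odd h2 d
  rw [← H67.coe_QOdd] at hrΩ ⊢
  have hn : Fintype.card (Unit ⊕ (Fin d ⊕ Fin d)) = 2 * d + 1 := by simp; omega
  simp only [← H99.nd_iff_nondegOn hQ.sq] at hrΩ ⊢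
  have hm2 := Nat.even_iff.1 hme
  refine (H99.om_forall_ord hQ r fun T => ∃ W : Submodule F (Unit ⊕ (Fin d ⊕ Fin d) → F),
    (Module.finrank F W = m ∧ H99.Nd (QuadraticMap.polar (H67.QOdd F d)) W ∧
      ¬ H99.Pl (H67.QOdd F d) W) ∧ W.map T ≤ W).trans ?_
  simp only [← H99.tInv_iff_map]
  by_cases hr2 : r = 2
  · subst hr2
    refine iff_of_true (fun T t1 t2 t3 => ?_) (Or.inl rfl)
    obtain ⟨k, hk⟩ := t1.even_V1 hQ (by omega)
    have h4 := (t1.oi.inv_nd hQ h2 t2).2.2.2.1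
    obtain ⟨W, w1, w2, w3, w4⟩ := t1.oi.inv_type hQ h2 t2 ⟨k, hk⟩ (by omega) (H99.V1_pos t3) hme hm
      (by omega) False
    exact ⟨W, ⟨w1, w2, by simpa using w3⟩, w4⟩
  rw [H99.om_forall_odd' hQ (by omega) (hr'.odd_of_ne_two hr2)]
  by_cases hrp : r = p
  · subst hrp
    refine iff_of_false (fun h => ?_) (by simp [hr2])
    obtain ⟨T, t1, t2, t3, t4⟩ := hQ.exists_der_jt h2 r {2 * (d % 2) + 1} (k := d / 2) (by omega)
      (by simp; omega) (by simp) (by simp; omega)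
    obtain ⟨W, ⟨w1, w2, w3⟩, w4⟩ := h T t1 t2 t3
    obtain ⟨β, b1, a, b2, b3⟩ := t4 W w2 w4
    rcases Multiset.le_singleton.1 b1 with rfl | rfl
    · exact w3 (b3 rfl)
    · simp at b2; omega
  have hr3 : 2 < r := lt_of_le_of_ne hr'.two_le (Ne.symm hr2)
  have hN : (r : F) ≠ 0 := H99.cast_ne_zero_of_ne hrp
  rw [hQ.nd_even_iff' hN hr2 (hi ▸ hc) hn (iff_false_intro (H99.not_pl_odd d)) _ (by omega)
    (by omega) hme False (by simp) hrΩ, hi]
  simp only [hr3, hr2, hrp, ne_eq, not_false_eq_true, false_and, false_or, true_and, H99.NDc]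
  have h3 : m % c % 2 = 0 := by rw [Nat.mod_mod_of_dvd _ (H99.even_of_bilin_c hc).two_dvd, hm2]
  have h4 : (2 * d + 1) % c % 2 = 1 := by
    rw [Nat.mod_mod_of_dvd _ (H99.even_of_bilin_c hc).two_dvd]; omega
  rcases H99.bilin_c_cases hc with ⟨e, rfl⟩ | ⟨e, rfl⟩
  · simp only [H99.tau_even e, e, Nat.not_odd_iff_even.2 e, true_iff, false_iff, false_or,
      false_and, true_and]
    simp only [Nat.even_iff, Nat.odd_iff]
    omega
  · simp only [H99.tau_odd e, e, Nat.not_even_iff_odd.2 e, true_iff, false_and, or_false]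
    simp
    omega

end Cfsg.Agent.S5993
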