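import Cfsg.Statements.S5995
import Cfsg.Agent.H99.FmO6

set_option autoImplicit false
open scoped MatrixGroups
open Cfsg

namespace Cfsg.Agent.S5995

/-- A necessary condition for every element of order p of Ω_n(q), nq odd, to fix a hyperbolic `m`-space. Here `T = Ω_n(F)`, `n = 2d+1 ≥ 7`, `q` odd, realised as the commutator subgroup of the isometry group of `Q = x₀² + Σ xᵢyᵢ` over the field `F` with `q` elements (trivial centre, so its elements of prime order `r` are used directly); a nondegenerate `m`-space (even `m`) is a subspace on which the polar form of `Q` is nondegenerate; it is hyperbolic if it contains an `m/2`-dimensional subspace on which `Q` vanishes, elliptic otherwise. Let `m` be even with `2 ≤ m ≤ n − 1` and suppose `p` divides the number of hyperbolic `m`-spaces. If every element of `T` of order `p` fixes some hyperbolic `m`-space, then `m ≡ 0 (mod 4)` and every partition of `n` into parts of size at most `p` in which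 every even part has even multiplicity contains (as a sub-multiset) a partition of `m` in which every even part has even multiplicity. -/
theorem result {F : Type*} [Field F] [Fintype F] {p : ℕ} [Fact p.Prime] [CharP F p] {q : ℕ} (hq : Fintype.card F = q) (hqodd : Odd q)
    (d m : ℕ) (hd : 3 ≤ d) (hm : 2 ≤ m) (hme : Even m) (hmn : m ≤ 2 * d)
    (hpΩ : p ∣ Nat.card {W : Submodule F (Unit ⊕ (Fin d ⊕ Fin d) → F) // Module.finrank F ↥W = m ∧ Cfsg.Geo.IsNondegenerateOn (QuadraticMap.polar (Cfsg.quadFormOdd d F)) W ∧ Cfsg.Geo.IsPlusTypeOn (Cfsg.quadFormOdd d F) W}) :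
    (∀ x : GL (Unit ⊕ (Fin d ⊕ Fin d)) F, x ∈ Cfsg.Geo.omegaGL (Cfsg.quadFormOdd d F) → orderOf x = p →
      ∃ W : Submodule F (Unit ⊕ (Fin d ⊕ Fin d) → F), (Module.finrank F ↥W = m ∧ Cfsg.Geo.IsNondegenerateOn (QuadraticMap.polar (Cfsg.quadFormOdd d F)) W ∧ Cfsg.Geo.IsPlusTypeOn (Cfsg.quadFormOdd d F) W) ∧ W.map (Matrix.toLin' (x : Matrix (Unit ⊕ (Fin d ⊕ Fin d)) (Unit ⊕ (Fin d ⊕ Fin d)) F)) ≤ W) →
    (m % 4 = 0 ∧ (∀ μ : Multiset ℕ, (∀ e ∈ μ, 0 < e ∧ e ≤ p) → (∀ e : ℕ, Even e → Even (μ.count e)) → μ.sum = 2 * d + 1 →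
        ∃ ν : Multiset ℕ, ν ≤ μ ∧ ν.sum = m ∧ ∀ e : ℕ, Even e → Even (ν.count e))) := by
  subst hq
  have h2 := H28.two_ne_zero_of_odd_card hqodd
  have hQ := H99.nq_odd h2 d
  rw [← H67.coe_QOdd] at hpΩ ⊢
  have hn : Fintype.card (Unit ⊕ (Fin d ⊕ Fin d)) = 2 * d + 1 := by simp; omega
  simp only [← H99.nd_iff_nondegOn hQ.sq] at hpΩ ⊢
  have hm2 := Nat.even_iff.1 hme
  have h3 := (Fact.out : p.Prime).odd_of_ne_two (mt H99.two_eq_zero_iff.2 h2)
  intro h
  replace h := (H99.om_forall_ord hQ p fun T => ∃ W : Submodule F (Unit ⊕ (Fin d ⊕ Fin d) → F),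
    (Module.finrank F W = m ∧ H99.Nd (QuadraticMap.polar (H67.QOdd F d)) W ∧
      H99.Pl (H67.QOdd F d) W) ∧ W.map T ≤ W).1 h
  simp only [← H99.tInv_iff_map] at h
  rw [H99.om_forall_odd' hQ (by omega) h3] at h
  refine ⟨?_, fun μ h0 h1 hs => hQ.jt_cond h2 hme (by omega) (fun T t1 t2 t3 => (h T t1 t2 t3).imp fun W w =>
    ⟨w.1.1, w.1.2.1, w.2⟩) μ h0 h1 (hs.trans hn.symm)⟩
  obtain ⟨T, t1, t2, t3, t4⟩ := hQ.exists_der_jt h2 p {2 * (d % 2) + 1} (k := d / 2) (by omega)
    (by simp; omega) (by simp) (by simp; omega)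
  obtain ⟨W, ⟨w1, w2, w3⟩, w4⟩ := h T t1 t2 t3
  obtain ⟨β, b1, a, b2, b3⟩ := t4 W w2 w4
  rcases Multiset.le_singleton.1 b1 with rfl | rfl <;> simp at b2 <;> omega

end Cfsg.Agent.S5995
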