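import Cfsg.Statements.S5998
import Cfsg.Agent.H64.C6B

set_option autoImplicit false
open scoped MatrixGroups
open Cfsg

namespace Cfsg.Agent.S5998

open Cfsg.Agent.H64.C6 Cfsg.Agent.H85.L3

/-- Elements of prime order of PSL_3(p), p ≡ 1 (mod 3), and the normalizer of an extraspecial subgroup of order 27. Here `T = PSL_3(F)` for the field `F` with `p` elements, `p` a prime with `p ≡ 1 (mod 3)`; `R` is a non-abelian subgroup of GL_3(F) of order 27 and exponent 3 (an extraspecial group 3^{1+2}, acting absolutely irreducibly), and `H` is the subgroup of matrices of determinant 1 normalizing `R` — a subgroup of type 3^{1+2}.Sp₂(3) (maximality is not assumed). Ω is the set of cosets of `H` in `T`, so an element of `T` of prime order `r` (a matrix `x` of determinant 1 with `x^r` scalar, `x` not scalar) fixes a point of Ω exactly when some conjugate of `x` by a matrix of determinant 1 normalizes `R`. Let `r` be a prime dividing the index of `H`. Then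 every element of `T` of order `r` fixes a point of Ω if and only if `r = 2`, or `r = 3` and `p ≡ 1 (mod 9)`. -/
theorem result {F : Type*} [Field F] [Fintype F] {p : ℕ} [Fact p.Prime] [CharP F p] (hF : Fintype.card F = p) (hp3 : p % 3 = 1)
    (R : Subgroup (GL (Fin 3) F)) (hR : Nat.card R = 27) (hRe : Monoid.exponent R = 3) (hRna : ¬ IsMulCommutative R)
    (r : ℕ) [Fact r.Prime]
    (hΩ : r ∣ (Cfsg.Geo.subgroupNormalizer R).relIndex (Cfsg.Geo.specialLinear (Fin 3) F)) :
    (∀ x ∈ Cfsg.Geo.specialLinear (Fin 3) F, (∃ z : F, ((x ^ r : GL (Fin 3) F) : Matrix (Fin 3) (Fin 3) F) = z • (1 : Matrix (Fin 3) (Fin 3) F)) →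
      (∀ z : F, (x : Matrix (Fin 3) (Fin 3) F) ≠ z • (1 : Matrix (Fin 3) (Fin 3) F)) →
      ∃ g ∈ Cfsg.Geo.specialLinear (Fin 3) F, g⁻¹ * x * g ∈ Cfsg.Geo.subgroupNormalizer R) ↔ (r = 2 ∨ (r = 3 ∧ p % 9 = 1)) := by
  have hp : p.Prime := Fact.out
  have hr : r.Prime := Fact.out
  have cast : ∀ k : ℕ, k.Prime → p ≠ k → (k : F) ≠ 0 := fun k hk h e =>
    h ((Nat.prime_dvd_prime_iff_eq hp hk).1 ((CharP.cast_eq_zero_iff F p k).1 e))
  have h2 : (2 : F) ≠ 0 := by exact_mod_cast cast 2 Nat.prime_two (by omega)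
  have h3 : (3 : F) ≠ 0 := by exact_mod_cast cast 3 Nat.prime_three (by omega)
  obtain ⟨ω, h⟩ := exists_omF h3 (by omega)
  obtain ⟨P, hP⟩ := frame27 h h2 hR hRe hRna
  have pos : r = 2 ∨ r = 3 → ∀ x ∈ Cfsg.Geo.specialLinear (Fin 3) F,
      (∃ z : F, ((x ^ r : GL (Fin 3) F) : Matrix (Fin 3) (Fin 3) F) = z • (1 : Matrix (Fin 3) (Fin 3) F)) →
      (∀ z : F, (x : Matrix (Fin 3) (Fin 3) F) ≠ z • (1 : Matrix (Fin 3) (Fin 3) F)) →
      ∃ g ∈ Cfsg.Geo.specialLinear (Fin 3) F, g⁻¹ * x * g ∈ Cfsg.Geo.subgroupNormalizer R := by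
    rintro (rfl | rfl) x hx ⟨z, hz⟩ nx
    · obtain ⟨a, b⟩ := good_two h hP h2 (H99.mem_sl.1 hx) hz nx
      exact sl_fin a b
    · obtain ⟨a, b⟩ := good_three h hP (H99.mem_sl.1 hx) hz nx
      exact sl_fin a b
  refine ⟨fun H => ?_, fun H => pos (H.imp id And.left)⟩
  by_cases r2 : r = 2
  · exact Or.inl r2
  by_cases r3 : r = 3
  · refine Or.inr ⟨r3, nine_sl hF hp3 ?_⟩
    have := H67.relIndex_mul_dvd R.subtype R.subtype_injective
      (fun g => (Subgroup.le_normalizer g.2 : _ ∈ Cfsg.Geo.subgroupNormalizer R))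
      fun g => le_sl3 h hP g.2
    rw [hR] at this
    exact (Nat.mul_dvd_mul_right (r3 ▸ hΩ) 27).trans this
  obtain ⟨x, hx, x1, x2⟩ := H67.exists_ord_of_relIndex hΩ
  obtain ⟨g, -, hg⟩ := H x hx ⟨1, by rw [x1, one_smul]; rfl⟩
    (not_scalar3 (by simpa using (Nat.coprime_primes Nat.prime_three hr).2 (Ne.symm r3)) hx x1 x2)
  exact absurd (not_big h hP hr r2 r3 hx x1 hg) x2

end Cfsg.Agent.S5998
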