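import Cfsg.Statements.S6000
import Cfsg.Agent.H64.C6E

set_option autoImplicit false
open scoped MatrixGroups
open Cfsg

namespace Cfsg.Agent.S6000

open Cfsg.Agent.H64.C6 Cfsg.Agent.H85.L3 Cfsg.Agent.H67

/-- Elements of prime order of PSL_4(p), p ≡ 1 (mod 4), and the normalizer of a 2-group of symplectic type of order 2⁶. Here `T = PSL_4(F)` for the field `F` with `p` elements, `p` a prime with `p ≡ 1 (mod 4)`; `R` is an absolutely irreducible subgroup of GL_4(F) of order 2⁶ that is a 2-group of symplectic type of exponent 4 with centre of order 4 (the central product of the scalars of order 4 with an extraspecial group 2^{1+4}), and `H` is the subgroup of matrices of determinant 1 normalizing `R` — a subgroup of type 2⁴.Sp₄(2) (maximality is not assumed). Ω is the set of cosets of `H` in `T`, so an element of `T` of prime order `r` (a matrix `x` of determinant 1 with `x^r` scalar, `x` not scalar) fixes a point of Ω exactly when some conjugate of `x` by a matrix of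 determinant 1 normalizes `R`. Let `r` be a prime dividing the index of `H`. Then every element of `T` of order `r` fixes a point of Ω if and only if `r = 2`, or `r = 3` and `p ≡ 2 (mod 3)`, or `r = 5` and `p ≡ ±2 (mod 5)` (`p` has multiplicative order 4 modulo 5). -/
theorem result {F : Type*} [Field F] [Fintype F] {p : ℕ} [Fact p.Prime] [CharP F p] (hF : Fintype.card F = p) (hp4 : p % 4 = 1)
    (R : Subgroup (GL (Fin 4) F)) (hR : Cfsg.Geo.IsLinearSymplecticTypeData 2 R) (hR6 : Nat.card R = 2 ^ 6)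
    (r : ℕ) [Fact r.Prime]
    (hΩ : r ∣ (Cfsg.Geo.subgroupNormalizer R).relIndex (Cfsg.Geo.specialLinear (Fin 4) F)) :
    (∀ x ∈ Cfsg.Geo.specialLinear (Fin 4) F, (∃ z : F, ((x ^ r : GL (Fin 4) F) : Matrix (Fin 4) (Fin 4) F) = z • (1 : Matrix (Fin 4) (Fin 4) F)) →
      (∀ z : F, (x : Matrix (Fin 4) (Fin 4) F) ≠ z • (1 : Matrix (Fin 4) (Fin 4) F)) →
      ∃ g ∈ Cfsg.Geo.specialLinear (Fin 4) F, g⁻¹ * x * g ∈ Cfsg.Geo.subgroupNormalizer R) ↔ (r = 2 ∨ (r = 3 ∧ p % 3 = 2) ∨ (r = 5 ∧ orderOf (p : ZMod 5) = 4)) := by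
  have hp : p.Prime := Fact.out
  have hr : r.Prime := Fact.out
  have hz : Nat.card (Subgroup.center R) = 4 := by
    obtain ⟨_, _, -, -, h | h | h⟩ := hR.field
    · exact absurd h.1 (by decide)
    · exact h.2.2.1
    · simpa using h.2.2.1
  obtain ⟨i, h⟩ := exists_E4 (by simp) hR.symplecticType hR.absIrred hR6 hz
  have h3 : (3 : F) ≠ 0 := by exact_mod_cast cast_ne (p := p) Nat.prime_three (by omega)
  have hK : ∀ u : Fˣ, u ^ 4 = 1 → H98.scal (Fin 4) u ∈ Cfsg.Geo.specialLinear (Fin 4) F :=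
    fun u hu => H99.mem_sl.2 (by
      rw [H98.coe_scal, Matrix.det_smul, Matrix.det_one, mul_one, Fintype.card_fin,
        ← Units.val_pow_eq_pow_val, hu, Units.val_one])
  rw [ord5]
  refine ⟨fun H => ?_, ?_⟩
  · by_cases r2 : r = 2
    · exact Or.inl r2
    by_cases r3 : r = 3
    · subst r3
      refine Or.inr (Or.inl ⟨rfl, by_contra fun hn => ?_⟩)
      have : p % 3 ≠ 0 := fun e => by
        have := (Nat.prime_dvd_prime_iff_eq Nat.prime_three hp).1 (Nat.dvd_of_mod_eq_zero e)
        omega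
      obtain ⟨ω, hω⟩ := exists_omF h3 (by omega)
      obtain ⟨x, -, x1, x2, x3, x4⟩ := diag_om hω
      obtain ⟨g, -, hg⟩ := H x x1 ⟨1, by rw [x2, one_smul]; rfl⟩ x3
      exact h.no_rank x2 x3 x4 g hg
    by_cases r5 : r = 5
    · subst r5
      refine Or.inr (Or.inr ⟨rfl, by_contra fun hn => ?_⟩)
      obtain ⟨τ, hτ⟩ := exists_tau hF hn
      obtain ⟨x, x1, x2, x3⟩ := quad_sl τ
      obtain ⟨g, -, hg⟩ := H x x1 ⟨1, by rw [one_smul]; exact five_of_quad hτ x3⟩ x2
      exact h.no_quad hτ x2 x3 g hg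
    have h7 : 7 ≤ r := by
      by_contra hn
      have := hr.two_le
      interval_cases r <;> first | omega | norm_num at hr
    obtain ⟨x, hx, x1, x2⟩ := exists_ord_of_relIndex hΩ
    have nx := not_scalar3 (by
      simpa using ((Nat.coprime_primes Nat.prime_two hr).2 (Ne.symm r2)).pow_left 2) hx x1 x2
    obtain ⟨g, -, hg⟩ := H x hx ⟨1, by rw [x1, one_smul]; rfl⟩ nx
    exact (h.not_big hg h7 (pow_conj x1 g) (ns_conj nx g)).elim
  rintro (rfl | ⟨rfl, hq⟩ | ⟨rfl, hq⟩) x hx ⟨z, e⟩ nx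
  · obtain ⟨a, b⟩ := h.good_two (H99.mem_sl.1 hx) e nx
    exact sl_fin a b
  · refine red_odd (by decide) hK (fun y _ y3 ny => ?_) hx e (z4_of_sl (by simp) hx e) nx
    have y3' := congrArg Units.val y3
    refine sl_fin (H66.isSS_of_pow_eq_one (m := 3) (by exact_mod_cast h3) y3')
      (h.good_three h3 y3' (tr_sq_of_map y3' (ev_map_frob _) fun t ht => ?_) ny)
    rw [hF, pow_eq_pow_mod _ ht, hq]
    exact eq_inv_of_mul_eq_one_left (by rw [← pow_succ, ht])
  · refine red_odd (by decide) hK (fun y _ y5 ny => ?_) hx e (z4_of_sl (by simp) hx e) nx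
    have h5 : (5 : F) ≠ 0 := by exact_mod_cast cast_ne (p := p) Nat.prime_five (by omega)
    obtain ⟨g, hg, g5, g1⟩ := h.exists_five
    exact sl_fin (H66.isSS_of_pow_eq_one (m := 5) (by exact_mod_cast h5) (congrArg Units.val y5))
      (h.good_five h5 hg (hF ▸ hq) y5 g5 ny (ns_of_five (by omega) g5 g1)
        (fun _ => mem_ev_frob) fun _ => mem_ev_frob)

end Cfsg.Agent.S6000
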