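import Cfsg.Statements.S6001
import Cfsg.Agent.H64.C6E

set_option autoImplicit false
open scoped MatrixGroups
open Cfsg

namespace Cfsg.Agent.S6001

open Cfsg.Agent.H64.C6 Cfsg.Agent.H85.L3 Cfsg.Agent.H67

/-- Elements of prime order of PSU_4(p), p ≡ 3 (mod 4), and the normalizer of a 2-group of symplectic type of order 2⁶. Here `T = PSU_4(p)` for a prime `p ≡ 3 (mod 4)`, realised through `SU_4(p)`, the matrices of determinant 1 over the field `F` with `p²` elements preserving the hermitian form `f = Σ uᵢvᵢ^p`; `R` is an absolutely irreducible subgroup of the full unitary group of `f` of order 2⁶ that is a 2-group of symplectic type of exponent 4 with centre of order 4, and `H` is the subgroup of `SU_4(p)` normalizing `R` — a subgroup of type 2⁴.Sp₄(2) (maximality is not assumed). Ω is the set of cosets of `H`, so an element of `T` of prime order `r` (`x ∈ SU_4(p)` with `x^r` scalar, `x` not scalar) fixes a point of Ω exactly when some `SU_4(p)`-conjugate of `x`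 normalizes `R`. Let `r` be a prime dividing the index of `H`. Then every element of `T` of order `r` fixes a point of Ω if and only if `r = 2`, or `r = 3` and `p ≡ 1 (mod 3)`, or `r = 5` and `p ≡ ±2 (mod 5)` (`p` has multiplicative order 4 modulo 5). -/
theorem result {F : Type*} [Field F] [Fintype F] {p : ℕ} [Fact p.Prime] [CharP F p] (hF : Fintype.card F = p ^ 2) (hp4 : p % 4 = 3)
    (R : Subgroup (GL (Fin 4) F)) (hRs : Cfsg.Geo.IsSymplecticTypeGroup 2 R) (hRi : Cfsg.Geo.ActsAbsolutelyIrreducibly (Cfsg.Geo.matrixSet R))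
    (hRU : R ≤ Cfsg.GU 4 F p) (hR6 : Nat.card R = 2 ^ 6) (hRZ : Nat.card (Subgroup.center R) = 4)
    (r : ℕ) [Fact r.Prime]
    (hΩ : r ∣ (Cfsg.Geo.subgroupNormalizer R).relIndex (Cfsg.GU 4 F p ⊓ Cfsg.Geo.specialLinear (Fin 4) F)) :
    (∀ x ∈ Cfsg.GU 4 F p ⊓ Cfsg.Geo.specialLinear (Fin 4) F, (∃ z : F, ((x ^ r : GL (Fin 4) F) : Matrix (Fin 4) (Fin 4) F) = z • (1 : Matrix (Fin 4) (Fin 4) F)) →
      (∀ z : F, (x : Matrix (Fin 4) (Fin 4) F) ≠ z • (1 : Matrix (Fin 4) (Fin 4) F)) →
      ∃ g ∈ Cfsg.GU 4 F p ⊓ Cfsg.Geo.specialLinear (Fin 4) F, g⁻¹ * x * g ∈ Cfsg.Geo.subgroupNormalizer R) ↔ (r = 2 ∨ (r = 3 ∧ p % 3 = 1) ∨ (r = 5 ∧ orderOf (p : ZMod 5) = 4)) := by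
  have hp : p.Prime := Fact.out
  have hr : r.Prime := Fact.out
  haveI : Fact (Fintype.card F = p ^ 2) := ⟨hF⟩
  obtain ⟨i, h⟩ := exists_E4 (by simp) hRs hRi hR6 hRZ
  have hK : ∀ u : Fˣ, u ^ 4 = 1 →
      H98.scal (Fin 4) u ∈ Cfsg.GU 4 F p ⊓ Cfsg.Geo.specialLinear (Fin 4) F := fun u hu =>
    ⟨scal_mem_GU (by
      obtain ⟨k, hk⟩ : 4 ∣ p + 1 := by omega
      rw [hk, pow_mul, hu, one_pow]), H99.mem_sl.2 (by
      rw [H98.coe_scal, Matrix.det_smul, Matrix.det_one, mul_one, Fintype.card_fin,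
        ← Units.val_pow_eq_pow_val, hu, Units.val_one])⟩
  have sq : ∀ k : ℕ, k ∣ Fintype.card F - 1 ↔ 1 % k = (p % k) ^ 2 % k := fun k => by
    rw [hF, ← Nat.modEq_iff_dvd' (Nat.one_le_pow _ _ hp.pos), Nat.ModEq, Nat.pow_mod]
  rw [ord5]
  refine ⟨fun H => ?_, ?_⟩
  · by_cases r2 : r = 2
    · exact Or.inl r2
    by_cases r3 : r = 3
    · subst r3
      refine Or.inr (Or.inl ⟨rfl, by_contra fun hn => ?_⟩)
      by_cases p3 : p = 3
      · subst p3
        obtain ⟨v, hv, hv0⟩ := H10.exists_isotropic_ne (F := F) (q := 3) (n := 4) (by norm_num)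
          (x := Pi.single 0 1) (by simp)
        obtain ⟨c, c0, hc⟩ := H10.exists_skew F 3
        obtain ⟨t, ht⟩ := H10.utG_eq_tv hv hc
        have e : ((H10.utG hv hc : GL (Fin 4) F) : Matrix (Fin 4) (Fin 4) F) = (1 : F) • 1 +
            Matrix.vecMulVec (c • v) fun j => H10.cj F 3 (v j) := by rw [ht, one_smul]; rfl
        have n2 := H99.vmv_mul_vmv (c • v) (fun j => H10.cj F 3 (v j)) (c • v)
          fun j => H10.cj F 3 (v j)
        rw [t, zero_smul] at n2
        have x3 : H10.utG hv hc ^ 3 = 1 := Units.ext (by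
          have c3 : (3 : F) = 0 := by exact_mod_cast CharP.cast_eq_zero F 3
          rw [Units.val_pow_eq_pow_val, e, one_smul, pow_three]
          simp only [mul_add, add_mul, mul_one, one_mul, n2, add_zero, Units.val_one]
          linear_combination (norm := module) c3 • Matrix.vecMulVec (c • v) fun j => H10.cj F 3 (v j))
        have nx := not_scalar3 (by simp; decide) (H10.utG_mem hv hc).2 x3 fun e' => by
          have := H10.utG_mulVec hv hc (Pi.single 0 1)
          rw [e', Units.val_one, Matrix.one_mulVec, left_eq_add, smul_eq_zero, mul_eq_zero] at this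
          rcases this with (k | k) | k
          · exact c0 k
          · exact hv0 k
          · exact hv0 (by simp [k, hermForm])
        obtain ⟨g, -, hg⟩ := H _ (H10.utG_mem hv hc) ⟨1, by rw [x3, one_smul]; rfl⟩ nx
        exact h.no_rank x3 nx e g hg
      have h3 : (3 : F) ≠ 0 := by exact_mod_cast cast_ne (p := p) Nat.prime_three p3
      have : p % 3 ≠ 0 := fun e =>
        p3 ((Nat.prime_dvd_prime_iff_eq Nat.prime_three hp).1 (Nat.dvd_of_mod_eq_zero e)).symm
      have p2 : p % 3 = 2 := by omega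
      obtain ⟨ω, hω⟩ := exists_omF h3 ((sq 3).2 (by rw [p2]; decide))
      obtain ⟨x, x0, x1, x2, x3, x4⟩ := diag_om hω
      obtain ⟨g, -, hg⟩ := H x ⟨(H10.mem_GU_iff _).2 ((isIsom_iff_cjT _).2 (by
        have : H10.cj F p ω * ω = 1 := by
          rw [H10.cj_apply, pow_eq_pow_mod _ hω.cube, p2, ← pow_succ, hω.cube]
        rw [x0, cjT_apply, Matrix.diagonal_map (map_zero _), Matrix.diagonal_transpose,
          Matrix.diagonal_mul_diagonal, ← Matrix.diagonal_one]
        congr 1
        ext j; fin_cases j <;> simp [this])), x1⟩ ⟨1, by rw [x2, one_smul]; rfl⟩ x3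
      exact h.no_rank x2 x3 x4 g hg
    by_cases r5 : r = 5
    · subst r5
      refine Or.inr (Or.inr ⟨rfl, by_contra fun hn => ?_⟩)
      have : p % 5 ≠ 0 := fun e => by
        have := (Nat.prime_dvd_prime_iff_eq Nat.prime_five hp).1 (Nat.dvd_of_mod_eq_zero e)
        omega
      obtain ⟨τ, hτ, x, x1, x2, x3⟩ := quad_su (L := F) (q := p)
        (by exact_mod_cast cast_ne (p := p) Nat.prime_five (by omega)) (by omega)
      obtain ⟨g, -, hg⟩ := H x x1 ⟨1, by rw [one_smul]; exact five_of_quad hτ x3⟩ x2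
      exact h.no_quad hτ x2 x3 g hg
    have h7 : 7 ≤ r := by
      by_contra hn
      have := hr.two_le
      interval_cases r <;> first | omega | norm_num at hr
    obtain ⟨x, hx, x1, x2⟩ := exists_ord_of_relIndex hΩ
    have nx := not_scalar3 (by
      simpa using ((Nat.coprime_primes Nat.prime_two hr).2 (Ne.symm r2)).pow_left 2) hx.2 x1 x2
    obtain ⟨g, -, hg⟩ := H x hx ⟨1, by rw [x1, one_smul]; rfl⟩ nx
    exact (h.not_big hg h7 (pow_conj x1 g) (ns_conj nx g)).elim
  rintro (rfl | ⟨rfl, hq⟩ | ⟨rfl, hq⟩) x hx ⟨z, e⟩ nx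
  · obtain ⟨a, b⟩ := h.good_two (H99.mem_sl.1 hx.2) e nx
    exact su_fin hRU h.span hx a b
  · refine red_odd (by decide) hK (fun y hy y3 ny => ?_) hx e (z4_of_sl (by simp) hx.2 e) nx
    have h3 : (3 : F) ≠ 0 := by exact_mod_cast cast_ne (p := p) Nat.prime_three (by omega)
    have y3' := congrArg Units.val y3
    refine su_fin hRU h.span hy (H66.isSS_of_pow_eq_one (m := 3) (by exact_mod_cast h3) y3')
      (h.good_three h3 y3' (tr_sq_of_map y3' (twist_ev hy.1) fun t ht => ?_) ny)
    rw [zpow_neg, zpow_natCast, pow_eq_pow_mod _ ht, hq, pow_one]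
  · refine red_odd (by decide) hK (fun y hy y5 ny => ?_) hx e (z4_of_sl (by simp) hx.2 e) nx
    have h5 : (5 : F) ≠ 0 := by exact_mod_cast cast_ne (p := p) Nat.prime_five (by omega)
    have n5 : ¬ 5 ∣ Fintype.card F - 1 := by
      rw [sq]; rcases hq with k | k <;> rw [k] <;> decide
    obtain ⟨g, hg, g5, g1⟩ := h.exists_five
    have gU := unitary_of_coprime hRU h.span hg g5
      ((Nat.Prime.coprime_iff_not_dvd Nat.prime_five).2 n5)
    exact su_fin hRU h.span hy
      (H66.isSS_of_pow_eq_one (m := 5) (by exact_mod_cast h5) (congrArg Units.val y5))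
      (h.good_five h5 hg (k := 4 * p) (by omega) y5 g5 ny (ns_of_five n5 g5 g1)
        (mem_ev_twist hy.1 y5) (mem_ev_twist gU g5))

end Cfsg.Agent.S6001
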