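import Cfsg.Statements.S6002
import Cfsg.Agent.H64.C6F

set_option autoImplicit false
open scoped MatrixGroups
open Cfsg

namespace Cfsg.Agent.S6002

open Cfsg.Agent.H64.C6 Cfsg.Agent.H67

/-- Elements of prime order of PSp_4(p), p odd, and the normalizer of an extraspecial 2-group of order 2⁵ of minus type. Here `T = PSp_4(F)` for the field `F` with `p` elements, `p` an odd prime, realised through the matrices preserving the standard alternating form `f`; `R` is an absolutely irreducible subgroup of `T` (it preserves `f`) that is a 2-group of symplectic type of exponent 4, order 2⁵ and centre of order 2, of minus type (no elementary abelian subgroup of order 2³), and `H` is the subgroup of `T` normalizing `R` — a subgroup of type 2^{1+4}.O₄⁻(2) (maximality is not assumed). Ω is the set of cosets of `H` in `T`, so an element of `T` of prime order `r` (`x ∈ T` with `x^r` scalar, `x` not scalar) fixes a point of Ω exactly when some `T`-conjugate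 of `x` normalizes `R`. Let `r` be a prime dividing the index of `H`. Then every element of `T` of order `r` fixes a point of Ω if and only if `r = 2`, or `r = 5` and `p` has multiplicative order 4 modulo 5. -/
theorem result {F : Type*} [Field F] [Fintype F] {p : ℕ} [Fact p.Prime] [CharP F p] (hF : Fintype.card F = p) (hodd : Odd p)
    (R : Subgroup (GL (Fin 2 ⊕ Fin 2) F)) (hRs : Cfsg.Geo.IsSymplecticTypeGroup 2 R) (hRi : Cfsg.Geo.ActsAbsolutelyIrreducibly (Cfsg.Geo.matrixSet R))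
    (hRf : R ≤ Cfsg.spGL 2 F) (hR5 : Nat.card R = 2 ^ 5) (hRZ : Nat.card (Subgroup.center R) = 2) (hRm : Cfsg.Geo.IsOfMinusType 2 R)
    (r : ℕ) [Fact r.Prime]
    (hΩ : r ∣ (Cfsg.Geo.subgroupNormalizer R).relIndex (Cfsg.spGL 2 F)) :
    (∀ x ∈ Cfsg.spGL 2 F, (∃ z : F, ((x ^ r : GL (Fin 2 ⊕ Fin 2) F) : Matrix (Fin 2 ⊕ Fin 2) (Fin 2 ⊕ Fin 2) F) = z • (1 : Matrix (Fin 2 ⊕ Fin 2) (Fin 2 ⊕ Fin 2) F)) →
      (∀ z : F, (x : Matrix (Fin 2 ⊕ Fin 2) (Fin 2 ⊕ Fin 2) F) ≠ z • (1 : Matrix (Fin 2 ⊕ Fin 2) (Fin 2 ⊕ Fin 2) F)) →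
      ∃ g ∈ Cfsg.spGL 2 F, g⁻¹ * x * g ∈ Cfsg.Geo.subgroupNormalizer R) ↔ (r = 2 ∨ (r = 5 ∧ orderOf (p : ZMod 5) = 4)) := by
  have hp : p.Prime := Fact.out
  have hr : r.Prime := Fact.out
  have h2 : (2 : F) ≠ 0 := by
    exact_mod_cast cast_ne (p := p) Nat.prime_two (by rintro rfl; exact absurd hodd (by decide))
  obtain ⟨γ, h, hN⟩ := DIM4.extra_frame h2 hRs hRi hRf hR5 hRZ
  have k : ∀ {x g}, x ∈ Cfsg.spGL 2 F → g ∈ Cfsg.spGL 2 F →
      g⁻¹ * x * g ∈ Cfsg.Geo.subgroupNormalizer R → Pm γ (g⁻¹ * x * g) := fun hx hg h =>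
    ((hN _).1 ⟨h, Subgroup.mul_mem _ (Subgroup.mul_mem _ (Subgroup.inv_mem _ hg) hx) hg⟩).2
  rw [ord5]
  refine ⟨fun H => ?_, ?_⟩
  · by_cases r2 : r = 2
    · exact Or.inl r2
    by_cases r3 : r = 3
    · subst r3
      obtain ⟨g, hg, e⟩ := H _ (DIM4.spOf_mem _ x3_sp) ⟨1, by rw [one_smul]; exact x3_cube⟩ x3_ns
      exact ((k (DIM4.spOf_mem _ x3_sp) hg e).not_three h2 h rfl).elim
    by_cases r5 : r = 5
    · subst r5
      refine Or.inr ⟨rfl, by_contra fun hn => ?_⟩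
      obtain ⟨τ, hτ⟩ := exists_tau hF hn
      obtain ⟨x, x1, x2, x3⟩ := quad_sp τ
      obtain ⟨g, hg, e⟩ := H x x1 ⟨1, by rw [one_smul]; exact five_of_quad hτ x3⟩ x2
      refine (k x1 hg e).not_quad h2 h (pow_conj (Units.ext (five_of_quad hτ x3)) g) (ns_conj x2 g)
        (τ := τ) ?_
      rw [← Units.val_mul, show g⁻¹ * x * g * (g⁻¹ * x * g) = g⁻¹ * (x * x) * g by group]
      simp only [Units.val_mul, x3, mul_sub, sub_mul, mul_smul_comm, smul_mul_assoc, mul_one,
        Units.inv_mul]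
    have h7 : 7 ≤ r := by
      by_contra hn
      have := hr.two_le
      interval_cases r <;> first | omega | norm_num at hr
    obtain ⟨x, hx, x1, x2⟩ := exists_ord_of_relIndex hΩ
    have nx : ∀ z : F, (x : DIM4.M4 F) ≠ z • 1 := fun z e => by
      rcases pm_of_sp hx e with rfl | rfl
      · exact x2 (Units.ext (by simpa using e))
      · have := congrArg Units.val x1
        rw [Units.val_pow_eq_pow_val, e, smul_pow, (hr.odd_of_ne_two r2).neg_one_pow] at this
        have := congrFun (congrFun this (Sum.inl 0)) (Sum.inl 0)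
        simp at this
        exact h2 (by linear_combination -this)
    obtain ⟨g, hg, e⟩ := H x hx ⟨1, by rw [x1, one_smul]; rfl⟩ nx
    exact ((k hx hg e).not_big h2 h hr h7 (pow_conj x1 g) (ns_conj nx g)).elim
  rintro (rfl | ⟨rfl, hq⟩) x hx ⟨z, e⟩ nx
  · obtain ⟨g, hg, a⟩ := sp_two h2 h hx e nx
    exact ⟨g, hg, ((hN _).2 a).1⟩
  have h5 : (5 : F) ≠ 0 := by exact_mod_cast cast_ne (p := p) Nat.prime_five (by omega)
  obtain ⟨g, hg, pg, m, g5, g1⟩ := sp_five h2 h
  have gN := pow_mem ((hN _).2 ⟨hg, pg⟩) m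
  have key : ∀ y ∈ Cfsg.spGL 2 F, y ^ 5 = 1 → (∀ z : F, (y : DIM4.M4 F) ≠ z • 1) →
      ∃ g ∈ Cfsg.spGL 2 F, g⁻¹ * y * g ∈ Cfsg.Geo.subgroupNormalizer R := fun y hy y5 ny => by
    obtain ⟨u, hu, e⟩ := sp_fin hy gN.2 (N := 5) (by exact_mod_cast h5) y5 g5 (charpoly_eq_of_ev
      ((ev_five h2 h5 (by simp) (congrArg Units.val y5) ny (hF ▸ hq) fun _ => mem_ev_frob).trans
        (ev_five h2 h5 (by simp) (congrArg Units.val g5) (ns_of_five (by omega) g5 g1) (hF ▸ hq)
          fun _ => mem_ev_frob).symm))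
    exact ⟨u, hu, e ▸ gN.1⟩
  rcases pm_of_sp (pow_mem hx 5) e with rfl | rfl
  · exact key x hx (Units.ext (by simpa using e)) nx
  · obtain ⟨u, hu, e'⟩ := key (-1 * x) (mul_mem DIM4.neg_one_mem_spGL hx) (Units.ext (by
      rw [neg_one_mul, Odd.neg_pow (by decide), Units.val_neg, e]; simp)) fun z e =>
        nx (-z) (by rw [neg_smul, ← e]; simp)
    refine ⟨u, hu, ?_⟩
    have n1 : (-1 : DIM4.G4 F) ∈ Cfsg.Geo.subgroupNormalizer R :=
      Subgroup.mem_normalizer_iff.2 fun h => by simp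
    simpa using mul_mem n1 e'

end Cfsg.Agent.S6002
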